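import Cfsg.Agent.Lib.BlockGlaubermanSub
import Cfsg.Agent.Lib.BlockCoprimeExt
import Cfsg.Agent.Lib.CharGalois
import Cfsg.Agent.Lib.CharDet
import Cfsg.Agent.Lib.BlockSubFacts

/-!
# The canonical extension on the coset of a coprime cyclic group of operators
-/

set_option autoImplicit false
set_option linter.style.haveILetI false
set_option linter.unusedSectionVars false
set_option linter.unusedFintypeInType false

namespace CfsgLib.Glauberman

open Cfsg CfsgLib.Char CfsgLib.Block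
open scoped ComplexConjugate Classical

universe u

/-- The weighted averages over a central factor are rational integers when constant on
generators. -/
theorem exists_int_const_on_gens {D : Type u} [Group D] [Fintype D] {S : Type u} [Group S]
    [Fintype S] (i : S →* D) (hi : ∀ y, i y ∈ Subgroup.center D) (n : IrrCharacter D → ℕ)
    (y₀ : S) (hgen : Subgroup.zpowers y₀ = ⊤)
    (hconst : ∀ y : S, Subgroup.zpowers y = ⊤ →
      ∑ ξ, (n ξ : ℂ) * centVal ξ (i y) = ∑ ξ, (n ξ : ℂ) * centVal ξ (i y₀)) :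
    ∃ a : ℤ, ∑ ξ, (n ξ : ℂ) * centVal ξ (i y₀) = a := by
  have hint : IsIntegral ℤ (∑ ξ, (n ξ : ℂ) * centVal ξ (i y₀)) := by
    refine IsIntegral.sum _ fun ξ _ => IsIntegral.mul
      (isIntegral_algebraMap (R := ℤ) (A := ℂ) (x := (n ξ : ℤ))) ?_
    exact IsIntegral.of_pow (orderOf_pos (i y₀)) (by
      rw [(centVal_spec ξ (hi y₀)).1]; exact isIntegral_one)
  set T := Finset.univ.filter (fun y : S => Subgroup.zpowers y = ⊤) with hT
  have hq : ∀ ξ : IrrCharacter D, ∃ q : ℚ, ∑ y ∈ T, centVal ξ (i y) = q := by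
    intro ξ
    obtain ⟨m, ρ, hρ⟩ := ξ.2.isCharacter'
    obtain ⟨z, hz⟩ := exists_int_sum_zpowers (φ := fun y : S => (ξ : D → ℂ) (i y))
      ⟨m, ρ.comp i, funext fun y => congrFun hρ (i y)⟩ (fun U => U = ⊤)
    refine ⟨(z : ℚ) / (charDegree (ξ : D → ℂ) : ℚ), ?_⟩
    push_cast
    rw [charDegree_cast ξ.2.isCharacter', ← hz, Finset.sum_div]
    exact Finset.sum_congr rfl fun y _ => rfl
  choose q hq using hq
  have hsum : (T.card : ℂ) * ∑ ξ, (n ξ : ℂ) * centVal ξ (i y₀) =
      ((∑ ξ, (n ξ : ℚ) * q ξ : ℚ) : ℂ) := by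
    rw [← nsmul_eq_mul, ← Finset.sum_const,
      Finset.sum_congr rfl fun y hy => (hconst y (Finset.mem_filter.1 hy).2).symm, Finset.sum_comm]
    push_cast
    exact Finset.sum_congr rfl fun ξ _ => by rw [← Finset.mul_sum, hq]
  have hT0 : T.card ≠ 0 := Finset.card_ne_zero.2 ⟨y₀, Finset.mem_filter.2 ⟨Finset.mem_univ _, hgen⟩⟩
  have hrat : ∑ ξ, (n ξ : ℂ) * centVal ξ (i y₀) =
      (((∑ ξ, (n ξ : ℚ) * q ξ) / (T.card : ℚ) : ℚ) : ℂ) := by
    rw [Rat.cast_div, ← hsum, Rat.cast_natCast, mul_div_cancel_left₀ _ (Nat.cast_ne_zero.2 hT0)]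
  obtain ⟨z, hz⟩ := int_of_isIntegral_rat _ (hrat ▸ hint)
  exact ⟨z, by rw [hrat, ← hz, Rat.cast_intCast]⟩

variable {Γ : Type u} [Group Γ] [Fintype Γ] {G S C : Subgroup Γ} [Fintype G] [Fintype C]

/-- The restriction of a character to the coset of a generator, read on the fixed subgroup. -/
def sectionFun (C : Subgroup Γ) (χh : Γ → ℂ) (s : Γ) : C → ℂ := fun c => χh ((c : Γ) * s)

/-- The coordinates of the section are integers with nonzero degree part. -/
theorem exists_int_inner_section (hcen : ∀ c ∈ C, ∀ y ∈ S, c * y = y * c) {χh : Γ → ℂ}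
    (hχ : IsCharacter Γ χh) {s : Γ} (hs : Subgroup.zpowers s = S)
    (hgal : ∀ y, Subgroup.zpowers y = S → sectionFun C χh y = sectionFun C χh s)
    (β : IrrCharacter C) :
    (∃ a : ℤ, classInner (sectionFun C χh s) (β : C → ℂ) = a) ∧
      (classInner (sectionFun C χh s) (β : C → ℂ) ≠ 0 →
        classInner (fun c : C => χh c) (β : C → ℂ) ≠ 0) := by
  haveI : Fintype S := Fintype.ofFinite _
  let mulHom : C × S →* Γ :=
    { toFun := fun x => (x.1 : Γ) * (x.2 : Γ)
      map_one' := by simp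
      map_mul' := fun a b => by
        show ((a.1 * b.1 : C) : Γ) * ((a.2 * b.2 : S) : Γ) = (a.1 : Γ) * a.2 * ((b.1 : Γ) * b.2)
        rw [Subgroup.coe_mul, Subgroup.coe_mul]
        have h := hcen b.1 b.1.2 a.2 a.2.2
        simp only [mul_assoc]
        rw [← mul_assoc (b.1 : Γ) a.2, h, mul_assoc] }
  obtain ⟨N₀, ρ, hρ⟩ := hχ
  have hΘ : IsCharacter (C × S) (fun x => χh (mulHom x)) :=
    ⟨N₀, ρ.comp mulHom, funext fun x => congrFun hρ (mulHom x)⟩
  choose nn hnn using fun ξ : IrrCharacter (C × S) => inner_character_nat hΘ ξ.2.isCharacter'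
  have hres : ∀ ξ : IrrCharacter (C × S),
      IsCharacter C (fun c : C => (ξ : C × S → ℂ) (c, 1)) := fun ξ => by
    obtain ⟨m, σ, hσ⟩ := ξ.2.isCharacter'
    exact ⟨m, σ.comp (MonoidHom.inl C S), funext fun c => congrFun hσ (c, 1)⟩
  choose mm hmm using fun ξ : IrrCharacter (C × S) => inner_character_nat (hres ξ) β.2.isCharacter'
  let i : S →* C × S := MonoidHom.inr C S
  have hi : ∀ y, i y ∈ Subgroup.center (C × S) := by
    intro y
    rw [Subgroup.mem_center_iff]
    rintro ⟨c, z⟩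
    refine Prod.ext (by simp [i]) ?_
    show z * y = y * z
    have hcy : (y : Γ) ∈ Subgroup.zpowers s := hs.symm ▸ y.2
    have hcz : (z : Γ) ∈ Subgroup.zpowers s := hs.symm ▸ z.2
    obtain ⟨a, ha⟩ := Subgroup.mem_zpowers_iff.1 hcy
    obtain ⟨b, hb⟩ := Subgroup.mem_zpowers_iff.1 hcz
    apply Subtype.ext
    rw [Subgroup.coe_mul, Subgroup.coe_mul, ← ha, ← hb, ← zpow_add, ← zpow_add, add_comm]
  have key : ∀ y : S, classInner (sectionFun C χh y) (β : C → ℂ) =
      ∑ ξ : IrrCharacter (C × S), ((nn ξ * mm ξ : ℕ) : ℂ) * centVal ξ (i y) := by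
    intro y
    have e : sectionFun C χh y = ∑ ξ : IrrCharacter (C × S),
        ((nn ξ : ℂ) * centVal ξ (i y)) • fun c : C => (ξ : C × S → ℂ) (c, 1) := by
      funext c
      have h := congrFun (classFunction_eq_sum _ (isCharacter_classFunction hΘ)) (c, y)
      simp only [Finset.sum_apply, Pi.smul_apply, smul_eq_mul, hnn] at h ⊢
      rw [show sectionFun C χh y c = χh (mulHom (c, y)) from rfl, h]
      refine Finset.sum_congr rfl fun ξ _ => ?_
      rw [mul_assoc, ← (centVal_spec ξ (hi y)).2]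
      simp [i]
    rw [e, CfsgLib.Char.inner_sum_left]
    refine Finset.sum_congr rfl fun ξ _ => ?_
    rw [CfsgLib.Char.inner_smul_left, hmm, Nat.cast_mul]
    ring
  have hsS : s ∈ S := hs ▸ Subgroup.mem_zpowers s
  have htop : ∀ y : S, Subgroup.zpowers y = ⊤ ↔ Subgroup.zpowers (y : Γ) = S := by
    intro y
    rw [← (Subgroup.map_injective S.subtype_injective).eq_iff, MonoidHom.map_zpowers,
      ← MonoidHom.range_eq_map, Subgroup.range_subtype]
    rfl
  refine ⟨?_, ?_⟩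
  · obtain ⟨a, ha⟩ := exists_int_const_on_gens i hi (fun ξ => nn ξ * mm ξ) ⟨s, hsS⟩
      ((htop _).2 hs) fun y hy => by
        rw [← key, ← key, hgal y ((htop y).1 hy)]
    exact ⟨a, (key ⟨s, hsS⟩).trans ha⟩
  · intro hne h0
    have h1 := key 1
    have hz : ∀ ξ : IrrCharacter (C × S), nn ξ * mm ξ = 0 := by
      intro ξ
      have e : sectionFun C χh ((1 : S) : Γ) = fun c : C => χh c :=
        funext fun c => by simp [sectionFun]
      rw [e, h0] at h1
      simp only [map_one, centVal, div_self (irr_one_ne_zero (G := C × S) _), mul_one] at h1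
      have h2 : (∑ ξ : IrrCharacter (C × S), nn ξ * mm ξ : ℕ) = 0 := by exact_mod_cast h1.symm
      exact (Finset.sum_eq_zero_iff.1 h2) ξ (Finset.mem_univ _)
    exact hne (by rw [key ⟨s, hsS⟩]; simp [hz])

variable [hGn : G.Normal]

/-- Every element of the coset is conjugate into the coset of the fixed subgroup. -/
theorem sum_coset (hcop : (Nat.card G).Coprime (Nat.card S)) {s : Γ} (hs : Subgroup.zpowers s = S)
    (hC : C = G ⊓ Subgroup.centralizer (S : Set Γ)) (F : Γ → ℂ)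
    (hF : ∀ g ∈ G, ∀ x, F (g * x * g⁻¹) = F x) :
    (Nat.card C : ℂ) * ∑ g : G, F ((g : Γ) * s) = (Nat.card G : ℂ) * ∑ c : C, F ((c : Γ) * s) := by
  have hCG : C ≤ G := hC ▸ inf_le_left
  have hsS : s ∈ S := hs ▸ Subgroup.mem_zpowers s
  have hcomm : ∀ c ∈ C, Commute c s := fun c hc => by
    rw [hC] at hc
    exact (Subgroup.mem_centralizer_iff.1 hc.2 s hsS).symm
  obtain ⟨e, he0, he1⟩ := Nat.chineseRemainder hcop 0 1
  have hpow : ∀ c ∈ C, ((c : Γ) * s) ^ e = s := fun c hc => by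
    have h1 : c ^ e = 1 := by
      have h : (⟨c, hCG hc⟩ : G) ^ e = 1 := orderOf_dvd_iff_pow_eq_one.1
        ((orderOf_dvd_natCard _).trans (Nat.modEq_zero_iff_dvd.1 he0))
      exact congrArg Subtype.val h
    have h2 : s ^ e = s := by
      conv_rhs => rw [← pow_one s]
      refine pow_eq_pow_iff_modEq.2 (he1.of_dvd ?_)
      rw [← hs, Nat.card_zpowers]
    rw [(hcomm c hc).mul_pow, h1, h2, one_mul]
  obtain ⟨Φ, hΦ⟩ : ∃ Φ : G × C → G, ∀ x, ((Φ x : G) : Γ) * s = (x.1 : Γ) * ((x.2 : Γ) * s) * (x.1 : Γ)⁻¹ :=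
    ⟨fun x => ⟨(x.1 : Γ) * (x.2 : Γ) * (s * (x.1 : Γ)⁻¹ * s⁻¹),
      mul_mem (mul_mem x.1.2 (hCG x.2.2)) (hGn.conj_mem _ (inv_mem x.1.2) s)⟩,
      fun x => by show (x.1 : Γ) * (x.2 : Γ) * (s * (x.1 : Γ)⁻¹ * s⁻¹) * s = _; group⟩
  have hfib : ∀ g : G, (Finset.univ.filter fun x => Φ x = g).card ≤ Nat.card C := by
    intro g
    by_cases hne : (Finset.univ.filter fun x => Φ x = g).Nonempty
    · obtain ⟨x₀, hx₀⟩ := hne
      rw [← Fintype.card_subtype, ← Nat.card_eq_fintype_card]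
      have hmem : ∀ x : {x // Φ x = g}, (x₀.1 : Γ)⁻¹ * (x.1.1 : Γ) ∈ C := by
        intro x
        have h1 := hΦ x₀
        rw [(Finset.mem_filter.1 hx₀).2, ← x.2, hΦ x.1] at h1
        have h2 := congrArg (· ^ e) h1
        simp only [conj_pow, hpow _ x.1.2.2, hpow _ x₀.2.2] at h2
        have h3 : Commute ((x₀.1 : Γ)⁻¹ * (x.1.1 : Γ)) s := by
          show _ = _
          calc (x₀.1 : Γ)⁻¹ * (x.1.1 : Γ) * s
              = (x₀.1 : Γ)⁻¹ * ((x.1.1 : Γ) * s * (x.1.1 : Γ)⁻¹) * (x.1.1 : Γ) := by group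
            _ = _ := by rw [h2]; group
        have hh : (x₀.1 : Γ)⁻¹ * (x.1.1 : Γ) ∈ G ⊓ Subgroup.centralizer (S : Set Γ) := by
          refine Subgroup.mem_inf.2 ⟨mul_mem (inv_mem x₀.1.2) x.1.1.2, Subgroup.mem_centralizer_iff.2 fun y hy => ?_⟩
          rw [SetLike.mem_coe, ← hs, Subgroup.mem_zpowers_iff] at hy
          obtain ⟨k, rfl⟩ := hy
          exact (h3.zpow_right k).eq.symm
        rwa [← hC] at hh
      refine Nat.card_le_card_of_injective (fun x => (⟨_, hmem x⟩ : C)) fun x y hxy => ?_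
      have h1 : (x.1.1 : Γ) = y.1.1 := mul_left_cancel (congrArg Subtype.val hxy)
      have h2 : (Φ x.1 : Γ) * s = (Φ y.1 : Γ) * s := by rw [x.2, y.2]
      rw [hΦ, hΦ, h1] at h2
      exact Subtype.ext (Prod.ext (Subtype.ext h1)
        (Subtype.ext (mul_right_cancel (mul_left_cancel (mul_right_cancel h2)))))
    · rw [Finset.not_nonempty_iff_eq_empty.1 hne, Finset.card_empty]
      exact Nat.zero_le _
  have hfib' : ∀ g : G, (Finset.univ.filter fun x => Φ x = g).card = Nat.card C := by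
    have hsum : ∑ g : G, (Finset.univ.filter fun x => Φ x = g).card = ∑ _g : G, Nat.card C := by
      rw [← Finset.card_eq_sum_card_fiberwise (fun x _ => Finset.mem_univ (Φ x)), Finset.card_univ,
        Fintype.card_prod, Finset.sum_const, Finset.card_univ, smul_eq_mul, Nat.card_eq_fintype_card]
    exact fun g => (Finset.sum_eq_sum_iff_of_le fun g _ => hfib g).1 hsum g (Finset.mem_univ g)
  calc (Nat.card C : ℂ) * ∑ g : G, F ((g : Γ) * s)
      = ∑ x : G × C, F ((Φ x : Γ) * s) := by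
        rw [← Finset.sum_fiberwise Finset.univ Φ, Finset.mul_sum]
        refine Finset.sum_congr rfl fun g _ => ?_
        rw [Finset.sum_congr rfl (g := fun _ => F ((g : Γ) * s))
          (fun x hx => by rw [(Finset.mem_filter.1 hx).2]), Finset.sum_const, hfib', nsmul_eq_mul]
    _ = _ := by
        rw [Fintype.sum_prod_type, Finset.sum_congr rfl (g := fun _ => ∑ c : C, F ((c : Γ) * s))
          (fun g _ => Finset.sum_congr rfl fun c _ => by rw [hΦ, hF _ g.2]),
          Finset.sum_const, Finset.card_univ, nsmul_eq_mul, Nat.card_eq_fintype_card]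

/-- Orthonormality of the sections of two extensions. -/
theorem inner_section (hcop : (Nat.card G).Coprime (Nat.card S)) {s : Γ}
    (hs : Subgroup.zpowers s = S) (hC : C = G ⊓ Subgroup.centralizer (S : Set Γ))
    {χ χ' : IrrCharacter G} {χh χh' : IrrCharacter Γ}
    (h : ∀ g : G, (χh : Γ → ℂ) g = (χ : G → ℂ) g)
    (h' : ∀ g : G, (χh' : Γ → ℂ) g = (χ' : G → ℂ) g) :
    (χ ≠ χ' → classInner (sectionFun C (χh : Γ → ℂ) s) (sectionFun C (χh' : Γ → ℂ) s) = 0) ∧
      classInner (sectionFun C (χh : Γ → ℂ) s) (sectionFun C (χh : Γ → ℂ) s) = 1 := by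
  have key : ∀ a b : IrrCharacter Γ,
      classInner (sectionFun C (a : Γ → ℂ) s) (sectionFun C (b : Γ → ℂ) s) =
        cosetAvg G (a : Γ → ℂ) (b : Γ → ℂ) s := by
    intro a b
    have hsum := sum_coset hcop hs hC (fun x => (a : Γ → ℂ) x * conj ((b : Γ → ℂ) x))
      fun g _ x => by simp only [irr_classFunction a x g, irr_classFunction b x g]
    rw [cosetAvg_eq, classInner]
    have hC0 := natCard_ne_zero C
    have hG0 := natCard_ne_zero G
    simp only [sectionFun]
    field_simp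
    linear_combination -hsum
  have hi : ∀ {ψ : IrrCharacter G} {ψh : IrrCharacter Γ},
      (∀ g : G, (ψh : Γ → ℂ) g = (ψ : G → ℂ) g) → IsIrrCharacter G (fun g : G => (ψh : Γ → ℂ) g) :=
    fun {ψ ψh} e => by rw [funext e]; exact ψ.2
  refine ⟨fun hne => ?_, ?_⟩
  · rw [key, (gallagher G χh'.2 (hi h') χh.2).2 (by
      rw [funext h, funext h']; exact irr_inner_ne χ.2 χ'.2 fun e => hne (Subtype.ext e))]
    rfl
  · rw [key, cosetAvg_self G χh.2 (hi h)]

/-- The canonical extension does not see the choice of generator. -/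
theorem section_eq_of_gen (htop : G ⊔ S = ⊤) (hcop : (Nat.card G).Coprime (Nat.card S))
    (hC : C = G ⊓ Subgroup.centralizer (S : Set Γ)) (hidx : G.index = Nat.card S)
    {χ : IrrCharacter G} (hχinv : InvNormal G (χ : G → ℂ)) {χh : IrrCharacter Γ}
    (hext : ∀ g : G, (χh : Γ → ℂ) g = (χ : G → ℂ) g)
    (hdet : (detOrder (χh : Γ → ℂ)).Coprime (Nat.card S))
    {s : Γ} (hs : Subgroup.zpowers s = S) {y : Γ} (hy : Subgroup.zpowers y = S) :
    sectionFun C (χh : Γ → ℂ) y = sectionFun C (χh : Γ → ℂ) s := by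
  set m := Nat.card S with hm
  have hsm : orderOf s = m := by rw [hm, ← hs, Nat.card_zpowers]
  have hym : orderOf y = m := by rw [hm, ← hy, Nat.card_zpowers]
  obtain ⟨j, hj⟩ : ∃ j : ℕ, s ^ j = y :=
    (Submonoid.mem_powers_iff _ _).1 (mem_powers_iff_mem_zpowers.2 (hs ▸ hy ▸ Subgroup.mem_zpowers y))
  have hjm : j.Coprime m := by
    rw [← hj] at hym
    have h1 := orderOf_pow (n := j) s
    rw [hym, hsm] at h1
    rcases Nat.div_eq_self.1 h1.symm with h | h
    · exact absurd h (hm ▸ Nat.card_pos.ne')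
    · exact Nat.Coprime.symm h
  obtain ⟨k, hk1, hk2⟩ := Nat.chineseRemainder hcop 1 j
  have hcardΓ : Nat.card Γ = Nat.card G * m := by rw [← G.card_mul_index, hidx]
  have hk : k.Coprime (Nat.card Γ) := by
    rw [hcardΓ]
    refine Nat.Coprime.mul_right ?_ ?_
    · rw [Nat.Coprime, hk1.gcd_eq, Nat.gcd_one_left]
    · rw [Nat.Coprime, hk2.gcd_eq]; exact hjm
  have hGpow : ∀ g ∈ G, g ^ k = g := fun g hg => by
    conv_rhs => rw [← pow_one g]
    refine pow_eq_pow_iff_modEq.2 (hk1.of_dvd ?_)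
    have := orderOf_dvd_natCard (⟨g, hg⟩ : G)
    rwa [← Subgroup.orderOf_coe] at this
  let ψ : IrrCharacter Γ := ⟨powTwist k (χh : Γ → ℂ), powTwist_irr hk χh.2⟩
  have hψext : ∀ g : G, (ψ : Γ → ℂ) g = (χ : G → ℂ) g := fun g => by
    show (χh : Γ → ℂ) ((g : Γ) ^ k) = _
    rw [hGpow _ g.2, hext]
  have hdS : ∀ x ∈ S, detChar (χh : Γ → ℂ) x = 1 := by
    intro x hx
    obtain ⟨f, hf⟩ := exists_hom_of_degree_one (detChar_isLinear χh.2.isCharacter').1
      (detChar_isLinear χh.2.isCharacter').2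
    rw [hf]
    have h1 : f x ^ Nat.card S = 1 := by
      rw [← map_pow]
      have := congrArg Subtype.val (pow_card_eq_one' (x := (⟨x, hx⟩ : S)))
      simp only [SubmonoidClass.coe_pow, OneMemClass.coe_one] at this
      rw [this, map_one]
    have h2 : f x ^ detOrder (χh : Γ → ℂ) = 1 := by
      rw [detOrder, hf, orderOf_homFn, ← homPow_apply, pow_orderOf_eq_one, MonoidHom.one_apply]
    have h3 := pow_gcd_eq_one.2 ⟨h2, h1⟩
    rw [hdet.gcd_eq_one, pow_one] at h3
    simp [h3]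
  have hψS : ∀ x ∈ S, detChar (ψ : Γ → ℂ) x = 1 := by
    intro x hx
    obtain ⟨d, ρ, hρ⟩ := χh.2.isCharacter'
    let pw : S →* Γ :=
      { toFun := fun z => (z : Γ) ^ k
        map_one' := by simp
        map_mul' := fun a b => by
          rw [Subgroup.coe_mul, Commute.mul_pow]
          obtain ⟨u, hu⟩ := Subgroup.mem_zpowers_iff.1 (show (a : Γ) ∈ Subgroup.zpowers s from hs.symm ▸ a.2)
          obtain ⟨v, hv⟩ := Subgroup.mem_zpowers_iff.1 (show (b : Γ) ∈ Subgroup.zpowers s from hs.symm ▸ b.2)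
          rw [← hu, ← hv]
          exact (Commute.refl s).zpow_zpow u v }
    let ρ' : Representation ℂ S (Fin d → ℂ) := ρ.comp pw
    have e : (fun z : S => (ψ : Γ → ℂ) z) = ρ'.character := by
      funext z
      show (χh : Γ → ℂ) ((z : Γ) ^ k) = _
      rw [← hρ]
      rfl
    rw [detChar_restrict S ψ.2.isCharacter' (ϑ := ρ'.character) (fun z => congrFun e z) ⟨x, hx⟩,
      detChar_eq_det]
    show LinearMap.det (ρ (x ^ k)) = 1
    rw [← detChar_eq_det ρ, hρ]
    exact hdS _ (pow_mem hx k)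
  have hψdet : Nat.Coprime G.index (detOrder (ψ : Γ → ℂ)) := by
    obtain ⟨f, hf⟩ := exists_hom_of_degree_one (detChar_isLinear ψ.2.isCharacter').1
      (detChar_isLinear ψ.2.isCharacter').2
    rw [hidx, detOrder, hf, orderOf_homFn]
    refine hcop.symm.coprime_dvd_right (orderOf_dvd_of_pow_eq_one (MonoidHom.ext fun x => ?_))
    rw [homPow_apply, MonoidHom.one_apply]
    have hx : x ∈ ((G ⊔ S : Subgroup Γ) : Set Γ) := by rw [htop]; exact Subgroup.mem_top x
    rw [Subgroup.normal_mul] at hx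
    obtain ⟨g, hg, z, hz, rfl⟩ := Set.mem_mul.1 hx
    have hz1 : f z = 1 := Units.ext (by rw [Units.val_one, ← hψS z hz, hf])
    have hg1 := congrArg Subtype.val (pow_card_eq_one' (x := (⟨g, hg⟩ : G)))
    simp only [SubmonoidClass.coe_pow, OneMemClass.coe_one] at hg1
    rw [map_mul, hz1, mul_one, ← map_pow, hg1, map_one]
  have hco : Nat.Coprime G.index (detOrder (χ : G → ℂ) * charDegree (χ : G → ℂ)) := by
    rw [hidx]
    exact Nat.Coprime.mul_right (hcop.symm.coprime_dvd_right (detOrder_dvd_card χ.2.isCharacter'))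
      (hcop.symm.coprime_dvd_right (charDegree_dvd_card χ))
  obtain ⟨χ₀, -, huniq⟩ := canonical_extension G χ.2 hχinv (charDegree_cast χ.2.isCharacter').symm hco
  have heq : (ψ : Γ → ℂ) = (χh : Γ → ℂ) :=
    (huniq _ ψ.2 hψext hψdet).trans (huniq _ χh.2 hext (by rw [hidx]; exact hdet.symm)).symm
  funext c
  show (χh : Γ → ℂ) ((c : Γ) * y) = (χh : Γ → ℂ) ((c : Γ) * s)
  conv_rhs => rw [← heq]
  show _ = (χh : Γ → ℂ) (((c : Γ) * s) ^ k)
  have hc : (c : Γ) ∈ G ⊓ Subgroup.centralizer (S : Set Γ) := hC ▸ c.2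
  rw [Commute.mul_pow (Subgroup.mem_centralizer_iff.1 hc.2 s (hs ▸ Subgroup.mem_zpowers s)).symm,
    hGpow _ hc.1, ← hj, pow_eq_pow_iff_modEq.2 (hk2.of_dvd hsm.dvd)]

end CfsgLib.Glauberman
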