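import Cfsg.Agent.Lib.BlockQuadAvg
import Cfsg.Agent.Lib.BlockSubFacts
import Cfsg.Agent.Lib.BlockPairLocal

/-!
# Subsections at central elements of a defect group

Galois twisting of the contributions, their average size, and the conjugacy of the major
subsections at central elements of a defect group.
-/

set_option autoImplicit false
set_option linter.style.haveILetI false
set_option linter.unusedSectionVars false

universe u

namespace CfsgLib.Block

open Cfsg CfsgLib.Char
open scoped ComplexConjugate Classical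

variable {G : Type u} [Group G] [Fintype G] {p : ℕ} {M : Ideal AlgInt}

/-- The part of `χ` at a power of a subsection is the Galois twist of its part. -/
theorem secFun_pow_eq_secTwist {u : G} (f : Set (IrrCharacter (Subgroup.centralizer ({u} : Set G))))
    (χ : IrrCharacter G) (k : ℕ) (s : Subgroup.centralizer ({u} : Set G)) :
    secFun (u ^ k) (subgroupBlockCoeff (Subgroup.centralizer ({u} : Set G)) f) (χ : G → ℂ) s =
      secTwist u f χ k s := by
  rw [secFun, ← show ∑ c : Subgroup.centralizer ({u} : Set G),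
      blockCoeff f c * (χ : G → ℂ) (u ^ k * ((c * s : Subgroup.centralizer ({u} : Set G)) : G)) =
        ∑ c : G, subgroupBlockCoeff (Subgroup.centralizer ({u} : Set G)) f c *
          (χ : G → ℂ) (u ^ k * (c * s)) from ?_]
  · simp only [apply_pow_mul_eq_sum, Finset.mul_sum]
    rw [Finset.sum_comm, secTwist]
    refine Finset.sum_congr rfl fun z _ => ?_
    calc _ = centVal z (qElt u) ^ k * (qMult u χ z : ℂ) *
          ∑ c : Subgroup.centralizer ({u} : Set G), coef (indVal f) c *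
            (z : Subgroup.centralizer ({u} : Set G) → ℂ) (c * s) := by
          rw [Finset.mul_sum]
          refine Finset.sum_congr rfl fun c _ => ?_
          rw [blockCoeff_eq_coef]
          ring
      _ = _ := by rw [sum_coef_mul_irr]; ring
  · rw [← sum_ext0 (Subgroup.centralizer ({u} : Set G))]
    refine Finset.sum_congr rfl fun c _ => ?_
    by_cases hc : c ∈ Subgroup.centralizer ({u} : Set G)
    · lift c to Subgroup.centralizer ({u} : Set G) using hc
      rw [ext0_coe, subgroupBlockCoeff_coe, Subgroup.coe_mul]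
    · rw [subgroupBlockCoeff_not_mem _ _ hc, zero_mul, ext0, dif_neg hc]

/-- The contribution of a subsection is real and nonnegative. -/
theorem secInner_self_eq (u : G) (β : G → ℂ) (ξ : G → ℂ) :
    secInner p u β ξ ξ = (((Nat.card (Subgroup.centralizer ({u} : Set G)) : ℝ)⁻¹ *
      ∑ y ∈ secDom p u, Complex.normSq (secFun u β ξ y) : ℝ) : ℂ) := by
  unfold secInner
  push_cast
  refine congrArg _ (Finset.sum_congr rfl fun y _ => ?_)
  rw [Complex.mul_conj]

theorem secInner_self_re_nonneg (u : G) (β : G → ℂ) (ξ : G → ℂ) :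
    0 ≤ (secInner p u β ξ ξ).re := by
  rw [secInner_self_eq, Complex.ofReal_re]
  exact mul_nonneg (inv_nonneg.2 (Nat.cast_nonneg _))
    (Finset.sum_nonneg fun y _ => Complex.normSq_nonneg _)

/-- The contribution of a power of a subsection is the twisted quadratic form. -/
theorem pow_mul_secInner_pow {u : G} (hu : ∃ a, orderOf u = p ^ a) (hp : p.Prime)
    (f : Set (IrrCharacter (Subgroup.centralizer ({u} : Set G)))) (χ : IrrCharacter G) {k : ℕ}
    (hk : ¬ p ∣ k) :
    (p : ℂ) ^ blockDefect p f * secInner p (u ^ k)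
        (subgroupBlockCoeff (Subgroup.centralizer ({u} : Set G)) f) (χ : G → ℂ) (χ : G → ℂ) =
      qCoef p u f χ χ k := by
  have hC : Subgroup.centralizer ({u ^ k} : Set G) = Subgroup.centralizer ({u} : Set G) := by
    rw [← centralizer_zpowers, exists_pow_eq_of_coprime hu hp hk, centralizer_zpowers]
  rw [qCoef_eq_twist, secInner, mul_assoc, hC,
    show secDom p (u ^ k) = secDom p u by unfold secDom; rw [hC], sum_secDom]
  refine congrArg _ (congrArg _ (Finset.sum_congr rfl fun s _ => ?_))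
  rw [secFun_pow_eq_secTwist]

variable {hM : IsPModular p M} {B : Set (IrrCharacter G)} {D : Subgroup G} {ψ : G → ResField M}

/-- The subsection at a central element of a defect group is major. -/
theorem exists_major_block [Fact p.Prime] (hψ : MaxPair hM B D ψ) {u : G} (hu : u ∈ D)
    (huc : ∀ d ∈ D, d * u = u * d) :
    ∃ f : Set (IrrCharacter (Subgroup.centralizer ({u} : Set G))),
      IsInducedBlock M (Subgroup.centralizer ({u} : Set G)) f B ∧
      blockDefect p f = blockDefect p B ∧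
      subCoef hψ.1.1 u = subgroupBlockCoeff (Subgroup.centralizer ({u} : Set G)) f := by
  obtain ⟨f, hf, hfe, hfc⟩ := exists_subBlock hψ.1.1 hu
  have hQD : Subgroup.zpowers u ≤ D := Subgroup.zpowers_le.2 hu
  have hin : PairIn hM B (Subgroup.zpowers u) (subFn hψ.1.1 (Subgroup.zpowers u)) :=
    ((chain_subFn hψ.1.1 hQD).pairIn_iff B).1 hψ.1
  have huk : ∃ k, orderOf u = p ^ k := by
    obtain ⟨k, hk⟩ := IsPGroup.iff_orderOf.1 hψ.1.1.1 ⟨u, hu⟩
    exact ⟨k, by rwa [← Subgroup.orderOf_coe] at hk⟩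
  refine ⟨f, ?_, ?_, hfc⟩
  · obtain ⟨a, ha⟩ := isPBlock_nonempty hM hf
    have h3 := isInduced_of_pair hM huk hψ.1.2.1 hf (hfe.symm ▸ hin.2.2) a ha
    rw [isPBlock_eq_blockOf hM hf ha]
    exact h3
  · have hDC : D ≤ Subgroup.centralizer ((Subgroup.zpowers u : Subgroup G) : Set G) := fun d hd => by
      rw [centralizer_zpowers, Subgroup.mem_centralizer_singleton_iff]
      exact huc d hd
    have key : ∀ H : Subgroup G,
        H = Subgroup.centralizer ((Subgroup.zpowers u : Subgroup G) : Set G) →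
        ∀ f' : Set (IrrCharacter H), IsPBlock M f' →
          bFn hM H f' = subFn hψ.1.1 (Subgroup.zpowers u) →
            blockDefect p f' = blockDefect p B := by
      rintro H rfl f' hf' hfe'
      have hcard : Nat.card D = p ^ blockDefect p B :=
        card_defectGroup hM hψ.1.2.1 hψ.isDefectGroup
      have hle := card_centralizer_le_defect hψ.1.1 hf'
        (Q := Subgroup.zpowers u) (by rw [show pFn hM (Subgroup.zpowers u) f' = _ from hfe']
                                      exact chain_subFn hψ.1.1 hQD)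
      rw [inf_eq_left.2 hDC] at hle
      obtain ⟨x, -, hx⟩ := exists_conj_centralizer_defect hψ hf'
        (Q := Subgroup.zpowers u) (by rw [show pFn hM (Subgroup.zpowers u) f' = _ from hfe']
                                      exact hin)
      have hx' := hx.trans (Subgroup.card_le_of_le inf_le_left)
      have h := le_antisymm hx' hle
      rw [hcard] at h
      exact Nat.pow_right_injective hM.1.two_le h
    exact key _ (centralizer_zpowers u).symm f hf hfe

/-- Summing the contributions of the central elements of a given order. -/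
theorem card_mul_pow_le_sum_major [Fact p.Prime] (hψ : MaxPair hM B D ψ) {χ : IrrCharacter G}
    (hχ : χ ∈ B) {a : ℕ} (Za : Finset G)
    (hZ : ∀ u, u ∈ Za ↔ (u ∈ D ∧ ∀ d ∈ D, d * u = u * d) ∧ orderOf u = p ^ a) :
    (Za.card : ℝ) * (p : ℝ) ^ blockHeight p B (χ : G → ℂ) ≤
      (p : ℝ) ^ blockDefect p B *
        ∑ u ∈ Za, (secInner p u (subCoef hψ.1.1 u) (χ : G → ℂ) (χ : G → ℂ)).re := by
  have hp : p.Prime := hM.1
  have hB : IsPBlock M B := hψ.1.2.1
  set S : G → ℝ := fun u => (secInner p u (subCoef hψ.1.1 u) (χ : G → ℂ) (χ : G → ℂ)).re with hS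
  set J := galExps p (p ^ (a + 1)) with hJ
  have hJpos : (0 : ℝ) < J.card := by
    exact_mod_cast Finset.card_pos.2 ⟨1, one_mem_galExps hp a⟩
  have havg : ∀ u ∈ Za, (J.card : ℝ) * (p : ℝ) ^ blockHeight p B (χ : G → ℂ) ≤
      (p : ℝ) ^ blockDefect p B * ∑ k ∈ J, S (u ^ k) := by
    intro u hu
    obtain ⟨⟨huD, huc⟩, ha⟩ := (hZ u).1 hu
    obtain ⟨f, hf, hfd, hfc⟩ := exists_major_block hψ huD huc
    refine (qCoef_self_avg hM hB hf hfd ha hχ).trans (le_of_eq ?_)
    rw [Finset.mul_sum]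
    refine Finset.sum_congr rfl fun k hk => ?_
    have hk' := galExps_not_dvd hk
    have hsub : subCoef hψ.1.1 (u ^ k) = subCoef hψ.1.1 u := by
      have hz := exists_pow_eq_of_coprime ⟨a, ha⟩ hp hk'
      rw [subCoef, subCoef, hz,
        show Subgroup.centralizer ({u ^ k} : Set G) = Subgroup.centralizer ({u} : Set G) by
          rw [← centralizer_zpowers, hz, centralizer_zpowers]]
    rw [← pow_mul_secInner_pow ⟨a, ha⟩ hp f χ hk', hS, hfd]
    dsimp only
    rw [hsub, hfc, show ((p : ℂ) ^ blockDefect p B) = ((((p : ℝ) ^ blockDefect p B : ℝ)) : ℂ) by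
      push_cast; rfl, Complex.re_ofReal_mul]
  have hperm : ∀ k ∈ J, ∑ u ∈ Za, S (u ^ k) = ∑ u ∈ Za, S u := by
    intro k hk
    have hco : ∀ u ∈ Za, (orderOf u).Coprime k := fun u hu => by
      rw [((hZ u).1 hu).2]
      exact Nat.Coprime.pow_left _ (hp.coprime_iff_not_dvd.2 (galExps_not_dvd hk))
    have hmem : ∀ u ∈ Za, u ^ k ∈ Za := fun u hu => by
      obtain ⟨⟨huD, huc⟩, ha⟩ := (hZ u).1 hu
      refine (hZ _).2 ⟨⟨D.pow_mem huD k, fun d hd => (Commute.pow_right (huc d hd) k).eq⟩, ?_⟩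
      rw [← ha]
      exact Nat.Coprime.orderOf_pow (hco u hu)
    refine Finset.sum_bij (fun u _ => u ^ k) hmem (fun u hu v hv h => ?_) (fun w hw => ?_)
      fun u _ => rfl
    · obtain ⟨m, hm⟩ := exists_pow_eq_self_of_coprime (hco u hu).symm
      have hv' : (v ^ k) ^ m = v := by
        have e : orderOf v = orderOf u := by rw [((hZ u).1 hu).2, ((hZ v).1 hv).2]
        have hd : k * m ≡ 1 [MOD orderOf u] := by
          rw [← pow_eq_pow_iff_modEq, pow_one, pow_mul]; exact hm
        rw [← pow_mul]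
        conv_rhs => rw [← pow_one v]
        rw [pow_eq_pow_iff_modEq, e]
        exact hd
      rw [← hm, ← hv']
      exact congrArg (· ^ m) h
    · obtain ⟨m, hm⟩ := exists_pow_eq_self_of_coprime (hco w hw).symm
      refine ⟨w ^ m, ?_, by rw [← pow_mul, mul_comm, pow_mul, hm]⟩
      obtain ⟨⟨huD, huc⟩, ha⟩ := (hZ w).1 hw
      refine (hZ _).2 ⟨⟨D.pow_mem huD m, fun d hd => (Commute.pow_right (huc d hd) m).eq⟩, ?_⟩
      rw [← ha]
      refine Nat.dvd_antisymm (orderOf_pow_dvd m) ?_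
      conv_lhs => rw [← hm, ← pow_mul, mul_comm, pow_mul]
      exact orderOf_pow_dvd k
  refine le_of_mul_le_mul_left ?_ hJpos
  calc (J.card : ℝ) * ((Za.card : ℝ) * (p : ℝ) ^ blockHeight p B (χ : G → ℂ))
      = ∑ _u ∈ Za, (J.card : ℝ) * (p : ℝ) ^ blockHeight p B (χ : G → ℂ) := by
        rw [Finset.sum_const, nsmul_eq_mul]; ring
    _ ≤ ∑ u ∈ Za, (p : ℝ) ^ blockDefect p B * ∑ k ∈ J, S (u ^ k) := Finset.sum_le_sum havg
    _ = _ := by
        rw [← Finset.mul_sum, Finset.sum_comm, Finset.sum_congr rfl hperm, Finset.sum_const,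
          nsmul_eq_mul]
        ring

/-- The lower bound of the central contributions. -/
theorem card_center_mul_le [Fact p.Prime] (hψ : MaxPair hM B D ψ) {χ : IrrCharacter G}
    (hχ : χ ∈ B) :
    (Nat.card (Subgroup.center D) : ℝ) * (p : ℝ) ^ blockHeight p B (χ : G → ℂ) ≤
      (p : ℝ) ^ blockDefect p B *
        ∑ u ∈ Finset.univ.filter (fun u : G => u ∈ D ∧ ∀ d ∈ D, d * u = u * d),
          (secInner p u (subCoef hψ.1.1 u) (χ : G → ℂ) (χ : G → ℂ)).re := by
  set Z := Finset.univ.filter (fun u : G => u ∈ D ∧ ∀ d ∈ D, d * u = u * d) with hZ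
  have hcard : Nat.card (Subgroup.center D) = Z.card := by
    rw [← Nat.card_eq_finsetCard]
    refine Nat.card_congr
      { toFun := fun z => ⟨((z : D) : G), Finset.mem_filter.2 ⟨Finset.mem_univ _, SetLike.coe_mem _,
          fun d hd => congrArg Subtype.val (Subgroup.mem_center_iff.1 z.2 ⟨d, hd⟩)⟩⟩
        invFun := fun u => ⟨⟨(u : G), (Finset.mem_filter.1 u.2).2.1⟩, Subgroup.mem_center_iff.2
          fun d => Subtype.ext ((Finset.mem_filter.1 u.2).2.2 d d.2)⟩
        left_inv := fun z => rfl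
        right_inv := fun u => rfl }
  have hord : ∀ u ∈ Z, ∃ a, orderOf u = p ^ a := fun u hu => by
    obtain ⟨k, hk⟩ := IsPGroup.iff_orderOf.1 hψ.1.1.1 ⟨u, (Finset.mem_filter.1 hu).2.1⟩
    exact ⟨k, by rwa [← Subgroup.orderOf_coe] at hk⟩
  rw [hcard, ← Finset.sum_fiberwise_of_maps_to (t := Z.image orderOf)
      (fun u hu => Finset.mem_image_of_mem _ hu),
    Finset.card_eq_sum_card_image orderOf Z, Finset.mul_sum, Nat.cast_sum, Finset.sum_mul]
  refine Finset.sum_le_sum fun n hn => ?_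
  obtain ⟨u, hu, rfl⟩ := Finset.mem_image.1 hn
  obtain ⟨a, ha⟩ := hord u hu
  rw [ha]
  refine card_mul_pow_le_sum_major hψ hχ (a := a) _ fun v => ?_
  simp [hZ]

/-- Major subsections at central elements are fused by the stabilizer of the pair. -/
theorem exists_stab_fusion [Fact p.Prime] (hψ : MaxPair hM B D ψ) {u u₀ g : G} (hu : u ∈ D)
    (hu₀ : u₀ ∈ D) (huc : ∀ d ∈ D, d * u = u * d) (hu₀c : ∀ d ∈ D, d * u₀ = u₀ * d)
    (hg : g * u * g⁻¹ = u₀)
    (hφ : cnj g (subFn hψ.1.1 (Subgroup.zpowers u)) = subFn hψ.1.1 (Subgroup.zpowers u₀)) :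
    ∃ c ∈ Subgroup.centralizer ({u₀} : Set G),
      c * g ∈ Subgroup.normalizer (D : Set G) ∧ cnj (c * g) ψ = ψ := by
  set Q := Subgroup.zpowers u₀ with hQdef
  have hc : Chain hM (Q, subFn hψ.1.1 Q) (D, ψ) := chain_subFn hψ.1.1 (Subgroup.zpowers_le.2 hu₀)
  have hQ : PairIn hM B Q (subFn hψ.1.1 Q) := (hc.pairIn_iff B).1 hψ.1
  have hC : ∀ w : G, (∀ d ∈ D, d * w = w * d) →
      D ≤ Subgroup.centralizer ((Subgroup.zpowers w : Subgroup G) : Set G) := fun w hw d hd => by
    rw [centralizer_zpowers, Subgroup.mem_centralizer_singleton_iff]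
    exact hw d hd
  have hDC : D ≤ Subgroup.centralizer (Q : Set G) := hC u₀ hu₀c
  have hCD : Subgroup.centralizer (D : Set G) ≤ Subgroup.centralizer (Q : Set G) :=
    Subgroup.centralizer_le (Subgroup.zpowers_le.2 hu₀)
  obtain ⟨f, hf, hfe⟩ := hQ.1.exists_block hM
  haveI := Fintype.ofFinite (Subgroup.centralizer (Q : Set G))
  rw [← hfe] at hc hQ
  have hDN : D ≤ Subgroup.normalizer (Q : Set G) :=
    hDC.trans (Subgroup.centralizer_le_normalizer _)
  obtain ⟨φ', hφ', -⟩ := existsUnique_nSub hψ.1.1 hc.le hDN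
  obtain rfl : φ' = pFn hM Q f := Chain.unique hψ.1.1 (Relation.ReflTransGen.single hφ') hc
  have hin := pairIn_subgroupOf hψ.1.1 hDC hCD hf hφ'.2.2.2.2.2
  have hcard : p ^ blockDefect p f ≤ Nat.card D := by
    obtain ⟨x, -, hx⟩ := exists_conj_centralizer_defect hψ hf hQ
    exact hx.trans (Subgroup.card_le_of_le inf_le_left)
  have hmax : MaxPair hM (G := (Subgroup.centralizer (Q : Set G))) f
      (D.subgroupOf (Subgroup.centralizer (Q : Set G)))
      (fun k : (Subgroup.centralizer (Q : Set G)) => ψ k) := by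
    refine maxPair_of_defectGroup hin ?_
    have := isDefectGroup_centralizer hψ.1.1 hf hc (by rwa [inf_eq_left.2 hDC])
    rwa [inf_eq_left.2 hDC] at this
  -- the conjugate pair
  have hDu : D ≤ Subgroup.normalizer ((Subgroup.zpowers u : Subgroup G) : Set G) :=
    (hC u huc).trans (Subgroup.centralizer_le_normalizer _)
  obtain ⟨φu, hφu, -⟩ := existsUnique_nSub hψ.1.1 (Subgroup.zpowers_le.2 hu) hDu
  obtain rfl : φu = subFn hψ.1.1 (Subgroup.zpowers u) :=
    (subFn_eq hψ.1.1 (Relation.ReflTransGen.single hφu)).symm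
  have hn := hφu.cnj g
  dsimp only at hn
  rw [← zpowers_conj, hg, hφ, ← hfe] at hn
  have hg' := hψ.1.1.cnj g
  have hDgC : D.map (MulAut.conj g).toMonoidHom ≤ Subgroup.centralizer (Q : Set G) := by
    rintro _ ⟨d, hd, rfl⟩
    rw [hQdef, centralizer_zpowers, Subgroup.mem_centralizer_singleton_iff, ← hg]
    show g * d * g⁻¹ * (g * u * g⁻¹) = g * u * g⁻¹ * (g * d * g⁻¹)
    calc g * d * g⁻¹ * (g * u * g⁻¹) = g * (d * u) * g⁻¹ := by group
      _ = g * (u * d) * g⁻¹ := by rw [huc d hd]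
      _ = _ := by group
  have hin' := pairIn_subgroupOf hg' hDgC
    (Subgroup.centralizer_le (Subgroup.zpowers_le.2 (show u₀ ∈ D.map (MulAut.conj g).toMonoidHom
      from ⟨u, hu, hg⟩))) hf hn.2.2.2.2.2
  obtain ⟨h, hh⟩ := hmax.exists_conj_chain hin'
  have hle := hh.le
  dsimp only at hle
  have hN : (h : G) * g ∈ Subgroup.normalizer (D : Set G) := by
    have key : ∀ w ∈ D, (h : G) * g * w * ((h : G) * g)⁻¹ ∈ D := fun w hw => by
      have h1 := Subgroup.mem_subgroupOf.1 (hle ⟨⟨g * w * g⁻¹, hDgC ⟨w, hw, rfl⟩⟩,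
        Subgroup.mem_subgroupOf.2 ⟨w, hw, rfl⟩, rfl⟩)
      simpa [mul_assoc] using h1
    have e : D.map (MulAut.conj ((h : G) * g)).toMonoidHom = D := by
      refine Subgroup.eq_of_le_of_card_ge ?_ (by rw [card_map_conj])
      rintro _ ⟨w, hw, rfl⟩
      exact key w hw
    refine Subgroup.mem_normalizer_iff.2 fun w => ⟨key w, fun hw => ?_⟩
    rw [← e] at hw
    obtain ⟨v, hv, hve⟩ := hw
    rwa [← MulEquiv.injective (MulAut.conj ((h : G) * g)) hve]
  refine ⟨h, (centralizer_zpowers u₀).le h.2, hN, ?_⟩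
  have hmap : (((D.map (MulAut.conj g).toMonoidHom).subgroupOf
      (Subgroup.centralizer (Q : Set G))).map (MulAut.conj h).toMonoidHom) =
        D.subgroupOf (Subgroup.centralizer (Q : Set G)) := by
    refine Subgroup.eq_of_le_of_card_ge hle ?_
    rw [card_map_conj, Nat.card_congr (Subgroup.subgroupOfEquivOfLe hDC).toEquiv,
      Nat.card_congr (Subgroup.subgroupOfEquivOfLe hDgC).toEquiv, card_map_conj]
  rw [hmap] at hh
  have hval := Chain.unique hmax.1.1 hh Relation.ReflTransGen.refl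
  funext w
  by_cases hw : w ∈ Subgroup.centralizer (D : Set G)
  · have h1 := congrFun hval ⟨w, hCD hw⟩
    simp only [cnj, Subgroup.coe_mul, InvMemClass.coe_inv] at h1
    rw [← h1]
    simp only [cnj]
    congr 1
    group
  · rw [hψ.1.1.2.supp hw, cnj]
    refine hψ.1.1.2.supp fun hmem => hw ?_
    exact (centralizer_conj_iff hN w).2 hmem

/-- The upper bound of the central contributions by a set containing the stabilizer of the pair. -/
theorem sum_major_le [Fact p.Prime] (hψ : MaxPair hM B D ψ) {χ : IrrCharacter G} (hχ : χ ∈ B)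
    (T H₀ : Subgroup G)
    (hT : ∀ g : G, g ∈ Subgroup.normalizer (D : Set G) → cnj g ψ = ψ → g ∈ T)
    (hH : D ⊔ Subgroup.centralizer (D : Set G) = H₀) :
    ∑ u ∈ Finset.univ.filter (fun u : G => u ∈ D ∧ ∀ d ∈ D, d * u = u * d),
        (secInner p u (subCoef hψ.1.1 u) (χ : G → ℂ) (χ : G → ℂ)).re ≤ (H₀.relIndex T : ℝ) := by
  have hB : IsPBlock M B := hψ.1.2.1
  set Z := Finset.univ.filter (fun u : G => u ∈ D ∧ ∀ d ∈ D, d * u = u * d) with hZ
  have hmZ : ∀ u, u ∈ Z ↔ u ∈ D ∧ ∀ d ∈ D, d * u = u * d := fun u => by simp [hZ]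
  set S : G → ℝ := fun u => (secInner p u (subCoef hψ.1.1 u) (χ : G → ℂ) (χ : G → ℂ)).re with hS
  have hG : (0 : ℝ) < (Nat.card G : ℝ) := Nat.cast_pos.2 Nat.card_pos
  refine le_of_mul_le_mul_left ?_ hG
  have htot : (Nat.card G : ℝ) = ∑ z ∈ Finset.univ.filter (fun z : G => ∃ k, orderOf z = p ^ k),
      (Nat.card (Subgroup.centralizer ({z} : Set G)) : ℝ) * ∑ e ∈ indBlocks M z B,
        (secInner p z (subgroupBlockCoeff (Subgroup.centralizer ({z} : Set G)) e)
          (χ : G → ℂ) (χ : G → ℂ)).re := by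
    have h := congrArg Complex.re (card_mul_classInner_eq hM hB hχ hχ)
    rw [irr_inner_self χ.2, mul_one, Complex.natCast_re, Complex.re_sum] at h
    refine h.trans (Finset.sum_congr rfl fun z _ => ?_)
    rw [show ((Nat.card (Subgroup.centralizer ({z} : Set G)) : ℕ) : ℂ) =
      (((Nat.card (Subgroup.centralizer ({z} : Set G)) : ℕ) : ℝ) : ℂ) by push_cast; rfl,
      Complex.re_ofReal_mul, Complex.re_sum]
  have h0 : (Nat.card G : ℝ) * ∑ u ∈ Z, S u =
      ∑ w ∈ (Finset.univ : Finset G) ×ˢ Z, S w.2 := by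
    rw [Finset.sum_product]
    show _ = ∑ _x : G, ∑ y ∈ Z, S y
    rw [Finset.sum_const, Finset.card_univ, nsmul_eq_mul, Nat.card_eq_fintype_card]
  rw [h0]
  conv_rhs => rw [htot, Finset.sum_mul]
  rw [← Finset.sum_fiberwise_of_maps_to (g := fun w : G × G => w.1 * w.2 * w.1⁻¹)
    (t := Finset.univ.filter fun z : G => ∃ k, orderOf z = p ^ k)]
  swap
  · intro w hw
    obtain ⟨k, hk⟩ := IsPGroup.iff_orderOf.1 hψ.1.1.1 ⟨w.2, ((hmZ _).1 (Finset.mem_product.1 hw).2).1⟩
    rw [← Subgroup.orderOf_coe] at hk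
    exact Finset.mem_filter.2 ⟨Finset.mem_univ _, k, by rw [orderOf_conj_eq, hk]⟩
  refine Finset.sum_le_sum fun z hz => ?_
  have hzk := (Finset.mem_filter.1 hz).2
  rw [← Finset.sum_fiberwise_of_maps_to
    (g := fun w : G × G => cnj w.1 (subFn hψ.1.1 (Subgroup.zpowers w.2)))
    (t := (indBlocks M z B).image (bFn hM (Subgroup.centralizer ({z} : Set G))))]
  swap
  · intro w hw
    obtain ⟨hw1, hwz⟩ := Finset.mem_filter.1 hw
    have hwP : w.2 ∈ D := ((hmZ _).1 (Finset.mem_product.1 hw1).2).1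
    have hpair : PairIn hM B (Subgroup.zpowers z) (cnj w.1 (subFn hψ.1.1 (Subgroup.zpowers w.2))) := by
      rw [← hwz, zpowers_conj]
      exact (((chain_subFn hψ.1.1 (Subgroup.zpowers_le.2 hwP)).pairIn_iff B).1 hψ.1).cnj w.1
    have hb := hpair.1.2
    rw [centralizer_zpowers] at hb
    obtain ⟨e, he, hee⟩ := hb
    refine Finset.mem_image.2 ⟨e, Finset.mem_filter.2 ⟨mem_allBlocks.2 he, ?_⟩, hee⟩
    obtain ⟨a, ha⟩ := isPBlock_nonempty hM he
    have h3 := isInduced_of_pair hM hzk hB he (hee.symm ▸ hpair.2.2) a ha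
    rw [isPBlock_eq_blockOf hM he ha]
    exact h3
  rw [Finset.sum_image (s := indBlocks M z B) fun a ha b hb hab => bFn_injOn hM _
      (mem_allBlocks.1 (Finset.mem_filter.1 ha).1) (mem_allBlocks.1 (Finset.mem_filter.1 hb).1) hab,
    Finset.mul_sum, Finset.sum_mul]
  refine Finset.sum_le_sum fun e he => ?_
  obtain ⟨he1, he2⟩ := Finset.mem_filter.1 he
  have heB : IsPBlock M e := mem_allBlocks.1 he1
  set φ := bFn hM (Subgroup.centralizer ({z} : Set G)) e with hφdef
  set S₀ := (secInner p z (subgroupBlockCoeff (Subgroup.centralizer ({z} : Set G)) e)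
    (χ : G → ℂ) (χ : G → ℂ)).re with hS₀
  set Fib := (((Finset.univ : Finset G) ×ˢ Z).filter fun w => w.1 * w.2 * w.1⁻¹ = z).filter
    (fun w => cnj w.1 (subFn hψ.1.1 (Subgroup.zpowers w.2)) = φ) with hFib
  have hmem : ∀ w : G × G, w ∈ Fib ↔ w.2 ∈ Z ∧ w.1 * w.2 * w.1⁻¹ = z ∧
      cnj w.1 (subFn hψ.1.1 (Subgroup.zpowers w.2)) = φ := fun w => by
    simp [hFib, and_assoc]
  have hval : ∀ w ∈ Fib, S w.2 = S₀ := by
    intro w hw
    obtain ⟨hwZ, hwz, hwφ⟩ := (hmem w).1 hw
    have key : ∀ z' : G, z' = z →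
        secInner p z' (coefOf hM (Subgroup.centralizer ({z'} : Set G)) φ) (χ : G → ℂ) (χ : G → ℂ) =
          secInner p z (subgroupBlockCoeff (Subgroup.centralizer ({z} : Set G)) e)
            (χ : G → ℂ) (χ : G → ℂ) := by
      rintro _ rfl
      rw [coefOf_eq hM heB hφdef.symm]
    show (secInner p w.2 (subCoef hψ.1.1 w.2) (χ : G → ℂ) (χ : G → ℂ)).re = S₀
    rw [← secInner_coefOf_conj hψ.1.1 ((hmZ _).1 hwZ).1 w.1 χ χ, hwφ, key _ hwz]
  rw [Finset.sum_congr rfl hval, Finset.sum_const, nsmul_eq_mul]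
  refine le_of_le_of_eq (mul_le_mul_of_nonneg_right (show (Fib.card : ℝ) ≤
      ((Nat.card (Subgroup.centralizer ({z} : Set G)) * H₀.relIndex T : ℕ) : ℝ) from
        Nat.cast_le.2 ?_) (show 0 ≤ S₀ from secInner_self_re_nonneg _ _ _)) (by push_cast; ring)
  rcases Fib.eq_empty_or_nonempty with h | ⟨w₀, hw₀⟩
  · simp [h]
  obtain ⟨hw₀Z, hw₀z, hw₀φ⟩ := (hmem w₀).1 hw₀
  obtain ⟨hu₀, hu₀c⟩ := (hmZ _).1 hw₀Z
  set Cs := Finset.univ.filter (fun c : G => c ∈ Subgroup.centralizer ({w₀.2} : Set G))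
  set Ts := Finset.univ.filter (fun t : G => t ∈ T)
  set Hs := Finset.univ.filter (fun t : G => t ∈ H₀ ⊓ T)
  set Img := (Cs ×ˢ Ts).image (fun a => a.1 * a.2) with hImg
  have hsub : Fib.card ≤ Img.card := by
    refine Finset.card_le_card_of_injOn (fun w => w₀.1⁻¹ * w.1) (fun w hw => ?_) ?_
    · obtain ⟨hwZ, hwz, hwφ⟩ := (hmem w).1 hw
      obtain ⟨hu, huc⟩ := (hmZ _).1 hwZ
      obtain ⟨c, hc, hcN, hcψ⟩ := exists_stab_fusion hψ hu hu₀ huc hu₀c
        (g := w₀.1⁻¹ * w.1) (by
          calc w₀.1⁻¹ * w.1 * w.2 * (w₀.1⁻¹ * w.1)⁻¹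
              = w₀.1⁻¹ * (w.1 * w.2 * w.1⁻¹) * w₀.1 := by group
            _ = w₀.1⁻¹ * (w₀.1 * w₀.2 * w₀.1⁻¹) * w₀.1 := by rw [hwz, hw₀z]
            _ = w₀.2 := by group)
        (by rw [← cnj_cnj, hwφ, ← hw₀φ, cnj_cnj, inv_mul_cancel, cnj_one])
      exact Finset.mem_image.2 ⟨(c⁻¹, c * (w₀.1⁻¹ * w.1)), Finset.mem_product.2
        ⟨Finset.mem_filter.2 ⟨Finset.mem_univ _, inv_mem hc⟩,
          Finset.mem_filter.2 ⟨Finset.mem_univ _, hT _ hcN hcψ⟩⟩, by group⟩
    · intro w hw w' hw' h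
      have h1 : w.1 = w'.1 := mul_left_cancel h
      obtain ⟨-, hwz, -⟩ := (hmem w).1 hw
      obtain ⟨-, hwz', -⟩ := (hmem w').1 hw'
      refine Prod.ext h1 ?_
      rw [← hwz', ← h1] at hwz
      exact mul_left_cancel (mul_right_cancel hwz)
  have hHC : H₀ ≤ Subgroup.centralizer ({w₀.2} : Set G) := by
    rw [← hH]
    refine sup_le (fun d hd => Subgroup.mem_centralizer_singleton_iff.2 (hu₀c d hd)) ?_
    exact Subgroup.centralizer_le (Set.singleton_subset_iff.2 hu₀)
  have hfib : Hs.card * Img.card ≤ (Cs ×ˢ Ts).card := by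
    rw [hImg]
    refine Finset.mul_card_image_le_card (f := fun a : G × G => a.1 * a.2) _ _ fun b hb => ?_
    obtain ⟨a, ha, hab⟩ := Finset.mem_image.1 hb
    obtain ⟨ha1, ha2⟩ := Finset.mem_product.1 ha
    refine Finset.card_le_card_of_injOn (fun t => (a.1 * t, t⁻¹ * a.2)) (fun t ht => ?_)
      fun t _ t' _ h => mul_left_cancel (congrArg Prod.fst h)
    obtain ⟨htH, htT⟩ := Subgroup.mem_inf.1 (Finset.mem_filter.1 ht).2
    refine Finset.mem_filter.2 ⟨Finset.mem_product.2
      ⟨Finset.mem_filter.2 ⟨Finset.mem_univ _, mul_mem (Finset.mem_filter.1 ha1).2 (hHC htH)⟩,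
        Finset.mem_filter.2 ⟨Finset.mem_univ _, mul_mem (inv_mem htT) (Finset.mem_filter.1 ha2).2⟩⟩,
      ?_⟩
    show a.1 * t * (t⁻¹ * a.2) = b
    rw [← hab]; group
  have hcards : ∀ K : Subgroup G, (Finset.univ.filter (fun t : G => t ∈ K)).card = Nat.card K :=
    fun K => by rw [Nat.card_eq_fintype_card, Fintype.card_subtype]
  rw [Finset.card_product, hcards, hcards, hcards] at hfib
  have hCz : Nat.card (Subgroup.centralizer ({w₀.2} : Set G)) =
      Nat.card (Subgroup.centralizer ({z} : Set G)) := by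
    rw [← hw₀z, card_centralizer_conj]
  have hTc : Nat.card T = Nat.card (H₀ ⊓ T : Subgroup G) * H₀.relIndex T := by
    rw [Subgroup.relIndex, ← Subgroup.card_mul_index (H₀.subgroupOf T)]
    congr 1
    rw [← Subgroup.inf_subgroupOf_right,
      Nat.card_congr (Subgroup.subgroupOfEquivOfLe inf_le_right).toEquiv]
  refine hsub.trans (Nat.le_of_mul_le_mul_left ?_ (Nat.card_pos (α := (H₀ ⊓ T : Subgroup G))))
  refine hfib.trans (le_of_eq ?_)
  rw [hCz, hTc]
  ring

end CfsgLib.Block
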