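import Cfsg.Agent.Lib.BlockHeight
import Cfsg.Agent.Lib.BlockCoveringDefect
import Cfsg.Agent.Lib.BlockPrincipalType

/-!
# Consequences of the covering theory
-/

set_option autoImplicit false
set_option linter.style.haveILetI false
set_option linter.unusedSectionVars false
set_option linter.unusedFintypeInType false

namespace CfsgLib.Block

open Cfsg CfsgLib.Char
open scoped ComplexConjugate Classical

universe u

variable {G : Type u} [Group G] [Fintype G] {p : ℕ} [Fact p.Prime] {M : Ideal AlgInt}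
  (hM : IsPModular p M)

include hM in
/-- Height zero characters induce to height zero constituents with multiplicity prime to `p`. -/
theorem exists_height_zero_induced {H : Subgroup G} [Fintype H] {b : Set (IrrCharacter H)}
    {B : Set (IrrCharacter G)} (hind : IsInducedBlock M H b B)
    (hdef : blockDefect p b = blockDefect p B) {ζ : IrrCharacter H} (hζ : ζ ∈ b)
    (hζ0 : blockHeight p b (ζ : H → ℂ) = 0) :
    ∃ χ ∈ B, blockHeight p B (χ : G → ℂ) = 0 ∧
      ∃ a : ℕ, classInner (indFun H (ζ : H → ℂ)) (χ : G → ℂ) = (a : ℂ) ∧ ¬ p ∣ a := by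
  have hp := hM.1
  obtain ⟨-, hB, -⟩ := (isInducedBlock_iff hM H b B).1 hind
  have hb := hind.1
  obtain ⟨n, hn, hn1, -⟩ := blockPart_indFun_degree hM hind hζ hB
  obtain ⟨hn0, hnv⟩ := hn1 rfl
  have hθ := isCharacter_indFun (G := G) ζ.2.isCharacter'
  choose k hk using fun χ : IrrCharacter G => inner_character_nat hθ χ.2.isCharacter'
  have hsum : n = ∑ χ ∈ Finset.univ.filter (· ∈ B), k χ * charDegree (χ : G → ℂ) := by
    apply Nat.cast_injective (R := ℂ)
    rw [← hn, blockPart_eq, Nat.cast_sum, Finset.sum_filter]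
    refine Finset.sum_congr rfl fun χ _ => ?_
    rw [hk, indVal, Nat.cast_mul]
    split_ifs <;> simp [charDegree_cast χ.2.isCharacter']
  have hdeg : charDegree (indFun H (ζ : H → ℂ)) = H.index * charDegree (ζ : H → ℂ) := by
    apply Nat.cast_injective (R := ℂ)
    rw [charDegree_cast hθ, indFun_one_apply, Nat.cast_mul, charDegree_cast ζ.2.isCharacter']
  rw [hdeg, Nat.factorization_mul Subgroup.index_ne_zero_of_finite (charDegree_pos ζ).ne',
    Finsupp.add_apply, (blockHeight_zero_iff hζ).1 hζ0] at hnv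
  have h1 := blockMin_le_card hM hb
  have h2 := blockMin_le_card hM hB
  rw [blockDefect_eq, blockDefect_eq] at hdef
  have hG : (Nat.card G).factorization p = (Nat.card H).factorization p + H.index.factorization p := by
    rw [← H.card_mul_index, Nat.factorization_mul Nat.card_pos.ne' Subgroup.index_ne_zero_of_finite,
      Finsupp.add_apply]
  by_contra hc
  push Not at hc
  have hdvd : p ^ (blockMin p B + 1) ∣ n := by
    rw [hsum]
    refine Finset.dvd_sum fun χ hχ => ?_
    rw [Finset.mem_filter] at hχ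
    have hbm := blockMin_le (p := p) hχ.2
    rcases Nat.eq_or_lt_of_le hbm with heq | hlt
    · rw [pow_succ']
      exact Nat.mul_dvd_mul (hc χ hχ.2 ((blockHeight_zero_iff hχ.2).2 heq.symm) _ (hk χ))
        (heq ▸ Nat.ordProj_dvd _ _)
    · exact dvd_mul_of_dvd_right ((pow_dvd_pow p hlt).trans (Nat.ordProj_dvd _ _)) _
  have h3 := (hp.pow_dvd_iff_le_factorization hn0).1 hdvd
  omega

include hM in
/-- A block of `QC(Q)`, `Q` normal, induces every block covering it. -/
theorem induced_of_covers_normal {Q N : Subgroup G} [Q.Normal] (hQ : IsPGroup p Q) [hN : N.Normal]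
    [Fintype N] (hC : Subgroup.centralizer (Q : Set G) ≤ N) {b : Set (IrrCharacter N)}
    (hb : IsPBlock M b) {B : Set (IrrCharacter G)} (hB : IsPBlock M B) {χ : IrrCharacter G}
    (hχ : χ ∈ B) {θ : IrrCharacter N} (hθ : θ ∈ b) (hover : Over N χ θ) :
    IsInducedBlock M N b B := by
  refine isInducedBlock_of_ev hM N hb hB hθ hχ fun v => ?_
  rw [ev_resLift_eq_sum, ev_eq_sum]
  refine Finset.sum_congr rfl fun C _ => ?_
  congr 1
  by_cases hg : Quotient.out C ∈ N
  · rw [ev_resLift_cl, ev_cl]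
    exact congrArg (res hM) (Subtype.ext (centralChar_over hover ⟨_, hg⟩).symm)
  · have hconj : ∀ g, IsConj (Quotient.out C) g → g ∉ N := fun g h hgN => by
      obtain ⟨t, ht⟩ := isConj_iff.1 h
      refine hg ?_
      have := hN.conj_mem _ hgN t⁻¹
      rwa [← ht, show t⁻¹ * (t * Quotient.out C * t⁻¹) * t⁻¹⁻¹ = Quotient.out C by group] at this
    rw [ev_eq_zero_of_centralizer hM Q hQ (cl hM (Quotient.out C)) (fun g hgC => by
      rw [cred_cl, if_neg fun h => hconj g h (hC hgC)]) χ]
    have : cred hM (resLift hM N (cl hM (Quotient.out C))) = cred hM (0 : intRing (G := N) hM) := by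
      funext n
      rw [cred_resLift, cred_cl, if_neg fun h => hconj _ h n.2, cred_zero_eq]
      rfl
    rw [ev_congr_cred hM this θ, map_zero]

include hM in
/-- The block over a stable block of a normal subgroup of `p`-power index. -/
theorem block_of_pPower_index {N : Subgroup G} [hN : N.Normal] [Fintype N]
    (hidx : ∃ k, N.index = p ^ k) {c : Set (IrrCharacter N)} (hc : IsPBlock M c)
    (hinv : ∀ x : G, cnj x (bFn hM N c) = bFn hM N c) :
    ∃ B : Set (IrrCharacter G), IsPBlock M B ∧ B = covSet c ∧ gFn hM B = bFn hM N c ∧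
      (∀ g, blockCoeff B g = subgroupBlockCoeff N c g) ∧
      ∀ P : Subgroup G, IsDefectGroup p M B P → N ⊔ P = ⊤ ∧
        IsDefectGroup p M c ((P ⊓ N).subgroupOf N) ∧
        blockDefect p B = blockDefect p c + N.index.factorization p := by
  have hp := hM.1
  obtain ⟨k, hk⟩ := hidx
  have horb : orbitSet (G := G) c = c := orbitSet_eq_of_cnj hM hc hinv
  have hreg : ∀ g : G, ¬ p ∣ orderOf g → g ∈ N := by
    intro g hg
    rw [← QuotientGroup.eq_one_iff, ← orderOf_eq_one_iff]
    refine Nat.eq_one_of_dvd_coprimes (((hp.coprime_iff_not_dvd).2 hg).symm.pow_right k)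
      (orderOf_map_dvd (QuotientGroup.mk' N) g) ?_
    rw [← hk, Subgroup.index]
    exact orderOf_dvd_natCard _
  have hβfn : IsBlockFn hM N (bFn hM N c) := ⟨c, hc, rfl⟩
  have hcov : cred hM (covElt (G := G) hM hc) = bFn hM N c := by
    rw [cred_covElt, bFn_eq_ext0, gFn_block hM hc]
    congr 2
    refine Subtype.ext ?_
    show indVal (orbitSet c) = indVal c
    rw [horb]
  have hall : ∀ B, IsPBlock M B → (∃ χ ∈ B, ∃ θ ∈ c, Over N χ θ) → gFn hM B = bFn hM N c := by
    rintro B hB ⟨χ, hχ, θ, hθ, hover⟩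
    have h1 : gconv (gFn hM B) (bFn hM N c) = gFn hM B := by
      rw [← hcov]; exact gFn_mul_covElt hM hc hB hχ hθ hover
    have hsupp : ∀ g, g ∉ N → gFn hM B g = 0 := fun g hg => by
      rw [gFn_block hM hB]
      exact cred_bIdem_singular hM hB (by_contra fun h => hg (hreg g h))
    rcases hβfn.occ_or hsupp (invBy_gFn hM B N) (by rw [gFn_mul_gFn hM hB hB, if_pos rfl]) with h | h
    · rw [← h1, h]
    · rw [h1] at h
      exact absurd h (gFn_ne_zero hM hB)
  obtain ⟨θ, hθ⟩ := isPBlock_nonempty hM hc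
  obtain ⟨χ₀, hχ₀, hover⟩ := exists_irr_over (G := G) θ.2
  set χ : IrrCharacter G := ⟨χ₀, hχ₀⟩
  set B := blockOf M (χ : G → ℂ)
  have hB : IsPBlock M B := isPBlock_blockOf χ
  have hχB : χ ∈ B := mem_blockOf_self hM χ
  have hBset : B = covSet c := by
    ext ψ
    constructor
    · intro hψ φ hφ
      have := mem_orbitSet_of_covers hM hB hc hχB hθ (show Over N χ θ from hover) hψ hφ
      rwa [horb] at this
    · intro hψ
      obtain ⟨φ, hφ⟩ := exists_over (N := N) ψ
      rw [gFn_injOn hM hB (isPBlock_blockOf ψ) ((hall B hB ⟨χ, hχB, θ, hθ, hover⟩).trans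
        (hall _ (isPBlock_blockOf ψ) ⟨ψ, mem_blockOf_self hM ψ, φ, hψ φ hφ, hφ⟩).symm)]
      exact mem_blockOf_self hM ψ
  refine ⟨B, hB, hBset, hall B hB ⟨χ, hχB, θ, hθ, hover⟩, fun g => ?_, fun P hP => ?_⟩
  · rw [blockCoeff_eq_coef, hBset, coef_covSet (horb.le)]
    by_cases hg : g ∈ N
    · rw [extendByZero_mem _ hg]
      exact ((subgroupBlockCoeff_coe N c ⟨g, hg⟩).trans (blockCoeff_eq_coef c _)).symm
    · rw [extendByZero_not_mem _ hg, subgroupBlockCoeff_not_mem _ _ hg]
  · obtain ⟨h1, h2, h3⟩ := fong_defect hM hc hB hχB hθ hover horb.le (fun B' hB' hc' => by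
      rw [gFn_injOn hM hB' hB ((hall B' hB' hc').trans (hall B hB ⟨χ, hχB, θ, hθ, hover⟩).symm)]) hP
    refine ⟨?_, h2, h3⟩
    rw [sup_comm, ← Subgroup.index_eq_one]
    obtain ⟨i, -, hi⟩ := (Nat.dvd_prime_pow hp).1 (hk ▸ Subgroup.index_dvd_of_le (le_sup_right : N ≤ P ⊔ N))
    rcases Nat.eq_zero_or_pos i with h0 | h0
    · rw [hi, h0, pow_zero]
    · exact absurd (hi ▸ dvd_pow_self p h0.ne') h1

include hM in
theorem cnj_eq_of_stabilizes {N : Subgroup G} [hN : N.Normal] {c : Set (IrrCharacter N)}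
    (hc : IsPBlock M c) (hst : ∀ x : G, StabilizesBlock N c x) (x : G) :
    cnj x (bFn hM N c) = bFn hM N c :=
  ((stabilizesBlock_iff hM hc x).1 (hst x)).2

end CfsgLib.Block
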