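import Cfsg.Agent.Lib.BlockNilBij

/-!
# Blocks with a defect group of order two
-/

set_option autoImplicit false

universe u

namespace CfsgLib.Block

open Cfsg CfsgLib.Char
open scoped ComplexConjugate Classical

variable {G : Type u} [Group G] [Fintype G] {p : ℕ} [Fact p.Prime] {M : Ideal AlgInt}

/-- A block with a defect group of order two is nilpotent. -/
theorem isNilpotentBlock_of_card_two (hM : IsPModular p M) {B : Set (IrrCharacter G)}
    (hB : IsPBlock M B) {D : Subgroup G} (hD : IsDefectGroup p M B D) (hcard : Nat.card D = 2) :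
    IsNilpotentBlock p M B := by
  refine ⟨hB, fun Q e hQ x hx _ _ => ?_⟩
  obtain ⟨he, hpair⟩ := (isBrauerPairOf_iff (hM := hM)).1 hQ
  obtain ⟨y, hy⟩ := conjLE_defectGroup_of_brauerNonzero hM hB hD hpair.1.1 hpair.brauerNonzero
  have hle : Nat.card Q ≤ 2 := by
    rw [← card_map_conj Q y, ← hcard]
    exact Subgroup.card_le_of_le hy
  rw [Subgroup.mem_centralizer_iff]
  intro q hq
  by_cases hq1 : q = 1
  · rw [hq1, one_mul, mul_one]
  have hq' : x * q * x⁻¹ ∈ Q := (Subgroup.mem_normalizer_iff.1 hx q).1 hq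
  have hq'1 : x * q * x⁻¹ ≠ 1 := fun h => hq1 (by
    have : x * q = x * 1 := by rw [mul_one]; exact mul_inv_eq_one.1 h
    exact mul_left_cancel this)
  have heq : x * q * x⁻¹ = q := by
    by_contra hne
    have h3 : Finset.card ({1, q, x * q * x⁻¹} : Finset G) = 3 := by
      rw [Finset.card_insert_of_notMem, Finset.card_insert_of_notMem, Finset.card_singleton]
      · simp [Ne.symm hne]
      · simp [Ne.symm hq1, Ne.symm hq'1]
    have hsub : ({1, q, x * q * x⁻¹} : Finset G) ⊆ Finset.univ.filter (· ∈ Q) := by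
      intro z hz
      simp only [Finset.mem_insert, Finset.mem_singleton] at hz
      rcases hz with rfl | rfl | rfl <;> simp [SetLike.mem_coe.1 hq, hq', one_mem]
    have := Finset.card_le_card hsub
    rw [h3, ← Fintype.card_subtype] at this
    rw [Nat.card_eq_fintype_card] at hle
    have e : Fintype.card {z : G // z ∈ Q} = Fintype.card Q := Fintype.card_congr (Equiv.refl _)
    omega
  exact (mul_inv_eq_iff_eq_mul.1 heq).symm

/-- A block with a defect group of order two has two characters, equal on regular elements. -/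
theorem two_block (hM : IsPModular p M) {B : Set (IrrCharacter G)} (hB : IsPBlock M B)
    {D : Subgroup G} (hD : IsDefectGroup p M B D) (hcard : Nat.card D = 2) :
    Nat.card B = 2 ∧ ∀ χ ∈ B, ∀ ξ ∈ B, ∀ g : G, ¬ p ∣ orderOf g →
      (χ : G → ℂ) g = (ξ : G → ℂ) g := by
  have hnil := isNilpotentBlock_of_card_two hM hB hD hcard
  obtain ⟨ψ, hψ⟩ := exists_maxPair_defectGroup hM hB hD
  obtain ⟨χ₀, hχ₀, h0, h1, -⟩ := nilData hM (Nat.card G) le_rfl B hnil
  have hk : Nat.card B = 2 := by
    rw [nil_card hψ hnil hχ₀ h0]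
    have hab : ∀ a b : D, a * b = b * a := by
      intro a b
      haveI : Fact (Nat.Prime 2) := ⟨Nat.prime_two⟩
      haveI := isCyclic_of_prime_card hcard
      letI := IsCyclic.commGroup (α := D)
      exact mul_comm a b
    rw [card_irrCharacter]
    calc Nat.card (ConjClasses D) = Nat.card D := (Nat.card_congr (Equiv.ofBijective ConjClasses.mk
          ⟨fun a b h => by
            obtain ⟨c, hc⟩ := isConj_iff.1 (ConjClasses.mk_eq_mk_iff_isConj.1 h)
            rw [hab c a, mul_inv_cancel_right] at hc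
            exact hc, ConjClasses.mk_surjective⟩)).symm
      _ = 2 := hcard
  refine ⟨hk, ?_⟩
  have hd : p ^ blockDefect p B = 2 := (card_defectGroup hM hB hD).symm.trans hcard
  have hm : ∀ ξ ∈ B, blockMat p B ξ χ₀ = 1 := by
    intro ξ hξ
    obtain ⟨A, hA, hsym, hsq⟩ := exists_intMat hM hB
    have hmul : ∀ η ∈ B, A ξ η = A ξ χ₀ * A η χ₀ := fun η hη => by
      have h := nil_blockMat_mul hψ hnil hχ₀ h0 hξ hη
      rw [hA ξ hξ, hA ξ hξ, hA η hη] at h
      exact_mod_cast h
    have h00 : A χ₀ χ₀ = 1 := by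
      have := (hA χ₀ hχ₀ χ₀).symm.trans h1
      exact_mod_cast this
    set S := Finset.univ.filter (fun η : IrrCharacter G => η ∈ B) with hS
    have hScard : S.card = 2 := by
      rw [hS, ← Fintype.card_subtype, ← Nat.card_eq_fintype_card]
      exact hk
    have hsum : ∑ η ∈ S, A η χ₀ ^ 2 = 2 := by
      have h := hsq χ₀ hχ₀ χ₀ hχ₀
      rw [h00, mul_one] at h
      rw [show (2 : ℤ) = (p : ℤ) ^ blockDefect p B by exact_mod_cast hd.symm, ← h]
      refine Finset.sum_congr rfl fun η hη => ?_
      rw [hsym χ₀ hχ₀ η (Finset.mem_filter.1 hη).2]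
      ring
    have hone : A ξ χ₀ ^ 2 = 1 := by
      by_cases hξ0 : ξ = χ₀
      · rw [hξ0, h00, one_pow]
      have hsub : ({χ₀, ξ} : Finset (IrrCharacter G)) = S :=
        Finset.eq_of_subset_of_card_le (by
          intro z hz
          simp only [Finset.mem_insert, Finset.mem_singleton] at hz
          rcases hz with rfl | rfl <;> simp [hS, hξ, hχ₀])
          (by rw [hScard, Finset.card_pair (Ne.symm hξ0)])
      rw [← hsub, Finset.sum_pair (Ne.symm hξ0), h00] at hsum
      linarith
    rcases sq_eq_one_iff.1 hone with h | h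
    · rw [hA ξ hξ, h, Int.cast_one]
    · exfalso
      have hr := congrFun (nil_regPart hψ hnil hχ₀ h0 hξ) 1
      rw [Pi.smul_apply, smul_eq_mul,
        regPart_apply_regular (by rw [orderOf_one]; exact (Fact.out : p.Prime).not_dvd_one),
        regPart_apply_regular (by rw [orderOf_one]; exact (Fact.out : p.Prime).not_dvd_one),
        hA ξ hξ, h, ← charDegree_cast ξ.2.isCharacter', ← charDegree_cast χ₀.2.isCharacter'] at hr
      have h2 : (charDegree (ξ : G → ℂ) : ℤ) = -(charDegree (χ₀ : G → ℂ) : ℤ) := by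
        have : ((charDegree (ξ : G → ℂ) : ℤ) : ℂ) = ((-(charDegree (χ₀ : G → ℂ) : ℤ) : ℤ) : ℂ) := by
          push_cast; rw [hr]; push_cast; ring
        exact_mod_cast this
      have := charDegree_pos ξ
      omega
  intro χ hχ ξ hξ g hg
  have e : ∀ η ∈ B, (η : G → ℂ) g = (χ₀ : G → ℂ) g := fun η hη => by
    have h := eq_mul_of_regPart_eq (nil_regPart hψ hnil hχ₀ h0 hη) hg
    rw [hm η hη, one_mul] at h
    exact h
  rw [e χ hχ, e ξ hξ]

end CfsgLib.Block
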