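import Cfsg.Agent.Lib.BlockCovering
import Cfsg.Agent.Lib.CharClifford

/-!
# Fong–Reynolds: characters over a block and its stabiliser
-/

set_option autoImplicit false
set_option linter.style.haveILetI false
set_option linter.unusedSectionVars false
set_option linter.unusedFintypeInType false

namespace CfsgLib.Block

open Cfsg CfsgLib.Char
open scoped ComplexConjugate Classical

universe u

variable {G : Type u} [Group G] [Fintype G] {p : ℕ} {M : Ideal AlgInt}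
variable {N : Subgroup G} [hN : N.Normal] [Fintype N] {T : Subgroup G} [Fintype T] (hNT : N ≤ T)

/-- `θ` lies under the character `ψ` of an intermediate subgroup. -/
def OverT (ψ : IrrCharacter T) (θ : IrrCharacter N) : Prop :=
  classInner (fun n : N => (ψ : T → ℂ) ⟨(n : G), hNT n.2⟩) (θ : N → ℂ) ≠ 0

variable [Fintype (N.subgroupOf T)]

/-- The character of `N` read inside `T`. -/
noncomputable def inT (θ : IrrCharacter N) : IrrCharacter (N.subgroupOf T) :=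
  irrMap (Subgroup.subgroupOfEquivOfLe hNT).symm θ

theorem inT_apply (θ : IrrCharacter N) (n : N.subgroupOf T) :
    (inT hNT θ : N.subgroupOf T → ℂ) n = (θ : N → ℂ) ⟨((n : T) : G), Subgroup.mem_subgroupOf.1 n.2⟩ :=
  rfl

theorem inner_inT (ψ : IrrCharacter T) (θ : IrrCharacter N) :
    classInner (fun n : N.subgroupOf T => (ψ : T → ℂ) n) (inT hNT θ : N.subgroupOf T → ℂ) =
      classInner (fun n : N => (ψ : T → ℂ) ⟨(n : G), hNT n.2⟩) (θ : N → ℂ) :=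
  inner_comp_equiv (Subgroup.subgroupOfEquivOfLe hNT)
    (fun n : N => (ψ : T → ℂ) ⟨(n : G), hNT n.2⟩) (θ : N → ℂ)

theorem over_inT (ψ : IrrCharacter T) (θ : IrrCharacter N) :
    Over (N.subgroupOf T) ψ (inT hNT θ) ↔ OverT hNT ψ θ := by
  rw [Over, OverT, inner_inT]

theorem conjFn_inT {θ φ : IrrCharacter N} (t : T) :
    (inT hNT φ : N.subgroupOf T → ℂ) = conjFn t (inT hNT θ : N.subgroupOf T → ℂ) ↔
      (φ : N → ℂ) = conjFn (t : G) (θ : N → ℂ) := by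
  refine ⟨fun h => funext fun n => ?_, fun h => funext fun n => ?_⟩
  · exact congrFun h ⟨⟨n, hNT n.2⟩, Subgroup.mem_subgroupOf.2 n.2⟩
  · exact congrFun h ⟨((n : T) : G), Subgroup.mem_subgroupOf.1 n.2⟩

theorem inertia_inT (θ : IrrCharacter N) :
    inertia (inT hNT θ : N.subgroupOf T → ℂ) = (inertia (θ : N → ℂ)).subgroupOf T := by
  ext t
  rw [Subgroup.mem_subgroupOf, mem_inertia, mem_inertia, eq_comm, conjFn_inT hNT t, eq_comm]

include hN in
/-- Characters over a character with inertia group inside `T` induce irreducibly. -/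
theorem exists_indFun_eq {θ : IrrCharacter N} (hT : inertia (θ : N → ℂ) ≤ T) {ψ : IrrCharacter T}
    (h : OverT hNT ψ θ) : ∃ χ : IrrCharacter G, (χ : G → ℂ) = indFun T (ψ : T → ℂ) ∧
      classInner (fun n : N => (χ : G → ℂ) n) (θ : N → ℂ) =
        classInner (fun n : N => (ψ : T → ℂ) ⟨(n : G), hNT n.2⟩) (θ : N → ℂ) ∧
      ∀ ψ' : IrrCharacter T, OverT hNT ψ' θ → (χ : G → ℂ) = indFun T (ψ' : T → ℂ) → ψ' = ψ := by
  haveI hN' : (N.subgroupOf T).Normal := inferInstance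
  have hind := isCharacter_indFun ψ.2.isCharacter' (H := T)
  have hTi : (T.index : ℂ) ≠ 0 := Nat.cast_ne_zero.2 Subgroup.index_ne_zero_of_finite
  have h1 : indFun T (ψ : T → ℂ) 1 ≠ 0 := by
    rw [indFun_one_apply]
    exact mul_ne_zero hTi (irr_one_ne_zero ψ)
  obtain ⟨χ, hχ⟩ : ∃ χ : IrrCharacter G, classInner (indFun T (ψ : T → ℂ)) (χ : G → ℂ) ≠ 0 := by
    by_contra hne
    push Not at hne
    refine h1 ?_
    rw [classFunction_eq_sum _ (indFun_classFunction _)]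
    simp [hne]
  choose m hm using fun ξ : IrrCharacter T =>
    inner_character_nat (isCharacter_restrict χ.2.isCharacter' T) ξ.2.isCharacter'
  have hresN : ∀ ξ : IrrCharacter T, IsCharacter N (fun n : N => (ξ : T → ℂ) ⟨(n : G), hNT n.2⟩) :=
    fun ξ => by
      obtain ⟨d, ρ, hρ⟩ := ξ.2.isCharacter'
      exact ⟨d, ρ.comp (Subgroup.inclusion hNT), funext fun n => congrFun hρ _⟩
  choose k hk using fun ξ : IrrCharacter T => inner_character_nat (hresN ξ) θ.2.isCharacter'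
  have hm1 : 1 ≤ m ψ := Nat.one_le_iff_ne_zero.2 fun h0 => hχ (by
    rw [CfsgLib.Char.frobenius _ _ (irr_classFunction χ), ← CfsgLib.Char.inner_conj_symm]
    show conj (classInner (fun t : T => (χ : G → ℂ) t) (ψ : T → ℂ)) = 0
    rw [hm, h0, Nat.cast_zero, map_zero])
  have hkψ : 1 ≤ k ψ := Nat.one_le_iff_ne_zero.2 fun h0 => h (by rw [hk, h0, Nat.cast_zero])
  have ha : classInner (fun n : N => (χ : G → ℂ) n) (θ : N → ℂ) = ((∑ ξ, m ξ * k ξ : ℕ) : ℂ) := by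
    rw [mult_eq_sum χ.2 T hNT, Nat.cast_sum]
    exact Finset.sum_congr rfl fun ξ _ => by rw [hm, hk, Nat.cast_mul]
  have hle : k ψ ≤ ∑ ξ, m ξ * k ξ :=
    (Nat.le_mul_of_pos_left (k ψ) hm1).trans
      (Finset.single_le_sum (f := fun ξ => m ξ * k ξ) (fun ξ _ => Nat.zero_le _) (Finset.mem_univ ψ))
  have hover : Over N χ θ := by
    show classInner (fun n : N => (χ : G → ℂ) n) (θ : N → ℂ) ≠ 0
    rw [ha]
    exact Nat.cast_ne_zero.2 (by omega)
  have hψdeg : (ψ : T → ℂ) 1 = (k ψ : ℂ) * ((inertia (θ : N → ℂ)).relIndex T : ℂ) * (θ : N → ℂ) 1 := by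
    rw [clifford_degree ψ.2 (inT hNT θ).2 ((over_inT hNT ψ θ).2 h), inner_inT, hk, inertia_inT]
    rfl
  have hχdeg := clifford_degree χ.2 θ.2 hover
  rw [ha] at hχdeg
  have hindeg : indFun T (ψ : T → ℂ) 1 =
      (k ψ : ℂ) * ((inertia (θ : N → ℂ)).index : ℂ) * (θ : N → ℂ) 1 := by
    rw [indFun_one_apply, hψdeg, ← Subgroup.relIndex_mul_index hT, Nat.cast_mul]
    ring
  have heq : indFun T (ψ : T → ℂ) = (χ : G → ℂ) := by
    refine eq_of_constituent_of_degree hind χ.2 hχ ?_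
    rw [hindeg, hχdeg, ← charDegree_cast θ.2.isCharacter', ← Nat.cast_mul, ← Nat.cast_mul,
      ← Nat.cast_mul, ← Nat.cast_mul, Complex.natCast_re, Complex.natCast_re, Nat.cast_le]
    exact Nat.mul_le_mul_right _ (Nat.mul_le_mul_right _ hle)
  have hsum : ∑ ξ, m ξ * k ξ = k ψ := by
    have h2 := congrFun heq 1
    rw [hindeg, hχdeg] at h2
    have h3 := mul_right_cancel₀ (irr_one_ne_zero θ) h2
    have h4 := mul_right_cancel₀ (Nat.cast_ne_zero.2 Subgroup.index_ne_zero_of_finite) h3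
    exact (Nat.cast_injective h4).symm
  refine ⟨χ, heq.symm, by rw [ha, hsum, hk], fun ψ' hψ' he => ?_⟩
  by_contra hne
  have hm' : 1 ≤ m ψ' := Nat.one_le_iff_ne_zero.2 fun h0 => by
    have h5 := CfsgLib.Char.frobenius (ψ' : T → ℂ) (χ : G → ℂ) (irr_classFunction χ)
    rw [← he, irr_inner_self χ.2, ← CfsgLib.Char.inner_conj_symm] at h5
    rw [show classInner (fun t : T => (χ : G → ℂ) t) (ψ' : T → ℂ) = 0 by rw [hm, h0, Nat.cast_zero],
      map_zero] at h5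
    exact one_ne_zero h5
  have hk' : 1 ≤ k ψ' := Nat.one_le_iff_ne_zero.2 fun h0 => hψ' (by rw [hk, h0, Nat.cast_zero])
  have hpair : m ψ * k ψ + m ψ' * k ψ' ≤ ∑ ξ, m ξ * k ξ := by
    have h6 := Finset.sum_le_sum_of_subset (f := fun ξ => m ξ * k ξ)
      (Finset.subset_univ ({ψ, ψ'} : Finset (IrrCharacter T)))
    rwa [Finset.sum_pair (Ne.symm hne)] at h6
  have h7 : k ψ ≤ m ψ * k ψ := Nat.le_mul_of_pos_left _ hm1
  have h8 : 1 ≤ m ψ' * k ψ' := Nat.mul_pos hm' hk'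
  omega

variable {b : Set (IrrCharacter N)}

include hN in
/-- Every character of a covering block of the stabiliser lies over the block. -/
theorem overT_of_covers (hM : IsPModular p M) (hb : IsPBlock M b) {B' : Set (IrrCharacter T)}
    (hB' : IsPBlock M B') {ψ₀ : IrrCharacter T} (hψ₀ : ψ₀ ∈ B') {θ₀ : IrrCharacter N} (hθ₀ : θ₀ ∈ b)
    (h : OverT hNT ψ₀ θ₀) {ψ : IrrCharacter T} (hψ : ψ ∈ B') : ∃ θ ∈ b, OverT hNT ψ θ := by
  obtain ⟨φ, hφ⟩ := exists_over (N := N.subgroupOf T) ψ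
  obtain ⟨t, θ', ⟨θ, hθ, rfl⟩, ht⟩ := mem_orbitSet_of_covers hM hB'
    (isPBlock_irrMap (Subgroup.subgroupOfEquivOfLe hNT).symm hb) hψ₀
    (Set.mem_image_of_mem _ hθ₀) ((over_inT hNT ψ₀ θ₀).2 h) hψ hφ
  exact ⟨θ, hθ, (over_inT hNT ψ θ).1 ((over_conj t ht).1 hφ)⟩

/-- The stabiliser condition. -/
def IsStab (b : Set (IrrCharacter N)) (T : Subgroup G) : Prop :=
  ∀ g : G, g ∈ T ↔ ∀ θ ∈ b, ∀ θ' : IrrCharacter N,
    (∀ n : N, (θ' : N → ℂ) n = (θ : N → ℂ) ⟨g * n * g⁻¹, hN.conj_mem n n.2 g⟩) → θ' ∈ b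

theorem mem_of_conj (hM : IsPModular p M) (hb : IsPBlock M b) (hT : IsStab b T) {g : G}
    {θ φ : IrrCharacter N} (hθ : θ ∈ b) (hφ : φ ∈ b) (h : (φ : N → ℂ) = conjFn g (θ : N → ℂ)) :
    g ∈ T := by
  refine (hT g).2 fun θ₁ hθ₁ θ' hθ' => ?_
  rw [isPBlock_eq_blockOf hM hb hφ]
  exact sameBlock_conjFn g h (funext hθ') (sameBlock_of_mem hM hb hθ hθ₁)

theorem inertia_le (hM : IsPModular p M) (hb : IsPBlock M b) (hT : IsStab b T) {θ : IrrCharacter N}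
    (hθ : θ ∈ b) : inertia (θ : N → ℂ) ≤ T :=
  fun _ hg => mem_of_conj hM hb hT hθ hθ hg.symm

include hN in
/-- The Fong–Reynolds map on characters. -/
theorem exists_frMap (hM : IsPModular p M) (hb : IsPBlock M b) (hT : IsStab b T) :
    ∃ F : IrrCharacter T → IrrCharacter G, ∀ (ψ : IrrCharacter T) (θ : IrrCharacter N), θ ∈ b →
      OverT hNT ψ θ → (F ψ : G → ℂ) = indFun T (ψ : T → ℂ) ∧ Over N (F ψ) θ ∧
        ∀ (ψ' : IrrCharacter T) (θ' : IrrCharacter N), θ' ∈ b → OverT hNT ψ' θ' →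
          (F ψ : G → ℂ) = indFun T (ψ' : T → ℂ) → ψ' = ψ := by
  obtain ⟨χ₁⟩ : Nonempty (IrrCharacter G) := ⟨⟨_, isIrrCharacter_one⟩⟩
  let F : IrrCharacter T → IrrCharacter G := fun ψ =>
    if h : IsIrrCharacter G (indFun T (ψ : T → ℂ)) then ⟨_, h⟩ else χ₁
  refine ⟨F, fun ψ θ hθ h => ?_⟩
  obtain ⟨χ, hχ, hmult, huniq⟩ := exists_indFun_eq hNT (inertia_le hM hb hT hθ) h
  have hF : F ψ = χ := by
    show dite _ _ _ = χ
    rw [dif_pos (hχ ▸ χ.2)]
    exact Subtype.ext hχ.symm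
  rw [hF]
  have hov : Over N χ θ := by
    show classInner _ _ ≠ 0
    rw [hmult]; exact h
  refine ⟨hχ, hov, fun ψ' θ' hθ' h' he => ?_⟩
  obtain ⟨χ', hχ', hmult', -⟩ := exists_indFun_eq hNT (inertia_le hM hb hT hθ') h'
  have hov' : Over N χ θ' := by
    rw [show χ = χ' from Subtype.ext (he.trans hχ'.symm)]
    show classInner _ _ ≠ 0
    rw [hmult']; exact h'
  obtain ⟨g, hg⟩ := exists_conj_of_over hov hov'
  have hgT := mem_of_conj hM hb hT hθ hθ' hg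
  refine huniq ψ' ?_ he
  refine (over_inT hNT ψ' θ).1 ?_
  exact (over_conj (⟨g, hgT⟩ : T) ((conjFn_inT hNT ⟨g, hgT⟩).2 hg)).1 ((over_inT hNT ψ' θ').2 h')

include hN in
/-- The structure of the block induced by a covering block of the stabiliser. -/
theorem fr_block (hM : IsPModular p M) (hb : IsPBlock M b) (hT : IsStab b T)
    {B' : Set (IrrCharacter T)} (hB' : IsPBlock M B')
    (hcov : ∃ ψ ∈ B', ∃ θ ∈ b, OverT hNT ψ θ) :
    ∃ (B : Set (IrrCharacter G)) (F : IrrCharacter T → IrrCharacter G),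
      IsInducedBlock M T B' B ∧ F '' B' = B ∧
      (∀ ψ ∈ B', (F ψ : G → ℂ) = indFun T (ψ : T → ℂ) ∧ ∃ θ ∈ b, Over N (F ψ) θ) ∧
      ∀ ψ ∈ B', ∀ (ψ' : IrrCharacter T) (θ' : IrrCharacter N), θ' ∈ b → OverT hNT ψ' θ' →
          (F ψ : G → ℂ) = indFun T (ψ' : T → ℂ) → ψ' = ψ := by
  obtain ⟨F, hF⟩ := exists_frMap hNT hM hb hT
  obtain ⟨ψ₀, hψ₀, θ₀, hθ₀, h₀⟩ := hcov
  have hall : ∀ ψ ∈ B', ∃ θ ∈ b, OverT hNT ψ θ := fun ψ hψ =>
    overT_of_covers hNT hM hb hB' hψ₀ hθ₀ h₀ hψ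
  have hind := isInducedBlock_indFun hM ψ₀ (hF ψ₀ θ₀ hθ₀ h₀).1
  rw [← isPBlock_eq_blockOf hM hB' hψ₀] at hind
  refine ⟨_, F, hind, image_eq_of_induced hM F (fun ψ hψ => ?_) (fun ψ hψ ψ' hψ' he => ?_) hind,
    fun ψ hψ => ?_, fun ψ hψ ψ' θ' hθ' h' he => ?_⟩
  · obtain ⟨θ, hθ, h⟩ := hall ψ hψ
    exact (hF ψ θ hθ h).1
  · obtain ⟨θ, hθ, h⟩ := hall ψ hψ
    obtain ⟨θ', hθ', h'⟩ := hall ψ' hψ'
    exact ((hF ψ θ hθ h).2.2 ψ' θ' hθ' h' (by rw [he]; exact (hF ψ' θ' hθ' h').1)).symm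
  · obtain ⟨θ, hθ, h⟩ := hall ψ hψ
    exact ⟨(hF ψ θ hθ h).1, θ, hθ, (hF ψ θ hθ h).2.1⟩
  · obtain ⟨θ, hθ, h⟩ := hall ψ hψ
    exact (hF ψ θ hθ h).2.2 ψ' θ' hθ' h' he

end CfsgLib.Block
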