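import Cfsg.Agent.Lib.BlockFullDefect

/-!
# Defect groups as Sylow intersections
-/

set_option autoImplicit false
set_option linter.style.haveILetI false
set_option linter.unusedSectionVars false
set_option linter.unusedFintypeInType false

namespace CfsgLib.Block

open Cfsg CfsgLib.Char
open scoped ComplexConjugate Classical

universe u

variable {G : Type u} [Group G] [Fintype G] {p : ℕ} [Fact p.Prime] {M : Ideal AlgInt}

/-- A sum of a function constant on left cosets. -/
theorem sum_eq_card_mul_sum_cosets {H : Subgroup G} [Fintype H] (h : G → ℂ)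
    (hh : ∀ (x : G) (t : H), h (x * t) = h x) :
    ∑ g : G, h g = (Nat.card H : ℂ) * ∑ q : G ⧸ H, h (Quotient.out q) := by
  have hbij : Function.Bijective (fun x : (G ⧸ H) × H => Quotient.out x.1 * (x.2 : G)) := by
    refine ⟨fun x y hxy => ?_, fun a => ?_⟩
    · have hq : x.1 = y.1 := by
        have e1 : ∀ z : (G ⧸ H) × H, QuotientGroup.mk (Quotient.out z.1 * (z.2 : G)) = z.1 := fun z =>
          (QuotientGroup.mk_mul_of_mem _ z.2.2).trans (QuotientGroup.out_eq' z.1)
        rw [← e1 x, ← e1 y]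
        exact congrArg QuotientGroup.mk hxy
      refine Prod.ext hq (Subtype.ext ?_)
      simp only [hq] at hxy
      exact mul_left_cancel hxy
    · refine ⟨(QuotientGroup.mk a, ⟨(Quotient.out (QuotientGroup.mk a : G ⧸ H))⁻¹ * a, ?_⟩), ?_⟩
      · exact QuotientGroup.eq.1 (QuotientGroup.out_eq' (QuotientGroup.mk a : G ⧸ H))
      · exact mul_inv_cancel_left _ _
  rw [← (Equiv.ofBijective _ hbij).sum_comp, Fintype.sum_prod_type, Finset.mul_sum]
  refine Finset.sum_congr rfl fun q _ => ?_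
  simp only [Equiv.ofBijective_apply, hh, Finset.sum_const, Finset.card_univ, nsmul_eq_mul,
    ← Nat.card_eq_fintype_card]

/-- With a normal defect group, some element of a defect class separates a Sylow subgroup. -/
theorem exists_sylow_inter_normal (hM : IsPModular p M) (D : Subgroup G) [D.Normal]
    (hD : IsPGroup p D) {b : Set (IrrCharacter G)} (hb : IsPBlock M b)
    (hd : p ^ blockDefect p b = Nat.card D) (S : Sylow p G) :
    ∃ x : G, x ∈ Subgroup.centralizer (D : Set G) ∧ ¬ p ∣ orderOf x ∧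
      Nat.card D = p ^ (Nat.card (Subgroup.centralizer ({x} : Set G))).factorization p ∧
      ∀ r ∈ (S : Subgroup G), x⁻¹ * r * x ∈ (S : Subgroup G) → r ∈ D := by
  have hp := (Fact.out : p.Prime)
  haveI := charP_resField hM
  obtain ⟨x₀, hx₀⟩ := exists_defectClass hM hb
  obtain ⟨hne₀, hev₀⟩ := (isDefectClass_iff hM hb x₀).1 hx₀
  obtain ⟨hC₀, hcard₀⟩ := classDefect_eq_of_supp hM D hD hb hd hne₀
  have hDS : D ≤ (S : Subgroup G) := by
    obtain ⟨T, hT⟩ := hD.exists_le_sylow
    obtain ⟨g, hg⟩ := MulAction.exists_smul_eq G T S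
    intro z hz
    rw [← hg]
    refine ⟨g⁻¹ * z * g⁻¹⁻¹, hT ((inferInstance : D.Normal).conj_mem z hz g⁻¹), ?_⟩
    show g * (g⁻¹ * z * g⁻¹⁻¹) * g⁻¹ = z
    group
  set e := coef (indVal b) with he
  have hec : ∀ g y : G, e (y * g * y⁻¹) = e g := fun g y => coef_classFunction _ g y
  let f : G → ℂ := fun x => ∑ u : (S : Subgroup G), e (x * u)
  have hfmem : ∀ x, f x ∈ locRing hM := fun x => sum_mem fun u _ => indVal_mem hM hb _
  have hfS : ∀ (s : (S : Subgroup G)) (x : G), f ((s : G) * x * (s : G)⁻¹) = f x := fun s x => by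
    refine Fintype.sum_equiv (MulAut.conj s⁻¹).toEquiv _ _ fun u => ?_
    rw [← hec (x * (((MulAut.conj s⁻¹).toEquiv u : (S : Subgroup G)) : G)) (s : G)]
    congr 1
    show _ = (s : G) * (x * ((s : G)⁻¹ * (u : G) * (s : G)⁻¹⁻¹)) * (s : G)⁻¹
    group
  -- classes of the inverse element
  set x₁ := x₀⁻¹ with hx₁
  have hprop : ∀ g : G, g * x₁ * g⁻¹ ∈ Subgroup.centralizer (D : Set G) ∧
      ¬ p ∣ orderOf (g * x₁ * g⁻¹) ∧
      Nat.card D = p ^ (Nat.card (Subgroup.centralizer ({g * x₁ * g⁻¹} : Set G))).factorization p := by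
    intro g
    refine ⟨(inferInstance : (Subgroup.centralizer (D : Set G)).Normal).conj_mem _ (inv_mem hC₀) g, ?_, ?_⟩
    · rw [← MulAut.conj_apply, MulEquiv.orderOf_eq, hx₁, orderOf_inv]
      exact defectClass_regular hM hb hx₀
    · have e : Subgroup.centralizer ({x₁} : Set G) = Subgroup.centralizer ({x₀} : Set G) := by
        ext z
        rw [hx₁, Subgroup.mem_centralizer_singleton_iff, Subgroup.mem_centralizer_singleton_iff]
        exact ⟨fun h => by simpa using (Commute.inv_right h).eq, fun h => (Commute.inv_right h).eq⟩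
      rw [card_centralizer_conj, e, hcard₀]
  by_contra hno
  push Not at hno
  have hf0 : ∀ g : G, res hM ⟨f (g * x₁ * g⁻¹), hfmem _⟩ = 0 := by
    intro g
    set x := g * x₁ * g⁻¹ with hx
    obtain ⟨hxC, hxo, hxc⟩ := hprop g
    obtain ⟨r₀, hr₀, hr₀', hr₀D⟩ := hno x hxC hxo hxc
    set R : Subgroup G :=
      (S : Subgroup G) ⊓ (S : Subgroup G).map (MulAut.conj x).toMonoidHom with hR
    have hmemR : ∀ r : R, x⁻¹ * (r : G) * x ∈ (S : Subgroup G) := fun r => by
      obtain ⟨z, hz, e⟩ := r.2.2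
      rw [← e]
      show x⁻¹ * (x * z * x⁻¹) * x ∈ _
      rwa [show x⁻¹ * (x * z * x⁻¹) * x = z by group]
    have hRp : IsPGroup p R := S.isPGroup'.to_le inf_le_left
    have hlt : Nat.card D < Nat.card R := by
      have hDR : D ≤ R := fun z hz => ⟨hDS hz, z, hDS hz, by
        show x * z * x⁻¹ = z
        rw [← Subgroup.mem_centralizer_iff.1 hxC z hz, mul_inv_cancel_right]⟩
      refine lt_of_not_ge fun hge => hr₀D ?_
      rw [Subgroup.eq_of_le_of_card_ge hDR hge]
      exact ⟨hr₀, x⁻¹ * r₀ * x, hr₀', show x * (x⁻¹ * r₀ * x) * x⁻¹ = r₀ by group⟩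
    have e1 : (⟨f x, hfmem _⟩ : locRing hM) =
        ∑ u : (S : Subgroup G), (⟨e (x * u), indVal_mem hM hb _⟩ : locRing hM) :=
      Subtype.ext (by rw [AddSubmonoidClass.coe_finset_sum])
    rw [e1, map_sum]
    refine sum_eq_zero_of_fixed hRp
      (fun (r : R) (u : (S : Subgroup G)) => (⟨(x⁻¹ * (r : G) * x) * (u : G) * (r : G)⁻¹,
        mul_mem (mul_mem (hmemR r) u.2) (inv_mem r.2.1)⟩ : (S : Subgroup G)))
      (fun (u : (S : Subgroup G)) => Subtype.ext (by simp)) (fun (a c : R) (u : (S : Subgroup G)) => Subtype.ext (show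
        x⁻¹ * ((a : G) * c) * x * u * ((a : G) * c)⁻¹ =
          x⁻¹ * (a : G) * x * (x⁻¹ * (c : G) * x * u * (c : G)⁻¹) * (a : G)⁻¹ by group)) _
      (fun r u => ?_) fun u hu => ?_
    · refine congrArg (res hM) (Subtype.ext ?_)
      show e (x * (x⁻¹ * (r : G) * x * u * (r : G)⁻¹)) = e (x * u)
      rw [show x * (x⁻¹ * (r : G) * x * u * (r : G)⁻¹) = (r : G) * (x * u) * (r : G)⁻¹ by group, hec]
    · by_contra hne
      have hle : R ≤ Subgroup.centralizer ({x * u} : Set G) := by
        intro r hr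
        have h : x⁻¹ * r * x * u * r⁻¹ = (u : G) := congrArg Subtype.val (hu ⟨r, hr⟩)
        refine Subgroup.mem_centralizer_singleton_iff.2 ?_
        calc r * (x * u) = x * (x⁻¹ * r * x * u * r⁻¹) * r := by group
          _ = x * u * r := by rw [h]
      have hcd := classDefect_le_blockDefect hM hb (g := x * u) hne
      obtain ⟨k, hk⟩ := hRp.exists_card_eq
      have h2 := (hp.pow_dvd_iff_le_factorization Nat.card_pos.ne').1
        (hk ▸ Subgroup.card_dvd_of_le hle)
      rw [hk, ← hd] at hlt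
      exact absurd (Nat.pow_le_pow_right hp.pos (h2.trans hcd)) (not_le.2 hlt)
  -- the total
  have hcoset := sum_eq_card_mul_sum_cosets (H := (S : Subgroup G)) (fun g => f (g⁻¹ * x₁ * g))
    fun x t => by
      show f _ = f _
      rw [← hfS t ((x * (t : G))⁻¹ * x₁ * (x * t))]
      congr 1
      group
  choose m hm using fun χ : IrrCharacter G =>
    inner_character_nat (G := (S : Subgroup G)) isIrrCharacter_one.isCharacter'
      (isCharacter_restrict χ.2.isCharacter' (S : Subgroup G))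
  have hm' : ∀ χ : IrrCharacter G, ∑ u : (S : Subgroup G), conj ((χ : G → ℂ) u) =
      (Nat.card (S : Subgroup G) : ℂ) * m χ := fun χ => by
    rw [← hm χ, classInner]
    simp only [one_mul]
    rw [← mul_assoc, mul_inv_cancel₀ (natCard_ne_zero _), one_mul]
  have htot : ∑ g : G, f (g⁻¹ * x₁ * g) = (Nat.card (S : Subgroup G) : ℂ) *
      ∑ χ : IrrCharacter G, indVal b χ * (χ : G → ℂ) x₀ * m χ := by
    show ∑ g : G, ∑ u : (S : Subgroup G), e (g⁻¹ * x₁ * g * u) = _
    rw [Finset.sum_comm, Finset.mul_sum]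
    have h2 : ∀ u : (S : Subgroup G), ∑ g : G, e (g⁻¹ * x₁ * g * u) =
        ∑ χ : IrrCharacter G, indVal b χ * conj ((χ : G → ℂ) x₁) * conj ((χ : G → ℂ) u) := fun u => by
      rw [← sum_coef_conj]
      refine Fintype.sum_equiv (Equiv.inv G) _ _ fun g => ?_
      show e (g⁻¹ * x₁ * g * u) = e (g⁻¹ * x₁ * g⁻¹⁻¹ * u)
      rw [inv_inv]
    simp only [h2]
    rw [Finset.sum_comm]
    refine Finset.sum_congr rfl fun χ _ => ?_
    rw [← Finset.mul_sum, hm', hx₁, isCharacter_inv_eq_conj χ.2.isCharacter', Complex.conj_conj]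
    ring
  rw [htot] at hcoset
  have hkey := mul_left_cancel₀ (natCard_ne_zero _) hcoset
  -- it is a local non-unit
  obtain ⟨ψ, hψ⟩ := isPBlock_nonempty hM hb
  set F := Finset.univ.filter (fun χ : IrrCharacter G => χ ∈ b) with hF
  have hsupp : ∀ w : IrrCharacter G → ℂ, ∑ χ : IrrCharacter G, indVal b χ * w χ = ∑ χ ∈ F, w χ := by
    intro w
    rw [hF, Finset.sum_filter]
    refine Finset.sum_congr rfl fun χ _ => ?_
    by_cases h : χ ∈ b <;> simp [indVal, h]
  have hk : ∀ χ ∈ F, p ^ blockMin p b ∣ charDegree (χ : G → ℂ) := fun χ hχ =>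
    (pow_dvd_pow p (blockMin_le (Finset.mem_filter.1 hχ).2)).trans
      (Nat.ordProj_dvd _ _)
  choose! k hkeq using hk
  obtain ⟨c, hc⟩ : p ^ blockMin p b ∣ (Subgroup.centralizer ({x₀} : Set G)).index := by
    rw [← defectClass_factorization_index hM hb hx₀]
    exact Nat.ordProj_dvd _ _
  have hc0 : ¬ p ∣ c := by
    rintro ⟨c', rfl⟩
    have h1 := defectClass_factorization_index hM hb hx₀
    have h2 : p ^ (blockMin p b + 1) ∣ (Subgroup.centralizer ({x₀} : Set G)).index :=
      ⟨c', by rw [hc, pow_succ]; ring⟩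
    have h3 := (hp.pow_dvd_iff_le_factorization Subgroup.index_ne_zero_of_finite).1 h2
    omega
  set tot := ∑ χ ∈ F, k χ * m χ with htotdef
  have hdiv : ¬ p ∣ tot := by
    have hS : Nat.card (S : Subgroup G) = p ^ (Nat.card G).factorization p := S.card_eq_multiplicity
    have h1 : (Nat.card (S : Subgroup G) : ℂ) * ((∑ χ ∈ F, charDegree (χ : G → ℂ) * m χ : ℕ) : ℂ) =
        ((∑ χ ∈ F, charDegree (χ : G → ℂ) ^ 2 : ℕ) : ℂ) := by
      have hsum : ∑ u : (S : Subgroup G), ∑ χ : IrrCharacter G,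
          indVal b χ * ((χ : G → ℂ) 1 * conj ((χ : G → ℂ) u)) =
          ∑ χ : IrrCharacter G, indVal b χ * ((χ : G → ℂ) 1 * conj ((χ : G → ℂ) 1)) := by
        rw [Finset.sum_eq_single (1 : (S : Subgroup G)) (fun u _ hu => ?_)
          (fun h => absurd (Finset.mem_univ _) h)]
        · rfl
        · obtain ⟨n, hn⟩ := S.isPGroup' u
          have h0 := coef_pElement_eq_zero hM (bIdem_sq hM hb)
            (u := (u : G)) (fun h => hu (Subtype.ext h)) (n := n)
            (by simpa using congrArg Subtype.val hn)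
          simp only [coef, mul_eq_zero, inv_eq_zero, natCard_ne_zero, false_or] at h0
          rw [← h0]
          exact Finset.sum_congr rfl fun χ _ => by
            show _ = indVal b χ * _ * _
            ring
      rw [Finset.sum_comm] at hsum
      simp only [← Finset.mul_sum, hm', irr_conj_one, hsupp] at hsum
      push_cast
      rw [Finset.mul_sum]
      refine (Finset.sum_congr rfl fun χ _ => ?_).trans (hsum.trans (Finset.sum_congr rfl fun χ _ => ?_))
      · rw [charDegree_cast χ.2.isCharacter']; ring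
      · rw [charDegree_cast χ.2.isCharacter']; ring
    rw [hS, ← Nat.cast_mul, Nat.cast_inj] at h1
    have h2 : ∑ χ ∈ F, charDegree (χ : G → ℂ) * m χ = p ^ blockMin p b * tot := by
      rw [htotdef, Finset.mul_sum]
      exact Finset.sum_congr rfl fun χ hχ => by conv_lhs => rw [hkeq χ hχ]; rw [mul_assoc]
    have h3 := factorization_sum_sq hM hb
    rw [← hF, ← h1, h2, ← mul_assoc, ← pow_add] at h3
    intro hd'
    obtain ⟨t, ht⟩ := hd'
    have ht0 : tot ≠ 0 := by
      intro h0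
      rw [h0, mul_zero] at h2
      rw [h2, mul_zero] at h1
      have h4 : charDegree (ψ : G → ℂ) ^ 2 ≤ ∑ χ ∈ F, charDegree (χ : G → ℂ) ^ 2 :=
        Finset.single_le_sum (f := fun χ : IrrCharacter G => charDegree (χ : G → ℂ) ^ 2) (fun _ _ => Nat.zero_le _)
          (Finset.mem_filter.2 ⟨Finset.mem_univ _, hψ⟩)
      have h5 := pow_pos (charDegree_pos ψ) 2
      omega
    rw [Nat.factorization_mul (pow_ne_zero _ hp.ne_zero) ht0, hp.factorization_pow, Finsupp.add_apply,
      Finsupp.single_eq_same] at h3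
    have h6 : 1 ≤ tot.factorization p := (hp.dvd_iff_one_le_factorization ht0).1 ⟨t, ht⟩
    omega
  have hωm : ∀ χ : IrrCharacter G, centralChar (χ : G → ℂ) x₀ * (k χ * m χ : ℕ) ∈ locRing hM :=
    fun χ => mul_mem (centralChar_mem hM χ x₀) (natCast_mem _ _)
  have hprod : (c : ℂ) * ∑ q : G ⧸ (S : Subgroup G), f ((Quotient.out q)⁻¹ * x₁ * Quotient.out q) =
      ∑ χ ∈ F, centralChar (χ : G → ℂ) x₀ * (k χ * m χ : ℕ) := by
    have hkey' : ∑ q : G ⧸ (S : Subgroup G), f ((Quotient.out q)⁻¹ * x₁ * Quotient.out q) =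
        ∑ χ ∈ F, (χ : G → ℂ) x₀ * m χ := by
      rw [← hkey, ← hsupp]
      exact Finset.sum_congr rfl fun χ _ => by ring
    rw [hkey', Finset.mul_sum]
    refine Finset.sum_congr rfl fun χ hχ => ?_
    have h1 := centralChar_mul_degree χ x₀
    rw [hc, ← charDegree_cast χ.2.isCharacter', hkeq χ hχ] at h1
    push_cast at h1 ⊢
    have hp0 : ((p : ℂ) ^ blockMin p b) ≠ 0 := pow_ne_zero _ (Nat.cast_ne_zero.2 hp.ne_zero)
    refine mul_left_cancel₀ hp0 ?_
    linear_combination (-(m χ : ℂ)) * h1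
  let zf : G ⧸ (S : Subgroup G) → locRing hM :=
    fun q => ⟨f ((Quotient.out q)⁻¹ * x₁ * (Quotient.out q)⁻¹⁻¹), hfmem _⟩
  let zw : IrrCharacter G → locRing hM := fun χ => ⟨_, hωm χ⟩
  have hz : (c : locRing hM) * ∑ q, zf q = ∑ χ ∈ F, zw χ := by
    apply Subtype.ext
    push_cast
    simpa [zf, zw, inv_inv] using hprod
  have h0 := congrArg (res hM) hz
  have hz0 : ∀ q ∈ (Finset.univ : Finset (G ⧸ (S : Subgroup G))), res hM (zf q) = 0 :=
    fun q _ => hf0 (Quotient.out q)⁻¹
  rw [map_mul, map_sum, Finset.sum_eq_zero hz0, mul_zero, map_sum] at h0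
  have hterm : ∀ χ ∈ F, res hM (zw χ) = ev hM ψ (cl hM x₀) * ((k χ * m χ : ℕ) : ResField M) := by
    intro χ hχ
    rw [← map_natCast (res hM), ev_eq_of_mem hM hb hψ (Finset.mem_filter.1 hχ).2, ev_cl, ← map_mul]
    exact congrArg (res hM) (Subtype.ext (by simp [zw]))
  rw [Finset.sum_congr rfl hterm, ← Finset.mul_sum, ← Nat.cast_sum, ← htotdef] at h0
  letI : Field (ResField M) := @Ideal.Quotient.field _ _ M hM.2.1
  rcases mul_eq_zero.1 h0.symm with h | h
  · exact hev₀ ψ hψ h
  · exact hdiv ((CharP.cast_eq_zero_iff (ResField M) p tot).1 h)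

/-- A defect group is the intersection of a Sylow subgroup with a conjugate. -/
theorem exists_sylow_inter (hM : IsPModular p M) {B : Set (IrrCharacter G)} (hB : IsPBlock M B)
    {D : Subgroup G} (hD : IsDefectGroup p M B D) (P : Sylow p G) (hDP : D ≤ P) :
    ∃ x : G, ¬ p ∣ orderOf x ∧ D ≤ Subgroup.centralizer ({x} : Set G) ∧
      Nat.card D = p ^ (Nat.card (Subgroup.centralizer ({x} : Set G))).factorization p ∧
      (P : Subgroup G) ⊓ (P : Subgroup G).map (MulAut.conj x).toMonoidHom = D := by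
  obtain ⟨N, hN⟩ : ∃ N : Subgroup G, N = Subgroup.normalizer (D : Set G) := ⟨_, rfl⟩
  have hDp := isPGroup_defectGroup hM hB hD
  have hDN : D ≤ N := hN ▸ Subgroup.le_normalizer
  have hCN : Subgroup.centralizer (D : Set G) ≤ N := hN ▸ Subgroup.centralizer_le_normalizer (D : Set G)
  haveI : (D.subgroupOf N).Normal := (Subgroup.normal_subgroupOf_iff_le_normalizer hDN).2 hN.le
  have hD' : IsPGroup p (D.subgroupOf N) := hDp.of_equiv (Subgroup.subgroupOfEquivOfLe hDN).symm
  obtain ⟨b, hb⟩ := exists_induced hM hDp hCN hN.le hDN hB hD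
  have hbd := card_defect_of_induced hM hDp hN.le hDN hb hD
  obtain ⟨S, hS⟩ := (show IsPGroup p (((P : Subgroup G) ⊓ N).subgroupOf N) from
    (P.isPGroup'.to_le inf_le_left).of_equiv (Subgroup.subgroupOfEquivOfLe inf_le_right).symm).exists_le_sylow
  obtain ⟨x, hxC, hxo, hxcard, hxS⟩ := exists_sylow_inter_normal hM _ hD' hb.1 hbd S
  have hxC' : (x : G) ∈ Subgroup.centralizer (D : Set G) := (mem_centralizer_subgroupOf hDN x).1 hxC
  refine ⟨x, by rwa [Subgroup.orderOf_coe], fun z hz => Subgroup.mem_centralizer_singleton_iff.2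
    (Subgroup.mem_centralizer_iff.1 hxC' z hz), card_eq_of_normalizer hDp hxC' ?_, ?_⟩
  · rw [← Nat.card_congr (Subgroup.subgroupOfEquivOfLe hDN).toEquiv, hxcard, card_centralizer_subgroup,
      show (Subgroup.centralizer ({(x : G)} : Set G) ⊓ N : Subgroup G) =
        Subgroup.centralizer ({(x : G)} : Set G) ⊓ Subgroup.normalizer (D : Set G) by rw [← hN]]
  set R := (P : Subgroup G) ⊓ (P : Subgroup G).map (MulAut.conj (x : G)).toMonoidHom with hR
  have hDR : D ≤ R := fun z hz => ⟨hDP hz, z, hDP hz, by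
    show (x : G) * z * (x : G)⁻¹ = z
    rw [← Subgroup.mem_centralizer_iff.1 hxC' z hz, mul_inv_cancel_right]⟩
  by_contra hne
  haveI : Group.IsNilpotent R := (P.isPGroup'.to_le inf_le_left : IsPGroup p R).isNilpotent
  have htop : D.subgroupOf R < ⊤ := lt_top_iff_ne_top.2 fun h =>
    hne (le_antisymm (Subgroup.subgroupOf_eq_top.1 h) hDR)
  obtain ⟨w, hwN, hwD⟩ := SetLike.exists_of_lt (normalizerCondition_of_isNilpotent _ htop)
  refine hwD (Subgroup.mem_subgroupOf.2 ?_)
  have hwn : (w : G) ∈ N := by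
    rw [hN, Subgroup.mem_normalizer_iff]
    have h := Subgroup.mem_normalizer_iff.1 hwN
    intro z
    constructor
    · intro hz
      exact Subgroup.mem_subgroupOf.1 ((h ⟨z, hDR hz⟩).1 (Subgroup.mem_subgroupOf.2 hz))
    · intro hz
      have hzR : z ∈ R := by
        have := mul_mem (mul_mem (inv_mem w.2) (hDR hz)) w.2
        rwa [show (w : G)⁻¹ * ((w : G) * z * (w : G)⁻¹) * w = z by group] at this
      exact Subgroup.mem_subgroupOf.1 ((h ⟨z, hzR⟩).2 (Subgroup.mem_subgroupOf.2 hz))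
  obtain ⟨z, hz, hze⟩ := w.2.2
  have hzeq : (x : G)⁻¹ * (w : G) * x = z := by
    rw [← hze]
    show (x : G)⁻¹ * ((x : G) * z * (x : G)⁻¹) * x = z
    group
  have hzN : (x : G)⁻¹ * (w : G) * x ∈ N := mul_mem (mul_mem (inv_mem x.2) hwn) x.2
  exact Subgroup.mem_subgroupOf.1 (hxS ⟨w, hwn⟩
    (hS (Subgroup.mem_subgroupOf.2 ⟨w.2.1, hwn⟩))
    (hS (Subgroup.mem_subgroupOf.2 ⟨show (x : G)⁻¹ * (w : G) * x ∈ (P : Subgroup G) from hzeq ▸ hz, hzN⟩)))

end CfsgLib.Block
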