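import Cfsg.Agent.Lib.BlockOrth
import Cfsg.Agent.Lib.BlockDefect

/-!
# Block idempotents are integral at every prime ideal above `p`
-/

set_option autoImplicit false
set_option linter.style.haveILetI false
set_option linter.unusedSectionVars false

namespace CfsgLib.Block

open Cfsg CfsgLib.Char
open scoped ComplexConjugate Classical

universe u

variable {G : Type u} [Group G] [Fintype G] {p : ℕ} {M : Ideal AlgInt}

/-- The idempotent of a block is integral at every ideal over the same prime. -/
theorem indVal_mem_any (hM : IsPModular p M) {B : Set (IrrCharacter G)} (hB : IsPBlock M B)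
    {M' : Ideal AlgInt} (hM' : IsPModular p M') : indVal B ∈ intRing hM' := by
  refine mem_intRing.2 fun g => ?_
  by_cases hg : p ∣ orderOf g
  · rw [coef_indVal_singular hM hB hg]
    exact Subring.zero_mem _
  obtain ⟨t, ht⟩ := exists_block_degree_eq hM.1
    (fun χ : IrrCharacter G => indVal B χ * conj ((χ : G → ℂ) g)) fun z hz => by
      rw [← block_sum_singular_regular hM hB hg hz]
      exact Finset.sum_congr rfl fun χ _ => by ring
  have hint : IsIntegral ℤ (∑ χ : IrrCharacter G, indVal B χ * conj ((χ : G → ℂ) g) * (t χ : ℂ)) := by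
    refine IsIntegral.sum _ fun χ _ => (IsIntegral.mul ?_
      (isCharacter_isIntegral (isCharacter_conj χ.2.isCharacter') g)).mul ?_
    · unfold indVal
      split_ifs
      exacts [isIntegral_one, isIntegral_zero]
    · exact (isIntegral_algebraMap (R := ℤ) (A := ℂ) (x := (t χ : ℤ)))
  have e : coef (indVal B) g = ((p ^ (Nat.card G).factorization p : ℕ) : ℂ) / (Nat.card G : ℂ) *
      ∑ χ : IrrCharacter G, indVal B χ * conj ((χ : G → ℂ) g) * (t χ : ℂ) := by
    rw [← blockCoeff_eq_coef, blockCoeff, finsum_mem_eq_indVal, div_mul_eq_mul_div,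
      inv_mul_eq_div]
    congr 1
    rw [Nat.cast_pow, ← ht]
    exact Finset.sum_congr rfl fun χ _ => by ring
  rw [e]
  exact mul_mem (natCast_div_mem hM' Nat.card_pos.ne' dvd_rfl) (isIntegral_mem hM' hint)

/-- Blocks do not depend on the ideal over the prime. -/
theorem sameBlock_indep (hM : IsPModular p M) {M' : Ideal AlgInt} (hM' : IsPModular p M')
    {χ ψ : IrrCharacter G} (h : SameBlock M (χ : G → ℂ) (ψ : G → ℂ)) :
    SameBlock M' (χ : G → ℂ) (ψ : G → ℂ) :=
  blockOf_subset_of_indVal_mem hM
    (indVal_mem_any hM' (isPBlock_blockOf χ) hM) (mem_blockOf_self hM' χ) h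

/-- An algebraic integer in the local ideal lies in the ideal. -/
theorem mem_of_memLocalIdeal (hM : IsPModular p M) {r : AlgInt} (h : MemLocalIdeal M (r : ℂ)) :
    r ∈ M := by
  obtain ⟨a, b, ha, hb, e⟩ := h
  have hab : a = r * b := by
    apply Subtype.ext
    rw [MulMemClass.coe_mul, ← e, div_mul_cancel₀ _ (not_mem_ne_zero hb)]
  exact (hM.2.1.isPrime.mem_or_mem (hab ▸ ha)).resolve_right hb

/-- The block part of a function vanishing on singular elements vanishes there. -/
theorem block_part_singular_eq_zero (hM : IsPModular p M) {B : Set (IrrCharacter G)}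
    (hB : IsPBlock M B) (c : IrrCharacter G → ℂ)
    (h0 : ∀ z : G, p ∣ orderOf z → ∑ χ, c χ * (χ : G → ℂ) z = 0) {z : G} (hz : p ∣ orderOf z) :
    ∑ χ : IrrCharacter G, indVal B χ * c χ * (χ : G → ℂ) z = 0 := by
  set F : G → ℂ := ∑ φ : IrrCharacter G, c φ • (φ : G → ℂ) with hF
  have hc : ∀ χ : IrrCharacter G, c χ = classInner F (χ : G → ℂ) := fun χ => by
    rw [hF, inner_sum_left]
    simp [CfsgLib.Char.inner_smul_left, irr_classInner]
  calc ∑ χ : IrrCharacter G, indVal B χ * c χ * (χ : G → ℂ) z
      = (Nat.card G : ℂ)⁻¹ * ∑ x, F x *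
          ∑ χ : IrrCharacter G, indVal B χ * (χ : G → ℂ) z * conj ((χ : G → ℂ) x) := by
        simp only [hc, classInner, Finset.mul_sum, Finset.sum_mul]
        rw [Finset.sum_comm]
        exact Finset.sum_congr rfl fun x _ => Finset.sum_congr rfl fun χ _ => by ring
    _ = 0 := by
        rw [Finset.sum_eq_zero fun x _ => ?_, mul_zero]
        by_cases hx : p ∣ orderOf x
        · rw [show F x = 0 by simpa [hF, Finset.sum_apply] using h0 x hx, zero_mul]
        · rw [block_sum_singular_regular hM hB hx hz, mul_zero]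

/-- Values at `p`-regular elements lie in the field of the `p'`-part of the order. -/
theorem irr_regular_mem_adjoin (hp : p.Prime) (χ : IrrCharacter G) {g : G} (hg : ¬ p ∣ orderOf g) :
    (χ : G → ℂ) g ∈ IntermediateField.adjoin ℚ ({Complex.exp (2 * Real.pi * Complex.I /
      ((Nat.card G / p ^ (Nat.card G).factorization p : ℕ) : ℂ))} : Set ℂ) := by
  set m := Nat.card G / p ^ (Nat.card G).factorization p with hm
  have hm0 : m ≠ 0 := (Nat.ordCompl_pos p Nat.card_pos.ne').ne'
  haveI : NeZero m := ⟨hm0⟩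
  obtain ⟨n, ρ, hρ, he⟩ := χ.2
  obtain ⟨b, μ, -, hμ, hpw⟩ := exists_rep_eigenbasis ρ g
  have hdvd : orderOf g ∣ m := by
    have h := orderOf_dvd_natCard g
    rw [← Nat.ordProj_mul_ordCompl_eq_self (Nat.card G) p] at h
    exact (((hp.coprime_iff_not_dvd.mpr hg).symm).pow_right _).dvd_of_dvd_mul_left h
  have h1 := hpw 1
  simp only [pow_one] at h1
  rw [← he, h1]
  refine sum_mem fun i _ => ?_
  obtain ⟨j, -, hj⟩ := (Complex.isPrimitiveRoot_exp m hm0).eq_pow_of_pow_eq_one (ξ := μ i) (by
    obtain ⟨k, hk⟩ := hdvd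
    rw [hk, pow_mul, hμ, one_pow])
  rw [← hj]
  exact pow_mem (IntermediateField.mem_adjoin_simple_self ℚ _) j

end CfsgLib.Block
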