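import Cfsg.Agent.Lib.BlockPairLocal
import Cfsg.Agent.Lib.BlockSource
import Cfsg.Agent.Lib.BlockPrincipalType

/-!
# Blocks induced from a subgroup containing the centralizer of a defect group
-/

set_option autoImplicit false

universe u

namespace CfsgLib.Block

open Cfsg CfsgLib.Char
open scoped Classical

variable {G : Type u} [Group G] [Fintype G] {p : ℕ} [Fact p.Prime] {M : Ideal AlgInt}
  {H : Subgroup G} [Fintype H] {D : Subgroup G}

theorem ext0_trc_restrict {R : Type*} [CommRing R] (hDH : D ≤ H)
    (hC : Subgroup.centralizer (D : Set G) ≤ H) (a : G → R) :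
    ext0 H (trc (D.subgroupOf H) fun h : H => a h) = trc D a := by
  funext g
  by_cases hg : g ∈ H
  · lift g to H using hg
    rw [ext0_coe]
    simp only [trc]
    exact if_congr (mem_centralizer_subgroupOf hDH g) rfl rfl
  · rw [trc, if_neg (fun h => hg (hC h))]
    exact dif_neg hg

theorem invBy_cred (hM : IsPModular p M) {K : Type u} [Group K] [Fintype K]
    (v : intRing (G := K) hM) (S : Subgroup K) : InvBy S (cred hM v) :=
  fun k _ g => cred_classFunction hM v g k

theorem trc_cred_resLift_mul (hM : IsPModular p M) (hD : IsPGroup p D) (hDH : D ≤ H)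
    (hC : Subgroup.centralizer (D : Set G) ≤ H) (v w : intRing (G := G) hM) :
    trc (D.subgroupOf H) (cred hM (resLift hM H (v * w))) =
      trc (D.subgroupOf H) (cred hM (resLift hM H v * resLift hM H w)) := by
  haveI := charP_resField hM
  have hD' : IsPGroup p (D.subgroupOf H) := hD.of_equiv (Subgroup.subgroupOfEquivOfLe hDH).symm
  have hr : ∀ u : intRing (G := G) hM, cred hM (resLift hM H u) = fun h : H => cred hM u h :=
    fun u => funext fun h => cred_resLift hM H u h
  refine ext0_injective H ?_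
  rw [hr, ext0_trc_restrict hDH hC, cred_mul_eq_gconv,
    trc_gconv hD (invBy_cred hM v D) (invBy_cred hM w D), cred_mul_eq_gconv,
    trc_gconv hD' (invBy_cred hM _ _) (invBy_cred hM _ _), ext0_gconv, hr, hr,
    ext0_trc_restrict hDH hC, ext0_trc_restrict hDH hC]

/-- Eigenvalues only see the coefficients on the centralizer of a defect group. -/
theorem ev_congr_trc (hM : IsPModular p M) {K : Type u} [Group K] [Fintype K]
    {b : Set (IrrCharacter K)} (hb : IsPBlock M b) {E : Subgroup K}
    (hE : IsDefectGroup p M b E) {ξ : IrrCharacter K} (hξ : ξ ∈ b) {v w : intRing (G := K) hM}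
    (h : trc E (cred hM v) = trc E (cred hM w)) : ev hM ξ v = ev hM ξ w := by
  rw [ev_eq_sum, ev_eq_sum hM w ξ]
  refine Finset.sum_congr rfl fun C _ => ?_
  by_cases h0 : ev hM ξ (cl hM (Quotient.out C)) = 0
  · rw [h0, mul_zero, mul_zero]
  obtain ⟨k, hk, hkC⟩ := exists_conj_mem_centralizer hM hb (isPGroup_defectGroup hM hb hE)
    (brauerNonzero_defectGroup hM hb hE) hξ h0
  obtain ⟨x, rfl⟩ := isConj_iff.1 hk
  have e := congrFun h (x * Quotient.out C * x⁻¹)
  simp only [trc, if_pos hkC, cred_classFunction] at e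
  rw [e]

/-- A block induces whenever the centralizer of its defect group lies in the subgroup. -/
theorem inducedBlockDefined_of_defect (hM : IsPModular p M) {b : Set (IrrCharacter H)}
    (hb : IsPBlock M b) (hDH : D ≤ H) (hD : IsDefectGroup p M b (D.subgroupOf H))
    (hC : Subgroup.centralizer (D : Set G) ≤ H) : InducedBlockDefined M H b := by
  have hDp : IsPGroup p D :=
    (isPGroup_defectGroup hM hb hD).of_equiv (Subgroup.subgroupOfEquivOfLe hDH)
  obtain ⟨ξ, hξ⟩ := isPBlock_nonempty hM hb
  have hcst : ∀ c : locRing hM, resLift hM H (cst hM c) = cst hM c := by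
    intro c
    refine intRing_ext fun h => ?_
    rw [coef_resLift]
    show coef (fun _ : IrrCharacter G => (c : ℂ)) (h : G) = coef (fun _ : IrrCharacter H => (c : ℂ)) h
    rw [coef_const, coef_const]
    simp
  let φ : intRing (G := G) hM →+* ResField M :=
    { toFun := fun v => ev hM ξ (resLift hM H v)
      map_one' := by rw [← map_one (cst (G := G) hM), hcst, map_one, map_one]
      map_zero' := by rw [← map_zero (cst (G := G) hM), hcst, map_zero, map_zero]
      map_add' := fun v w => by rw [resLift_add, map_add]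
      map_mul' := fun v w => by
        rw [← map_mul]
        exact ev_congr_trc hM hb hD hξ (trc_cred_resLift_mul hM hDp hDH hC v w) }
  obtain ⟨χ, hχ⟩ := exists_eq_ev hM φ
    (fun v hv => ev_resLift_of_cred hM H v hv ξ)
    (fun c => by show ev hM ξ (resLift hM H (cst hM c)) = _; rw [hcst, ev_cst])
  exact ⟨blockOf M (χ : G → ℂ), isInducedBlock_of_ev hM H hb (isPBlock_blockOf χ) hξ
    (mem_blockOf_self hM χ) fun v => RingHom.congr_fun hχ v⟩

/-- The Brauer images of an induced block fix the pairs of the inducing block. -/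
theorem gconv_trc_of_induced (hM : IsPModular p M) {b : Set (IrrCharacter H)}
    {B : Set (IrrCharacter G)} (hind : IsInducedBlock M H b B) (hDH : D ≤ H)
    (hC : Subgroup.centralizer (D : Set G) ≤ H) {γ : G → ResField M} (hγ : PairFn hM D γ)
    (hb : gconv (trc D (bFn hM H b)) γ = γ) : gconv (trc D (gFn hM B)) γ = γ := by
  haveI := charP_resField hM
  obtain ⟨hb1, hB, hev⟩ := (isInducedBlock_iff hM H b B).1 hind
  rcases hγ.trc_gFn_or hB with h | h
  · exact h
  exfalso
  obtain ⟨χ, hχ⟩ := isPBlock_nonempty hM hB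
  set E := D.subgroupOf H with hE
  set γ' : H → ResField M := fun k => γ k with hγ'
  have hE' : IsPGroup p E := hγ.1.of_equiv (Subgroup.subgroupOfEquivOfLe hDH).symm
  have hPH : PairIn hM (G := H) b E γ' := pairIn_subgroupOf hγ hDH hC hb1 hb
  have hγsq : gconv γ' γ' = γ' := hPH.1.2.mul_self
  set F : intRing (G := H) hM → H → ResField M := fun v => gconv (trc E (cred hM v)) γ' with hF
  have hFmul : ∀ v w, F (v * w) = gconv (F v) (F w) := by
    intro v w
    have hcomm : gconv (trc E (cred hM w)) γ' = gconv γ' (trc E (cred hM w)) :=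
      gconv_comm_of_invBy (invBy_trc (Subgroup.centralizer_le_normalizer _) (invBy_cred hM w _))
        fun g hg => hPH.1.2.supp hg
    calc F (v * w) = gconv (trc E (cred hM v)) (gconv (trc E (cred hM w)) (gconv γ' γ')) := by
          rw [hγsq, hF]
          simp only []
          rw [cred_mul_eq_gconv, trc_gconv hE' (invBy_cred hM v E) (invBy_cred hM w E), gconv_assoc]
      _ = gconv (trc E (cred hM v)) (gconv (gconv γ' (trc E (cred hM w))) γ') := by
          rw [← gconv_assoc (trc E (cred hM w)), hcomm]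
      _ = gconv (F v) (F w) := by
          simp only [hF]
          rw [gconv_assoc, gconv_assoc]
  -- the residual of the block idempotent after removing the induced one
  set a := resLift hM H (bIdem hM hB) with ha
  set e := bIdem hM hb1 with he
  have hev0 : ∀ η, ev hM η (e - a * e) = 0 := by
    intro η
    rw [map_sub, map_mul, he, ev_bIdem]
    by_cases hη : η ∈ b
    · rw [ha, hev η hη χ hχ, ev_bIdem, if_pos hχ, if_pos hη, one_mul, sub_self]
    · rw [if_neg hη, mul_zero, sub_zero]
  have hnil := pow_mem_redIdeal hM (e - a * e) hev0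
  have hFe : F e = γ' := by
    simp only [hF, he]
    rw [← gFn_block hM hb1]
    exact hPH.2.2
  have hFa : F a = 0 := by
    refine ext0_injective H ?_
    simp only [hF]
    rw [ext0_gconv, show cred hM a = fun k : H => gFn hM B k from funext fun k => by
      rw [ha, cred_resLift, gFn_block hM hB], ext0_trc_restrict hDH hC,
      ext0_restrict_blockFn hγ.2 hC, h, ext0_zero]
  have hFsub : F (e - a * e) = γ' := by
    have hadd : ∀ u v, F (u + v) = F u + F v := by
      intro u v
      funext g
      simp only [hF, gconv, Pi.add_apply, trc]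
      rw [← Finset.sum_add_distrib]
      refine Finset.sum_congr rfl fun x _ => ?_
      split_ifs <;> simp [cred_add, add_mul]
    have h1 := hadd (e - a * e) (a * e)
    rw [sub_add_cancel, hFe, hFmul, hFa, zero_gconv, add_zero] at h1
    exact h1.symm
  have hpow : ∀ k, F ((e - a * e) ^ (k + 1)) = γ' := by
    intro k
    induction k with
    | zero => rw [pow_one, hFsub]
    | succ k ih => rw [pow_succ, hFmul, ih, hFsub, hγsq]
  obtain ⟨k, hk⟩ : ∃ k, Fintype.card (IrrCharacter H) = k + 1 := by
    obtain ⟨η, hη⟩ := isPBlock_nonempty hM hb1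
    exact ⟨_, (Nat.succ_pred_eq_of_pos (Fintype.card_pos_iff.2 ⟨η⟩)).symm⟩
  rw [hk] at hnil
  have hz : F ((e - a * e) ^ (k + 1)) = 0 := by
    simp only [hF]
    rw [show cred hM ((e - a * e) ^ (k + 1)) = 0 from funext hnil, trc_zero, zero_gconv]
  rw [hpow] at hz
  exact hPH.1.2.ne_zero hz

/-- A defect group above that of the inducing block meets the centralizer in its centre. -/
theorem exists_defectGroup_centralizer_le (hM : IsPModular p M) {b : Set (IrrCharacter H)}
    {B : Set (IrrCharacter G)} (hind : IsInducedBlock M H b B) (hDH : D ≤ H)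
    (hD : IsDefectGroup p M b (D.subgroupOf H)) (hC : Subgroup.centralizer (D : Set G) ≤ H) :
    ∃ R, IsDefectGroup p M B R ∧ D ≤ R ∧ R ⊓ Subgroup.centralizer (D : Set G) ≤ D := by
  haveI := charP_resField hM
  have hb := hind.1
  have hDp : IsPGroup p D :=
    (isPGroup_defectGroup hM hb hD).of_equiv (Subgroup.subgroupOfEquivOfLe hDH)
  set t := trc D (bFn hM H b) with ht
  have hrestr : bFn hM H b = ext0 H (gFn hM b) := bFn_eq_ext0 hM H b
  have hte : ext0 H (trc (D.subgroupOf H) (gFn hM b)) = t := by
    rw [ht, hrestr, show (gFn hM b) = fun k : H => ext0 H (gFn hM b) k from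
      funext fun k => (ext0_coe H _ k).symm, ext0_trc_restrict hDH hC]
    rw [show (fun k : H => ext0 H (gFn hM b) k) = gFn hM b from funext fun k => ext0_coe H _ k]
  have hD' : IsPGroup p (D.subgroupOf H) := isPGroup_defectGroup hM hb hD
  have hneb : trc (D.subgroupOf H) (gFn hM b) ≠ 0 := by
    obtain ⟨c, hc, hne⟩ := brauerNonzero_defectGroup hM hb hD
    intro h0
    apply hne
    have := congrFun h0 c
    simp only [trc, if_pos hc, gFn_block hM hb] at this
    exact this
  have htne : t ≠ 0 := fun h0 => hneb (ext0_injective H (by rw [hte, h0, ext0_zero]))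
  have hts : ∀ g, g ∉ Subgroup.centralizer (D : Set G) → t g = 0 := fun g hg => trc_supp _ hg
  have hti : InvBy (Subgroup.centralizer (D : Set G)) t := by
    refine invBy_trc (Subgroup.centralizer_le_normalizer _) fun k hk g => ?_
    rw [hrestr]
    by_cases hg : g ∈ H
    · obtain ⟨g', rfl⟩ : ∃ g' : H, (g' : G) = g := ⟨⟨g, hg⟩, rfl⟩
      obtain ⟨k', rfl⟩ : ∃ k' : H, (k' : G) = k := ⟨⟨k, hC hk⟩, rfl⟩
      rw [← Subgroup.coe_inv, ← Subgroup.coe_mul, ← Subgroup.coe_mul, ext0_coe, ext0_coe,
        gFn_classFunction]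
    · have hg' : k * g * k⁻¹ ∉ H := fun h => hg (by
        have := mul_mem (mul_mem (inv_mem (hC hk)) h) (hC hk)
        rwa [show k⁻¹ * (k * g * k⁻¹) * k = g by group] at this)
      rw [show ext0 H (gFn hM b) (k * g * k⁻¹) = 0 from dif_neg hg',
        show ext0 H (gFn hM b) g = 0 from dif_neg hg]
  have htsq : gconv t t = t := by
    rw [← hte, ← ext0_gconv, ← trc_gconv hD' (invBy_gFn hM b _) (invBy_gFn hM b _),
      gFn_mul_self hb]
  obtain ⟨γ, hγb, hγ⟩ := exists_occ hts hti htsq htne
  have hpair : PairFn hM D γ := ⟨hDp, hγb⟩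
  have hPH := pairIn_subgroupOf hpair hDH hC hb hγ
  have hPB : PairIn hM B D γ := ⟨hpair, hind.2.1, gconv_trc_of_induced hM hind hDH hC hpair hγ⟩
  obtain ⟨R, ρ, hmax, hchain⟩ := hPB.exists_max
  have hDR : D ≤ R := hchain.le
  have hρ : PairFn hM R ρ := hmax.1.1
  refine ⟨R, hmax.isDefectGroup, hDR, ?_⟩
  set S : Subgroup G := D ⊔ (R ⊓ Subgroup.centralizer (D : Set G)) with hS
  have hDS : D ≤ S := le_sup_left
  have hSR : S ≤ R := sup_le hDR inf_le_left
  have hSH : S ≤ H := sup_le hDH (inf_le_right.trans hC)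
  have hSN : S ≤ Subgroup.normalizer (D : Set G) :=
    sup_le Subgroup.le_normalizer (inf_le_right.trans (Subgroup.centralizer_le_normalizer _))
  obtain ⟨-, hσ, -, -, hinv, heq⟩ := nSub_subFn hρ hDS hSR hSN
  rw [subFn_eq hρ hchain] at hinv heq
  have hne : trc S γ ≠ 0 := fun h0 => by
    rw [h0, zero_gconv] at heq
    exact hσ.2.ne_zero heq.symm
  have hkey := (maxPair_of_defectGroup hPH hD).eq_of_trc_ne
    ((hρ.1.to_le hSR).of_equiv (Subgroup.subgroupOfEquivOfLe hSH).symm)
    (fun x hx => Subgroup.mem_subgroupOf.2 (hDS (Subgroup.mem_subgroupOf.1 hx)))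
    (by
      rw [← Subgroup.normal_subgroupOf_iff_le_normalizer
        (fun x hx => Subgroup.mem_subgroupOf.2 (hDS (Subgroup.mem_subgroupOf.1 hx)))]
      constructor
      rintro ⟨⟨n, hnH⟩, hnS⟩ hn ⟨⟨x, hxH⟩, hxS⟩
      rw [Subgroup.mem_subgroupOf, Subgroup.mem_subgroupOf] at hn ⊢
      exact (Subgroup.mem_normalizer_iff.1 (hSN (Subgroup.mem_subgroupOf.1 hxS)) n).1 hn)
    (fun k hk g => hinv k (Subgroup.mem_subgroupOf.1 hk) g)
    (fun h0 => hne (by
      rw [← ext0_trc_restrict hSH ((Subgroup.centralizer_le hDS).trans hC) γ, h0, ext0_zero]))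
  intro z hz
  have hzS : (⟨z, hC hz.2⟩ : H) ∈ S.subgroupOf H :=
    Subgroup.mem_subgroupOf.2 (Subgroup.mem_sup_right hz)
  rw [hkey] at hzS
  exact Subgroup.mem_subgroupOf.1 hzS

end CfsgLib.Block
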