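import Cfsg.Agent.Lib.BlockNilStruct
import Cfsg.Agent.Lib.BlockRank

/-!
# The characters of a nilpotent block and those of its defect group
-/

set_option autoImplicit false
set_option linter.style.haveILetI false
set_option linter.unusedSectionVars false

namespace CfsgLib.Block

open Cfsg CfsgLib.Char
open scoped ComplexConjugate Classical

universe u

variable {G : Type u} [Group G] [Fintype G] {p : ℕ} {M : Ideal AlgInt}

theorem blockRank_eq_one (hM : IsPModular p M) {B : Set (IrrCharacter G)} (h : NilData p B) :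
    blockRank p B = 1 := by
  obtain ⟨χ₀, hχ₀, -, -, hreg⟩ := h
  have hne : pRegularPart p (χ₀ : G → ℂ) ≠ 0 := fun h => by
    have h1 := congrFun h 1
    rw [pRegularPart_eq, regPart_apply_regular (by simpa using hM.1.not_dvd_one)] at h1
    exact irr_one_ne_zero χ₀ h1
  unfold Cfsg.blockRank
  rw [show Submodule.span ℂ ((fun χ : IrrCharacter G => pRegularPart p (χ : G → ℂ)) '' B) =
      Submodule.span ℂ {pRegularPart p (χ₀ : G → ℂ)} from ?_]
  · exact finrank_span_singleton hne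
  refine le_antisymm (Submodule.span_le.2 ?_)
    (Submodule.span_mono (Set.singleton_subset_iff.2 ⟨χ₀, hχ₀, rfl⟩))
  rintro _ ⟨χ, hχ, rfl⟩
  obtain ⟨n, hn⟩ := hreg χ hχ
  refine Submodule.mem_span_singleton.2 ⟨(n : ℂ), ?_⟩
  show _ = pRegularPart p (χ : G → ℂ)
  rw [pRegularPart_eq, pRegularPart_eq, hn]

theorem nilData_sub (hM : IsPModular p M) (H : Subgroup G) (f : Set (IrrCharacter H))
    (hf : IsNilpotentBlock p M f) : NilData p f :=
  nilData hM (Nat.card H) le_rfl f hf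

section Bij

variable {hM : IsPModular p M} {B : Set (IrrCharacter G)} {P : Subgroup G}
  {ψ : G → ResField M} [Fact p.Prime] (hψ : MaxPair hM B P ψ) (hnil : IsNilpotentBlock p M B)
  {χ₀ : IrrCharacter G} (hχ₀ : χ₀ ∈ B) (h0 : blockHeight p B (χ₀ : G → ℂ) = 0)

include hψ hnil hχ₀ h0 in
theorem nil_regPart {ξ : IrrCharacter G} (hξ : ξ ∈ B) :
    regPart p (ξ : G → ℂ) = blockMat p B ξ χ₀ • regPart p (χ₀ : G → ℂ) :=
  nil_prop hψ hnil (fun H _ f hf => nilData_sub hM H f hf) hχ₀ h0 hξ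

include hψ hnil hχ₀ h0 in
theorem nil_blockMat_mul {ξ η : IrrCharacter G} (hξ : ξ ∈ B) (hη : η ∈ B) :
    blockMat p B ξ η = blockMat p B ξ χ₀ * blockMat p B η χ₀ := by
  have e : blockMat p B ξ η = blockMat p B ξ χ₀ * blockMat p B χ₀ η := by
    conv_lhs => rw [blockMat, nil_regPart hψ hnil hχ₀ h0 hξ, smul_comm,
      CfsgLib.Char.inner_smul_left]
    rfl
  rw [e, (blockMat_real hM hψ.1.2.1 hη χ₀).2]

include hψ hnil hχ₀ h0 in
theorem nil_subInner_mul {ξ η : IrrCharacter G} (hξ : ξ ∈ B) (hη : η ∈ B) (u : P) :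
    subInner hψ.1.1 (u : G) (ξ : G → ℂ) (η : G → ℂ) =
      nilFn hψ.1.1 χ₀ ξ u * conj (nilFn hψ.1.1 χ₀ η u) := by
  by_cases hu : (u : G) ∈ Subgroup.center G
  · rw [nilFn, nilFn, subInner_central hψ u.2 hu hξ hη, subInner_central hψ u.2 hu hξ hχ₀,
      subInner_central hψ u.2 hu hη hχ₀, nil_blockMat_mul hψ hnil hχ₀ h0 hξ hη, map_mul, map_mul,
      Complex.conj_conj, (blockMat_real hM hψ.1.2.1 hη χ₀).1]
    linear_combination (-(centVal ξ (u : G) * conj (centVal η (u : G)) *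
      blockMat p B ξ χ₀ * blockMat p B η χ₀)) * centVal_mul_conj χ₀ hu
  · exact (nil_factor hψ hnil (fun H _ f hf => nilData_sub hM H f hf) hχ₀ h0 u.2 hu).1 ξ η

include hψ hnil hχ₀ h0 in
theorem nil_orth {ξ η : IrrCharacter G} (hξ : ξ ∈ B) (hη : η ∈ B) :
    classInner (nilFn hψ.1.1 χ₀ ξ) (nilFn hψ.1.1 χ₀ η) = classInner (ξ : G → ℂ) (η : G → ℂ) := by
  refine mul_left_cancel₀ (natCard_ne_zero P) ?_
  rw [card_mul_classInner_nilpotent hψ hnil hξ hη, sum_filter_mem_eq, classInner, ← mul_assoc,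
    mul_inv_cancel₀ (natCard_ne_zero _), one_mul]
  exact Finset.sum_congr rfl fun u _ => (nil_subInner_mul hψ hnil hχ₀ h0 hξ hη u).symm

include hψ hnil hχ₀ h0 in
theorem nil_int_coeff {ξ : IrrCharacter G} (hξ : ξ ∈ B) (φ : IrrCharacter P) :
    ∃ m : ℤ, classInner (nilFn hψ.1.1 χ₀ ξ) (φ : P → ℂ) = m := by
  have ih := fun H (_ : H ≠ ⊤) f hf => nilData_sub hM (G := G) H f hf
  obtain ⟨n, hn⟩ := nil_int hψ hnil ih hξ hχ₀ φ
  refine exists_int_of_mem hψ hn ?_
  obtain ⟨i, r, hi, hii, hr, hne, hru⟩ := nil_ratio hψ hnil ih hχ₀ h0 (ξ := ξ)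
  have hv : matVal hM (ξ : G → ℂ) i 1 = blockMat p B ξ χ₀ * matVal hM (χ₀ : G → ℂ) i 1 := by
    rw [matVal_idem_eq_regular hM hi hii ξ, matVal_idem_eq_regular hM hi hii χ₀,
      mul_left_comm (blockMat p B ξ χ₀), Finset.mul_sum (a := blockMat p B ξ χ₀)]
    congr 1
    refine Finset.sum_congr rfl fun b hb => ?_
    rw [eq_mul_of_regPart_eq (nil_regPart hψ hnil hχ₀ h0 hξ) (Finset.mem_filter.1 hb).2]
    ring
  have e : nilFn hψ.1.1 χ₀ ξ = r := by
    funext u
    by_cases hu : (u : G) ∈ Subgroup.center G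
    · rw [(hru u).2 hu, hv, mul_div_assoc, div_self hne, mul_one, nilFn,
        subInner_central hψ u.2 hu hξ hχ₀]
    · exact ((hru u).1 hu).symm
  rw [e]
  exact hr.2 φ

include hψ hnil hχ₀ h0 in
/-- Each multiplicity function is a character up to sign. -/
theorem nil_signed {ξ : IrrCharacter G} (hξ : ξ ∈ B) :
    ∃ (φ : IrrCharacter P) (e : ℤ), (e = 1 ∨ e = -1) ∧
      nilFn hψ.1.1 χ₀ ξ = (e : ℂ) • (φ : P → ℂ) := by
  choose c hc using nil_int_coeff hψ hnil hχ₀ h0 hξ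
  have hexp := classFunction_eq_sum _ (nilFn_classFunction hψ.1.1 χ₀ ξ)
  have hsum : ∑ φ : IrrCharacter P, c φ ^ 2 = 1 := by
    have h := nil_orth hψ hnil hχ₀ h0 hξ hξ
    rw [irr_inner_self ξ.2, inner_eq_sum_coeff _ _ (nilFn_classFunction hψ.1.1 χ₀ ξ)] at h
    have h2 : ((∑ φ : IrrCharacter P, c φ ^ 2 : ℤ) : ℂ) = ((1 : ℤ) : ℂ) := by
      push_cast
      rw [← h]
      refine Finset.sum_congr rfl fun φ _ => ?_
      rw [hc φ, map_intCast]
      ring
    exact_mod_cast h2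
  obtain ⟨φ, -, hφ⟩ := Finset.exists_ne_zero_of_sum_ne_zero (by rw [hsum]; exact one_ne_zero)
  have hone : c φ ^ 2 = 1 ∧ ∀ θ, θ ≠ φ → c θ = 0 := by
    rw [← Finset.add_sum_erase _ _ (Finset.mem_univ φ)] at hsum
    have h1 : 0 < c φ ^ 2 := lt_of_le_of_ne (sq_nonneg _) (Ne.symm hφ)
    have h2 : 0 ≤ ∑ θ ∈ Finset.univ.erase φ, c θ ^ 2 := Finset.sum_nonneg fun θ _ => sq_nonneg _
    refine ⟨by omega, fun θ hθ => ?_⟩
    have h3 := (Finset.sum_eq_zero_iff_of_nonneg fun θ _ => sq_nonneg (c θ)).1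
      (show ∑ θ ∈ Finset.univ.erase φ, c θ ^ 2 = 0 by omega) θ
      (Finset.mem_erase.2 ⟨hθ, Finset.mem_univ θ⟩)
    exact pow_eq_zero_iff two_ne_zero |>.1 h3
  refine ⟨φ, c φ, sq_eq_one_iff.1 hone.1, ?_⟩
  rw [hexp, Finset.sum_eq_single φ]
  · rw [hc φ]
  · intro θ _ hθ
    rw [hc θ, hone.2 θ hθ]
    simp
  · simp

include hψ hnil hχ₀ h0 in
theorem nil_sum_norm (u : P) :
    ∑ ξ : IrrCharacter G, indVal B ξ * subInner hψ.1.1 (u : G) (ξ : G → ℂ) (ξ : G → ℂ) =
      (Nat.card (P ⊓ Subgroup.centralizer ({(u : G)} : Set G) : Subgroup G) : ℂ) := by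
  have hB : IsPBlock M B := hψ.1.2.1
  by_cases hu : (u : G) ∈ Subgroup.center G
  · have h1 : ∀ ξ : IrrCharacter G, indVal B ξ * subInner hψ.1.1 (u : G) (ξ : G → ℂ) (ξ : G → ℂ) =
        (p : ℂ) ^ blockDefect p B * (indVal B ξ * regMat p ξ ξ) := by
      intro ξ
      by_cases hξ : ξ ∈ B
      · rw [subInner_central hψ u.2 hu hξ hξ, centVal_mul_conj ξ hu, blockMat,
          CfsgLib.Char.inner_smul_left, regMat]
        ring
      · simp [indVal, hξ]
    simp only [h1, ← Finset.mul_sum]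
    rw [← blockRank_cast hM hB, blockRank_eq_one hM (nilData hM _ le_rfl B hnil),
      inf_eq_left.2 fun g _ => Subgroup.mem_centralizer_singleton_iff.2
        (Subgroup.mem_center_iff.1 hu g), card_P_eq hψ]
    simp
  · have huk : ∃ j, orderOf (u : G) = p ^ j := by
      obtain ⟨j, hj⟩ := IsPGroup.iff_orderOf.1 hψ.1.1.1 u
      exact ⟨j, by rwa [← Subgroup.orderOf_coe] at hj⟩
    obtain ⟨f, hf, hfe, hcf⟩ := exists_subBlock hψ.1.1 u.2
    obtain ⟨hfn, -⟩ := nilpotent_sub hψ hnil (Subgroup.zpowers_le.2 u.2)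
      (centralizer_zpowers (u : G)).symm hf hfe
    have hl : blockRank p f = 1 := blockRank_eq_one hM (nilData_sub hM _ f hfn)
    have hpair := ((chain_subFn hψ.1.1 (Subgroup.zpowers_le.2 u.2)).pairIn_iff B).1 hψ.1
    have hind := isInduced_of_pair hM huk hB hf (by rw [hfe]; exact hpair.2.2)
    have h := secPart_sum_norm hM huk hB hf hind
    rw [hl, Nat.cast_one, mul_one] at h
    simp only [subInner, hcf, secInner_eq]
    set cP := (Nat.card (P ⊓ Subgroup.centralizer ({(u : G)} : Set G) : Subgroup G) : ℂ)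
    calc _ = cP * ((Nat.card (Subgroup.centralizer ({(u : G)} : Set G)) : ℂ)⁻¹ *
          ∑ χ : IrrCharacter G, indVal B χ * ∑ s ∈ Finset.univ.filter
            (fun s : Subgroup.centralizer ({(u : G)} : Set G) => ¬ p ∣ orderOf s),
            secPart (u : G) f χ s * conj (secPart (u : G) f χ s)) := by
          rw [Finset.mul_sum, Finset.mul_sum]
          exact Finset.sum_congr rfl fun χ _ => by ring
      _ = cP := by rw [h, inv_mul_cancel₀ (natCard_ne_zero _), mul_one]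

include hψ hnil hχ₀ h0 in
theorem nil_card : Nat.card B = Nat.card (IrrCharacter P) := by
  have hB : IsPBlock M B := hψ.1.2.1
  have h1 : ∑ ξ : IrrCharacter G, indVal B ξ * ∑ u : P,
      subInner hψ.1.1 (u : G) (ξ : G → ℂ) (ξ : G → ℂ) = (Nat.card B : ℂ) * (Nat.card P : ℂ) := by
    have h2 : ∀ ξ : IrrCharacter G, indVal B ξ * ∑ u : P,
        subInner hψ.1.1 (u : G) (ξ : G → ℂ) (ξ : G → ℂ) = indVal B ξ * (Nat.card P : ℂ) := by
      intro ξ
      by_cases hξ : ξ ∈ B
      · rw [← sum_filter_mem_eq (fun g => subInner hψ.1.1 g (ξ : G → ℂ) (ξ : G → ℂ)),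
          ← card_mul_classInner_nilpotent hψ hnil hξ hξ, irr_inner_self ξ.2, mul_one]
      · simp [indVal, hξ]
    simp only [h2, ← Finset.sum_mul]
    congr 1
    simp only [indVal, Finset.sum_boole]
    rw [Nat.card_eq_fintype_card, ← Set.toFinset_card]
    congr 2
    ext ξ
    simp
  have h3 : ∑ u : P, (Nat.card (P ⊓ Subgroup.centralizer ({(u : G)} : Set G) : Subgroup G) : ℂ) =
      (Nat.card (ConjClasses P) : ℂ) * (Nat.card P : ℂ) := by
    rw [← Nat.cast_mul, ← card_comm_eq_card_conjClasses_mul_card, ← Nat.cast_sum]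
    congr 1
    rw [← Nat.card_congr (Equiv.subtypeProdEquivSigmaSubtype (fun a b : P => Commute a b)).symm]
    rw [Nat.card_sigma]
    refine Finset.sum_congr rfl fun u _ => Nat.card_congr ?_
    exact
      { toFun := fun v => ⟨⟨v, v.2.1⟩, Subtype.ext
          (Subgroup.mem_centralizer_singleton_iff.1 v.2.2).symm⟩
        invFun := fun v => ⟨((v : P) : G), ⟨(v : P).2,
          Subgroup.mem_centralizer_singleton_iff.2 (congrArg Subtype.val v.2).symm⟩⟩
        left_inv := fun v => rfl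
        right_inv := fun v => rfl }
  simp only [Finset.mul_sum] at h1
  rw [Finset.sum_comm, Finset.sum_congr rfl fun u _ => nil_sum_norm hψ hnil hχ₀ h0 u, h3] at h1
  have h4 := mul_right_cancel₀ (natCard_ne_zero P) h1
  rw [card_irrCharacter]
  exact_mod_cast h4.symm

include hψ hnil hχ₀ h0 in
/-- **The characters of a nilpotent block correspond to those of the defect group.** -/
theorem nil_bijection : ∃ Φ : B ≃ IrrCharacter P, ∀ ξ : B,
    blockHeight p B ((ξ : IrrCharacter G) : G → ℂ) =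
        (charDegree ((Φ ξ : IrrCharacter P) : P → ℂ)).factorization p ∧
      ∃ e : ℤ, (e = 1 ∨ e = -1) ∧
        nilFn hψ.1.1 χ₀ ξ = (e : ℂ) • ((Φ ξ : IrrCharacter P) : P → ℂ) := by
  choose φ e he heq using fun ξ : B => nil_signed hψ hnil hχ₀ h0 ξ.2
  have hinj : Function.Injective φ := by
    intro ξ η h
    by_contra hne
    have h1 := nil_orth hψ hnil hχ₀ h0 ξ.2 η.2
    rw [irr_classInner, if_neg (fun h2 => hne (Subtype.ext h2)), heq ξ, heq η, h,
      CfsgLib.Char.inner_smul_left, CfsgLib.Char.inner_smul_right, irr_inner_self (φ η).2] at h1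
    rcases he ξ with h2 | h2 <;> rcases he η with h3 | h3 <;> simp [h2, h3] at h1
  have hbij : Function.Bijective φ := (Fintype.bijective_iff_injective_and_card φ).2
    ⟨hinj, by rw [← Nat.card_eq_fintype_card, ← Nat.card_eq_fintype_card]
              exact nil_card hψ hnil hχ₀ h0⟩
  refine ⟨Equiv.ofBijective φ hbij, fun ξ => ⟨?_, e ξ, he ξ, heq ξ⟩⟩
  have hB : IsPBlock M B := hψ.1.2.1
  have h1 := congrFun (heq ξ) 1
  rw [nilFn, OneMemClass.coe_one, subInner_central hψ P.one_mem (Subgroup.one_mem _) ξ.2 hχ₀,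
    centVal_one, centVal_one, map_one, one_mul, one_mul, Pi.smul_apply, smul_eq_mul,
    ← charDegree_cast (φ ξ).2.isCharacter'] at h1
  have h2 : blockMat p B χ₀ (ξ : IrrCharacter G) =
      ((e ξ * (charDegree ((φ ξ : IrrCharacter P) : P → ℂ) : ℤ) : ℤ) : ℂ) := by
    rw [(blockMat_real hM hB ξ.2 χ₀).2, h1]
    push_cast
    ring
  have h3 := ((intMat_divisibility hM hB hχ₀ ξ.2 h2).2.1 h0).2
  show _ = (charDegree ((φ ξ : IrrCharacter P) : P → ℂ)).factorization p
  rw [← h3, Nat.factorization_def _ hM.1]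
  rcases he ξ with h4 | h4 <;> simp [h4, padicValInt]

end Bij

end CfsgLib.Block
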