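import Cfsg.Agent.Lib.BlockAbelianLocal
import Cfsg.Agent.Lib.BlockNilBij
import Cfsg.Agent.Lib.BlockSubsection
import Cfsg.Agent.Lib.BlockNilpotent
import Cfsg.Agent.Lib.InvolBasic
import Mathlib.GroupTheory.SpecificGroups.KleinFour
import Mathlib.Data.Fintype.Perm
import Mathlib.GroupTheory.Perm.Basic

/-!
# Blocks with a Klein four defect group
-/

set_option autoImplicit false
set_option linter.style.haveILetI false
set_option linter.unusedSectionVars false
set_option linter.unusedFintypeInType false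

namespace CfsgLib.Block

open Cfsg CfsgLib.Char
open scoped ComplexConjugate Classical

universe u

variable {G : Type u} [Group G] [Fintype G] {M : Ideal AlgInt}

/-- A block of defect two for the prime two has four characters. -/
theorem card_eq_four_of_defect_two (hM : IsPModular 2 M) {B : Set (IrrCharacter G)}
    (hB : IsPBlock M B) (hd : blockDefect 2 B = 2) : Nat.card B = 4 := by
  have h0 : ∀ χ ∈ B, blockHeight 2 B (χ : G → ℂ) = 0 := fun χ hχ => by
    by_contra h
    have := (positive_height_data hM hB hχ h).1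
    omega
  obtain ⟨A, hA, hsymm, hsq⟩ := exists_intMat hM hB
  obtain ⟨χ₀, hχ₀, -⟩ := exists_height_zero hM hB
  have hodd : ∀ χ ∈ B, ∀ ψ ∈ B, ¬ (2 : ℤ) ∣ A χ ψ := by
    intro χ hχ ψ hψ hdvd
    obtain ⟨hne, hval⟩ := (intMat_divisibility hM hB hχ hψ (hA χ hχ ψ)).2.1 (h0 χ hχ)
    rw [h0 ψ hψ, padicValInt.eq_zero_iff] at hval
    rcases hval with h | h | h
    · omega
    · exact hne h
    · exact h hdvd
  have hdiag := intMat_diag A hsymm hsq hχ₀
  rw [hd] at hdiag
  set a := A χ₀ χ₀ with ha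
  have haodd : ¬ (2 : ℤ) ∣ a := hodd χ₀ hχ₀ χ₀ hχ₀
  set S := (Finset.univ.filter (· ∈ B)).erase χ₀ with hS
  have hge : ∀ φ ∈ S, 1 ≤ A χ₀ φ ^ 2 ∧ (A χ₀ φ ^ 2 = 1 ∨ 9 ≤ A χ₀ φ ^ 2) := by
    intro φ hφ
    have hφB : φ ∈ B := (Finset.mem_filter.1 (Finset.mem_erase.1 hφ).2).2
    have h := hodd χ₀ hχ₀ φ hφB
    rcases le_or_gt 0 (A χ₀ φ) with hs | hs
    · rcases (show A χ₀ φ = 1 ∨ 3 ≤ A χ₀ φ by omega) with e | e
      · rw [e]; norm_num
      · exact ⟨by nlinarith, Or.inr (by nlinarith)⟩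
    · rcases (show A χ₀ φ = -1 ∨ A χ₀ φ ≤ -3 by omega) with e | e
      · rw [e]; norm_num
      · exact ⟨by nlinarith, Or.inr (by nlinarith)⟩
  have hnn : 0 ≤ ∑ φ ∈ S, A χ₀ φ ^ 2 := Finset.sum_nonneg fun φ _ => sq_nonneg _
  have hsum : ∑ φ ∈ S, A χ₀ φ ^ 2 = 3 := by
    rw [hdiag] at hnn ⊢
    have h1 : 0 ≤ a := by nlinarith [sq_nonneg a]
    norm_num at hnn
    have h2 : a ≤ 4 := by nlinarith
    have hne2 : a ≠ 2 := fun e => haodd (by rw [e])
    have hne4 : a ≠ 4 := fun e => haodd (by rw [e]; norm_num)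
    have hne0 : a ≠ 0 := fun e => haodd (by rw [e]; norm_num)
    rcases (show a = 1 ∨ a = 3 by omega) with e | e <;> rw [e] <;> norm_num
  have hone : ∀ φ ∈ S, A χ₀ φ ^ 2 = 1 := fun φ hφ => by
    rcases (hge φ hφ).2 with h | h
    · exact h
    · have := Finset.single_le_sum (f := fun φ => A χ₀ φ ^ 2) (fun x _ => sq_nonneg _) hφ
      omega
  rw [Finset.sum_congr rfl hone, Finset.sum_const, nsmul_eq_mul, mul_one] at hsum
  have hcard : S.card = 3 := by exact_mod_cast hsum
  rw [hS, Finset.card_erase_of_mem (Finset.mem_filter.2 ⟨Finset.mem_univ _, hχ₀⟩)] at hcard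
  have hcB : Nat.card B = (Finset.univ.filter (· ∈ B)).card := by
    rw [Nat.card_eq_fintype_card]
    exact Fintype.card_of_subtype _ (fun x => by simp)
  have hcard' : (Finset.univ.filter (fun x => x ∈ B)).card - 1 = 3 := hcard
  rw [hcB]
  omega

variable {hM : IsPModular 2 M} {B : Set (IrrCharacter G)} {P : Subgroup G} {ψ : G → ResField M}

/-- The stabiliser of a maximal pair inside the normalizer. -/
def pairStab (P : Subgroup G) (ψ : G → ResField M) : Subgroup G :=
  Subgroup.normalizer (P : Set G) ⊓ stabSub ψ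

theorem mem_pairStab {g : G} :
    g ∈ pairStab P ψ ↔ g ∈ Subgroup.normalizer (P : Set G) ∧ cnj g ψ = ψ :=
  Iff.rfl

theorem stab_sq_mem (hψ : MaxPair hM B P ψ) (hab : ∀ x ∈ P, ∀ y ∈ P, x * y = y * x) {g : G}
    (hg : g ∈ pairStab P ψ) (h2 : g ^ 2 ∈ Subgroup.centralizer (P : Set G)) :
    g ∈ Subgroup.centralizer (P : Set G) := by
  haveI : Fact (Nat.Prime 2) := ⟨Nat.prime_two⟩
  have hPC : P ≤ Subgroup.centralizer (P : Set G) := fun x hx =>
    Subgroup.mem_centralizer_iff.2 fun u hu => hab u hu x hx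
  obtain ⟨k, n', hn', hord⟩ := Nat.exists_eq_pow_mul_and_not_dvd (orderOf_pos g).ne' 2 (by norm_num)
  have h1 : g ^ n' ∈ Subgroup.centralizer (P : Set G) := by
    obtain ⟨hN, hst⟩ := mem_pairStab.1 (pow_mem hg n')
    have hpel : ∃ j, orderOf (g ^ n') = 2 ^ j := by
      obtain ⟨j, -, hj⟩ := (Nat.dvd_prime_pow Nat.prime_two (i := orderOf (g ^ n')) (m := k)).1
        (orderOf_dvd_of_pow_eq_one (by rw [← pow_mul, mul_comm, ← hord, pow_orderOf_eq_one]))
      exact ⟨j, hj⟩
    have := pElement_stab_mem hψ hpel hN hst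
    rwa [sup_eq_right.2 hPC] at this
  have e : g = g ^ n' * ((g ^ 2) ^ (n' / 2))⁻¹ := by
    rw [eq_mul_inv_iff_mul_eq, ← pow_mul, ← pow_succ']
    congr 1
    omega
  rw [e]
  exact mul_mem h1 (inv_mem (pow_mem h2 _))

/-- The nontrivial elements of a Klein four group. -/
theorem klein_three (hV : IsKleinFour P) {x y z : G} (hx : x ∈ P) (hy : y ∈ P) (hz : z ∈ P)
    (hx1 : x ≠ 1) (hy1 : y ≠ 1) (hxy : x ≠ y) (hz1 : z ≠ 1) : z = x ∨ z = y ∨ z = x * y := by
  by_contra h
  push Not at h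
  haveI : Fintype P := Fintype.ofFinite P
  have hc : Nat.card P = 4 := hV.card_four
  have hxy1 : x * y ≠ 1 := fun e => hxy (by
    have h2 : (⟨x, hx⟩ : P) * ⟨x, hx⟩ = 1 := IsKleinFour.mul_self _
    have h3 : x * x = 1 := congrArg Subtype.val h2
    exact mul_left_cancel (h3.trans e.symm))
  have hsub : ({1, x, y, x * y, z} : Finset G) ⊆ Finset.univ.filter (· ∈ P) := by
    intro w hw
    simp only [Finset.mem_insert, Finset.mem_singleton] at hw
    refine Finset.mem_filter.2 ⟨Finset.mem_univ _, ?_⟩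
    rcases hw with rfl | rfl | rfl | rfl | rfl
    exacts [one_mem P, hx, hy, mul_mem hx hy, hz]
  have h5 : ({1, x, y, x * y, z} : Finset G).card = 5 := by
    rw [Finset.card_insert_of_notMem, Finset.card_insert_of_notMem, Finset.card_insert_of_notMem,
      Finset.card_pair] <;> simp [Ne.symm hx1, Ne.symm hy1, Ne.symm hxy1, Ne.symm hz1, hxy,
        Ne.symm h.1, Ne.symm h.2.1, Ne.symm h.2.2, hx1, hy1]
  have := Finset.card_le_card hsub
  rw [h5, ← Fintype.card_subtype, ← Nat.card_eq_fintype_card] at this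
  change 5 ≤ Nat.card P at this
  omega

theorem stab_fix_mem (hψ : MaxPair hM B P ψ) (hV : IsKleinFour P) {g u : G}
    (hg : g ∈ pairStab P ψ) (hu : u ∈ P) (hu1 : u ≠ 1) (hfix : g * u * g⁻¹ = u) :
    g ∈ Subgroup.centralizer (P : Set G) := by
  have hab : ∀ x ∈ P, ∀ y ∈ P, x * y = y * x := fun x hx y hy =>
    congrArg Subtype.val (IsKleinFour.isMulCommutative.is_comm.comm (⟨x, hx⟩ : P) ⟨y, hy⟩)
  refine stab_sq_mem hψ hab hg (Subgroup.mem_centralizer_iff.2 fun y hy => ?_)
  suffices h : g ^ 2 * y * (g ^ 2)⁻¹ = y by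
    calc y * g ^ 2 = g ^ 2 * y * (g ^ 2)⁻¹ * g ^ 2 := by rw [h]
      _ = g ^ 2 * y := inv_mul_cancel_right _ _
  rcases eq_or_ne y 1 with rfl | hy1
  · group
  rcases eq_or_ne y u with rfl | hyu
  · rw [show g ^ 2 * y * (g ^ 2)⁻¹ = g * (g * y * g⁻¹) * g⁻¹ by rw [pow_two]; group, hfix, hfix]
  have hN := (mem_pairStab.1 hg).1
  have hgy : g * y * g⁻¹ ∈ P := (Subgroup.mem_normalizer_iff.1 hN y).1 hy
  have key : g ^ 2 * y * (g ^ 2)⁻¹ = g * (g * y * g⁻¹) * g⁻¹ := by rw [pow_two]; group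
  rcases klein_three hV hu hy hgy hu1 hy1 (Ne.symm hyu) (by
    simpa [conj_eq_one_iff] using hy1) with e | e | e
  · exact absurd (mul_left_cancel (mul_right_cancel (e.trans hfix.symm))) hyu
  · rw [key, e, e]
  · rw [key, e, show g * (u * y) * g⁻¹ = g * u * g⁻¹ * (g * y * g⁻¹) by group, hfix, e, ← mul_assoc,
      show u * u = 1 from congrArg Subtype.val (IsKleinFour.mul_self (⟨u, hu⟩ : P)), one_mul]

/-- The inertial index is one or three. -/
theorem klein_relIndex (hψ : MaxPair hM B P ψ) (hV : IsKleinFour P) :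
    (Subgroup.centralizer (P : Set G)).relIndex (pairStab P ψ) = 1 ∨
      (Subgroup.centralizer (P : Set G)).relIndex (pairStab P ψ) = 3 := by
  have hmem : ∀ (t : pairStab P ψ) (x : G), x ∈ P ∧ x ≠ 1 → (t : G) * x * (t : G)⁻¹ ∈ P ∧
      (t : G) * x * (t : G)⁻¹ ≠ 1 := fun t x hx =>
    ⟨(Subgroup.mem_normalizer_iff.1 (mem_pairStab.1 t.2).1 x).1 hx.1,
      fun h => hx.2 (conj_eq_one_iff.1 h)⟩
  let f : pairStab P ψ →* Equiv.Perm {x : G // x ∈ P ∧ x ≠ 1} := MonoidHom.mk'
    (fun t => ⟨fun x => ⟨(t : G) * x * (t : G)⁻¹, hmem t x x.2⟩,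
      fun x => ⟨((t⁻¹ : pairStab P ψ) : G) * x * ((t⁻¹ : pairStab P ψ) : G)⁻¹, hmem t⁻¹ x x.2⟩,
      fun x => Subtype.ext (by simp [mul_assoc]),
      fun x => Subtype.ext (by simp [mul_assoc])⟩)
    (fun s t => Equiv.ext fun x => Subtype.ext (by simp [mul_assoc]))
  have hker : f.ker = (Subgroup.centralizer (P : Set G)).subgroupOf (pairStab P ψ) := by
    ext t
    rw [MonoidHom.mem_ker, Subgroup.mem_subgroupOf]
    constructor
    · intro h
      refine Subgroup.mem_centralizer_iff.2 fun y hy => ?_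
      rcases eq_or_ne y 1 with rfl | hy1
      · simp
      · have := congrArg Subtype.val (Equiv.ext_iff.1 h ⟨y, hy, hy1⟩)
        exact (mul_inv_eq_iff_eq_mul.1 this).symm
    · intro h
      refine Equiv.ext fun x => Subtype.ext ?_
      show (t : G) * x * (t : G)⁻¹ = x
      rw [← Subgroup.mem_centralizer_iff.1 h x x.2.1, mul_inv_cancel_right]
  have hidx : (Subgroup.centralizer (P : Set G)).relIndex (pairStab P ψ) = Nat.card f.range := by
    rw [Subgroup.relIndex, ← hker, Subgroup.index_ker]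
  rw [hidx]
  have hΩ : Nat.card {x : G // x ∈ P ∧ x ≠ 1} = 3 := by
    rw [Nat.card_eq_fintype_card, Fintype.card_subtype,
      show Finset.univ.filter (fun x => x ∈ P ∧ x ≠ 1) = (Finset.univ.filter (· ∈ P)).erase 1 by
        ext x; simp [and_comm],
      Finset.card_erase_of_mem (Finset.mem_filter.2 ⟨Finset.mem_univ _, one_mem P⟩),
      ← Fintype.card_subtype, ← Nat.card_eq_fintype_card]
    rw [hV.card_four]
  have hdvd : Nat.card f.range ∣ 6 := by
    have := Subgroup.card_subgroup_dvd_card f.range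
    rwa [Nat.card_perm, hΩ] at this
  have hodd : ¬ 2 ∣ Nat.card f.range := by
    intro h2
    haveI : Fact (Nat.Prime 2) := ⟨Nat.prime_two⟩
    obtain ⟨⟨s, t, hts⟩, hs⟩ := exists_prime_orderOf_dvd_card' 2 h2
    replace hs : orderOf s = 2 := (Subgroup.orderOf_mk (H := f.range) _ _).symm.trans hs
    have h1 : f (t ^ 2) = 1 := by rw [map_pow, hts, ← hs, pow_orderOf_eq_one]
    have ht2 : ((t ^ 2 : pairStab P ψ) : G) ∈ Subgroup.centralizer (P : Set G) := by
      have := (MonoidHom.mem_ker (f := f)).2 h1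
      rwa [hker, Subgroup.mem_subgroupOf] at this
    have ht : t ∈ f.ker := by
      rw [hker, Subgroup.mem_subgroupOf]
      exact stab_sq_mem hψ (fun x hx y hy =>
        congrArg Subtype.val (IsKleinFour.isMulCommutative.is_comm.comm (⟨x, hx⟩ : P) ⟨y, hy⟩))
        t.2 (by simpa using ht2)
    rw [MonoidHom.mem_ker, hts] at ht
    rw [ht, orderOf_one] at hs
    omega
  have hle := Nat.le_of_dvd (by norm_num) hdvd
  interval_cases Nat.card f.range <;> omega

theorem MaxPair.conj_pair (hψ : MaxPair hM B P ψ) (x : G) :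
    MaxPair hM B (P.map (MulAut.conj x).toMonoidHom) (cnj x ψ) := by
  have hmm : ∀ (a b : G) (R : Subgroup G), (R.map (MulAut.conj a).toMonoidHom).map
      (MulAut.conj b).toMonoidHom = R.map (MulAut.conj (b * a)).toMonoidHom := fun a b R => by
    rw [Subgroup.map_map]
    congr 1
    exact MonoidHom.ext fun g => by simp [mul_assoc]
  have h1 : ∀ R : Subgroup G, R.map (MulAut.conj (1 : G)).toMonoidHom = R := fun R => by
    ext g; simp
  refine ⟨hψ.1.cnj x, fun R γ hR hc => ?_⟩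
  have hc' := hc.cnj x⁻¹
  simp only [hmm, cnj_cnj, inv_mul_cancel, h1, cnj_one] at hc'
  have := congrArg (fun S : Subgroup G => S.map (MulAut.conj x).toMonoidHom)
    (hψ.2 _ _ (hR.cnj x⁻¹) hc')
  simpa only [hmm, mul_inv_cancel, h1] using this

theorem klein_map (hV : IsKleinFour P) (x : G) :
    IsKleinFour (P.map (MulAut.conj x).toMonoidHom : Subgroup G) := by
  let e := P.equivMapOfInjective (MulAut.conj x).toMonoidHom (MulAut.conj x).injective
  exact ⟨by rw [← Nat.card_congr e.toEquiv]; exact hV.card_four,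
    by rw [← Monoid.exponent_eq_of_mulEquiv e]; exact hV.exponent_two⟩

/-- The local blocks at involutions have rank one. -/
theorem klein_local_rank (hψ : MaxPair hM B P ψ) (hV : IsKleinFour P) {z : G} {Q : Subgroup G}
    (hQ : Q = Subgroup.zpowers z) (hzP : z ∈ P) (hz1 : z ≠ 1) {H : Subgroup G}
    (hH : H = Subgroup.centralizer (Q : Set G)) {f : Set (IrrCharacter H)} (hf : IsPBlock M f)
    (hc : Chain hM (Q, bFn hM H f) (P, ψ)) : blockRank 2 f = 1 := by
  subst hH
  haveI : Fact (Nat.Prime 2) := ⟨Nat.prime_two⟩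
  haveI := Fintype.ofFinite (Subgroup.centralizer (Q : Set G))
  have hab : ∀ x ∈ P, ∀ y ∈ P, x * y = y * x := fun x hx y hy =>
    congrArg Subtype.val (IsKleinFour.isMulCommutative.is_comm.comm (⟨x, hx⟩ : P) ⟨y, hy⟩)
  refine blockRank_eq_one hM (nilData hM _ le_rfl f (nilpotent_local hψ hab hf hc ?_))
  intro g hgN hgψ hgQ
  refine stab_fix_mem hψ hV (mem_pairStab.2 ⟨hgN, hgψ⟩) hzP hz1 ?_
  rw [← Subgroup.mem_centralizer_iff.1 hgQ z (by rw [hQ]; exact Subgroup.mem_zpowers z),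
    mul_inv_cancel_right]

/-- No fusion outside the stabiliser: nilpotency. -/
theorem klein_nilpotent (hψ : MaxPair hM B P ψ) (hV : IsKleinFour P)
    (he : pairStab P ψ ≤ Subgroup.centralizer (P : Set G)) : IsNilpotentBlock 2 M B := by
  haveI : Fact (Nat.Prime 2) := ⟨Nat.prime_two⟩
  have hab : ∀ x ∈ P, ∀ y ∈ P, x * y = y * x := fun x hx y hy =>
    congrArg Subtype.val (IsKleinFour.isMulCommutative.is_comm.comm (⟨x, hx⟩ : P) ⟨y, hy⟩)
  refine ⟨hψ.1.2.1, fun R e hRe x hxN hst _ => ?_⟩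
  obtain ⟨he', hR⟩ := (isBrauerPairOf_iff hM).1 hRe
  obtain ⟨y, hy⟩ := hψ.exists_conj_chain hR
  have hcx : cnj x (pFn hM R e) = pFn hM R e := ((stabilizesBlock_iff hM he' x).1 hst).2
  have hN1 : y * x * y⁻¹ ∈
      Subgroup.normalizer ((R.map (MulAut.conj y).toMonoidHom : Subgroup G) : Set G) := by
    refine Subgroup.mem_normalizer_iff.2 fun z => ?_
    have := Subgroup.mem_normalizer_iff.1 hxN (y⁻¹ * z * y)
    simp only [Subgroup.mem_map_equiv, MulAut.conj_symm_apply]
    rw [this]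
    refine Iff.of_eq (congrArg (· ∈ R) ?_)
    group
  have hfix1 : cnj (y * x * y⁻¹) (cnj y (pFn hM R e)) = cnj y (pFn hM R e) := by
    rw [cnj_cnj, inv_mul_cancel_right, ← cnj_cnj, hcx]
  obtain ⟨h, hh, hhN, hhψ⟩ := stab_decomposition hψ hab hy hN1 hfix1
  have hPle : R.map (MulAut.conj y).toMonoidHom ≤ P := hy.le
  have hmem : y * x * y⁻¹ ∈
      Subgroup.centralizer ((R.map (MulAut.conj y).toMonoidHom : Subgroup G) : Set G) := by
    have h1 := Subgroup.centralizer_le hPle (he (mem_pairStab.2 ⟨hhN, hhψ⟩))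
    have h2 := mul_mem (inv_mem hh) h1
    rwa [inv_mul_cancel_left] at h2
  refine Subgroup.mem_centralizer_iff.2 fun r hr => ?_
  have := Subgroup.mem_centralizer_iff.1 hmem (y * r * y⁻¹) ⟨r, hr, rfl⟩
  calc r * x = y⁻¹ * (y * r * y⁻¹ * (y * x * y⁻¹)) * y := by group
    _ = y⁻¹ * (y * x * y⁻¹ * (y * r * y⁻¹)) * y := by rw [this]
    _ = x * r := by group

/-- The rank when the three involutions are fused. -/
theorem klein_rank_three (hψ : MaxPair hM B P ψ) (hV : IsKleinFour P)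
    (he : (Subgroup.centralizer (P : Set G)).relIndex (pairStab P ψ) = 3)
    (hk : Nat.card B = 4) : blockRank 2 B = 3 := by
  haveI : Fact (Nat.Prime 2) := ⟨Nat.prime_two⟩
  have hB : IsPBlock M B := hψ.1.2.1
  have hP2 : ∀ u ∈ P, u * u = 1 := fun u hu =>
    congrArg Subtype.val (IsKleinFour.mul_self (⟨u, hu⟩ : P))
  obtain ⟨t, ht, htC⟩ : ∃ t ∈ pairStab P ψ, t ∉ Subgroup.centralizer (P : Set G) := by
    by_contra hne
    push Not at hne
    rw [Subgroup.relIndex_eq_one.2 hne] at he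
    omega
  obtain ⟨u, hu, hu1⟩ : ∃ u ∈ P, u ≠ 1 := by
    by_contra hne
    push Not at hne
    have hbot : P = ⊥ := (Subgroup.eq_bot_iff_forall P).2 hne
    have := hV.card_four
    rw [hbot, Subgroup.card_bot] at this
    omega
  have ht2 : t ^ 2 ∈ pairStab P ψ := pow_mem ht 2
  have hab : ∀ x ∈ P, ∀ y ∈ P, x * y = y * x := fun x hx y hy =>
    congrArg Subtype.val (IsKleinFour.isMulCommutative.is_comm.comm (⟨x, hx⟩ : P) ⟨y, hy⟩)
  have hmove : ∀ s ∈ pairStab P ψ, s ∉ Subgroup.centralizer (P : Set G) → s * u * s⁻¹ ≠ u :=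
    fun s hs hsC h => hsC (stab_fix_mem hψ hV hs hu hu1 h)
  have htrans : ∀ v ∈ P, v ≠ 1 → ∃ s ∈ pairStab P ψ, s * u * s⁻¹ = v := by
    intro v hv hv1
    have hN := (mem_pairStab.1 ht).1
    have h1 : t * u * t⁻¹ ∈ P := (Subgroup.mem_normalizer_iff.1 hN u).1 hu
    have h2 : t * (t * u * t⁻¹) * t⁻¹ ∈ P := (Subgroup.mem_normalizer_iff.1 hN _).1 h1
    have n1 : t * u * t⁻¹ ≠ 1 := fun h => hu1 (conj_eq_one_iff.1 h)
    have n2 : t * (t * u * t⁻¹) * t⁻¹ ≠ 1 := fun h => n1 (conj_eq_one_iff.1 h)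
    have d1 : t * (t * u * t⁻¹) * t⁻¹ ≠ u := fun h =>
      hmove _ ht2 (fun h2C => htC (stab_sq_mem hψ hab ht h2C)) (by
        rw [show t ^ 2 * u * (t ^ 2)⁻¹ = t * (t * u * t⁻¹) * t⁻¹ by rw [pow_two]; group, h])
    have d2 : t * (t * u * t⁻¹) * t⁻¹ ≠ t * u * t⁻¹ := fun h =>
      hmove _ ht htC (mul_left_cancel (mul_right_cancel h))
    have d3 := (klein_three hV hu h1 h2 hu1 n1 (hmove _ ht htC).symm n2).resolve_left d1
      |>.resolve_left d2
    rcases klein_three hV hu h1 hv hu1 n1 (hmove _ ht htC).symm hv1 with e | e | e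
    · exact ⟨1, one_mem _, by simp [e]⟩
    · exact ⟨t, ht, e.symm⟩
    · exact ⟨t ^ 2, ht2, by rw [e, ← d3, pow_two]; group⟩
  have huo : orderOf u = 2 := orderOf_eq_prime (by rw [pow_two]; exact hP2 u hu) hu1
  set ZS := Finset.univ.filter (fun z : G => ∃ k, orderOf z = 2 ^ k) with hZS
  set F : G → ℂ := fun g => ∑ χ, indVal B χ * ((χ : G → ℂ) g * conj ((χ : G → ℂ) g)) with hF
  have hone : ∑ y ∈ secDom 2 (1 : G), F (1 * y) = (Nat.card G : ℂ) * blockRank 2 B := by
    rw [show secDom 2 (1 : G) = Finset.univ.filter (fun g : G => ¬ 2 ∣ orderOf g) by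
      ext g; simp [mem_secDom, Subgroup.mem_centralizer_singleton_iff]]
    rw [card_mul_blockRank hM hB]
    simp only [hF, one_mul, Finset.mul_sum]
    exact Finset.sum_comm
  have hother : ∀ z ∈ ZS, z ≠ 1 → ∑ y ∈ secDom 2 z, F (z * y) =
      if IsConj u z then (Nat.card (Subgroup.centralizer ({z} : Set G)) : ℂ) else 0 := by
    intro z hz hz1
    have hzk := (Finset.mem_filter.1 hz).2
    have hdata : ∀ e ∈ indBlocks M z B, ∃ x : G, x * z * x⁻¹ = u ∧
        Chain hM (Subgroup.zpowers u, cnj x (bFn hM (Subgroup.centralizer ({z} : Set G)) e))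
          (P, ψ) := by
      intro e he
      obtain ⟨he1, he2⟩ := Finset.mem_filter.1 he
      obtain ⟨x, hx⟩ := hψ.exists_conj_chain (pairIn_of_induced hM hzk he2)
      rw [← zpowers_conj] at hx
      have hxP : x * z * x⁻¹ ∈ P := hx.le (Subgroup.mem_zpowers _)
      obtain ⟨s, hs, hsu⟩ := htrans _ hxP fun h => hz1 (conj_eq_one_iff.1 h)
      obtain ⟨hsN, hsψ⟩ := mem_pairStab.1 (inv_mem hs)
      have hc := hx.cnj s⁻¹
      rw [← zpowers_conj, map_conj_eq_self hsN, hsψ, cnj_cnj] at hc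
      have e1 : s⁻¹ * (x * z * x⁻¹) * s⁻¹⁻¹ = u := by rw [← hsu]; group
      rw [e1] at hc
      exact ⟨s⁻¹ * x, by rw [← e1]; group, hc⟩
    have huniq : ∀ e ∈ indBlocks M z B, ∀ e' ∈ indBlocks M z B, e = e' := by
      intro e he e' he'
      obtain ⟨x, hxz, hx⟩ := hdata e he
      obtain ⟨x', hxz', hx'⟩ := hdata e' he'
      have h := Chain.unique hψ.1.1 hx hx'
      have hyC : x'⁻¹ * x ∈ Subgroup.centralizer ({z} : Set G) := by
        rw [Subgroup.mem_centralizer_singleton_iff]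
        have := hxz.trans hxz'.symm
        calc x'⁻¹ * x * z = x'⁻¹ * (x * z * x⁻¹) * x := by group
          _ = x'⁻¹ * (x' * z * x'⁻¹) * x := by rw [this]
          _ = z * (x'⁻¹ * x) := by group
      have heB := mem_allBlocks.1 (Finset.mem_filter.1 he).1
      refine bFn_injOn hM _ heB (mem_allBlocks.1 (Finset.mem_filter.1 he').1) ?_
      have h2 := congrArg (cnj x'⁻¹) h
      rw [cnj_cnj, cnj_cnj, inv_mul_cancel, cnj_one,
        cnj_eq_self_of_invBy (IsBlockFn.invBy (hM := hM) ⟨e, heB, rfl⟩) hyC] at h2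
      exact h2
    by_cases hc : IsConj u z
    · rw [if_pos hc]
      obtain ⟨g, hg⟩ := isConj_iff.1 hc
      obtain ⟨φ, hφ⟩ := Chain.exists_below hψ.1.1 (Subgroup.zpowers_le.2 hu)
      have hp := ((hφ.pairIn_iff B).1 hψ.1).cnj g
      rw [← zpowers_conj, hg] at hp
      obtain ⟨e, he, hee⟩ := (centralizer_zpowers z ▸ hp.1.2 :
        IsBlockFn hM (Subgroup.centralizer ({z} : Set G)) (cnj g φ))
      have heind : e ∈ indBlocks M z B := by
        refine Finset.mem_filter.2 ⟨mem_allBlocks.2 he, ?_⟩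
        obtain ⟨a, ha⟩ := isPBlock_nonempty hM he
        have h3 := isInduced_of_pair hM hzk hB he (hee.symm ▸ hp.2.2) a ha
        rw [isPBlock_eq_blockOf hM he ha]
        exact h3
      have hsingle : indBlocks M z B = {e} :=
        Finset.eq_singleton_iff_unique_mem.2 ⟨heind, fun e' he' => huniq e' he' e heind⟩
      have hrank : blockRank 2 e = 1 := by
        refine klein_local_rank (z := z) (hψ.conj_pair g) (klein_map hV g) rfl ?_ hz1
          (centralizer_zpowers z).symm he ?_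
        · exact ⟨u, hu, hg⟩
        · have := hφ.cnj g
          rw [← zpowers_conj, hg, ← hee] at this
          exact this
      have key := secPart_sum_norm hM hzk hB he fun ξ hξ =>
        isInduced_of_pair hM hzk hB he (hee.symm ▸ hp.2.2) ξ hξ
      rw [hrank, Nat.cast_one, mul_one] at key
      rw [sum_secDom (fun y => F (z * y)), ← key]
      simp only [hF, Finset.mul_sum]
      rw [Finset.sum_comm]
      refine Finset.sum_congr rfl fun χ _ => Finset.sum_congr rfl fun s hs => ?_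
      by_cases hχ : χ ∈ B
      · rw [apply_mul_eq_sum_parts hM hB hχ hzk (Finset.mem_filter.1 hs).2, hsingle,
          Finset.sum_singleton]
      · simp [indVal, hχ]
    · rw [if_neg hc]
      have hempty : indBlocks M z B = ∅ := Finset.eq_empty_of_forall_notMem fun e he => by
        obtain ⟨x, hx, -⟩ := hdata e he
        exact hc (isConj_iff.2 ⟨x, hx⟩).symm
      rw [sum_secDom (fun y => F (z * y))]
      refine Finset.sum_eq_zero fun s hs => Finset.sum_eq_zero fun χ _ => ?_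
      by_cases hχ : χ ∈ B
      · rw [apply_mul_eq_sum_parts hM hB hχ hzk (Finset.mem_filter.1 hs).2, hempty]
        simp
      · simp [indVal, hχ]
  have htot : ∑ g, F g = (Nat.card G : ℂ) * 4 := by
    simp only [hF]
    rw [Finset.sum_comm]
    have h : ∀ χ : IrrCharacter G, ∑ g, indVal B χ * ((χ : G → ℂ) g * conj ((χ : G → ℂ) g)) =
        indVal B χ * (Nat.card G : ℂ) := fun χ => by
      rw [← Finset.mul_sum]
      congr 1
      have h := irr_inner_self χ.2
      rw [classInner, ← div_eq_inv_mul] at h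
      exact (div_eq_one_iff_eq (Nat.cast_ne_zero.2 (Nat.card_pos (α := G)).ne')).1 h
    rw [Finset.sum_congr rfl fun χ _ => h χ, ← Finset.sum_mul]
    have hcnt : ∑ χ, indVal B χ = ((Nat.card B : ℕ) : ℂ) := by
      simp only [indVal, Finset.sum_boole, Nat.card_eq_fintype_card, Fintype.card_subtype]
    rw [hcnt, hk]
    push_cast
    ring
  rw [sum_eq_sum_pElements Nat.prime_two F,
    ← hZS, ← Finset.add_sum_erase ZS _ (show (1 : G) ∈ ZS from Finset.mem_filter.2 ⟨Finset.mem_univ _, 0, by simp⟩), hone,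
    Finset.sum_congr rfl fun z hz => hother z (Finset.mem_erase.1 hz).2 (Finset.mem_erase.1 hz).1,
    ← Finset.sum_filter] at htot
  have hset : (ZS.erase 1).filter (fun z => IsConj u z) =
      Finset.univ.filter (fun z => IsConj u z) := by
    ext z
    simp only [Finset.mem_filter, Finset.mem_erase, Finset.mem_univ, true_and, hZS]
    refine ⟨fun h => h.2, fun h => ⟨⟨?_, 1, ?_⟩, h⟩⟩
    · rintro rfl
      exact hu1 (isConj_one_left.1 h)
    · obtain ⟨g, rfl⟩ := isConj_iff.1 h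
      rw [pow_one, show g * u * g⁻¹ = MulAut.conj g u from rfl, MulEquiv.orderOf_eq, huo]
  have hclass : ∀ z : G, IsConj u z → Nat.card (Subgroup.centralizer ({z} : Set G)) =
      Nat.card (Subgroup.centralizer ({u} : Set G)) := fun z h => by
    obtain ⟨g, rfl⟩ := isConj_iff.1 h
    exact card_centralizer_conj g u
  rw [hset, Finset.sum_congr rfl fun z hz => by rw [hclass z (Finset.mem_filter.1 hz).2],
    Finset.sum_const, nsmul_eq_mul] at htot
  have hcnt : (Finset.univ.filter (fun z => IsConj u z)).card *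
      Nat.card (Subgroup.centralizer ({u} : Set G)) = Nat.card G := by
    rw [← Fintype.card_subtype, ← Nat.card_eq_fintype_card]
    exact CfsgLib.Invol.card_isConj_mul_card_centralizer u
  have hcntC : ((Finset.univ.filter (fun z => IsConj u z)).card : ℂ) *
      (Nat.card (Subgroup.centralizer ({u} : Set G)) : ℂ) = (Nat.card G : ℂ) := by
    exact_mod_cast hcnt
  rw [hcntC] at htot
  have h : ((blockRank 2 B + 1 : ℕ) : ℂ) = (4 : ℕ) := by
    apply mul_left_cancel₀ (Nat.cast_ne_zero.2 (Nat.card_pos (α := G)).ne' : (Nat.card G : ℂ) ≠ 0)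
    push_cast
    linear_combination htot
  have := Nat.cast_injective h
  omega

end CfsgLib.Block
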