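import Mathlib
import Cfsg.Agent.Lib.InvolSylow
/-! Fusion of involutions with a Klein four Sylow 2-subgroup. -/

namespace CfsgLib.Invol

variable {G : Type*} [Group G] [Finite G]

theorem klein_orderOf {P : Subgroup G} (hP : IsKleinFour P) {a : G} (ha : a ∈ P) (h1 : a ≠ 1) :
    orderOf a = 2 := by
  refine orderOf_two_iff.mpr ⟨h1, ?_⟩
  exact congrArg Subtype.val (IsKleinFour.mul_self (⟨a, ha⟩ : P))

theorem klein_fusion_dichotomy (P : Sylow 2 G) (hP : IsKleinFour (P : Subgroup G)) :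
    (∀ a ∈ (P : Subgroup G), ∀ b ∈ (P : Subgroup G), a ≠ 1 → b ≠ 1 → IsConj a b) ∨
      (∀ a ∈ (P : Subgroup G), ∀ b ∈ (P : Subgroup G), IsConj a b → a = b) := by
  classical
  haveI : Fact (Nat.Prime 2) := ⟨Nat.prime_two⟩
  haveI hc : IsMulCommutative (P : Subgroup G) := IsKleinFour.isMulCommutative
  by_cases h : ∀ a ∈ (P : Subgroup G), ∀ b ∈ (P : Subgroup G), IsConj a b → a = b
  · exact Or.inr h
  left
  push_neg at h
  obtain ⟨a, ha, b, hb, hab, hne⟩ := h
  obtain ⟨g, hg⟩ := isConj_iff.mp hab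
  have hy : g⁻¹⁻¹ * a * g⁻¹ ∈ (P : Subgroup G) := by rw [inv_inv, hg]; exact hb
  obtain ⟨n, hn, he⟩ := Sylow.conj_eq_normalizer_conj_of_mem P a g⁻¹ ha hy
  rw [inv_inv, hg] at he
  set N := Subgroup.normalizer ((P : Subgroup G) : Set G) with hN
  set r : N →* MulAut (P : Subgroup G) := Subgroup.normalizerMonoidHom (P : Subgroup G) with hr
  have hrv : ∀ (m : N) (z : (P : Subgroup G)), ((r m z : (P : Subgroup G)) : G) = m * z * (m : G)⁻¹ :=
    fun m z => rfl
  have hker : (P : Subgroup G).subgroupOf N ≤ r.ker := by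
    intro m hm
    rw [MonoidHom.mem_ker]
    ext z
    rw [hrv]
    have := congrArg Subtype.val (hc.is_comm.comm (⟨m.1, hm⟩ : (P : Subgroup G)) z)
    change (m : G) * z * (m : G)⁻¹ = z
    rw [show (m : G) * z = z * m from this, mul_inv_cancel_right]
  have hodd : Odd (orderOf (r ⟨n⁻¹, inv_mem hn⟩)) := by
    rw [Nat.odd_iff, ← Nat.two_dvd_ne_zero]
    intro h2
    have h3 : orderOf (r ⟨n⁻¹, inv_mem hn⟩) ∣ Nat.card r.range := by
      exact Subgroup.orderOf_dvd_natCard r.range ⟨_, rfl⟩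
    have h4 : Nat.card r.range ∣ ((P : Subgroup G).subgroupOf N).index := by
      rw [← Subgroup.index_ker]; exact Subgroup.index_dvd_of_le hker
    have h5 : ((P : Subgroup G).subgroupOf N).index ∣ (P : Subgroup G).index :=
      Subgroup.relIndex_dvd_index_of_le Subgroup.le_normalizer
    exact P.not_dvd_index (h2.trans (h3.trans (h4.trans h5)))
  set σ := r ⟨n⁻¹, inv_mem hn⟩ with hσ
  have hσa : σ ⟨a, ha⟩ = ⟨b, hb⟩ := by
    apply Subtype.ext
    rw [hσ, hrv]
    simpa using he.symm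
  set A : (P : Subgroup G) := ⟨a, ha⟩
  set B : (P : Subgroup G) := ⟨b, hb⟩
  have hAB : A ≠ B := fun h => hne (congrArg Subtype.val h)
  have hA : A ≠ 1 := fun h => hAB (by rw [← hσa, h, map_one])
  have hB : B ≠ 1 := fun h => hA (σ.injective (by rw [hσa, map_one, h]))
  have hBA : σ B ≠ A := by
    intro h
    obtain ⟨l, hl⟩ := hodd
    have hfix : ∀ i : ℕ, (σ ^ (2 * i)) A = A := by
      intro i
      induction i with
      | zero => simp
      | succ i ih =>
        rw [Nat.mul_succ, pow_add, MulAut.mul_apply, pow_two, MulAut.mul_apply, hσa, h, ih]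
    have h1 : (σ ^ (2 * l + 1)) A = A := by rw [← hl, pow_orderOf_eq_one, MulAut.one_apply]
    rw [pow_succ', MulAut.mul_apply, hfix, hσa] at h1
    exact hAB h1.symm
  have hBB : σ B ≠ B := fun h => hAB (σ.injective (hσa.trans h.symm))
  have hB1 : σ B ≠ 1 := fun h => hB (σ.injective (by rw [h, map_one]))
  have hstep : ∀ z : (P : Subgroup G), IsConj (z : G) (σ z : G) := fun z =>
    isConj_iff.mpr ⟨n⁻¹, (hrv ⟨n⁻¹, inv_mem hn⟩ z).symm⟩
  have hall : ∀ z : (P : Subgroup G), z ≠ 1 → IsConj a (z : G) := by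
    intro z hz
    by_cases h1 : z = A
    · rw [h1]
    by_cases h2 : z = B
    · rw [h2]; exact hab
    have hz' : z = σ B := by
      rw [IsKleinFour.eq_mul_of_ne_all hA hB hAB hz h1 h2,
        IsKleinFour.eq_mul_of_ne_all hA hB hAB hB1 hBA hBB]
    rw [hz']
    exact hab.trans (hstep B)
  intro x hx y hy' hx1 hy1
  exact (hall ⟨x, hx⟩ (fun h => hx1 (congrArg Subtype.val h))).symm.trans
    (hall ⟨y, hy'⟩ (fun h => hy1 (congrArg Subtype.val h)))

theorem klein_card_classes (P : Sylow 2 G) (hP : IsKleinFour (P : Subgroup G)) :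
    ((∀ a ∈ (P : Subgroup G), ∀ b ∈ (P : Subgroup G), a ≠ 1 → b ≠ 1 → IsConj a b) →
      Nat.card {C : ConjClasses G // ∃ t : G, orderOf t = 2 ∧ ConjClasses.mk t = C} = 1) ∧
    ((∀ a ∈ (P : Subgroup G), ∀ b ∈ (P : Subgroup G), IsConj a b → a = b) →
      Nat.card {C : ConjClasses G // ∃ t : G, orderOf t = 2 ∧ ConjClasses.mk t = C} = 3) := by
  classical
  let f : {z : (P : Subgroup G) // z ≠ 1} →
      {C : ConjClasses G // ∃ t : G, orderOf t = 2 ∧ ConjClasses.mk t = C} := fun z =>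
    ⟨ConjClasses.mk (z.1 : G), z.1, klein_orderOf hP z.1.2 (fun h => z.2 (Subtype.ext h)), rfl⟩
  have hsurj : Function.Surjective f := by
    rintro ⟨C, t, ht, rfl⟩
    obtain ⟨g, hg⟩ := exists_conj_mem_sylow_two P ht
    refine ⟨⟨⟨_, hg⟩, fun h => ?_⟩, Subtype.ext ?_⟩
    · exact ne_one_of_orderOf_two ht (conj_eq_one_iff.mp (congrArg Subtype.val h))
    · exact (ConjClasses.mk_eq_mk_iff_isConj.mpr (isConj_iff.mpr ⟨g, rfl⟩)).symm
  have h3 : Nat.card {z : (P : Subgroup G) // z ≠ 1} = 3 := by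
    haveI := Fintype.ofFinite (P : Subgroup G)
    rw [Nat.card_eq_fintype_card, Fintype.card_subtype_compl, Fintype.card_subtype_eq,
      ← Nat.card_eq_fintype_card, hP.card_four]
  refine ⟨fun h => ?_, fun h => ?_⟩
  · haveI : Nonempty {z : (P : Subgroup G) // z ≠ 1} := Nat.card_pos_iff.mp (h3 ▸ by norm_num) |>.1
    rw [Nat.card_eq_one_iff_unique]
    refine ⟨⟨fun C D => ?_⟩, ⟨f (Classical.arbitrary _)⟩⟩
    obtain ⟨x, rfl⟩ := hsurj C
    obtain ⟨y, rfl⟩ := hsurj D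
    exact Subtype.ext (ConjClasses.mk_eq_mk_iff_isConj.mpr
      (h _ x.1.2 _ y.1.2 (fun e => x.2 (Subtype.ext e)) (fun e => y.2 (Subtype.ext e))))
  · rw [← h3]
    refine (Nat.card_congr (Equiv.ofBijective f ⟨fun x y hxy => ?_, hsurj⟩)).symm
    exact Subtype.ext (Subtype.ext (h _ x.1.2 _ y.1.2
      (ConjClasses.mk_eq_mk_iff_isConj.mp (congrArg Subtype.val hxy))))

end CfsgLib.Invol
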