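import Cfsg.Agent.Lib.BlockPrinSection
import Cfsg.Agent.Lib.BlockPrincipal
import Cfsg.Agent.Lib.BlockRegular
import Cfsg.Agent.Lib.BlockPrinColumn
import Cfsg.Agent.Lib.InvolKlein
import Cfsg.Agent.Lib.TransferMore
import Cfsg.Agent.Lib.CharInt
import Cfsg.Agent.S0914
import Cfsg.Agent.S0947

/-!
# The principal block for a Klein four Sylow subgroup with one class of involutions
-/

set_option autoImplicit false
set_option linter.style.haveILetI false
set_option linter.unusedSectionVars false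

namespace CfsgLib.Block

open Cfsg
open scoped ComplexConjugate

universe u

variable {G : Type u} [Group G] [Fintype G]

/-- An involution of a Klein four Sylow subgroup has a centraliser with a normal complement of
odd order. -/
theorem klein_centralizer_core (P : Sylow 2 G) (hP : IsKleinFour (P : Subgroup G)) {z : G}
    (hz : z ∈ (P : Subgroup G)) (hz2 : orderOf z = 2) :
    (∃ k : ℕ, (pPrimeCore 2 (Subgroup.centralizer ({z} : Set G))).index = 2 ^ k) ∧
      (Nat.card (Subgroup.centralizer ({z} : Set G))).factorization 2 = 2 := by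
  classical
  haveI : Fact (Nat.Prime 2) := ⟨Nat.prime_two⟩
  haveI hPc : IsMulCommutative (P : Subgroup G) := IsKleinFour.isMulCommutative
  have hcomm : ∀ a ∈ (P : Subgroup G), ∀ b ∈ (P : Subgroup G), a * b = b * a := fun a ha b hb =>
    congrArg Subtype.val (hPc.is_comm.comm ⟨a, ha⟩ ⟨b, hb⟩)
  set C := Subgroup.centralizer ({z} : Set G) with hC
  have hPC : (P : Subgroup G) ≤ C := fun a ha =>
    Subgroup.mem_centralizer_singleton_iff.2 (hcomm a ha z hz)
  let P' : Sylow 2 C := P.subtype hPC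
  have hP'eq : (P' : Subgroup C) = (P : Subgroup G).subgroupOf C := rfl
  have hcard : Nat.card P' = 4 := by
    rw [← hP.card_four]
    exact Nat.card_congr (Subgroup.subgroupOfEquivOfLe hPC).toEquiv
  have hmem : ∀ x : C, x ∈ (P' : Subgroup C) ↔ (x : G) ∈ (P : Subgroup G) := fun x => Iff.rfl
  have hnc : Subgroup.normalizer ((P' : Subgroup C) : Set C) ≤
      Subgroup.centralizer ((P' : Subgroup C) : Set C) := by
    intro n hn
    rw [Subgroup.mem_centralizer_iff]
    intro a ha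
    have ha' : (a : G) ∈ (P : Subgroup G) := (hmem a).1 ha
    have hsq : ∀ b ∈ (P : Subgroup G), b * b = 1 := fun b hb =>
      congrArg Subtype.val (IsKleinFour.mul_self (⟨b, hb⟩ : (P : Subgroup G)))
    -- the square of `n` centralises `a`
    have hconj : ∀ m : C, m ∈ Subgroup.normalizer ((P' : Subgroup C) : Set C) →
        (m : G) * (a : G) * (m : G)⁻¹ = (a : G) ∨ (m : G) * (a : G) * (m : G)⁻¹ = z * a := by
      intro m hm
      by_cases ha1 : (a : G) = 1
      · exact .inl (by rw [ha1, mul_one, mul_inv_cancel])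
      by_cases haz : (a : G) = z
      · left
        rw [haz, Subgroup.mem_centralizer_singleton_iff.1 m.2, mul_inv_cancel_right]
      have hb : (m : G) * (a : G) * (m : G)⁻¹ ∈ (P : Subgroup G) :=
        (hmem (m * a * m⁻¹)).1 ((Subgroup.mem_normalizer_iff.mp hm a).1 ha)
      by_contra hcon
      push Not at hcon
      have hb1 : (m : G) * (a : G) * (m : G)⁻¹ ≠ 1 := fun h => ha1 (by
        have := congrArg (fun x => (m : G)⁻¹ * x * m) h
        simpa [mul_assoc] using this)
      have hbz : (m : G) * (a : G) * (m : G)⁻¹ ≠ z := fun h => haz (by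
        have := congrArg (fun x => (m : G)⁻¹ * x * m) h
        simp only [mul_assoc, inv_mul_cancel_left, inv_mul_cancel, mul_one] at this
        rw [this, ← Subgroup.mem_centralizer_singleton_iff.1 m.2, inv_mul_cancel_left])
      have hz1 : z ≠ 1 := fun h => by rw [h, orderOf_one] at hz2; omega
      have h4 : ({1, z, (a : G), z * a} : Finset G) =
          (Finset.univ.filter fun x => x ∈ (P : Subgroup G)) := by
        refine Finset.eq_of_subset_of_card_le (fun x hx => ?_) ?_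
        · simp only [Finset.mem_insert, Finset.mem_singleton] at hx
          refine Finset.mem_filter.mpr ⟨Finset.mem_univ _, ?_⟩
          rcases hx with rfl | rfl | rfl | rfl
          exacts [one_mem _, hz, ha', mul_mem hz ha']
        · have hP4 := hP.card_four
          rw [Nat.card_eq_fintype_card, Fintype.card_subtype] at hP4
          have hd : ({1, z, (a : G), z * a} : Finset G).card = 4 := by
            have n1 : (1 : G) ≠ z * a := fun h => haz (by
              rw [← inv_eq_of_mul_eq_one_right h.symm]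
              exact (eq_inv_of_mul_eq_one_right (hsq z hz)).symm)
            have n2 : z ≠ z * a := fun h => ha1 (mul_eq_left.mp h.symm)
            have n3 : (a : G) ≠ z * a := fun h => hz1 (mul_eq_right.mp h.symm)
            rw [Finset.card_insert_of_notMem, Finset.card_insert_of_notMem,
              Finset.card_insert_of_notMem, Finset.card_singleton]
            · simp [n3]
            · simp [Ne.symm haz, n2]
            · simp [Ne.symm hz1, Ne.symm ha1, n1]
          rw [hP4, hd]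
      have : (m : G) * (a : G) * (m : G)⁻¹ ∈ ({1, z, (a : G), z * a} : Finset G) :=
        h4 ▸ Finset.mem_filter.mpr ⟨Finset.mem_univ _, hb⟩
      simp only [Finset.mem_insert, Finset.mem_singleton] at this
      rcases this with h | h | h | h
      exacts [hb1 h, hbz h, hcon.1 h, hcon.2 h]
    have hn2 : (n : G) * n * (a : G) * ((n : G) * n)⁻¹ = (a : G) := by
      rcases hconj n hn with h | h
      · calc (n : G) * n * (a : G) * ((n : G) * n)⁻¹ = n * (n * (a : G) * (n : G)⁻¹) * (n : G)⁻¹ := by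
              group
          _ = _ := by rw [h, h]
      · calc (n : G) * n * (a : G) * ((n : G) * n)⁻¹ = n * (n * (a : G) * (n : G)⁻¹) * (n : G)⁻¹ := by
              group
          _ = (n : G) * (z * a) * (n : G)⁻¹ := by rw [h]
          _ = ((n : G) * z * (n : G)⁻¹) * (n * (a : G) * (n : G)⁻¹) := by group
          _ = z * (z * a) := by
              rw [h, Subgroup.mem_centralizer_singleton_iff.1 n.2, mul_inv_cancel_right]
          _ = (a : G) := by rw [← mul_assoc, hsq z hz, one_mul]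
    have hcen : ∀ x : G, x * (a : G) * x⁻¹ = (a : G) →
        x ∈ Subgroup.centralizer ({(a : G)} : Set G) := fun x hx =>
      Subgroup.mem_centralizer_singleton_iff.2 (mul_inv_eq_iff_eq_mul.1 hx)
    obtain ⟨i, m, hm, hnm⟩ := Nat.exists_eq_two_pow_mul_odd (n := orderOf n) (orderOf_pos n).ne'
    have hnmP : n ^ m ∈ (P' : Subgroup C) := by
      have hpg : IsPGroup 2 (Subgroup.zpowers (n ^ m)) :=
        IsPGroup.of_card (n := i) (by
          rw [Nat.card_zpowers, orderOf_pow_of_dvd (by rintro rfl; simp at hm) ⟨2 ^ i, by rw [hnm, mul_comm]⟩,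
            hnm, Nat.mul_div_cancel _ hm.pos])
      have hle := hpg.inf_normalizer_sylow P'
      have h1 : n ^ m ∈ Subgroup.zpowers (n ^ m) ⊓
          Subgroup.normalizer ((P' : Subgroup C) : Set C) :=
        Subgroup.mem_inf.mpr ⟨Subgroup.mem_zpowers _, Subgroup.pow_mem _ hn m⟩
      rw [show Subgroup.normalizer ((P' : Subgroup C) : Set C) =
        Subgroup.normalizer (P' : Set C) from rfl, hle] at h1
      exact (Subgroup.mem_inf.mp h1).2
    have h1 : (n : G) ^ m ∈ Subgroup.centralizer ({(a : G)} : Set G) := by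
      refine Subgroup.mem_centralizer_singleton_iff.2 ?_
      have := (hmem (n ^ m)).1 hnmP
      rw [Subgroup.coe_pow] at this
      exact hcomm _ this _ ha'
    have h2 : (n : G) ^ 2 ∈ Subgroup.centralizer ({(a : G)} : Set G) :=
      hcen _ (by rw [pow_two]; exact hn2)
    obtain ⟨t, rfl⟩ := hm
    have h3 : (n : G) ∈ Subgroup.centralizer ({(a : G)} : Set G) := by
      have e : (n : G) = ((n : G) ^ 2) ^ (-(t : ℤ)) * (n : G) ^ (2 * t + 1) := by
        rw [← zpow_natCast (n : G) 2, ← zpow_natCast (n : G) (2 * t + 1), ← zpow_mul, ← zpow_add]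
        norm_num
      rw [e]
      exact mul_mem (Subgroup.zpow_mem _ h2 _) h1
    exact Subtype.ext (Subgroup.mem_centralizer_singleton_iff.1 h3).symm
  have hv : (Nat.card C).factorization 2 = 2 := by
    have h := P'.card_eq_multiplicity
    rw [hcard] at h
    exact (Nat.pow_right_injective le_rfl (h.symm.trans (by norm_num : (4 : ℕ) = 2 ^ 2)))
  refine ⟨?_, hv⟩
  obtain ⟨Q, K, hK, hKc⟩ := CfsgLib.Transfer.burnside P' hnc
  have hQ : Nat.card Q = 4 := by
    rw [Q.card_eq_multiplicity, hv]; norm_num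
  have hodd : (Nat.card K).Coprime 2 := by
    rw [Nat.coprime_comm, Nat.prime_two.coprime_iff_not_dvd]
    intro h2
    have hmul := hKc.card_mul
    rw [hQ] at hmul
    have h8 : 2 ^ 3 ∣ Nat.card C := by
      rw [← hmul]; exact (show (2 : ℕ) ^ 3 = 2 * 4 by norm_num) ▸ Nat.mul_dvd_mul h2 dvd_rfl
    have := (Nat.prime_two.pow_dvd_iff_le_factorization Nat.card_pos.ne').1 h8
    omega
  have hdvd : (pPrimeCore 2 C).index ∣ 2 ^ 2 := by
    refine (Subgroup.index_dvd_of_le (CfsgLib.Core.le_pPrimeCore hK hodd)).trans ?_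
    rw [hKc.symm.index_eq_card, hQ]; norm_num
  obtain ⟨k, -, hk⟩ := (Nat.dvd_prime_pow Nat.prime_two).1 hdvd
  exact ⟨k, hk⟩

/-- The principal block for a Klein four Sylow subgroup with one class of involutions. -/
theorem klein_principal_block (M : Ideal AlgInt) (hM : IsPModular 2 M) (P : Sylow 2 G)
    (hP : IsKleinFour (P : Subgroup G))
    (hone : ∀ s t : G, orderOf s = 2 → orderOf t = 2 → IsConj s t) :
    ∃ ζ₂ ζ₃ ζ₄ : IrrCharacter G, ∃ ε : ℤ, (ε = 1 ∨ ε = -1) ∧
      (ζ₂ : G → ℂ) ≠ (fun _ => 1) ∧ (ζ₃ : G → ℂ) ≠ (fun _ => 1) ∧ ζ₂ ≠ ζ₃ ∧ ζ₂ ≠ ζ₄ ∧ ζ₃ ≠ ζ₄ ∧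
      principalBlock M G = {χ : IrrCharacter G | (χ : G → ℂ) = (fun _ => 1) ∨ χ = ζ₂ ∨ χ = ζ₃ ∨
        χ = ζ₄} ∧
      (∀ z : G, orderOf z = 2 → (ζ₂ : G → ℂ) z = 1 ∧ (ζ₃ : G → ℂ) z = (ε : ℂ) ∧
        (ζ₄ : G → ℂ) z = -1) ∧
      (4 : ℤ) ∣ (charDegree (ζ₂ : G → ℂ) : ℤ) - 1 ∧ (4 : ℤ) ∣ (charDegree (ζ₃ : G → ℂ) : ℤ) - ε ∧
      (4 : ℤ) ∣ (charDegree (ζ₄ : G → ℂ) : ℤ) + 1 ∧
      ∀ y : G, Odd (orderOf y) →
        1 + (ζ₂ : G → ℂ) y + (ε : ℂ) * (ζ₃ : G → ℂ) y - (ζ₄ : G → ℂ) y = 0 := by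
  classical
  haveI : Fact (Nat.Prime 2) := ⟨Nat.prime_two⟩
  haveI : Fintype (P : Subgroup G) := Fintype.ofFinite _
  obtain ⟨z, hzP, hz1⟩ : ∃ z ∈ (P : Subgroup G), z ≠ 1 := by
    by_contra h
    push Not at h
    have hb : (P : Subgroup G) = ⊥ := (Subgroup.eq_bot_iff_forall _).2 h
    have := hP.card_four
    rw [hb, Subgroup.card_bot] at this
    omega
  have hz2 : orderOf z = 2 := CfsgLib.Invol.klein_orderOf hP hzP hz1
  have hzk : ∃ k, orderOf z = 2 ^ k := ⟨1, by rw [hz2, pow_one]⟩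
  obtain ⟨hidx, hfac⟩ := klein_centralizer_core P hP hzP hz2
  have hC := ((Cfsg.Agent.S0947.result 2 M hM z hzk hz1 1 (by simp)).2 hidx)
  rw [hfac] at hC
  -- values at the involution
  have hval : ∀ χ : IrrCharacter G, ∃ a : ℤ, (χ : G → ℂ) z = a ∧
      (4 : ℤ) ∣ (charDegree (χ : G → ℂ) : ℤ) + 3 * a := by
    intro χ
    obtain ⟨n, hn⟩ := Char.inner_character_nat
      (Char.isCharacter_restrict χ.2.isCharacter' (P : Subgroup G))
      (Char.isCharacter_one (G := (P : Subgroup G)))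
    simp only [classInner, map_one, mul_one, hP.card_four] at hn
    rw [← Finset.add_sum_erase _ _ (Finset.mem_univ (1 : (P : Subgroup G))), OneMemClass.coe_one,
      Finset.sum_congr rfl (g := fun _ => (χ : G → ℂ) z) fun x hx => by
        have hx1 : (x : G) ≠ 1 := fun h => (Finset.mem_erase.1 hx).1 (Subtype.ext h)
        obtain ⟨g, hg⟩ := isConj_iff.1 (hone z x hz2 (CfsgLib.Invol.klein_orderOf hP x.2 hx1))
        rw [← hg]
        exact irr_classFunction χ z g,
      Finset.sum_const, Finset.card_erase_of_mem (Finset.mem_univ _), Finset.card_univ,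
      ← Nat.card_eq_fintype_card, hP.card_four, nsmul_eq_mul, ← charDegree_cast χ.2.isCharacter'] at hn
    norm_num at hn
    have hrat : (χ : G → ℂ) z = (((4 * (n : ℚ) - (charDegree (χ : G → ℂ) : ℚ)) / 3 : ℚ) : ℂ) := by
      push_cast
      linear_combination (4 / 3 : ℂ) * hn
    obtain ⟨a, ha⟩ := Char.int_of_isIntegral_rat _
      (hrat ▸ Char.isCharacter_isIntegral χ.2.isCharacter' z)
    refine ⟨a, ?_, (n : ℤ), ?_⟩
    · rw [hrat, ← ha]; norm_cast
    · have : ((charDegree (χ : G → ℂ) : ℤ) + 3 * a : ℚ) = 4 * n := by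
        rw [ha]; push_cast; ring
      exact_mod_cast this
  choose a ha hadvd using hval
  have hconjval : ∀ (χ : IrrCharacter G) (w : G), orderOf w = 2 → (χ : G → ℂ) w = a χ := by
    intro χ w hw
    obtain ⟨g, hg⟩ := isConj_iff.1 (hone z w hz2 hw)
    rw [← hg, ← ha χ]
    exact irr_classFunction χ z g
  set B : Finset (IrrCharacter G) :=
    Finset.univ.filter fun χ => χ ∈ principalBlock M G with hB
  have hBmem : ∀ χ, χ ∈ B ↔ χ ∈ principalBlock M G := fun χ => by simp [hB]
  have hsum : ∑ χ ∈ B, a χ ^ 2 = 4 := by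
    have h : ∑ χ ∈ B, ((a χ : ℝ)) ^ 2 = 4 := by
      have hC' := hC
      rw [finsum_mem_eq_finite_toFinset_sum _ (Set.toFinite _)] at hC'
      norm_num at hC'
      rw [← hC']
      refine Finset.sum_congr (by ext χ; simp [hB]) fun χ _ => ?_
      rw [ha, Complex.norm_intCast, sq_abs]
    exact_mod_cast h
  set τ : IrrCharacter G := trivIrr G with hτ
  have hτB : τ ∈ B := (hBmem _).2 (trivIrr_mem_principal hM)
  have hτa : a τ = 1 := by
    have := ha τ
    simp only [hτ, trivIrr] at this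
    exact_mod_cast this.symm
  have hne0 : ∀ χ ∈ B, a χ ≠ 0 := by
    intro χ hχ h0
    have h4 : 4 ∣ charDegree (χ : G → ℂ) := by
      have := hadvd χ
      rw [h0, mul_zero, add_zero] at this
      exact_mod_cast this
    have hv2 : (Nat.card G).factorization 2 = 2 := by
      have h := P.card_eq_multiplicity
      rw [hP.card_four] at h
      exact (Nat.pow_right_injective le_rfl (h.symm.trans (by norm_num : (4 : ℕ) = 2 ^ 2)))
    have hnd : ¬ 2 ∣ Nat.card G / charDegree (χ : G → ℂ) := by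
      intro hd
      obtain ⟨c, hc⟩ := charDegree_dvd_card χ
      rw [hc, Nat.mul_div_cancel_left _ (charDegree_pos χ)] at hd
      have h8 : 2 ^ 3 ∣ Nat.card G := by
        rw [hc]; exact (show (2 : ℕ) ^ 3 = 4 * 2 by norm_num) ▸ Nat.mul_dvd_mul h4 hd
      have := (Nat.prime_two.pow_dvd_iff_le_factorization Nat.card_pos.ne').1 h8
      omega
    have hblk := (Cfsg.Agent.S0914.result 2 M hM χ).1 hnd
    rw [← isPBlock_eq_blockOf hM (isPBlock_principal M) ((hBmem χ).1 hχ)] at hblk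
    have hτ' : τ ∈ principalBlock M G := (hBmem _).1 hτB
    rw [hblk, Set.mem_singleton_iff] at hτ'
    rw [← hτ', hτa] at h0
    exact one_ne_zero h0
  have hunit : ∀ χ ∈ B, a χ = 1 ∨ a χ = -1 := by
    intro χ hχ
    by_cases hχτ : χ = τ
    · exact .inl (hχτ ▸ hτa)
    have h2 : ∑ ξ ∈ ({τ, χ} : Finset (IrrCharacter G)), a ξ ^ 2 ≤ ∑ ξ ∈ B, a ξ ^ 2 :=
      Finset.sum_le_sum_of_subset_of_nonneg (by
        intro ξ hξ
        simp only [Finset.mem_insert, Finset.mem_singleton] at hξ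
        rcases hξ with rfl | rfl <;> assumption) fun _ _ _ => sq_nonneg _
    rw [Finset.sum_pair (Ne.symm hχτ), hsum, hτa] at h2
    have h0 := hne0 χ hχ
    have hb1 : a χ ≤ 1 := by nlinarith
    have hb2 : -1 ≤ a χ := by nlinarith
    omega
  have hcardB : B.card = 4 := by
    have h : ∑ χ ∈ B, a χ ^ 2 = ∑ χ ∈ B, (1 : ℤ) :=
      Finset.sum_congr rfl fun χ hχ => by rcases hunit χ hχ with h | h <;> rw [h] <;> norm_num
    rw [hsum, Finset.sum_const, nsmul_eq_mul, mul_one] at h
    exact_mod_cast h.symm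
  -- orthogonality to regular elements
  have horth : ∀ y : G, Odd (orderOf y) → ∑ χ ∈ B, (a χ : ℂ) * (χ : G → ℂ) y = 0 := by
    intro y hy
    have hreg : ¬ 2 ∣ orderOf y := fun h => Nat.not_even_iff_odd.2 hy (even_iff_two_dvd.2 h)
    have hne : ¬ IsConj (1 : G) z := fun h => hz1 (isConj_one_right.1 h)
    have h := block_sum_eq_zero (isPBlock_principal (G := G) M) hzk ⟨0, by simp⟩
      (by simp) hreg (Commute.one_right z) (Commute.one_left y) hne hM
    simp only [mul_one, one_mul] at h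
    have h' := congrArg conj h
    rw [map_sum, map_zero] at h'
    rw [← h', hB, Finset.sum_filter]
    refine Finset.sum_congr rfl fun χ _ => ?_
    rw [map_mul, map_mul, Complex.conj_conj, ha, map_intCast]
    unfold indVal
    split_ifs <;> simp
  obtain ⟨ζ₄, hζ₄, hζ₄a⟩ : ∃ χ ∈ B, a χ = -1 := by
    by_contra hcon
    push Not at hcon
    have h := horth 1 (by simp)
    rw [Finset.sum_congr rfl fun χ hχ => by
      rw [(hunit χ hχ).resolve_right (hcon χ hχ), ← charDegree_cast χ.2.isCharacter']] at h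
    simp only [Int.cast_one, one_mul] at h
    have h' : ∑ χ ∈ B, charDegree (χ : G → ℂ) = 0 := by exact_mod_cast h
    exact absurd (Finset.sum_eq_zero_iff.1 h' τ hτB) (charDegree_pos τ).ne'
  have hτ4 : τ ≠ ζ₄ := fun h => by rw [← h, hτa] at hζ₄a; omega
  set B2 := (B.erase τ).erase ζ₄ with hB2
  have hcard2 : B2.card = 2 := by
    rw [hB2, Finset.card_erase_of_mem (Finset.mem_erase.2 ⟨Ne.symm hτ4, hζ₄⟩),
      Finset.card_erase_of_mem hτB, hcardB]
  obtain ⟨x, y, hxy, hB2e⟩ := Finset.card_eq_two.1 hcard2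
  have hBe : ∀ (F : IrrCharacter G → ℂ), ∑ χ ∈ B, F χ = F τ + (F ζ₄ + (F x + F y)) := fun F => by
    rw [← Finset.add_sum_erase _ _ hτB,
      ← Finset.add_sum_erase _ _ (Finset.mem_erase.2 ⟨Ne.symm hτ4, hζ₄⟩), ← hB2, hB2e,
      Finset.sum_pair hxy]
  have hxB2 : x ∈ B2 := by rw [hB2e]; simp
  have hyB2 : y ∈ B2 := by rw [hB2e]; simp
  have hxB : x ∈ B := Finset.mem_of_mem_erase (Finset.mem_of_mem_erase hxB2)
  have hyB : y ∈ B := Finset.mem_of_mem_erase (Finset.mem_of_mem_erase hyB2)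
  obtain ⟨ζ₂, ζ₃, h23, hζ₂a, hpair⟩ : ∃ ζ₂ ζ₃ : IrrCharacter G, ζ₂ ≠ ζ₃ ∧ a ζ₂ = 1 ∧
      ((ζ₂ = x ∧ ζ₃ = y) ∨ (ζ₂ = y ∧ ζ₃ = x)) := by
    rcases hunit x hxB with h | h
    · exact ⟨x, y, hxy, h, .inl ⟨rfl, rfl⟩⟩
    rcases hunit y hyB with h' | h'
    · exact ⟨y, x, hxy.symm, h', .inr ⟨rfl, rfl⟩⟩
    exfalso
    have h1 := horth 1 (by simp)
    rw [hBe, hτa, hζ₄a, h, h', ← charDegree_cast τ.2.isCharacter',
      ← charDegree_cast ζ₄.2.isCharacter', ← charDegree_cast x.2.isCharacter',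
      ← charDegree_cast y.2.isCharacter'] at h1
    have hτd : charDegree (τ : G → ℂ) = 1 := charDegree_triv
    rw [hτd] at h1
    have h2 : (1 : ℤ) = (charDegree (ζ₄ : G → ℂ) : ℤ) + charDegree (x : G → ℂ) +
        charDegree (y : G → ℂ) := by
      have : ((1 : ℤ) : ℂ) = (((charDegree (ζ₄ : G → ℂ) : ℤ) + charDegree (x : G → ℂ) +
          charDegree (y : G → ℂ) : ℤ) : ℂ) := by push_cast at h1 ⊢; linear_combination h1
      exact_mod_cast this
    have := charDegree_pos ζ₄; have := charDegree_pos x; have := charDegree_pos y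
    omega
  have hsum3 : ∀ (F : IrrCharacter G → ℂ), ∑ χ ∈ B, F χ = F τ + (F ζ₄ + (F ζ₂ + F ζ₃)) := fun F => by
    rcases hpair with ⟨rfl, rfl⟩ | ⟨rfl, rfl⟩
    · exact hBe F
    · rw [hBe F, add_comm (F ζ₃) (F ζ₂)]
  have hm : ζ₂ ∈ B2 ∧ ζ₃ ∈ B2 := by
    rcases hpair with ⟨rfl, rfl⟩ | ⟨rfl, rfl⟩ <;> exact ⟨by assumption, by assumption⟩
  have hnτ : ∀ χ ∈ B2, (χ : G → ℂ) ≠ (fun _ => 1) := fun χ hχ h =>
    (Finset.mem_erase.1 (Finset.mem_of_mem_erase hχ)).1 (Subtype.ext h)
  have hζ₃B : ζ₃ ∈ B := Finset.mem_of_mem_erase (Finset.mem_of_mem_erase hm.2)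
  refine ⟨ζ₂, ζ₃, ζ₄, a ζ₃, hunit ζ₃ hζ₃B, hnτ _ hm.1, hnτ _ hm.2, h23,
    (Finset.mem_erase.1 hm.1).1, (Finset.mem_erase.1 hm.2).1, ?_, fun w hw => ⟨?_, ?_, ?_⟩, ?_, ?_, ?_,
    fun w hw => ?_⟩
  · ext χ
    rw [← hBmem]
    refine ⟨fun hχ => ?_, fun hχ => ?_⟩
    · by_cases h1 : χ = τ
      · exact .inl (congrArg Subtype.val h1)
      by_cases h4 : χ = ζ₄
      · exact .inr (.inr (.inr h4))
      have h2 : χ ∈ B2 := Finset.mem_erase.2 ⟨h4, Finset.mem_erase.2 ⟨h1, hχ⟩⟩
      rw [hB2e, Finset.mem_insert, Finset.mem_singleton] at h2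
      rcases hpair with ⟨rfl, rfl⟩ | ⟨rfl, rfl⟩ <;> rcases h2 with rfl | rfl <;> simp
    · rcases hχ with h | rfl | rfl | rfl
      · exact (Subtype.ext h : χ = τ) ▸ hτB
      · exact Finset.mem_of_mem_erase (Finset.mem_of_mem_erase hm.1)
      · exact hζ₃B
      · exact hζ₄
  · rw [hconjval ζ₂ w hw, hζ₂a, Int.cast_one]
  · exact hconjval ζ₃ w hw
  · rw [hconjval ζ₄ w hw, hζ₄a]; norm_num
  · have := hadvd ζ₂; rw [hζ₂a] at this; omega
  · have := hadvd ζ₃; omega
  · have := hadvd ζ₄; rw [hζ₄a] at this; omega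
  · have h := horth w hw
    rw [hsum3, hτa, hζ₄a, hζ₂a, show (τ : G → ℂ) w = 1 from rfl] at h
    push_cast at h
    linear_combination h

end CfsgLib.Block
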