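import Cfsg.Agent.Lib.BlockCoveringDefect
import Cfsg.Agent.Lib.BlockPairLocal
import Cfsg.Agent.Lib.BlockPairBridge
import Cfsg.Agent.Lib.CharDegree

/-!
# Heights in a block with normal defect group
-/

set_option autoImplicit false
set_option linter.style.haveILetI false
set_option linter.unusedSectionVars false
set_option linter.unusedFintypeInType false

namespace CfsgLib.Block

open Cfsg CfsgLib.Char
open scoped ComplexConjugate Classical

universe u

variable {G : Type u} [Group G] [Fintype G]

/-- The multiplicity of a constituent of the centraliser is divisible by the degrees below. -/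
theorem dvd_mult_of_commute {P C : Subgroup G} [Fintype P] [Fintype C]
    (hcomm : ∀ x ∈ P, ∀ c ∈ C, x * c = c * x) {χ : G → ℂ} (hχ : IsCharacter G χ)
    (ξ : IrrCharacter C) {n : ℕ} (hn : classInner (fun c : C => χ c) (ξ : C → ℂ) = n) {k : ℕ}
    (hk : ∀ δ : IrrCharacter P, classInner (fun x : P => χ x) (δ : P → ℂ) ≠ 0 →
      k ∣ charDegree (δ : P → ℂ)) : k ∣ n := by
  let μ : P × C →* G :=
    { toFun := fun y => (y.1 : G) * (y.2 : G)
      map_one' := by simp
      map_mul' := fun a b => by
        show (a.1 : G) * b.1 * ((a.2 : G) * b.2) = (a.1 : G) * a.2 * ((b.1 : G) * b.2)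
        rw [mul_assoc, ← mul_assoc (b.1 : G), hcomm _ b.1.2 _ a.2.2]
        group }
  let F : IrrCharacter C → P → ℂ := fun η x =>
    (Nat.card C : ℂ)⁻¹ * ∑ c : C, χ ((x : G) * c) * conj ((η : C → ℂ) c)
  have hinner : ∀ (η : IrrCharacter C) (δ : IrrCharacter P),
      ∃ m : ℕ, classInner (F η) (δ : P → ℂ) = m := by
    intro η δ
    have h1 : IsCharacter (P × C) (fun y => χ (μ y)) := isCharacter_comp hχ μ
    have h2 : IsCharacter (P × C) (fun y => (δ : P → ℂ) y.1 * (η : C → ℂ) y.2) :=
      isCharacter_mul (isCharacter_comp δ.2.isCharacter' (MonoidHom.fst P C))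
        (isCharacter_comp η.2.isCharacter' (MonoidHom.snd P C))
    obtain ⟨m, hm⟩ := inner_character_nat h1 h2
    refine ⟨m, ?_⟩
    rw [← hm, classInner, classInner, Nat.card_prod, Fintype.sum_prod_type, Nat.cast_mul, mul_inv,
      mul_assoc]
    congr 1
    rw [Finset.mul_sum]
    refine Finset.sum_congr rfl fun x _ => ?_
    simp only [F, Finset.mul_sum, Finset.sum_mul]
    refine Finset.sum_congr rfl fun c _ => ?_
    rw [map_mul]
    show _ = _ * (χ ((x : G) * c) * _)
    ring
  choose m hm using hinner
  have hcl : ∀ η, IsClassFunction P (F η) := by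
    intro η x y
    show (Nat.card C : ℂ)⁻¹ * _ = (Nat.card C : ℂ)⁻¹ * _
    congr 1
    refine Finset.sum_congr rfl fun c _ => ?_
    congr 1
    rw [show ((y * x * y⁻¹ : P) : G) * c = (y : G) * ((x : G) * c) * (y : G)⁻¹ by
      push_cast
      rw [mul_assoc _ (y : G)⁻¹, hcomm _ (inv_mem y.2) _ c.2]
      group]
    exact isCharacter_classFunction hχ _ _
  have hsupp : ∀ δ : IrrCharacter P, classInner (fun x : P => χ x) (δ : P → ℂ) = 0 →
      m ξ δ = 0 := by
    intro δ h0
    have h1 : ∑ η : IrrCharacter C, (charDegree (η : C → ℂ) : ℂ) * (m η δ : ℂ) = 0 := by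
      rw [← h0]
      have hsum : (fun x : P => χ x) = ∑ η : IrrCharacter C, (charDegree (η : C → ℂ) : ℂ) • F η := by
        funext x
        simp only [Finset.sum_apply, Pi.smul_apply, smul_eq_mul, F, Finset.mul_sum]
        rw [Finset.sum_comm, Finset.sum_eq_single (1 : C)]
        · rw [OneMemClass.coe_one, mul_one]
          have h := sum_degree_sq (G := C)
          have hC := natCard_ne_zero C
          have e : ∀ η : IrrCharacter C, conj ((η : C → ℂ) 1) = (η : C → ℂ) 1 := fun η => by
            rw [← charDegree_cast η.2.isCharacter', Complex.conj_natCast]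
          calc χ x = (Nat.card C : ℂ)⁻¹ * (∑ η : IrrCharacter C, (η : C → ℂ) 1 ^ 2) * χ x := by
                rw [h, inv_mul_cancel₀ hC, one_mul]
            _ = _ := by
                rw [Finset.mul_sum, Finset.sum_mul]
                refine Finset.sum_congr rfl fun η _ => ?_
                rw [e, charDegree_cast η.2.isCharacter']
                ring
        · intro c _ hc
          have h := congrArg conj (sum_degree_mul (G := C) c)
          rw [if_neg hc, map_sum, map_zero] at h
          refine Eq.trans ?_ (show (Nat.card C : ℂ)⁻¹ * χ ((x : G) * c) *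
            ∑ η : IrrCharacter C, conj ((η : C → ℂ) 1 * (η : C → ℂ) c) = 0 by rw [h, mul_zero])
          rw [Finset.mul_sum]
          refine Finset.sum_congr rfl fun η _ => ?_
          rw [map_mul, ← charDegree_cast η.2.isCharacter', Complex.conj_natCast]
          ring
        · exact fun h => absurd (Finset.mem_univ _) h
      rw [hsum, inner_sum_left]
      exact Finset.sum_congr rfl fun η _ => by rw [CfsgLib.Char.inner_smul_left, hm]
    have h2 : ∑ η : IrrCharacter C, charDegree (η : C → ℂ) * m η δ = 0 := by exact_mod_cast h1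
    have := Finset.sum_eq_zero_iff.1 h2 ξ (Finset.mem_univ _)
    exact (mul_eq_zero.1 this).resolve_left (charDegree_pos ξ).ne'
  have hval : F ξ 1 = (n : ℂ) := by
    rw [← hn]
    simp [F, classInner]
  have h1 := congrFun (classFunction_eq_sum _ (hcl ξ)) 1
  simp only [Finset.sum_apply, Pi.smul_apply, smul_eq_mul, hm] at h1
  have h2 : n = ∑ δ : IrrCharacter P, m ξ δ * charDegree (δ : P → ℂ) := by
    have : (n : ℂ) = ((∑ δ : IrrCharacter P, m ξ δ * charDegree (δ : P → ℂ) : ℕ) : ℂ) := by
      rw [← hval, h1, Nat.cast_sum]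
      refine Finset.sum_congr rfl fun δ _ => ?_
      rw [Nat.cast_mul, charDegree_cast δ.2.isCharacter']
    exact_mod_cast this
  rw [h2]
  refine Finset.dvd_sum fun δ _ => ?_
  by_cases h : classInner (fun x : P => χ x) (δ : P → ℂ) = 0
  · rw [hsupp δ h, zero_mul]; exact dvd_zero _
  · exact dvd_mul_of_dvd_right (hk δ h) _

variable {p : ℕ} [Fact p.Prime] {M : Ideal AlgInt} (hM : IsPModular p M)

include hM in
/-- **Reynolds.** A block with normal defect group has abelian defect group exactly when all
heights vanish. -/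
theorem abelian_iff_heights_zero {B : Set (IrrCharacter G)} (hB : IsPBlock M B) (P : Subgroup G)
    [P.Normal] (hP : IsDefectGroup p M B P) :
    (∀ a ∈ P, ∀ c ∈ P, a * c = c * a) ↔ ∀ χ ∈ B, blockHeight p B (χ : G → ℂ) = 0 := by
  have hp := hM.1
  haveI := Fintype.ofFinite P
  have hPp := isPGroup_defectGroup hM hB hP
  have hPcard := card_defectGroup hM hB hP
  set d := blockDefect p B with hd
  have hbm : blockMin p B + d = (Nat.card G).factorization p := by
    have := blockMin_le_card hM hB
    rw [hd, blockDefect_eq]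
    omega
  have hPv : (Nat.card P).factorization p = d := by
    rw [hPcard, hp.factorization_pow, Finsupp.single_eq_same]
  constructor
  · intro hab χ hχ
    rw [blockHeight_zero_iff hχ]
    refine le_antisymm ?_ (blockMin_le hχ)
    obtain ⟨θ, hθ, hcon⟩ := exists_irr_under (H := P) χ.2
    obtain ⟨k, hk, hdvd⟩ := degree_ratio χ.2 hθ hcon
    have hθ1 : θ 1 = 1 := by
      have hlin : ∀ θ : IrrCharacter P, charDegree (θ : P → ℂ) = 1 := by
        have hcomm : ∀ x y : P, x * y = y * x := fun x y => Subtype.ext (hab x x.2 y y.2)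
        have hc : Nat.card (ConjClasses P) = Nat.card P := by
          refine (Nat.card_eq_of_bijective ConjClasses.mk ⟨fun x y h => ?_, ConjClasses.mk_surjective⟩).symm
          obtain ⟨t, ht⟩ := isConj_iff.1 (ConjClasses.mk_eq_mk_iff_isConj.1 h)
          rw [← ht, hcomm t x, mul_inv_cancel_right]
        have h2 : ∑ θ : IrrCharacter P, charDegree (θ : P → ℂ) ^ 2 = ∑ _θ : IrrCharacter P, 1 := by
          have h := sum_degree_sq (G := P)
          rw [← hc, ← card_irrCharacter, Nat.card_eq_fintype_card] at h
          rw [Finset.sum_const, Finset.card_univ, smul_eq_mul, mul_one]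
          apply Nat.cast_injective (R := ℂ)
          rw [Nat.cast_sum, ← h]
          exact Finset.sum_congr rfl fun θ _ => by
            rw [Nat.cast_pow, charDegree_cast θ.2.isCharacter']
        intro θ
        have h3 := ((Finset.sum_eq_sum_iff_of_le fun i _ => Nat.one_le_pow _ _ (charDegree_pos i)).1
          h2.symm θ (Finset.mem_univ _)).symm
        exact (Nat.pow_eq_one.1 h3).resolve_right two_ne_zero
      rw [← charDegree_cast hθ.isCharacter']
      exact_mod_cast hlin ⟨θ, hθ⟩
    rw [hθ1, mul_one, ← charDegree_cast χ.2.isCharacter', Nat.cast_inj] at hk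
    have h1 := (Nat.factorization_le_iff_dvd (charDegree_pos χ).ne'
      Subgroup.index_ne_zero_of_finite).2 (hk ▸ hdvd) p
    have h2 : (Nat.card G).factorization p = d + P.index.factorization p := by
      rw [← P.card_mul_index, Nat.factorization_mul Nat.card_pos.ne' Subgroup.index_ne_zero_of_finite,
        Finsupp.add_apply, hPv]
    omega
  · intro hh
    by_contra hab
    -- a nonlinear character of `P`
    obtain ⟨δ, hδ⟩ : ∃ δ : IrrCharacter P, charDegree (δ : P → ℂ) ≠ 1 := by
      by_contra hlin
      push Not at hlin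
      apply hab
      have hc : Nat.card (ConjClasses P) = Nat.card P := by
        rw [← card_irrCharacter, Nat.card_eq_fintype_card (α := IrrCharacter P)]
        apply Nat.cast_injective (R := ℂ)
        rw [← sum_degree_sq (G := P), Finset.sum_congr rfl (g := fun _ => (1 : ℂ)) fun θ _ => by
          rw [← charDegree_cast θ.2.isCharacter', hlin θ, Nat.cast_one, one_pow],
          Finset.sum_const, Finset.card_univ, nsmul_one]
      have hbij := ((Nat.bijective_iff_surjective_and_card (ConjClasses.mk (α := P))).2
        ⟨ConjClasses.mk_surjective, hc.symm⟩).1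
      intro a ha c hc'
      have h := hbij (ConjClasses.mk_eq_mk_iff_isConj.2
          (isConj_iff.2 ⟨⟨a, ha⟩, rfl⟩) : ConjClasses.mk (⟨c, hc'⟩ : P) =
            ConjClasses.mk (⟨a, ha⟩ * ⟨c, hc'⟩ * (⟨a, ha⟩ : P)⁻¹))
      exact (mul_inv_eq_iff_eq_mul.1 (congrArg Subtype.val h).symm)
    obtain ⟨j, hj⟩ : ∃ j, charDegree (δ : P → ℂ) = p ^ j := by
      obtain ⟨k, hk⟩ := IsPGroup.iff_card.1 hPp
      obtain ⟨j, -, hj⟩ := (Nat.dvd_prime_pow hp).1 (hk ▸ charDegree_dvd_card δ)
      exact ⟨j, hj⟩
    have hj0 : j ≠ 0 := fun h => hδ (by rw [hj, h, pow_zero])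
    -- a character of the block over it
    obtain ⟨χ, hχ, hover⟩ : ∃ χ ∈ B, classInner (fun x : P => (χ : G → ℂ) x) (δ : P → ℂ) ≠ 0 := by
      by_contra hc
      push Not at hc
      have h0 : ∑ χ : IrrCharacter G, indVal B χ * (χ : G → ℂ) 1 *
          classInner (fun x : P => (χ : G → ℂ) x) (δ : P → ℂ) = 0 :=
        Finset.sum_eq_zero fun χ _ => by
          unfold indVal
          split_ifs with h
          · rw [hc χ h, mul_zero]
          · rw [zero_mul, zero_mul]
      simp only [classInner, Finset.mul_sum] at h0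
      rw [Finset.sum_comm, Finset.sum_eq_single (1 : P)] at h0
      · have hne : coef (indVal B) (1 : G) ≠ 0 := coef_indVal_one_ne_zero (isPBlock_nonempty hM hB)
        apply hne
        have hδ1 := irr_one_ne_zero δ
        have hP0 := natCard_ne_zero P
        have e : ∑ χ : IrrCharacter G, indVal B χ * (χ : G → ℂ) 1 * conj ((χ : G → ℂ) 1) = 0 := by
          have h1 : ∀ χ : IrrCharacter G, conj ((χ : G → ℂ) 1) = (χ : G → ℂ) 1 := fun χ => by
            rw [← charDegree_cast χ.2.isCharacter', Complex.conj_natCast]
          simp only [OneMemClass.coe_one] at h0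
          have h2 : ((Nat.card P : ℂ)⁻¹ * conj ((δ : P → ℂ) 1)) *
              ∑ χ : IrrCharacter G, indVal B χ * (χ : G → ℂ) 1 * conj ((χ : G → ℂ) 1) = 0 := by
            rw [Finset.mul_sum, ← h0]
            exact Finset.sum_congr rfl fun χ _ => by rw [h1]; ring
          refine (mul_eq_zero.1 h2).resolve_left ?_
          exact mul_ne_zero (inv_ne_zero hP0) (by rwa [map_ne_zero])
        rw [coef, e, mul_zero]
      · intro x _ hx
        have hord : p ∣ orderOf (x : G)⁻¹ := by
          rw [orderOf_inv, Subgroup.orderOf_coe]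
          obtain ⟨k, hk⟩ := IsPGroup.iff_orderOf.1 hPp x
          rw [hk]
          refine dvd_pow_self p fun h0 => hx ?_
          rwa [h0, pow_zero, orderOf_eq_one_iff] at hk
        have h := coef_indVal_singular hM hB hord
        simp only [coef, mul_eq_zero, inv_eq_zero, natCard_ne_zero G, false_or] at h
        rw [← mul_zero ((Nat.card P : ℂ)⁻¹ * conj ((δ : P → ℂ) x)), ← h, Finset.mul_sum]
        refine Finset.sum_congr rfl fun χ _ => ?_
        rw [isCharacter_inv_eq_conj χ.2.isCharacter', Complex.conj_conj]
        ring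
      · exact fun h => absurd (Finset.mem_univ _) h
    -- the centraliser
    set C := Subgroup.centralizer (P : Set G) with hC
    haveI := Fintype.ofFinite C
    haveI hCn : C.Normal := Subgroup.normal_centralizer
    obtain ⟨ξ, hξover⟩ := exists_over (N := C) χ
    set e := blockOf M (ξ : C → ℂ) with he
    have heb : IsPBlock M e := isPBlock_blockOf ξ
    have hpair : PairFn hM P (pFn hM P e) := ⟨hPp, e, heb, rfl⟩
    have hgB : trc P (gFn hM B) = gFn hM B := trc_eq_self fun g hg => by
      rw [gFn_block hM hB]; exact cred_bIdem_eq_zero_of_notMem hM P hPp hB hg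
    have hin : PairIn hM B P (pFn hM P e) := by
      refine ⟨hpair, hB, ?_⟩
      rcases hpair.trc_gFn_or hB with h | h
      · exact h
      · rw [hgB] at h
        exact absurd h (gconv_bFn_ne_zero hM heb hB hχ (mem_blockOf_self hM ξ) hξover)
    have hψ := maxPair_of_defectGroup hin hP
    obtain ⟨x₀, hc₀, hle⟩ := exists_conj_centralizer_defect hψ heb hin
    have hPx : P.map (MulAut.conj x₀).toMonoidHom = P :=
      Subgroup.eq_of_le_of_card_ge hc₀.le (card_map_conj P x₀).ge
    rw [hPx] at hle
    obtain ⟨z, hz⟩ := IsPGroup.iff_card.1 (hPp.to_le (inf_le_left (b := C)))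
    have hde : blockDefect p e ≤ z := by
      rw [hz] at hle
      exact (Nat.pow_le_pow_iff_right hp.one_lt).1 hle
    -- the inertial group
    set T := inertia (ξ : C → ℂ) with hT
    have hTP : ∀ g ∈ T, (∃ k : ℕ, orderOf g = p ^ k) → g ∈ P ⊔ C := by
      intro g hg hord
      refine pElement_stab_mem hψ hord (by rw [Subgroup.normalizer_eq_top]; exact Subgroup.mem_top g) ?_
      have hgn : g ∈ Subgroup.normalizer (P : Set G) := by
        rw [Subgroup.normalizer_eq_top]; exact Subgroup.mem_top g
      obtain ⟨h1, h2⟩ := conjSet_data hM g (centralizer_conj_iff hgn) heb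
      have hmem : ξ ∈ conjSet C C g e := ⟨ξ, mem_blockOf_self hM ξ, fun c c' hcc => by
        conv_rhs => rw [← (mem_inertia.1 hg : conjFn g (ξ : C → ℂ) = _)]
        exact congrArg (ξ : C → ℂ) (Subtype.ext hcc)⟩
      show cnj g (bFn hM C e) = bFn hM C e
      rw [← h2, isPBlock_eq_blockOf hM h1 hmem]
    obtain ⟨ST, hST, hSTcard⟩ := exists_sylow_group (G := T) p
    have hvT : (Nat.card T).factorization p ≤ (Nat.card (P ⊔ C : Subgroup G)).factorization p := by
      have hsub : ST.map T.subtype ≤ P ⊔ C := by
        rintro _ ⟨s, hs, rfl⟩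
        obtain ⟨k, hk⟩ := IsPGroup.iff_orderOf.1 hST ⟨s, hs⟩
        exact hTP _ s.2 ⟨k, by rw [Subgroup.subtype_apply, Subgroup.orderOf_coe, ← hk]; exact (Subgroup.orderOf_mk s hs).symm⟩
      have := Subgroup.card_dvd_of_le hsub
      rw [Subgroup.card_map_of_injective (Subgroup.subtype_injective _), hSTcard] at this
      exact (hp.pow_dvd_iff_le_factorization Nat.card_pos.ne').1 this
    have hPC : (Nat.card (P ⊔ C : Subgroup G)).factorization p + z = d + (Nat.card C).factorization p := by
      have hcard : Nat.card (P ⊔ C : Subgroup G) * Nat.card (P ⊓ C : Subgroup G) =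
          Nat.card P * Nat.card C := by
        have h1 := Subgroup.card_mul_index (C.subgroupOf P)
        have h2 := Subgroup.card_mul_index (C.subgroupOf (P ⊔ C))
        rw [← Subgroup.inf_subgroupOf_left, Nat.card_congr (Subgroup.subgroupOfEquivOfLe
          (inf_le_left : P ⊓ C ≤ P)).toEquiv, Subgroup.inf_subgroupOf_left] at h1
        rw [Nat.card_congr (Subgroup.subgroupOfEquivOfLe (le_sup_right : C ≤ P ⊔ C)).toEquiv] at h2
        have h3 : C.relIndex (P ⊔ C) = C.relIndex P := Subgroup.relIndex_sup_right P C
        simp only [Subgroup.relIndex] at h3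
        rw [h3] at h2
        rw [← h1, ← h2]
        ring
      have e := congrArg (fun a => a.factorization p) hcard
      rwa [Nat.factorization_mul Nat.card_pos.ne' Nat.card_pos.ne', Nat.factorization_mul Nat.card_pos.ne'
        Nat.card_pos.ne', Finsupp.add_apply, Finsupp.add_apply, hz, hp.factorization_pow,
        Finsupp.single_eq_same, hPv] at e
    have hTi : (Nat.card G).factorization p = (Nat.card T).factorization p + T.index.factorization p := by
      rw [← T.card_mul_index, Nat.factorization_mul Nat.card_pos.ne' Subgroup.index_ne_zero_of_finite,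
        Finsupp.add_apply]
    -- the degree
    obtain ⟨n, hn⟩ := inner_character_nat (isCharacter_restrict χ.2.isCharacter' C) ξ.2.isCharacter'
    have hdvd : p ^ j ∣ n := by
      refine dvd_mult_of_commute (fun x hx c hc => (Subgroup.mem_centralizer_iff.1 hc x hx))
        χ.2.isCharacter' ξ hn fun δ' hδ' => ?_
      obtain ⟨g, hg⟩ := constituent_conj χ.2 δ.2 δ'.2 hover hδ'
      rw [← hj]
      refine dvd_of_eq ?_
      apply Nat.cast_injective (R := ℂ)
      rw [charDegree_cast δ.2.isCharacter', charDegree_cast δ'.2.isCharacter', hg, conjFn_apply_one]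
    have hdeg : charDegree (χ : G → ℂ) = n * T.index * charDegree (ξ : C → ℂ) := by
      apply Nat.cast_injective (R := ℂ)
      push_cast
      rw [charDegree_cast χ.2.isCharacter', charDegree_cast ξ.2.isCharacter',
        clifford_degree χ.2 ξ.2 hξover, hn]
    have hn0 : n ≠ 0 := fun h => by
      rw [h, zero_mul, zero_mul] at hdeg
      exact (charDegree_pos χ).ne' hdeg
    have hnv : j ≤ n.factorization p := (hp.pow_dvd_iff_le_factorization hn0).1 hdvd
    have hξv : blockMin p e ≤ (charDegree (ξ : C → ℂ)).factorization p := blockMin_le (mem_blockOf_self hM ξ)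
    have hbme : blockMin p e + blockDefect p e = (Nat.card C).factorization p := by
      have := blockMin_le_card hM heb
      rw [blockDefect_eq]
      omega
    have h0 := (blockHeight_zero_iff hχ).1 (hh χ hχ)
    rw [hdeg, Nat.factorization_mul (mul_ne_zero hn0 Subgroup.index_ne_zero_of_finite) (charDegree_pos ξ).ne',
      Nat.factorization_mul hn0 Subgroup.index_ne_zero_of_finite, Finsupp.add_apply, Finsupp.add_apply] at h0
    omega

end CfsgLib.Block
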