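import Cfsg.Agent.Lib.BlockNilpotent
import Cfsg.Agent.Lib.BlockOrbit
import Cfsg.Agent.Lib.BlockPairLocal

/-!
# Nilpotent blocks and normal subgroups of `p`-power index
-/

set_option autoImplicit false
set_option linter.style.haveILetI false
set_option linter.unusedSectionVars false
set_option linter.unusedFintypeInType false

namespace CfsgLib.Block

open Cfsg CfsgLib.Char
open scoped ComplexConjugate Classical

universe u

variable {G : Type u} [Group G] [Fintype G] {p : ℕ} {M : Ideal AlgInt} {hM : IsPModular p M}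

/-- Block functions pass to an overgroup. -/
theorem isBlockFn_map {H : Subgroup G} [Fintype H] {K : Subgroup H} {γ : H → ResField M}
    (h : IsBlockFn hM K γ) : IsBlockFn hM (K.map H.subtype) (ext0 H γ) := by
  obtain ⟨e, he, rfl⟩ := h
  haveI := Fintype.ofFinite K
  haveI := Fintype.ofFinite (K.map H.subtype)
  let φ : K ≃* K.map H.subtype := K.equivMapOfInjective H.subtype Subtype.val_injective
  refine ⟨irrMap φ '' e, isPBlock_irrMap φ he, ?_⟩
  rw [bFn_eq_ext0, bFn_eq_ext0]
  funext g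
  by_cases hg : g ∈ K.map H.subtype
  · lift g to K.map H.subtype using hg
    obtain ⟨c, rfl⟩ := φ.surjective g
    rw [ext0_coe, show ((φ c : K.map H.subtype) : G) = ((c : H) : G) from rfl, ext0_coe, ext0_coe]
    simp only [gFn, blockCoeff_irrMap]
  · rw [show ext0 (K.map H.subtype) (gFn hM (irrMap φ '' e)) g = 0 from dif_neg hg]
    simp only [ext0]
    split_ifs with hgH hgK
    · exact absurd ⟨_, hgK, rfl⟩ hg
    · rfl
    · rfl

/-- Block functions of a subgroup of a subgroup, restricted. -/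
theorem isBlockFn_restrict_le {H K : Subgroup G} [Fintype H] {β : G → ResField M}
    (h : IsBlockFn hM K β) (hKH : K ≤ H) :
    IsBlockFn hM (K.subgroupOf H) (fun k : H => β k) := by
  obtain ⟨e, he, rfl⟩ := h
  haveI := Fintype.ofFinite K
  haveI := Fintype.ofFinite (K.subgroupOf H)
  let φ : K ≃* K.subgroupOf H := (Subgroup.subgroupOfEquivOfLe hKH).symm
  refine ⟨irrMap φ '' e, isPBlock_irrMap φ he, ?_⟩
  rw [bFn_eq_ext0, bFn_eq_ext0]
  funext g
  by_cases hg : (g : G) ∈ K
  · rw [show ext0 (K.subgroupOf H) (gFn hM (irrMap φ '' e)) g =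
        gFn hM (irrMap φ '' e) (φ ⟨g, hg⟩) from dif_pos (Subgroup.mem_subgroupOf.2 hg),
      show ext0 K (gFn hM e) (g : G) = gFn hM e ⟨g, hg⟩ from dif_pos hg]
    simp only [gFn, blockCoeff_irrMap]
  · rw [show ext0 (K.subgroupOf H) (gFn hM (irrMap φ '' e)) g = 0 from
        dif_neg (fun h => hg (Subgroup.mem_subgroupOf.1 h)),
      show ext0 K (gFn hM e) (g : G) = 0 from dif_neg hg]

/-- Block functions live on `p`-regular elements. -/
theorem IsBlockFn.regular {K : Subgroup G} {β : G → ResField M} (h : IsBlockFn hM K β) {g : G}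
    (hg : β g ≠ 0) : ¬ p ∣ orderOf g := by
  obtain ⟨e, he, rfl⟩ := h
  haveI := Fintype.ofFinite K
  rw [bFn_eq_ext0] at hg
  by_cases hgK : g ∈ K
  · lift g to K using hgK
    rw [ext0_coe, gFn_block hM he] at hg
    rw [Subgroup.orderOf_coe]
    exact fun hp => hg (cred_bIdem_singular hM he hp)
  · exact absurd (dif_neg hgK) hg

theorem mem_of_regular_of_pPower_index [Fact p.Prime] {N : Subgroup G} [N.Normal]
    (hN : ∃ k : ℕ, N.index = p ^ k) {g : G} (hg : ¬ p ∣ orderOf g) : g ∈ N := by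
  obtain ⟨k, hk⟩ := hN
  rw [← QuotientGroup.eq_one_iff, ← orderOf_eq_one_iff]
  refine Nat.eq_one_of_dvd_coprimes
    ((((Fact.out : p.Prime).coprime_iff_not_dvd).2 hg).symm.pow_right k)
    (orderOf_map_dvd (QuotientGroup.mk' N) g) ?_
  rw [← hk, Subgroup.index]
  exact orderOf_dvd_natCard _

/-- Two block functions occurring on the same idempotent agree. -/
theorem IsBlockFn.eq_of_common {K : Subgroup G} {β β' γ : G → ResField M}
    (hβ : IsBlockFn hM K β) (hβ' : IsBlockFn hM K β') (hγ : γ ≠ 0) (h : gconv β γ = γ)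
    (h' : gconv β' γ = γ) : β = β' := by
  by_contra hne
  apply hγ
  rw [← h, ← h', ← gconv_assoc, hβ.mul_ne hβ' hne, zero_gconv]

variable [Fact p.Prime] {N : Subgroup G} [hNn : N.Normal] [Fintype N]

/-- A block whose idempotent is that of a nilpotent overblock is nilpotent. -/
theorem nilpotent_down {B : Set (IrrCharacter G)} {c : Set (IrrCharacter N)}
    (hidx : ∃ k : ℕ, N.index = p ^ k) (hc : IsPBlock M c)
    (hBc : gFn hM B = bFn hM N c) (hnil : IsNilpotentBlock p M B) : IsNilpotentBlock p M c := by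
  refine ⟨hc, fun R e hRe x hx hst hreg => ?_⟩
  obtain ⟨he, hR⟩ := (isBrauerPairOf_iff hM).1 hRe
  have hfix := ((stabilizesBlock_iff hM he x).1 hst).2
  set φ := ext0 N (pFn hM R e)
  set Q := R.map N.subtype
  have hQp : IsPGroup p Q := hR.1.1.map _
  have hQN : Q ≤ N := Subgroup.map_subtype_le _
  have hcent : (Subgroup.centralizer (R : Set N)).map N.subtype =
      N ⊓ Subgroup.centralizer (Q : Set G) := by
    ext g
    constructor
    · rintro ⟨y, hy, rfl⟩
      refine ⟨y.2, Subgroup.mem_centralizer_iff.2 ?_⟩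
      rintro _ ⟨r, hr, rfl⟩
      exact congrArg Subtype.val (Subgroup.mem_centralizer_iff.1 hy r hr)
    · rintro ⟨hgN, hgC⟩
      exact ⟨⟨g, hgN⟩, Subgroup.mem_centralizer_iff.2 fun r hr =>
        Subtype.ext (Subgroup.mem_centralizer_iff.1 hgC _ ⟨r, hr, rfl⟩), rfl⟩
  have hφ : IsBlockFn hM (N ⊓ Subgroup.centralizer (Q : Set G)) φ :=
    hcent ▸ isBlockFn_map hR.1.2
  have hCN : Subgroup.centralizer (Q : Set G) ≤ Subgroup.normalizer (Q : Set G) :=
    Subgroup.centralizer_le_normalizer _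
  set a := trc Q (gFn hM B)
  have haφ : gconv a φ = φ := by
    have e1 : ext0 N (trc R (gFn hM c)) = a := by
      funext g
      by_cases hg : g ∈ N
      · lift g to N using hg
        simp only [a, hBc, trc, ext0_coe, bFn_eq_ext0]
        refine if_congr ⟨fun h => ?_, fun h => ?_⟩ rfl rfl
        · exact (hcent ▸ Subgroup.mem_map_of_mem N.subtype h :
            (g : G) ∈ N ⊓ Subgroup.centralizer (Q : Set G)).2
        · obtain ⟨y, hy, hye⟩ := hcent.symm ▸ (Subgroup.mem_inf.2 ⟨g.2, h⟩)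
          rwa [← (Subtype.ext hye : y = g)]
      · rw [show ext0 N (trc R (gFn hM c)) g = 0 from dif_neg hg]
        simp only [a, hBc, trc, bFn_eq_ext0]
        rw [show ext0 N (gFn hM c) g = 0 from dif_neg hg, ite_self]
    rw [← e1, ← ext0_gconv, hR.2.2]
  obtain ⟨hasupp, hainv, hasq⟩ := trc_props hM hQp (invBy_gFn hM B Q) (invBy_gFn hM B _)
    (gFn_mul_self hnil.1)
  obtain ⟨β, hβ, hβφ⟩ : ∃ β, IsBlockFn hM (Subgroup.centralizer (Q : Set G)) β ∧
      gconv β φ = φ := by
    by_contra hall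
    push Not at hall
    apply hφ.ne_zero
    rw [← gone_gconv φ, ← sum_blockFns hM (Subgroup.centralizer (Q : Set G)), sum_gconv]
    refine Finset.sum_eq_zero fun β hβ => ?_
    have hβb := (mem_blockFns hM _).1 hβ
    refine (hφ.occ_or (fun g hg => ?_) (invBy_mono hβb.invBy inf_le_right)
      hβb.mul_self).resolve_left (hall β hβb)
    by_contra hne
    exact hg ⟨mem_of_regular_of_pPower_index hidx (hβb.regular hne),
      by_contra fun h => hne (hβb.supp h)⟩
  have haβ : gconv a β = β :=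
    (hβ.occ_or hasupp hainv hasq).resolve_right fun h0 => hφ.ne_zero <| by
      rw [← haφ, ← hβφ, ← gconv_assoc, h0, zero_gconv]
  have hxn : (x : G) ∈ Subgroup.normalizer (Q : Set G) :=
    CfsgLib.Fusion.mem_normalizer_of_conj_mem fun s hs => by
      obtain ⟨r, hr, rfl⟩ := hs
      exact ⟨x * r * x⁻¹, (Subgroup.mem_normalizer_iff.1 hx r).1 hr, rfl⟩
  have hxφ : cnj (x : G) φ = φ := by
    funext g
    by_cases hg : g ∈ N
    · lift g to N using hg
      conv_rhs => rw [show φ (g : G) = pFn hM R e g from ext0_coe _ _ _, pFn, ← hfix]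
      simp only [cnj, φ]
      rw [show (x : G)⁻¹ * (g : G) * x = ((x⁻¹ * g * x : N) : G) from rfl, ext0_coe]
    · have hg' : (x : G)⁻¹ * g * x ∉ N := fun h => hg (by
        simpa [mul_assoc] using hNn.conj_mem _ h (x : G))
      simp only [cnj, φ, ext0, hg, hg', dite_false]
  have hxβ : cnj (x : G) β = β := by
    refine (isBlockFn_cnj hM (x : G) (centralizer_conj_iff hxn) hβ).eq_of_common hβ hφ.ne_zero
      ?_ hβφ
    conv_rhs => rw [← hxφ, ← hβφ]
    rw [cnj_gconv, hxφ]
  have := nilpotent_pair_regular (hM := hM) hnil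
    (show PairIn hM B Q β from ⟨⟨hQp, hβ⟩, hnil.1, haβ⟩) hxn hxβ
    (by rwa [IsPRegular, Subgroup.orderOf_coe])
  refine Subgroup.mem_centralizer_iff.2 fun r hr => Subtype.ext ?_
  exact Subgroup.mem_centralizer_iff.1 this _ ⟨r, hr, rfl⟩

/-- A block with the idempotent of a nilpotent block of a normal subgroup of `p`-power index is
nilpotent. -/
theorem nilpotent_up {B : Set (IrrCharacter G)} {c : Set (IrrCharacter N)}
    (hidx : ∃ k : ℕ, N.index = p ^ k) (hB : IsPBlock M B)
    (hBc : gFn hM B = bFn hM N c) (hnil : IsNilpotentBlock p M c) : IsNilpotentBlock p M B := by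
  haveI := charP_resField hM
  refine ⟨hB, fun Q f hQf x hx hst hreg => ?_⟩
  obtain ⟨hf, hQ⟩ := (isBrauerPairOf_iff hM).1 hQf
  have hxN : x ∈ N := mem_of_regular_of_pPower_index hidx hreg
  have hxβ : cnj x (pFn hM Q f) = pFn hM Q f := ((stabilizesBlock_iff hM hf x).1 hst).2
  set β := pFn hM Q f
  have hQp := hQ.1.1
  have hβ : IsBlockFn hM (Subgroup.centralizer (Q : Set G)) β := hQ.1.2
  have haβ : gconv (trc Q (gFn hM B)) β = β := hQ.2.2
  set L := N ⊓ Subgroup.centralizer (Q : Set G) with hL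
  have hLQ : L ≤ Subgroup.normalizer (Q : Set G) :=
    inf_le_right.trans (Subgroup.centralizer_le_normalizer _)
  have hβL : ∀ g, g ∉ L → β g = 0 := fun g hg => by_contra fun hne =>
    hg ⟨mem_of_regular_of_pPower_index hidx (hβ.regular hne),
      by_contra fun h => hne (hβ.supp h)⟩
  obtain ⟨γ, hγ, hβγ⟩ := exists_occ (hM := hM) (H := L) hβL (invBy_mono hβ.invBy inf_le_right)
    hβ.mul_self hβ.ne_zero
  have hnL : ∀ k : G, k ∈ Subgroup.normalizer (Q : Set G) → ∀ g, g ∈ L ↔ k⁻¹ * g * k ∈ L :=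
    fun k hk g => by
      simp only [hL, Subgroup.mem_inf]
      refine and_congr ⟨fun h => by simpa using hNn.conj_mem _ h k⁻¹, fun h => ?_⟩
        (centralizer_conj_iff hk g)
      simpa [mul_assoc] using hNn.conj_mem _ h k
  -- the centraliser permutes the blocks of `L` under `β` transitively, and `x` fixes each
  set K := Subgroup.centralizer (Q : Set G) with hK
  have hKN : K ≤ Subgroup.normalizer (Q : Set G) := Subgroup.centralizer_le_normalizer _
  let O := ((Finset.univ : Finset G).filter (· ∈ K)).image fun k => cnj k γ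
  have hOblock : ∀ δ ∈ O, IsBlockFn hM L δ := fun δ hδ => by
    obtain ⟨k, hk, rfl⟩ := Finset.mem_image.1 hδ
    exact isBlockFn_cnj hM k (hnL k (hKN (Finset.mem_filter.1 hk).2)) hγ
  have hmul : ∀ δ, IsBlockFn hM L δ →
      gconv (∑ ε ∈ O, ε) δ = if δ ∈ O then δ else 0 := by
    intro δ hδ
    rw [sum_gconv]
    split_ifs with hmem
    · rw [Finset.sum_eq_single_of_mem δ hmem fun ε hε hne => (hOblock ε hε).mul_ne hδ hne,
        hδ.mul_self]
    · exact Finset.sum_eq_zero fun ε hε => (hOblock ε hε).mul_ne hδ fun h => hmem (h ▸ hε)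
  have hγO : γ ∈ O := Finset.mem_image.2 ⟨1, by simp [one_mem], cnj_one γ⟩
  have hSsupp : ∀ g, g ∉ L → (∑ ε ∈ O, ε) g = 0 := fun g hg => by
    rw [Finset.sum_apply]
    exact Finset.sum_eq_zero fun ε hε => (hOblock ε hε).supp hg
  have hSinv : InvBy K (∑ ε ∈ O, ε) := invBy_of_cnj fun k hk => by
    funext g
    show (∑ ε ∈ O, ε) (k⁻¹ * g * k) = (∑ ε ∈ O, ε) g
    simp only [Finset.sum_apply]
    refine Finset.sum_bij' (fun ε _ => cnj k ε) (fun ε _ => cnj k⁻¹ ε) ?_ ?_ ?_ ?_ ?_
    · intro ε hε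
      obtain ⟨j, hj, rfl⟩ := Finset.mem_image.1 hε
      exact Finset.mem_image.2 ⟨k * j, by
        simpa using mul_mem hk (Finset.mem_filter.1 hj).2, (cnj_cnj k j γ).symm⟩
    · intro ε hε
      obtain ⟨j, hj, rfl⟩ := Finset.mem_image.1 hε
      exact Finset.mem_image.2 ⟨k⁻¹ * j, by
        simpa using mul_mem (inv_mem hk) (Finset.mem_filter.1 hj).2, (cnj_cnj k⁻¹ j γ).symm⟩
    · intro ε _; rw [cnj_cnj, inv_mul_cancel, cnj_one]
    · intro ε _; rw [cnj_cnj, mul_inv_cancel, cnj_one]
    · intro ε _; rfl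
  have hSsq : gconv (∑ ε ∈ O, ε) (∑ ε ∈ O, ε) = ∑ ε ∈ O, ε := by
    rw [gconv_sum]
    exact Finset.sum_congr rfl fun ε hε => by rw [hmul ε (hOblock ε hε), if_pos hε]
  have hSβ : gconv (∑ ε ∈ O, ε) β = β :=
    (hβ.occ_or (fun g hg => hSsupp g fun h => hg h.2) hSinv hSsq).resolve_right fun h0 =>
      hγ.ne_zero <| by
        have := congrArg (fun t => gconv t γ) h0
        simp only [gconv_assoc, hβγ, hmul γ hγ, if_pos hγO, zero_gconv] at this
        exact this
  have hxγ : cnj x γ = γ := by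
    have hx' : IsBlockFn hM L (cnj x γ) := isBlockFn_cnj hM x (hnL x hx) hγ
    have hβx : gconv β (cnj x γ) = cnj x γ := by
      conv_rhs => rw [← hβγ, cnj_gconv, hxβ]
    have hmem : cnj x γ ∈ O := by
      by_contra hne
      refine hx'.ne_zero ?_
      rw [← hβx, ← hSβ, gconv_assoc, hβx, hmul _ hx', if_neg hne]
    obtain ⟨k, hk, hke⟩ := Finset.mem_image.1 hmem
    have hkK : k ∈ K := (Finset.mem_filter.1 hk).2
    have hpow : ∀ m : ℕ, cnj (x ^ m) γ = cnj (k ^ m) γ := by
      intro m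
      induction m with
      | zero => simp
      | succ m ih =>
        rw [pow_succ', ← cnj_cnj, ih, cnj_cnj]
        rw [show x * k ^ m = k ^ m * x * (x⁻¹ * ((k ^ m)⁻¹ * x * k ^ m)) by group]
        have hl' : x⁻¹ * ((k ^ m)⁻¹ * x * k ^ m) ∈ L := by
          refine Subgroup.mem_inf.2
            ⟨mul_mem (inv_mem hxN) (by simpa using hNn.conj_mem _ hxN (k ^ m)⁻¹), ?_⟩
          have h1 := (centralizer_conj_iff hx _).1 (inv_mem (pow_mem hkK m))
          rw [show x⁻¹ * ((k ^ m)⁻¹ * x * k ^ m) = x⁻¹ * (k ^ m)⁻¹ * x * k ^ m by group]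
          exact mul_mem h1 (pow_mem hkK m)
        rw [← cnj_cnj (k ^ m * x), cnj_eq_self_of_invBy hγ.invBy hl', ← cnj_cnj, ← hke,
          cnj_cnj, pow_succ]
    obtain ⟨j, hj⟩ := hidx
    have h1 : k ^ orderOf x ∈ stabSub γ := by
      show cnj _ γ = γ
      rw [← hpow, pow_orderOf_eq_one, cnj_one]
    have h2 : k ^ p ^ j ∈ stabSub γ := by
      refine cnj_eq_self_of_invBy hγ.invBy (Subgroup.mem_inf.2 ⟨?_, pow_mem hkK _⟩)
      rw [← QuotientGroup.eq_one_iff, QuotientGroup.mk_pow, ← hj, Subgroup.index]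
      exact pow_card_eq_one'
    have hco : Nat.Coprime (p ^ j) (orderOf x) :=
      Nat.Coprime.pow_left _ ((Fact.out : p.Prime).coprime_iff_not_dvd.2 hreg)
    have h3 : k ∈ stabSub γ := by
      have e : k = (k ^ p ^ j) ^ Nat.gcdA (p ^ j) (orderOf x) *
          (k ^ orderOf x) ^ Nat.gcdB (p ^ j) (orderOf x) := by
        rw [← zpow_natCast k (p ^ j), ← zpow_natCast k (orderOf x), ← zpow_mul, ← zpow_mul,
          ← zpow_add, ← Nat.gcd_eq_gcd_ab, hco.gcd_eq_one, Nat.cast_one, zpow_one]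
      rw [e]
      exact mul_mem (zpow_mem h2 _) (zpow_mem h1 _)
    rw [← hke]
    exact h3
  -- the fixed block below
  set R := Q ⊓ N with hR
  have hQR : Q ≤ Subgroup.normalizer (R : Set G) := fun q hq =>
    CfsgLib.Fusion.mem_normalizer_of_conj_mem fun s hs =>
      Subgroup.mem_inf.2 ⟨mul_mem (mul_mem hq hs.1) (inv_mem hq), hNn.conj_mem _ hs.2 q⟩
  have hxR : x ∈ Subgroup.normalizer (R : Set G) :=
    CfsgLib.Fusion.mem_normalizer_of_conj_mem fun s hs =>
      ⟨(Subgroup.mem_normalizer_iff.1 hx s).1 hs.1, hNn.conj_mem _ hs.2 x⟩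
  set L' := N ⊓ Subgroup.centralizer (R : Set G) with hL'
  have hLL' : L ≤ L' := inf_le_inf_left _ (Subgroup.centralizer_le fun y hy => hy.1)
  have hnL' : ∀ k : G, k ∈ Subgroup.normalizer (R : Set G) → ∀ g, g ∈ L' ↔ k⁻¹ * g * k ∈ L' :=
    fun k hk g => by
      simp only [hL', Subgroup.mem_inf]
      refine and_congr ⟨fun h => by simpa using hNn.conj_mem _ h k⁻¹, fun h => ?_⟩
        (centralizer_conj_iff hk g)
      simpa [mul_assoc] using hNn.conj_mem _ h k
  let act : MulAction Q (blockFns hM L') :=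
    { smul := fun q δ => ⟨cnj (q : G) δ.1, (mem_blockFns hM _).2
        (isBlockFn_cnj hM (q : G) (hnL' q (hQR q.2)) ((mem_blockFns hM _).1 δ.2))⟩
      one_smul := fun δ => Subtype.ext (cnj_one δ.1)
      mul_smul := fun q r δ => Subtype.ext (cnj_cnj (q : G) (r : G) δ.1).symm }
  letI := act
  have hgone : (gone : G → ResField M) =
      ∑ δ ∈ Finset.univ.filter (fun δ : blockFns hM L' => ∀ q : Q, q • δ = δ),
        trc Q δ.1 := by
    rw [← trc_gone Q, ← sum_blockFns hM L', trc_sum, ← Finset.sum_coe_sort]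
    funext g
    simp only [Finset.sum_apply]
    refine sum_eq_sum_fixed (A := ResField M) hQp _ fun q δ => ?_
    show trc Q (cnj (q : G) δ.1) g = trc Q δ.1 g
    simp only [trc, cnj]
    split_ifs with hg
    · congr 1
      rw [mul_assoc, ← Subgroup.mem_centralizer_iff.1 hg q q.2, inv_mul_cancel_left]
    · rfl
  have hfixinv : ∀ δ : blockFns hM L', (∀ q : Q, q • δ = δ) → InvBy Q δ.1 := fun δ hδ =>
    invBy_of_cnj fun q hq => congrArg Subtype.val (hδ ⟨q, hq⟩)
  have hocc : ∀ δ : blockFns hM L', (∀ q : Q, q • δ = δ) →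
      gconv (trc Q δ.1) γ = γ ∨ gconv (trc Q δ.1) γ = 0 := fun δ hδ => by
    have hb := (mem_blockFns hM _).1 δ.2
    refine hγ.occ_or (fun g hg => ?_) (invBy_trc hLQ (invBy_mono hb.invBy hLL')) ?_
    · simp only [trc]
      split_ifs with hgC
      · exact hb.supp fun h => hg ⟨h.1, hgC⟩
      · rfl
    · rw [← trc_gconv hQp (hfixinv δ hδ) (hfixinv δ hδ), hb.mul_self]
  obtain ⟨δ, hδfix, hδγ⟩ : ∃ δ : blockFns hM L', (∀ q : Q, q • δ = δ) ∧
      gconv (trc Q δ.1) γ = γ := by
    by_contra hall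
    push Not at hall
    apply hγ.ne_zero
    rw [← gone_gconv γ, hgone, sum_gconv]
    refine Finset.sum_eq_zero fun δ hδ => ?_
    exact (hocc δ (Finset.mem_filter.1 hδ).2).resolve_left (hall δ (Finset.mem_filter.1 hδ).2)
  have hδb := (mem_blockFns hM _).1 δ.2
  have hxδ : cnj x δ.1 = δ.1 := by
    have hb := isBlockFn_cnj hM x (hnL' x hxR) hδb
    by_contra hne
    have hinv : InvBy Q (cnj x δ.1) := invBy_of_cnj fun q hq => by
      have hq' : x⁻¹ * q * x ∈ Q := by
        refine (Subgroup.mem_normalizer_iff.1 hx _).2 ?_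
        simpa [mul_assoc] using hq
      conv_rhs => rw [← cnj_eq_self_of_invBy (hfixinv δ hδfix) hq']
      rw [cnj_cnj, cnj_cnj]
      congr 1
      group
    have h1 : gconv (trc Q (cnj x δ.1)) γ = γ := by
      have := congrArg (cnj x) hδγ
      rwa [cnj_gconv, cnj_trc, map_conj_eq_self hx, hxγ] at this
    apply hγ.ne_zero
    rw [← h1, ← hδγ, ← gconv_assoc, ← trc_gconv hQp hinv (hfixinv δ hδfix),
      hb.mul_ne hδb hne, trc_zero, zero_gconv]
  -- the pair below the intersection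
  set aR := trc R (gFn hM B)
  have hRp : IsPGroup p R := hQp.to_le inf_le_left
  obtain ⟨haRs, haRi, haRsq⟩ := trc_props hM hRp (invBy_gFn hM B R) (invBy_gFn hM B _)
    (gFn_mul_self hB)
  have haN : ∀ g, g ∉ N → gFn hM B g = 0 := fun g hg => by
    rw [hBc, bFn_eq_ext0]; exact dif_neg hg
  have haRδ : gconv aR δ.1 = δ.1 := by
    refine (hδb.occ_or (fun g hg => ?_) (invBy_mono haRi inf_le_right) haRsq).resolve_right
      fun h0 => hγ.ne_zero ?_
    · by_cases hgC : g ∈ Subgroup.centralizer (R : Set G)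
      · simp only [aR, trc, if_pos hgC]
        exact haN g fun h => hg ⟨h, hgC⟩
      · exact haRs g hgC
    · have hinv : InvBy Q aR := invBy_trc hQR (invBy_gFn hM B Q)
      have e := congrArg (fun t => gconv (trc Q t) γ) h0
      simp only [trc_zero, zero_gconv] at e
      rw [trc_gconv hQp hinv (hfixinv δ hδfix), gconv_assoc, hδγ, trc_trc inf_le_left,
        ← hβγ, ← gconv_assoc, haβ, hβγ] at e
      exact e
  have hRN : R ≤ N := inf_le_right
  have hblock : IsBlockFn hM (Subgroup.centralizer ((R.subgroupOf N : Subgroup N) : Set N))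
      (fun k : N => δ.1 k) := by
    have h := isBlockFn_restrict_le hδb (H := N) inf_le_left
    have e : L'.subgroupOf N =
        Subgroup.centralizer ((R.subgroupOf N : Subgroup N) : Set N) := by
      ext k
      rw [mem_centralizer_subgroupOf hRN, Subgroup.mem_subgroupOf]
      exact ⟨fun h => h.2, fun h => ⟨k.2, h⟩⟩
    rwa [e] at h
  have hpair : PairIn hM (G := N) c (R.subgroupOf N) (fun k : N => δ.1 k) := by
    refine ⟨⟨hRp.of_equiv (Subgroup.subgroupOfEquivOfLe hRN).symm, hblock⟩, hnil.1,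
      ext0_injective N ?_⟩
    have e1 : ext0 N (trc (R.subgroupOf N) (gFn hM c)) = aR := by
      funext g
      by_cases hg : g ∈ N
      · lift g to N using hg
        simp only [aR, hBc, trc, ext0_coe, bFn_eq_ext0]
        exact if_congr (mem_centralizer_subgroupOf hRN g) rfl rfl
      · rw [show ext0 N (trc (R.subgroupOf N) (gFn hM c)) g = 0 from dif_neg hg]
        simp only [aR, trc, haN g hg, ite_self]
    rw [ext0_gconv, e1, ext0_restrict fun g hg => hδb.supp fun h => hg h.1, haRδ]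
  have hxC : x ∈ Subgroup.centralizer (R : Set G) := by
    refine (mem_centralizer_subgroupOf hRN ⟨x, hxN⟩).1 (nilpotent_pair_regular hnil hpair ?_
      (funext fun k => congrFun hxδ (k : G)) ?_)
    · refine Subgroup.mem_normalizer_iff.2 fun u => ?_
      simp only [Subgroup.mem_subgroupOf, Subgroup.coe_mul, Subgroup.coe_inv]
      exact Subgroup.mem_normalizer_iff.1 hxR (u : G)
    · rwa [IsPRegular, Subgroup.orderOf_mk]
  refine Subgroup.mem_centralizer_iff.2 fun q hq => ?_
  set r := x * q * x⁻¹ * q⁻¹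
  have hr : r ∈ R := by
    refine Subgroup.mem_inf.2 ⟨mul_mem ((Subgroup.mem_normalizer_iff.1 hx q).1 hq) (inv_mem hq), ?_⟩
    show x * q * x⁻¹ * q⁻¹ ∈ N
    rw [show x * q * x⁻¹ * q⁻¹ = x * (q * x⁻¹ * q⁻¹) by group]
    exact mul_mem hxN (hNn.conj_mem _ (inv_mem hxN) q)
  have hxr : r * x = x * r := Subgroup.mem_centralizer_iff.1 hxC r hr
  have hpow : ∀ m : ℕ, x ^ m * q * (x ^ m)⁻¹ = r ^ m * q := by
    intro m
    induction m with
    | zero => simp
    | succ m ih =>
      calc x ^ (m + 1) * q * (x ^ (m + 1))⁻¹ = x * (x ^ m * q * (x ^ m)⁻¹) * x⁻¹ := by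
            rw [pow_succ']; group
        _ = x * r ^ m * x⁻¹ * (x * q * x⁻¹) := by rw [ih]; group
        _ = r ^ m * (r * q) := by
            rw [← ((show Commute r x from hxr).pow_left m).eq, mul_inv_cancel_right,
              show x * q * x⁻¹ = r * q by simp [r]]
        _ = r ^ (m + 1) * q := by rw [← mul_assoc, ← pow_succ]
  have h0 := hpow (orderOf x)
  rw [pow_orderOf_eq_one, one_mul, inv_one, mul_one, right_eq_mul] at h0
  obtain ⟨j, hj⟩ := hRp ⟨r, hr⟩
  have hj' : r ^ p ^ j = 1 := congrArg Subtype.val hj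
  have hr1 : r = 1 := by
    have hco : Nat.Coprime (p ^ j) (orderOf x) :=
      Nat.Coprime.pow_left _ ((Fact.out : p.Prime).coprime_iff_not_dvd.2 hreg)
    have := orderOf_dvd_of_pow_eq_one h0
    have := Nat.dvd_gcd (orderOf_dvd_of_pow_eq_one hj') this
    rwa [hco.gcd_eq_one, Nat.dvd_one, orderOf_eq_one_iff] at this
  have e : x * q * x⁻¹ = q := by simpa [r, mul_inv_eq_one] using hr1
  exact (mul_inv_eq_iff_eq_mul.1 e).symm

end CfsgLib.Block
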