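import Cfsg.Agent.Lib.BlockInducedDefect
import Cfsg.Agent.Lib.BlockExtendedMain
import Cfsg.Agent.Lib.BlockPrincipal
import Cfsg.Agent.Lib.CharLinear
import Cfsg.Agent.Lib.CoreBasic
import Cfsg.Prelude.Def_OddOrderLocal

/-!
# Normal subgroups of order prime to `p` in the kernels of local blocks
-/

set_option autoImplicit false
set_option linter.style.haveILetI false
set_option linter.unusedSectionVars false
set_option linter.unusedFintypeInType false

universe u v

namespace CfsgLib.Block

open Cfsg CfsgLib.Char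
open scoped ComplexConjugate Classical

variable {G : Type u} [Group G] [Fintype G]

section Fix

variable {R : Type v} [CommRing R]

/-- Invariance under left translation. -/
def FixBy (K : Subgroup G) (a : G → R) : Prop := ∀ k ∈ K, ∀ g, a (k * g) = a g

theorem gconv_fix {k : G} {a : G → R} (h : ∀ g, a (k * g) = a g) (b : G → R) (g : G) :
    gconv a b (k * g) = gconv a b g := by
  simp only [gconv]
  refine (Fintype.sum_equiv (Equiv.mulLeft k) _ _ fun x => ?_).symm
  simp only [Equiv.coe_mulLeft, h, mul_inv_rev, mul_assoc, inv_mul_cancel_left]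

theorem FixBy.gconv {K : Subgroup G} {a : G → R} (h : FixBy K a) (b : G → R) :
    FixBy K (gconv a b) := fun k hk g => gconv_fix (h k hk) b g

theorem gconv_indicator {K : Subgroup G} {b : G → R} (h : FixBy K b) (c : R) (g : G) :
    gconv (fun x => if x ∈ K then c else 0) b g = (Nat.card K : R) * c * b g := by
  have e : ∀ x : G, (if x ∈ K then c else 0) * b (x⁻¹ * g) = if x ∈ K then c * b g else 0 := by
    intro x
    split_ifs with hx
    · rw [h x⁻¹ (inv_mem hx) g]
    · rw [zero_mul]
  simp only [CfsgLib.Block.gconv, e]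
  rw [← Finset.sum_filter, Finset.sum_const, nsmul_eq_mul,
    show (Finset.univ.filter fun x : G => x ∈ K).card = Nat.card K by
      rw [Nat.card_eq_fintype_card, Fintype.card_subtype]]
  ring

end Fix

variable {p : ℕ} [Fact p.Prime] {M : Ideal AlgInt}

theorem exists_natCast_inv (hM : IsPModular p M) {n : ℕ} (hn : ¬ p ∣ n) :
    ∃ z : locRing hM, z * (n : locRing hM) = 1 :=
  (isUnit_of_res_ne_zero hM (z := (n : locRing hM))
    fun h => hn ((res_natCast_eq_zero_iff hM n).1 h)).exists_left_inv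

theorem exists_res_inv (hM : IsPModular p M) {n : ℕ} (hn : ¬ p ∣ n) :
    ∃ c : ResField M, c * (n : ResField M) = 1 := by
  obtain ⟨z, hz⟩ := exists_natCast_inv hM hn
  exact ⟨res hM z, by rw [← map_natCast (res hM), ← map_mul, hz, map_one]⟩

/-- A block function is fixed by a normal subgroup of order prime to `p` as soon as a function
under its truncation is fixed by the truncated subgroup. -/
theorem fixBy_of_trc {hM : IsPModular p M} {H K P : Subgroup G} {β ψ : G → ResField M}
    (hβ : IsBlockFn hM H β) (hKH : K ≤ H) (hHK : H ≤ Subgroup.normalizer (K : Set G))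
    (hp : ¬ p ∣ Nat.card K) (hP : IsPGroup p P) (hPK : P ≤ Subgroup.normalizer (K : Set G))
    (hPβ : InvBy P β) (hψ : gconv (trc P β) ψ = ψ) (hne : ψ ≠ 0)
    (hfix : FixBy (K ⊓ Subgroup.centralizer (P : Set G)) ψ) : FixBy K β := by
  haveI := charP_resField hM
  obtain ⟨c, hc⟩ := exists_res_inv hM hp
  set e : G → ResField M := fun x => if x ∈ K then c else 0 with he
  have hmem : ∀ {L : Subgroup G}, L ≤ Subgroup.normalizer (K : Set G) → InvBy L e := by
    intro L hL k hk g
    simp only [he]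
    exact if_congr (Subgroup.mem_normalizer_iff.1 (hL hk) g).symm rfl rfl
  have hef : FixBy K e := fun k hk g => by
    simp only [he]
    exact if_congr (Subgroup.mul_mem_cancel_left K hk) rfl rfl
  have hee : gconv e e = e := funext fun g => by
    have h0 := gconv_indicator hef c g
    rw [mul_comm _ c, hc, one_mul] at h0
    exact h0
  rcases hβ.occ_or (a := e) (fun g hg => if_neg fun h => hg (hKH h)) (hmem hHK) hee with h | h
  · exact h ▸ hef.gconv β
  exfalso
  obtain ⟨d, hd⟩ := exists_res_inv hM (n := Nat.card (K ⊓ Subgroup.centralizer (P : Set G) : Subgroup G))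
    fun hd => hp (hd.trans (Subgroup.card_dvd_of_le inf_le_left))
  have h1 : gconv (trc P e) ψ = 0 := by
    rw [← hψ, ← gconv_assoc, ← trc_gconv hP (hmem hPK) hPβ, h, trc_zero, zero_gconv]
  have h2 : trc P e = fun x => if x ∈ K ⊓ Subgroup.centralizer (P : Set G) then c else 0 := by
    funext x
    simp only [trc, he, Subgroup.mem_inf]
    by_cases h1 : x ∈ Subgroup.centralizer (P : Set G) <;> by_cases h2 : x ∈ K <;> simp [h1, h2]
  refine hne (funext fun g => ?_)
  have h3 := congrFun h1 g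
  rw [h2, gconv_indicator hfix c g, Pi.zero_apply] at h3
  show ψ g = 0
  have h4 := congrArg (fun t => d * (Nat.card K : ResField M) * t) h3
  simp only [mul_zero] at h4
  calc ψ g = (c * (Nat.card K : ResField M)) *
        (d * (Nat.card (K ⊓ Subgroup.centralizer (P : Set G) : Subgroup G) : ResField M)) * ψ g := by
        rw [hc, hd, one_mul, one_mul]
    _ = 0 := by rw [← h4]; ring

/-- A restriction that meets the trivial character is trivial. -/
theorem apply_eq_one_of_sum_ne_zero {H : Type u} [Group H] [Fintype H] (K : Subgroup H) [K.Normal]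
    [Fintype K] (ξ : IrrCharacter H) (hne : ∑ k : K, (ξ : H → ℂ) k ≠ 0) (k : K) :
    (ξ : H → ℂ) k = (ξ : H → ℂ) 1 := by
  have h1 : classInner (fun n : K => (ξ : H → ℂ) n) (fun _ : K => (1 : ℂ)) ≠ 0 := by
    simp only [classInner, map_one, mul_one]
    exact mul_ne_zero (inv_ne_zero (Nat.cast_ne_zero.2 Nat.card_pos.ne')) hne
  have hcl := clifford ξ.2 isIrrCharacter_one h1
  have e : ∀ m : K, (ξ : H → ℂ) m = classInner (fun n : K => (ξ : H → ℂ) n) (fun _ : K => (1 : ℂ)) *
      ((conjOrbit (G := H) (fun _ : K => (1 : ℂ))).card : ℂ) := by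
    intro m
    rw [congrFun hcl m, Pi.smul_apply, smul_eq_mul, Finset.sum_apply, Finset.sum_congr rfl
      (g := fun _ => (1 : ℂ)) (fun φ hφ => ?_), Finset.sum_const, nsmul_eq_mul, mul_one]
    obtain ⟨g, rfl⟩ := mem_conjOrbit.1 hφ
    rfl
  rw [e k, show (ξ : H → ℂ) 1 = (ξ : H → ℂ) ((1 : K) : H) from rfl, e 1]

/-- A block whose idempotent is fixed by a normal subgroup of order prime to `p` has it in its
kernel. -/
theorem mem_blockKer_of_fixBy {H : Type u} [Group H] [Fintype H] (hM : IsPModular p M)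
    (K : Subgroup H) [K.Normal] (hp : ¬ p ∣ Nat.card K) {b : Set (IrrCharacter H)}
    (hb : IsPBlock M b) (hfix : FixBy K (gFn hM b)) {k : H} (hk : k ∈ K) : k ∈ Cfsg.blockKer b := by
  haveI := nontrivial_resField hM
  intro ξ hξ
  obtain ⟨z, hz⟩ := exists_natCast_inv hM hp
  set f : H → ℂ := fun h => if h ∈ K then (z : ℂ) else 0 with hf
  have hint : ∀ h, f h ∈ locRing hM := fun h => by
    simp only [hf]; split_ifs
    exacts [z.2, zero_mem _]
  have hcl : IsClassFunction H f := fun g x => by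
    simp only [hf]
    refine if_congr ⟨fun h => ?_, fun h => (inferInstance : K.Normal).conj_mem g h x⟩ rfl rfl
    simpa [mul_assoc] using (inferInstance : K.Normal).conj_mem _ h x⁻¹
  set w := ofFun hM f hcl hint with hw
  have hcred : cred hM w = fun h => if h ∈ K then res hM z else 0 := funext fun h => by
    rw [hw, cred_ofFun]
    by_cases hh : h ∈ K
    · simp only [hf, if_pos hh]
    · simp only [hf, if_neg hh]
      exact map_zero (res hM)
  have hcn : (Nat.card K : ResField M) * res hM z = 1 := by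
    rw [mul_comm, ← map_natCast (res hM), ← map_mul, hz, map_one]
  have hfw : FixBy K (cred hM w) := fun a ha g => by
    simp only [hcred]
    exact if_congr (Subgroup.mul_mem_cancel_left K ha) rfl rfl
  have hsq : gconv (cred hM w) (cred hM w) = cred hM w := funext fun g => by
    have h0 := gconv_indicator hfw (res hM z) g
    rw [hcn, one_mul] at h0
    rw [hcred] at h0 ⊢
    exact h0
  have hev : ev hM ξ w = 1 := by
    refine (ev_idem_iff hM w hsq hb hξ).1.2 (funext fun g => ?_)
    rw [hcred, gconv_indicator hfix, hcn, one_mul]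
  haveI := Fintype.ofFinite K
  refine apply_eq_one_of_sum_ne_zero K ξ (fun h0 => ?_) ⟨k, hk⟩
  have hval : om (ξ : H → ℂ) f = 0 := by
    have : ∑ g, f g * (ξ : H → ℂ) g = (z : ℂ) * ∑ a : K, (ξ : H → ℂ) a := by
      rw [Finset.mul_sum, ← sum_extendByZero K (fun _ => (z : ℂ)) (ξ : H → ℂ)]
      refine Finset.sum_congr rfl fun g _ => ?_
      by_cases hg : g ∈ K
      · rw [extendByZero_mem _ hg, hf]; simp [hg]
      · rw [extendByZero_not_mem _ hg, hf]; simp [hg]
    rw [om, this, h0, mul_zero, zero_div]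
  have : evO hM ξ w = 0 := Subtype.ext (by exact hval)
  rw [show ev hM ξ w = res hM (evO hM ξ w) from rfl, this, map_zero] at hev
  exact zero_ne_one hev

/-- Elements in the kernel fix the coefficients of a block. -/
theorem blockCoeff_mul_of_mem_blockKer {H : Type u} [Group H] [Fintype H]
    {b : Set (IrrCharacter H)} {k : H} (hk : k ∈ Cfsg.blockKer b) (g : H) :
    blockCoeff b (k * g) = blockCoeff b g := by
  simp only [blockCoeff]
  congr 1
  refine finsum_congr fun χ => finsum_congr fun hχ => ?_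
  rw [← char_mul_of_mem_ker χ.2.isCharacter' (hk χ hχ) g, ← irr_classFunction χ (g * k) k]
  congr 2
  group

theorem bFn_mul_of_mem_blockKer (hM : IsPModular p M) {H : Subgroup G} [Fintype H]
    {b : Set (IrrCharacter H)} {k : H} (hk : k ∈ Cfsg.blockKer b) (g : G) :
    bFn hM H b ((k : G) * g) = bFn hM H b g := by
  rw [bFn_eq_ext0]
  by_cases hg : g ∈ H
  · lift g to H using hg
    rw [← Subgroup.coe_mul, ext0_coe, ext0_coe]
    simp only [gFn, blockCoeff_mul_of_mem_blockKer hk]
  · rw [show ext0 H (gFn hM b) g = 0 from dif_neg hg]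
    exact dif_neg fun h => hg ((Subgroup.mul_mem_cancel_left H k.2).1 h)

theorem mem_blockKer_of_bFn (hM : IsPModular p M) {H : Subgroup G} [Fintype H] {K : Subgroup H}
    [K.Normal] (hp : ¬ p ∣ Nat.card K) {b : Set (IrrCharacter H)} (hb : IsPBlock M b)
    (hfix : ∀ k ∈ K, ∀ g, bFn hM H b ((k : G) * g) = bFn hM H b g) {k : H} (hk : k ∈ K) :
    k ∈ Cfsg.blockKer b := by
  refine mem_blockKer_of_fixBy hM K hp hb (fun a ha h => ?_) hk
  have := hfix a ha h
  rwa [← Subgroup.coe_mul, bFn_eq_ext0, ext0_coe, ext0_coe] at this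

section Core

variable {σ : Set ℕ}

theorem prime_mem_of_dvd_card_piCoreOf (X : Subgroup G) :
    ∀ r : ℕ, r.Prime → r ∣ Nat.card (Cfsg.piCoreOf σ X) → r ∈ σ := by
  rw [Cfsg.piCoreOf, Subgroup.card_map_of_injective X.subtype_injective]
  exact CfsgLib.Core.isPiNat_card_sSup σ _ (fun _ h => h.1) fun _ h => h.2

theorem piCoreOf_le' (X : Subgroup G) : Cfsg.piCoreOf σ X ≤ X := Subgroup.map_subtype_le _

theorem le_normalizer_piCoreOf (X : Subgroup G) :
    X ≤ Subgroup.normalizer (Cfsg.piCoreOf σ X : Set G) := by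
  rw [← Subgroup.normal_subgroupOf_iff_le_normalizer (piCoreOf_le' X), Cfsg.piCoreOf,
    Subgroup.subgroupOf, Subgroup.comap_map_eq_self_of_injective X.subtype_injective]
  exact Cfsg.piCore_normal σ X

theorem le_piCoreOf' {K X : Subgroup G} (hKX : K ≤ X) (hn : X ≤ Subgroup.normalizer (K : Set G))
    (hc : ∀ r : ℕ, r.Prime → r ∣ Nat.card K → r ∈ σ) : K ≤ Cfsg.piCoreOf σ X := by
  intro k hk
  refine ⟨⟨k, hKX hk⟩, le_sSup (show K.subgroupOf X ∈ {N : Subgroup X | N.Normal ∧
      ∀ r : ℕ, r.Prime → r ∣ Nat.card N → r ∈ σ} from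
    ⟨(Subgroup.normal_subgroupOf_iff_le_normalizer hKX).2 hn, fun r hr hd => hc r hr ?_⟩)
    (Subgroup.mem_subgroupOf.2 hk), rfl⟩
  rwa [Nat.card_congr (Subgroup.subgroupOfEquivOfLe hKX).toEquiv] at hd

theorem mem_normalizer_piCoreOf {X : Subgroup G} {x : G}
    (hx : x ∈ Subgroup.normalizer (X : Set G)) :
    x ∈ Subgroup.normalizer (Cfsg.piCoreOf σ X : Set G) := by
  have key : ∀ y ∈ Subgroup.normalizer (X : Set G), ∀ g ∈ Cfsg.piCoreOf σ X,
      y * g * y⁻¹ ∈ Cfsg.piCoreOf σ X := by
    intro y hy g hg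
    refine le_piCoreOf' (K := (Cfsg.piCoreOf σ X).map (MulAut.conj y).toMonoidHom) ?_ ?_ ?_
      ⟨g, hg, rfl⟩
    · exact (Subgroup.map_mono (piCoreOf_le' X)).trans (map_conj_eq_self hy).le
    · intro a ha
      have hb : y⁻¹ * a * y ∈ X := (Subgroup.mem_normalizer_iff.1 hy _).2 (by
        simpa [mul_assoc] using ha)
      refine Subgroup.mem_normalizer_iff.2 fun u => ?_
      simp only [Subgroup.mem_map, MulEquiv.toMonoidHom_eq_coe, MonoidHom.coe_coe,
        MulAut.conj_apply]
      constructor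
      · rintro ⟨w, hw, rfl⟩
        exact ⟨_, (Subgroup.mem_normalizer_iff.1 (le_normalizer_piCoreOf X hb) w).1 hw, by group⟩
      · rintro ⟨w, hw, hwu⟩
        refine ⟨(y⁻¹ * a * y)⁻¹ * w * (y⁻¹ * a * y)⁻¹⁻¹,
          (Subgroup.mem_normalizer_iff.1 (inv_mem (le_normalizer_piCoreOf X hb)) w).1 hw, ?_⟩
        calc y * ((y⁻¹ * a * y)⁻¹ * w * (y⁻¹ * a * y)⁻¹⁻¹) * y⁻¹ = a⁻¹ * (y * w * y⁻¹) * a := by
              group
          _ = u := by rw [hwu]; group
    · intro r hr hd
      rw [card_map_conj] at hd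
      exact prime_mem_of_dvd_card_piCoreOf X r hr hd
  refine Subgroup.mem_normalizer_iff.2 fun g => ⟨key x hx g, fun h => ?_⟩
  simpa [mul_assoc] using key x⁻¹ (inv_mem hx) _ h

/-- The elements with prime divisors in `σ` centralizing `Q` fix `φ`. -/
def UpFix (σ : Set ℕ) (Q : Subgroup G) (φ : G → ResField M) : Prop :=
  ∀ k ∈ Subgroup.centralizer (Q : Set G), (∀ r : ℕ, r.Prime → r ∣ orderOf k → r ∈ σ) →
    ∀ g, φ (k * g) = φ g

/-- The normal `σ`-subgroups of the centralizer of `Q` fix `φ`. -/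
def DownFix (σ : Set ℕ) (Q : Subgroup G) (φ : G → ResField M) : Prop :=
  ∀ K : Subgroup G, K ≤ Subgroup.centralizer (Q : Set G) →
    Subgroup.centralizer (Q : Set G) ≤ Subgroup.normalizer (K : Set G) →
    (∀ r : ℕ, r.Prime → r ∣ Nat.card K → r ∈ σ) → FixBy K φ

variable {hM : IsPModular p M}

theorem UpFix.chain {a b : Subgroup G × (G → ResField M)} (h : Chain hM a b)
    (ha : UpFix σ a.1 a.2) : UpFix σ b.1 b.2 := by
  induction h with
  | refl => exact ha
  | tail _ hn ih =>
    intro k hk hord g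
    obtain ⟨-, -, hle, -, -, heq⟩ := hn
    rw [← heq]
    refine gconv_fix (fun x => ?_) _ g
    simp only [trc]
    exact if_congr (Subgroup.mul_mem_cancel_left _ hk)
      (ih k (Subgroup.centralizer_le hle hk) hord x) rfl

theorem DownFix.chain (hp : p ∉ σ) {a b : Subgroup G × (G → ResField M)} (h : Chain hM a b)
    (hb : DownFix σ b.1 b.2) : DownFix σ a.1 a.2 := by
  induction h using Relation.ReflTransGen.head_induction_on with
  | refl => exact hb
  | @head a c hn _ ih =>
    obtain ⟨ha, hc, hle, hN, hinv, heq⟩ := hn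
    intro K hK hKN hKσ
    set K₁ := Cfsg.piCoreOf σ (Subgroup.centralizer (a.1 : Set G)) with hK₁
    have hp₁ : ¬ p ∣ Nat.card K₁ := fun hd =>
      hp (prime_mem_of_dvd_card_piCoreOf _ p Fact.out hd)
    have hPK : c.1 ≤ Subgroup.normalizer (K₁ : Set G) := fun x hx =>
      mem_normalizer_piCoreOf (mem_normalizer_centralizer (hN hx))
    have hfix : FixBy K₁ a.2 := by
      refine fixBy_of_trc ha.2 (piCoreOf_le' _) (le_normalizer_piCoreOf _) hp₁ hc.1 hPK hinv heq
        hc.2.ne_zero (ih _ inf_le_right (fun x hx => ?_) fun r hr hd =>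
          prime_mem_of_dvd_card_piCoreOf _ r hr (hd.trans (Subgroup.card_dvd_of_le inf_le_left)))
      have h1 := le_normalizer_piCoreOf (σ := σ) _ (Subgroup.centralizer_le hle hx)
      refine Subgroup.mem_normalizer_iff.2 fun u => ?_
      simp only [Subgroup.mem_inf]
      exact and_congr (Subgroup.mem_normalizer_iff.1 h1 u)
        (Subgroup.mem_normalizer_iff.1 (Subgroup.le_normalizer hx) u)
    exact fun k hk => hfix k (le_piCoreOf' hK hKN hKσ hk)

theorem UpFix.cnj {Q : Subgroup G} {φ : G → ResField M} (h : UpFix σ Q φ) (x : G) :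
    UpFix σ (Q.map (MulAut.conj x).toMonoidHom) (cnj x φ) := by
  intro k hk hord g
  show φ (x⁻¹ * (k * g) * x) = φ (x⁻¹ * g * x)
  have e : x⁻¹ * (k * g) * x = (x⁻¹ * k * x) * (x⁻¹ * g * x) := by group
  rw [e]
  refine h _ ((mem_centralizer_map_conj x k).1 hk) (fun r hr hd => hord r hr ?_) _
  rwa [show x⁻¹ * k * x = (MulAut.conj x⁻¹) k by simp, MulEquiv.orderOf_eq] at hd

theorem DownFix.of_cnj {Q : Subgroup G} {φ : G → ResField M} (x : G)
    (h : DownFix σ (Q.map (MulAut.conj x).toMonoidHom) (cnj x φ)) : DownFix σ Q φ := by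
  intro K hK hKN hKσ k hk g
  have key := h (K.map (MulAut.conj x).toMonoidHom)
    (fun a ha => by
      obtain ⟨w, hw, rfl⟩ := ha
      rw [mem_centralizer_map_conj]
      simpa [mul_assoc] using hK hw)
    (fun a ha => by
      have ha' : x⁻¹ * a * x ∈ Subgroup.centralizer (Q : Set G) := (mem_centralizer_map_conj x a).1 ha
      refine Subgroup.mem_normalizer_iff.2 fun u => ?_
      simp only [Subgroup.mem_map_equiv, MulAut.conj_symm_apply]
      rw [show x⁻¹ * (a * u * a⁻¹) * x =
        (x⁻¹ * a * x) * (x⁻¹ * u * x) * (x⁻¹ * a * x)⁻¹ by group]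
      exact Subgroup.mem_normalizer_iff.1 (hKN ha') _)
    (fun r hr hd => hKσ r hr (by rwa [card_map_conj] at hd))
    (x * k * x⁻¹) ⟨k, hk, rfl⟩ (x * g * x⁻¹)
  simpa [CfsgLib.Block.cnj, mul_assoc] using key

end Core

variable {hM : IsPModular p M}

/-- Above a conjugate of any pair sits a maximal pair on the given defect group. -/
theorem exists_conj_chain_defect {B : Set (IrrCharacter G)} {D Q : Subgroup G}
    {φ : G → ResField M} (hD : IsDefectGroup p M B D) (h : PairIn hM B Q φ) :
    ∃ x ψ, MaxPair hM B D ψ ∧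
      Chain hM (Q.map (MulAut.conj x).toMonoidHom, cnj x φ) (D, ψ) := by
  obtain ⟨R, γ, hmax, hchain⟩ := h.exists_max
  obtain ⟨x, hx⟩ := defectGroup_eq_conj hM h.2.1 hmax.isDefectGroup hD
  have hp' := hmax.1.cnj x
  have hc := hchain.cnj x
  rw [hx] at hp'
  simp only [hx] at hc
  exact ⟨x, cnj x γ, maxPair_of_defectGroup hp' hD, hc⟩

/-- The Brauer correspondent has the truncated idempotent of the block. -/
theorem trc_gFn_eq_bFn_correspondent {B : Set (IrrCharacter G)} {D : Subgroup G}
    [Fintype (Subgroup.normalizer (D : Set G))]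
    {B₁ : Set (IrrCharacter (Subgroup.normalizer (D : Set G)))} (hBD : IsDefectGroup p M B D)
    (hB₁ : IsInducedBlock M (Subgroup.normalizer (D : Set G)) B₁ B)
    (hB₁D : IsDefectGroup p M B₁ (D.subgroupOf (Subgroup.normalizer (D : Set G)))) :
    trc D (gFn hM B) = bFn hM (Subgroup.normalizer (D : Set G)) B₁ ∧
      trc D (bFn hM (Subgroup.normalizer (D : Set G)) B₁) =
        bFn hM (Subgroup.normalizer (D : Set G)) B₁ := by
  have hP := isPGroup_defectGroup hM hB₁.2.1 hBD
  have hC := Subgroup.centralizer_le_normalizer (D : Set G)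
  have hd : p ^ blockDefect p B₁ = Nat.card (D.subgroupOf (Subgroup.normalizer (D : Set G))) :=
    (card_defectGroup hM hB₁.1 hB₁D).symm
  have hs : ∀ g, g ∉ Subgroup.centralizer (D : Set G) →
      bFn hM (Subgroup.normalizer (D : Set G)) B₁ g = 0 := fun g hg =>
    bFn_supp hM hP hC le_rfl Subgroup.le_normalizer hB₁.1 hg
  refine ⟨funext fun g => ?_, funext fun g => ?_⟩
  · by_cases hg : g ∈ Subgroup.centralizer (D : Set G)
    · obtain ⟨h, rfl⟩ : ∃ h : Subgroup.normalizer (D : Set G), (h : G) = g := ⟨⟨g, hC hg⟩, rfl⟩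
      rw [trc, if_pos hg, bFn_eq_ext0, ext0_coe, gFn_block hM hB₁.1, gFn_block hM hB₁.2.1]
      exact (cred_eq_of_induced hM hP hC le_rfl Subgroup.le_normalizer rfl hB₁ hd hg).symm
    · rw [hs g hg, trc, if_neg hg]
  · by_cases hg : g ∈ Subgroup.centralizer (D : Set G)
    · rw [trc, if_pos hg]
    · rw [hs g hg, trc, if_neg hg]

/-- A normal subgroup of order prime to `p` centralizes a normal `p`-subgroup. -/
theorem le_centralizer_of_normalized {K D : Subgroup G} (hp : ¬ p ∣ Nat.card K) (hD : IsPGroup p D)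
    (hKD : K ≤ Subgroup.normalizer (D : Set G)) (hDK : D ≤ Subgroup.normalizer (K : Set G)) :
    K ≤ Subgroup.centralizer (D : Set G) := by
  have hbot : K ⊓ D = ⊥ := Subgroup.inf_eq_bot_of_coprime (by
    obtain ⟨n, hn⟩ := hD.exists_card_eq
    rw [hn]
    exact Nat.Coprime.pow_right n ((Nat.Prime.coprime_iff_not_dvd Fact.out).2 hp).symm)
  refine fun k hk => Subgroup.mem_centralizer_iff.2 fun d hd' => ?_
  have hd : d ∈ D := hd'
  have h1 : k * d * k⁻¹ * d⁻¹ ∈ K ⊓ D :=
    ⟨by
      rw [show k * d * k⁻¹ * d⁻¹ = k * (d * k⁻¹ * d⁻¹) by group]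
      exact mul_mem hk ((Subgroup.mem_normalizer_iff.1 (hDK hd) _).1 (inv_mem hk)),
    D.mul_mem ((Subgroup.mem_normalizer_iff.1 (hKD hk) d).1 hd) (D.inv_mem hd)⟩
  rw [hbot, Subgroup.mem_bot] at h1
  have h2 := congrArg (fun t => t * d * k) h1
  simpa [mul_assoc] using h2.symm

/-- A correspondent with the core in its kernel propagates to every pair of the block. -/
theorem downFix_of_correspondent {σ : Set ℕ} (hp : p ∉ σ) {B : Set (IrrCharacter G)}
    {D : Subgroup G} [Fintype (Subgroup.normalizer (D : Set G))]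
    {B₁ : Set (IrrCharacter (Subgroup.normalizer (D : Set G)))} (hBD : IsDefectGroup p M B D)
    (hB₁ : IsInducedBlock M (Subgroup.normalizer (D : Set G)) B₁ B)
    (hB₁D : IsDefectGroup p M B₁ (D.subgroupOf (Subgroup.normalizer (D : Set G))))
    (hker : ∀ n, n ∈ Cfsg.piCore σ (Subgroup.normalizer (D : Set G)) → n ∈ Cfsg.blockKer B₁)
    {Q : Subgroup G} {φ : G → ResField M} (h : PairIn hM B Q φ) : DownFix σ Q φ := by
  obtain ⟨x, ψ, hmax, hc⟩ := exists_conj_chain_defect hBD h
  refine DownFix.of_cnj x (DownFix.chain hp hc ?_)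
  intro K hK hKN hKσ k hk g
  have hKσ' : K ≤ Cfsg.piCoreOf σ (Subgroup.normalizer (D : Set G)) :=
    (le_piCoreOf' hK hKN hKσ).trans (le_piCoreOf'
      ((piCoreOf_le' _).trans (Subgroup.centralizer_le_normalizer _))
      (fun y hy => mem_normalizer_piCoreOf (mem_normalizer_centralizer hy))
      (prime_mem_of_dvd_card_piCoreOf _))
  obtain ⟨n, hn, rfl⟩ := hKσ' hk
  show ψ ((n : G) * g) = ψ g
  rw [← hmax.1.2.2, (trc_gFn_eq_bFn_correspondent hBD hB₁ hB₁D).1]
  exact gconv_fix (bFn_mul_of_mem_blockKer hM (hker n hn)) _ g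

end CfsgLib.Block
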