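import Cfsg.Agent.Lib.CharRep
import Cfsg.Agent.Lib.CharSquareCount
import Cfsg.Prelude.Def_Blocks
import Mathlib.Analysis.Matrix.PosDef
import Mathlib.LinearAlgebra.Matrix.Charpoly.Coeff

/-!
# Real forms of irreducible representations
-/

set_option autoImplicit false
set_option linter.style.haveILetI false
set_option linter.unusedSectionVars false

universe u

namespace CfsgLib.Block

open Cfsg CfsgLib.Char Matrix
open scoped ComplexConjugate Classical ComplexOrder

variable {n : ℕ}

/-- An antilinear involution has a basis of fixed vectors. -/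
theorem exists_real_basis {N : Matrix (Fin n) (Fin n) ℂ} (hN : N * N.map conj = 1) :
    ∃ Q : Matrix (Fin n) (Fin n) ℂ, IsUnit Q.det ∧ N * Q.map conj = Q := by
  let r : ℝ → ℂ := fun t => ((t : ℂ) + Complex.I) / ((t : ℂ) - Complex.I)
  have hden : ∀ t : ℝ, (t : ℂ) - Complex.I ≠ 0 := fun t h => by
    have := congrArg Complex.im h
    simp at this
  have hinj : Function.Injective r := by
    intro s t h
    rw [div_eq_div_iff (hden s) (hden t)] at h
    have := congrArg Complex.im h
    simp at this
    linarith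
  have hne : (-N).charpoly ≠ 0 := (Matrix.charpoly_monic _).ne_zero
  obtain ⟨t, ht⟩ : ∃ t : ℝ, (-N).charpoly.eval (r t) ≠ 0 := by
    by_contra hc
    push Not at hc
    exact (Set.infinite_range_of_injective hinj).mono
      (fun z hz => by obtain ⟨t, rfl⟩ := hz; exact hc t) (Polynomial.finite_setOf_isRoot hne)
  set a : ℂ := (t : ℂ) + Complex.I with ha
  refine ⟨a • (1 : Matrix (Fin n) (Fin n) ℂ) + conj a • N, ?_, ?_⟩
  · rw [isUnit_iff_ne_zero]
    have hca : conj a = (t : ℂ) - Complex.I := by simp [ha, sub_eq_add_neg]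
    have e : a • (1 : Matrix (Fin n) (Fin n) ℂ) + conj a • N =
        conj a • (Matrix.scalar (Fin n) (r t) - -N) := by
      rw [sub_neg_eq_add, smul_add]
      congr 1
      rw [Matrix.scalar_apply, ← Matrix.smul_one_eq_diagonal, smul_smul, hca]
      simp only [r, mul_div_cancel₀ _ (hden t), ha]
    rw [e, Matrix.det_smul, ← Matrix.eval_charpoly]
    exact mul_ne_zero (pow_ne_zero _ (by rw [hca]; exact hden t)) ht
  · have e : (a • (1 : Matrix (Fin n) (Fin n) ℂ) + conj a • N).map conj =
        conj a • (1 : Matrix (Fin n) (Fin n) ℂ) + a • N.map conj := by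
      ext i j
      simp [Matrix.one_apply, apply_ite conj]
    rw [e, mul_add, Matrix.mul_smul, Matrix.mul_smul, mul_one, hN, add_comm]

variable {G : Type u} [Group G] [Fintype G]

/-- The average of a form is invariant. -/
theorem form_invariant (A : G →* Matrix (Fin n) (Fin n) ℂ) (X : Matrix (Fin n) (Fin n) ℂ) (a : G) :
    A a * (∑ g, A g * X * (A g)ᵀ) * (A a)ᵀ = ∑ g, A g * X * (A g)ᵀ := by
  rw [Finset.mul_sum, Finset.sum_mul]
  refine Fintype.sum_equiv (Equiv.mulLeft a) _ _ fun g => ?_
  rw [Equiv.coe_mulLeft, map_mul, Matrix.transpose_mul]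
  simp only [mul_assoc]

/-- If all invariant forms are symmetric, or all antisymmetric, the sum at squares is decided. -/
theorem sum_sq_of_forms (A : G →* Matrix (Fin n) (Fin n) ℂ) (ε : ℂ)
    (h : ∀ X, (∑ g, A g * X * (A g)ᵀ)ᵀ = ε • ∑ g, A g * X * (A g)ᵀ) :
    ∑ g, (A (g * g)).trace = ε * ∑ g, (A g).trace * (A g).trace := by
  have key : ∀ i j k l, ∑ g, A g k j * A g i l = ε * ∑ g, A g i j * A g k l := by
    intro i j k l
    have h1 := congrFun (congrFun (h (Matrix.single j l 1)) i) k
    simp only [Matrix.transpose_apply, Matrix.smul_apply, Matrix.sum_apply, smul_eq_mul] at h1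
    have e : ∀ (g : G) (x y : Fin n), (A g * Matrix.single j l (1 : ℂ) * (A g)ᵀ) x y =
        A g x j * A g y l := by
      intro g x y
      simp [Matrix.mul_apply, Matrix.single, Finset.sum_ite_eq, ite_and, eq_comm]
    simp only [e] at h1
    exact h1
  have e1 : ∀ g : G, (A (g * g)).trace = ∑ i, ∑ j, A g i j * A g j i := fun g => by
    rw [map_mul]; rfl
  simp only [e1]
  simp only [Matrix.trace, Matrix.diag, Finset.sum_mul_sum]
  rw [Finset.sum_comm]
  conv_rhs => arg 2; rw [Finset.sum_comm]
  rw [Finset.mul_sum]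
  refine Finset.sum_congr rfl fun i _ => ?_
  rw [Finset.sum_comm]
  conv_rhs => arg 2; rw [Finset.sum_comm]
  rw [Finset.mul_sum]
  refine Finset.sum_congr rfl fun j _ => ?_
  rw [key j j i i]
  exact congrArg _ (Finset.sum_congr rfl fun g _ => mul_comm _ _)

/-- The matrices of a representation. -/
noncomputable def matHom (ρ : Representation ℂ G (Fin n → ℂ)) : G →* Matrix (Fin n) (Fin n) ℂ where
  toFun g := LinearMap.toMatrix' (ρ g)
  map_one' := by rw [map_one, Module.End.one_eq_id, LinearMap.toMatrix'_id]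
  map_mul' a b := by rw [map_mul, Module.End.mul_eq_comp, LinearMap.toMatrix'_comp]

theorem trace_matHom (ρ : Representation ℂ G (Fin n → ℂ)) (g : G) :
    (matHom ρ g).trace = ρ.character g := by
  show _ = LinearMap.trace ℂ _ (ρ g)
  rw [LinearMap.trace_eq_matrix_trace ℂ (Pi.basisFun ℂ (Fin n)), LinearMap.toMatrix_eq_toMatrix']
  rfl

/-- A matrix commuting with a representation whose character has norm one is scalar. -/
theorem scalar_of_comm (ρ : Representation ℂ G (Fin n → ℂ)) (hn : n ≠ 0)
    (h1 : classInner ρ.character ρ.character = 1) {X : Matrix (Fin n) (Fin n) ℂ}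
    (hX : ∀ g, matHom ρ g * X = X * matHom ρ g) : ∃ c : ℂ, X = c • 1 := by
  rw [inner_rep_char] at h1
  have hr : Module.finrank ℂ (Representation.IntertwiningMap ρ ρ) = 1 := by exact_mod_cast h1
  let T : Representation.IntertwiningMap ρ ρ :=
    ⟨Matrix.toLin' X, fun g => by
      apply LinearMap.toMatrix'.injective
      rw [LinearMap.toMatrix'_comp, LinearMap.toMatrix'_comp, LinearMap.toMatrix'_toLin']
      exact (hX g).symm⟩
  let I : Representation.IntertwiningMap ρ ρ := ⟨LinearMap.id, fun g => by simp⟩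
  have hI : I ≠ 0 := by
    intro h
    have h' := congrArg (fun F : Representation.IntertwiningMap ρ ρ => F.toLinearMap) h
    have h0 : (1 : Matrix (Fin n) (Fin n) ℂ) = 0 := by
      rw [← LinearMap.toMatrix'_id]
      show LinearMap.toMatrix' I.toLinearMap = 0
      rw [h']
      exact map_zero _
    haveI : Nonempty (Fin n) := Fin.pos_iff_nonempty.1 (Nat.pos_of_ne_zero hn)
    exact one_ne_zero h0
  obtain ⟨c, hc⟩ := (finrank_eq_one_iff_of_nonzero' I hI).1 hr T
  refine ⟨c, ?_⟩
  have h' := congrArg (fun F : Representation.IntertwiningMap ρ ρ => F.toLinearMap) hc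
  have h2 : c • LinearMap.id = Matrix.toLin' X := h'
  rw [← LinearMap.toMatrix'_toLin' X, ← h2, map_smul, LinearMap.toMatrix'_id]

/-- **The real form.** -/
theorem exists_real_form (ρ : Representation ℂ G (Fin n → ℂ)) (hn : n ≠ 0)
    (h1 : classInner ρ.character ρ.character = 1)
    (hsq : sqIndicator ρ.character = 1) :
    ∃ τ : Representation ℝ G (Fin n → ℝ),
      ∀ g, ((LinearMap.trace ℝ (Fin n → ℝ) (τ g) : ℝ) : ℂ) = ρ.character g := by
  set A := matHom ρ with hA
  -- a nonzero symmetric invariant form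
  obtain ⟨X, hX⟩ : ∃ X, (∑ g, A g * X * (A g)ᵀ) + (∑ g, A g * X * (A g)ᵀ)ᵀ ≠ 0 := by
    by_contra hc
    push Not at hc
    have h := sum_sq_of_forms A (-1) fun X => by
      rw [neg_one_smul]; exact eq_neg_of_add_eq_zero_right (hc X)
    simp only [hA, trace_matHom] at h
    have hreal : ∑ g, ρ.character g * ρ.character g = -(Nat.card G : ℂ) := by
      rw [sqIndicator, inv_mul_eq_iff_eq_mul₀ (natCard_ne_zero G), mul_one] at hsq
      linear_combination h - hsq
    have hpos : (0 : ℝ) < Nat.card G := Nat.cast_pos.2 Nat.card_pos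
    have hnorm : ∑ g, ρ.character g * conj (ρ.character g) = (Nat.card G : ℂ) := by
      rwa [classInner, inv_mul_eq_iff_eq_mul₀ (natCard_ne_zero G), mul_one] at h1
    have h2 : ∑ g, (ρ.character g + conj (ρ.character g)) * (ρ.character g + conj (ρ.character g)) =
        0 := by
      have h3 := congrArg conj hreal
      simp only [map_sum, map_mul, map_neg, Complex.conj_natCast] at h3
      simp only [add_mul, mul_add, Finset.sum_add_distrib]
      rw [Finset.sum_congr rfl fun g _ => mul_comm (conj (ρ.character g)) (ρ.character g)]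
      linear_combination hreal + 2 * hnorm + h3
    have hre : ∀ g, (ρ.character g).re = 0 := by
      have h4 := congrArg Complex.re h2
      simp only [Complex.add_conj, ← Complex.ofReal_mul, Complex.re_sum, Complex.ofReal_re,
        Complex.zero_re] at h4
      intro g
      have := (Finset.sum_eq_zero_iff_of_nonneg fun i _ => mul_self_nonneg _).1 h4 g
        (Finset.mem_univ g)
      simpa using this
    have h5 := hre 1
    rw [Representation.char_one] at h5
    simp at h5
    exact hn h5
  set M := (∑ g, A g * X * (A g)ᵀ) + (∑ g, A g * X * (A g)ᵀ)ᵀ with hM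
  have hMs : Mᵀ = M := by rw [hM, Matrix.transpose_add, Matrix.transpose_transpose, add_comm]
  have hMi : ∀ g, A g * M * (A g)ᵀ = M := fun g => by
    rw [hM, mul_add, add_mul, form_invariant]
    congr 1
    conv_rhs => rw [← form_invariant A X g]
    simp only [Matrix.transpose_mul, Matrix.transpose_transpose, mul_assoc]
  -- a positive invariant Hermitian form
  set H : Matrix (Fin n) (Fin n) ℂ := ∑ g, A g * (A g)ᴴ with hH
  have hHp : H.PosDef := by
    rw [hH, ← Finset.add_sum_erase _ _ (Finset.mem_univ (1 : G)), map_one,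
      Matrix.conjTranspose_one, mul_one]
    exact Matrix.PosDef.one.add_posSemidef
      (Matrix.posSemidef_sum _ fun g _ => Matrix.posSemidef_self_mul_conjTranspose _)
  have hHi : ∀ a, A a * H * (A a)ᴴ = H := fun a => by
    rw [hH, Finset.mul_sum, Finset.sum_mul]
    refine Fintype.sum_equiv (Equiv.mulLeft a) _ _ fun g => ?_
    rw [Equiv.coe_mulLeft, map_mul, Matrix.conjTranspose_mul]
    simp only [mul_assoc]
  set K := (Hᵀ)⁻¹ with hK
  have hKp : K.PosDef := hHp.transpose.inv
  have hHu : IsUnit (Hᵀ).det := (Matrix.isUnit_iff_isUnit_det _).1 hHp.transpose.isUnit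
  have hKA : ∀ a, (A a)ᵀ * K * (A a).map conj = K := by
    intro a
    have e1 : (A a).map conj * Hᵀ * (A a)ᵀ = Hᵀ := by
      conv_rhs => rw [← hHi a]
      rw [Matrix.transpose_mul, Matrix.transpose_mul, ← mul_assoc]
      rfl
    have e2 : (A a).map conj * (Hᵀ * (A a)ᵀ * K) = 1 := by
      rw [← mul_assoc, ← mul_assoc, e1, hK, Matrix.mul_nonsing_inv _ hHu]
    have e3 := mul_eq_one_comm.1 e2
    calc (A a)ᵀ * K * (A a).map conj = K * (Hᵀ * (A a)ᵀ * K * (A a).map conj) := by
          simp only [← mul_assoc]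
          rw [hK, Matrix.nonsing_inv_mul _ hHu, one_mul]
      _ = K := by rw [e3, mul_one]
  set N := M * K with hN
  have hNA : ∀ a, A a * N = N * (A a).map conj := fun a => by
    calc A a * N = A a * M * ((A a)ᵀ * K * (A a).map conj) := by rw [hN, hKA, mul_assoc]
      _ = A a * M * (A a)ᵀ * K * (A a).map conj := by simp only [mul_assoc]
      _ = N * (A a).map conj := by rw [hMi]
  have hconj : ∀ X Y : Matrix (Fin n) (Fin n) ℂ, (X * Y).map conj = X.map conj * Y.map conj :=
    fun X Y => Matrix.map_mul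
  have hcomm : ∀ a, A a * (N * N.map conj) = N * N.map conj * A a := fun a => by
    have h2 : (A a).map conj * N.map conj = N.map conj * A a := by
      rw [← hconj, hNA, hconj]
      congr 1
      ext i j
      simp
    rw [← mul_assoc, hNA, mul_assoc, h2, ← mul_assoc]
  obtain ⟨c, hc⟩ := scalar_of_comm ρ hn h1 hcomm
  have hcH : M * K * Mᴴ = c • H := by
    have hMc : M.map conj = Mᴴ := by
      conv_lhs => rw [← hMs]
      rfl
    have hKc : K.map conj = Kᵀ := by
      conv_rhs => rw [← hKp.isHermitian.eq]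
      rfl
    have hKH : Kᵀ * H = 1 := by
      have := congrArg Matrix.transpose (Matrix.mul_nonsing_inv _ hHu)
      rwa [Matrix.transpose_mul, Matrix.transpose_transpose, Matrix.transpose_one, ← hK] at this
    rw [hN, hconj, hMc, hKc] at hc
    calc M * K * Mᴴ = M * K * (Mᴴ * Kᵀ) * H := by simp only [mul_assoc]; rw [hKH, mul_one]
      _ = c • H := by rw [hc, Matrix.smul_mul, one_mul]
  obtain ⟨v, hv⟩ : ∃ v, Mᴴ *ᵥ v ≠ 0 := by
    by_contra hc'
    push Not at hc'
    refine hX ?_
    rw [← Matrix.conjTranspose_eq_zero]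
    exact Matrix.ext_of_mulVec_single fun i => by rw [hc', Matrix.zero_mulVec]
  have hv0 : v ≠ 0 := fun h => hv (by rw [h, Matrix.mulVec_zero])
  have hr := hKp.dotProduct_mulVec_pos hv
  have hq := hHp.dotProduct_mulVec_pos hv0
  have heq : c * (star v ⬝ᵥ H *ᵥ v) = star (Mᴴ *ᵥ v) ⬝ᵥ K *ᵥ (Mᴴ *ᵥ v) := by
    rw [← smul_eq_mul, ← dotProduct_smul, ← Matrix.smul_mulVec, ← hcH, Matrix.star_mulVec,
      Matrix.conjTranspose_conjTranspose, ← Matrix.dotProduct_mulVec, Matrix.mulVec_mulVec,
      Matrix.mulVec_mulVec]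
  obtain ⟨hqr, hqi⟩ := Complex.pos_iff.1 hq
  obtain ⟨hrr, hri⟩ := Complex.pos_iff.1 hr
  have hcim : c.im = 0 := by
    have := congrArg Complex.im heq
    rw [Complex.mul_im, ← hqi, ← hri, mul_zero, zero_add] at this
    exact (mul_eq_zero.1 this).resolve_right hqr.ne'
  have hcre : 0 < c.re := by
    have := congrArg Complex.re heq
    rw [Complex.mul_re, hcim, zero_mul, sub_zero] at this
    rw [← this] at hrr
    exact pos_of_mul_pos_left hrr hqr.le
  set s : ℂ := (((Real.sqrt c.re)⁻¹ : ℝ) : ℂ) with hs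
  have hsc : s * s * c = 1 := by
    rw [show c = ((c.re : ℝ) : ℂ) from Complex.ext rfl (by simpa using hcim), hs, ← Complex.ofReal_mul,
      ← Complex.ofReal_mul, ← Complex.ofReal_one]
    congr 1
    rw [← mul_inv, Real.mul_self_sqrt hcre.le, inv_mul_cancel₀ hcre.ne']
  have hN1 : (s • N) * (s • N).map conj = 1 := by
    have e : (s • N).map conj = s • N.map conj := by
      ext i j
      simp [hs]
    rw [e, smul_mul_smul_comm, hc, smul_smul, hsc, one_smul]
  obtain ⟨Q, hQu, hQ⟩ := exists_real_basis hN1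
  set R : G → Matrix (Fin n) (Fin n) ℂ := fun g => Q⁻¹ * A g * Q with hR
  have hRreal : ∀ g, (R g).map conj = R g := by
    intro g
    have e : Q * (R g).map conj = A g * Q := by
      calc Q * (R g).map conj = (s • N) * (Q.map conj * (R g).map conj) := by rw [← mul_assoc, hQ]
        _ = (s • N) * (A g * Q).map conj := by
            rw [← hconj, hR]
            simp only [← mul_assoc, Matrix.mul_nonsing_inv _ hQu, one_mul]
        _ = A g * ((s • N) * Q.map conj) := by
            rw [hconj, ← mul_assoc, ← mul_assoc, Matrix.smul_mul, ← hNA, Matrix.mul_smul]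
        _ = A g * Q := by rw [hQ]
    calc (R g).map conj = Q⁻¹ * (Q * (R g).map conj) := by
          rw [← mul_assoc, Matrix.nonsing_inv_mul _ hQu, one_mul]
      _ = R g := by rw [e, hR]; exact (mul_assoc _ _ _).symm
  have hback : ∀ g, ((R g).map Complex.re).map Complex.ofReal = R g := fun g => by
    ext i j
    have := congrFun (congrFun (hRreal g) i) j
    exact Complex.conj_eq_iff_re.1 this
  have hmul : ∀ a b, R (a * b) = R a * R b := fun a b => by
    simp only [hR, map_mul, mul_assoc, Matrix.mul_nonsing_inv_cancel_left _ _ hQu]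
  have hinjR : Function.Injective fun X : Matrix (Fin n) (Fin n) ℝ => X.map Complex.ofReal :=
    Matrix.map_injective Complex.ofReal_injective
  let Rr : G →* Matrix (Fin n) (Fin n) ℝ :=
    { toFun := fun g => (R g).map Complex.re
      map_one' := hinjR (by
        show ((R 1).map Complex.re).map Complex.ofReal = (1 : Matrix (Fin n) (Fin n) ℝ).map Complex.ofReal
        rw [hback, Matrix.map_one Complex.ofReal Complex.ofReal_zero Complex.ofReal_one]
        simp [hR, Matrix.nonsing_inv_mul _ hQu])
      map_mul' := fun a b => hinjR (by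
        show ((R (a * b)).map Complex.re).map Complex.ofReal =
          ((R a).map Complex.re * (R b).map Complex.re).map Complex.ofRealHom
        rw [hback, hmul, Matrix.map_mul]
        exact congrArg₂ _ (hback a).symm (hback b).symm) }
  refine ⟨(Matrix.toLinAlgEquiv' : Matrix (Fin n) (Fin n) ℝ ≃ₐ[ℝ] _).toMonoidHom.comp Rr, fun g => ?_⟩
  show ((LinearMap.trace ℝ (Fin n → ℝ) (Matrix.toLin' ((R g).map Complex.re)) : ℝ) : ℂ) = _
  rw [Matrix.trace_toLin'_eq, ← trace_matHom, ← hA]
  have e : (((R g).map Complex.re).trace : ℂ) = (((R g).map Complex.re).map Complex.ofReal).trace := by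
    simp [Matrix.trace]
  rw [e, hback, hR, Matrix.trace_mul_cycle, Matrix.mul_nonsing_inv _ hQu, one_mul]

/-- The indicator of an irreducible character with a real form. -/
theorem sqIndicator_of_real (τ : Representation ℝ G (Fin n → ℝ)) {χ : G → ℂ}
    (hχ : IsIrrCharacter G χ)
    (hτ : ∀ g, ((LinearMap.trace ℝ (Fin n → ℝ) (τ g) : ℝ) : ℂ) = χ g) : sqIndicator χ = 1 := by
  let Ar : G →* Matrix (Fin n) (Fin n) ℝ :=
    { toFun := fun g => LinearMap.toMatrix' (τ g)
      map_one' := by rw [map_one, Module.End.one_eq_id, LinearMap.toMatrix'_id]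
      map_mul' := fun a b => by rw [map_mul, Module.End.mul_eq_comp, LinearMap.toMatrix'_comp] }
  let A : G →* Matrix (Fin n) (Fin n) ℂ := (Complex.ofRealHom.mapMatrix).toMonoidHom.comp Ar
  let ρ : Representation ℂ G (Fin n → ℂ) :=
    (Matrix.toLinAlgEquiv' : Matrix (Fin n) (Fin n) ℂ ≃ₐ[ℂ] _).toMonoidHom.comp A
  have hρA : ∀ g, matHom ρ g = A g := fun g => LinearMap.toMatrix'_toLin' (A g)
  have hchar : ρ.character = χ := funext fun g => by
    rw [← trace_matHom, hρA, ← hτ g, LinearMap.trace_eq_matrix_trace ℝ (Pi.basisFun ℝ (Fin n)),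
      LinearMap.toMatrix_eq_toMatrix']
    show ((Ar g).map Complex.ofReal).trace = _
    simp [Matrix.trace, Ar]
  have hn : n ≠ 0 := by
    rintro rfl
    obtain ⟨m, σ, hσ, hσe⟩ := id hχ
    haveI := hσ
    have h := finrank_pos_of_irreducible σ
    have h0 := congrFun (hchar.trans hσe.symm) 1
    rw [Representation.char_one, Representation.char_one] at h0
    simp only [Module.finrank_fin_fun, Nat.cast_inj] at h0 h
    omega
  have h1 : classInner ρ.character ρ.character = 1 := by rw [hchar]; exact irr_inner_self hχ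
  have hAc : ∀ g, (A g)ᴴ = (A g)ᵀ := fun g => by
    ext i j
    exact Complex.conj_ofReal _
  set B : Matrix (Fin n) (Fin n) ℂ := ∑ g, A g * (A g)ᴴ with hB
  have hBp : B.PosDef := by
    rw [hB, ← Finset.add_sum_erase _ _ (Finset.mem_univ (1 : G)), map_one,
      Matrix.conjTranspose_one, mul_one]
    exact Matrix.PosDef.one.add_posSemidef
      (Matrix.posSemidef_sum _ fun g _ => Matrix.posSemidef_self_mul_conjTranspose _)
  have hBi : ∀ a, A a * B * (A a)ᵀ = B := fun a => by
    rw [hB]
    simp only [hAc]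
    have := form_invariant A 1 a
    simpa only [mul_one] using this
  have hBs : Bᵀ = B := by
    rw [hB, Matrix.transpose_sum]
    simp only [hAc, Matrix.transpose_mul, Matrix.transpose_transpose]
  have hBu : IsUnit B.det := (Matrix.isUnit_iff_isUnit_det _).1 hBp.isUnit
  have hsym : ∀ X, (∑ g, A g * X * (A g)ᵀ)ᵀ = (1 : ℂ) • ∑ g, A g * X * (A g)ᵀ := by
    intro X
    set M := ∑ g, A g * X * (A g)ᵀ with hM
    have hcomm : ∀ a, matHom ρ a * (M * B⁻¹) = M * B⁻¹ * matHom ρ a := by
      intro a
      rw [hρA]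
      have e1 : A a * (B * (A a)ᵀ * B⁻¹) = 1 := by
        rw [← mul_assoc, ← mul_assoc, hBi, Matrix.mul_nonsing_inv _ hBu]
      have e2 := mul_eq_one_comm.1 e1
      have e3 : (A a)ᵀ * B⁻¹ * A a = B⁻¹ := by
        calc (A a)ᵀ * B⁻¹ * A a = B⁻¹ * (B * (A a)ᵀ * B⁻¹ * A a) := by
              simp only [← mul_assoc]
              rw [Matrix.nonsing_inv_mul _ hBu, one_mul]
          _ = B⁻¹ := by rw [e2, mul_one]
      calc A a * (M * B⁻¹) = A a * M * ((A a)ᵀ * B⁻¹ * A a) := by rw [e3, mul_assoc]
        _ = A a * M * (A a)ᵀ * B⁻¹ * A a := by simp only [mul_assoc]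
        _ = M * B⁻¹ * A a := by rw [form_invariant]
    obtain ⟨c, hc⟩ := scalar_of_comm ρ hn h1 hcomm
    have hMB : M = c • B := by
      have := congrArg (· * B) hc
      simpa [mul_assoc, Matrix.nonsing_inv_mul _ hBu, Matrix.smul_mul] using this
    rw [one_smul, hMB, Matrix.transpose_smul, hBs]
  have h := sum_sq_of_forms A 1 hsym
  simp only [← hρA, trace_matHom, hchar, one_mul] at h
  have hself : ∀ g, χ g * χ g = χ g * conj (χ g) := fun g => by
    rw [← hτ g, Complex.conj_ofReal]
  rw [sqIndicator, h, Finset.sum_congr rfl fun g _ => hself g]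
  exact irr_inner_self hχ

end CfsgLib.Block
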