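import Cfsg.Agent.Lib.BlockSubsection
import Cfsg.Agent.Lib.BlockAbelianLocal
import Cfsg.Agent.Lib.CharClifford

/-!
# The second main theorem for subgroups containing the centraliser of a `p`-part

A character outside the induced block annihilates the block idempotent translated into the
section.
-/

set_option autoImplicit false
set_option linter.style.haveILetI false
set_option linter.unusedSectionVars false

namespace CfsgLib.Block

open Cfsg
open scoped ComplexConjugate

universe u

variable {G : Type u} [Group G] [Fintype G] {p : ℕ} [Fact p.Prime] {M : Ideal AlgInt}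

/-- Sums preserve the local ideal. -/
theorem memLocalIdeal_sum (hM : IsPModular p M) {ι : Type*} (s : Finset ι) (f : ι → ℂ)
    (h : ∀ i ∈ s, MemLocalIdeal M (f i)) : MemLocalIdeal M (∑ i ∈ s, f i) := by
  classical
  induction s using Finset.induction_on with
  | empty => rw [Finset.sum_empty]; exact (memLocalIdeal_iff_exists hM).2 ⟨zero_mem _, map_zero _⟩
  | insert a s ha ih =>
    rw [Finset.sum_insert ha]
    obtain ⟨h1, e1⟩ := (memLocalIdeal_iff_exists hM).1 (h a (Finset.mem_insert_self a s))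
    obtain ⟨h2, e2⟩ := (memLocalIdeal_iff_exists hM).1 (ih fun i hi => h i (Finset.mem_insert_of_mem hi))
    refine (memLocalIdeal_iff_exists hM).2 ⟨add_mem h1 h2, ?_⟩
    have : (⟨_, add_mem h1 h2⟩ : locRing hM) = ⟨_, h1⟩ + ⟨_, h2⟩ := rfl
    rw [this, map_add, e1, e2, add_zero]

/-- A block induces at most one block. -/
theorem induced_unique (hM : IsPModular p M) {K : Subgroup G} [Fintype K] {e : Set (IrrCharacter K)}
    {B B' : Set (IrrCharacter G)} (h : IsInducedBlock M K e B) (h' : IsInducedBlock M K e B') :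
    B = B' := by
  obtain ⟨ξ, rfl⟩ := h.1
  obtain ⟨χ, rfl⟩ := h.2.1
  obtain ⟨χ', rfl⟩ := h'.2.1
  refine (blockOf_eq_of_mem hM (χ := χ) (ψ := χ') ?_).symm
  intro g
  have h1 := h.2.2 ξ (mem_blockOf_self hM ξ) χ (mem_blockOf_self hM χ) g
  have h2 := h'.2.2 ξ (mem_blockOf_self hM ξ) χ' (mem_blockOf_self hM χ') g
  obtain ⟨m1, e1⟩ := (memLocalIdeal_iff_exists hM).1 h1
  obtain ⟨m2, e2⟩ := (memLocalIdeal_iff_exists hM).1 h2
  refine (memLocalIdeal_iff_exists hM).2 ⟨?_, ?_⟩
  · have h3 := sub_mem m2 m1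
    rwa [sub_sub_sub_cancel_left] at h3
  · have h3 : res hM (⟨_, m2⟩ - ⟨_, m1⟩ : locRing hM) = 0 := by rw [map_sub, e1, e2, sub_zero]
    rw [← h3]
    congr 1
    exact Subtype.ext (sub_sub_sub_cancel_left _ _ _).symm

/-- Transitivity of induction, for a subgroup of `H` read inside `G`. -/
theorem induced_trans (hM : IsPModular p M) {H : Subgroup G} [Fintype H] {C : Subgroup H}
    [Fintype C] {C' : Subgroup G} (φ : C ≃* C') (hφ : ∀ c : C, ((φ c : C') : G) = ((c : H) : G))
    {e : Set (IrrCharacter C)} {b : Set (IrrCharacter H)} {B : Set (IrrCharacter G)}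
    (h : IsInducedBlock M C e b) (h' : IsInducedBlock M H b B) :
    IsInducedBlock M C' (irrMap φ '' e) B := by
  classical
  refine ⟨isPBlock_irrMap φ h.1, h'.2.1, ?_⟩
  rintro _ ⟨ξ, hξ, rfl⟩ χ hχ g
  obtain ⟨η₀, hη₀⟩ := h.2.1
  have hη : η₀ ∈ b := hη₀ ▸ mem_blockOf_self hM η₀
  set η : IrrCharacter H := η₀
  haveI : Fintype C' := Fintype.ofEquiv C φ.toEquiv
  -- both induced central characters as sums over the conjugates of `g`
  have e1 : inducedCentralChar C' (irrMap φ ξ : C' → ℂ) g =
      ∑ c ∈ Finset.univ.filter (fun c : C => IsConj g ((c : H) : G)),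
        (ξ : C → ℂ) c / (ξ : C → ℂ) 1 := by
    rw [inducedCentralChar]
    rw [← finsum_mem_coe_finset]
    refine (finsum_mem_eq_of_bijOn φ ⟨fun c hc => ?_, φ.injective.injOn, fun c hc => ?_⟩
      fun c _ => ?_).symm
    · show IsConj g ((φ c : C') : G)
      rw [hφ]; simpa using hc
    · refine ⟨φ.symm c, ?_, φ.apply_symm_apply c⟩
      simp only [Finset.coe_filter, Finset.mem_univ, true_and, Set.mem_ofPred_eq]
      rw [← hφ, φ.apply_symm_apply]
      exact hc
    · rw [irrMap_apply, ← map_one φ, irrMap_apply]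
  have e2 : ∀ (F : H → ℂ), inducedCentralChar H F g =
      ∑ x ∈ Finset.univ.filter (fun x : H => IsConj g (x : G)), F x / F 1 := by
    intro F
    rw [inducedCentralChar, ← finsum_mem_coe_finset]
    congr! 3
    simp
  set S : Finset (ConjClasses H) :=
    Finset.univ.filter (fun K => IsConj g ((Quotient.out K : H) : G)) with hS
  have hmk : ∀ (x : H) (K : ConjClasses H), ConjClasses.mk x = K ↔ IsConj (Quotient.out K) x := by
    intro x K
    rw [← ConjClasses.mk_eq_mk_iff_isConj,
      show ConjClasses.mk (Quotient.out K) = K from Quotient.out_eq K]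
    exact eq_comm
  have hconjG : ∀ (x y : H), IsConj x y → IsConj (x : G) (y : G) :=
    fun x y hxy => H.subtype.map_isConj hxy
  have hmaps : ∀ x : H, IsConj g (x : G) → ConjClasses.mk x ∈ S := fun x hx =>
    Finset.mem_filter.mpr ⟨Finset.mem_univ _,
      hx.trans (hconjG _ _ ((hmk x _).1 rfl)).symm⟩
  have s1 : inducedCentralChar C' (irrMap φ ξ : C' → ℂ) g =
      ∑ K ∈ S, inducedCentralChar C (ξ : C → ℂ) (Quotient.out K) := by
    rw [e1, ← Finset.sum_fiberwise_of_maps_to (t := S) (g := fun c : C => ConjClasses.mk (c : H))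
      fun c hc => hmaps _ (Finset.mem_filter.mp hc).2]
    refine Finset.sum_congr rfl fun K hK => ?_
    rw [inducedCentralChar, ← finsum_mem_coe_finset]
    refine finsum_mem_congr (Set.ext fun c => ?_) fun _ _ => rfl
    simp only [Finset.coe_filter, Finset.mem_univ, true_and, Set.mem_ofPred_eq,
      Finset.mem_filter]
    refine ⟨fun hc => (hmk _ _).1 hc.2, fun hc => ⟨?_, (hmk _ _).2 hc⟩⟩
    exact (Finset.mem_filter.mp hK).2.trans (hconjG _ _ hc)
  have s2 : inducedCentralChar H (η : H → ℂ) g =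
      ∑ K ∈ S, centralChar (η : H → ℂ) (Quotient.out K) := by
    rw [e2, ← Finset.sum_fiberwise_of_maps_to (t := S) (g := fun x : H => ConjClasses.mk x)
      fun x hx => hmaps _ (Finset.mem_filter.mp hx).2]
    refine Finset.sum_congr rfl fun K hK => ?_
    rw [centralChar_eq_om, om]
    rw [Finset.sum_filter, Finset.sum_filter, Finset.sum_div]
    refine Finset.sum_congr rfl fun x _ => ?_
    unfold classInd
    by_cases hx : IsConj (Quotient.out K) x
    · rw [if_pos ((hmk _ _).2 hx), if_pos hx,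
        if_pos ((Finset.mem_filter.mp hK).2.trans (hconjG _ _ hx)), one_mul]
    · rw [if_neg hx, zero_mul, zero_div, if_neg fun h => hx ((hmk _ _).1 h), ite_self]
  have hsum : MemLocalIdeal M (inducedCentralChar C' (irrMap φ ξ : C' → ℂ) g -
      inducedCentralChar H (η : H → ℂ) g) := by
    rw [s1, s2, ← Finset.sum_sub_distrib]
    exact memLocalIdeal_sum hM S _ fun K _ => h.2.2 ξ hξ η hη _
  have hsec := h'.2.2 η hη χ hχ g
  have hadd := memLocalIdeal_sum hM (Finset.univ : Finset Bool)
    (fun t => bif t then inducedCentralChar C' (irrMap φ ξ : C' → ℂ) g -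
      inducedCentralChar H (η : H → ℂ) g else
      inducedCentralChar H (η : H → ℂ) g - centralChar (χ : G → ℂ) g)
    (fun t _ => by cases t <;> assumption)
  rw [Fintype.sum_bool] at hadd
  simpa using hadd

theorem blockPart_sum_smul {ι : Type*} (s : Finset ι) (e : Set (IrrCharacter G)) (c : ι → ℂ)
    (f : ι → G → ℂ) (y : G) :
    blockPart e (∑ i ∈ s, c i • f i) y = ∑ i ∈ s, c i * blockPart e (f i) y := by
  simp only [blockPart_eq, Finset.mul_sum]
  rw [Finset.sum_comm]
  refine Finset.sum_congr rfl fun χ _ => ?_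
  rw [Char.inner_sum_left, Finset.sum_mul, Finset.mul_sum]
  exact Finset.sum_congr rfl fun i _ => by rw [Char.inner_smul_left]; ring

/-- The second main theorem below a subgroup containing the centraliser of the `p`-part. -/
theorem second_main_subgroup (hM : IsPModular p M) {H : Subgroup G} [Fintype H]
    {b : Set (IrrCharacter H)} {B : Set (IrrCharacter G)} (hind : IsInducedBlock M H b B) (h : H)
    (hC : ∀ z : G, IsPPart p (h : G) z → Subgroup.centralizer ({z} : Set G) ≤ H)
    {χ : IrrCharacter G} (hχ : χ ∉ B) :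
    ∑ k : H, blockCoeff b k * (χ : G → ℂ) ((k : G) * (h : G)) = 0 := by
  classical
  have hp : p.Prime := Fact.out
  obtain ⟨u, hu⟩ := exists_isPPart hp h
  obtain ⟨y, hy, hcomm, ⟨a, ha⟩, hyreg⟩ := isPPart_data hu
  have hCG : Subgroup.centralizer ({(u : G)} : Set G) ≤ H := hC _ (isPPart_coe_iff hu)
  set C : Subgroup H := Subgroup.centralizer ({u} : Set H) with hCdef
  set C' : Subgroup G := Subgroup.centralizer ({(u : G)} : Set G) with hC'def
  let φ : C ≃* C' :=
    { toFun := fun c => ⟨((c : H) : G), Subgroup.mem_centralizer_singleton_iff.2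
        (congrArg Subtype.val (Subgroup.mem_centralizer_singleton_iff.1 c.2))⟩
      invFun := fun c => ⟨⟨(c : G), hCG c.2⟩, Subgroup.mem_centralizer_singleton_iff.2
        (Subtype.ext (Subgroup.mem_centralizer_singleton_iff.1 c.2))⟩
      left_inv := fun c => rfl
      right_inv := fun c => rfl
      map_mul' := fun c d => rfl }
  have hyC : y ∈ C := Subgroup.mem_centralizer_singleton_iff.2 hcomm.eq.symm
  set yC : C := ⟨y, hyC⟩ with hyCdef
  have hyCreg : ¬ p ∣ orderOf yC := by rwa [← Subgroup.orderOf_coe]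
  have huH : ∃ k, orderOf u = p ^ k := ⟨a, ha⟩
  have huG : ∃ k, orderOf (u : G) = p ^ k := ⟨a, by rw [Subgroup.orderOf_coe, ha]⟩
  let res : H → ℂ := fun x => (χ : G → ℂ) (x : G)
  have hres : IsClassFunction H res :=
    Char.isClassFunction_restrict (irr_classFunction χ) H
  have key : ∑ k : H, blockCoeff b k * (χ : G → ℂ) ((k : G) * (h : G)) = blockPart b res h := by
    rw [blockPart_eq_conv b hres]
    rfl
  rw [key]
  -- expansion on the centraliser of the `p`-part
  let Φ : IrrCharacter H → C → ℂ := fun η c => (η : H → ℂ) (u * (c : H))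
  let n : IrrCharacter H → ℂ := fun η => classInner res (η : H → ℂ)
  have hexp : blockPart b res h =
      (∑ η : IrrCharacter H, (indVal b η * n η) • Φ η) yC := by
    rw [blockPart_eq, Finset.sum_apply]
    refine Finset.sum_congr rfl fun η _ => ?_
    rw [Pi.smul_apply, smul_eq_mul, hy]
    exact (mul_assoc _ _ _).symm
  have hcl : IsClassFunction C (∑ η : IrrCharacter H, (indVal b η * n η) • Φ η) := by
    intro x c
    simp only [Finset.sum_apply, Pi.smul_apply]
    refine Finset.sum_congr rfl fun η _ => ?_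
    congr 1
    have hcu : (c : H) * u = u * c := Subgroup.mem_centralizer_singleton_iff.1 c.2
    show (η : H → ℂ) (u * ((c : H) * x * (c : H)⁻¹)) = (η : H → ℂ) (u * x)
    rw [← irr_classFunction η (u * (x : H)) c]
    congr 1
    rw [← mul_assoc (c : H) u x, hcu]
    group
  rw [hexp, congrFun (Char.classFunction_eq_sum _ hcl) yC]
  simp only [Finset.sum_apply, Pi.smul_apply, smul_eq_mul]
  rw [← Finset.sum_fiberwise Finset.univ
    (fun ξ : IrrCharacter C => blockOf M (ξ : C → ℂ))]
  refine Finset.sum_eq_zero fun e _ => ?_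
  by_cases hne : ∃ ξ₀ : IrrCharacter C, blockOf M (ξ₀ : C → ℂ) = e
  swap
  · refine Finset.sum_eq_zero fun ξ hξ => absurd ⟨ξ, (Finset.mem_filter.1 hξ).2⟩ hne
  obtain ⟨ξ₀, rfl⟩ := hne
  set e := blockOf M (ξ₀ : C → ℂ) with he
  have hpart : ∑ ξ ∈ Finset.univ.filter (fun ξ : IrrCharacter C => blockOf M (ξ : C → ℂ) = e),
      classInner (∑ η : IrrCharacter H, (indVal b η * n η) • Φ η) (ξ : C → ℂ) * (ξ : C → ℂ) yC =
      blockPart e (∑ η : IrrCharacter H, (indVal b η * n η) • Φ η) yC := by
    rw [blockPart_eq, Finset.sum_filter]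
    refine Finset.sum_congr rfl fun ξ _ => ?_
    have hiff : blockOf M (ξ : C → ℂ) = e ↔ ξ ∈ e :=
      ⟨fun h' => h' ▸ mem_blockOf_self hM ξ, fun h' => blockOf_eq_of_mem hM h'⟩
    unfold indVal
    by_cases hξ : ξ ∈ e
    · rw [if_pos (hiff.2 hξ), if_pos hξ, one_mul]
    · rw [if_neg (fun h' => hξ (hiff.1 h')), if_neg hξ, zero_mul]
  rw [hpart, blockPart_sum_smul]
  have hzero : ∀ η : IrrCharacter H,
      ¬ IsInducedBlock M C e (blockOf M (η : H → ℂ)) → blockPart e (Φ η) yC = 0 := by
    intro η hη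
    rw [blockPart_eq]
    refine Eq.trans ?_ (blockPart_translate_sq_sum_eq_zero hM huH (isPBlock_blockOf η)
      (isPBlock_blockOf ξ₀) hη yC hyCreg η (mem_blockOf_self hM η))
    refine Finset.sum_congr ?_ fun ξ _ => ?_
    · ext x; simp
    · rw [decNum]
  by_cases heb : IsInducedBlock M C e b
  swap
  · refine Finset.sum_eq_zero fun η _ => ?_
    unfold indVal
    by_cases hηb : η ∈ b
    · rw [hzero η (fun h' => heb ((isPBlock_eq_blockOf hM hind.1 hηb) ▸ h')), mul_zero]
    · rw [if_neg hηb, zero_mul, zero_mul]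
  have hall : ∑ η : IrrCharacter H, indVal b η * n η * blockPart e (Φ η) yC =
      ∑ η : IrrCharacter H, n η * blockPart e (Φ η) yC := by
    refine Finset.sum_congr rfl fun η _ => ?_
    unfold indVal
    by_cases hηb : η ∈ b
    · rw [if_pos hηb, one_mul]
    · rw [hzero η (fun h' => hηb ((induced_unique hM heb h') ▸ mem_blockOf_self hM η)), mul_zero,
        mul_zero]
  rw [hall, ← blockPart_sum_smul]
  -- pass to the centraliser in the whole group
  have hfull : (∑ η : IrrCharacter H, n η • Φ η) =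
      fun c : C => (χ : G → ℂ) ((u : G) * ((c : H) : G)) := by
    funext c
    have h' := congrFun (Char.classFunction_eq_sum res hres) (u * (c : H))
    simp only [Finset.sum_apply, Pi.smul_apply, smul_eq_mul] at h' ⊢
    exact h'.symm
  rw [hfull]
  have hnot : ¬ IsInducedBlock M C' (irrMap φ '' e) (blockOf M (χ : G → ℂ)) := fun h' => by
    have h2 := induced_trans hM φ (fun c => rfl) heb hind
    exact hχ ((induced_unique hM h2 h') ▸ mem_blockOf_self hM χ)
  have hyG : ¬ p ∣ orderOf (φ yC) := by rwa [MulEquiv.orderOf_eq]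
  have hz := blockPart_translate_sq_sum_eq_zero hM huG (isPBlock_blockOf χ)
    (isPBlock_irrMap φ (isPBlock_blockOf ξ₀)) hnot (φ yC) hyG χ (mem_blockOf_self hM χ)
  rw [blockPart_eq, ← hz]
  refine Fintype.sum_equiv ⟨irrMap φ, irrMap φ.symm, fun ξ => by
    simpa using irrMap_symm φ.symm ξ, irrMap_symm φ⟩ _ _ fun ξ => ?_
  show _ = indVal (irrMap φ '' e) (irrMap φ ξ) *
    (decNum (u : G) χ (irrMap φ ξ) * (irrMap φ ξ : C' → ℂ) (φ yC))
  rw [irrMap_apply, decNum, show indVal (irrMap φ '' e) (irrMap φ ξ) = indVal e ξ by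
    simp only [indVal, (irrMap_injective φ).mem_set_image]]
  congr 2
  refine Eq.trans ?_ (Char.inner_comp_equiv φ _ _)
  congr 1

end CfsgLib.Block
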