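import Cfsg.Agent.Lib.BlockSmallDegree2
import Cfsg.Agent.Lib.CoreBasic
import Mathlib.GroupTheory.Abelianization.Defs

/-!
Groups with a self-centralizing element of prime order: normal subgroups, the commutator
quotient, and the determinant parity of a character of degree `p - 1`.
-/

universe u

namespace CfsgLib.Block

open Cfsg CfsgLib.Char
open scoped ComplexConjugate Classical commutatorElement

section SelfCent

variable {G : Type u} [Group G] [Fintype G] {p : ℕ} [hpf : Fact p.Prime]
variable {P : Sylow p G} {e : ℕ}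

/-- A self-centralizing element of prime order generates a Sylow subgroup. -/
theorem exists_sylow_selfcent {x : G} (hx : orderOf x = p)
    (hC : Subgroup.centralizer ({x} : Set G) = Subgroup.zpowers x) :
    ∃ P : Sylow p G, (P : Subgroup G) = Subgroup.zpowers x ∧ Nat.card P = p ∧
      Subgroup.centralizer ((P : Subgroup G) : Set G) = (P : Subgroup G) := by
  obtain ⟨P, hP⟩ := (IsPGroup.of_card (p := p) (G := Subgroup.zpowers x) (n := 1)
    (by rw [Nat.card_zpowers, hx, pow_one])).exists_le_sylow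
  have hxP : x ∈ (P : Subgroup G) := hP (Subgroup.mem_zpowers x)
  have hx1 : x ≠ 1 := fun h => by
    rw [h, orderOf_one] at hx
    exact hpf.out.one_lt.ne hx
  have : Nontrivial (P : Subgroup G) := ⟨⟨⟨x, hxP⟩, 1, fun h => hx1 (congrArg Subtype.val h)⟩⟩
  haveI : Nontrivial (Subgroup.center (P : Subgroup G)) := P.2.center_nontrivial
  obtain ⟨z, hz⟩ := exists_ne (1 : Subgroup.center (P : Subgroup G))
  -- every element of P commutes with the nontrivial element z, which is a power of x
  have hzx : ((z : (P : Subgroup G)) : G) ∈ Subgroup.zpowers x := by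
    rw [← hC, Subgroup.mem_centralizer_iff]
    intro y hy
    rw [Set.mem_singleton_iff] at hy
    subst hy
    exact congrArg Subtype.val (Subgroup.mem_center_iff.1 z.2 ⟨y, hxP⟩)
  have hzne : ((z : (P : Subgroup G)) : G) ≠ 1 := fun h => hz (Subtype.ext (Subtype.ext h))
  have hxz : x ∈ Subgroup.zpowers ((z : (P : Subgroup G)) : G) := by
    have hle : Subgroup.zpowers ((z : (P : Subgroup G)) : G) ≤ Subgroup.zpowers x :=
      (Subgroup.zpowers_le).2 hzx
    have hd := Subgroup.card_dvd_of_le hle
    rw [Nat.card_zpowers, Nat.card_zpowers, hx] at hd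
    rcases (Nat.dvd_prime hpf.out).1 hd with h | h
    · exact absurd (orderOf_eq_one_iff.1 h) hzne
    · rw [Subgroup.eq_of_le_of_card_ge hle (by rw [Nat.card_zpowers, Nat.card_zpowers, hx, h])]
      exact Subgroup.mem_zpowers x
  have hPx : (P : Subgroup G) = Subgroup.zpowers x := by
    refine le_antisymm (fun y hy => ?_) hP
    rw [← hC, Subgroup.mem_centralizer_iff]
    intro w hw
    rw [Set.mem_singleton_iff] at hw
    subst hw
    obtain ⟨i, hi⟩ := hxz
    have h1 : Commute y ((z : (P : Subgroup G)) : G) :=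
      congrArg Subtype.val (Subgroup.mem_center_iff.1 z.2 ⟨y, hy⟩)
    rw [← hi]
    exact ((h1.zpow_right i).symm).eq
  refine ⟨P, hPx, by rw [hPx, Nat.card_zpowers, hx], ?_⟩
  rw [hPx]
  refine le_antisymm (fun y hy => ?_) fun y hy => ?_
  · rw [← hC, Subgroup.mem_centralizer_iff]
    intro w hw
    rw [Set.mem_singleton_iff] at hw
    subst hw
    exact Subgroup.mem_centralizer_iff.1 hy w (Subgroup.mem_zpowers w)
  · rw [Subgroup.mem_centralizer_iff]
    rintro _ ⟨i, rfl⟩
    obtain ⟨j, rfl⟩ := hy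
    exact (((Commute.refl x).zpow_right j).zpow_left i).eq

variable (D : CycData P e) (hP : Nat.card P = p)
  (hC : Subgroup.centralizer ((P : Subgroup G) : Set G) = (P : Subgroup G))

include hP hC

theorem CycData.eq_one_of_regular {g : G}
    (hg : g ∈ Subgroup.centralizer ((P : Subgroup G) : Set G)) (hp : ¬ p ∣ orderOf g) : g = 1 := by
  rw [hC] at hg
  have h1 : orderOf g ∣ p := by
    have := Subgroup.orderOf_dvd_natCard _ hg
    rwa [hP] at this
  rcases (Nat.dvd_prime hpf.out).1 h1 with h | h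
  · exact orderOf_eq_one_iff.1 h
  · exact absurd (h ▸ dvd_refl p) hp

theorem CycData.K_eq_one {z : G} (hz : z ∈ D.K) : z = 1 :=
  CycData.eq_one_of_regular hP hC (D.hKC hz) fun h =>
    D.hKp (h.trans (Subgroup.orderOf_dvd_natCard _ hz))

/-- The normalizer of a self-centralizing Sylow subgroup of order `p` has order `p e`. -/
theorem CycData.card_normalizer (he : (Subgroup.centralizer ((P : Subgroup G) : Set G)).relIndex
    (Subgroup.normalizer ((P : Subgroup G) : Set G)) = e) :
    Nat.card (Subgroup.normalizer ((P : Subgroup G) : Set G)) = p * e := by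
  rw [hC] at he
  rw [← CfsgLib.Core.card_mul_relIndex (Subgroup.le_normalizer (H := (P : Subgroup G))), he, hP]

theorem CycData.pow_y_eq_one : D.y ^ e = 1 := by
  refine CycData.eq_one_of_regular hP hC ?_ fun h => D.hyp (h.trans (orderOf_pow_dvd e))
  rw [← D.hrC _ (pow_mem D.hy e)]
  let F : Subgroup.normalizer ((P : Subgroup G) : Set G) →* (ZMod p)ˣ :=
    { toFun := fun x => D.r x
      map_one' := (D.hrC 1 (one_mem _)).2 (one_mem _)
      map_mul' := fun x y => D.hrmul _ x.2 _ y.2 }
  have h4 : F (⟨D.y, D.hy⟩ ^ e) = F ⟨D.y, D.hy⟩ ^ e := map_pow F _ _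
  have h5 : D.r (D.y ^ e) = D.r D.y ^ e := h4
  have h6 := pow_orderOf_eq_one (D.r D.y)
  rw [D.hry] at h6
  rw [h5, h6]

include D in
/-- Classes of elements of order `p`. -/
theorem CycData.card_classes_mul :
    Nat.card {C : ConjClasses G // ∃ g ∈ C.carrier, orderOf g = p} * e = p - 1 := by
  have hbo : ∀ b : (ZMod p)ˣ, orderOf (D.u ^ (b : ZMod p).val) = p := fun b => by
    rw [Nat.Coprime.orderOf_pow (by
      rw [D.hup]
      exact hpf.out.coprime_iff_not_dvd.2 fun h =>
        b.ne_zero ((ZMod.val_eq_zero _).1 (Nat.eq_zero_of_dvd_of_lt h (ZMod.val_lt _))))]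
    exact D.hup
  let cl : (ZMod p)ˣ ⧸ Subgroup.zpowers (D.r D.y) →
      {C : ConjClasses G // ∃ g ∈ C.carrier, orderOf g = p} :=
    Quotient.lift (fun b : (ZMod p)ˣ => ⟨ConjClasses.mk (D.u ^ (b : ZMod p).val),
      D.u ^ (b : ZMod p).val, ConjClasses.mem_carrier_mk, hbo b⟩) fun a b hab => by
        refine Subtype.ext (ConjClasses.mk_eq_mk_iff_isConj.2 ?_)
        rw [D.isConj_pow_iff]
        have h1 := (QuotientGroup.leftRel_apply).1 hab
        rwa [div_eq_mul_inv, mul_comm]
  have hbij : Function.Bijective cl := by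
    constructor
    · intro q q'
      induction q using QuotientGroup.induction_on with | _ a => ?_
      induction q' using QuotientGroup.induction_on with | _ b => ?_
      intro h
      have h1 : IsConj (D.u ^ (a : ZMod p).val) (D.u ^ (b : ZMod p).val) :=
        ConjClasses.mk_eq_mk_iff_isConj.1 (congrArg Subtype.val h)
      rw [D.isConj_pow_iff, div_eq_mul_inv, mul_comm] at h1
      exact QuotientGroup.eq.2 h1
    · rintro ⟨C, g, hgC, hg⟩
      obtain ⟨Q, hQ⟩ := (IsPGroup.of_card (p := p) (G := Subgroup.zpowers g) (n := 1)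
        (by rw [Nat.card_zpowers, hg, pow_one])).exists_le_sylow
      obtain ⟨w, hw⟩ := MulAction.exists_smul_eq G Q P
      have hwg : w * g * w⁻¹ ∈ (P : Subgroup G) := by
        rw [← hw, Sylow.coe_subgroup_smul, Subgroup.mem_pointwise_smul_iff_inv_smul_mem]
        have h1 : (MulAut.conj w)⁻¹ • (w * g * w⁻¹) = g := by simp [MulAut.smul_def, mul_assoc]
        rw [h1]
        exact hQ (Subgroup.mem_zpowers g)
      have hwu : w * g * w⁻¹ ∈ Subgroup.zpowers D.u := D.hu ▸ hwg
      rw [← mem_powers_iff_mem_zpowers, Submonoid.mem_powers_iff] at hwu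
      obtain ⟨i, hi⟩ := hwu
      have hi0 : (i : ZMod p) ≠ 0 := by
        intro h0
        have hd := (ZMod.natCast_eq_zero_iff i p).1 h0
        have h1 : D.u ^ i = 1 := orderOf_dvd_iff_pow_eq_one.1 (by rw [D.hup]; exact hd)
        have h2 : g = 1 := by
          have h3 := h1.symm.trans hi
          simpa using h3.symm
        rw [h2, orderOf_one] at hg
        exact hpf.out.one_lt.ne hg
      refine ⟨((Units.mk0 (i : ZMod p) hi0 : (ZMod p)ˣ) : (ZMod p)ˣ ⧸ _), Subtype.ext ?_⟩
      show ConjClasses.mk (D.u ^ ((Units.mk0 (i : ZMod p) hi0 : (ZMod p)ˣ) : ZMod p).val) = C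
      have hm := pow_mod_orderOf D.u i
      rw [D.hup] at hm
      rw [Units.val_mk0, ZMod.val_natCast, hm, hi]
      rw [← ConjClasses.mem_carrier_iff_mk_eq.1 hgC]
      exact ConjClasses.mk_eq_mk_iff_isConj.2 (isConj_iff.2 ⟨w, rfl⟩).symm
  have hcz := Nat.card_zpowers (D.r D.y)
  rw [D.hry] at hcz
  have h := Subgroup.index_mul_card (Subgroup.zpowers (D.r D.y))
  rw [hcz, Nat.card_eq_fintype_card, ZMod.card_units] at h
  rw [← Nat.card_congr (Equiv.ofBijective cl hbij), ← Subgroup.index]
  exact h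

/-- The number of subgroups of order `p`. -/
theorem card_order_p_subgroups :
    Nat.card {H : Subgroup G // Nat.card H = p} =
      (Subgroup.normalizer ((P : Subgroup G) : Set G)).index := by
  refine Eq.trans ?_ (Sylow.card_eq_index_normalizer P)
  refine (Nat.card_congr (Equiv.ofBijective (fun Q : Sylow p G =>
    (⟨(Q : Subgroup G), by
      rw [Sylow.card_eq_multiplicity, ← Sylow.card_eq_multiplicity P, hP]⟩ :
      {H : Subgroup G // Nat.card H = p})) ⟨?_, ?_⟩)).symm
  · intro Q Q' h
    exact Sylow.ext (congrArg Subtype.val h)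
  · rintro ⟨H, hH⟩
    obtain ⟨Q, hQ⟩ := (IsPGroup.of_card (p := p) (G := H) (n := 1)
      (by rw [hH, pow_one])).exists_le_sylow
    refine ⟨Q, Subtype.ext (Subgroup.eq_of_le_of_card_ge hQ (le_of_eq ?_)).symm⟩
    rw [hH, Sylow.card_eq_multiplicity, ← Sylow.card_eq_multiplicity P, hP]

variable {S : Subgroup G} [hSn : S.Normal]

/-- A normal `p'`-subgroup meets the normalizer trivially. -/
theorem eq_one_of_mem_normal_normalizer (hS : ¬ p ∣ Nat.card S) {s : G} (hs : s ∈ S)
    (hsN : s ∈ Subgroup.normalizer ((P : Subgroup G) : Set G)) : s = 1 := by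
  refine CycData.eq_one_of_regular hP hC ?_ fun h =>
    hS (h.trans (Subgroup.orderOf_dvd_natCard _ hs))
  rw [Subgroup.mem_centralizer_iff]
  intro w hw
  have h1 : s * w * s⁻¹ * w⁻¹ ∈ (P : Subgroup G) :=
    mul_mem ((Subgroup.mem_normalizer_iff.1 hsN w).1 hw) (inv_mem hw)
  have h2 : s * w * s⁻¹ * w⁻¹ ∈ S := by
    rw [show s * w * s⁻¹ * w⁻¹ = s * (w * s⁻¹ * w⁻¹) by group]
    exact mul_mem hs (hSn.conj_mem _ (inv_mem hs) w)
  have h3 : s * w * s⁻¹ * w⁻¹ = 1 := by
    rw [← orderOf_eq_one_iff]
    have ha : orderOf (s * w * s⁻¹ * w⁻¹) ∣ p := by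
      have := Subgroup.orderOf_dvd_natCard _ h1
      rwa [hP] at this
    exact Nat.eq_one_of_dvd_coprimes (hpf.out.coprime_iff_not_dvd.2 hS) ha
      (Subgroup.orderOf_dvd_natCard _ h2)
  rw [mul_inv_eq_one, mul_inv_eq_iff_eq_mul] at h3
  exact h3.symm

/-- Conjugation by a nontrivial element of `P` fixes only the identity of a normal
`p'`-subgroup. -/
theorem eq_one_of_fixed (hS : ¬ p ∣ Nat.card S) {w : G} (hw : w ∈ (P : Subgroup G)) (hw1 : w ≠ 1)
    {s : G} (hs : s ∈ S) (hcomm : w * s = s * w) : s = 1 := by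
  refine eq_one_of_mem_normal_normalizer hP hC hS hs (Subgroup.centralizer_le_normalizer _ ?_)
  have hwo : orderOf w = p := by
    have h1 : orderOf w ∣ p := by
      have := Subgroup.orderOf_dvd_natCard _ hw
      rwa [hP] at this
    exact ((Nat.dvd_prime hpf.out).1 h1).resolve_left fun h => hw1 (orderOf_eq_one_iff.1 h)
  have hPw : (P : Subgroup G) = Subgroup.zpowers w :=
    (Subgroup.eq_of_le_of_card_ge ((Subgroup.zpowers_le).2 hw)
      (by rw [Nat.card_zpowers, hwo, hP])).symm
  rw [Subgroup.mem_centralizer_iff]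
  intro y hy
  rw [SetLike.mem_coe, hPw] at hy
  obtain ⟨i, rfl⟩ := hy
  exact (Commute.zpow_left hcomm i).eq

/-- Every element of a normal `p'`-subgroup is a commutator with a nontrivial element of `P`. -/
theorem exists_eq_commutator (hS : ¬ p ∣ Nat.card S) {w : G} (hw : w ∈ (P : Subgroup G))
    (hw1 : w ≠ 1) {s : G} (hs : s ∈ S) : ∃ r ∈ S, s = r * w * r⁻¹ * w⁻¹ := by
  let f : S → S := fun r => ⟨(r : G) * w * (r : G)⁻¹ * w⁻¹, by
    rw [show (r : G) * w * (r : G)⁻¹ * w⁻¹ = (r : G) * (w * (r : G)⁻¹ * w⁻¹) by group]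
    exact mul_mem r.2 (hSn.conj_mem _ (inv_mem r.2) w)⟩
  have hf : Function.Injective f := by
    intro a b h
    have h1 : (a : G) * w * (a : G)⁻¹ * w⁻¹ = (b : G) * w * (b : G)⁻¹ * w⁻¹ :=
      congrArg Subtype.val h
    rw [mul_left_inj] at h1
    have h2 : w * ((a : G)⁻¹ * (b : G)) = ((a : G)⁻¹ * (b : G)) * w := by
      have h3 := congrArg (fun z => (a : G)⁻¹ * z * (b : G)) h1
      simpa [mul_assoc] using h3
    exact Subtype.ext (inv_mul_eq_one.1
      (eq_one_of_fixed hP hC hS hw hw1 (mul_mem (inv_mem a.2) b.2) h2))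
  obtain ⟨r, hr⟩ := (Finite.injective_iff_surjective.1 hf) ⟨s, hs⟩
  exact ⟨r, r.2, (congrArg Subtype.val hr).symm⟩

/-- A normal `p'`-subgroup has order congruent to `1`. -/
theorem card_normal_mod (hS : ¬ p ∣ Nat.card S) : Nat.card S % p = 1 := by
  letI : MulAction (P : Subgroup G) S :=
    { smul := fun w s => ⟨(w : G) * s * (w : G)⁻¹, hSn.conj_mem _ s.2 w⟩
      one_smul := fun s => Subtype.ext (by
        show ((1 : (P : Subgroup G)) : G) * (s : G) * ((1 : (P : Subgroup G)) : G)⁻¹ = s
        simp)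
      mul_smul := fun a b s => Subtype.ext (by
        show ((a * b : (P : Subgroup G)) : G) * (s : G) * ((a * b : (P : Subgroup G)) : G)⁻¹ =
          (a : G) * ((b : G) * s * (b : G)⁻¹) * (a : G)⁻¹
        simp [mul_assoc]) }
  have h := P.2.card_modEq_card_fixedPoints S
  have hfix : Nat.card (MulAction.fixedPoints (P : Subgroup G) S) = 1 := by
    obtain ⟨w, hw1⟩ : ∃ w : (P : Subgroup G), w ≠ 1 := by
      have : Nontrivial (P : Subgroup G) :=
        Finite.one_lt_card_iff_nontrivial.1 (lt_of_lt_of_eq hpf.out.one_lt hP.symm)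
      exact exists_ne 1
    rw [Nat.card_eq_one_iff_unique]
    refine ⟨⟨fun a b => ?_⟩, ⟨⟨⟨1, one_mem _⟩, fun a => Subtype.ext ?_⟩⟩⟩
    · have h0 : ∀ a : MulAction.fixedPoints (P : Subgroup G) S, ((a : S) : G) = 1 := fun a => by
        refine eq_one_of_fixed hP hC hS w.2 (fun h => hw1 (Subtype.ext h)) (a : S).2 ?_
        have h1 : (w : G) * ((a : S) : G) * (w : G)⁻¹ = ((a : S) : G) :=
          congrArg Subtype.val (a.2 w)
        exact mul_inv_eq_iff_eq_mul.1 h1
      exact Subtype.ext (Subtype.ext ((h0 a).trans (h0 b).symm))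
    · show (a : G) * (1 : G) * (a : G)⁻¹ = 1
      simp
  rw [hfix] at h
  rw [h, Nat.mod_eq_of_lt hpf.out.one_lt]

/-- The order of a normal `p'`-subgroup divides the number of subgroups of order `p`. -/
theorem card_normal_dvd (hS : ¬ p ∣ Nat.card S) :
    Nat.card S ∣ Nat.card {H : Subgroup G // Nat.card H = p} := by
  rw [card_order_p_subgroups hP hC]
  set N := Subgroup.normalizer ((P : Subgroup G) : Set G)
  have hle : N ≤ Subgroup.normalizer (S : Set G) := fun x _ => by
    rw [Subgroup.normalizer_eq_top_iff.2 hSn]; exact Subgroup.mem_top _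
  have hd : N ⊓ S = ⊥ := by
    rw [eq_bot_iff]
    intro x hx
    obtain ⟨h1, h2⟩ := Subgroup.mem_inf.1 hx
    exact eq_one_of_mem_normal_normalizer hP hC hS h2 h1
  have h := Subgroup.card_subgroup_dvd_card (N ⊔ S)
  rw [CfsgLib.Core.card_sup_of_disjoint hle hd, ← Subgroup.index_mul_card N,
    mul_comm N.index] at h
  exact Nat.dvd_of_mul_dvd_mul_left Nat.card_pos h

/-- In the quotient by a normal `p'`-subgroup the image stays self-centralizing. -/
theorem quotient_selfcent (hS : ¬ p ∣ Nat.card S) {w : G} (hw : w ∈ (P : Subgroup G))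
    (hw1 : w ≠ 1) :
    orderOf (w : G ⧸ S) = p ∧
      Subgroup.centralizer ({(w : G ⧸ S)} : Set (G ⧸ S)) = Subgroup.zpowers (w : G ⧸ S) := by
  have hwo : orderOf w = p := by
    have h1 : orderOf w ∣ p := by
      have := Subgroup.orderOf_dvd_natCard _ hw
      rwa [hP] at this
    exact ((Nat.dvd_prime hpf.out).1 h1).resolve_left fun h => hw1 (orderOf_eq_one_iff.1 h)
  have hPw : (P : Subgroup G) = Subgroup.zpowers w :=
    (Subgroup.eq_of_le_of_card_ge ((Subgroup.zpowers_le).2 hw)
      (by rw [Nat.card_zpowers, hwo, hP])).symm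
  have hdisj : ∀ g : G, g ∈ (P : Subgroup G) → g ∈ S → g = 1 := fun g h1 h2 =>
    eq_one_of_mem_normal_normalizer hP hC hS h2 (Subgroup.le_normalizer h1)
  refine ⟨?_, ?_⟩
  · have h1 : orderOf (w : G ⧸ S) ∣ p := hwo ▸ orderOf_map_dvd (QuotientGroup.mk' S) w
    refine ((Nat.dvd_prime hpf.out).1 h1).resolve_left fun h => hw1 ?_
    exact hdisj w hw ((QuotientGroup.eq_one_iff w).1 (orderOf_eq_one_iff.1 h))
  · refine le_antisymm ?_ ?_
    · intro q hq
      induction q using QuotientGroup.induction_on with | _ g => ?_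
      have h1 : (w : G ⧸ S) * (g : G ⧸ S) = (g : G ⧸ S) * (w : G ⧸ S) :=
        Subgroup.mem_centralizer_iff.1 hq _ rfl
      rw [← QuotientGroup.mk_mul, ← QuotientGroup.mk_mul, QuotientGroup.eq] at h1
      have h2 : w⁻¹ * (g⁻¹ * w * g) ∈ S := by
        have h5 := hSn.conj_mem _ (inv_mem h1) (g : G)⁻¹
        have h6 := inv_mem h1
        have h7 : ((w * g)⁻¹ * (g * w))⁻¹ = w⁻¹ * g⁻¹ * w * g := by group
        rw [h7] at h6
        simpa [mul_assoc] using h6
      obtain ⟨r, hr, hrw⟩ := exists_eq_commutator hP hC hS hw hw1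
        (hSn.conj_mem _ h2 w)
      have h3 : g⁻¹ * w * g = r * w * r⁻¹ := by
        have h4 := congrArg (fun z => z * w) hrw
        simpa [mul_assoc] using h4
      have h5 : g * r ∈ Subgroup.centralizer ((P : Subgroup G) : Set G) := by
        rw [Subgroup.mem_centralizer_iff]
        intro y hy
        rw [SetLike.mem_coe, hPw] at hy
        obtain ⟨i, rfl⟩ := hy
        refine (Commute.zpow_left ?_ i).eq
        show w * (g * r) = g * r * w
        have h6 := congrArg (fun z => g * z * r) h3
        simpa [mul_assoc] using h6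
      rw [hC, hPw] at h5
      obtain ⟨i, hi⟩ := h5
      refine ⟨i, ?_⟩
      show (w : G ⧸ S) ^ i = (g : G ⧸ S)
      rw [← QuotientGroup.mk_zpow, show w ^ i = g * r from hi, QuotientGroup.eq]
      simpa using inv_mem hr
    · rw [Subgroup.zpowers_le, Subgroup.mem_centralizer_iff]
      intro y hy
      rw [Set.mem_singleton_iff.1 hy]

/-- A normal subgroup of order divisible by `p` contains the derived subgroup. -/
theorem commutator_le_of_dvd (hS : p ∣ Nat.card S) (D : CycData P e) : commutator G ≤ S := by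
  have hPS : (P : Subgroup G) ≤ S := sylow_le_of_normal hP hS
  have htop : Subgroup.normalizer ((P : Subgroup G) : Set G) ⊔ S = ⊤ :=
    Sylow.normalizer_sup_eq_top' P hPS
  have hle : Subgroup.normalizer ((P : Subgroup G) : Set G) ≤ Subgroup.normalizer (S : Set G) :=
    fun x _ => by rw [Subgroup.normalizer_eq_top_iff.2 hSn]; exact Subgroup.mem_top _
  have hmk : ∀ g : G, ∃ m ∈ Subgroup.normalizer ((P : Subgroup G) : Set G),
      (g : G ⧸ S) = (m : G ⧸ S) := by
    intro g
    obtain ⟨a, ha, s, hs, rfl⟩ := (CfsgLib.Core.mem_sup_iff_of_le_normalizer hle (x := g)).1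
      (htop ▸ Subgroup.mem_top g)
    exact ⟨a, ha, by rw [QuotientGroup.eq]; simpa [mul_assoc] using inv_mem hs⟩
  rw [commutator_def, Subgroup.commutator_le]
  intro a _ b _
  rw [← QuotientGroup.eq_one_iff (N := S)]
  obtain ⟨m, hm, hma⟩ := hmk a
  obtain ⟨k, hk, hkb⟩ := hmk b
  rw [show ((⁅a, b⁆ : G) : G ⧸ S) = ⁅(a : G ⧸ S), (b : G ⧸ S)⁆ from
    map_commutatorElement (QuotientGroup.mk' S) a b, hma, hkb,
    ← show ((⁅m, k⁆ : G) : G ⧸ S) = ⁅(m : G ⧸ S), (k : G ⧸ S)⁆ from
      map_commutatorElement (QuotientGroup.mk' S) m k, QuotientGroup.eq_one_iff]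
  refine hPS ?_
  rw [← hC, ← D.hrC _ (by
    rw [commutatorElement_def]
    exact mul_mem (mul_mem (mul_mem hm hk) (inv_mem hm)) (inv_mem hk))]
  let F : Subgroup.normalizer ((P : Subgroup G) : Set G) →* (ZMod p)ˣ :=
    { toFun := fun x => D.r x
      map_one' := (D.hrC 1 (one_mem _)).2 (one_mem _)
      map_mul' := fun x y => D.hrmul _ x.2 _ y.2 }
  show F ⁅(⟨m, hm⟩ : Subgroup.normalizer ((P : Subgroup G) : Set G)), ⟨k, hk⟩⁆ = 1
  rw [map_commutatorElement, commutatorElement_eq_one_iff_mul_comm, mul_comm]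

omit hSn in
/-- The dichotomy for the derived subgroup. -/
theorem commutator_dichotomy (D : CycData P e)
    (he : (Subgroup.centralizer ((P : Subgroup G) : Set G)).relIndex
      (Subgroup.normalizer ((P : Subgroup G) : Set G)) = e) :
    (p ∣ Nat.card (commutator G) ∧ e ≠ 1 ∧ (commutator G).index ∣ e) ∨
      (¬ p ∣ Nat.card (commutator G) ∧ e = 1 ∧ (commutator G).index = p) := by
  by_cases hd : p ∣ Nat.card (commutator G)
  · refine Or.inl ⟨hd, fun h1 => ?_, ?_⟩
    · have hNC : Subgroup.normalizer ((P : Subgroup G) : Set G) ≤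
          Subgroup.centralizer ((P : Subgroup G) : Set G) :=
        Subgroup.relIndex_eq_one.1 (h1 ▸ he)
      set T := (MonoidHom.transferSylow P hNC).ker
      have hle : commutator G ≤ T := by
        rw [commutator_def, Subgroup.commutator_le]
        intro a _ b _
        rw [MonoidHom.mem_ker, map_commutatorElement, commutatorElement_eq_one_iff_mul_comm]
        refine Subtype.ext ?_
        exact Subgroup.mem_centralizer_iff.1
          (show ((MonoidHom.transferSylow P hNC b : (P : Subgroup G)) : G) ∈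
            Subgroup.centralizer ((P : Subgroup G) : Set G) by rw [hC]; exact Subtype.prop _)
          _ (Subtype.prop _)
      exact MonoidHom.not_dvd_card_ker_transferSylow P hNC
        (hd.trans (Subgroup.card_dvd_of_le hle))
    · have hPS : (P : Subgroup G) ≤ commutator G := sylow_le_of_normal hP hd
      have htop : Subgroup.normalizer ((P : Subgroup G) : Set G) ⊔ commutator G = ⊤ :=
        Sylow.normalizer_sup_eq_top' P hPS
      have h1 := CfsgLib.Core.relIndex_sup_eq_of_le_normalizer
        (A := Subgroup.normalizer ((P : Subgroup G) : Set G)) (K := commutator G)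
        (fun x _ => by
          rw [Subgroup.normalizer_eq_top_iff.2 inferInstance]; exact Subgroup.mem_top _)
      rw [htop, Subgroup.relIndex_top_right] at h1
      rw [h1, ← he, hC]
      exact Subgroup.relIndex_dvd_of_le_left _ hPS
  · refine Or.inr ⟨hd, ?_, ?_⟩
    · rw [← he, Subgroup.relIndex_eq_one]
      intro m hm
      rw [Subgroup.mem_centralizer_iff]
      intro w hw
      have h1 : m * w * m⁻¹ * w⁻¹ ∈ commutator G :=
        Subgroup.commutator_mem_commutator (Subgroup.mem_top m) (Subgroup.mem_top w)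
      have h2 : m * w * m⁻¹ * w⁻¹ ∈ (P : Subgroup G) :=
        mul_mem ((Subgroup.mem_normalizer_iff.1 hm w).1 hw) (inv_mem hw)
      have h3 := eq_one_of_mem_normal_normalizer hP hC hd h1 (Subgroup.le_normalizer h2)
      rw [mul_inv_eq_one, mul_inv_eq_iff_eq_mul] at h3
      exact h3.symm
    · obtain ⟨h1, h2⟩ := quotient_selfcent hP hC hd D.u_mem (fun h => by
        have h3 := D.hup
        rw [h, orderOf_one] at h3
        exact hpf.out.one_lt.ne h3)
      have htop : Subgroup.zpowers ((D.u : G) : G ⧸ commutator G) = ⊤ := by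
        rw [← h2, eq_top_iff]
        intro q _
        rw [Subgroup.mem_centralizer_iff]
        intro y _
        induction q using QuotientGroup.induction_on with | _ a => ?_
        induction y using QuotientGroup.induction_on with | _ b => ?_
        exact mul_comm (G := Abelianization G) (Abelianization.of b) (Abelianization.of a)
      rw [Subgroup.index, ← Subgroup.card_top (G := G ⧸ commutator G), ← htop,
        Nat.card_zpowers, h1]

/-- When the derived subgroup contains `P`, a normal `p'`-subgroup lies in the second derived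
subgroup as well. -/
theorem le_second_derived (hS : ¬ p ∣ Nat.card S) (hd : p ∣ Nat.card (commutator G))
    (hSG : S ≤ commutator G) : S ≤ derivedSeries G 2 := by
  intro s hs
  obtain ⟨w, hw1⟩ : ∃ w : (P : Subgroup G), w ≠ 1 := by
    have : Nontrivial (P : Subgroup G) :=
      Finite.one_lt_card_iff_nontrivial.1 (lt_of_lt_of_eq hpf.out.one_lt hP.symm)
    exact exists_ne 1
  obtain ⟨r, hr, rfl⟩ := exists_eq_commutator hP hC hS w.2 (fun h => hw1 (Subtype.ext h)) hs
  have h1 := Subgroup.commutator_mem_commutator (hSG hr) (sylow_le_of_normal hP hd w.2)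
  rw [show derivedSeries G 2 = ⁅derivedSeries G 1, derivedSeries G 1⁆ from rfl,
    derivedSeries_one]
  exact h1

/-- A normal `p'`-subgroup lies in the derived subgroup. -/
theorem le_commutator_of_not_dvd (hS : ¬ p ∣ Nat.card S) : S ≤ commutator G := by
  intro s hs
  obtain ⟨w, hw1⟩ : ∃ w : (P : Subgroup G), w ≠ 1 := by
    have : Nontrivial (P : Subgroup G) :=
      Finite.one_lt_card_iff_nontrivial.1 (lt_of_lt_of_eq hpf.out.one_lt hP.symm)
    exact exists_ne 1
  obtain ⟨r, -, rfl⟩ := exists_eq_commutator hP hC hS w.2 (fun h => hw1 (Subtype.ext h)) hs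
  exact Subgroup.commutator_mem_commutator (Subgroup.mem_top _) (Subgroup.mem_top _)

omit hSn in
/-- The normal subgroup of order equal to the number of subgroups of order `p` when the second
derived subgroup is smaller than the first. -/
theorem second_derived_card (D : CycData P e)
    (he : (Subgroup.centralizer ((P : Subgroup G) : Set G)).relIndex
      (Subgroup.normalizer ((P : Subgroup G) : Set G)) = e)
    (hd : p ∣ Nat.card (commutator G)) (hne : derivedSeries G 2 ≠ derivedSeries G 1) :
    Nat.card (derivedSeries G 2) = Nat.card {H : Subgroup G // Nat.card H = p} ∧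
      Nat.card (commutator G) = p * Nat.card {H : Subgroup G // Nat.card H = p} := by
  set G2 := derivedSeries G 2
  have : G2.Normal := derivedSeries_normal G 2
  have hle : G2 ≤ commutator G := by
    rw [← derivedSeries_one]; exact derivedSeries_antitone G (by omega)
  have hp2 : ¬ p ∣ Nat.card G2 := fun h => hne (by
    rw [derivedSeries_one]
    exact le_antisymm hle (commutator_le_of_dvd hP hC h D))
  set N := Subgroup.normalizer ((P : Subgroup G) : Set G)
  have hu1 : D.u ≠ 1 := fun h => by
    have h3 := D.hup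
    rw [h, orderOf_one] at h3
    exact hpf.out.one_lt.ne h3
  have hPle : (P : Subgroup G) ≤ Subgroup.normalizer (G2 : Set G) := fun x _ => by
    rw [Subgroup.normalizer_eq_top_iff.2 inferInstance]; exact Subgroup.mem_top _
  have hdisj : (P : Subgroup G) ⊓ G2 = ⊥ := by
    rw [eq_bot_iff]
    intro x hx
    obtain ⟨h1, h2⟩ := Subgroup.mem_inf.1 hx
    exact eq_one_of_mem_normal_normalizer hP hC hp2 h2 (Subgroup.le_normalizer h1)
  have hG1 : commutator G = (P : Subgroup G) ⊔ G2 := by
    refine le_antisymm (fun g hg => ?_) (sup_le (sylow_le_of_normal hP hd) hle)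
    obtain ⟨-, h2⟩ := quotient_selfcent hP hC hp2 D.u_mem hu1
    have h3 : (g : G ⧸ G2) ∈ Subgroup.centralizer ({((D.u : G) : G ⧸ G2)} : Set (G ⧸ G2)) := by
      rw [Subgroup.mem_centralizer_iff]
      intro y hy
      rw [Set.mem_singleton_iff.1 hy, ← QuotientGroup.mk_mul, ← QuotientGroup.mk_mul,
        QuotientGroup.eq, show (D.u * g)⁻¹ * (g * D.u) = ⁅g⁻¹, D.u⁻¹⁆ by
          rw [commutatorElement_def]; group]
      rw [show G2 = ⁅derivedSeries G 1, derivedSeries G 1⁆ from rfl, derivedSeries_one]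
      exact Subgroup.commutator_mem_commutator (inv_mem hg)
        (inv_mem (sylow_le_of_normal hP hd D.u_mem))
    rw [h2] at h3
    obtain ⟨i, hi⟩ := h3
    have hi' : ((D.u ^ i : G) : G ⧸ G2) = (g : G ⧸ G2) := by rw [QuotientGroup.mk_zpow]; exact hi
    rw [QuotientGroup.eq] at hi'
    exact (CfsgLib.Core.mem_sup_iff_of_le_normalizer hPle).2
      ⟨D.u ^ i, zpow_mem D.u_mem i, _, hi', by group⟩
  have hcard1 : Nat.card (commutator G) = p * Nat.card G2 := by
    rw [hG1, CfsgLib.Core.card_sup_of_disjoint hPle hdisj, hP]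
  have hNle : N ≤ Subgroup.normalizer (commutator G : Set G) := fun x _ => by
    rw [Subgroup.normalizer_eq_top_iff.2 inferInstance]; exact Subgroup.mem_top _
  have hinf : N ⊓ commutator G = (P : Subgroup G) := by
    refine le_antisymm (fun x hx => ?_)
      (le_inf Subgroup.le_normalizer (sylow_le_of_normal hP hd))
    obtain ⟨h1, h2⟩ := Subgroup.mem_inf.1 hx
    rw [hG1] at h2
    obtain ⟨a, ha, s, hs, rfl⟩ := (CfsgLib.Core.mem_sup_iff_of_le_normalizer hPle).1 h2
    have hsN : s ∈ N := by
      have := mul_mem (inv_mem (Subgroup.le_normalizer ha)) h1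
      rw [inv_mul_cancel_left] at this
      exact this
    rw [eq_one_of_mem_normal_normalizer hP hC hp2 hs hsN, mul_one]
    exact ha
  have htop : N ⊔ commutator G = ⊤ :=
    Sylow.normalizer_sup_eq_top' P (sylow_le_of_normal hP hd)
  have h := CfsgLib.Core.card_sup_mul_card_inf hNle
  rw [htop, hinf, Subgroup.card_top, hP, hcard1, ← Subgroup.index_mul_card N,
    ← card_order_p_subgroups hP hC] at h
  have h2 : Nat.card G2 = Nat.card {H : Subgroup G // Nat.card H = p} := by
    have hNpos : 0 < Nat.card N := Nat.card_pos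
    exact Nat.eq_of_mul_eq_mul_left (Nat.mul_pos hNpos hpf.out.pos) (by linarith)
  exact ⟨h2, by rw [hcard1, h2]⟩

omit hSn in
/-- The order of the derived subgroup when `P` equals its own normalizer. -/
theorem commutator_card_of_index (D : CycData P e)
    (he : (Subgroup.centralizer ((P : Subgroup G) : Set G)).relIndex
      (Subgroup.normalizer ((P : Subgroup G) : Set G)) = e) (he1 : e = 1) :
    Nat.card (commutator G) = Nat.card {H : Subgroup G // Nat.card H = p} ∧
      (commutator G).index = p := by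
  obtain ⟨-, h, -⟩ | ⟨-, -, hidx⟩ := commutator_dichotomy hP hC D he
  · exact absurd he1 h
  refine ⟨?_, hidx⟩
  rw [card_order_p_subgroups hP hC]
  have hN := CycData.card_normalizer hP hC he
  rw [he1, mul_one] at hN
  have h := Subgroup.index_mul_card (commutator G)
  rw [hidx, ← Subgroup.index_mul_card (Subgroup.normalizer ((P : Subgroup G) : Set G)), hN,
    mul_comm p] at h
  exact Nat.eq_of_mul_eq_mul_right hpf.out.pos h

omit hSn in
set_option maxHeartbeats 800000 in
/-- Parity from an irreducible character of degree `p - 1`. -/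
theorem even_of_degree_pred (D : CycData P e)
    (he : (Subgroup.centralizer ((P : Subgroup G) : Set G)).relIndex
      (Subgroup.normalizer ((P : Subgroup G) : Set G)) = e)
    {t : ℕ} (hte : t * e = p - 1) (χ : IrrCharacter G)
    (hdeg : charDegree (χ : G → ℂ) + 1 = p) : Even t ∨ Even (commutator G).index := by
  rcases Nat.even_or_odd t with ht | ht
  · exact Or.inl ht
  right
  rcases hpf.out.eq_two_or_odd' with hp2 | hodd
  · obtain ⟨-, hne, -⟩ | ⟨-, -, hidx⟩ := commutator_dichotomy hP hC D he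
    · exfalso
      rw [hp2] at hte
      exact hne (Nat.eq_one_of_mul_eq_one_left hte)
    · rw [hidx, hp2]; exact even_two
  have heven : Even e := by
    have h1 : Even (t * e) := by rw [hte]; exact Nat.Odd.sub_odd hodd odd_one
    rcases Nat.even_mul.1 h1 with h | h
    · exact absurd h (Nat.not_even_iff_odd.2 ht)
    · exact h
  have he0 : e ≠ 0 := by
    intro h
    rw [h, mul_zero] at hte
    have := hpf.out.two_le
    omega
  have hχc : IsCharacter G (χ : G → ℂ) := χ.2.isCharacter'
  have hd1 : (χ : G → ℂ) 1 = ((p - 1 : ℕ) : ℂ) := by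
    rw [← charDegree_cast hχc]; congr 1; omega
  obtain ⟨ψ, hψp, hψ1⟩ := exists_zeta p
  obtain ⟨m, hm⟩ := D.exists_mult hψ1 χ
  set η : ZMod p → ℂ := fun b => ∑ c, (m c : ℂ) * ψ (c * b)
  have hη : ∀ b : ZMod p, (χ : G → ℂ) (D.u ^ b.val) = η b := hm
  have hmsum : ∑ c, m c = p - 1 := by
    have h := hη 0
    rw [ZMod.val_zero, pow_zero, hd1] at h
    simp only [η, mul_zero, AddChar.map_zero_eq_one, mul_one] at h
    exact_mod_cast h.symm
  have hval : ∀ b : ℕ, (χ : G → ℂ) (D.u ^ b) = η (b : ZMod p) := fun b => by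
    have h := pow_mod_orderOf D.u b
    rw [D.hup] at h
    rw [← hη, ZMod.val_natCast, h]
  have hinv : ∀ c : ZMod p, m ((D.r D.y : ZMod p) * c) = m c := by
    have h1 : (fun c => m ((((D.r D.y)⁻¹ : (ZMod p)ˣ) : ZMod p) * c)) = m := by
      refine sum_char_inj hψp fun b => ?_
      refine (Fintype.sum_equiv (Equiv.mulLeft₀ (((D.r D.y)⁻¹ : (ZMod p)ˣ) : ZMod p)
        (Units.ne_zero _)) (fun c => (m ((((D.r D.y)⁻¹ : (ZMod p)ˣ) : ZMod p) * c) : ℂ) *
          ψ (c * b)) (fun c => (m c : ℂ) * ψ (c * ((D.r D.y : ZMod p) * b))) fun c => ?_).trans ?_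
      · simp only [Equiv.mulLeft₀_apply]
        congr 2
        rw [mul_mul_mul_comm, Units.inv_mul, one_mul]
      · show η ((D.r D.y : ZMod p) * b) = η b
        have hy := D.hr D.y D.hy
        have h3 := congrArg (fun x => x ^ b.val) hy
        simp only [conj_pow, ← pow_mul] at h3
        have h4 := hval ((D.r D.y : ZMod p).val * b.val)
        rw [← h3, Nat.cast_mul, ZMod.natCast_zmod_val, ZMod.natCast_zmod_val] at h4
        rw [← h4, (isCharacter_classFunction hχc) _ D.y, hη]
    intro c
    have h2 := congrFun h1 ((D.r D.y : ZMod p) * c)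
    rw [Units.inv_mul_cancel_left] at h2
    exact h2.symm
  have hm0 : m 0 = 0 := by
    by_contra h0
    set R : G → ℂ := fun g =>
      if p ∣ orderOf g then (χ : G → ℂ) g * conj ((χ : G → ℂ) g) else 0
    have hRcl : IsClassFunction G R := fun g x => by
      have ho : orderOf (x * g * x⁻¹) = orderOf g := by
        simpa using orderOf_injective (MulAut.conj x).toMonoidHom (MulAut.conj x).injective g
      simp only [R, ho, isCharacter_classFunction hχc g x]
    have h := D.sum_singular hP hRcl fun g hg => if_neg hg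
    have hK : ∀ z : D.K, (z : G) = 1 := fun z => CycData.K_eq_one D hP hC z.2
    have hcK : Nat.card D.K = 1 := by
      rw [Subgroup.card_eq_one, eq_bot_iff]
      intro z hz
      exact CycData.K_eq_one D hP hC hz
    have hRv : ∀ b : (ZMod p)ˣ, R (D.u ^ (b : ZMod p).val) = η b * conj (η b) := fun b => by
      have hdiv : p ∣ orderOf (D.u ^ (b : ZMod p).val) := by
        rw [Nat.Coprime.orderOf_pow (by
          rw [D.hup]
          exact hpf.out.coprime_iff_not_dvd.2 fun h =>
            b.ne_zero ((ZMod.val_eq_zero _).1 (Nat.eq_zero_of_dvd_of_lt h (ZMod.val_lt _))))]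
        exact dvd_of_eq D.hup.symm
      simp only [R, if_pos hdiv, hη]
    simp only [hK, mul_one, hRv, Finset.sum_const, Finset.card_univ, ← Nat.card_eq_fintype_card,
      hcK, one_smul, Nat.cast_one, mul_one] at h
    set Sq := ∑ c, (m c : ℤ) * (m c : ℤ)
    have hb : ∑ b : (ZMod p)ˣ, η b * conj (η b) =
        (((p : ℝ) * (Sq : ℝ) - ((p - 1 : ℕ) : ℝ) * ((p - 1 : ℕ) : ℝ) : ℝ) : ℂ) := by
      have h1 := sum_char_mul hψp m 1
      simp only [Units.val_one, one_mul] at h1
      rw [← Finset.add_sum_erase _ _ (Finset.mem_univ (0 : ZMod p))] at h1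
      have h2 : ∑ x ∈ Finset.univ.erase (0 : ZMod p), η x * conj (η x) =
          ∑ b : (ZMod p)ˣ, η b * conj (η b) := by
        refine Finset.sum_bij' (fun x hx => Units.mk0 x (Finset.mem_erase.1 hx).1)
          (fun b _ => (b : ZMod p)) (fun _ _ => Finset.mem_univ _)
          (fun b _ => Finset.mem_erase.2 ⟨b.ne_zero, Finset.mem_univ _⟩) (fun _ _ => rfl)
          (fun b _ => Units.ext rfl) (fun _ _ => rfl)
      have h4 : ∑ c, (m c : ℂ) * (m c : ℂ) = ((Sq : ℝ) : ℂ) := by
        simp only [Sq]; push_cast; rfl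
      rw [h4] at h1
      rw [← h2]
      push_cast
      have hη0 : η 0 = ((p - 1 : ℕ) : ℂ) := by
        rw [← hη 0, ZMod.val_zero, pow_zero, hd1]
      push_cast at h1
      rw [← h1]
      show _ = η 0 * conj (η 0) + _ - _
      rw [hη0, Complex.conj_natCast]
      ring
    rw [hb] at h
    have hlt : ((∑ g, R g) / (Nat.card G : ℂ)).re < 1 := by
      have hself := CfsgLib.Char.inner_self_eq_norm_sq (χ : G → ℂ)
      rw [irr_inner_self χ.2] at hself
      have hR2 : ∀ g, (R g).re ≤ ‖(χ : G → ℂ) g‖ ^ 2 := fun g => by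
        simp only [R]
        split_ifs
        · rw [Complex.mul_conj']; norm_cast
        · simp
      have hlt' : ∑ g, (R g).re < ∑ g, ‖(χ : G → ℂ) g‖ ^ 2 := by
        refine Finset.sum_lt_sum (fun g _ => hR2 g) ⟨1, Finset.mem_univ _, ?_⟩
        simp only [R, orderOf_one, Nat.dvd_one, hpf.out.ne_one, if_false, Complex.zero_re, hd1,
          Complex.norm_natCast]
        have : 0 < p - 1 := by have := hpf.out.two_le; omega
        positivity
      rw [Complex.div_natCast_re, Complex.re_sum]
      have hG : (0 : ℝ) < Nat.card G := by exact_mod_cast Nat.card_pos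
      rw [div_lt_one hG]
      have h5 : (Nat.card G : ℝ) = ∑ g, ‖(χ : G → ℂ) g‖ ^ 2 := by
        have h6 := congrArg Complex.re hself
        rw [Complex.one_re, Complex.ofReal_re] at h6
        field_simp at h6
        linarith
      linarith
    rw [h] at hlt
    have he' : ((((p : ℝ) * (Sq : ℝ) - ((p - 1 : ℕ) : ℝ) * ((p - 1 : ℕ) : ℝ) : ℝ) : ℂ) /
        ((e : ℂ) * (p : ℂ))).re =
        ((p : ℝ) * (Sq : ℝ) - ((p - 1 : ℕ) : ℝ) * ((p - 1 : ℕ) : ℝ)) / ((e : ℝ) * p) := by
      rw [show ((e : ℂ) * (p : ℂ)) = (((e : ℝ) * (p : ℝ) : ℝ) : ℂ) by push_cast; rfl,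
        ← Complex.ofReal_div, Complex.ofReal_re]
    rw [he', div_lt_one (mul_pos (by exact_mod_cast Nat.pos_of_ne_zero he0)
      (by exact_mod_cast hpf.out.pos))] at hlt
    -- multiplicities are constant on orbits of size e
    have hdvd : e ∣ m 0 := by
      have hunit : ∀ c : (ZMod p)ˣ, ∀ x ∈ Subgroup.zpowers (D.r D.y),
          m ((x * c : (ZMod p)ˣ) : ZMod p) = m (c : ZMod p) := by
        intro c x hx
        rw [← mem_powers_iff_mem_zpowers, Submonoid.mem_powers_iff] at hx
        obtain ⟨i, rfl⟩ := hx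
        induction i with
        | zero => simp
        | succ i ih => rw [pow_succ', mul_assoc, Units.val_mul, hinv, ih]
      have hsplit : ∑ c, m c = m 0 + ∑ c : (ZMod p)ˣ, m (c : ZMod p) := by
        rw [← Finset.add_sum_erase _ _ (Finset.mem_univ (0 : ZMod p))]
        congr 1
        refine Finset.sum_bij' (fun x hx => Units.mk0 x (Finset.mem_erase.1 hx).1)
          (fun b _ => (b : ZMod p)) (fun _ _ => Finset.mem_univ _)
          (fun b _ => Finset.mem_erase.2 ⟨b.ne_zero, Finset.mem_univ _⟩) (fun _ _ => rfl)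
          (fun b _ => Units.ext rfl) (fun _ _ => rfl)
      have hfib : e ∣ ∑ c : (ZMod p)ˣ, m (c : ZMod p) := by
        rw [← Finset.sum_fiberwise Finset.univ
          (fun c : (ZMod p)ˣ => (c : (ZMod p)ˣ ⧸ Subgroup.zpowers (D.r D.y)))
          fun c : (ZMod p)ˣ => m (c : ZMod p)]
        refine Finset.dvd_sum fun q _ => ?_
        induction q using QuotientGroup.induction_on with | _ c => ?_
        have hall : ∀ x ∈ Finset.univ.filter (fun x : (ZMod p)ˣ =>
            (x : (ZMod p)ˣ ⧸ Subgroup.zpowers (D.r D.y)) = (c : (ZMod p)ˣ ⧸ _)),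
            m (x : ZMod p) = m (c : ZMod p) := by
          intro x hx
          have h1 := QuotientGroup.eq.1 (Finset.mem_filter.1 hx).2.symm
          have h2 := hunit c _ h1
          rwa [mul_comm c⁻¹, inv_mul_cancel_right] at h2
        rw [Finset.sum_congr rfl hall]
        rw [Finset.sum_const, smul_eq_mul]
        refine Dvd.dvd.mul_right (dvd_of_eq ?_) _
        have hcz := Nat.card_zpowers (D.r D.y)
        rw [D.hry] at hcz
        refine hcz.symm.trans ?_
        rw [← Fintype.card_subtype, ← Nat.card_eq_fintype_card]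
        exact Nat.card_congr
          { toFun := fun x => ⟨c * x.1, by
              rw [QuotientGroup.eq]
              simp⟩
            invFun := fun x => ⟨c⁻¹ * x.1, QuotientGroup.eq.1 x.2.symm⟩
            left_inv := fun x => Subtype.ext (inv_mul_cancel_left _ _)
            right_inv := fun x => Subtype.ext (mul_inv_cancel_left _ _) }
      have h1 : e ∣ m 0 + ∑ c : (ZMod p)ˣ, m (c : ZMod p) := by
        rw [← hsplit, hmsum, ← hte]; exact dvd_mul_left e t
      exact (Nat.dvd_add_left hfib).1 h1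
    obtain ⟨k, hk⟩ := hdvd
    have hk1 : 1 ≤ k := Nat.pos_of_ne_zero fun h => h0 (by rw [hk, h, mul_zero])
    -- compare with the sum of squares
    have hSq : (m 0 : ℤ) * (m 0 : ℤ) + (((p - 1 : ℕ) : ℤ) - (m 0 : ℤ)) ≤ Sq := by
      have h1 : ∑ c ∈ Finset.univ.erase (0 : ZMod p), (m c : ℤ) ≤
          ∑ c ∈ Finset.univ.erase (0 : ZMod p), (m c : ℤ) * (m c : ℤ) := by
        refine Finset.sum_le_sum fun c _ => ?_
        rcases Nat.eq_zero_or_pos (m c) with h | h
        · simp [h]
        · exact le_mul_of_one_le_right (by positivity) (by exact_mod_cast h)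
      have h2 : (m 0 : ℤ) + ∑ c ∈ Finset.univ.erase (0 : ZMod p), (m c : ℤ) =
          ((p - 1 : ℕ) : ℤ) := by
        rw [Finset.add_sum_erase _ (fun c => (m c : ℤ)) (Finset.mem_univ _)]
        exact_mod_cast hmsum
      simp only [Sq]
      rw [← Finset.add_sum_erase _ _ (Finset.mem_univ (0 : ZMod p))]
      linarith
    have hlt2 : (p : ℤ) * Sq - ((p - 1 : ℕ) : ℤ) * ((p - 1 : ℕ) : ℤ) < (e : ℤ) * p := by
      exact_mod_cast hlt
    have hp1 : ((p - 1 : ℕ) : ℤ) = (p : ℤ) - 1 := by
      rw [Nat.cast_sub hpf.out.one_le, Nat.cast_one]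
    rw [hp1] at hlt2 hSq
    have he2 : (2 : ℤ) ≤ e := by
      obtain ⟨r, hr⟩ := heven
      omega
    have hm0z : (e : ℤ) ≤ m 0 := by
      rw [hk]; push_cast; exact le_mul_of_one_le_right (by positivity) (by exact_mod_cast hk1)
    have hppos : (0 : ℤ) < p := by exact_mod_cast hpf.out.pos
    have h9 : (e : ℤ) * (e - 1) ≤ (m 0 : ℤ) * (m 0 - 1) :=
      mul_le_mul hm0z (by linarith) (by linarith) (by positivity)
    have h10 := mul_le_mul_of_nonneg_left hSq hppos.le
    have h11 := mul_le_mul_of_nonneg_left h9 hppos.le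
    have h12 : (1 : ℤ) ≤ ((e : ℤ) - 1) * ((e : ℤ) - 1) := by nlinarith
    have h13 := mul_le_mul_of_nonneg_left h12 hppos.le
    nlinarith
  -- the determinant of y
  obtain ⟨d, ρ, -, hρ⟩ := χ.2
  have hd : d = p - 1 := by
    have h := congrFun hρ 1
    rw [Representation.char_one, Module.finrank_fin_fun, hd1] at h
    exact_mod_cast h
  have hyzero : ∀ j : ℕ, ¬ e ∣ j → (χ : G → ℂ) (D.y ^ j) = 0 := by
    intro j hj
    have hsum0 : ∑ b : ZMod p, ρ (D.u ^ b.val) = 0 := by
      set π : Module.End ℂ (Fin d → ℂ) := (p : ℂ)⁻¹ • ∑ b : ZMod p, ρ (D.u ^ b.val)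
      have hp0 : (p : ℂ) ≠ 0 := Nat.cast_ne_zero.2 hpf.out.ne_zero
      have hadd : ∀ a b : ZMod p, D.u ^ (a + b).val = D.u ^ a.val * D.u ^ b.val := by
        intro a b
        have hm' := pow_mod_orderOf D.u (a.val + b.val)
        rw [D.hup] at hm'
        rw [ZMod.val_add, hm', pow_add]
      have hidem : IsIdempotentElem π := by
        have h1 : ∀ a : ZMod p, ρ (D.u ^ a.val) * ∑ b : ZMod p, ρ (D.u ^ b.val) =
            ∑ b : ZMod p, ρ (D.u ^ b.val) := by
          intro a
          rw [Finset.mul_sum]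
          refine Fintype.sum_equiv (Equiv.addLeft a) _ _ fun b => ?_
          rw [Equiv.coe_addLeft, hadd, map_mul]
        show π * π = π
        simp only [π, smul_mul_smul_comm, Finset.sum_mul, h1, Finset.sum_const, Finset.card_univ,
          ZMod.card, ← Nat.cast_smul_eq_nsmul ℂ, smul_smul]
        congr 1
        field_simp
      have htr : LinearMap.trace ℂ _ π = 0 := by
        simp only [π, map_smul, map_sum]
        have h1 : ∀ b : ZMod p, LinearMap.trace ℂ (Fin d → ℂ) (ρ (D.u ^ b.val)) = η b :=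
          fun b => by rw [← hη, ← hρ]; rfl
        simp only [h1, η]
        rw [Finset.sum_comm]
        have h2 : ∀ x : ZMod p, ∑ i : ZMod p, ψ (x * i) = if x = 0 then (p : ℂ) else 0 := by
          intro x
          simp_rw [mul_comm x]
          rw [AddChar.sum_mulShift _ hψp, ZMod.card]
          split_ifs <;> simp
        simp [← Finset.mul_sum, h2, hm0]
      have hπ0 : π = 0 := LinearMap.range_eq_bot.1 (Submodule.finrank_eq_zero.1 (by
        have h2 := LinearMap.IsProj.trace (LinearMap.IsIdempotentElem.isProj_range π hidem)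
        rw [htr] at h2
        exact_mod_cast h2.symm))
      have h3 := congrArg (fun f => (p : ℂ) • f) hπ0
      simpa [π, smul_smul, hp0] using h3
    have hconj : ∀ b : ZMod p, (χ : G → ℂ) (D.u ^ b.val * D.y ^ j) = (χ : G → ℂ) (D.y ^ j) := by
      intro b
      have hyj : D.y ^ j ∈ Subgroup.normalizer ((P : Subgroup G) : Set G) := pow_mem D.hy j
      set s : (ZMod p)ˣ := D.r (D.y ^ j)
      have hs : (1 : ZMod p) - (s : ZMod p) ≠ 0 := by
        intro h0
        have h1 : s = 1 := Units.ext (sub_eq_zero.1 h0).symm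
        have h2 := CycData.eq_one_of_regular hP hC ((D.hrC _ hyj).1 h1)
          fun h => D.hyp (h.trans (orderOf_pow_dvd j))
        refine hj ?_
        rw [← D.hry]
        let F : Subgroup.normalizer ((P : Subgroup G) : Set G) →* (ZMod p)ˣ :=
          { toFun := fun x => D.r x
            map_one' := (D.hrC 1 (one_mem _)).2 (one_mem _)
            map_mul' := fun x y => D.hrmul _ x.2 _ y.2 }
        have h4 : F (⟨D.y, D.hy⟩ ^ j) = F ⟨D.y, D.hy⟩ ^ j := map_pow F _ _
        have h5 : D.r (D.y ^ j) = D.r D.y ^ j := h4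
        exact orderOf_dvd_iff_pow_eq_one.2 (h5.symm.trans h1)
      set k : ZMod p := b * (1 - (s : ZMod p))⁻¹
      have hpw : ∀ i : ℕ, D.u ^ i = D.u ^ (i : ZMod p).val := fun i => by
        have h := pow_mod_orderOf D.u i
        rw [D.hup] at h
        rw [ZMod.val_natCast, h]
      have h1 : D.y ^ j * D.u ^ (-k).val * (D.y ^ j)⁻¹ = D.u ^ ((s : ZMod p) * -k).val := by
        rw [← conj_pow, D.hr _ hyj, ← pow_mul, hpw]
        push_cast [ZMod.natCast_zmod_val]
        rfl
      have h2 : D.u ^ k.val * D.y ^ j * (D.u ^ k.val)⁻¹ = D.u ^ b.val * D.y ^ j := by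
        have hinvk : (D.u ^ k.val)⁻¹ = D.u ^ (-k).val := by
          rw [inv_eq_iff_mul_eq_one, ← pow_add, hpw]
          simp
        rw [hinvk, show D.u ^ k.val * D.y ^ j * D.u ^ (-k).val =
          D.u ^ k.val * (D.y ^ j * D.u ^ (-k).val * (D.y ^ j)⁻¹) * D.y ^ j by group, h1,
          ← pow_add, hpw]
        congr 2
        push_cast [ZMod.natCast_zmod_val]
        have : k * (1 - (s : ZMod p)) = b := by
          simp only [k]; rw [mul_assoc, inv_mul_cancel₀ hs, mul_one]
        rw [← this]; ring_nf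
      rw [← h2]
      exact isCharacter_classFunction hχc _ _
    have h1 : ∑ b : ZMod p, (χ : G → ℂ) (D.u ^ b.val * D.y ^ j) = 0 := by
      rw [← hρ]
      show ∑ b : ZMod p, LinearMap.trace ℂ _ (ρ (D.u ^ b.val * D.y ^ j)) = 0
      simp only [map_mul]
      rw [← map_sum, ← Finset.sum_mul, hsum0, zero_mul, map_zero]
    simp only [hconj, Finset.sum_const, Finset.card_univ, ZMod.card, nsmul_eq_mul] at h1
    exact (mul_eq_zero.1 h1).resolve_left (Nat.cast_ne_zero.2 hpf.out.ne_zero)
  have hye := CycData.pow_y_eq_one D hP hC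
  obtain ⟨bas, μ, hμb, hμ, hchar⟩ := exists_rep_eigenbasis (ρ := ρ) D.y
  have hμe : ∀ i, μ i ^ e = 1 := fun i => by
    obtain ⟨q, hq⟩ := orderOf_dvd_of_pow_eq_one hye
    rw [hq, pow_mul, hμ, one_pow]
  obtain ⟨ζ, hζ⟩ : ∃ ζ : ℂ, IsPrimitiveRoot ζ e := ⟨_, Complex.isPrimitiveRoot_exp e he0⟩
  have hex : ∀ i, ∃ c : Fin e, μ i = ζ ^ (c : ℕ) := fun i => by
    haveI : NeZero e := ⟨he0⟩
    obtain ⟨c, hc, hcμ⟩ := hζ.eq_pow_of_pow_eq_one (hμe i)
    exact ⟨⟨c, hc⟩, hcμ.symm⟩
  choose c hc using hex
  have hcount : ∀ a : Fin e, (Finset.univ.filter fun i => c i = a).card = t := by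
    intro a
    have hchar' : ∀ k : ℕ, (χ : G → ℂ) (D.y ^ k) = ∑ i, μ i ^ k := fun k => by
      rw [← hρ]; exact hchar k
    have h1 : ∑ k ∈ Finset.range e, (χ : G → ℂ) (D.y ^ k) * (ζ ^ (a : ℕ))⁻¹ ^ k =
        ((p - 1 : ℕ) : ℂ) := by
      rw [Finset.sum_eq_single 0]
      · simp [hd1]
      · intro k hk hk0
        rw [hyzero k (fun h => hk0 (Nat.eq_zero_of_dvd_of_lt h (Finset.mem_range.1 hk))),
          zero_mul]
      · intro h; exact absurd (Finset.mem_range.2 (Nat.pos_of_ne_zero he0)) h
    have h2 : ∑ k ∈ Finset.range e, (χ : G → ℂ) (D.y ^ k) * (ζ ^ (a : ℕ))⁻¹ ^ k =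
        (e : ℂ) * ((Finset.univ.filter fun i => c i = a).card : ℂ) := by
      simp only [hchar', Finset.sum_mul]
      rw [Finset.sum_comm]
      have h3 : ∀ i, ∑ k ∈ Finset.range e, μ i ^ k * (ζ ^ (a : ℕ))⁻¹ ^ k =
          if c i = a then (e : ℂ) else 0 := by
        intro i
        simp only [← mul_pow]
        split_ifs with h
        · rw [hc i, h, mul_inv_cancel₀ (pow_ne_zero _ (hζ.ne_zero he0))]
          simp
        · have hne : μ i * (ζ ^ (a : ℕ))⁻¹ ≠ 1 := by
            intro h5
            rw [mul_inv_eq_one₀ (pow_ne_zero _ (hζ.ne_zero he0)), hc i] at h5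
            exact h (Fin.ext (hζ.pow_inj (c i).2 a.2 h5))
          rw [geom_sum_eq hne, mul_pow, hμe, inv_pow, ← pow_mul, mul_comm (a : ℕ), pow_mul,
            hζ.pow_eq_one, one_pow, inv_one, mul_one, sub_self, zero_div]
      simp only [h3, Finset.sum_ite, Finset.sum_const_zero, add_zero, Finset.sum_const,
        nsmul_eq_mul]
      ring
    rw [h1, ← hte, Nat.cast_mul, mul_comm (t : ℂ)] at h2
    exact_mod_cast (mul_left_cancel₀ (Nat.cast_ne_zero.2 he0) h2).symm
  have hprod : ∏ i, μ i = -1 := by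
    rw [Finset.prod_congr rfl fun i _ => hc i, ← Finset.prod_fiberwise Finset.univ c
      (fun i => ζ ^ (c i : ℕ))]
    rw [Finset.prod_congr rfl fun a _ => show ∏ i ∈ Finset.univ.filter (fun i => c i = a),
      ζ ^ (c i : ℕ) = (ζ ^ (a : ℕ)) ^ t by
        rw [Finset.prod_congr rfl fun i hi => by rw [(Finset.mem_filter.1 hi).2],
          Finset.prod_const, hcount]]
    rw [Finset.prod_pow, Finset.prod_pow_eq_pow_sum, ← pow_mul]
    obtain ⟨r, hr⟩ := heven
    have hsum : (∑ a : Fin e, (a : ℕ)) = r * (e - 1) := by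
      rw [Fin.sum_univ_eq_sum_range (fun a => a) e]
      have h := Finset.sum_range_id_mul_two e
      rw [hr] at h ⊢
      have : (r + r) * (r + r - 1) = r * (r + r - 1) * 2 := by ring
      omega
    have hhalf : ζ ^ r = -1 := by
      have h1 : (ζ ^ r) ^ 2 = 1 := by
        rw [← pow_mul, show r * 2 = e by omega, hζ.pow_eq_one]
      rcases sq_eq_one_iff.1 h1 with h | h
      · exfalso
        have := (hζ.pow_eq_one_iff_dvd r).1 h
        have := Nat.le_of_dvd (by omega) this
        omega
      · exact h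
    rw [hsum, mul_assoc, pow_mul, hhalf]
    refine Odd.neg_one_pow (Nat.odd_mul.2 ⟨?_, ht⟩)
    exact ⟨r - 1, by omega⟩
  let det : G →* ℂˣ :=
    (Units.map (LinearMap.det : Module.End ℂ (Fin d → ℂ) →* ℂ)).comp ρ.toHomUnits
  have hdet : (det D.y : ℂ) = -1 := by
    show LinearMap.det (ρ D.y) = -1
    rw [← LinearMap.det_toMatrix bas]
    have hM : LinearMap.toMatrix bas bas (ρ D.y) = Matrix.diagonal μ := by
      ext i j
      rw [LinearMap.toMatrix_apply, hμb, map_smul, Finsupp.smul_apply, bas.repr_self,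
        Matrix.diagonal_apply, Finsupp.single_apply]
      by_cases h : i = j
      · subst h; simp
      · simp [h, Ne.symm h]
    rw [hM, Matrix.det_diagonal, hprod]
  have hker : commutator G ≤ det.ker := Abelianization.commutator_subset_ker det
  set q : G ⧸ commutator G →* ℂˣ := QuotientGroup.lift _ det hker
  have hqo : orderOf (det D.y) = 2 := by
    refine orderOf_eq_prime ?_ ?_
    · ext; rw [Units.val_pow_eq_pow_val, hdet]; norm_num
    · intro h
      rw [h, Units.val_one] at hdet
      norm_num at hdet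
  refine even_iff_two_dvd.2 ?_
  rw [← hqo, show det D.y = q (D.y : G ⧸ commutator G) from rfl, Subgroup.index]
  exact (orderOf_map_dvd q _).trans (orderOf_dvd_natCard _)

end SelfCent

end CfsgLib.Block

namespace CfsgLib.Block

open Cfsg CfsgLib.Char

/-- The data attached to a self-centralizing element of prime order. -/
theorem selfcent_setup {G : Type u} [Group G] [Fintype G] {p : ℕ} [Fact p.Prime] {x : G}
    (hx : orderOf x = p) (hC : Subgroup.centralizer ({x} : Set G) = Subgroup.zpowers x) :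
    ∃ (P : Sylow p G) (e : ℕ), (P : Subgroup G) = Subgroup.zpowers x ∧ Nat.card P = p ∧
      Subgroup.centralizer ((P : Subgroup G) : Set G) = (P : Subgroup G) ∧
      (Subgroup.centralizer ((P : Subgroup G) : Set G)).relIndex
        (Subgroup.normalizer ((P : Subgroup G) : Set G)) = e ∧ Nonempty (CycData P e) ∧ 0 < e ∧
      Nat.card {C : ConjClasses G // ∃ g ∈ C.carrier, orderOf g = p} * e = p - 1 := by
  obtain ⟨P, hPx, hP, hCP⟩ := exists_sylow_selfcent hx hC
  obtain ⟨e, he⟩ : ∃ e, (Subgroup.centralizer ((P : Subgroup G) : Set G)).relIndex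
      (Subgroup.normalizer ((P : Subgroup G) : Set G)) = e := ⟨_, rfl⟩
  obtain ⟨D⟩ := exists_cycData P hP he
  have h := CycData.card_classes_mul D hP hCP
  refine ⟨P, e, hPx, hP, hCP, he, ⟨D⟩, ?_, h⟩
  rcases Nat.eq_zero_or_pos e with h0 | h0
  · rw [h0, mul_zero] at h
    have := (Fact.out : p.Prime).two_le
    omega
  · exact h0

end CfsgLib.Block
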