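import Mathlib

/-!
# The presentation of the alternating group on five letters by generators of orders 3 and 5
-/

set_option autoImplicit false
set_option linter.style.haveILetI false

namespace CfsgLib.AltFivePres

/-- Twelve cosets suffice. -/
theorem card_le_sixty {H : Type*} [Group H] (a b : H) (ha : a ^ 3 = 1) (hb : b ^ 5 = 1)
    (hab : (a * b) ^ 2 = 1) (hgen : Subgroup.closure {a, b} = ⊤) :
    Finite H ∧ Nat.card H ≤ 60 := by
  classical
  set K := Subgroup.zpowers b with hK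
  have h3 : ∀ x : H ⧸ K, a • a • a • x = x := fun x => by
    rw [← mul_smul, ← mul_smul, ← pow_three', ha, one_smul]
  have h5 : ∀ x : H ⧸ K, b • b • b • b • b • x = x := fun x => by
    rw [← mul_smul, ← mul_smul, ← mul_smul, ← mul_smul,
      show b * b * b * b * b = b ^ 5 by simp [pow_succ], hb, one_smul]
  have h2 : ∀ x : H ⧸ K, a • b • a • b • x = x := fun x => by
    rw [← mul_smul, ← mul_smul, ← mul_smul, show a * b * a * b = (a * b) ^ 2 by rw [sq]; group,
      hab, one_smul]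
  -- `a b x = b⁻¹ a⁻¹ x`
  have hswap : ∀ x : H ⧸ K, a • b • x = b • b • b • b • a • a • x := fun x => by
    have h := h2 (b • b • b • b • a • a • x)
    rw [h5, h3] at h
    exact h
  have hinv : ∀ x : H ⧸ K, a • a • x = b • a • b • x := fun x => by
    conv_lhs => rw [← h2 x]
    rw [h3]
  obtain ⟨p, hp⟩ : ∃ p : H ⧸ K, p = ((1 : H) : H ⧸ K) := ⟨_, rfl⟩
  have bp : b • p = p := by
    rw [hp, MulAction.Quotient.smul_coe, smul_eq_mul, mul_one, QuotientGroup.eq, mul_one]
    exact K.inv_mem (Subgroup.mem_zpowers b)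
  obtain ⟨q0, hq0⟩ : ∃ q, q = a • p := ⟨_, rfl⟩
  obtain ⟨q1, hq1⟩ : ∃ q, q = a • q0 := ⟨_, rfl⟩
  obtain ⟨q2, hq2⟩ : ∃ q, q = b • q1 := ⟨_, rfl⟩
  obtain ⟨q3, hq3⟩ : ∃ q, q = b • q2 := ⟨_, rfl⟩
  obtain ⟨q4, hq4⟩ : ∃ q, q = b • q3 := ⟨_, rfl⟩
  obtain ⟨s0, hs0⟩ : ∃ q, q = a • q4 := ⟨_, rfl⟩
  obtain ⟨s1, hs1⟩ : ∃ q, q = b • s0 := ⟨_, rfl⟩
  obtain ⟨s2, hs2⟩ : ∃ q, q = b • s1 := ⟨_, rfl⟩
  obtain ⟨s3, hs3⟩ : ∃ q, q = b • s2 := ⟨_, rfl⟩
  obtain ⟨s4, hs4⟩ : ∃ q, q = b • s3 := ⟨_, rfl⟩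
  obtain ⟨t, ht⟩ : ∃ q, q = a • s3 := ⟨_, rfl⟩
  have aq1 : a • q1 = p := by rw [hq1, hq0, h3]
  have bq0 : b • q0 = q1 := by
    have h := h2 p
    rw [bp, ← hq0] at h
    have h' := congrArg (fun x => a • a • x) h
    simp only [h3] at h'
    rw [h', ← hq0, hq1]
  have bq4 : b • q4 = q0 := by rw [hq4, hq3, hq2, ← bq0, h5]
  have bs4 : b • s4 = s0 := by rw [hs4, hs3, hs2, hs1, h5]
  have aq2 : a • q2 = q4 := by
    rw [hq2, hswap, aq1, ← hq0, bq0, ← hq2, ← hq3, ← hq4]
  have aq4 : a • q4 = s0 := hs0.symm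
  have as0 : a • s0 = q2 := by rw [← aq4, ← aq2, h3]
  have aq3 : a • q3 = s4 := by
    rw [hq3, hswap, aq2, aq4, ← hs1, ← hs2, ← hs3, ← hs4]
  have as4 : a • s4 = s1 := by
    rw [← aq3, hinv, ← hq4, aq4, ← hs1]
  have as1 : a • s1 = q3 := by rw [← as4, ← aq3, h3]
  have as2 : a • s2 = s3 := by
    rw [hs2, hswap, as1, aq3, bs4, ← hs1, ← hs2, ← hs3]
  have as3 : a • s3 = t := ht.symm
  have at' : a • t = s2 := by rw [← as3, ← as2, h3]
  have bt : b • t = t := by
    have h := hinv s2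
    rw [as2, as3, ← hs3, as3] at h
    exact h.symm
  set S : Finset (H ⧸ K) := {p, q0, q1, q2, q3, q4, s0, s1, s2, s3, s4, t} with hS
  have hSa : ∀ x ∈ S, a • x ∈ S := by
    intro x hx
    simp only [hS, Finset.mem_insert, Finset.mem_singleton] at hx ⊢
    rcases hx with rfl | rfl | rfl | rfl | rfl | rfl | rfl | rfl | rfl | rfl | rfl | rfl
    · simp [← hq0]
    · simp [← hq1]
    · simp [aq1]
    · simp [aq2]
    · simp [aq3]
    · simp [aq4]
    · simp [as0]
    · simp [as1]
    · simp [as2]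
    · simp [as3]
    · simp [as4]
    · simp [at']
  have hSb : ∀ x ∈ S, b • x ∈ S := by
    intro x hx
    simp only [hS, Finset.mem_insert, Finset.mem_singleton] at hx ⊢
    rcases hx with rfl | rfl | rfl | rfl | rfl | rfl | rfl | rfl | rfl | rfl | rfl | rfl
    · simp [bp]
    · simp [bq0]
    · simp [← hq2]
    · simp [← hq3]
    · simp [← hq4]
    · simp [bq4]
    · simp [← hs1]
    · simp [← hs2]
    · simp [← hs3]
    · simp [← hs4]
    · simp [bs4]
    · simp [bt]
  have hainv : a⁻¹ = a * a := inv_eq_of_mul_eq_one_right (by rw [← mul_assoc, ← pow_three', ha])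
  have hbinv : b⁻¹ = b * b * b * b :=
    inv_eq_of_mul_eq_one_right (by rw [show b * (b * b * b * b) = b ^ 5 by simp [pow_succ, mul_assoc], hb])
  have hall : ∀ g : H, ∀ x ∈ S, g • x ∈ S := by
    intro g
    have hg : g ∈ Subgroup.closure {a, b} := hgen ▸ Subgroup.mem_top g
    induction hg using Subgroup.closure_induction'' with
    | mem y hy =>
      rcases hy with rfl | rfl
      exacts [hSa, hSb]
    | inv_mem y hy =>
      intro x hx
      rcases hy with rfl | rfl
      · rw [hainv, mul_smul]; exact hSa _ (hSa x hx)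
      · rw [hbinv, mul_smul, mul_smul, mul_smul]; exact hSb _ (hSb _ (hSb _ (hSb x hx)))
    | one => simp
    | mul y z _ _ hy hz => intro x hx; rw [mul_smul]; exact hy _ (hz x hx)
  have huniv : ∀ x : H ⧸ K, x ∈ S := fun x => by
    induction x using QuotientGroup.induction_on with
    | H g =>
      have := hall g p (by simp [hS])
      rwa [hp, MulAction.Quotient.smul_coe, smul_eq_mul, mul_one] at this
  haveI : Finite (H ⧸ K) :=
    Finite.of_injective (fun x => (⟨x, huniv x⟩ : S)) (fun x y e => congrArg Subtype.val e)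
  have hfo : IsOfFinOrder b := isOfFinOrder_iff_pow_eq_one.mpr ⟨5, by norm_num, hb⟩
  haveI : Finite K := hfo.finite_zpowers
  haveI : Finite H := Finite.of_subgroup_quotient K
  refine ⟨inferInstance, ?_⟩
  rw [Subgroup.card_eq_card_quotient_mul_card_subgroup K]
  have h12 : Nat.card (H ⧸ K) ≤ 12 := by
    refine le_trans (Nat.card_le_card_of_injective (fun x => (⟨x, huniv x⟩ : S))
      (fun x y e => congrArg Subtype.val e)) ?_
    rw [Nat.card_eq_fintype_card, Fintype.card_coe,
      show S = ([p, q0, q1, q2, q3, q4, s0, s1, s2, s3, s4, t] : List (H ⧸ K)).toFinset by simp [hS]]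
    exact List.toFinset_card_le _
  have hK5 : Nat.card K ≤ 5 := by
    rw [Nat.card_zpowers]
    exact Nat.le_of_dvd (by norm_num) (orderOf_dvd_of_pow_eq_one hb)
  calc _ ≤ 12 * 5 := Nat.mul_le_mul h12 hK5
    _ = 60 := by norm_num

/-- The image of the generator of order three. -/
def permA : Equiv.Perm (Fin 5) := Equiv.swap 0 1 * Equiv.swap 2 3 * (finRotate 5)⁻¹

theorem presentation :
    Nonempty (PresentedGroup ({FreeGroup.of (0 : Fin 2) ^ 3, FreeGroup.of (1 : Fin 2) ^ 5,
      (FreeGroup.of (0 : Fin 2) * FreeGroup.of 1) ^ 2} : Set (FreeGroup (Fin 2))) ≃*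
      alternatingGroup (Fin 5)) := by
  set rels : Set (FreeGroup (Fin 2)) := {FreeGroup.of (0 : Fin 2) ^ 3, FreeGroup.of (1 : Fin 2) ^ 5,
      (FreeGroup.of (0 : Fin 2) * FreeGroup.of 1) ^ 2} with hrels
  let A : alternatingGroup (Fin 5) := ⟨permA, Equiv.Perm.mem_alternatingGroup.mpr (by decide)⟩
  let B : alternatingGroup (Fin 5) := ⟨finRotate 5, Equiv.Perm.mem_alternatingGroup.mpr (by decide)⟩
  have hA : A ^ 3 = 1 := Subtype.ext (by rw [SubgroupClass.coe_pow]; decide)
  have hB : B ^ 5 = 1 := Subtype.ext (by rw [SubgroupClass.coe_pow]; decide)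
  have hAB : (A * B) ^ 2 = 1 := Subtype.ext (by rw [SubgroupClass.coe_pow]; decide)
  have hf : ∀ r ∈ rels, FreeGroup.lift ![A, B] r = 1 := by
    intro r hr
    simp only [hrels, Set.mem_insert_iff, Set.mem_singleton_iff] at hr
    rcases hr with rfl | rfl | rfl <;> simp [hA, hB, hAB]
  let φ := PresentedGroup.toGroup hf
  let a : PresentedGroup rels := PresentedGroup.of 0
  let b : PresentedGroup rels := PresentedGroup.of 1
  have ha : a ^ 3 = 1 := PresentedGroup.one_of_mem (by simp [hrels] :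
    FreeGroup.of (0 : Fin 2) ^ 3 ∈ rels)
  have hb : b ^ 5 = 1 := PresentedGroup.one_of_mem (by simp [hrels] :
    FreeGroup.of (1 : Fin 2) ^ 5 ∈ rels)
  have hab : (a * b) ^ 2 = 1 := PresentedGroup.one_of_mem (by simp [hrels] :
    (FreeGroup.of (0 : Fin 2) * FreeGroup.of 1) ^ 2 ∈ rels)
  obtain ⟨hfin, hcard⟩ := card_le_sixty a b ha hb hab (by
    rw [eq_top_iff, ← PresentedGroup.closure_range_of rels]
    refine Subgroup.closure_mono ?_
    rintro _ ⟨i, rfl⟩
    fin_cases i
    · exact Or.inl rfl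
    · exact Or.inr rfl)
  haveI := hfin
  have h60 : Nat.card (alternatingGroup (Fin 5)) = 60 := by
    have h := two_mul_card_alternatingGroup (α := Fin 5)
    rw [Fintype.card_perm, Fintype.card_fin, show Nat.factorial 5 = 120 from rfl] at h
    rw [Nat.card_eq_fintype_card]
    omega
  have hsurj : Function.Surjective φ := by
    rw [← MonoidHom.range_eq_top]
    have hin : ∀ y, φ y ∈ φ.range := fun y => ⟨y, rfl⟩
    have hφA : φ a = A := PresentedGroup.toGroup.of hf
    have hφB : φ b = B := PresentedGroup.toGroup.of hf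
    have hdvd : ∀ (g : alternatingGroup (Fin 5)) (k : ℕ), k.Prime → g ∈ φ.range → g ^ k = 1 →
        g ≠ 1 → k ∣ Nat.card φ.range := by
      intro g k hk hg hgk hg1
      haveI := Fact.mk hk
      rw [← orderOf_eq_prime hgk hg1, ← Subgroup.orderOf_mk g hg]
      exact orderOf_dvd_natCard _
    have h3 := hdvd A 3 (by norm_num) (hφA ▸ hin a) hA (by decide)
    have h5 := hdvd B 5 (by norm_num) (hφB ▸ hin b) hB (by decide)
    have h2 := hdvd (A * B) 2 (by norm_num)
      (Subgroup.mul_mem _ (hφA ▸ hin a) (hφB ▸ hin b)) hAB (by decide)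
    have h30 : 30 ∣ Nat.card φ.range :=
      Nat.Coprime.mul_dvd_of_dvd_of_dvd (by norm_num : Nat.Coprime 6 5)
        (Nat.Coprime.mul_dvd_of_dvd_of_dvd (by norm_num : Nat.Coprime 2 3) h2 h3) h5
    obtain ⟨k, hk⟩ := h30
    have hmul := φ.range.card_mul_index
    rw [hk, h60] at hmul
    have hkk : k * φ.range.index = 2 := by rw [mul_assoc] at hmul; omega
    have hidx : φ.range.index = 1 ∨ φ.range.index = 2 :=
      (Nat.dvd_prime Nat.prime_two).mp ⟨k, by rw [mul_comm, hkk]⟩
    rcases hidx with h | h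
    · exact Subgroup.index_eq_one.mp h
    · exfalso
      haveI := Subgroup.normal_of_index_eq_two h
      rcases IsSimpleGroup.eq_bot_or_eq_top_of_normal φ.range inferInstance with e | e
      · rw [e, Subgroup.card_bot] at hk
        omega
      · rw [e, Subgroup.index_top] at h
        omega
  exact ⟨MulEquiv.ofBijective φ (hsurj.bijective_of_nat_card_le (by rw [h60]; exact hcard))⟩

end CfsgLib.AltFivePres
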