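import Mathlib

/-!
# Central extensions of alternating groups with kernel in the derived subgroup

Carmichael's presentation of the alternating group bounds the kernel by two.
-/

set_option autoImplicit false
set_option linter.unusedSectionVars false
set_option linter.style.haveILetI false

namespace CfsgLib.AltMult

open scoped commutatorElement Nat

section Presentation

variable {H : Type*} [Group H] [Finite H]

/-- Carmichael's relations bound the order of the generated subgroup. -/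
theorem card_closure_le : ∀ (m : ℕ) (y : Fin (m + 1) → H), (∀ i, y i ^ 3 = 1) →
    (∀ i j, i ≠ j → (y i * y j) ^ 2 = 1) →
    2 * Nat.card (Subgroup.closure (Set.range y)) ≤ (m + 3)!
  | 0, y, h3, _ => by
    have h : Subgroup.closure (Set.range y) = Subgroup.zpowers (y 0) := by
      rw [Subgroup.zpowers_eq_closure]
      congr 1
      ext x
      exact ⟨fun ⟨i, hi⟩ => hi.symm.trans (congrArg y (Fin.ext (by omega))), fun hx => ⟨0, hx.symm⟩⟩
    rw [h, Nat.card_zpowers]
    have := Nat.le_of_dvd (by norm_num) (orderOf_dvd_of_pow_eq_one (h3 0))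
    rw [show (0 + 3)! = 6 from rfl]
    omega
  | m + 1, y, h3, h2 => by
    classical
    set y' : Fin (m + 1) → H := fun i => y i.castSucc with hy'
    have ih := card_closure_le m y' (fun i => h3 _)
      (fun i j hij => h2 _ _ fun e => hij (Fin.castSucc_injective _ e))
    set K := Subgroup.closure (Set.range y') with hK
    set Y := y (Fin.last (m + 1)) with hY
    have hyK : ∀ i, y' i ∈ K := fun i => Subgroup.subset_closure ⟨i, rfl⟩
    have swapRel : ∀ a b : H, a ^ 3 = 1 → b ^ 3 = 1 → (a * b) ^ 2 = 1 → a * b = b * b * (a * a) := by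
      intro a b ha hb hab
      have e1 : b * b = b⁻¹ := eq_inv_of_mul_eq_one_left (by rw [← hb, pow_succ, sq])
      have e2 : a * a = a⁻¹ := eq_inv_of_mul_eq_one_left (by rw [← ha, pow_succ, sq])
      rw [e1, e2, ← mul_inv_rev]
      exact eq_inv_of_mul_eq_one_left (by rw [← hab, sq])
    let rep : Option (Option (Option (Fin (m + 1)))) → H
      | none => 1
      | some none => Y
      | some (some none) => Y * Y
      | some (some (some i)) => Y * Y * y' i
    obtain ⟨S, hS⟩ : ∃ S : Set H, S = {x | ∃ k ∈ K, ∃ r, x = k * rep r} := ⟨_, rfl⟩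
    have hY3 : Y * Y * Y = 1 := by rw [← h3 (Fin.last (m + 1)), hY, pow_succ, sq]
    have hstep : ∀ x ∈ S, ∀ j, x * y j ∈ S := by
      rw [hS]
      rintro x ⟨k, hk, r, rfl⟩ j
      have hne : ∀ i : Fin (m + 1), (i.castSucc : Fin (m + 2)) ≠ Fin.last (m + 1) := fun i =>
        (Fin.castSucc_lt_last i).ne
      induction j using Fin.lastCases with
      | last =>
        match r with
        | none => exact ⟨k, hk, some none, by simp [rep, hY]⟩
        | some none => exact ⟨k, hk, some (some none), by simp [rep, hY, mul_assoc]⟩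
        | some (some none) => exact ⟨k, hk, none, by simp only [rep, mul_one, mul_assoc]; rw [← hY, ← mul_assoc Y, hY3, mul_one]⟩
        | some (some (some i)) =>
          refine ⟨k * (y' i * y' i), K.mul_mem hk (K.mul_mem (hyK i) (hyK i)), some (some (some i)), ?_⟩
          simp only [rep, mul_assoc]
          congr 1
          have e1 := swapRel (y' i) Y (h3 _) (h3 _) (h2 _ _ (hne i))
          have e2 := swapRel Y (y' i) (h3 _) (h3 _) (h2 _ _ (hne i).symm)
          calc Y * (Y * (y' i * Y)) = Y * (Y * (Y * Y * (y' i * y' i))) := by rw [e1]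
            _ = Y * Y * Y * (Y * (y' i * y' i)) := by group
            _ = Y * y' i * y' i := by rw [hY3, one_mul, mul_assoc]
            _ = y' i * y' i * (Y * Y) * y' i := by rw [e2]
            _ = _ := by group
      | cast j =>
        match r with
        | none => exact ⟨k * y' j, K.mul_mem hk (hyK j), none, by simp [rep, hy']⟩
        | some none =>
          refine ⟨k * (y' j * y' j), K.mul_mem hk (K.mul_mem (hyK j) (hyK j)), some (some none), ?_⟩
          simp only [rep, mul_assoc]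
          congr 1
          exact (swapRel Y (y' j) (h3 _) (h3 _) (h2 _ _ (hne j).symm)).trans (mul_assoc _ _ _)
        | some (some none) => exact ⟨k, hk, some (some (some j)), by simp [rep, hy', mul_assoc]⟩
        | some (some (some i)) =>
          have e2 : ∀ i, Y * y' i = y' i * y' i * (Y * Y) := fun i =>
            swapRel Y (y' i) (h3 _) (h3 _) (h2 _ _ (hne i).symm)
          have e3 : ∀ i, Y * Y * (y' i * y' i) = y' i * Y := fun i =>
            (swapRel (y' i) Y (h3 _) (h3 _) (h2 _ _ (hne i))).symm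
          by_cases hij : i = j
          · subst hij
            refine ⟨k * y' i, K.mul_mem hk (hyK i), some none, ?_⟩
            simp only [rep, mul_assoc]
            congr 1
            rw [← mul_assoc]
            exact e3 i
          · refine ⟨k * (y' j * (y' i * y' i)), K.mul_mem hk (K.mul_mem (hyK j)
              (K.mul_mem (hyK i) (hyK i))), some (some (some i)), ?_⟩
            simp only [rep, mul_assoc]
            congr 1
            calc Y * (Y * (y' i * y j.castSucc)) = Y * Y * (y' i * y' j) := by rw [mul_assoc]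
              _ = Y * Y * (y' j * y' j) * (y' i * y' i) := by
                rw [swapRel (y' i) (y' j) (h3 _) (h3 _)
                  (h2 _ _ fun e => hij (Fin.castSucc_injective _ e))]
                group
              _ = y' j * (Y * y' i) * y' i := by rw [e3]; group
              _ = y' j * (y' i * y' i * (Y * Y)) * y' i := by rw [e2]
              _ = _ := by group
    have hsub : ∀ x ∈ Subgroup.closure (Set.range y), x ∈ S := by
      intro x hx
      induction hx using Subgroup.closure_induction_right with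
      | one => rw [hS]; exact ⟨1, K.one_mem, none, by simp [rep]⟩
      | mul_right x _ z hz ih =>
        obtain ⟨j, rfl⟩ := hz
        exact hstep x ih j
      | mul_inv_cancel x _ z hz ih =>
        obtain ⟨j, rfl⟩ := hz
        rw [show (y j)⁻¹ = y j * y j from inv_eq_of_mul_eq_one_right (by rw [← mul_assoc, ← h3 j,
          pow_succ, sq]), ← mul_assoc]
        exact hstep _ (hstep x ih j) j
    have hle : Nat.card (Subgroup.closure (Set.range y)) ≤
        Nat.card (K × Option (Option (Option (Fin (m + 1))))) := by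
      have hcov : ∀ x : Subgroup.closure (Set.range y),
          ∃ q : K × Option (Option (Option (Fin (m + 1)))), (x : H) = q.1 * rep q.2 := by
        intro x
        have := hsub x x.2
        rw [hS] at this
        obtain ⟨k, hk, r, hr⟩ := this
        exact ⟨(⟨k, hk⟩, r), hr⟩
      choose q hq using hcov
      exact Nat.card_le_card_of_injective q fun a b e => Subtype.ext (by rw [hq a, hq b, e])
    rw [Nat.card_prod, Nat.card_eq_fintype_card (α := Option (Option (Option (Fin (m + 1))))),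
      Fintype.card_option, Fintype.card_option, Fintype.card_option, Fintype.card_fin] at hle
    rw [show m + 1 + 3 = (m + 3) + 1 by omega, Nat.factorial_succ]
    calc 2 * Nat.card (Subgroup.closure (Set.range y))
        ≤ 2 * (Nat.card K * (m + 1 + 1 + 1 + 1)) := Nat.mul_le_mul_left _ hle
      _ = (m + 3 + 1) * (2 * Nat.card K) := by ring
      _ ≤ _ := Nat.mul_le_mul_left _ ih

end Presentation

section Small

variable {Γ : Type*} [Group Γ] [Finite Γ]

/-- Elements of the centre in the derived subgroup lie in the derived subgroup of a Sylow subgroup. -/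
theorem mem_commutator_sylow {p : ℕ} [Fact p.Prime] (P : Sylow p Γ) {z : Γ}
    (hzc : z ∈ Subgroup.center Γ) (hzd : z ∈ commutator Γ) {k : ℕ} (hord : orderOf z = p ^ k) :
    z ∈ ⁅(P : Subgroup Γ), (P : Subgroup Γ)⁆ := by
  classical
  have hzP : z ∈ (P : Subgroup Γ) := by
    have hn : (Subgroup.zpowers z).Normal :=
      ⟨fun x hx g => by
        have hxc : x ∈ Subgroup.center Γ := Subgroup.zpowers_le.mpr hzc hx
        rw [Subgroup.mem_center_iff.mp hxc g, mul_assoc, mul_inv_cancel, mul_one]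
        exact hx⟩
    have hpg : IsPGroup p (Subgroup.zpowers z) := IsPGroup.of_card (by rw [Nat.card_zpowers, hord])
    obtain ⟨Q, hQ⟩ := hpg.exists_le_sylow
    obtain ⟨g, rfl⟩ := MulAction.exists_smul_eq Γ Q P
    have hm := hQ (hn.conj_mem z (Subgroup.mem_zpowers z) g⁻¹)
    have h2 := Subgroup.smul_mem_pointwise_smul (a := MulAut.conj g) _ _ hm
    rw [Sylow.coe_subgroup_smul]
    simpa [mul_assoc] using h2
  let f : (P : Subgroup Γ) →* Abelianization (P : Subgroup Γ) := Abelianization.of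
  haveI : (P : Subgroup Γ).FiniteIndex := Subgroup.finiteIndex_of_finite
  have h1 : MonoidHom.transfer f z = 1 :=
    MonoidHom.mem_ker.mp (Abelianization.commutator_subset_ker _ hzd)
  have key : ∀ (k : ℕ) (g₀ : Γ), g₀⁻¹ * z ^ k * g₀ ∈ (P : Subgroup Γ) → g₀⁻¹ * z ^ k * g₀ = z ^ k :=
    fun k g₀ _ => by
      rw [mul_assoc, ← Subgroup.mem_center_iff.mp (pow_mem hzc k) g₀, inv_mul_cancel_left]
  rw [MonoidHom.transfer_eq_pow f z key] at h1
  have h2 : f ⟨z, hzP⟩ ^ (P : Subgroup Γ).index = 1 := by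
    rw [← map_pow, ← h1]
    rfl
  have h3 : (⟨z, hzP⟩ : (P : Subgroup Γ)) ∈ commutator (P : Subgroup Γ) := by
    rw [← Abelianization.ker_of, MonoidHom.mem_ker]
    have h4 : f ⟨z, hzP⟩ ^ (p ^ k) = 1 := by
      rw [← map_pow, show (⟨z, hzP⟩ : (P : Subgroup Γ)) ^ (p ^ k) = 1 from
        Subtype.ext (by rw [SubgroupClass.coe_pow, ← hord]; exact pow_orderOf_eq_one z), map_one]
    have hcop : Nat.Coprime (P : Subgroup Γ).index (p ^ k) :=
      Nat.Coprime.pow_right _ ((Fact.out : p.Prime).coprime_iff_not_dvd.mpr P.not_dvd_index).symm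
    have h5 : orderOf (f ⟨z, hzP⟩) ∣ Nat.gcd (P : Subgroup Γ).index (p ^ k) :=
      Nat.dvd_gcd (orderOf_dvd_of_pow_eq_one h2) (orderOf_dvd_of_pow_eq_one h4)
    rw [hcop, Nat.dvd_one, orderOf_eq_one_iff] at h5
    exact h5
  have h6 := Subgroup.mem_map_of_mem (P : Subgroup Γ).subtype h3
  rw [commutator_def, Subgroup.map_commutator, ← MonoidHom.range_eq_map,
    Subgroup.range_subtype] at h6
  exact h6

/-- The derived subgroup of a Sylow subgroup over a quotient of small order. -/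
theorem sylow_commutator_le (Z : Subgroup Γ) [Z.Normal] (hZc : Z ≤ Subgroup.center Γ)
    {p : ℕ} [Fact p.Prime] (P : Sylow p Γ)
    (hq : ∀ k : ℕ, p ^ k ∣ Nat.card (Γ ⧸ Z) → k ≤ 1 ∨ (p = 2 ∧ k ≤ 2)) :
    ⁅(P : Subgroup Γ), (P : Subgroup Γ)⁆ = ⊥ ∨
      (p = 2 ∧ ∃ c : Γ, c ^ 2 = 1 ∧ ⁅(P : Subgroup Γ), (P : Subgroup Γ)⁆ ≤ Subgroup.zpowers c) := by
  classical
  set ρ := (QuotientGroup.mk' Z).comp (P : Subgroup Γ).subtype with hρ
  have hrP : IsPGroup p ρ.range := P.2.of_surjective ρ.rangeRestrict ρ.rangeRestrict_surjective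
  obtain ⟨r, hr⟩ := hrP.exists_card_eq
  by_cases hc : IsCyclic ρ.range
  · left
    have hker : ρ.rangeRestrict.ker ≤ Subgroup.center (P : Subgroup Γ) := fun x hx => by
      rw [MonoidHom.ker_rangeRestrict, hρ, MonoidHom.mem_ker, MonoidHom.comp_apply,
        QuotientGroup.mk'_apply, QuotientGroup.eq_one_iff] at hx
      rw [Subgroup.mem_center_iff]
      exact fun g => Subtype.ext (Subgroup.mem_center_iff.mp (hZc hx) g)
    rw [Subgroup.commutator_eq_bot_iff_le_centralizer]
    intro g hg h hh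
    exact congrArg Subtype.val (commutative_of_cyclic_center_quotient ρ.rangeRestrict hker
      (⟨h, hh⟩ : (P : Subgroup Γ)) ⟨g, hg⟩)
  right
  have hr2 : p = 2 ∧ r = 2 := by
    rcases hq r (hr ▸ ρ.range.card_subgroup_dvd_card) with h | ⟨h, h'⟩
    · exfalso
      rcases Nat.le_one_iff_eq_zero_or_eq_one.mp h with h | h
      · subst h
        haveI : Subsingleton ρ.range := by
          rw [← Finite.card_le_one_iff_subsingleton, hr, pow_zero]
        exact hc inferInstance
      · subst h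
        exact hc (isCyclic_of_prime_card (p := p) (by rw [hr, pow_one]))
    · refine ⟨h, ?_⟩
      by_contra hne
      rcases Nat.le_one_iff_eq_zero_or_eq_one.mp (show r ≤ 1 by omega) with h | h
      · subst h
        haveI : Subsingleton ρ.range := by
          rw [← Finite.card_le_one_iff_subsingleton, hr, pow_zero]
        exact hc inferInstance
      · subst h
        exact hc (isCyclic_of_prime_card (p := p) (by rw [hr, pow_one]))
  obtain ⟨rfl, rfl⟩ := hr2
  haveI := Fintype.ofFinite ρ.range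
  have hsq : ∀ y : ρ.range, y * y = 1 := fun y => by
    obtain ⟨j, hj, hjo⟩ := (Nat.dvd_prime_pow Nat.prime_two).mp (hr ▸ orderOf_dvd_natCard y)
    have hj2 : j ≠ 2 := fun e => hc (isCyclic_of_orderOf_eq_card y (by rw [hjo, e, hr]))
    rw [← sq, ← orderOf_dvd_iff_pow_eq_one, hjo]
    calc 2 ^ j ∣ 2 ^ 1 := pow_dvd_pow 2 (by omega)
      _ = 2 := pow_one 2
  haveI : Nontrivial ρ.range := Finite.one_lt_card_iff_nontrivial.mp (by rw [hr]; norm_num)
  obtain ⟨s, hs⟩ := exists_ne (1 : ρ.range)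
  obtain ⟨t, ht⟩ : ∃ t : ρ.range, t ∉ Subgroup.zpowers s := by
    by_contra hall
    push Not at hall
    exact hc ⟨⟨s, hall⟩⟩
  have ht1 : t ≠ 1 := fun e => ht (e ▸ one_mem _)
  have hts : t ≠ s := fun e => ht (e ▸ Subgroup.mem_zpowers s)
  have htst : s * t ≠ 1 := fun e => hts (mul_left_cancel (e.trans (hsq s).symm))
  have hcard : ({1, s, t, s * t} : Finset ρ.range).card = 4 := by
    have h1 : s ≠ s * t := fun e => ht1 (left_eq_mul.mp e)
    have h2 : t ≠ s * t := fun e => hs (right_eq_mul.mp e)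
    rw [Finset.card_insert_of_notMem (by simp [hs.symm, ht1.symm, htst.symm]),
      Finset.card_insert_of_notMem (by simp [hts.symm, h1]),
      Finset.card_insert_of_notMem (by simp [h2]), Finset.card_singleton]
  have huniv : ({1, s, t, s * t} : Finset ρ.range) = Finset.univ :=
    Finset.eq_univ_of_card _ (by rw [hcard, ← Nat.card_eq_fintype_card, hr]; rfl)
  obtain ⟨u, hu⟩ := ρ.rangeRestrict_surjective s
  obtain ⟨v, hv⟩ := ρ.rangeRestrict_surjective t
  have hgen : ∀ x : (P : Subgroup Γ), ∃ a b : ℕ, ∃ w ∈ Z, (x : Γ) = (u : Γ) ^ a * (v : Γ) ^ b * w := by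
    intro x
    obtain ⟨a, b, hab⟩ : ∃ a b : ℕ, ρ.rangeRestrict x = s ^ a * t ^ b := by
      have h := huniv ▸ Finset.mem_univ (ρ.rangeRestrict x)
      simp only [Finset.mem_insert, Finset.mem_singleton] at h
      rcases h with h | h | h | h
      · exact ⟨0, 0, by simp [h]⟩
      · exact ⟨1, 0, by simp [h]⟩
      · exact ⟨0, 1, by simp [h]⟩
      · exact ⟨1, 1, by simp [h]⟩
    rw [← hu, ← hv, ← map_pow, ← map_pow, ← map_mul] at hab
    have h := congrArg Subtype.val hab
    exact ⟨a, b, ((u : Γ) ^ a * (v : Γ) ^ b)⁻¹ * x, QuotientGroup.eq.mp h.symm,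
      (mul_inv_cancel_left _ _).symm⟩
  have hcZ : ⁅(u : Γ), (v : Γ)⁆ ∈ Z := by
    rw [← QuotientGroup.eq_one_iff]
    have h : (ρ.rangeRestrict ⁅u, v⁆) = 1 := by
      rw [map_commutatorElement, commutatorElement_eq_one_iff_mul_comm, hu, hv]
      calc s * t = (s * t)⁻¹ := eq_inv_of_mul_eq_one_left (hsq _)
        _ = t * s := by
          rw [mul_inv_rev, inv_eq_of_mul_eq_one_right (hsq s), inv_eq_of_mul_eq_one_right (hsq t)]
    exact congrArg Subtype.val h
  have huu : (u : Γ) * u ∈ Z := by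
    rw [← QuotientGroup.eq_one_iff]
    have h : ρ.rangeRestrict (u * u) = 1 := by rw [map_mul, hu, hsq]
    exact congrArg Subtype.val h
  set c : Γ := ⁅(u : Γ), (v : Γ)⁆ with hcdef
  have hcc : ∀ x : Γ, x * c = c * x := Subgroup.mem_center_iff.mp (hZc hcZ)
  refine ⟨rfl, c, ?_, ?_⟩
  · have h7 : ⁅(u : Γ) * u, (v : Γ)⁆ = c * c := by
      calc ⁅(u : Γ) * u, (v : Γ)⁆ = u * c * (u : Γ)⁻¹ * c := by
            simp only [hcdef, commutatorElement_def]; group
        _ = c * c := by rw [hcc (u : Γ), mul_inv_cancel_right]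
    rw [sq, ← h7, commutatorElement_eq_one_iff_mul_comm]
    exact (Subgroup.mem_center_iff.mp (hZc huu) v).symm
  rw [Subgroup.commutator_le]
  intro g hg h hh
  obtain ⟨a, b, w, hw, rfl⟩ := hgen ⟨g, hg⟩
  obtain ⟨a', b', w', hw', rfl⟩ := hgen ⟨h, hh⟩
  set N := Subgroup.zpowers c
  haveI hN : N.Normal := ⟨fun x hx t => by
    have hxc : x ∈ Subgroup.center Γ := Subgroup.zpowers_le.mpr (hZc hcZ) hx
    rw [Subgroup.mem_center_iff.mp hxc t, mul_assoc, mul_inv_cancel, mul_one]
    exact hx⟩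
  rw [← QuotientGroup.eq_one_iff, ← QuotientGroup.mk'_apply, map_commutatorElement,
    commutatorElement_eq_one_iff_commute]
  have huv : Commute (QuotientGroup.mk' N u) (QuotientGroup.mk' N v) := by
    rw [← commutatorElement_eq_one_iff_commute, ← map_commutatorElement, ← hcdef,
      QuotientGroup.mk'_apply, QuotientGroup.eq_one_iff]
    exact Subgroup.mem_zpowers c
  have hwc : ∀ z ∈ Z, ∀ y, Commute z y := fun z hz y => (Subgroup.mem_center_iff.mp (hZc hz) y).symm
  rw [map_mul _ (_ * _) w, map_mul _ (_ * _) w']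
  refine Commute.mul_left (Commute.mul_right ?_ ((hwc w' hw' _).symm.map _))
    (Commute.mul_right ((hwc w hw _).map _) ((hwc w hw _).map _))
  rw [map_mul, map_mul, map_pow, map_pow, map_pow, map_pow]
  exact (((Commute.refl _).pow_pow _ _).mul_right (huv.pow_pow _ _)).mul_left
    ((huv.symm.pow_pow _ _).mul_right ((Commute.refl _).pow_pow _ _))

/-- The case where all Sylow subgroups of the quotient have order a prime, or four. -/
theorem card_le_two_small (Z : Subgroup Γ) [Z.Normal] (hZc : Z ≤ Subgroup.center Γ)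
    (hZd : Z ≤ commutator Γ)
    (hq : ∀ p k : ℕ, p.Prime → p ^ k ∣ Nat.card (Γ ⧸ Z) → k ≤ 1 ∨ (p = 2 ∧ k ≤ 2)) :
    Nat.card Z ≤ 2 := by
  classical
  have hsq : ∀ z ∈ Z, z ^ 2 = 1 := by
    intro z hz
    rw [← orderOf_dvd_iff_pow_eq_one, Nat.dvd_iff_prime_pow_dvd_dvd]
    intro p k hp hpk
    haveI := Fact.mk hp
    have ho : orderOf (z ^ (orderOf z / p ^ k)) = p ^ k := by
      rw [orderOf_pow' z (Nat.div_pos (Nat.le_of_dvd (orderOf_pos z) hpk) (pow_pos hp.pos k)).ne',
        Nat.gcd_eq_right (Nat.div_dvd_of_dvd hpk), Nat.div_div_self hpk (orderOf_pos z).ne']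
    obtain ⟨P⟩ := (inferInstance : Nonempty (Sylow p Γ))
    have hzP := mem_commutator_sylow P (hZc (pow_mem hz _)) (hZd (pow_mem hz _)) ho
    rw [← ho, orderOf_dvd_iff_pow_eq_one]
    rcases sylow_commutator_le Z hZc P (fun k => hq p k hp) with h | ⟨-, c, hc, h⟩
    · rw [h, Subgroup.mem_bot] at hzP
      rw [hzP, one_pow]
    · obtain ⟨j, hj⟩ := h hzP
      rw [← hj, ← zpow_natCast, ← zpow_mul, mul_comm, zpow_mul, zpow_natCast, hc, one_zpow]
  haveI := Fact.mk Nat.prime_two
  obtain ⟨P⟩ := (inferInstance : Nonempty (Sylow 2 Γ))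
  have hZP : ∀ z ∈ Z, z ∈ ⁅(P : Subgroup Γ), (P : Subgroup Γ)⁆ := fun z hz => by
    obtain ⟨k, -, hk⟩ := (Nat.dvd_prime_pow Nat.prime_two).mp
      (show orderOf z ∣ 2 ^ 1 by rw [pow_one]; exact orderOf_dvd_iff_pow_eq_one.mpr (hsq z hz))
    exact mem_commutator_sylow P (hZc hz) (hZd hz) hk
  rcases sylow_commutator_le Z hZc P (fun k => hq 2 k Nat.prime_two) with h | ⟨-, c, hc, h⟩
  · have : Z = ⊥ := (Subgroup.eq_bot_iff_forall Z).mpr fun z hz => by
      have := hZP z hz
      rwa [h, Subgroup.mem_bot] at this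
    rw [this, Subgroup.card_bot]; norm_num
  · calc Nat.card Z ≤ Nat.card (Subgroup.zpowers c) :=
          Subgroup.card_le_of_le fun z hz => h (hZP z hz)
      _ = orderOf c := Nat.card_zpowers c
      _ ≤ 2 := Nat.le_of_dvd two_pos (orderOf_dvd_of_pow_eq_one hc)

end Small

section Large

variable {α : Type*} [Fintype α] [DecidableEq α]

/-- An even permutation moving `x` to `y` and fixing a small set. -/
theorem exists_even_fix (S : Finset α) (hS : S.card + 4 ≤ Fintype.card α) {x y : α} (hx : x ∉ S)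
    (hy : y ∉ S) : ∃ σ : alternatingGroup α, (σ : Equiv.Perm α) x = y ∧
      ∀ s ∈ S, (σ : Equiv.Perm α) s = s := by
  by_cases hxy : x = y
  · exact ⟨1, by simp [hxy], fun s _ => by simp⟩
  obtain ⟨p, hp, q, hq, hpq⟩ : ∃ p ∈ (insert x (insert y S))ᶜ, ∃ q ∈ (insert x (insert y S))ᶜ, p ≠ q := by
    refine Finset.one_lt_card.mp ?_
    rw [Finset.card_compl]
    have h1 := Finset.card_insert_le x (insert y S)
    have h2 := Finset.card_insert_le y S
    omega
  simp only [Finset.mem_compl, Finset.mem_insert, not_or] at hp hq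
  refine ⟨⟨Equiv.swap p q * Equiv.swap x y, ?_⟩, ?_, fun s hs => ?_⟩
  · rw [Equiv.Perm.mem_alternatingGroup, Equiv.Perm.sign_mul, Equiv.Perm.sign_swap hpq,
      Equiv.Perm.sign_swap hxy]
    rfl
  · rw [Equiv.Perm.mul_apply, Equiv.swap_apply_left,
      Equiv.swap_apply_of_ne_of_ne (Ne.symm hp.2.1) (Ne.symm hq.2.1)]
  · have h1 : ∀ {t}, t ∉ S → s ≠ t := fun ht e => ht (e ▸ hs)
    rw [Equiv.Perm.mul_apply, Equiv.swap_apply_of_ne_of_ne (h1 hx) (h1 hy),
      Equiv.swap_apply_of_ne_of_ne (h1 hp.2.2) (h1 hq.2.2)]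

/-- Carmichael's generators. -/
def gen {a b : α} (hab : a ≠ b) (i : {i : α // i ≠ a ∧ i ≠ b}) : alternatingGroup α :=
  ⟨Equiv.swap a b * Equiv.swap a i.1, by
    rw [Equiv.Perm.mem_alternatingGroup, Equiv.Perm.sign_mul, Equiv.Perm.sign_swap hab,
      Equiv.Perm.sign_swap (Ne.symm i.2.1)]
    rfl⟩

theorem gen_conj {a b : α} (hab : a ≠ b) (i j : {i : α // i ≠ a ∧ i ≠ b}) (σ : alternatingGroup α)
    (ha : (σ : Equiv.Perm α) a = a) (hb : (σ : Equiv.Perm α) b = b)
    (hi : (σ : Equiv.Perm α) i = (j : α)) : σ * gen hab i * σ⁻¹ = gen hab j := by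
  refine Subtype.ext ?_
  show (σ : Equiv.Perm α) * (Equiv.swap a b * Equiv.swap a i.1) * (σ : Equiv.Perm α)⁻¹ =
    Equiv.swap a b * Equiv.swap a j.1
  rw [← mul_assoc, Equiv.mul_swap_eq_swap_mul (σ : Equiv.Perm α) a b, ha, hb,
    mul_assoc (Equiv.swap a b), Equiv.mul_swap_eq_swap_mul (σ : Equiv.Perm α) a i.1, ha, hi,
    ← mul_assoc, mul_inv_cancel_right]

theorem gen_conj_swap {a b : α} (hab : a ≠ b) (i : {i : α // i ≠ a ∧ i ≠ b}) (σ : alternatingGroup α)
    (ha : (σ : Equiv.Perm α) a = b) (hb : (σ : Equiv.Perm α) b = a)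
    (hi : (σ : Equiv.Perm α) i = (i : α)) : σ * gen hab i * σ⁻¹ = (gen hab i)⁻¹ := by
  refine Subtype.ext ?_
  show (σ : Equiv.Perm α) * (Equiv.swap a b * Equiv.swap a i.1) * (σ : Equiv.Perm α)⁻¹ =
    (Equiv.swap a b * Equiv.swap a i.1)⁻¹
  rw [← mul_assoc, Equiv.mul_swap_eq_swap_mul (σ : Equiv.Perm α) a b, ha, hb,
    mul_assoc (Equiv.swap b a), Equiv.mul_swap_eq_swap_mul (σ : Equiv.Perm α) a i.1, ha, hi, ← mul_assoc, mul_inv_cancel_right, mul_inv_rev,
    Equiv.swap_inv, Equiv.swap_inv, Equiv.swap_comm b a, Equiv.mul_swap_eq_swap_mul,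
    Equiv.swap_apply_right, Equiv.swap_apply_of_ne_of_ne i.2.1 i.2.2]

theorem gen_cube {a b : α} (hab : a ≠ b) (i : {i : α // i ≠ a ∧ i ≠ b}) : gen hab i ^ 3 = 1 := by
  refine Subtype.ext ?_
  rw [SubgroupClass.coe_pow]
  have h := (Equiv.Perm.isThreeCycle_swap_mul_swap_same hab (Ne.symm i.2.1) (Ne.symm i.2.2)).orderOf
  conv_lhs => rw [← h]
  exact pow_orderOf_eq_one _

theorem gen_prod_sq {a b : α} (hab : a ≠ b) (i j : {i : α // i ≠ a ∧ i ≠ b}) (hij : i ≠ j) :
    (gen hab i * gen hab j) ^ 2 = 1 := by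
  refine Subtype.ext ?_
  rw [SubgroupClass.coe_pow]
  show (Equiv.swap a b * Equiv.swap a i.1 * (Equiv.swap a b * Equiv.swap a j.1)) ^ 2 = 1
  have e : Equiv.swap a b * Equiv.swap a i.1 * (Equiv.swap a b * Equiv.swap a j.1) =
      Equiv.swap b i.1 * Equiv.swap a j.1 := by
    rw [← mul_assoc, Equiv.mul_swap_eq_swap_mul (Equiv.swap a b), Equiv.swap_apply_left,
      Equiv.swap_apply_of_ne_of_ne i.2.1 i.2.2, mul_assoc (Equiv.swap b i.1), Equiv.swap_mul_self,
      mul_one]
  have hc : Equiv.swap a j.1 * Equiv.swap b i.1 = Equiv.swap b i.1 * Equiv.swap a j.1 := by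
    rw [Equiv.mul_swap_eq_swap_mul, Equiv.swap_apply_of_ne_of_ne hab.symm (Ne.symm j.2.2),
      Equiv.swap_apply_of_ne_of_ne i.2.1 (fun e => hij (Subtype.ext e))]
  rw [e, sq, mul_assoc, ← mul_assoc (Equiv.swap a j.1), hc, mul_assoc, Equiv.swap_mul_self,
    mul_one, Equiv.swap_mul_self]

theorem closure_gen {a b : α} (hab : a ≠ b) :
    Subgroup.closure (Set.range (gen hab)) = (⊤ : Subgroup (alternatingGroup α)) := by
  set K := (Subgroup.closure (Set.range (gen hab))).map (alternatingGroup α).subtype with hK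
  set s := Equiv.swap a b with hs
  have hgK : ∀ i : {i : α // i ≠ a ∧ i ≠ b}, s * Equiv.swap a i.1 ∈ K := fun i =>
    ⟨gen hab i, Subgroup.subset_closure ⟨i, rfl⟩, rfl⟩
  have hss : s * s = 1 := Equiv.swap_mul_self a b
  have hconjgen : ∀ i : {i : α // i ≠ a ∧ i ≠ b}, s * (s * Equiv.swap a i.1) * s ∈ K := fun i => by
    have h := K.inv_mem (hgK i)
    rw [hs, mul_inv_rev, Equiv.swap_inv, Equiv.swap_inv, ← hs] at h
    rwa [← mul_assoc, hss, one_mul]
  have hKn : ∀ k ∈ K, s * k * s ∈ K := by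
    rw [hK, MonoidHom.map_closure]
    intro k hk
    induction hk using Subgroup.closure_induction with
    | mem x hx =>
      obtain ⟨_, ⟨i, rfl⟩, rfl⟩ := hx
      rw [← MonoidHom.map_closure, ← hK]
      exact hconjgen i
    | one => rw [mul_one, hss]; exact one_mem _
    | mul x y _ _ hx hy =>
      have := mul_mem hx hy
      rwa [show s * x * s * (s * y * s) = s * x * (s * s) * y * s by group, hss, mul_one,
        mul_assoc s x y] at this
    | inv x _ hx =>
      have := inv_mem hx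
      rwa [mul_inv_rev, mul_inv_rev, hs, Equiv.swap_inv, ← hs, ← mul_assoc] at this
  let T : Subgroup (Equiv.Perm α) :=
    { carrier := {g | g ∈ K ∨ g * s ∈ K}
      one_mem' := Or.inl K.one_mem
      mul_mem' := fun {g h} hg hh => by
        rcases hg with hg | hg <;> rcases hh with hh | hh
        · exact Or.inl (K.mul_mem hg hh)
        · exact Or.inr (by rw [mul_assoc]; exact K.mul_mem hg hh)
        · refine Or.inr ?_
          have := K.mul_mem hg (hKn h hh)
          rwa [show g * s * (s * h * s) = g * (s * s) * h * s by group, hss, mul_one] at this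
        · refine Or.inl ?_
          have := K.mul_mem hg (hKn _ hh)
          rwa [show g * s * (s * (h * s) * s) = g * (s * s) * h * (s * s) by group, hss, mul_one,
            mul_one] at this
      inv_mem' := fun {g} hg => by
        rcases hg with hg | hg
        · exact Or.inl (K.inv_mem hg)
        · refine Or.inr ?_
          have := hKn _ (K.inv_mem hg)
          rwa [mul_inv_rev, hs, Equiv.swap_inv, ← hs, ← mul_assoc, hss, one_mul] at this }
  have hTa : ∀ x : α, Equiv.swap a x ∈ T := by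
    intro x
    by_cases hxa : x = a
    · rw [hxa, Equiv.swap_self]; exact T.one_mem
    by_cases hxb : x = b
    · exact Or.inr (by rw [hxb, ← hs, hss]; exact K.one_mem)
    · refine Or.inr ?_
      have := K.inv_mem (hgK ⟨x, hxa, hxb⟩)
      rwa [mul_inv_rev, Equiv.swap_inv, hs, Equiv.swap_inv] at this
  have hTtop : ∀ g, g ∈ T := by
    have h : Subgroup.closure {σ : Equiv.Perm α | σ.IsSwap} ≤ T := by
      rw [Subgroup.closure_le]
      rintro σ ⟨x, y, hxy, rfl⟩
      by_cases hxa : x = a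
      · rw [hxa]; exact hTa y
      by_cases hya : y = a
      · rw [hya, Equiv.swap_comm]; exact hTa x
      have h := T.mul_mem (T.mul_mem (hTa x) (hTa y)) (hTa x)
      rwa [Equiv.mul_swap_eq_swap_mul (Equiv.swap a x), Equiv.swap_apply_left,
        Equiv.swap_apply_of_ne_of_ne hya hxy.symm, mul_assoc, Equiv.swap_mul_self, mul_one] at h
    rw [Equiv.Perm.closure_isSwap] at h
    exact fun g => h (Subgroup.mem_top g)
  rw [eq_top_iff]
  intro g _
  rcases hTtop (g : Equiv.Perm α) with h | h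
  · obtain ⟨x, hx, hxg⟩ := h
    rwa [← Subtype.ext hxg]
  · exfalso
    obtain ⟨x, -, hxg⟩ := h
    have h1 := Equiv.Perm.mem_alternatingGroup.mp x.2
    change (x : Equiv.Perm α) = _ at hxg
    rw [hxg, Equiv.Perm.sign_mul, Equiv.Perm.mem_alternatingGroup.mp g.2, one_mul, hs,
      Equiv.Perm.sign_swap hab] at h1
    exact absurd h1 (by decide)

variable {Γ : Type*} [Group Γ] [Finite Γ]

/-- The large case. -/
theorem card_le_two_large (hn : 8 ≤ Fintype.card α) (π : Γ →* alternatingGroup α)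
    (hπ : Function.Surjective π) (hc : π.ker ≤ Subgroup.center Γ) (hd : π.ker ≤ commutator Γ) :
    Nat.card π.ker ≤ 2 := by
  classical
  obtain ⟨a, b, hab⟩ := Fintype.exists_pair_of_one_lt_card (show 1 < Fintype.card α by omega)
  let I := {i : α // i ≠ a ∧ i ≠ b}
  have hcc : ∀ z, π z = 1 → ∀ g, z * g = g * z := fun z hz g =>
    (Subgroup.mem_center_iff.mp (hc hz) g).symm
  -- stabilizer lifts commute with the lifts of generators
  have hfix : ∀ (i : I) (Y : Γ), π Y = gen hab i → ∀ g, (π g : Equiv.Perm α) a = a →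
      (π g : Equiv.Perm α) b = b → (π g : Equiv.Perm α) i = (i : α) → g * Y * g⁻¹ = Y := by
    intro i Y hY g ga gb gi
    let S : Finset α := {a, b, (i : α)}
    have hcard5 : 5 ≤ Fintype.card {x : α // x ∉ S} := by
      rw [Fintype.card_subtype_compl, Fintype.card_coe]
      have h1 := Finset.card_insert_le a ({b, (i : α)} : Finset α)
      have h2 := Finset.card_insert_le b ({(i : α)} : Finset α)
      rw [Finset.card_singleton] at h2
      have : S.card ≤ 3 := by simp only [S]; omega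
      omega
    let θ : alternatingGroup {x : α // x ∉ S} →* alternatingGroup α :=
      ((Equiv.Perm.ofSubtype (p := fun x => x ∉ S)).comp
        (alternatingGroup {x : α // x ∉ S}).subtype).codRestrict _ fun σ => by
          rw [Equiv.Perm.mem_alternatingGroup, MonoidHom.comp_apply, Equiv.Perm.sign_ofSubtype]
          exact Equiv.Perm.mem_alternatingGroup.mp σ.2
    have hθfix : ∀ σ, ∀ s ∈ S, (θ σ : Equiv.Perm α) s = s := fun σ s hs =>
      Equiv.Perm.ofSubtype_apply_of_not_mem _ (not_not.mpr hs)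
    have hex : ∀ σ, ∃ w : π.ker, ∀ h, π h = θ σ → h * Y * h⁻¹ = w * Y := by
      intro σ
      obtain ⟨h0, hh0⟩ := hπ (θ σ)
      refine ⟨⟨h0 * Y * h0⁻¹ * Y⁻¹, ?_⟩, fun h hh => ?_⟩
      · rw [MonoidHom.mem_ker, map_mul, map_mul, map_mul, map_inv, map_inv, hh0, hY,
          gen_conj hab i i _ (hθfix σ a (by simp [S])) (hθfix σ b (by simp [S]))
            (hθfix σ i (by simp [S])), mul_inv_cancel]
      · have hk : π (h0⁻¹ * h) = 1 := by rw [map_mul, map_inv, hh, hh0, inv_mul_cancel]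
        show h * Y * h⁻¹ = h0 * Y * h0⁻¹ * Y⁻¹ * Y
        have e := hcc _ hk Y
        calc h * Y * h⁻¹ = h0 * (h0⁻¹ * h * Y) * h⁻¹ := by group
          _ = h0 * (Y * (h0⁻¹ * h)) * h⁻¹ := by rw [e]
          _ = _ := by group
    choose ψ hψ using hex
    haveI : IsMulCommutative π.ker := ⟨⟨fun x y => Subtype.ext (hcc x x.2 y)⟩⟩
    have hmul : ∀ σ τ, ψ (σ * τ) = ψ σ * ψ τ := by
      intro σ τ
      obtain ⟨h, hh⟩ := hπ (θ σ)
      obtain ⟨k, hk⟩ := hπ (θ τ)
      have e := hψ (σ * τ) (h * k) (by rw [map_mul, map_mul, hh, hk])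
      refine Subtype.ext (mul_right_cancel (b := Y) ?_)
      rw [← e, Subgroup.coe_mul]
      calc h * k * Y * (h * k)⁻¹ = h * (k * Y * k⁻¹) * h⁻¹ := by group
        _ = h * ((ψ τ : Γ) * Y) * h⁻¹ := by rw [hψ τ k hk]
        _ = (ψ τ : Γ) * (h * Y * h⁻¹) := by
          rw [← mul_assoc, ← hcc _ (ψ τ).2 h]; group
        _ = (ψ τ : Γ) * ((ψ σ : Γ) * Y) := by rw [hψ σ h hh]
        _ = _ := by rw [← mul_assoc, hcc _ (ψ τ).2]
    let ψh : alternatingGroup {x : α // x ∉ S} →* π.ker := MonoidHom.mk' ψ hmul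
    have hperf : ∀ σ, ψh σ = 1 := fun σ => by
      have hk : commutator (alternatingGroup {x : α // x ∉ S}) ≤ ψh.ker := by
        rw [commutator_def, Subgroup.commutator_le]
        intro x _ y _
        rw [MonoidHom.mem_ker, map_commutatorElement, commutatorElement_eq_one_iff_mul_comm]
        exact mul_comm' _ _
      rw [commutator_alternatingGroup_eq_top (by rw [Nat.card_eq_fintype_card]; exact hcard5)] at hk
      exact MonoidHom.mem_ker.mp (hk (Subgroup.mem_top σ))
    have hsupp : ∀ x, (π g : Equiv.Perm α) x ≠ x → x ∉ S := by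
      intro x hx hxS
      simp only [S, Finset.mem_insert, Finset.mem_singleton] at hxS
      rcases hxS with rfl | rfl | rfl
      exacts [hx ga, hx gb, hx gi]
    have hpres : ∀ x, (π g : Equiv.Perm α) x ∉ S ↔ x ∉ S := by
      intro x
      by_cases hxx : (π g : Equiv.Perm α) x = x
      · rw [hxx]
      · exact iff_of_true (hsupp _ fun e => hxx ((π g : Equiv.Perm α).injective e)) (hsupp _ hxx)
    have hσ : (π g : Equiv.Perm α).subtypePerm hpres ∈ alternatingGroup {x : α // x ∉ S} := by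
      rw [Equiv.Perm.mem_alternatingGroup]
      exact (Equiv.Perm.sign_subtypePerm _ hpres hsupp).trans
        (Equiv.Perm.mem_alternatingGroup.mp (π g).2)
    have h := hψ ⟨_, hσ⟩ g (Subtype.ext (Equiv.Perm.ofSubtype_subtypePerm hpres hsupp).symm)
    have h1 : ψ ⟨_, hσ⟩ = 1 := hperf _
    rw [h1, Subgroup.coe_one, one_mul] at h
    exact h
  -- the first generator
  obtain ⟨i0, j0, k, l, hi, hj, hk, hl, hij, hik, hil, hjk, hjl, hkl⟩ :
      ∃ i0 j0 k l : α, (i0 ≠ a ∧ i0 ≠ b) ∧ (j0 ≠ a ∧ j0 ≠ b) ∧ (k ≠ a ∧ k ≠ b) ∧ (l ≠ a ∧ l ≠ b) ∧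
        i0 ≠ j0 ∧ i0 ≠ k ∧ i0 ≠ l ∧ j0 ≠ k ∧ j0 ≠ l ∧ k ≠ l := by
    have h4 : 4 ≤ (({a, b} : Finset α)ᶜ).card := by
      rw [Finset.card_compl, Finset.card_pair hab]; omega
    obtain ⟨T, hT, hTc⟩ := Finset.exists_subset_card_eq h4
    obtain ⟨w, x, y, z, h1, h2, h3, h4', h5, h6, rfl⟩ := Finset.card_eq_four.mp hTc
    simp only [Finset.insert_subset_iff, Finset.singleton_subset_iff, Finset.mem_compl,
      Finset.mem_insert, Finset.mem_singleton, not_or] at hT
    exact ⟨w, x, y, z, hT.1, hT.2.1, hT.2.2.1, hT.2.2.2, h1, h2, h3, h4', h5, h6⟩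
  let i₀ : I := ⟨i0, hi⟩
  let j₀ : I := ⟨j0, hj⟩
  obtain ⟨σ0, hσa, hσb, hσo⟩ : ∃ σ : alternatingGroup α, (σ : Equiv.Perm α) a = b ∧
      (σ : Equiv.Perm α) b = a ∧ ∀ x, x ≠ a → x ≠ b → x ≠ k → x ≠ l → (σ : Equiv.Perm α) x = x := by
    refine ⟨⟨Equiv.swap a b * Equiv.swap k l, ?_⟩, ?_, ?_, fun x h1 h2 h3 h4 => ?_⟩
    · rw [Equiv.Perm.mem_alternatingGroup, Equiv.Perm.sign_mul, Equiv.Perm.sign_swap hab,
        Equiv.Perm.sign_swap hkl]
      rfl
    · rw [Equiv.Perm.mul_apply, Equiv.swap_apply_of_ne_of_ne hk.1.symm hl.1.symm,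
        Equiv.swap_apply_left]
    · rw [Equiv.Perm.mul_apply, Equiv.swap_apply_of_ne_of_ne hk.2.symm hl.2.symm,
        Equiv.swap_apply_right]
    · rw [Equiv.Perm.mul_apply, Equiv.swap_apply_of_ne_of_ne h3 h4,
        Equiv.swap_apply_of_ne_of_ne h1 h2]
  obtain ⟨g0, hg0⟩ := hπ σ0
  obtain ⟨W0, hW0, hW03, hW0g⟩ : ∃ W : Γ, π W = gen hab i₀ ∧ W ^ 3 = 1 ∧ g0 * W * g0⁻¹ = W⁻¹ := by
    obtain ⟨Y, hY⟩ := hπ (gen hab i₀)
    obtain ⟨δ, hδ, hδk⟩ : ∃ δ, δ = Y ^ 3 ∧ π δ = 1 :=
      ⟨_, rfl, by rw [map_pow, hY, gen_cube]⟩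
    obtain ⟨c, hcY, hck⟩ : ∃ c, g0 * Y * g0⁻¹ = c * Y⁻¹ ∧ π c = 1 :=
      ⟨g0 * Y * g0⁻¹ * Y, by rw [mul_inv_cancel_right], by
        rw [map_mul, map_mul, map_mul, map_inv, hg0, hY,
          gen_conj_swap hab i₀ σ0 hσa hσb (hσo _ hi.1 hi.2 hik hil), inv_mul_cancel]⟩
    have hc3 : c ^ 3 = δ ^ 2 := by
      have h1 : (g0 * Y * g0⁻¹) ^ 3 = δ := by
        rw [conj_pow, ← hδ, ← hcc δ hδk g0, mul_inv_cancel_right]
      rw [hcY, (show Commute c Y⁻¹ from hcc c hck _).mul_pow, inv_pow, ← hδ,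
        mul_inv_eq_iff_eq_mul] at h1
      rw [h1, sq]
    have hzk : π (c * δ⁻¹) = 1 := by rw [map_mul, map_inv, hck, hδk, inv_one, mul_one]
    have hcδ : Commute c δ⁻¹ := hcc c hck _
    refine ⟨c * δ⁻¹ * Y, by rw [map_mul, hzk, one_mul, hY], ?_, ?_⟩
    · rw [(show Commute (c * δ⁻¹) Y from hcc _ hzk _).mul_pow, hcδ.mul_pow, hc3, ← hδ]
      group
    · calc g0 * (c * δ⁻¹ * Y) * g0⁻¹ = c * δ⁻¹ * (g0 * Y * g0⁻¹) := by
            rw [← mul_assoc, ← hcc _ hzk g0]; group
        _ = c * δ⁻¹ * c * Y⁻¹ := by rw [hcY, ← mul_assoc]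
        _ = c * c * δ⁻¹ * Y⁻¹ := by rw [mul_assoc c δ⁻¹ c, ← hcδ.eq, ← mul_assoc]
        _ = Y⁻¹ * (c * c * δ⁻¹) := by
          rw [hcc _ (by rw [map_mul, map_mul, hck, map_inv, hδk]; simp) Y⁻¹]
        _ = Y⁻¹ * (c * δ⁻¹)⁻¹ := by
          congr 1
          rw [mul_inv_rev, inv_inv]
          have h3 : c * c * c = δ * δ := by rw [← sq, ← pow_succ, hc3, sq]
          calc c * c * δ⁻¹ = c * c * c * c⁻¹ * δ⁻¹ := by rw [mul_inv_cancel_right]
            _ = δ * δ * c⁻¹ * δ⁻¹ := by rw [h3]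
            _ = δ * (δ * (c⁻¹ * δ⁻¹)) := by group
            _ = δ * c⁻¹ := by
              rw [hcδ.inv_left.eq, mul_inv_cancel_left]
        _ = _ := (mul_inv_rev _ _).symm
  -- all generators
  have hmove : ∀ i : I, ∃ g, (π g : Equiv.Perm α) a = a ∧ (π g : Equiv.Perm α) b = b ∧
      (π g : Equiv.Perm α) i0 = (i : α) := by
    intro i
    obtain ⟨σ, h1, h2⟩ := exists_even_fix {a, b} (by rw [Finset.card_pair hab]; omega)
      (x := i0) (y := i.1) (by simp [hi.1, hi.2]) (by simp [i.2.1, i.2.2])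
    obtain ⟨g, rfl⟩ := hπ σ
    exact ⟨g, h2 a (by simp), h2 b (by simp), h1⟩
  choose G hGa hGb hGi using hmove
  let W : I → Γ := fun i => G i * W0 * (G i)⁻¹
  have hWπ : ∀ i, π (W i) = gen hab i := fun i => by
    simp only [W]
    rw [map_mul, map_mul, map_inv, hW0]
    exact gen_conj hab i₀ i _ (hGa i) (hGb i) (hGi i)
  have hequi : ∀ (g : Γ) (i j : I), (π g : Equiv.Perm α) a = a → (π g : Equiv.Perm α) b = b →
      (π g : Equiv.Perm α) i = (j : α) → g * W i * g⁻¹ = W j := by
    intro g i j ga gb gij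
    have hfa : ∀ (x : Γ) (t : α), (π x : Equiv.Perm α) t = t → (π x⁻¹ : Equiv.Perm α) t = t := by
      intro x t h
      rw [map_inv, Subgroup.coe_inv]
      exact Equiv.Perm.inv_eq_iff_eq.mpr h.symm
    have hh := hfix i₀ W0 hW0 ((G j)⁻¹ * g * G i)
      (by simp only [map_mul, Subgroup.coe_mul, Equiv.Perm.mul_apply, hGa i, ga]; exact hfa _ _ (hGa j))
      (by simp only [map_mul, Subgroup.coe_mul, Equiv.Perm.mul_apply, hGb i, gb]; exact hfa _ _ (hGb j))
      (by
        simp only [map_mul, map_inv, Subgroup.coe_mul, Subgroup.coe_inv, Equiv.Perm.mul_apply]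
        rw [Equiv.Perm.inv_eq_iff_eq, show ((i₀ : I) : α) = i0 from rfl, hGi i, hGi j, gij])
    calc g * W i * g⁻¹ = G j * ((G j)⁻¹ * g * G i * W0 * ((G j)⁻¹ * g * G i)⁻¹) * (G j)⁻¹ := by
          simp only [W]; group
      _ = _ := by rw [hh]
  have hW3 : ∀ i, W i ^ 3 = 1 := fun i => by
    simp only [W]; rw [conj_pow, hW03, mul_one, mul_inv_cancel]
  have hWi0 : W i₀ = W0 :=
    hfix i₀ W0 hW0 (G i₀) (hGa _) (hGb _) (hGi _)
  -- the pair value
  set ε := (W i₀ * W j₀) ^ 2 with hε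
  have hij₀ : i₀ ≠ j₀ := fun e => hij (congrArg Subtype.val e)
  have hεk : π ε = 1 := by rw [hε, map_pow, map_mul, hWπ, hWπ, gen_prod_sq hab _ _ hij₀]
  have hpairs : ∀ i j : I, i ≠ j → (W i * W j) ^ 2 = ε := by
    intro i j hne
    obtain ⟨σ1, h11, h12⟩ := exists_even_fix {a, b} (by rw [Finset.card_pair hab]; omega)
      (x := i0) (y := i.1) (by simp [hi.1, hi.2]) (by simp [i.2.1, i.2.2])
    have hj' : (σ1 : Equiv.Perm α) j0 ∉ ({a, b, i.1} : Finset α) := by
      simp only [Finset.mem_insert, Finset.mem_singleton, not_or]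
      refine ⟨fun e => hj.1 ?_, fun e => hj.2 ?_, fun e => hij ?_⟩ <;>
        apply (σ1 : Equiv.Perm α).injective
      · rw [e, h12 a (by simp)]
      · rw [e, h12 b (by simp)]
      · rw [e, h11]
    obtain ⟨σ2, h21, h22⟩ := exists_even_fix {a, b, i.1}
      (by
        have h1 := Finset.card_insert_le a ({b, i.1} : Finset α)
        have h2 := Finset.card_insert_le b ({i.1} : Finset α)
        rw [Finset.card_singleton] at h2
        omega)
      hj' (y := j.1)
      (by simp [j.2.1, j.2.2]; exact fun e => hne (Subtype.ext e.symm))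
    obtain ⟨g, hg⟩ := hπ (σ2 * σ1)
    have e1 := hequi g i₀ i (by rw [hg]; simp [h12 a, h22 a]) (by rw [hg]; simp [h12 b, h22 b])
      (by rw [hg]; simp [i₀, h11, h22 i.1])
    have e2 := hequi g j₀ j (by rw [hg]; simp [h12 a, h22 a]) (by rw [hg]; simp [h12 b, h22 b])
      (by rw [hg]; simp [j₀, h21])
    calc (W i * W j) ^ 2 = (g * (W i₀ * W j₀) * g⁻¹) ^ 2 := by rw [← e1, ← e2]; group
      _ = g * ε * g⁻¹ := conj_pow
      _ = ε := by rw [← hcc ε hεk g, mul_inv_cancel_right]
  have hε2 : ε ^ 2 = 1 := by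
    have hgj : g0 * W j₀ * g0⁻¹ = (W j₀)⁻¹ := by
      obtain ⟨σ, h1, h2⟩ := exists_even_fix {a, b, k, l}
        (by
          have h1 := Finset.card_insert_le a ({b, k, l} : Finset α)
          have h2 := Finset.card_insert_le b ({k, l} : Finset α)
          rw [Finset.card_pair hkl] at h2
          omega)
        (x := i0) (y := j0) (by simp [hi.1, hi.2, hik, hil]) (by simp [hj.1, hj.2, hjk, hjl])
      obtain ⟨h, rfl⟩ := hπ σ
      have hw := hequi h i₀ j₀ (h2 a (by simp)) (h2 b (by simp)) h1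
      have hcomm : π (g0 * h) = π (h * g0) := by
        rw [map_mul, map_mul, hg0]
        refine Subtype.ext (Equiv.ext fun x => ?_)
        simp only [Subgroup.coe_mul, Equiv.Perm.mul_apply]
        set p := (π h : Equiv.Perm α) with hp
        set s := (σ0 : Equiv.Perm α) with hs
        by_cases hx : x ∈ ({a, b, k, l} : Finset α)
        · rw [h2 x hx]
          refine (h2 _ ?_).symm
          by_contra hsx
          simp only [Finset.mem_insert, Finset.mem_singleton, not_or] at hsx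
          have := hσo _ hsx.1 hsx.2.1 hsx.2.2.1 hsx.2.2.2
          rw [s.injective this] at hsx
          simp [hsx.1, hsx.2.1, hsx.2.2.1, hsx.2.2.2] at hx
        · have hpx : p x ∉ ({a, b, k, l} : Finset α) := fun hpx => hx (by
            rwa [p.injective (h2 _ hpx)] at hpx)
          simp only [Finset.mem_insert, Finset.mem_singleton, not_or] at hx hpx
          rw [hσo _ hx.1 hx.2.1 hx.2.2.1 hx.2.2.2, hσo _ hpx.1 hpx.2.1 hpx.2.2.1 hpx.2.2.2]
      obtain ⟨z, hz, hzk⟩ : ∃ z, g0 * h = z * (h * g0) ∧ π z = 1 :=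
        ⟨g0 * h * (h * g0)⁻¹, by rw [inv_mul_cancel_right], by
          rw [map_mul, map_inv, hcomm, mul_inv_cancel]⟩
      calc g0 * W j₀ * g0⁻¹ = g0 * h * W i₀ * (g0 * h)⁻¹ := by rw [← hw]; group
        _ = z * ((h * g0) * W i₀ * (h * g0)⁻¹) * z⁻¹ := by rw [hz]; group
        _ = (h * g0) * W i₀ * (h * g0)⁻¹ := by rw [hcc z hzk, mul_inv_cancel_right]
        _ = h * (g0 * W0 * g0⁻¹) * h⁻¹ := by rw [hWi0]; group
        _ = (W j₀)⁻¹ := by rw [hW0g, ← hWi0, ← hw]; group
    have h1 : g0 * ε * g0⁻¹ = ε := by rw [← hcc ε hεk g0, mul_inv_cancel_right]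
    have h2 : g0 * ε * g0⁻¹ = ε⁻¹ := by
      calc g0 * ε * g0⁻¹ = (g0 * W i₀ * g0⁻¹ * (g0 * W j₀ * g0⁻¹)) ^ 2 := by
            rw [hε, ← conj_pow]; group
        _ = ((W i₀)⁻¹ * (W j₀)⁻¹) ^ 2 := by rw [hgj, hWi0, hW0g]
        _ = ((W j₀ * W i₀) ^ 2)⁻¹ := by rw [← mul_inv_rev, inv_pow]
        _ = ε⁻¹ := by rw [hpairs j₀ i₀ hij₀.symm]
    rw [sq]
    nth_rewrite 1 [h1.symm.trans h2]
    exact inv_mul_cancel ε
  -- the presentation
  have hεc : ε ∈ Subgroup.center Γ := hc hεk
  haveI hN : (Subgroup.zpowers ε).Normal := ⟨fun x hx t => by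
    have hxc : x ∈ Subgroup.center Γ := Subgroup.zpowers_le.mpr hεc hx
    rw [Subgroup.mem_center_iff.mp hxc t, mul_assoc, mul_inv_cancel, mul_one]
    exact hx⟩
  obtain ⟨m, hm⟩ : ∃ m, Fintype.card I = m + 1 :=
    ⟨Fintype.card I - 1, by have := Fintype.card_pos_iff.mpr ⟨i₀⟩; omega⟩
  let e : Fin (m + 1) ≃ I := (finCongr hm.symm).trans (Fintype.equivFin I).symm
  let q := QuotientGroup.mk' (Subgroup.zpowers ε)
  have hbound := card_closure_le m (fun t => q (W (e t)))
    (fun t => by rw [← map_pow, hW3, map_one])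
    (fun s t hst => by
      rw [← map_mul, ← map_pow, hpairs _ _ (e.injective.ne hst), QuotientGroup.mk'_apply,
        QuotientGroup.eq_one_iff]
      exact Subgroup.mem_zpowers ε)
  have hm2 : m + 3 = Fintype.card α := by
    have h : Fintype.card I = Fintype.card α - 2 := by
      rw [Fintype.card_congr (Equiv.subtypeEquivRight fun x =>
        show (x ≠ a ∧ x ≠ b) ↔ x ∉ ({a, b} : Finset α) by simp), Fintype.card_subtype_compl,
        Fintype.card_coe, Finset.card_pair hab]
    omega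
  set Γ0 := Subgroup.closure (Set.range W) with hΓ0
  have himg : Γ0.map π = ⊤ := by
    rw [hΓ0, MonoidHom.map_closure, ← closure_gen hab]
    congr 1
    rw [← Set.range_comp]
    exact congrArg Set.range (funext hWπ)
  have hder : commutator Γ ≤ Γ0 := by
    rw [commutator_def, Subgroup.commutator_le]
    intro x _ y _
    have hex : ∀ x : Γ, ∃ w ∈ Γ0, ∃ z, π z = 1 ∧ x = z * w := fun x => by
      obtain ⟨w, hw, hwx⟩ := (himg ▸ Subgroup.mem_top (π x) : π x ∈ Γ0.map π)
      exact ⟨w, hw, x * w⁻¹, by rw [map_mul, map_inv, hwx, mul_inv_cancel], by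
        rw [inv_mul_cancel_right]⟩
    obtain ⟨w, hw, z, hz, rfl⟩ := hex x
    obtain ⟨w', hw', z', hz', rfl⟩ := hex y
    have : ⁅z * w, z' * w'⁆ = ⁅w, w'⁆ := by
      simp only [commutatorElement_def, mul_inv_rev]
      calc z * w * (z' * w') * (w⁻¹ * z⁻¹) * (w'⁻¹ * z'⁻¹)
          = z * ((w * z') * w' * w⁻¹ * z⁻¹) * (w'⁻¹ * z'⁻¹) := by group
        _ = z * (z' * (w * w' * w⁻¹) * z⁻¹) * (w'⁻¹ * z'⁻¹) := by rw [← hcc z' hz' w]; group
        _ = z' * (w * w' * w⁻¹) * z⁻¹ * z * (w'⁻¹ * z'⁻¹) := by rw [hcc z hz]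
        _ = z' * (w * w' * w⁻¹ * w'⁻¹) * z'⁻¹ := by group
        _ = _ := by rw [hcc z' hz', mul_inv_cancel_right]
    rw [this]
    exact Γ0.mul_mem (Γ0.mul_mem (Γ0.mul_mem hw hw') (Γ0.inv_mem hw)) (Γ0.inv_mem hw')
  have hεker : Subgroup.zpowers ε ≤ π.ker := Subgroup.zpowers_le.mpr hεk
  let πb := QuotientGroup.lift (Subgroup.zpowers ε) π hεker
  set K := Subgroup.closure (Set.range fun t => q (W (e t))) with hK
  have hmapW : Γ0.map q = K := by
    rw [hΓ0, MonoidHom.map_closure, hK]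
    congr 1
    rw [← Set.range_comp]
    exact (e.surjective.range_comp (fun i => q (W i))).symm
  have hsurj : Function.Surjective (πb.comp K.subtype) := fun σ => by
    obtain ⟨w, hw, hwσ⟩ := (himg ▸ Subgroup.mem_top σ : σ ∈ Γ0.map π)
    exact ⟨⟨q w, hmapW ▸ Subgroup.mem_map_of_mem q hw⟩, hwσ⟩
  haveI : Nontrivial α := ⟨⟨a, b, hab⟩⟩
  have hcardA : 2 * Nat.card (alternatingGroup α) = (Fintype.card α)! := by
    rw [Nat.card_eq_fintype_card, two_mul_card_alternatingGroup, Fintype.card_perm]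
  have hbij : Function.Bijective (πb.comp K.subtype) := by
    refine hsurj.bijective_of_nat_card_le ?_
    rw [← hm2] at hcardA
    omega
  have hle : π.ker ≤ Subgroup.zpowers ε := fun z hz => by
    have hzK : q z ∈ K := hmapW ▸ Subgroup.mem_map_of_mem q (hder (hd hz))
    have h1 : (⟨q z, hzK⟩ : K) = 1 := hbij.1 (by rw [map_one]; exact hz)
    have h2 : q z = 1 := congrArg Subtype.val h1
    rwa [QuotientGroup.mk'_apply, QuotientGroup.eq_one_iff] at h2
  calc Nat.card π.ker ≤ Nat.card (Subgroup.zpowers ε) := Subgroup.card_le_of_le hle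
    _ = orderOf ε := Nat.card_zpowers ε
    _ ≤ 2 := Nat.le_of_dvd two_pos (orderOf_dvd_of_pow_eq_one hε2)

end Large

end CfsgLib.AltMult
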