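import Cfsg.Agent.Lib.CharGallagher
import Cfsg.Agent.Lib.CharDegree
import Cfsg.Agent.Lib.CoreFitting
import Cfsg.Agent.Lib.CorePGroup
import Mathlib.Algebra.Order.Chebyshev

/-!
# Monomial induction from maximal subgroups over solvable quotients

A character induced from a maximal subgroup cannot be quasi-primitive over a solvable quotient.
-/

set_option autoImplicit false
set_option linter.style.haveILetI false
set_option linter.unusedSectionVars false

namespace CfsgLib.Char

open Cfsg Representation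
open scoped ComplexConjugate

universe u

variable {G : Type u} [Group G]

/-- A normal `p`-subgroup normalised by a `p`-group is centralised somewhere. -/
theorem exists_fixed_of_pGroups [Finite G] {p : ℕ} [hp : Fact p.Prime] {M R : Subgroup G}
    [M.Normal] (hM : IsPGroup p M) (hR : IsPGroup p R) (hne : M ≠ ⊥) :
    M ⊓ Subgroup.centralizer (R : Set G) ≠ ⊥ := by
  have hS : IsPGroup p ↥(M ⊔ R) := hM.to_sup_of_normal_left hR
  haveI := hS.isNilpotent
  haveI : (M.subgroupOf (M ⊔ R)).Normal := Subgroup.normal_subgroupOf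
  have h := CfsgLib.Core.nilpotent_inf_center_ne_bot (G := ↥(M ⊔ R)) (N := M.subgroupOf (M ⊔ R))
    fun hb => hne (by
      rw [Subgroup.subgroupOf_eq_bot, disjoint_iff] at hb
      rwa [inf_eq_left.mpr (le_sup_left : M ≤ M ⊔ R)] at hb)
  intro hbot
  refine h ((Subgroup.eq_bot_iff_forall _).mpr fun x hx => ?_)
  obtain ⟨hx1, hx2⟩ := Subgroup.mem_inf.mp hx
  have hxc : (x : G) ∈ M ⊓ Subgroup.centralizer (R : Set G) :=
    Subgroup.mem_inf.mpr ⟨hx1, Subgroup.mem_centralizer_iff.mpr fun r hr =>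
      congrArg Subtype.val (Subgroup.mem_center_iff.mp hx2 ⟨r, Subgroup.mem_sup_right hr⟩)⟩
  rw [hbot, Subgroup.mem_bot] at hxc
  exact Subtype.ext hxc

/-- The chief factor data below a core-free maximal subgroup of a solvable group. -/
theorem exists_primitive_data [Finite G] [Group.IsSolvable G] (H : Subgroup G) (hmax : IsCoatom H)
    (hcore : H.normalCore = ⊥) (hH : H ≠ ⊥) :
    ∃ M T : Subgroup G, M.Normal ∧ T.Normal ∧ M ⊓ H = ⊥ ∧ M ⊔ H = ⊤ ∧ M ≤ T ∧
      (M.relIndex T).Coprime (Nat.card M) ∧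
      ∃ r ∈ T ⊓ H, ∃ m ∈ M, m⁻¹ * r * m * r⁻¹ ≠ 1 := by
  classical
  haveI : Nontrivial G := by
    by_contra h
    rw [not_nontrivial_iff_subsingleton] at h
    exact hH (Subgroup.eq_bot_of_subsingleton H)
  obtain ⟨M, hMn, hM0, -, hMmin⟩ :=
    CfsgLib.Core.exists_minimal_normal_le (N := (⊤ : Subgroup G)) top_ne_bot
  haveI := hMn
  haveI hMc := CfsgLib.Core.isMulCommutative_of_minimal_normal hMmin
  obtain ⟨p, hp, hMp⟩ := CfsgLib.Core.exists_isPGroup_of_minimal_normal hM0 hMmin
  haveI := Fact.mk hp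
  have hcomm : ∀ a ∈ M, ∀ b ∈ M, a * b = b * a := fun a ha b hb =>
    congrArg Subtype.val (hMc.is_comm.comm ⟨a, ha⟩ ⟨b, hb⟩)
  have hMH : ¬ M ≤ H := fun h => hM0 (le_bot_iff.mp (hcore ▸ Subgroup.normal_le_normalCore.mpr h))
  have hsup : M ⊔ H = ⊤ :=
    hmax.2 _ (lt_of_le_of_ne le_sup_right fun h => hMH (h ▸ le_sup_left))
  have hnorm : ∀ K : Subgroup G, (∀ m ∈ M, ∀ k ∈ K, m * k * m⁻¹ ∈ K) →
      (∀ h ∈ H, ∀ k ∈ K, h * k * h⁻¹ ∈ K) → K.Normal := fun K hK1 hK2 => ⟨fun k hk g => by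
    have hg : g ∈ M ⊔ H := hsup ▸ Subgroup.mem_top g
    obtain ⟨m, hm, h, hh, rfl⟩ := Subgroup.mem_sup_of_normal_left.mp hg
    have := hK1 m hm _ (hK2 h hh k hk)
    simpa [mul_assoc] using this⟩
  have hinf : M ⊓ H = ⊥ := by
    have hn : (M ⊓ H).Normal := hnorm _ (fun m hm k hk => by
      rw [hcomm m hm k (Subgroup.mem_inf.mp hk).1, mul_inv_cancel_right]; exact hk)
      fun h hh k hk => Subgroup.mem_inf.mpr ⟨hMn.conj_mem k (Subgroup.mem_inf.mp hk).1 h,
        H.mul_mem (H.mul_mem hh (Subgroup.mem_inf.mp hk).2) (H.inv_mem hh)⟩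
    rcases hMmin _ hn inf_le_left with h | h
    · exact h
    · exact absurd (inf_eq_left.mp h) hMH
  haveI : Nontrivial H := (Subgroup.nontrivial_iff_ne_bot H).mpr hH
  obtain ⟨R0, hR0n, hR00, -, hR0min⟩ :=
    CfsgLib.Core.exists_minimal_normal_le (N := (⊤ : Subgroup H)) top_ne_bot
  haveI := hR0n
  obtain ⟨l, hl, hR0l⟩ := CfsgLib.Core.exists_isPGroup_of_minimal_normal hR00 hR0min
  set R : Subgroup G := R0.map H.subtype with hR
  have hRH : R ≤ H := Subgroup.map_subtype_le R0
  have hR1 : R ≠ ⊥ := fun h => hR00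
    ((Subgroup.map_eq_bot_iff_of_injective _ H.subtype_injective).mp h)
  have hRn : ∀ h ∈ H, ∀ k ∈ R, h * k * h⁻¹ ∈ R := by
    rintro h hh _ ⟨k, hk, rfl⟩
    exact ⟨⟨h, hh⟩ * k * ⟨h, hh⟩⁻¹, hR0n.conj_mem k hk _, rfl⟩
  have hmove : ∃ r ∈ R, ∃ m ∈ M, m⁻¹ * r * m * r⁻¹ ≠ 1 := by
    by_contra hcon
    push Not at hcon
    have hRnormal : R.Normal := hnorm R (fun m hm k hk => by
      have h : m⁻¹ * k * m = k := mul_inv_eq_one.mp (hcon k hk m hm)
      have h' : m * k * m⁻¹ = k := by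
        conv_lhs => rw [← h]
        simp [mul_assoc]
      rw [h']; exact hk) hRn
    exact hR1 (le_bot_iff.mp (hcore ▸ Subgroup.normal_le_normalCore.mpr hRH))
  have hne : l ≠ p := by
    rintro rfl
    have hRp : IsPGroup l R := hR0l.map H.subtype
    have hn : (M ⊓ Subgroup.centralizer (R : Set G)).Normal := hnorm _
      (fun m hm k hk => by
        rw [hcomm m hm k (Subgroup.mem_inf.mp hk).1, mul_inv_cancel_right]; exact hk)
      fun h hh k hk => by
        obtain ⟨hk1, hk2⟩ := Subgroup.mem_inf.mp hk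
        refine Subgroup.mem_inf.mpr ⟨hMn.conj_mem k hk1 h,
          Subgroup.mem_centralizer_iff.mpr fun r hr => ?_⟩
        have hr' : h⁻¹ * r * h ∈ R := by simpa using hRn h⁻¹ (H.inv_mem hh) r hr
        have h2 := Subgroup.mem_centralizer_iff.mp hk2 _ hr'
        calc r * (h * k * h⁻¹) = h * ((h⁻¹ * r * h) * k) * h⁻¹ := by group
          _ = h * (k * (h⁻¹ * r * h)) * h⁻¹ := by rw [h2]
          _ = h * k * h⁻¹ * r := by group
    rcases hMmin _ hn inf_le_left with h | h
    · exact exists_fixed_of_pGroups hMp hRp hM0 h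
    · obtain ⟨r, hr, m, hm, hrm⟩ := hmove
      have h2 := Subgroup.mem_centralizer_iff.mp (Subgroup.mem_inf.mp (h.symm ▸ hm :
        m ∈ M ⊓ Subgroup.centralizer (R : Set G))).2 r hr
      refine hrm ?_
      rw [mul_assoc m⁻¹ r m, h2, inv_mul_cancel_left, mul_inv_cancel]
  have hcop : (Nat.card R).Coprime (Nat.card M) := by
    haveI := Fact.mk hl
    obtain ⟨a, ha⟩ := (hR0l.map H.subtype).exists_card_eq
    obtain ⟨b, hb⟩ := hMp.exists_card_eq
    rw [hR, ha, hb]
    exact ((Nat.coprime_primes hl hp).mpr hne).pow a b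
  refine ⟨M, M ⊔ R, hMn, hnorm _ (fun m hm k hk => ?_) (fun h hh k hk => ?_), hinf, hsup,
    le_sup_left, ?_, ?_⟩
  · exact (M ⊔ R).mul_mem ((M ⊔ R).mul_mem (Subgroup.mem_sup_left hm) hk)
      ((M ⊔ R).inv_mem (Subgroup.mem_sup_left hm))
  · obtain ⟨a, ha, b, hb, rfl⟩ := Subgroup.mem_sup_of_normal_left.mp hk
    rw [show h * (a * b) * h⁻¹ = (h * a * h⁻¹) * (h * b * h⁻¹) by group]
    exact (M ⊔ R).mul_mem (Subgroup.mem_sup_left (hMn.conj_mem a ha h))
      (Subgroup.mem_sup_right (hRn h hh b hb))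
  · rw [sup_comm, Subgroup.relIndex_sup_right]
    exact hcop.coprime_dvd_left (Subgroup.relIndex_dvd_card M R)
  · obtain ⟨r, hr, hrm⟩ := hmove
    exact ⟨r, Subgroup.mem_inf.mpr ⟨Subgroup.mem_sup_right hr, hRH hr⟩, hrm⟩

section

variable [Fintype G]

/-- Induction from `H` computed inside a subgroup `X` with `X H = G`. -/
theorem indFun_cover (X H : Subgroup G) [X.Normal] [Fintype X] (hX : X ⊔ H = ⊤) {θ : H → ℂ}
    (hθ : IsClassFunction H θ) (y : G) :
    indFun H θ y = (Nat.card ↥(X ⊓ H) : ℂ)⁻¹ *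
      ∑ x : X, extendByZero H θ ((x : G)⁻¹ * y * x) := by
  classical
  haveI : Fintype H := Fintype.ofFinite _
  let F : G → ℂ := fun g => extendByZero H θ (g⁻¹ * y * g)
  have hF : ∀ (g : G) (h : H), F (g * h) = F g := fun g h => by
    have e : (g * h)⁻¹ * y * (g * h) = (h : G)⁻¹ * (g⁻¹ * y * g) * h := by group
    show extendByZero H θ _ = extendByZero H θ _
    rw [e]
    by_cases hm : g⁻¹ * y * g ∈ H
    · rw [extendByZero_mem θ hm,
        extendByZero_mem θ (H.mul_mem (H.mul_mem (H.inv_mem h.2) hm) h.2)]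
      refine Eq.trans (congrArg θ (Subtype.ext ?_)) (hθ ⟨_, hm⟩ h⁻¹)
      simp
    · rw [extendByZero_not_mem θ hm, extendByZero_not_mem]
      intro h'
      have := H.mul_mem (H.mul_mem h.2 h') (H.inv_mem h.2)
      exact hm (by simpa [mul_assoc] using this)
  have hkey : (Nat.card ↥(X ⊓ H) : ℂ) * ∑ g : G, F g = (Nat.card H : ℂ) * ∑ x : X, F x := by
    have hfib : ∀ g : G, (Finset.univ.filter fun z : X × H => (z.1 : G) * z.2 = g).card =
        Nat.card ↥(X ⊓ H) := by
      intro g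
      have hg : g ∈ X ⊔ H := hX ▸ Subgroup.mem_top g
      obtain ⟨a, ha, b, hb, rfl⟩ := Subgroup.mem_sup_of_normal_left.mp hg
      rw [← Fintype.card_subtype, ← Nat.card_eq_fintype_card]
      refine Nat.card_congr
        { toFun := fun z => ⟨a⁻¹ * (z.1.1 : G), Subgroup.mem_inf.mpr
            ⟨X.mul_mem (X.inv_mem ha) z.1.1.2, by
              have e : a⁻¹ * (z.1.1 : G) = b * (z.1.2 : G)⁻¹ := by
                rw [eq_mul_inv_iff_mul_eq, mul_assoc, z.2, inv_mul_cancel_left]
              rw [e]; exact H.mul_mem hb (H.inv_mem z.1.2.2)⟩⟩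
          invFun := fun d => ⟨(⟨a * d, X.mul_mem ha (Subgroup.mem_inf.mp d.2).1⟩,
            ⟨(d : G)⁻¹ * b, H.mul_mem (H.inv_mem (Subgroup.mem_inf.mp d.2).2) hb⟩),
            by show a * (d : G) * ((d : G)⁻¹ * b) = a * b; group⟩
          left_inv := fun z => ?_
          right_inv := fun d => Subtype.ext (by simp) }
      obtain ⟨⟨u, v⟩, hz⟩ := z
      refine Subtype.ext (Prod.ext (Subtype.ext (mul_inv_cancel_left a (u : G))) (Subtype.ext ?_))
      show (a⁻¹ * (u : G))⁻¹ * b = v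
      rw [mul_inv_rev, inv_inv, mul_assoc, ← (hz : (u : G) * v = a * b), inv_mul_cancel_left]
    have h1 : ∑ z : X × H, F ((z.1 : G) * z.2) = (Nat.card ↥(X ⊓ H) : ℂ) * ∑ g : G, F g := by
      rw [← Finset.sum_fiberwise Finset.univ (fun z : X × H => (z.1 : G) * z.2), Finset.mul_sum]
      refine Finset.sum_congr rfl fun g _ => ?_
      rw [Finset.sum_congr rfl fun z hz => show F ((z.1 : G) * z.2) = F g by
        rw [(Finset.mem_filter.mp hz).2], Finset.sum_const, hfib, nsmul_eq_mul]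
    rw [← h1, Fintype.sum_prod_type, Finset.mul_sum]
    refine Finset.sum_congr rfl fun x _ => ?_
    rw [Finset.sum_congr rfl fun h _ => hF x h, Finset.sum_const, Finset.card_univ, nsmul_eq_mul,
      ← Nat.card_eq_fintype_card]
  rw [indFun_apply]
  have h0 := natCard_ne_zero H
  have h0' := natCard_ne_zero ↥(X ⊓ H)
  field_simp
  linear_combination hkey

/-- The norm on `X` of a character induced from `H`, when `X H = G`. -/
theorem inner_cover (X H : Subgroup G) [X.Normal] [Fintype X] [Fintype ↥(X ⊓ H)]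
    (hX : X ⊔ H = ⊤) {θ : H → ℂ} (hθ : IsClassFunction H θ) :
    classInner (fun x : X => indFun H θ x) (fun x : X => indFun H θ x) =
      classInner (fun d : ↥(X ⊓ H) => θ ⟨d, (Subgroup.mem_inf.mp d.2).2⟩)
        (fun d : ↥(X ⊓ H) => indFun H θ d) := by
  classical
  set χ := indFun H θ with hχ
  have hcl : IsClassFunction G χ := indFun_classFunction θ
  have h1 : ∀ x : X, ∑ t : X, extendByZero H θ ((x : G)⁻¹ * t * x) * conj (χ t) =
      ∑ d : ↥(X ⊓ H), θ ⟨d, (Subgroup.mem_inf.mp d.2).2⟩ * conj (χ d) := by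
    intro x
    have e1 : ∑ t : X, extendByZero H θ ((x : G)⁻¹ * t * x) * conj (χ t) =
        ∑ t : X, extendByZero H θ (t : G) * conj (χ t) := by
      refine (Fintype.sum_equiv (MulAut.conj x).toEquiv _ _ fun t => ?_).symm
      show _ = extendByZero H θ ((x : G)⁻¹ * ((x : G) * t * (x : G)⁻¹) * x) *
        conj (χ ((x : G) * t * (x : G)⁻¹))
      rw [hcl, show (x : G)⁻¹ * ((x : G) * t * (x : G)⁻¹) * x = t by group]
    rw [e1]
    refine (Fintype.sum_of_injective (Subgroup.inclusion (inf_le_left : X ⊓ H ≤ X))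
      (Subgroup.inclusion_injective _) _ _ (fun t ht => ?_) fun d => ?_).symm
    · rw [extendByZero_not_mem, zero_mul]
      exact fun h => ht ⟨⟨t, Subgroup.mem_inf.mpr ⟨t.2, h⟩⟩, rfl⟩
    · rw [extendByZero_mem θ (show ((Subgroup.inclusion (inf_le_left : X ⊓ H ≤ X) d : X) : G) ∈ H
        from (Subgroup.mem_inf.mp d.2).2)]
      rfl
  have h2 : ∑ t : X, χ t * conj (χ t) = (Nat.card ↥(X ⊓ H) : ℂ)⁻¹ * (Nat.card X : ℂ) *
      ∑ d : ↥(X ⊓ H), θ ⟨d, (Subgroup.mem_inf.mp d.2).2⟩ * conj (χ d) := by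
    calc ∑ t : X, χ t * conj (χ t)
        = ∑ t : X, (Nat.card ↥(X ⊓ H) : ℂ)⁻¹ *
            ∑ x : X, extendByZero H θ ((x : G)⁻¹ * t * x) * conj (χ t) := by
          refine Finset.sum_congr rfl fun t _ => ?_
          conv_lhs => arg 1; rw [hχ, indFun_cover X H hX hθ]
          rw [mul_assoc, Finset.sum_mul]
      _ = _ := by
          rw [← Finset.mul_sum, Finset.sum_comm, Finset.sum_congr rfl fun x _ => h1 x,
            Finset.sum_const, Finset.card_univ, nsmul_eq_mul, ← Nat.card_eq_fintype_card, mul_assoc]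
  simp only [classInner]
  rw [h2]
  field_simp [natCard_ne_zero X]

end

/-- A character whose restriction is irreducible is irreducible. -/
theorem isIrr_of_restrict [Finite G] (C : Subgroup G) {θ : G → ℂ} (hθ : IsCharacter G θ)
    (h : IsIrrCharacter C (fun c : C => θ c)) : IsIrrCharacter G θ := by
  obtain ⟨n, σ, rfl⟩ := hθ
  obtain ⟨m, ρ, hρ, he⟩ := h
  haveI := hρ
  haveI := nontrivial_of_irreducible ρ
  haveI : Fintype C := Fintype.ofFinite _
  obtain ⟨e⟩ := equiv_of_char_eq _ (Fin m → ℂ) (Fin n → ℂ) ρ (σ.comp C.subtype) rfl he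
  refine ⟨n, σ, ?_, rfl⟩
  rw [isIrreducible_iff_forall]
  refine ⟨e.toLinearEquiv.injective.nontrivial, fun W hW => ?_⟩
  rcases subrep_eq_bot_or_eq_top ρ (W.comap e.toLinearEquiv.toLinearMap) (fun c v hv => by
    show e.toLinearEquiv (ρ c v) ∈ W
    rw [show e.toLinearEquiv (ρ c v) = σ (c : G) (e.toLinearEquiv v) from
      IntertwiningMap.isIntertwining ρ (σ.comp C.subtype) e.toIntertwiningMap c v]
    exact hW (c : G) _ hv) with h0 | h0
  · refine Or.inl ((Submodule.eq_bot_iff _).mpr fun w hw => ?_)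
    have hw' : e.toLinearEquiv.symm w ∈ W.comap e.toLinearEquiv.toLinearMap := by
      show e.toLinearEquiv (e.toLinearEquiv.symm w) ∈ W
      rwa [LinearEquiv.apply_symm_apply]
    rw [h0, Submodule.mem_bot, LinearEquiv.map_eq_zero_iff] at hw'
    exact hw'
  · refine Or.inr (Submodule.eq_top_iff'.mpr fun w => ?_)
    have hw' : e.toLinearEquiv.symm w ∈ W.comap e.toLinearEquiv.toLinearMap := by
      rw [h0]; trivial
    rwa [Submodule.mem_comap, LinearEquiv.coe_toLinearMap, LinearEquiv.apply_symm_apply] at hw'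

/-- A character containing an irreducible one as often as the degree allows is its multiple. -/
theorem eq_smul_of_degree [Fintype G] {θ χ : G → ℂ} (hθ : IsCharacter G θ)
    (hχ : IsIrrCharacter G χ) {k : ℕ} (h : classInner θ χ = k) (hdeg : θ 1 = (k : ℂ) * χ 1) :
    θ = (k : ℂ) • χ := by
  classical
  have hcl := isCharacter_classFunction hθ
  have hsum := classFunction_eq_sum θ hcl
  choose a ha using fun ξ : IrrCharacter G => inner_character_nat hθ ξ.2.isCharacter'
  choose d hd0 hd using fun ξ : IrrCharacter G => exists_degree_pos ξ.2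
  simp only [ha] at hsum
  set χ₀ : IrrCharacter G := ⟨χ, hχ⟩
  have h1 : θ 1 = ((∑ ξ : IrrCharacter G, a ξ * d ξ : ℕ) : ℂ) := by
    conv_lhs => rw [hsum]
    simp [hd, Finset.sum_apply]
  have hk : a χ₀ = k := by
    have e : (a χ₀ : ℂ) = k := (ha χ₀).symm.trans h
    exact_mod_cast e
  rw [hdeg, show χ 1 = (d χ₀ : ℂ) from hd χ₀, ← Nat.cast_mul, Nat.cast_inj,
    ← Finset.add_sum_erase _ _ (Finset.mem_univ χ₀), hk] at h1
  have h4 : ∀ ξ ∈ Finset.univ.erase χ₀, a ξ * d ξ = 0 :=
    Finset.sum_eq_zero_iff.mp (by omega)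
  rw [hsum, Finset.sum_eq_single χ₀]
  · rw [hk]
  · intro ξ _ hξ
    rcases mul_eq_zero.mp (h4 ξ (Finset.mem_erase.mpr ⟨hξ, Finset.mem_univ ξ⟩)) with e | e
    · rw [e]; simp
    · exact absurd e (hd0 ξ).ne'
  · exact fun h => absurd (Finset.mem_univ _) h

/-- A character induced from a maximal subgroup over a solvable quotient is not homogeneous on
every normal subgroup. -/
theorem exists_not_homogeneous [Fintype G] (L H : Subgroup G) [hL : L.Normal] (hLH : L ≤ H)
    (hmax : IsCoatom H) (hsolv : Group.IsSolvable (G ⧸ L)) {ϑ : H → ℂ} (hϑ : IsIrrCharacter H ϑ)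
    (hϑL : IsIrrCharacter L (fun x : L => ϑ ⟨(x : G), hLH x.2⟩))
    (hind : IsIrrCharacter G (indFun H ϑ)) :
    ∃ M : Subgroup G, M.Normal ∧ L ≤ M ∧ ¬ ∃ (φ : M → ℂ) (e : ℕ), IsIrrCharacter M φ ∧
      (fun m : M => indFun H ϑ m) = (e : ℂ) • φ := by
  classical
  by_contra hno
  push Not at hno
  set χ := indFun H ϑ with hχdef
  obtain ⟨C, hCdef⟩ : ∃ C : Subgroup G, C = H.normalCore := ⟨_, rfl⟩
  haveI hCn : C.Normal := by rw [hCdef]; infer_instance
  have hCH : C ≤ H := hCdef ▸ Subgroup.normalCore_le H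
  have hLC : L ≤ C := hCdef ▸ Subgroup.normal_le_normalCore.mpr hLH
  haveI hsolvC : Group.IsSolvable (G ⧸ C) :=
    Group.isSolvable_of_surjective (f := QuotientGroup.map L C (MonoidHom.id G) hLC)
      fun q => by
        obtain ⟨g, rfl⟩ := QuotientGroup.mk'_surjective C q
        exact ⟨QuotientGroup.mk g, rfl⟩
  haveI : Fintype C := Fintype.ofFinite _
  haveI : Fintype H := Fintype.ofFinite _
  -- on the core
  set φ : C → ℂ := fun c => ϑ ⟨c, hCH c.2⟩ with hφdef
  have hφc : IsCharacter C φ := isCharacter_comp hϑ.isCharacter' (Subgroup.inclusion hCH)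
  have hφ : IsIrrCharacter C φ := by
    refine isIrr_of_restrict (L.subgroupOf C) hφc ?_
    exact isIrrCharacter_comp_equiv hϑL (Subgroup.subgroupOfEquivOfLe hLC)
  obtain ⟨φ0, e0, hφ0, hres0⟩ := hno C inferInstance hLC
  have hφ1 : φ 1 = ϑ 1 := rfl
  have hχH : classInner (fun h : H => χ h) ϑ = 1 := by
    have h := frobenius ϑ χ (indFun_classFunction ϑ)
    rw [← hχdef, irr_inner_self hind] at h
    rw [← inner_conj_symm, ← h, map_one]
  obtain ⟨D, hD⟩ : ∃ D : ℕ, χ 1 = D := exists_degree_pos hind |>.imp fun _ h => h.2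
  have hres : (fun c : C => χ c) = (H.index : ℂ) • φ := by
    haveI : Fintype (C.subgroupOf H) := Fintype.ofFinite _
    have hdec : φ = φ0 := by
      by_contra hne
      have hzero : classInner (fun c : C => χ c) φ = 0 := by
        rw [hres0, inner_smul_left, irr_inner_ne hφ0 hφ (Ne.symm hne), mul_zero]
      obtain ⟨a, ha⟩ := inner_character_nat
        (isCharacter_comp hϑ.isCharacter' (Subgroup.inclusion hCH)) hφc
      -- `χ|H = ϑ + rest`
      have hrest : IsCharacter H ((fun h : H => χ h) - ϑ) := by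
        refine isCharacter_iff_nat.mpr ⟨?_, fun ξ hξ => ?_⟩
        · intro g x
          show χ _ - ϑ _ = χ _ - ϑ _
          rw [isCharacter_classFunction hϑ.isCharacter' g x]
          congr 1
          exact isClassFunction_restrict (indFun_classFunction ϑ) H g x
        · rw [inner_sub_left]
          by_cases h : ξ = ϑ
          · subst h
            exact ⟨0, by rw [hχH, irr_inner_self hξ]; simp⟩
          · rw [irr_inner_ne hϑ hξ (Ne.symm h), sub_zero]
            exact inner_character_nat (isCharacter_restrict hind.isCharacter' H) hξ.isCharacter'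
      obtain ⟨b, hb⟩ := inner_character_nat
        (isCharacter_comp hrest (Subgroup.inclusion hCH)) hφc
      have hsplit : (fun c : C => χ c) = φ +
          (((fun h : H => χ h) - ϑ) ∘ Subgroup.inclusion hCH) := by
        funext c; simp [φ, Subgroup.inclusion]
      rw [hsplit, inner_add_left, irr_inner_self hφ, hb] at hzero
      have : 1 + b = 0 := by exact_mod_cast hzero
      omega
    subst hdec
    have h1 := congrFun hres0 1
    simp only [Pi.smul_apply, smul_eq_mul] at h1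
    have h2 : χ 1 = (H.index : ℂ) * φ 1 := by rw [hφ1]; exact indFun_one_apply ϑ
    obtain ⟨d, hd0, hd⟩ := exists_degree_pos hφ
    rw [show ((1 : C) : G) = 1 from rfl, h2, hd] at h1
    rw [hres0, mul_right_cancel₀ (by exact_mod_cast hd0.ne') h1]
  have hinvφ : ∀ (g : G) (c : C), φ (MulAut.conjNormal g c) = φ c := by
    intro g c
    have h1 := congrFun hres c
    have h2 := congrFun hres (MulAut.conjNormal g c)
    simp only [Pi.smul_apply, smul_eq_mul] at h1 h2
    have hi : (H.index : ℂ) ≠ 0 := Nat.cast_ne_zero.mpr Subgroup.index_ne_zero_of_finite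
    refine mul_left_cancel₀ hi ?_
    rw [← h1, ← h2, MulAut.conjNormal_apply]
    exact indFun_classFunction ϑ (c : G) g
  by_cases hHC : H = C
  · -- `H` normal: the index is one
    have h1 : classInner (fun h : H => χ h) ϑ = (H.index : ℂ) := by
      have hpt : (fun h : H => χ h) = (H.index : ℂ) • ϑ := by
        funext h
        exact congrFun hres ⟨h, hHC ▸ h.2⟩
      rw [hpt, inner_smul_left, irr_inner_self hϑ, mul_one]
    rw [hχH] at h1
    exact hmax.1 (Subgroup.index_eq_one.mp (by exact_mod_cast h1.symm))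
  -- the quotient
  let π := QuotientGroup.mk' C
  have hπ : Function.Surjective π := QuotientGroup.mk'_surjective C
  have hker : π.ker = C := QuotientGroup.ker_mk' C
  obtain ⟨H', hH'⟩ : ∃ H', H' = H.map π := ⟨_, rfl⟩
  have hcm : H'.comap π = H := by
    rw [hH', Subgroup.comap_map_eq_self]; rw [hker]; exact hCH
  have hmax' : IsCoatom H' := by
    refine ⟨fun h => hmax.1 (by rw [← hcm, h, Subgroup.comap_top]), fun K hK => ?_⟩
    have h1 : H < K.comap π := by
      rw [← hcm]; exact (Subgroup.comap_lt_comap_of_surjective hπ).mpr hK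
    exact Subgroup.comap_injective hπ (by rw [hmax.2 _ h1, Subgroup.comap_top])
  have hcore' : H'.normalCore = ⊥ := by
    refine le_bot_iff.mp ?_
    rw [← Subgroup.comap_le_comap_of_surjective hπ, MonoidHom.comap_bot, hker]
    exact le_of_le_of_eq (Subgroup.normal_le_normalCore.mpr
      ((Subgroup.comap_mono (Subgroup.normalCore_le H')).trans hcm.le)) hCdef.symm
  have hH'0 : H' ≠ ⊥ := fun h => hHC (le_antisymm (by
    rw [← hcm, h, MonoidHom.comap_bot, hker]) hCH)
  obtain ⟨M', T', hM'n, hT'n, hMH', hsup', hMT', hcop, r', hr', m', hm', hmove⟩ :=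
    exists_primitive_data H' hmax' hcore' hH'0
  set M := M'.comap π with hMdef
  set T := T'.comap π with hTdef
  haveI hMn : M.Normal := hM'n.comap π
  haveI hTn : T.Normal := hT'n.comap π
  have hCM : C ≤ M := by rw [← hker]; exact π.ker_le_comap M'
  have hMT : M ≤ T := Subgroup.comap_mono hMT'
  have hMH : M ⊓ H = C := by
    rw [← hcm, hMdef, ← Subgroup.comap_inf, hMH', MonoidHom.comap_bot, hker]
  have hMsup : M ⊔ H = ⊤ := by
    rw [← hcm, hMdef, Subgroup.comap_sup_eq _ _ _ hπ, hsup', Subgroup.comap_top]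
  have hTsup : T ⊔ H = ⊤ := top_le_iff.mp (hMsup ▸ sup_le_sup_right hMT H)
  set R := T ⊓ H with hRdef
  obtain ⟨r, hr⟩ := hπ r'
  obtain ⟨m0, hm0⟩ := hπ m'
  have hrR : r ∈ R := Subgroup.mem_inf.mpr ⟨by
      show π r ∈ T'; rw [hr]; exact (Subgroup.mem_inf.mp hr').1, by
      rw [← hcm]; show π r ∈ H'; rw [hr]; exact (Subgroup.mem_inf.mp hr').2⟩
  have hmoveC : m0⁻¹ * r * m0 * r⁻¹ ∉ C := fun h => hmove (by
    have h' : π (m0⁻¹ * r * m0 * r⁻¹) = 1 := by rw [← MonoidHom.mem_ker, hker]; exact h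
    simpa [hr, hm0] using h')
  have hm0M : m0 ∈ M := by show π m0 ∈ M'; rw [hm0]; exact hm'
  -- `[M : C] = [G : H]`
  have hMcard : Nat.card M = H.index * Nat.card C := by
    have h := CfsgLib.Core.card_sup_mul_card_inf (A := H) (K := M)
      (CfsgLib.Core.le_normalizer_normal _)
    rw [sup_comm, hMsup, Subgroup.card_top, inf_comm, hMH, ← H.index_mul_card] at h
    refine Nat.eq_of_mul_eq_mul_left (Nat.card_pos (α := H)) ?_
    linarith
  have hq : C.relIndex M = H.index := by
    have h := CfsgLib.Core.card_mul_relIndex hCM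
    rw [hMcard, mul_comm] at h
    exact Nat.eq_of_mul_eq_mul_right (Nat.card_pos (α := C)) h
  have hqM : Nat.card M' = H.index := by
    have h := Subgroup.relIndex_comap (⊥ : Subgroup (G ⧸ C)) π M
    rw [MonoidHom.comap_bot, hker, hMdef, Subgroup.map_comap_eq_self_of_surjective hπ,
      Subgroup.relIndex_bot_left] at h
    rw [← hq, ← h]
  haveI : Fintype M := Fintype.ofFinite _
  haveI : Fintype T := Fintype.ofFinite _
  haveI : Fintype ↥(M ⊓ H) := Fintype.ofFinite _
  haveI : Fintype ↥(T ⊓ H) := Fintype.ofFinite _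
  haveI : Fintype R := Fintype.ofFinite _
  have hϑcl : IsClassFunction H ϑ := isCharacter_classFunction hϑ.isCharacter'
  -- on `M`
  obtain ⟨ψ, e, hψ, hψres⟩ := hno M hMn (hLC.trans hCM)
  have he2 : (e : ℂ) * e = H.index := by
    have h := inner_cover M H hMsup hϑcl
    rw [← hχdef, hψres, inner_smul_left, inner_smul_right, irr_inner_self hψ, mul_one,
      Complex.conj_natCast] at h
    rw [h]
    let ε : ↥(M ⊓ H) ≃* C := MulEquiv.subgroupCongr hMH
    have e1 : (fun d : ↥(M ⊓ H) => ϑ ⟨d, (Subgroup.mem_inf.mp d.2).2⟩) = φ ∘ ε := rfl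
    have e2 : (fun d : ↥(M ⊓ H) => χ d) = ((H.index : ℂ) • φ) ∘ ε := by
      funext d; exact congrFun hres (ε d)
    rw [e1, e2, inner_comp_equiv, inner_smul_right, irr_inner_self hφ, Complex.conj_natCast,
      mul_one]
  -- on `T`
  obtain ⟨η, f, hη, hηres⟩ := hno T hTn (hLC.trans (hCM.trans hMT))
  haveI : (M.subgroupOf T).Normal := hMn.subgroupOf T
  haveI : Fintype (M.subgroupOf T) := Fintype.ofFinite _
  let εM : M.subgroupOf T ≃* M := Subgroup.subgroupOfEquivOfLe hMT
  have hψ' : IsIrrCharacter (M.subgroupOf T) (ψ ∘ εM) := isIrrCharacter_comp_equiv hψ εM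
  obtain ⟨g, hg⟩ := inner_character_nat (isCharacter_restrict hη.isCharacter' (M.subgroupOf T))
    hψ'.isCharacter'
  have hfe : (f : ℂ) • (fun x : M.subgroupOf T => η x) = (e : ℂ) • (ψ ∘ εM) := by
    funext x
    have h1 := congrFun hηres (x : T)
    have h2 := congrFun hψres (εM x)
    simp only [Pi.smul_apply, smul_eq_mul, Function.comp] at h1 h2 ⊢
    rw [← h1, ← h2]
    rfl
  have hfg : f * g = e := by
    have h := congrArg (fun F => classInner F (ψ ∘ εM)) hfe
    simp only [inner_smul_left, hg, irr_inner_self hψ', mul_one] at h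
    exact_mod_cast h
  have he0 : e ≠ 0 := fun h0 => by
    rw [h0, Nat.cast_zero, zero_mul] at he2
    exact Subgroup.index_ne_zero_of_finite (H := H) (by exact_mod_cast he2.symm)
  have hf0 : f ≠ 0 := fun h0 => he0 (by rw [← hfg, h0, zero_mul])
  have hg0 : g ≠ 0 := fun h0 => he0 (by rw [← hfg, h0, mul_zero])
  obtain ⟨k, hk, hkdvd⟩ := degree_ratio hη hψ' (by rw [hg]; exact_mod_cast hg0)
  have hkg : k = g := by
    have h1 := congrFun hfe 1
    simp only [Pi.smul_apply, smul_eq_mul, OneMemClass.coe_one, hk, ← hfg, Nat.cast_mul,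
      mul_assoc] at h1
    obtain ⟨d, hd0, hd⟩ := exists_degree_pos hψ'
    rw [hd] at h1
    have h2 := mul_left_cancel₀ (Nat.cast_ne_zero.mpr hf0) h1
    exact_mod_cast mul_right_cancel₀ (Nat.cast_ne_zero.mpr hd0.ne') h2
  have hg1 : g = 1 := by
    refine Nat.eq_one_of_dvd_coprimes hcop ?_ ?_
    · have hidx : (M.subgroupOf T).index = M'.relIndex T' := by
        show M.relIndex T = _
        rw [hMdef, Subgroup.relIndex_comap, hTdef, Subgroup.map_comap_eq_self_of_surjective hπ]
      rw [← hidx, ← hkg]; exact hkdvd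
    · rw [hqM]
      refine (dvd_mul_left g f).trans ⟨e, ?_⟩
      have he2' : e * e = H.index := by exact_mod_cast he2
      rw [hfg]; exact he2'.symm
  have hff : (f : ℂ) * f = H.index := by rw [← he2, ← hfg, hg1, mul_one]
  -- on `R`
  set θR : R → ℂ := fun x => ϑ ⟨x, (Subgroup.mem_inf.mp x.2).2⟩ with hθR
  have hθRc : IsCharacter R θR := isCharacter_comp hϑ.isCharacter'
    (Subgroup.inclusion (inf_le_right : T ⊓ H ≤ H))
  have hCR : C ≤ R := le_inf (hCM.trans hMT) hCH
  have hθRi : IsIrrCharacter R θR := isIrr_of_restrict (C.subgroupOf R) hθRc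
    (isIrrCharacter_comp_equiv hφ (Subgroup.subgroupOfEquivOfLe hCR))
  have hinner : classInner (fun x : R => χ x) θR = (H.index : ℂ) := by
    have h := inner_cover T H hTsup hϑcl
    rw [← hχdef, hηres, inner_smul_left, inner_smul_right, irr_inner_self hη, mul_one,
      Complex.conj_natCast, hff] at h
    rw [← inner_conj_symm]
    rw [show classInner θR (fun x : R => χ x) = (H.index : ℂ) from
      (classInner_congr_fintype _ _ _ _).trans h.symm, Complex.conj_natCast]
  have hχR : (fun x : R => χ x) = (H.index : ℂ) • θR :=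
    eq_smul_of_degree (isCharacter_restrict hind.isCharacter' R) hθRi hinner
      (indFun_one_apply ϑ)
  -- the coset `r C`
  set rH : H := ⟨r, (Subgroup.mem_inf.mp hrR).2⟩ with hrH
  haveI : (C.subgroupOf H).Normal := (inferInstance : C.Normal).subgroupOf H
  haveI : Fintype (C.subgroupOf H) := Fintype.ofFinite _
  have havg := congrFun (cosetAvg_self (C.subgroupOf H) hϑ
    (isIrrCharacter_comp_equiv hφ (Subgroup.subgroupOfEquivOfLe hCH))) rH
  let Φ : G → ℝ := fun y => ‖extendByZero H ϑ y‖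
  set A : ℝ := ∑ c : C, Φ ((c : G) * r) ^ 2 with hA
  have hA0 : 0 < A := by
    by_contra hle
    have hA' : A = 0 := le_antisymm (not_lt.mp hle) (Finset.sum_nonneg fun c _ => sq_nonneg _)
    have hall := (Finset.sum_eq_zero_iff_of_nonneg fun c _ => sq_nonneg _).mp hA'
    rw [cosetAvg_eq, Finset.sum_eq_zero fun n _ => ?_, mul_zero] at havg
    · exact zero_ne_one havg
    · have h := hall ⟨((n : H) : G), n.2⟩ (Finset.mem_univ _)
      rw [pow_eq_zero_iff two_ne_zero, norm_eq_zero] at h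
      rw [show ((n : H) : G) * r = (((n : H) * rH : H) : G) from rfl,
        extendByZero_mem ϑ ((n : H) * rH).2] at h
      rw [h, zero_mul]
  set S : Finset M := Finset.univ.filter fun m : M => (m : G)⁻¹ * r * m * r⁻¹ ∈ C with hS
  have hSlt : S.card < Nat.card M := by
    rw [Nat.card_eq_fintype_card, ← Finset.card_univ]
    refine Finset.card_lt_card (Finset.filter_ssubset.mpr ⟨⟨m0, hm0M⟩, Finset.mem_univ _, hmoveC⟩)
  have hval : ∀ c : C, (H.index : ℝ) * Nat.card C * Φ ((c : G) * r) ≤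
      ∑ m ∈ S, Φ ((m : G)⁻¹ * ((c : G) * r) * m) := by
    intro c
    have hy : (c : G) * r ∈ R := R.mul_mem (hCR c.2) hrR
    have h1 := indFun_cover M H hMsup hϑcl ((c : G) * r)
    have h2 := congrFun hχR ⟨_, hy⟩
    simp only [Pi.smul_apply, smul_eq_mul] at h2
    rw [← hχdef, h2] at h1
    have hcard : Nat.card ↥(M ⊓ H) = Nat.card C := by rw [hMH]
    rw [hcard] at h1
    have hzero : ∀ m : M, m ∉ S → extendByZero H ϑ ((m : G)⁻¹ * ((c : G) * r) * m) = 0 := by
      intro m hm
      refine extendByZero_not_mem ϑ fun hmH => hm (Finset.mem_filter.mpr ⟨Finset.mem_univ m, ?_⟩)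
      have hyH : (c : G) * r ∈ H := (Subgroup.mem_inf.mp hy).2
      set y := (c : G) * r with hy'
      have hC1 : (m : G)⁻¹ * y * m * y⁻¹ ∈ C := by
        rw [← hMH]
        refine Subgroup.mem_inf.mpr ⟨?_, H.mul_mem hmH (H.inv_mem hyH)⟩
        rw [show (m : G)⁻¹ * y * m * y⁻¹ = (m : G)⁻¹ * (y * m * y⁻¹) by group]
        exact M.mul_mem (M.inv_mem m.2) (hMn.conj_mem m m.2 y)
      have h3 : ((m : G)⁻¹ * (c : G) * m)⁻¹ * ((m : G)⁻¹ * y * m * y⁻¹) * (c : G) ∈ C :=
        C.mul_mem (C.mul_mem (C.inv_mem (by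
          simpa using (inferInstance : C.Normal).conj_mem (c : G) c.2 (m : G)⁻¹)) hC1) c.2
      have e3 : ((m : G)⁻¹ * (c : G) * m)⁻¹ * ((m : G)⁻¹ * y * m * y⁻¹) * (c : G) =
          (m : G)⁻¹ * r * m * r⁻¹ := by rw [hy']; group
      rwa [e3] at h3
    rw [← Finset.sum_subset (Finset.subset_univ S) fun m _ hm => hzero m hm] at h1
    have h3 := congrArg (fun z : ℂ => (Nat.card C : ℝ) * ‖z‖) h1
    simp only [norm_mul, Complex.norm_natCast, norm_inv] at h3
    rw [← mul_assoc (Nat.card C : ℝ) ((Nat.card C : ℝ))⁻¹, mul_inv_cancel₀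
      (Nat.cast_ne_zero.mpr Nat.card_pos.ne'), one_mul] at h3
    calc (H.index : ℝ) * Nat.card C * Φ ((c : G) * r)
        = ‖∑ m ∈ S, extendByZero H ϑ ((m : G)⁻¹ * ((c : G) * r) * m)‖ := by
          rw [← h3]
          show _ * ‖extendByZero H ϑ _‖ = _
          rw [extendByZero_mem ϑ (Subgroup.mem_inf.mp hy).2]
          ring
      _ ≤ _ := norm_sum_le _ _
  have hperm : ∀ m ∈ S, ∑ c : C, Φ ((m : G)⁻¹ * ((c : G) * r) * m) ^ 2 = A := by
    intro m hm
    have hmC : (m : G)⁻¹ * r * m * r⁻¹ ∈ C := (Finset.mem_filter.mp hm).2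
    refine Fintype.sum_equiv ((MulAut.conjNormal (m : G)⁻¹ : MulAut C).toEquiv.trans
      (Equiv.mulRight ⟨_, hmC⟩)) _ _ fun c => ?_
    congr 2
    show _ = ((MulAut.conjNormal (m : G)⁻¹ c : C) : G) * ((m : G)⁻¹ * r * m * r⁻¹) * r
    rw [MulAut.conjNormal_apply]
    group
  have hfin : ((H.index : ℝ) * Nat.card C) ^ 2 * A ≤ (S.card : ℝ) ^ 2 * A := by
    calc ((H.index : ℝ) * Nat.card C) ^ 2 * A
        = ∑ c : C, ((H.index : ℝ) * Nat.card C * Φ ((c : G) * r)) ^ 2 := by
          rw [hA, Finset.mul_sum]; exact Finset.sum_congr rfl fun c _ => by ring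
      _ ≤ ∑ c : C, (S.card : ℝ) * ∑ m ∈ S, Φ ((m : G)⁻¹ * ((c : G) * r) * m) ^ 2 := by
          refine Finset.sum_le_sum fun c _ => le_trans ?_ (sq_sum_le_card_mul_sum_sq)
          exact pow_le_pow_left₀ (mul_nonneg (mul_nonneg (Nat.cast_nonneg _) (Nat.cast_nonneg _))
            (norm_nonneg _)) (hval c) 2
      _ = (S.card : ℝ) ^ 2 * A := by
          rw [← Finset.mul_sum, Finset.sum_comm, Finset.sum_congr rfl hperm, Finset.sum_const,
            nsmul_eq_mul]
          ring
  have hlt : (S.card : ℝ) < (H.index : ℝ) * Nat.card C := by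
    exact_mod_cast hMcard ▸ hSlt
  have := le_of_mul_le_mul_right hfin hA0
  exact absurd (pow_lt_pow_left₀ hlt (Nat.cast_nonneg _) two_ne_zero) (not_lt.mpr this)

end CfsgLib.Char
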