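import Cfsg.Agent.Lib.CharBergerModel
import Cfsg.Agent.Lib.CharPrimitiveInd
import Mathlib.LinearAlgebra.Projection

/-!
# Quasi-primitive characters of solvable groups are primitive

A character of a finite solvable group which is homogeneous on every normal subgroup is not
induced from a proper subgroup.
-/

set_option autoImplicit false
set_option linter.style.haveILetI false
set_option linter.unusedSectionVars false

namespace CfsgLib.Char.Berger

open Cfsg Representation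
open scoped ComplexConjugate

universe u v

variable {G : Type u} [Group G] {V : Type v} [AddCommGroup V] [Module ℂ V]

/-- The operators lying in the coset of `m` of the double centraliser of `C` and commuting with
`C`. -/
def IsMono (ρ : Representation ℂ G V) (C : Subgroup G) (m : G) (B : Module.End ℂ V) : Prop :=
  (∀ c ∈ C, ρ c * B = B * ρ c) ∧ ρ m⁻¹ * B ∈ bicomm ρ C

variable {ρ : Representation ℂ G V} {C : Subgroup G}

theorem IsMono.mul [hC : C.Normal] {m n : G} {B B' : Module.End ℂ V} (h : IsMono ρ C m B)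
    (h' : IsMono ρ C n B') : IsMono ρ C (m * n) (B * B') := by
  refine ⟨fun c hc => by rw [← mul_assoc, h.1 c hc, mul_assoc, h'.1 c hc, mul_assoc], ?_⟩
  have h1 := conj_mem_bicomm n⁻¹ (fun c hc => ⟨by simpa using hC.conj_mem c hc n,
    by simpa using hC.conj_mem c hc n⁻¹⟩) h.2
  have h2 := (bicomm ρ C).mul_mem h1 h'.2
  have e : ρ (m * n)⁻¹ * (B * B') = ρ n⁻¹ * (ρ m⁻¹ * B) * ρ (n⁻¹)⁻¹ * (ρ n⁻¹ * B') := by
    rw [inv_inv, mul_inv_rev, map_mul]
    calc ρ n⁻¹ * ρ m⁻¹ * (B * B') = ρ n⁻¹ * (ρ m⁻¹ * B) * 1 * B' := by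
          simp only [mul_one, mul_assoc]
      _ = _ := by rw [← mul_inv_self_apply ρ n]; simp only [mul_assoc]
  rw [e]
  exact h2

theorem IsMono.of_coset [hC : C.Normal] {m n : G} {B : Module.End ℂ V} (h : IsMono ρ C m B)
    (hmn : m⁻¹ * n ∈ C) : IsMono ρ C n B := by
  refine ⟨h.1, ?_⟩
  have e : ρ n⁻¹ * B = ρ (m⁻¹ * n)⁻¹ * (ρ m⁻¹ * B) := by
    rw [← mul_assoc, ← map_mul]; congr 2; group
  rw [e]
  exact (bicomm ρ C).mul_mem (self_mem_bicomm (C.inv_mem hmn)) h.2

theorem IsMono.conj [hC : C.Normal] {m : G} {B : Module.End ℂ V} (h : IsMono ρ C m B) (g : G) :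
    IsMono ρ C (g * m * g⁻¹) (ρ g * B * ρ g⁻¹) := by
  constructor
  · intro c hc
    have h1 : ρ c * ρ g = ρ g * ρ (g⁻¹ * c * g) := by rw [← map_mul, ← map_mul]; congr 1; group
    have h2 : ρ (g⁻¹ * c * g) * ρ g⁻¹ = ρ g⁻¹ * ρ c := by
      rw [← map_mul, ← map_mul]; congr 1; group
    calc ρ c * (ρ g * B * ρ g⁻¹) = ρ g * (ρ (g⁻¹ * c * g) * B) * ρ g⁻¹ := by
          rw [← mul_assoc, ← mul_assoc, h1]; simp only [mul_assoc]
      _ = ρ g * B * (ρ (g⁻¹ * c * g) * ρ g⁻¹) := by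
          rw [h.1 _ (by simpa using hC.conj_mem c hc g⁻¹)]; simp only [mul_assoc]
      _ = _ := by rw [h2]; simp only [mul_assoc]
  · have e : ρ (g * m * g⁻¹)⁻¹ * (ρ g * B * ρ g⁻¹) = ρ g * (ρ m⁻¹ * B) * ρ g⁻¹ := by
      rw [show (g * m * g⁻¹)⁻¹ = g * m⁻¹ * g⁻¹ by group, map_mul, map_mul]
      calc ρ g * ρ m⁻¹ * ρ g⁻¹ * (ρ g * B * ρ g⁻¹)
          = ρ g * ρ m⁻¹ * (ρ g⁻¹ * ρ g) * (B * ρ g⁻¹) := by simp only [mul_assoc]
        _ = _ := by rw [inv_mul_self_apply, mul_one]; simp only [mul_assoc]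
    rw [e]
    exact conj_mem_bicomm g (fun c hc => ⟨by simpa using hC.conj_mem c hc g⁻¹,
      hC.conj_mem c hc g⟩) h.2

variable [Fintype G] [FiniteDimensional ℂ V]

/-- A monomial invertible operator is unique up to a scalar. -/
theorem IsMono.unique {φ : C → ℂ} (hφ : IsIrrCharacter C φ) {k : ℕ}
    (hres : (fun n : C => ρ.character n) = (k : ℂ) • φ) {m : G} {A : (Module.End ℂ V)ˣ}
    (hA : IsMono ρ C m A) {B : Module.End ℂ V} (hB : IsMono ρ C m B) :
    ∃ a : ℂ, B = a • (A : Module.End ℂ V) := by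
  let Tu : (Module.End ℂ V)ˣ :=
    ⟨ρ m⁻¹ * A, (↑A⁻¹ : Module.End ℂ V) * ρ m,
      by rw [mul_assoc, ← mul_assoc (A : Module.End ℂ V), Units.mul_inv, one_mul,
        inv_mul_self_apply],
      by rw [mul_assoc, ← mul_assoc (ρ m), mul_inv_self_apply, one_mul, Units.inv_mul]⟩
  have hTi : (↑Tu⁻¹ : Module.End ℂ V) ∈ bicomm ρ C := mem_bicomm.mpr fun X hX => by
    have hc : Commute X (Tu : Module.End ℂ V) := mem_bicomm.mp hA.2 X hX
    exact (hc.units_inv_right).eq
  have hmem : (↑A⁻¹ : Module.End ℂ V) * B ∈ bicomm ρ C := by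
    have h := (bicomm ρ C).mul_mem hTi hB.2
    have e : (↑Tu⁻¹ : Module.End ℂ V) * (ρ m⁻¹ * B) = (↑A⁻¹ : Module.End ℂ V) * B := by
      show (↑A⁻¹ : Module.End ℂ V) * ρ m * (ρ m⁻¹ * B) = _
      rw [mul_assoc, ← mul_assoc (ρ m), mul_inv_self_apply, one_mul]
    rwa [e] at h
  obtain ⟨a, ha⟩ := (homogeneous_model ρ C hφ hres).1 _ hmem fun c hc => by
    have h1 : Commute (ρ c) (A : Module.End ℂ V) := hA.1 c hc
    have h2 : Commute (ρ c) B := hB.1 c hc
    exact (h1.units_inv_right.mul_right h2).eq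
  refine ⟨a, ?_⟩
  have h3 := congrArg (fun Y => (A : Module.End ℂ V) * Y) ha
  simpa using h3

/-- Two invertible operators proportional to each other have the same conjugation quotient. -/
theorem quot_eq (g : G) {A B : (Module.End ℂ V)ˣ} {a : ℂ}
    (h : (B : Module.End ℂ V) = a • (A : Module.End ℂ V)) :
    ρ g * B * ρ g⁻¹ * ↑B⁻¹ = ρ g * A * ρ g⁻¹ * (↑A⁻¹ : Module.End ℂ V) := by
  have hi : a • (↑B⁻¹ : Module.End ℂ V) = ↑A⁻¹ := by
    have h1 : (A : Module.End ℂ V) * (a • (↑B⁻¹ : Module.End ℂ V)) = 1 := by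
      rw [mul_smul_comm, ← smul_mul_assoc, ← h, Units.mul_inv]
    exact (Units.inv_eq_of_mul_eq_one_right h1).symm
  rw [← hi, h, mul_smul_comm, smul_mul_assoc, mul_smul_comm]
  simp only [smul_mul_assoc]

/-- Restricting the eigenspace of a commuting family gives a character inducing to the whole. -/
theorem induced_of_family [ρ.IsIrreducible] {ι : Type*} [Finite ι]
    (Q : ι → Module.End ℂ V) (hQ : ∀ i j, Q i * Q j = Q j * Q i)
    (hG : ∀ g : G, ∃ σ : ι → ι, ∀ i, ρ g⁻¹ * Q i * ρ g = Q (σ i))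
    (M : Subgroup G) (hM : ∀ m ∈ M, ∀ i, ρ m * Q i = Q i * ρ m)
    (hns : ∃ i, ∀ a : ℂ, Q i ≠ a • 1) :
    ∃ (K : Subgroup G) (θ : K → ℂ), K ≠ ⊤ ∧ M ≤ K ∧ IsCharacter K θ ∧
      indFun K θ = ρ.character := by
  classical
  haveI := nontrivial_of_irreducible ρ
  let Xs : (ι → ℂ) → Submodule ℂ V := fun c => ⨅ i, Module.End.eigenspace (Q i) (c i)
  have hindep : iSupIndep Xs := by
    refine (Module.End.independent_iInf_maxGenEigenspace_of_forall_mapsTo Q fun i j φ =>
      Module.End.mapsTo_maxGenEigenspace_of_comm (hQ j i) φ).mono fun c => ?_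
    exact iInf_mono fun i => Module.End.eigenspace_le_maxGenEigenspace
  have hmem : ∀ c v, v ∈ Xs c ↔ ∀ i, Q i v = c i • v := fun c v => by
    simp only [Xs, Submodule.mem_iInf, Module.End.mem_eigenspace_iff]
  have hperm : ∀ (g : G) (c : ι → ℂ), ∃ c', (Xs c).map (ρ g) ≤ Xs c' := by
    intro g c
    obtain ⟨σ, hσ⟩ := hG g
    refine ⟨c ∘ σ, ?_⟩
    rintro _ ⟨v, hv, rfl⟩
    rw [hmem]
    intro i
    have h1 := LinearMap.congr_fun (hσ i) v
    simp only [Module.End.mul_apply] at h1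
    rw [(hmem c v).mp hv] at h1
    have h2 := congrArg (ρ g) h1
    rw [← Module.End.mul_apply, mul_inv_self_apply, Module.End.one_apply, map_smul] at h2
    exact h2
  obtain ⟨c0, v0, hv0, hc0⟩ := exists_common_eigen Q hQ
  have hX0 : Xs c0 ≠ ⊥ := fun h => hv0 (by
    have := (hmem c0 v0).mpr hc0
    rwa [h, Submodule.mem_bot] at this)
  have hmapmap : ∀ (g h : G) (W : Submodule ℂ V), (W.map (ρ h)).map (ρ g) = W.map (ρ (g * h)) :=
    fun g h W => by rw [← Submodule.map_comp, map_mul]; rfl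
  have hone : ∀ W : Submodule ℂ V, W.map (ρ 1) = W := fun W => by
    rw [map_one, Module.End.one_eq_id, Submodule.map_id]
  have heq : ∀ g : G, ∃ c', (Xs c0).map (ρ g) = Xs c' := by
    intro g
    obtain ⟨c', hc'⟩ := hperm g c0
    obtain ⟨c'', hc''⟩ := hperm g⁻¹ c'
    refine ⟨c', le_antisymm hc' ?_⟩
    have h1 : Xs c0 ≤ Xs c'' := by
      refine le_trans ?_ hc''
      have := Submodule.map_mono (f := ρ g⁻¹) hc'
      rwa [hmapmap, inv_mul_cancel, hone] at this
    have h2 : c'' = c0 := by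
      by_contra hne
      exact hX0 (le_bot_iff.mp ((hindep.pairwiseDisjoint hne).le_bot.trans' (le_inf h1 le_rfl)))
    subst h2
    have := Submodule.map_mono (f := ρ g) hc''
    rwa [hmapmap, mul_inv_cancel, hone] at this
  choose cg hcg using heq
  let K : Subgroup G :=
    { carrier := {g | (Xs c0).map (ρ g) = Xs c0}
      one_mem' := hone _
      mul_mem' := fun {a b} ha hb => by
        show (Xs c0).map (ρ (a * b)) = Xs c0
        rw [← hmapmap, hb, ha]
      inv_mem' := fun {a} ha => by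
        show (Xs c0).map (ρ a⁻¹) = Xs c0
        conv_lhs => rw [← ha]
        rw [hmapmap, inv_mul_cancel, hone] }
  have hinvK : ∀ g ∈ K, ∀ v ∈ Xs c0, ρ g v ∈ Xs c0 := fun g hg v hv => by
    have h : (Xs c0).map (ρ g) = Xs c0 := hg
    rw [← h]; exact Submodule.mem_map_of_mem hv
  have hMK : M ≤ K := by
    intro m hm
    have hle : ∀ x ∈ M, (Xs c0).map (ρ x) ≤ Xs c0 := by
      rintro x hx _ ⟨v, hv, rfl⟩
      rw [hmem]
      intro i
      rw [← Module.End.mul_apply, ← hM x hx i, Module.End.mul_apply, (hmem c0 v).mp hv i, map_smul]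
    refine le_antisymm (hle m hm) ?_
    have := Submodule.map_mono (f := ρ m) (hle m⁻¹ (M.inv_mem hm))
    rwa [hmapmap, mul_inv_cancel, hone] at this
  have hKt : K ≠ ⊤ := by
    intro hK
    rcases subrep_eq_bot_or_eq_top ρ (Xs c0) (fun g => hinvK g (hK ▸ Subgroup.mem_top g)) with
      h | h
    · exact hX0 h
    · obtain ⟨i, hi⟩ := hns
      refine hi (c0 i) (LinearMap.ext fun v => ?_)
      exact (hmem c0 v).mp (h ▸ trivial) i
  let σ : Representation ℂ K (Xs c0) :=
    { toFun := fun g => LinearMap.restrict (ρ (g : G)) (hinvK g g.2)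
      map_one' := LinearMap.ext fun v => Subtype.ext (by simp)
      map_mul' := fun a b => LinearMap.ext fun v => Subtype.ext (by simp) }
  have hθ : IsCharacter K σ.character := isCharacter_rep σ
  refine ⟨K, σ.character, hKt, hMK, hθ, ?_⟩
  haveI : Fintype K := Fintype.ofFinite _
  have hχ : IsIrrCharacter G ρ.character := isIrrCharacter_rep ρ
  refine eq_of_constituent_of_degree (isCharacter_indFun hθ) hχ ?_ ?_
  · rw [frobenius _ _ (isCharacter_classFunction hχ.isCharacter'), ← inner_conj_symm]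
    have h := inner_rep_char (ρ.comp K.subtype) σ
    rw [show (fun h : K => ρ.character h) = Representation.character (ρ.comp K.subtype) from rfl, h,
      Complex.conj_natCast, Nat.cast_ne_zero]
    haveI := Submodule.nontrivial_iff_ne_bot.mpr hX0
    let j : IntertwiningMap σ (ρ.comp K.subtype) :=
      { toLinearMap := (Xs c0).subtype
        isIntertwining' := fun g => LinearMap.ext fun v => rfl }
    have hj : j ≠ 0 := fun h0 => by
      obtain ⟨v, hv⟩ := exists_ne (0 : Xs c0)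
      exact hv (Subtype.ext (congrArg (fun f : IntertwiningMap σ (ρ.comp K.subtype) =>
        f.toLinearMap v) h0))
    haveI : Nontrivial (IntertwiningMap σ (ρ.comp K.subtype)) := nontrivial_of_ne j 0 hj
    exact Module.finrank_pos.ne'
  · rw [indFun_one_apply, σ.char_one, ρ.char_one, ← Nat.cast_mul, Complex.natCast_re,
      Complex.natCast_re, Nat.cast_le]
    haveI : Fintype (G ⧸ K) := Fintype.ofFinite _
    have hinj : Function.Injective fun q : G ⧸ K => cg q.out := by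
      intro a b hab
      have h : (Xs c0).map (ρ a.out) = (Xs c0).map (ρ b.out) := by
        rw [hcg, hcg]; exact congrArg Xs hab
      rw [← a.out_eq', ← b.out_eq', QuotientGroup.eq]
      show (Xs c0).map (ρ (a.out⁻¹ * b.out)) = Xs c0
      rw [← hmapmap, ← h, hmapmap, inv_mul_cancel, hone]
    have h1 := finrank_sup_eq_sum (Finset.univ : Finset (G ⧸ K)) _ (hindep.comp hinj)
    have h2 : ∀ q : G ⧸ K, Module.finrank ℂ (Xs (cg q.out)) = Module.finrank ℂ (Xs c0) := by
      intro q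
      rw [← hcg q.out]
      exact (Submodule.equivMapOfInjective (ρ q.out) (fun x y hxy => by
        have := congrArg (ρ q.out⁻¹) hxy
        rwa [← Module.End.mul_apply, ← Module.End.mul_apply, inv_mul_self_apply] at this)
        _).finrank_eq.symm
    simp only [Function.comp_apply] at h1
    rw [Finset.sum_congr rfl fun q _ => h2 q, Finset.sum_const, Finset.card_univ,
      ← Nat.card_eq_fintype_card, smul_eq_mul, ← Subgroup.index_eq_card] at h1
    rw [← h1]
    exact Submodule.finrank_le _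

/-- The projection onto `X` along its translates. -/
theorem exists_projection [ρ.IsIrreducible] (M H : Subgroup G) [hC : C.Normal] [hM : M.Normal]
    (hMH : M ⊔ H = ⊤) (hCM : C ≤ M) (hCH : C ≤ H) (X : Submodule ℂ V) (hX0 : X ≠ ⊥)
    (hXH : ∀ h ∈ H, ∀ v ∈ X, ρ h v ∈ X)
    (hdim : C.relIndex M * Module.finrank ℂ X ≤ Module.finrank ℂ V) :
    ∃ E : Module.End ℂ V, (∀ v ∈ X, E v = v) ∧ (∀ v, E v ∈ X) ∧
      (∀ h ∈ H, ρ h * E = E * ρ h) ∧
      (∀ x ∈ M, x ∉ C → ∀ v ∈ X, E (ρ x v) = 0) ∧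
      ∀ Y Y' : Module.End ℂ V, (∀ m ∈ M, ρ m * Y = Y * ρ m) → (∀ m ∈ M, ρ m * Y' = Y' * ρ m) →
        (∀ v ∈ X, Y v = Y' v) → Y = Y' := by
  classical
  set D := C.subgroupOf M with hD
  haveI : Fintype (M ⧸ D) := Fintype.ofFinite _
  have hXC : ∀ c ∈ C, ∀ v ∈ X, ρ c v ∈ X := fun c hc => hXH c (hCH hc)
  let tr : G → Submodule ℂ V := fun g => X.map (ρ g)
  have htr : ∀ x c, c ∈ C → tr (x * c) ≤ tr x := by
    rintro x c hc _ ⟨v, hv, rfl⟩
    exact ⟨ρ c v, hXC c hc v hv, by rw [map_mul]; rfl⟩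
  let f : M ⧸ D → Submodule ℂ V := fun q => tr (q.out : M)
  have hf : ∀ x : M, tr x ≤ f (QuotientGroup.mk x) := by
    intro x
    obtain ⟨d, hd⟩ := QuotientGroup.mk_out_eq_mul D x
    show tr (x : G) ≤ tr ((QuotientGroup.mk x : M ⧸ D).out : M)
    rw [hd]
    have := htr ((x : G) * ((d : M) : G)) ((d : M) : G)⁻¹ (C.inv_mem d.2)
    rwa [mul_inv_cancel_right] at this
  set q1 : M ⧸ D := QuotientGroup.mk 1 with hq1
  let W : Submodule ℂ V := (Finset.univ.erase q1).sup f
  have hW : ∀ x ∈ M, x ∉ C → ∀ v ∈ X, ρ x v ∈ W := fun x hx hxC v hv => by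
    refine Finset.le_sup (f := f) (Finset.mem_erase.mpr ⟨fun h => hxC ?_, Finset.mem_univ _⟩)
      (hf ⟨x, hx⟩ (Submodule.mem_map_of_mem hv))
    rw [hq1, QuotientGroup.eq] at h
    have h' : x⁻¹ * 1 ∈ C := h
    rwa [mul_one, C.inv_mem_iff] at h'
  have hWle : Module.finrank ℂ W + Module.finrank ℂ X ≤ Module.finrank ℂ V := by
    have h1 := finrank_sup_le_sum (Finset.univ.erase q1) f
    have h2 : ∀ q, Module.finrank ℂ (f q) ≤ Module.finrank ℂ X := fun q =>
      Submodule.finrank_map_le _ _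
    have h3 := h1.trans (Finset.sum_le_card_nsmul _ _ _ fun q _ => h2 q)
    rw [Finset.card_erase_of_mem (Finset.mem_univ _), Finset.card_univ, smul_eq_mul] at h3
    have hcard : Fintype.card (M ⧸ D) = C.relIndex M := by
      rw [← Nat.card_eq_fintype_card]; rfl
    rw [hcard] at h3
    have hpos : 0 < C.relIndex M := hcard ▸ Fintype.card_pos
    obtain ⟨t, ht⟩ : ∃ t, C.relIndex M = t + 1 := ⟨_, (Nat.sub_add_cancel hpos).symm⟩
    rw [ht, Nat.add_sub_cancel] at h3
    rw [ht, add_mul, one_mul] at hdim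
    show Module.finrank ℂ ↥((Finset.univ.erase q1).sup f) + _ ≤ _
    omega
  have hWH : ∀ h ∈ H, ∀ v ∈ W, ρ h v ∈ W := by
    intro h hh
    suffices hs : W ≤ W.comap (ρ h) from fun v hv => hs hv
    refine Finset.sup_le fun q hq => ?_
    rintro _ ⟨v, hv, rfl⟩
    show ρ h (ρ (q.out : M) v) ∈ W
    have e : ρ h (ρ (q.out : M) v) = ρ (h * (q.out : M) * h⁻¹) (ρ h v) := by
      rw [← Module.End.mul_apply, ← Module.End.mul_apply, ← map_mul, ← map_mul]
      congr 2; group
    rw [e]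
    refine hW _ (hM.conj_mem _ (q.out : M).2 h) (fun hmem => (Finset.mem_erase.mp hq).1 ?_) _
      (hXH h hh v hv)
    have hmem' : ((q.out : M) : G) ∈ C := by
      simpa [mul_assoc] using hC.conj_mem _ hmem h⁻¹
    rw [← q.out_eq', hq1, QuotientGroup.eq]
    show ((q.out : M) : G)⁻¹ * 1 ∈ C
    rw [mul_one]; exact C.inv_mem hmem'
  have hcov : ∀ x ∈ M, ∀ v ∈ X, ρ x v ∈ X ⊔ W := fun x hx v hv => by
    by_cases hxC : x ∈ C
    · exact Submodule.mem_sup_left (hXC x hxC v hv)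
    · exact Submodule.mem_sup_right (hW x hx hxC v hv)
  have hspan : ∀ S : Submodule ℂ V, (∀ x ∈ M, ∀ v ∈ X, ρ x v ∈ S) → S = ⊤ := by
    intro S hS
    let S0 : Submodule ℂ V := ⨆ x : M, tr x
    have hS0 : ∀ g : G, ∀ v ∈ S0, ρ g v ∈ S0 := by
      intro g
      suffices hs : S0 ≤ S0.comap (ρ g) from fun v hv => hs hv
      refine iSup_le fun x => ?_
      rintro _ ⟨v, hv, rfl⟩
      show ρ g (ρ (x : G) v) ∈ S0
      have hg : g * (x : G) ∈ M ⊔ H := hMH ▸ Subgroup.mem_top _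
      obtain ⟨m, hm, h, hh, he⟩ := Subgroup.mem_sup_of_normal_left.mp hg
      rw [← Module.End.mul_apply, ← map_mul, ← he, map_mul, Module.End.mul_apply]
      exact le_iSup (fun x : M => tr x) ⟨m, hm⟩ (Submodule.mem_map_of_mem (hXH h hh v hv))
    rcases subrep_eq_bot_or_eq_top ρ S0 hS0 with h | h
    · exfalso
      refine hX0 ((Submodule.eq_bot_iff _).mpr fun v hv => ?_)
      have hv' : ρ ((1 : M) : G) v ∈ S0 :=
        le_iSup (fun x : M => tr x) 1 (Submodule.mem_map_of_mem hv)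
      rw [h, Submodule.mem_bot, OneMemClass.coe_one, map_one, Module.End.one_apply] at hv'
      exact hv'
    · refine top_le_iff.mp (h ▸ iSup_le fun x => ?_)
      rintro _ ⟨v, hv, rfl⟩
      exact hS x x.2 v hv
  have hcompl : IsCompl X W := by
    have htop : X ⊔ W = ⊤ := hspan _ hcov
    refine ⟨disjoint_iff.mpr ?_, codisjoint_iff.mpr htop⟩
    have h := Submodule.finrank_sup_add_finrank_inf_eq X W
    rw [htop, finrank_top] at h
    exact Submodule.finrank_eq_zero.mp (by omega)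
  refine ⟨X.projection W hcompl, fun v hv => Submodule.projection_apply_of_mem_left hcompl hv,
    fun v => Submodule.projection_apply_mem hcompl v, fun h hh => LinearMap.ext fun v => ?_,
    fun x hx hxC v hv => Submodule.projection_apply_of_mem_right hcompl (hW x hx hxC v hv),
    fun Y Y' hY hY' hYY => ?_⟩
  · rw [Module.End.mul_apply, Module.End.mul_apply]
    have hv : v ∈ X ⊔ W := by rw [hcompl.sup_eq_top]; trivial
    obtain ⟨a, ha, b, hb, rfl⟩ := Submodule.mem_sup.mp hv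
    simp only [map_add, Submodule.projection_apply_of_mem_left hcompl ha,
      Submodule.projection_apply_of_mem_right hcompl hb,
      Submodule.projection_apply_of_mem_left hcompl (hXH h hh a ha),
      Submodule.projection_apply_of_mem_right hcompl (hWH h hh b hb), map_zero, add_zero]
  · refine LinearMap.ext fun v => ?_
    have h : LinearMap.eqLocus Y Y' = ⊤ := hspan _ fun x hx u hu => by
      show Y (ρ x u) = Y' (ρ x u)
      rw [← Module.End.mul_apply, ← hY x hx, ← Module.End.mul_apply Y', ← hY' x hx,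
        Module.End.mul_apply, Module.End.mul_apply, hYY u hu]
    have hv : v ∈ LinearMap.eqLocus Y Y' := h ▸ Submodule.mem_top
    exact hv

/-- The main construction. -/
theorem induced_from_overgroup [hρ : ρ.IsIrreducible] [hC : C.Normal] (M H R : Subgroup G)
    [hM : M.Normal] (hCM : C ≤ M) (hCH : C ≤ H) (hMH : M ⊔ H = ⊤) (hMi : M ⊓ H = C)
    (hRH : R ≤ H) (hRn : ∀ h ∈ H, ∀ r ∈ R, h * r * h⁻¹ ∈ R)
    (hRab : ∀ r ∈ R, ∀ s ∈ R, r * s * r⁻¹ * s⁻¹ ∈ C)
    (hMab : ∀ r ∈ M, ∀ s ∈ M, r * s * r⁻¹ * s⁻¹ ∈ C)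
    {j N : ℕ} (hj : ∀ r ∈ R, r ^ j ∈ C) (hN : ∀ m ∈ M, m ^ N ∈ C) (hjN : j.Coprime N)
    (hmove : ∃ r ∈ R, ∃ m ∈ M, m⁻¹ * r * m * r⁻¹ ∉ C)
    {φ : C → ℂ} (hφ : IsIrrCharacter C φ) {k : ℕ}
    (hres : (fun n : C => ρ.character n) = (k : ℂ) • φ)
    {ψ : M → ℂ} (hψ : IsIrrCharacter M ψ) {e : ℕ}
    (hresM : (fun n : M => ρ.character n) = (e : ℂ) • ψ)
    (X : Submodule ℂ V) (hX0 : X ≠ ⊥) (hXH : ∀ h ∈ H, ∀ v ∈ X, ρ h v ∈ X)
    (hdim : C.relIndex M * Module.finrank ℂ X ≤ Module.finrank ℂ V) :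
    ∃ (K : Subgroup G) (θ : K → ℂ), K ≠ ⊤ ∧ M ≤ K ∧ IsCharacter K θ ∧
      indFun K θ = ρ.character := by
  classical
  haveI := nontrivial_of_irreducible ρ
  obtain ⟨E, hEX, hEmem, hEH, hE0, huniq⟩ := exists_projection M H hMH hCM hCH X hX0 hXH hdim
  haveI : Fintype M := Fintype.ofFinite _
  haveI : Fintype C := Fintype.ofFinite _
  -- invariance of `φ`
  have hinvφ : ∀ (g : G) (c : C), φ (MulAut.conjNormal g c) = φ c := by
    intro g c
    have h1 := congrFun hres c
    have h2 := congrFun hres (MulAut.conjNormal g c)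
    simp only [Pi.smul_apply, smul_eq_mul] at h1 h2
    have hk : (k : ℂ) ≠ 0 := fun h0 => by
      have h := congrFun hres 1
      simp only [Pi.smul_apply, smul_eq_mul, h0, zero_mul, OneMemClass.coe_one, ρ.char_one,
        Nat.cast_eq_zero] at h
      exact Module.finrank_pos.ne' h
    refine mul_left_cancel₀ hk ?_
    rw [← h1, ← h2, MulAut.conjNormal_apply]
    exact isCharacter_classFunction (isCharacter_rep ρ) (c : G) g
  have hA : ∀ m : M, ∃ A : (Module.End ℂ V)ˣ, IsMono ρ C (m : G) A := by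
    intro m
    obtain ⟨T, hT, hTc⟩ := (homogeneous_model ρ C hφ hres).2
      (MulAut.conjNormal (m : G)⁻¹ : MulAut C) (hinvφ _)
    refine ⟨((Group.isUnit (m : G)).map ρ).unit * T, fun c hc => ?_, ?_⟩
    · show ρ c * (ρ (m : G) * T) = ρ (m : G) * T * ρ c
      have h1 : (T : Module.End ℂ V) * ρ c = ρ ((m : G)⁻¹ * c * m) * T := by
        have h := hTc ⟨c, hc⟩
        rw [MulAut.conjNormal_apply, inv_inv] at h
        exact h
      rw [mul_assoc (ρ (m : G)), h1, ← mul_assoc, ← mul_assoc, ← map_mul, ← map_mul,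
        show (m : G) * ((m : G)⁻¹ * c * m) = c * m by group]
    · show ρ (m : G)⁻¹ * (ρ (m : G) * T) ∈ bicomm ρ C
      rw [← mul_assoc, inv_mul_self_apply, one_mul]
      exact hT
  choose A hA using hA
  have hbC : ∀ B ∈ bicomm ρ C, ∀ v ∈ X, B v ∈ X := fun B hB v hv => by
    have h := LinearMap.congr_fun (mem_bicomm.mp hB E fun c hc => hEH c (hCH hc)) v
    rw [Module.End.mul_apply, Module.End.mul_apply, hEX v hv] at h
    rw [← h]; exact hEmem _
  have hmonoX : ∀ (m : G) B, IsMono ρ C m B → ∀ v ∈ X, B v ∈ X.map (ρ m) := fun m B hB v hv =>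
    ⟨(ρ m⁻¹ * B) v, hbC _ hB.2 v hv, by
      rw [← Module.End.mul_apply, ← mul_assoc, mul_inv_self_apply, one_mul]⟩
  have hdisj : ∀ x ∈ M, ∀ y ∈ M, x⁻¹ * y ∉ C → ∀ v, v ∈ X.map (ρ x) → v ∈ X.map (ρ y) → v = 0 := by
    rintro x hx y hy hxy v ⟨a, ha, rfl⟩ ⟨b, hb, he⟩
    have h1 : a = ρ (x⁻¹ * y) b := by
      rw [map_mul, Module.End.mul_apply, he, ← Module.End.mul_apply, inv_mul_self_apply]
      rfl
    have h2 : E a = 0 := h1 ▸ hE0 _ (M.mul_mem (M.inv_mem hx) hy) hxy b hb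
    rw [hEX a ha] at h2
    rw [h2, map_zero]
  have hbM : ∀ m ∈ M, ∀ B, IsMono ρ C m B → B ∈ bicomm ρ M := fun m hm B hB => by
    have e : B = ρ m * (ρ m⁻¹ * B) := by rw [← mul_assoc, mul_inv_self_apply, one_mul]
    rw [e]
    exact (bicomm ρ M).mul_mem (self_mem_bicomm hm) (bicomm_mono hCM hB.2)
  -- the projective structure
  have hrel : ∀ (m : M) (B : (Module.End ℂ V)ˣ) (x : G), IsMono ρ C x B → x⁻¹ * m ∈ C →
      ∃ a : ℂ, a ≠ 0 ∧ (B : Module.End ℂ V) = a • (A m : Module.End ℂ V) := by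
    intro m B x hB hx
    obtain ⟨a, ha⟩ := (hA m).unique hφ hres (hB.of_coset hx)
    refine ⟨a, fun h0 => ?_, ha⟩
    rw [h0, zero_smul] at ha
    exact B.ne_zero ha
  let cj : G → (Module.End ℂ V)ˣ → (Module.End ℂ V)ˣ := fun g B =>
    ((Group.isUnit g).map ρ).unit * B * (((Group.isUnit g).map ρ).unit)⁻¹
  have hcj : ∀ g B, ((cj g B : (Module.End ℂ V)ˣ) : Module.End ℂ V) = ρ g * B * ρ g⁻¹ := by
    intro g B
    show ρ g * B * (↑(((Group.isUnit g).map ρ).unit)⁻¹ : Module.End ℂ V) = _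
    congr 1
    exact Units.inv_eq_of_mul_eq_one_right (mul_inv_self_apply ρ g)
  let qt : G → M → Module.End ℂ V := fun g m => ρ g * A m * ρ g⁻¹ * (↑(A m)⁻¹ : Module.End ℂ V)
  let P : G → Module.End ℂ V := fun g => ∑ m : M, qt g m
  have hPA : ∀ g (w : M), P g * A w = ρ g * A w * ρ g⁻¹ * P g := by
    intro g w
    have h : ∀ u : M, qt g (w * u) =
        ρ g * A w * ρ g⁻¹ * qt g u * (↑(A w)⁻¹ : Module.End ℂ V) := by
      intro u
      obtain ⟨a, -, ha⟩ := hrel (w * u) (A w * A u) _ ((hA w).mul (hA u)) (by simp)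
      show ρ g * A (w * u) * ρ g⁻¹ * _ = _
      rw [← quot_eq g ha, mul_inv_rev, Units.val_mul, Units.val_mul]
      show ρ g * ((A w : Module.End ℂ V) * A u) * ρ g⁻¹ * (↑(A u)⁻¹ * ↑(A w)⁻¹) =
        ρ g * A w * ρ g⁻¹ * (ρ g * A u * ρ g⁻¹ * ↑(A u)⁻¹) * ↑(A w)⁻¹
      have hc : ρ g⁻¹ * (ρ g * ((A u : Module.End ℂ V) * (ρ g⁻¹ * ↑(A u)⁻¹))) =
          (A u : Module.End ℂ V) * (ρ g⁻¹ * ↑(A u)⁻¹) := by
        rw [← mul_assoc, inv_mul_self_apply, one_mul]
      simp only [mul_assoc]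
      rw [← mul_assoc (ρ g⁻¹) (ρ g), inv_mul_self_apply, one_mul]
    have hsum : P g = ρ g * A w * ρ g⁻¹ * P g * (↑(A w)⁻¹ : Module.End ℂ V) := by
      show (∑ m, qt g m) = _ * (∑ m, qt g m) * _
      rw [Finset.mul_sum, Finset.sum_mul]
      exact (Fintype.sum_equiv (Equiv.mulLeft w) _ _ fun u => (h u).symm).symm
    conv_lhs => rw [hsum]
    rw [mul_assoc _ _ (A w : Module.End ℂ V), Units.inv_mul, mul_one]
  have hPAinv : ∀ g (w : M), P g * (↑(A w)⁻¹ : Module.End ℂ V) =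
      ρ g * (↑(A w)⁻¹ : Module.End ℂ V) * ρ g⁻¹ * P g := by
    intro g w
    have h1 := congrArg (fun Y => ρ g * (↑(A w)⁻¹ : Module.End ℂ V) * ρ g⁻¹ * Y * ↑(A w)⁻¹)
      (hPA g w)
    have h2 : ρ g * (↑(A w)⁻¹ : Module.End ℂ V) * ρ g⁻¹ * (ρ g * A w * ρ g⁻¹) = 1 := by
      rw [← hcj g (A w)]
      have hci : ρ g * (↑(A w)⁻¹ : Module.End ℂ V) * ρ g⁻¹ =
          (↑(cj g (A w))⁻¹ : Module.End ℂ V) := by
        have : (cj g (A w))⁻¹ = cj g (A w)⁻¹ := by simp [cj, mul_assoc]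
        rw [this, hcj]
      rw [hci, Units.inv_mul]
    simp only [← mul_assoc] at h1 h2
    rw [h2, one_mul, mul_assoc _ (A w : Module.End ℂ V), Units.mul_inv, mul_one] at h1
    exact h1.symm
  have hqmono : ∀ g (m : M), IsMono ρ C (g * m * g⁻¹ * (m : G)⁻¹) (qt g m) := by
    intro g m
    refine ((hA m).conj g).mul (?_ : IsMono ρ C (m : G)⁻¹ _)
    obtain ⟨a, ha0, ha⟩ := hrel 1 (A m * A m⁻¹) _ ((hA m).mul (hA m⁻¹)) (by simp)
    obtain ⟨b, hb⟩ : ∃ b : ℂ, (A 1 : Module.End ℂ V) = b • 1 := by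
      refine (homogeneous_model ρ C hφ hres).1 _ ?_ (hA 1).1
      have h := (hA 1).2
      simpa using h
    have hinv : (↑(A m)⁻¹ : Module.End ℂ V) = (a * b)⁻¹ • (A m⁻¹ : Module.End ℂ V) := by
      have hb0 : b ≠ 0 := fun h0 => (A 1).ne_zero (by rw [hb, h0, zero_smul])
      refine Units.inv_eq_of_mul_eq_one_right ?_
      rw [mul_smul_comm, ← Units.val_mul, ha, hb, smul_smul, smul_smul,
        mul_assoc (a * b)⁻¹, inv_mul_cancel₀ (mul_ne_zero ha0 hb0), one_smul]
    rw [hinv]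
    refine ⟨fun c hc => ?_, ?_⟩
    · rw [mul_smul_comm, smul_mul_assoc, (hA m⁻¹).1 c hc]
    · rw [mul_smul_comm]
      exact (bicomm ρ C).smul_mem (by simpa using (hA m⁻¹).2) _
  have hPC : ∀ g, ∀ c ∈ C, ρ c * P g = P g * ρ c := fun g c hc => by
    show ρ c * (∑ m, qt g m) = (∑ m, qt g m) * ρ c
    rw [Finset.mul_sum, Finset.sum_mul]
    exact Finset.sum_congr rfl fun m _ => (hqmono g m).1 c hc
  have hPM : ∀ g, P g ∈ bicomm ρ M := fun g => by
    refine (bicomm ρ M).sum_mem fun m _ => hbM _ ?_ _ (hqmono g m)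
    exact M.mul_mem (hM.conj_mem _ m.2 g) (M.inv_mem m.2)
  have hPconj : ∀ h g, ρ h * P g * ρ h⁻¹ = P (h * g * h⁻¹) := by
    intro h g
    show ρ h * (∑ m, qt g m) * ρ h⁻¹ = ∑ m, qt (h * g * h⁻¹) m
    rw [Finset.mul_sum, Finset.sum_mul]
    refine Fintype.sum_equiv (MulAut.conjNormal h : MulAut M).toEquiv _ _ fun m => ?_
    obtain ⟨a, -, ha⟩ := hrel (MulAut.conjNormal h m) (cj h (A m)) (h * m * h⁻¹)
      (by rw [hcj]; exact (hA m).conj h) (by rw [MulAut.conjNormal_apply, inv_mul_cancel]; exact C.one_mem)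
    show _ = ρ (h * g * h⁻¹) * A (MulAut.conjNormal h m) * ρ (h * g * h⁻¹)⁻¹ *
      (↑(A (MulAut.conjNormal h m))⁻¹ : Module.End ℂ V)
    rw [← quot_eq (h * g * h⁻¹) ha]
    have hci : (↑(cj h (A m))⁻¹ : Module.End ℂ V) = ρ h * ↑(A m)⁻¹ * ρ h⁻¹ := by
      have : (cj h (A m))⁻¹ = cj h (A m)⁻¹ := by simp [cj, mul_assoc]
      rw [this, hcj]
    rw [hcj, hci, show (h * g * h⁻¹)⁻¹ = h * g⁻¹ * h⁻¹ by group, map_mul, map_mul, map_mul, map_mul]
    have hc : ∀ Y : Module.End ℂ V, ρ h⁻¹ * (ρ h * Y) = Y := fun Y => by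
      rw [← mul_assoc, inv_mul_self_apply, one_mul]
    simp only [qt, mul_assoc, hc]
  have hPcoset : ∀ g, ∀ c ∈ C, P (g * c) = P g := by
    intro g c hc
    refine Finset.sum_congr rfl fun m _ => ?_
    have h1 : ρ c * (A m : Module.End ℂ V) * ρ c⁻¹ = A m := by
      rw [(hA m).1 c hc, mul_assoc, mul_inv_self_apply, mul_one]
    show ρ (g * c) * A m * ρ (g * c)⁻¹ * _ = ρ g * A m * ρ g⁻¹ * _
    congr 1
    conv_rhs => rw [← h1]
    rw [mul_inv_rev, map_mul, map_mul]
    simp only [mul_assoc]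
  have hPP : ∀ r ∈ R, ∀ s ∈ R, P r * P s = P s * P r := by
    intro r hr s hs
    have h1 : ρ r * P s * ρ r⁻¹ = P s := by
      rw [hPconj, show r * s * r⁻¹ = s * (s⁻¹ * (r * s * r⁻¹ * s⁻¹) * s) by group,
        hPcoset _ _ (by simpa using hC.conj_mem _ (hRab r hr s hs) s⁻¹)]
    have h2 : ∀ m : M, P r * qt s m = ρ r * qt s m * ρ r⁻¹ * P r := by
      intro m
      obtain ⟨a, -, ha⟩ := hrel (MulAut.conjNormal s m) (cj s (A m)) (s * m * s⁻¹)
        (by rw [hcj]; exact (hA m).conj s)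
        (by rw [MulAut.conjNormal_apply, inv_mul_cancel]; exact C.one_mem)
      rw [hcj] at ha
      show P r * (ρ s * A m * ρ s⁻¹ * _) = ρ r * (ρ s * A m * ρ s⁻¹ * _) * ρ r⁻¹ * P r
      rw [ha, smul_mul_assoc, mul_smul_comm, ← mul_assoc, hPA, mul_assoc _ (P r), hPAinv,
        mul_smul_comm, smul_mul_assoc, smul_mul_assoc]
      congr 1
      have hc : ∀ Y : Module.End ℂ V, ρ r⁻¹ * (ρ r * Y) = Y := fun Y => by
        rw [← mul_assoc, inv_mul_self_apply, one_mul]
      simp only [mul_assoc, hc]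
    calc P r * P s = ∑ m, P r * qt s m := Finset.mul_sum _ _ _
      _ = ∑ m, ρ r * qt s m * ρ r⁻¹ * P r := Finset.sum_congr rfl fun m _ => h2 m
      _ = ρ r * P s * ρ r⁻¹ * P r := by
          rw [← Finset.sum_mul, ← Finset.sum_mul, ← Finset.mul_sum]
      _ = P s * P r := by rw [h1]
  -- nondegeneracy
  have havg : ∀ x ∈ M, x ∉ C → ∀ B : (Module.End ℂ V)ˣ, IsMono ρ C x B →
      ∑ w : M, (A w : Module.End ℂ V) * B * ↑(A w)⁻¹ = 0 := by
    intro x hx hxC B hB
    obtain ⟨a0, ha00, ha0⟩ := hrel ⟨x, hx⟩ B x hB (by simp)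
    obtain ⟨w0, hw0⟩ : ∃ w0 : M, (A w0 : Module.End ℂ V) * B ≠ B * A w0 := by
      by_contra hcon
      push Not at hcon
      have hBM : ∀ m ∈ M, ρ m * (B : Module.End ℂ V) = B * ρ m := fun m hm => by
        set Y := ρ m⁻¹ * (A ⟨m, hm⟩ : Module.End ℂ V) with hY
        have h1 : (B : Module.End ℂ V) * Y = Y * B := mem_bicomm.mp (hA ⟨m, hm⟩).2 _ hB.1
        have h2 := hcon ⟨m, hm⟩
        have h3 : (A ⟨m, hm⟩ : Module.End ℂ V) = ρ m * Y := by
          rw [hY, ← mul_assoc, mul_inv_self_apply, one_mul]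
        rw [h3, mul_assoc, ← h1, ← mul_assoc, ← mul_assoc] at h2
        let Yu : (Module.End ℂ V)ˣ := ((Group.isUnit m⁻¹).map ρ).unit * A ⟨m, hm⟩
        have hYu : (Yu : Module.End ℂ V) = Y := rfl
        rw [← hYu] at h2
        exact Yu.mul_left_inj.mp h2
      obtain ⟨a, ha⟩ := (homogeneous_model ρ M hψ hresM).1 _ (hbM x hx _ hB) hBM
      obtain ⟨v, hv, hv0⟩ := Submodule.exists_mem_ne_zero_of_ne_bot hX0
      have h1 : (B : Module.End ℂ V) v ∈ X.map (ρ x) := hmonoX x _ hB v hv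
      have h2 : (B : Module.End ℂ V) v ∈ X.map (ρ 1) :=
        ⟨a • v, X.smul_mem a hv, by rw [ha, map_one]; rfl⟩
      have h4 := hdisj 1 M.one_mem x hx (by simpa using hxC) _ h2 h1
      refine hv0 ?_
      have h5 := congrArg (fun Y : Module.End ℂ V => Y v) B.inv_mul
      simp only [Module.End.mul_apply, h4, map_zero, Module.End.one_apply] at h5
      exact h5.symm
    have hterm : ∀ w : M, ∃ a : ℂ, (A w : Module.End ℂ V) * B * ↑(A w)⁻¹ =
        a • (B : Module.End ℂ V) := by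
      intro w
      obtain ⟨a1, ha1, he1⟩ := hrel (w * ⟨x, hx⟩) (A w * B) _ ((hA w).mul hB) (by simp)
      obtain ⟨a2, ha2, he2⟩ := hrel (w * ⟨x, hx⟩) (B * A w) _ (hB.mul (hA w)) (by
        show (x * (w : G))⁻¹ * ((w : G) * x) ∈ C
        have h := hMab _ (M.inv_mem w.2) _ (M.inv_mem hx)
        simpa [mul_assoc] using h)
      rw [Units.val_mul] at he1 he2
      refine ⟨a1 / a2, ?_⟩
      have : (A w : Module.End ℂ V) * B = (a1 / a2) • ((B : Module.End ℂ V) * A w) := by
        rw [he1, he2, smul_smul, div_mul_cancel₀ _ ha2]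
      rw [this, smul_mul_assoc, mul_assoc, Units.mul_inv, mul_one]
    choose a ha using hterm
    have hS : ∑ w : M, (A w : Module.End ℂ V) * B * ↑(A w)⁻¹ = (∑ w, a w) • (B : Module.End ℂ V) := by
      rw [Finset.sum_smul]; exact Finset.sum_congr rfl fun w _ => ha w
    rw [hS]
    have hfix : (A w0 : Module.End ℂ V) * ((∑ w, a w) • (B : Module.End ℂ V)) * ↑(A w0)⁻¹ =
        (∑ w, a w) • (B : Module.End ℂ V) := by
      rw [← hS, Finset.mul_sum, Finset.sum_mul]
      refine Fintype.sum_equiv (Equiv.mulLeft w0) _ _ fun w => ?_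
      obtain ⟨b, hb0, hb⟩ := hrel (w0 * w) (A w0 * A w) _ ((hA w0).mul (hA w)) (by simp)
      rw [Equiv.coe_mulLeft]
      have hi : b • (↑(A w0 * A w)⁻¹ : Module.End ℂ V) = ↑(A (w0 * w))⁻¹ := by
        refine (Units.inv_eq_of_mul_eq_one_right ?_).symm
        rw [mul_smul_comm, ← smul_mul_assoc, ← hb, Units.mul_inv]
      rw [← hi, mul_smul_comm, ← smul_mul_assoc, ← smul_mul_assoc, ← hb, mul_inv_rev,
        Units.val_mul, Units.val_mul]
      simp only [mul_assoc]
    rw [mul_smul_comm, smul_mul_assoc, ha w0, smul_smul] at hfix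
    by_contra hne
    have hs : (∑ w, a w) ≠ 0 := fun h0 => hne (by rw [h0, zero_smul])
    have h1 : a w0 = 1 := by
      have h := smul_left_injective ℂ (B.ne_zero) hfix
      exact (mul_eq_left₀ hs).mp h
    refine hw0 ?_
    have h := congrArg (fun Y => Y * (A w0 : Module.End ℂ V)) (ha w0)
    simp only [mul_assoc, Units.inv_mul, mul_one, h1, one_smul] at h
    exact h
  have hPinj : ∀ r ∈ R, ∀ v, P r v = 0 → v = 0 := by
    intro r hr
    set S : Finset M := Finset.univ.filter fun m : M => r * m * r⁻¹ * (m : G)⁻¹ ∈ C with hS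
    have hfix : ∀ m ∈ S, qt r m = 1 := by
      intro m hm
      have hm' : r * m * r⁻¹ * (m : G)⁻¹ ∈ C := (Finset.mem_filter.mp hm).2
      obtain ⟨a, ha0, ha⟩ := hrel m (cj r (A m)) (r * m * r⁻¹)
        (by rw [hcj]; exact (hA m).conj r) (by
          have := hC.conj_mem _ (C.inv_mem hm') (m : G)⁻¹
          simpa [mul_assoc] using this)
      rw [hcj] at ha
      have hpow : ∀ i : ℕ, ρ (r ^ i) * (A m : Module.End ℂ V) * ρ (r ^ i)⁻¹ =
          a ^ i • (A m : Module.End ℂ V) := by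
        intro i
        induction i with
        | zero => simp
        | succ i ih =>
          rw [pow_succ, mul_inv_rev, map_mul, map_mul]
          calc ρ (r ^ i) * ρ r * (A m : Module.End ℂ V) * (ρ r⁻¹ * ρ (r ^ i)⁻¹)
              = ρ (r ^ i) * (ρ r * A m * ρ r⁻¹) * ρ (r ^ i)⁻¹ := by simp only [mul_assoc]
            _ = _ := by rw [ha, mul_smul_comm, smul_mul_assoc, ih, smul_smul, pow_succ']
      have haj : a ^ j = 1 := by
        have h := hpow j
        rw [(hA m).1 _ (hj r hr), mul_assoc, mul_inv_self_apply, mul_one] at h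
        exact (smul_left_injective ℂ (A m).ne_zero
          (show a ^ j • (A m : Module.End ℂ V) = (1 : ℂ) • (A m : Module.End ℂ V) by
            rw [one_smul]; exact h.symm))
      have haN : a ^ N = 1 := by
        have hmono : ∀ i : ℕ, IsMono ρ C ((m : G) ^ i) ((A m : Module.End ℂ V) ^ i) := by
          intro i
          induction i with
          | zero => exact ⟨fun c _ => by simp, by simp [Subalgebra.one_mem]⟩
          | succ i ih => rw [pow_succ, pow_succ]; exact ih.mul (hA m)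
        obtain ⟨b, hb⟩ : ∃ b : ℂ, (A m : Module.End ℂ V) ^ N = b • 1 := by
          refine (homogeneous_model ρ C hφ hres).1 _ ?_ (hmono N).1
          have h := (hmono N).of_coset (n := 1) (by simpa using hN m m.2)
          simpa using h.2
        have h1' : ∀ i : ℕ,
            (ρ r * A m * ρ r⁻¹) ^ i = ρ r * (A m : Module.End ℂ V) ^ i * ρ r⁻¹ := by
          intro i
          induction i with
          | zero => simp [mul_inv_self_apply]
          | succ i ih =>
            rw [pow_succ, pow_succ, ih]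
            calc ρ r * (A m : Module.End ℂ V) ^ i * ρ r⁻¹ * (ρ r * A m * ρ r⁻¹)
                = ρ r * (A m : Module.End ℂ V) ^ i * (ρ r⁻¹ * ρ r) * (A m * ρ r⁻¹) := by
                  simp only [mul_assoc]
              _ = _ := by rw [inv_mul_self_apply, mul_one]; simp only [mul_assoc]
        have h1 := h1' N
        rw [ha, smul_pow, hb, mul_smul_comm, smul_mul_assoc, mul_one, mul_inv_self_apply,
          smul_smul] at h1
        have hb0 : b ≠ 0 := fun h0 => by
          exact (A m ^ N).ne_zero (by rw [Units.val_pow_eq_pow_val, hb, h0, zero_smul])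
        have := smul_left_injective ℂ (one_ne_zero (α := Module.End ℂ V)) h1
        exact mul_right_cancel₀ hb0 (this.trans (one_mul b).symm)
      have ha1 : a = 1 := by
        have h : a ^ Nat.gcd j N = 1 := pow_gcd_eq_one.mpr ⟨haj, haN⟩
        rwa [show Nat.gcd j N = 1 from hjN, pow_one] at h
      show ρ r * A m * ρ r⁻¹ * _ = 1
      rw [ha, ha1, one_smul, Units.mul_inv]
    have h1 : ∑ w : M, (A w : Module.End ℂ V) * P r * ↑(A w)⁻¹ =
        ((S.card * Fintype.card M : ℕ) : ℂ) • (1 : Module.End ℂ V) := by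
      simp only [P, Finset.mul_sum, Finset.sum_mul]
      rw [Finset.sum_comm, ← Finset.sum_subset (Finset.subset_univ S) fun m _ hm => ?_]
      · rw [Finset.sum_congr rfl fun m hm => Finset.sum_congr rfl fun w _ => by
          rw [hfix m hm, mul_one, Units.mul_inv]]
        rw [Finset.sum_const, Finset.sum_const, Finset.card_univ, smul_smul,
          ← Nat.cast_smul_eq_nsmul ℂ]
      · have hm' : r * m * r⁻¹ * (m : G)⁻¹ ∉ C := fun h =>
          hm (Finset.mem_filter.mpr ⟨Finset.mem_univ _, h⟩)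
        refine Eq.trans ?_ (havg _ (M.mul_mem (hM.conj_mem _ m.2 r) (M.inv_mem m.2)) hm'
          (cj r (A m) * (A m)⁻¹) (by rw [Units.val_mul, hcj]; exact hqmono r m))
        exact Finset.sum_congr rfl fun w _ => by rw [Units.val_mul, hcj]
    intro v hv
    have h2 : ∀ w : M, (A w : Module.End ℂ V) * P r * ↑(A w)⁻¹ =
        (A w : Module.End ℂ V) * (ρ r * ↑(A w)⁻¹ * ρ r⁻¹) * P r := fun w => by
      rw [mul_assoc, hPAinv, ← mul_assoc]
    rw [Finset.sum_congr rfl fun w _ => h2 w, ← Finset.sum_mul] at h1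
    have h3 := LinearMap.congr_fun h1 v
    rw [Module.End.mul_apply, hv, map_zero, LinearMap.smul_apply, Module.End.one_apply] at h3
    have hS0 : S.card * Fintype.card M ≠ 0 := mul_ne_zero (Finset.card_ne_zero.mpr ⟨1,
      Finset.mem_filter.mpr ⟨Finset.mem_univ _, by simp⟩⟩) Fintype.card_ne_zero
    exact (smul_eq_zero.mp h3.symm).resolve_left (Nat.cast_ne_zero.mpr hS0)
  -- transfer to operators commuting with `M`
  let Γ : Module.End ℂ V → Module.End ℂ V := fun Y =>
    (Nat.card C : ℂ)⁻¹ • ∑ x : M, ρ (x : G) * Y * E * ρ (x : G)⁻¹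
  have hΓM : ∀ Y, ∀ m ∈ M, ρ m * Γ Y = Γ Y * ρ m := by
    intro Y m hm
    show ρ m * (_ • _) = (_ • _) * ρ m
    rw [mul_smul_comm, smul_mul_assoc, Finset.mul_sum, Finset.sum_mul]
    congr 1
    refine Fintype.sum_equiv (Equiv.mulLeft ⟨m, hm⟩) _ _ fun x => ?_
    simp only [Equiv.coe_mulLeft, Subgroup.coe_mul, mul_inv_rev, map_mul]
    simp only [mul_assoc, inv_mul_self_apply, mul_one]
  have hΓX : ∀ Y, (∀ c ∈ C, ρ c * Y = Y * ρ c) → ∀ v ∈ X, Γ Y v = Y v := by
    intro Y hY v hv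
    show ((_ : ℂ) • ∑ x : M, ρ (x : G) * Y * E * ρ (x : G)⁻¹) v = _
    rw [LinearMap.smul_apply, LinearMap.sum_apply]
    have hterm : ∀ x : M, (ρ (x : G) * Y * E * ρ (x : G)⁻¹) v =
        if (x : G) ∈ C then Y v else 0 := by
      intro x
      simp only [Module.End.mul_apply]
      split_ifs with hx
      · rw [hEX _ (hXH _ (hCH (C.inv_mem hx)) v hv), ← Module.End.mul_apply Y,
          ← hY _ (C.inv_mem hx), Module.End.mul_apply, ← Module.End.mul_apply (ρ (x : G)),
          mul_inv_self_apply, Module.End.one_apply]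
      · rw [hE0 _ (M.inv_mem x.2) (fun h => hx (by simpa using C.inv_mem h)) v hv, map_zero,
          map_zero]
    rw [Finset.sum_congr rfl fun x _ => hterm x, Finset.sum_ite, Finset.sum_const_zero, add_zero,
      Finset.sum_const, ← Nat.cast_smul_eq_nsmul ℂ, smul_smul]
    have hc : (Finset.univ.filter fun x : M => (x : G) ∈ C).card = Nat.card C := by
      rw [← Fintype.card_subtype, ← Nat.card_eq_fintype_card]
      exact Nat.card_congr ⟨fun x => ⟨x.1, x.2⟩, fun c => ⟨⟨c, hCM c.2⟩, c.2⟩, fun x => rfl,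
        fun c => rfl⟩
    rw [hc, inv_mul_cancel₀ (natCard_ne_zero C), one_smul]
  have hswap : ∀ Y Z, (∀ c ∈ C, ρ c * Y = Y * ρ c) → Z ∈ bicomm ρ M →
      ∀ v ∈ X, Γ Y (Z v) = Z (Y v) := fun Y Z hY hZ v hv => by
    have h := LinearMap.congr_fun (mem_bicomm.mp hZ (Γ Y) (hΓM Y)) v
    rw [Module.End.mul_apply, Module.End.mul_apply, hΓX Y hY v hv] at h
    exact h
  let Q : R → Module.End ℂ V := fun r => Γ (P r)
  have hQ : ∀ r s, Q r * Q s = Q s * Q r := by
    intro r s
    refine huniq _ _ (fun m hm => ?_) (fun m hm => ?_) fun v hv => ?_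
    · rw [← mul_assoc, hΓM _ m hm, mul_assoc, hΓM _ m hm, mul_assoc]
    · rw [← mul_assoc, hΓM _ m hm, mul_assoc, hΓM _ m hm, mul_assoc]
    · show Γ (P r) (Γ (P s) v) = Γ (P s) (Γ (P r) v)
      rw [hΓX _ (hPC s) v hv, hΓX _ (hPC r) v hv, hswap _ _ (hPC r) (hPM s) v hv,
        hswap _ _ (hPC s) (hPM r) v hv, ← Module.End.mul_apply, ← Module.End.mul_apply,
        hPP s s.2 r r.2]
  refine induced_of_family Q hQ (fun g => ?_) M (fun m hm i => hΓM _ m hm) ?_
  · have hg : g ∈ M ⊔ H := hMH ▸ Subgroup.mem_top g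
    obtain ⟨m, hm, h, hh, rfl⟩ := Subgroup.mem_sup_of_normal_left.mp hg
    refine ⟨fun r => ⟨h⁻¹ * r * h, by simpa using hRn h⁻¹ (H.inv_mem hh) r r.2⟩, fun r => ?_⟩
    have h1 : ρ (m * h)⁻¹ * Q r * ρ (m * h) = ρ h⁻¹ * Q r * ρ h := by
      rw [mul_inv_rev, map_mul, map_mul]
      calc ρ h⁻¹ * ρ m⁻¹ * Q r * (ρ m * ρ h) = ρ h⁻¹ * ρ m⁻¹ * (Q r * ρ m) * ρ h := by
            simp only [mul_assoc]
        _ = ρ h⁻¹ * (ρ m⁻¹ * ρ m) * Q r * ρ h := by
            rw [show Q r * ρ m = ρ m * Q r from (hΓM _ m hm).symm]; simp only [mul_assoc]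
        _ = _ := by rw [inv_mul_self_apply, mul_one]
    rw [h1]
    refine huniq _ _ (fun x hx => ?_) (fun x hx => hΓM _ x hx) fun v hv => ?_
    · have e1 : ρ x * ρ h⁻¹ = ρ h⁻¹ * ρ (h * x * h⁻¹) := by
        rw [← map_mul, ← map_mul]; congr 1; group
      have e2 : ρ (h * x * h⁻¹) * ρ h = ρ h * ρ x := by
        rw [← map_mul, ← map_mul]; congr 1; group
      calc ρ x * (ρ h⁻¹ * Q r * ρ h) = ρ h⁻¹ * (ρ (h * x * h⁻¹) * Q r) * ρ h := by
            rw [← mul_assoc, ← mul_assoc, e1]; simp only [mul_assoc]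
        _ = ρ h⁻¹ * (Q r * ρ (h * x * h⁻¹)) * ρ h := by
            rw [show ρ (h * x * h⁻¹) * Q r = Q r * ρ (h * x * h⁻¹) from
              hΓM _ _ (hM.conj_mem x hx h)]
        _ = _ := by rw [mul_assoc (ρ h⁻¹ * Q r) (ρ h) (ρ x), ← e2]; simp only [mul_assoc]
    · show (ρ h⁻¹) (Γ (P r) (ρ h v)) = Γ (P (h⁻¹ * r * h)) v
      rw [hΓX _ (hPC _) _ (hXH h hh v hv), hΓX _ (hPC _) v hv]
      have := hPconj h⁻¹ r
      rw [inv_inv] at this
      rw [← this]
      rfl
  · obtain ⟨r, hr, w, hw, hrw⟩ := hmove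
    refine ⟨⟨r, hr⟩, fun a ha => ?_⟩
    obtain ⟨v, hv, hv0⟩ := Submodule.exists_mem_ne_zero_of_ne_bot hX0
    have hPv : ∀ u ∈ X, P r u = a • u := fun u hu => by
      rw [← hΓX _ (hPC r) u hu]
      exact LinearMap.congr_fun ha u
    have ha0 : a ≠ 0 := fun h0 => hv0 (hPinj r hr v (by rw [hPv v hv, h0, zero_smul]))
    set Aw := (A ⟨w, hw⟩ : Module.End ℂ V) with hAw
    have h1 : P r (Aw v) = a • Aw v := by
      rw [← hswap Aw (P r) (hA ⟨w, hw⟩).1 (hPM r) v hv, hPv v hv, map_smul,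
        hΓX Aw (hA ⟨w, hw⟩).1 v hv]
    have h2 := LinearMap.congr_fun (hPA r ⟨w, hw⟩) v
    rw [Module.End.mul_apply, Module.End.mul_apply, h1, hPv v hv, map_smul] at h2
    have h3 := smul_right_injective V ha0 h2
    have h4 := hmonoX w _ (hA ⟨w, hw⟩) v hv
    have h5 : Aw v ∈ X.map (ρ (r * w * r⁻¹)) := by
      rw [h3]; exact hmonoX _ _ ((hA ⟨w, hw⟩).conj r) v hv
    have h6 := hdisj w hw _ (hM.conj_mem w hw r)
      (by simpa [mul_assoc] using hrw) _ h4 h5
    refine hv0 ?_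
    have h7 := congrArg (fun Y : Module.End ℂ V => Y v) (A ⟨w, hw⟩).inv_mul
    simp only [Module.End.mul_apply, Module.End.one_apply] at h7
    rw [← h7, show (A ⟨w, hw⟩ : Module.End ℂ V) v = 0 from h6, map_zero]

/-- Berger's theorem in inductive form. -/
theorem not_induced {G : Type u} [Group G] [Fintype G] [Group.IsSolvable G] {χ : G → ℂ}
    (hχ : IsIrrCharacter G χ)
    (hqp : ∀ N : Subgroup G, N.Normal → ∃ (ϑ : N → ℂ) (e : ℕ), IsIrrCharacter N ϑ ∧
      (fun n : N => χ n) = (e : ℂ) • ϑ) :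
    ∀ (n : ℕ) (H : Subgroup G), IsCoatom H → H.normalCore.index = n →
      ∀ ϑ : H → ℂ, IsCharacter H ϑ → indFun H ϑ ≠ χ := by
  classical
  intro n
  induction n using Nat.strong_induction_on with
  | _ n ih =>
  intro H hmax hn ϑ hϑ hind
  obtain ⟨d, ρ, hρ, hρχ⟩ := hχ
  haveI := hρ
  haveI := nontrivial_of_irreducible ρ
  haveI : Fintype H := Fintype.ofFinite _
  obtain ⟨b, σ, rfl⟩ := hϑ
  -- an invariant subspace of the right dimension
  have hinner : classInner (fun h : H => χ h) σ.character = 1 := by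
    have hirr : IsIrrCharacter G χ := ⟨d, ρ, hρ, hρχ⟩
    have h := frobenius σ.character χ (isCharacter_classFunction hirr.isCharacter')
    rw [hind, irr_inner_self hirr] at h
    rw [← inner_conj_symm, ← h, map_one]
  rw [← hρχ, show (fun h : H => ρ.character h) = Representation.character (ρ.comp H.subtype) from rfl,
    inner_rep_char] at hinner
  haveI : Nontrivial (IntertwiningMap σ (ρ.comp H.subtype)) :=
    Module.nontrivial_of_finrank_eq_succ (R := ℂ) (n := 0) (by exact_mod_cast hinner)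
  obtain ⟨j, hj⟩ := exists_ne (0 : IntertwiningMap σ (ρ.comp H.subtype))
  let X : Submodule ℂ (Fin d → ℂ) := LinearMap.range j.toLinearMap
  have hX0 : X ≠ ⊥ := fun h => hj (by
    have h0 : j.toLinearMap = 0 := LinearMap.range_eq_bot.mp h
    exact IntertwiningMap.ext h0)
  have hXH : ∀ h ∈ H, ∀ v ∈ X, ρ h v ∈ X := by
    rintro h hh _ ⟨u, rfl⟩
    exact ⟨σ ⟨h, hh⟩ u, IntertwiningMap.isIntertwining σ (ρ.comp H.subtype) j ⟨h, hh⟩ u⟩
  have hdimX : H.index * Module.finrank ℂ X ≤ Module.finrank ℂ (Fin d → ℂ) := by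
    have h1 : ρ.character 1 = (H.index : ℂ) * σ.character 1 := by
      rw [hρχ, ← hind, indFun_one_apply]
    rw [ρ.char_one, σ.char_one, ← Nat.cast_mul, Nat.cast_inj] at h1
    rw [h1]
    exact Nat.mul_le_mul_left _ (LinearMap.finrank_range_le _)
  obtain ⟨C, hCdef⟩ : ∃ C : Subgroup G, C = H.normalCore := ⟨_, rfl⟩
  haveI hCn : C.Normal := by rw [hCdef]; infer_instance
  have hCH : C ≤ H := hCdef ▸ Subgroup.normalCore_le H
  obtain ⟨φ, k, hφ, hres⟩ := hqp C hCn
  rw [← hρχ] at hres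
  by_cases hHC : H = C
  · -- a normal maximal subgroup
    subst hHC
    have hk : k = 1 := by
      obtain ⟨a, ha⟩ := inner_character_nat hφ.isCharacter' ⟨b, σ, rfl⟩
      have h : classInner (fun h : H => ρ.character h) σ.character = (k : ℂ) * a := by
        rw [hres, inner_smul_left, ha]
      rw [show (fun h : H => ρ.character h) = Representation.character (ρ.comp H.subtype) from rfl,
        inner_rep_char, hinner] at h
      have h' : 1 = k * a := by exact_mod_cast h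
      exact Nat.eq_one_of_mul_eq_one_right h'.symm
    rw [hk, Nat.cast_one, one_smul] at hres
    obtain ⟨m, τ, hτ, hτφ⟩ := hφ
    haveI := hτ
    obtain ⟨e⟩ := equiv_of_char_eq _ (Fin m → ℂ) (Fin d → ℂ) τ (ρ.comp H.subtype) rfl
      (hτφ.trans hres.symm)
    have hXtop : X = ⊤ := by
      rcases subrep_eq_bot_or_eq_top τ (X.comap e.toLinearEquiv.toLinearMap) (fun h v hv => by
        show e.toLinearEquiv (τ h v) ∈ X
        rw [show e.toLinearEquiv (τ h v) = ρ (h : G) (e.toLinearEquiv v) from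
          IntertwiningMap.isIntertwining τ (ρ.comp H.subtype) e.toIntertwiningMap h v]
        exact hXH h h.2 _ hv) with h | h
      · refine absurd ((Submodule.eq_bot_iff _).mpr fun v hv => ?_) hX0
        have hv' : e.toLinearEquiv.symm v ∈ X.comap e.toLinearEquiv.toLinearMap := by
          show e.toLinearEquiv (e.toLinearEquiv.symm v) ∈ X
          rwa [LinearEquiv.apply_symm_apply]
        rw [h, Submodule.mem_bot, LinearEquiv.map_eq_zero_iff] at hv'
        exact hv'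
      · refine Submodule.eq_top_iff'.mpr fun v => ?_
        have hv' : e.toLinearEquiv.symm v ∈ X.comap e.toLinearEquiv.toLinearMap := by
          rw [h]; trivial
        rwa [Submodule.mem_comap, LinearEquiv.coe_toLinearMap, LinearEquiv.apply_symm_apply] at hv'
    rw [hXtop, finrank_top] at hdimX
    have hpos : 0 < Module.finrank ℂ (Fin d → ℂ) := Module.finrank_pos
    refine hmax.1 (Subgroup.index_eq_one.mp (le_antisymm ?_ (Nat.one_le_iff_ne_zero.mpr
      Subgroup.index_ne_zero_of_finite)))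
    exact Nat.le_of_mul_le_mul_right (by rwa [one_mul]) hpos
  let π := QuotientGroup.mk' C
  have hπ : Function.Surjective π := QuotientGroup.mk'_surjective C
  have hker : π.ker = C := QuotientGroup.ker_mk' C
  obtain ⟨H', hH'⟩ : ∃ H', H' = H.map π := ⟨_, rfl⟩
  have hcm : H'.comap π = H := by
    rw [hH', Subgroup.comap_map_eq_self]; rw [hker]; exact hCH
  have hmax' : IsCoatom H' := by
    refine ⟨fun h => hmax.1 (by rw [← hcm, h, Subgroup.comap_top]), fun K hK => ?_⟩
    have h1 : H < K.comap π := by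
      rw [← hcm]; exact (Subgroup.comap_lt_comap_of_surjective hπ).mpr hK
    exact Subgroup.comap_injective hπ (by rw [hmax.2 _ h1, Subgroup.comap_top])
  have hcore' : H'.normalCore = ⊥ := by
    refine le_bot_iff.mp ?_
    rw [← Subgroup.comap_le_comap_of_surjective hπ, MonoidHom.comap_bot, hker]
    exact le_of_le_of_eq (Subgroup.normal_le_normalCore.mpr
      ((Subgroup.comap_mono (Subgroup.normalCore_le H')).trans hcm.le)) hCdef.symm
  have hH'0 : H' ≠ ⊥ := fun h => hHC (le_antisymm (by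
    rw [← hcm, h, MonoidHom.comap_bot, hker]) hCH)
  haveI : Group.IsSolvable (G ⧸ C) :=
    Group.isSolvable_of_surjective (f := π) hπ
  obtain ⟨M', T', hM'n, hT'n, hMH', hsup', hMT', hcop, r', hr', m', hm', hmove⟩ :=
    exists_primitive_data H' hmax' hcore' hH'0
  haveI := hM'n
  -- a normal abelian subgroup of `H'` inside `T'`
  haveI : ((T' ⊓ H').subgroupOf H').Normal := by
    rw [Subgroup.inf_subgroupOf_right]; exact hT'n.subgroupOf H'
  obtain ⟨R0, hR0n, hR00, hR0T, hR0min⟩ := CfsgLib.Core.exists_minimal_normal_le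
    (N := (T' ⊓ H').subgroupOf H') (fun h => hmove (by
      have hmem : (⟨r', (Subgroup.mem_inf.mp hr').2⟩ : H') ∈ (T' ⊓ H').subgroupOf H' :=
        Subgroup.mem_subgroupOf.mpr hr'
      rw [h, Subgroup.mem_bot] at hmem
      rw [show r' = 1 from congrArg Subtype.val hmem]; group))
  haveI := hR0n
  haveI hR0c := CfsgLib.Core.isMulCommutative_of_minimal_normal hR0min
  obtain ⟨R', hR'⟩ : ∃ R', R' = R0.map H'.subtype := ⟨_, rfl⟩
  have hR'H : R' ≤ H' := hR' ▸ Subgroup.map_subtype_le R0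
  have hR'T : R' ≤ T' ⊓ H' := by
    rw [hR']
    rintro _ ⟨x, hx, rfl⟩
    exact Subgroup.mem_subgroupOf.mp (hR0T hx)
  have hR'n : ∀ h ∈ H', ∀ r ∈ R', h * r * h⁻¹ ∈ R' := by
    subst hR'
    rintro h hh _ ⟨x, hx, rfl⟩
    exact ⟨⟨h, hh⟩ * x * ⟨h, hh⟩⁻¹, hR0n.conj_mem x hx _, rfl⟩
  have hR'c : ∀ r ∈ R', ∀ s ∈ R', r * s = s * r := by
    subst hR'
    rintro _ ⟨x, hx, rfl⟩ _ ⟨y, hy, rfl⟩
    have := congrArg Subtype.val (hR0c.is_comm.comm ⟨x, hx⟩ ⟨y, hy⟩)
    exact congrArg Subtype.val this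
  haveI : Group.IsSolvable M' := inferInstance
  have hM'c : ∀ x ∈ M', ∀ y ∈ M', x * y = y * x := by
    intro x hx y hy
    have hc : ⁅M', M'⁆ = ⊥ := by
      by_contra hne
      -- a proper normal subgroup of `M'` would be normal in the whole quotient
      have hlt : ⁅M', M'⁆ < M' := by
        refine lt_of_le_of_ne (Subgroup.commutator_le_self M') fun heq => ?_
        have hb : M' ≠ ⊥ := fun hb => hne (by rw [heq, hb])
        haveI : Nontrivial M' := (Subgroup.nontrivial_iff_ne_bot M').mpr hb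
        have h1 := Group.IsSolvable.commutator_lt_top_of_nontrivial M'
        have h2 := Subgroup.map_subtype_commutator M'
        rw [heq] at h2
        exact h1.ne (Subgroup.map_injective M'.subtype_injective
          (h2.trans (by rw [← MonoidHom.range_eq_map, Subgroup.range_subtype])))
      haveI : (⁅M', M'⁆).Normal := inferInstance
      have hsup2 : ⁅M', M'⁆ ⊔ H' = ⊤ := by
        refine hmax'.2 _ (lt_of_le_of_ne le_sup_right fun h => hne (le_bot_iff.mp ?_))
        rw [← hMH']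
        exact le_inf (Subgroup.commutator_le_self M') (le_sup_left.trans_eq h.symm)
      have hc1 := CfsgLib.Core.card_sup_mul_card_inf (A := H') (K := ⁅M', M'⁆)
        (CfsgLib.Core.le_normalizer_normal _)
      have hc2 := CfsgLib.Core.card_sup_mul_card_inf (A := H') (K := M')
        (CfsgLib.Core.le_normalizer_normal _)
      have hinf2 : H' ⊓ ⁅M', M'⁆ = ⊥ := le_bot_iff.mp (by
        rw [← hMH', inf_comm M']; exact inf_le_inf_left H' (Subgroup.commutator_le_self M'))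
      rw [sup_comm, hsup2, hinf2, Subgroup.card_bot] at hc1
      rw [sup_comm, hsup', inf_comm, hMH', Subgroup.card_bot] at hc2
      have hcard : Nat.card ↥⁅M', M'⁆ = Nat.card M' :=
        Nat.eq_of_mul_eq_mul_left Nat.card_pos (hc1.symm.trans hc2)
      exact hlt.ne (Subgroup.eq_of_le_of_card_ge (Subgroup.commutator_le_self M') hcard.ge)
    have h := (Subgroup.commutator_eq_bot_iff_le_centralizer.mp hc) hy
    exact Subgroup.mem_centralizer_iff.mp h x hx
  have hR'move : ∃ r ∈ R', ∃ m ∈ M', m⁻¹ * r * m * r⁻¹ ≠ 1 := by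
    by_contra hcon
    push Not at hcon
    have hnorm : R'.Normal := ⟨fun k hk g => by
      have hg : g ∈ M' ⊔ H' := hsup' ▸ Subgroup.mem_top g
      obtain ⟨m, hm, h, hh, rfl⟩ := Subgroup.mem_sup_of_normal_left.mp hg
      have hk' := hR'n h hh k hk
      have he : m⁻¹ * (h * k * h⁻¹) * m = h * k * h⁻¹ := mul_inv_eq_one.mp (hcon _ hk' m hm)
      have he' : m * (h * k * h⁻¹) * m⁻¹ = h * k * h⁻¹ := by
        conv_lhs => rw [← he]
        simp [mul_assoc]
      have : m * h * k * (m * h)⁻¹ = m * (h * k * h⁻¹) * m⁻¹ := by group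
      rw [this, he']; exact hk'⟩
    have hb : R' = ⊥ := le_bot_iff.mp (hcore' ▸ Subgroup.normal_le_normalCore.mpr hR'H)
    rw [hR'] at hb
    exact hR00 ((Subgroup.map_eq_bot_iff_of_injective _ H'.subtype_injective).mp hb)
  have hcopR : (Nat.card R').Coprime (Nat.card M') := by
    refine hcop.coprime_dvd_left ((Subgroup.card_dvd_of_le hR'T).trans (dvd_of_eq ?_))
    have hc1 := CfsgLib.Core.card_sup_mul_card_inf (A := T' ⊓ H') (K := M')
      (CfsgLib.Core.le_normalizer_normal _)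
    have hT : T' ⊓ H' ⊔ M' = T' := by
      refine le_antisymm (sup_le inf_le_left hMT') fun t ht => ?_
      have hg : t ∈ M' ⊔ H' := hsup' ▸ Subgroup.mem_top t
      obtain ⟨m, hm, h, hh, rfl⟩ := Subgroup.mem_sup_of_normal_left.mp hg
      refine Subgroup.mul_mem _ (Subgroup.mem_sup_right hm) (Subgroup.mem_sup_left
        (Subgroup.mem_inf.mpr ⟨?_, hh⟩))
      have := T'.mul_mem (T'.inv_mem (hMT' hm)) ht
      rwa [inv_mul_cancel_left] at this
    have hi : T' ⊓ H' ⊓ M' = ⊥ := le_bot_iff.mp (by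
      rw [← hMH', inf_comm M']; exact inf_le_inf_right M' inf_le_right)
    rw [hT, hi, Subgroup.card_bot, mul_one, ← CfsgLib.Core.card_mul_relIndex hMT', mul_comm] at hc1
    exact (Nat.eq_of_mul_eq_mul_right Nat.card_pos hc1).symm
  -- pull back
  haveI hMn : (M'.comap π).Normal := hM'n.comap π
  have hCM : C ≤ M'.comap π := le_trans hker.ge (π.ker_le_comap M')
  have hMi : M'.comap π ⊓ H = C := by
    rw [← hcm, ← Subgroup.comap_inf, hMH', MonoidHom.comap_bot, hker]
  have hMsup : M'.comap π ⊔ H = ⊤ := by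
    rw [← hcm, Subgroup.comap_sup_eq _ _ _ hπ, hsup', Subgroup.comap_top]
  have hmem1 : ∀ x, π x = 1 → x ∈ C := fun x hx => hker ▸ hx
  obtain ⟨r1, hr1, m1, hm1, hmv⟩ := hR'move
  obtain ⟨r2, rfl⟩ := hπ r1
  obtain ⟨m2, rfl⟩ := hπ m1
  obtain ⟨ψ, e, hψ, hresM⟩ := hqp (M'.comap π) hMn
  rw [← hρχ] at hresM
  have hrel : C.relIndex (M'.comap π) = H.index := by
    have h := CfsgLib.Core.card_sup_mul_card_inf (A := H) (K := M'.comap π)
      (CfsgLib.Core.le_normalizer_normal _)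
    rw [sup_comm, hMsup, Subgroup.card_top, inf_comm, hMi, ← H.index_mul_card,
      ← CfsgLib.Core.card_mul_relIndex hCM] at h
    have h' : Nat.card C * Nat.card H * H.index =
        Nat.card C * Nat.card H * C.relIndex (M'.comap π) := by
      rw [mul_comm H.index] at h; linarith
    exact (Nat.eq_of_mul_eq_mul_left (Nat.mul_pos Nat.card_pos Nat.card_pos) h').symm
  obtain ⟨K, θ, hKt, hMK, hθ, hθχ⟩ := induced_from_overgroup (ρ := ρ) (C := C) (M'.comap π) H
    (R'.comap π) hCM hCH hMsup hMi (hcm ▸ Subgroup.comap_mono hR'H)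
    (fun h hh r hr => by
      show π (h * r * h⁻¹) ∈ R'
      rw [map_mul, map_mul, map_inv]
      exact hR'n (π h) (by rw [← hcm] at hh; exact hh) (π r) hr)
    (fun r hr s hs => hmem1 _ (by
      simp only [map_mul, map_inv]
      rw [hR'c (π r) hr (π s) hs, mul_inv_cancel_right, mul_inv_cancel]))
    (fun r hr s hs => hmem1 _ (by
      simp only [map_mul, map_inv]
      rw [hM'c (π r) hr (π s) hs, mul_inv_cancel_right, mul_inv_cancel]))
    (fun r hr => hmem1 _ (by
      rw [map_pow]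
      exact congrArg Subtype.val (pow_card_eq_one' (x := (⟨π r, hr⟩ : R')))))
    (fun m hm => hmem1 _ (by
      rw [map_pow]
      exact congrArg Subtype.val (pow_card_eq_one' (x := (⟨π m, hm⟩ : M')))))
    hcopR
    ⟨r2, hr1, m2, hm1, fun h => hmv (by
      have h' : π (m2⁻¹ * r2 * m2 * r2⁻¹) = 1 := by rw [← MonoidHom.mem_ker, hker]; exact h
      simpa using h')⟩
    hφ hres hψ hresM X hX0 hXH (by rw [hrel]; exact hdimX)
  obtain ⟨H2, hH2, hKH2⟩ := (eq_top_or_exists_le_coatom K).resolve_left hKt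
  refine ih H2.normalCore.index ?_ H2 hH2 rfl
    (indFun (K.subgroupOf H2) fun x => θ ⟨(x : H2), Subgroup.mem_subgroupOf.mp x.2⟩) ?_ ?_
  · rw [← hn]
    have hle : M'.comap π ≤ H2.normalCore := Subgroup.normal_le_normalCore.mpr (hMK.trans hKH2)
    rw [← hCdef]
    refine lt_of_lt_of_le' ?_ (Nat.le_of_dvd (Nat.pos_of_ne_zero Subgroup.index_ne_zero_of_finite)
      (Subgroup.index_dvd_of_le hle))
    rw [← Subgroup.relIndex_mul_index hCM, hrel]
    refine lt_mul_left (Nat.pos_of_ne_zero Subgroup.index_ne_zero_of_finite) ?_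
    exact Subgroup.one_lt_index_of_ne_top hmax.1
  · exact isCharacter_indFun (isCharacter_comp hθ
      (Subgroup.subgroupOfEquivOfLe hKH2).toMonoidHom)
  · rw [indFun_trans K H2 hKH2, hθχ, hρχ]

/-- Quasi-primitive characters of solvable groups are primitive. -/
theorem primitive_of_quasiprimitive {G : Type u} [Group G] [Fintype G] [Group.IsSolvable G]
    {χ : G → ℂ} (hχ : IsIrrCharacter G χ)
    (hqp : ∀ N : Subgroup G, N.Normal → ∃ (ϑ : N → ℂ) (e : ℕ), IsIrrCharacter N ϑ ∧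
      (fun n : N => χ n) = (e : ℂ) • ϑ)
    (K : Subgroup G) (hK : K ≠ ⊤) {ψ : K → ℂ} (hψ : IsCharacter K ψ) : indFun K ψ ≠ χ := by
  classical
  intro h
  obtain ⟨H, hH, hKH⟩ := (eq_top_or_exists_le_coatom K).resolve_left hK
  refine not_induced hχ hqp _ H hH rfl
    (indFun (K.subgroupOf H) fun x => ψ ⟨(x : H), Subgroup.mem_subgroupOf.mp x.2⟩)
    (isCharacter_indFun (isCharacter_comp hψ (Subgroup.subgroupOfEquivOfLe hKH).toMonoidHom)) ?_
  rw [indFun_trans K H hKH, h]

end CfsgLib.Char.Berger
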