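import Cfsg.Agent.Lib.CharEquiv
import Cfsg.Agent.Lib.CharNormal
import Mathlib.LinearAlgebra.Eigenspace.Pi
import Mathlib.LinearAlgebra.Eigenspace.Triangularizable
import Mathlib.Algebra.Algebra.Subalgebra.Basic

/-!
# Homogeneous restrictions and double centralisers

Linear algebra for representations whose restriction to a normal subgroup is homogeneous.
-/

set_option autoImplicit false
set_option linter.style.haveILetI false
set_option linter.unusedSectionVars false

namespace CfsgLib.Char.Berger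

open Cfsg Representation
open scoped ComplexConjugate

universe u v

variable {G : Type u} [Group G] {V : Type v} [AddCommGroup V] [Module ℂ V]

/-- The double centraliser of the image of a subgroup. -/
def bicomm (ρ : Representation ℂ G V) (N : Subgroup G) : Subalgebra ℂ (Module.End ℂ V) :=
  Subalgebra.centralizer ℂ
    (Subalgebra.centralizer ℂ (ρ '' (N : Set G)) : Set (Module.End ℂ V))

theorem mem_bicomm {ρ : Representation ℂ G V} {N : Subgroup G} {B : Module.End ℂ V} :
    B ∈ bicomm ρ N ↔ ∀ X : Module.End ℂ V, (∀ n ∈ N, ρ n * X = X * ρ n) → X * B = B * X := by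
  simp only [bicomm, Subalgebra.mem_centralizer_iff, SetLike.mem_coe, Set.forall_mem_image]

theorem self_mem_bicomm {ρ : Representation ℂ G V} {N : Subgroup G} {n : G} (hn : n ∈ N) :
    ρ n ∈ bicomm ρ N :=
  mem_bicomm.mpr fun _ hX => (hX n hn).symm

theorem bicomm_mono {ρ : Representation ℂ G V} {N N' : Subgroup G} (h : N ≤ N') :
    bicomm ρ N ≤ bicomm ρ N' := fun B hB =>
  mem_bicomm.mpr fun X hX => mem_bicomm.mp hB X fun n hn => hX n (h hn)

theorem inv_mul_self_apply (ρ : Representation ℂ G V) (g : G) : ρ g⁻¹ * ρ g = 1 := by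
  rw [← map_mul, inv_mul_cancel, map_one]

theorem mul_inv_self_apply (ρ : Representation ℂ G V) (g : G) : ρ g * ρ g⁻¹ = 1 := by
  rw [← map_mul, mul_inv_cancel, map_one]

/-- Conjugation preserves the double centraliser of a normal subgroup. -/
theorem conj_mem_bicomm {ρ : Representation ℂ G V} {N : Subgroup G} (g : G)
    (hN : ∀ n ∈ N, g⁻¹ * n * g ∈ N ∧ g * n * g⁻¹ ∈ N) {B : Module.End ℂ V}
    (hB : B ∈ bicomm ρ N) : ρ g * B * ρ g⁻¹ ∈ bicomm ρ N := by
  refine mem_bicomm.mpr fun X hX => ?_
  have hY : ∀ n ∈ N, ρ n * (ρ g⁻¹ * X * ρ g) = (ρ g⁻¹ * X * ρ g) * ρ n := by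
    intro n hn
    have h1 : ρ n * ρ g⁻¹ = ρ g⁻¹ * ρ (g * n * g⁻¹) := by
      rw [← map_mul, ← map_mul]; congr 1; group
    have h2 : ρ g * ρ n = ρ (g * n * g⁻¹) * ρ g := by
      rw [← map_mul, ← map_mul]; congr 1; group
    calc ρ n * (ρ g⁻¹ * X * ρ g) = ρ g⁻¹ * (ρ (g * n * g⁻¹) * X) * ρ g := by
          rw [← mul_assoc, ← mul_assoc, h1]; simp only [mul_assoc]
      _ = ρ g⁻¹ * (X * ρ (g * n * g⁻¹)) * ρ g := by rw [hX _ (hN n hn).2]
      _ = _ := by rw [mul_assoc (ρ g⁻¹ * X) (ρ g), h2]; simp only [mul_assoc]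
  have h := mem_bicomm.mp hB _ hY
  calc X * (ρ g * B * ρ g⁻¹)
      = ρ g * ρ g⁻¹ * (X * (ρ g * B * ρ g⁻¹)) := by rw [mul_inv_self_apply, one_mul]
    _ = ρ g * ((ρ g⁻¹ * X * ρ g) * B) * ρ g⁻¹ := by simp only [mul_assoc]
    _ = ρ g * (B * (ρ g⁻¹ * X * ρ g)) * ρ g⁻¹ := by rw [h]
    _ = ρ g * B * ρ g⁻¹ * X * (ρ g * ρ g⁻¹) := by simp only [mul_assoc]
    _ = _ := by rw [mul_inv_self_apply, mul_one]

variable [Finite G] [FiniteDimensional ℂ V]

/-- The data attached to a homogeneous restriction. -/
theorem homogeneous_model (ρ : Representation ℂ G V) (N : Subgroup G) {φ : N → ℂ}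
    (hφ : IsIrrCharacter N φ) {k : ℕ} (hres : (fun n : N => ρ.character n) = (k : ℂ) • φ) :
    (∀ B : Module.End ℂ V, B ∈ bicomm ρ N → (∀ n ∈ N, ρ n * B = B * ρ n) →
      ∃ a : ℂ, B = a • 1) ∧
    ∀ α : N ≃* N, (∀ n, φ (α n) = φ n) →
      ∃ T : (Module.End ℂ V)ˣ, (T : Module.End ℂ V) ∈ bicomm ρ N ∧
        ∀ n : N, (T : Module.End ℂ V) * ρ n = ρ (α n) * T := by
  classical
  obtain ⟨d, σ, hσ, rfl⟩ := hφ
  haveI := hσ
  haveI := nontrivial_of_irreducible σ
  let π : Representation ℂ N (Fin k → Fin d → ℂ) :=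
    { toFun := fun n => LinearMap.pi fun i => (σ n).comp (LinearMap.proj i)
      map_one' := LinearMap.ext fun f => funext fun i => by simp
      map_mul' := fun a b => LinearMap.ext fun f => funext fun i => by simp }
  have hπ : π.character = fun n => (k : ℂ) * σ.character n := by
    funext n
    show LinearMap.trace ℂ _ (π n) = _
    have e : π n = ∑ i : Fin k, (LinearMap.single ℂ (fun _ : Fin k => Fin d → ℂ) i).comp
        ((σ n).comp (LinearMap.proj i)) := by
      refine LinearMap.ext fun f => funext fun j => ?_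
      simp only [LinearMap.sum_apply, Finset.sum_apply, LinearMap.comp_apply,
        LinearMap.proj_apply, LinearMap.coe_single]
      rw [Finset.sum_pi_single]
      simp [π]
    rw [e, map_sum]
    have h1 : ∀ i : Fin k, LinearMap.trace ℂ _ ((LinearMap.single ℂ (fun _ : Fin k => Fin d → ℂ) i).comp
        ((σ n).comp (LinearMap.proj i))) = σ.character n := by
      intro i
      rw [LinearMap.trace_comp_comm']
      show LinearMap.trace ℂ _ _ = LinearMap.trace ℂ _ (σ n)
      congr 1
      exact LinearMap.ext fun v => by simp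
    rw [Finset.sum_congr rfl fun i _ => h1 i, Finset.sum_const, Finset.card_univ, Fintype.card_fin,
      nsmul_eq_mul]
  obtain ⟨e⟩ := equiv_of_char_eq _ V (Fin k → Fin d → ℂ) (ρ.comp N.subtype) π rfl (by
    rw [hπ]; exact hres)
  let E : V ≃ₗ[ℂ] (Fin k → Fin d → ℂ) := e.toLinearEquiv
  have hE : ∀ (n : N) (v : V) (i : Fin k), E (ρ n v) i = σ n (E v i) := fun n v i =>
    congrFun (IntertwiningMap.isIntertwining (ρ.comp N.subtype) π e.toIntertwiningMap n v) i
  -- the blocks of an endomorphism commuting with `N` are scalars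
  let blk : Module.End ℂ V → Fin k → Fin k → Module.End ℂ (Fin d → ℂ) := fun X i j =>
    (LinearMap.proj i).comp (E.toLinearMap ∘ₗ X ∘ₗ E.symm.toLinearMap ∘ₗ
      LinearMap.single ℂ (fun _ : Fin k => Fin d → ℂ) j)
  have hblk : ∀ (X : Module.End ℂ V) (f : Fin k → Fin d → ℂ) (i : Fin k),
      E (X (E.symm f)) i = ∑ j, blk X i j (f j) := by
    intro X f i
    conv_lhs => rw [← Finset.univ_sum_single f]
    simp only [map_sum, Finset.sum_apply]
    rfl
  have hsingle : ∀ (n : N) (j : Fin k) (v : Fin d → ℂ),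
      ρ n (E.symm (Pi.single j v)) = E.symm (Pi.single j (σ n v)) := by
    intro n j v
    apply E.injective
    funext i
    rw [hE, E.apply_symm_apply, E.apply_symm_apply]
    rcases eq_or_ne i j with rfl | h
    · simp
    · simp [Pi.single_eq_of_ne h]
  have hcomm : ∀ X : Module.End ℂ V, (∀ n ∈ N, ρ n * X = X * ρ n) →
      ∀ i j, ∃ a : ℂ, blk X i j = a • 1 := by
    intro X hX i j
    refine schur_scalar σ _ fun n => LinearMap.ext fun v => ?_
    show E (X (E.symm (Pi.single j (σ n v)))) i = σ n (E (X (E.symm (Pi.single j v))) i)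
    rw [← hE, ← hsingle]
    exact congrFun (congrArg E (LinearMap.congr_fun (hX n n.2) _).symm) i
  constructor
  · intro B hB hBN
    choose b hb using hcomm B hBN
    have hmov : ∀ (i j : Fin k) (f : Fin k → Fin d → ℂ),
        E (B (E.symm (Pi.single i (f j)))) = Pi.single i (E (B (E.symm f)) j) := by
      intro i j f
      let X : Module.End ℂ V := E.symm.toLinearMap ∘ₗ
        (LinearMap.single ℂ (fun _ : Fin k => Fin d → ℂ) i).comp (LinearMap.proj j) ∘ₗ
          E.toLinearMap
      have hX : ∀ n ∈ N, ρ n * X = X * ρ n := fun n hn => LinearMap.ext fun v => by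
        show ρ n (E.symm (Pi.single i (E v j))) = E.symm (Pi.single i (E (ρ n v) j))
        rw [hE ⟨n, hn⟩, hsingle ⟨n, hn⟩]
      have h := LinearMap.congr_fun (mem_bicomm.mp hB X hX) (E.symm f)
      simp only [Module.End.mul_apply, X, LinearMap.comp_apply, LinearEquiv.coe_toLinearMap,
        LinearEquiv.apply_symm_apply, LinearMap.proj_apply, LinearMap.coe_single] at h
      rw [← h, LinearEquiv.apply_symm_apply]
    obtain ⟨v0, hv0⟩ := exists_ne (0 : Fin d → ℂ)
    rcases isEmpty_or_nonempty (Fin k) with hk | hk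
    · exact ⟨0, LinearMap.ext fun v => E.injective (funext fun i => isEmptyElim i)⟩
    obtain ⟨i0⟩ := hk
    refine ⟨b i0 i0, LinearMap.ext fun v => E.injective (funext fun i => ?_)⟩
    have hv := hblk B (E v) i
    rw [E.symm_apply_apply] at hv
    rw [hv, LinearMap.smul_apply, Module.End.one_apply, map_smul, Pi.smul_apply]
    have hoff : ∀ i j, i ≠ j → b i j = 0 := by
      intro i j hij
      have h := congrFun (hmov j j (Pi.single j v0)) i
      rw [Pi.single_eq_same, Pi.single_eq_of_ne hij] at h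
      have h' : blk B i j v0 = 0 := h
      rw [hb, LinearMap.smul_apply, Module.End.one_apply, smul_eq_zero] at h'
      exact h'.resolve_right hv0
    have hdiag : ∀ i, b i i = b i0 i0 := by
      intro i
      have h := congrFun (hmov i i0 (Pi.single i0 v0)) i
      rw [Pi.single_eq_same, Pi.single_eq_same] at h
      have h' : blk B i i v0 = blk B i0 i0 v0 := h
      simp only [hb, LinearMap.smul_apply, Module.End.one_apply] at h'
      exact smul_left_injective ℂ hv0 h'
    rw [Finset.sum_eq_single i, hb, hdiag, LinearMap.smul_apply, Module.End.one_apply]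
    · intro j _ hj
      rw [hb, hoff i j hj.symm, zero_smul, LinearMap.zero_apply]
    · exact fun h => absurd (Finset.mem_univ i) h
  · intro α hα
    obtain ⟨t⟩ := equiv_of_char_eq _ (Fin d → ℂ) (Fin d → ℂ) σ (σ.comp α.toMonoidHom) rfl
      (funext fun n => (hα n).symm)
    let L : V ≃ₗ[ℂ] V :=
      (E.trans (LinearEquiv.piCongrRight fun _ : Fin k => t.toLinearEquiv)).trans E.symm
    have hL : ∀ (v : V) (i : Fin k), E (L v) i = t.toLinearEquiv (E v i) := fun v i => by
      simp [L]
    refine ⟨LinearMap.GeneralLinearGroup.ofLinearEquiv L, mem_bicomm.mpr fun X hX => ?_,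
      fun n => LinearMap.ext fun v => E.injective (funext fun i => ?_)⟩
    · choose a ha using hcomm X hX
      refine LinearMap.ext fun v => E.injective (funext fun i => ?_)
      show E (X (L v)) i = E (L (X v)) i
      have h1 := hblk X (E (L v)) i
      have h2 := hblk X (E v) i
      rw [E.symm_apply_apply] at h1 h2
      rw [h1, hL, h2, map_sum]
      refine Finset.sum_congr rfl fun j _ => ?_
      rw [ha, LinearMap.smul_apply, LinearMap.smul_apply, Module.End.one_apply,
        Module.End.one_apply, map_smul, hL]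
    · show E (L (ρ n v)) i = E (ρ (α n) (L v)) i
      rw [hE, hL, hE, hL]
      exact IntertwiningMap.isIntertwining σ (σ.comp α.toMonoidHom) t.toIntertwiningMap n _

theorem exists_common_eigen {ι : Type*} [Finite ι] [Nontrivial V] (Q : ι → Module.End ℂ V)
    (hQ : ∀ i j, Q i * Q j = Q j * Q i) :
    ∃ (c : ι → ℂ) (v : V), v ≠ 0 ∧ ∀ i, Q i v = c i • v := by
  classical
  haveI := Fintype.ofFinite ι
  suffices h : ∀ s : Finset ι, ∃ (c : ι → ℂ) (W : Submodule ℂ V), W ≠ ⊥ ∧
      (∀ i, ∀ v ∈ W, Q i v ∈ W) ∧ ∀ i ∈ s, ∀ v ∈ W, Q i v = c i • v by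
    obtain ⟨c, W, hW, -, hc⟩ := h Finset.univ
    obtain ⟨v, hv, hv0⟩ := Submodule.exists_mem_ne_zero_of_ne_bot hW
    exact ⟨c, v, hv0, fun i => hc i (Finset.mem_univ i) v hv⟩
  intro s
  induction s using Finset.induction_on with
  | empty => exact ⟨0, ⊤, top_ne_bot, fun _ _ _ => trivial, by simp⟩
  | insert i s hi ih =>
    obtain ⟨c, W, hW, hinv, hc⟩ := ih
    haveI : Nontrivial W := Submodule.nontrivial_iff_ne_bot.mpr hW
    obtain ⟨a, ha⟩ := Module.End.exists_eigenvalue ((Q i).restrict (hinv i) : Module.End ℂ W)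
    obtain ⟨w, hw⟩ := ha.exists_hasEigenvector
    refine ⟨Function.update c i a, W ⊓ Module.End.eigenspace (Q i) a, ?_, fun j v hv => ?_,
      fun j hj v hv => ?_⟩
    · intro hb
      have hmem : (w : V) ∈ W ⊓ Module.End.eigenspace (Q i) a :=
        Submodule.mem_inf.mpr ⟨w.2, Module.End.mem_eigenspace_iff.mpr
          (congrArg Subtype.val hw.apply_eq_smul)⟩
      rw [hb, Submodule.mem_bot] at hmem
      exact hw.2 (Subtype.ext hmem)
    · obtain ⟨h1, h2⟩ := Submodule.mem_inf.mp hv
      refine Submodule.mem_inf.mpr ⟨hinv j v h1, Module.End.mem_eigenspace_iff.mpr ?_⟩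
      rw [Module.End.mem_eigenspace_iff] at h2
      rw [← Module.End.mul_apply, hQ, Module.End.mul_apply, h2, map_smul]
    · obtain ⟨h1, h2⟩ := Submodule.mem_inf.mp hv
      rcases Finset.mem_insert.mp hj with rfl | hj'
      · rw [Function.update_self]
        exact Module.End.mem_eigenspace_iff.mp h2
      · rw [Function.update_of_ne (ne_of_mem_of_not_mem hj' hi), hc j hj' v h1]

theorem finrank_sup_le_sum {ι : Type*} (s : Finset ι) (f : ι → Submodule ℂ V) :
    Module.finrank ℂ ↥(s.sup f) ≤ ∑ i ∈ s, Module.finrank ℂ (f i) := by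
  classical
  induction s using Finset.induction_on with
  | empty => simp
  | insert i s hi ih =>
    rw [Finset.sup_insert, Finset.sum_insert hi]
    have := Submodule.finrank_sup_add_finrank_inf_eq (f i) (s.sup f)
    omega

theorem finrank_sup_eq_sum {ι : Type*} (s : Finset ι) (f : ι → Submodule ℂ V)
    (h : iSupIndep f) : Module.finrank ℂ ↥(s.sup f) = ∑ i ∈ s, Module.finrank ℂ (f i) := by
  classical
  induction s using Finset.induction_on with
  | empty => simp
  | insert i s hi ih =>
    rw [Finset.sup_insert, Finset.sum_insert hi]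
    have hd : Disjoint (f i) (s.sup f) := (h i).mono_right (Finset.sup_le fun j hj =>
      le_iSup₂_of_le j (ne_of_mem_of_not_mem hj hi) le_rfl)
    have := Submodule.finrank_sup_add_finrank_inf_eq (f i) (s.sup f)
    rw [hd.eq_bot, finrank_bot, add_zero] at this
    omega

end CfsgLib.Char.Berger
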