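import Mathlib
import Cfsg.Agent.Lib.CharRep

/-!
# Blichfeldt's commutation lemma and abelian normal subgroups of finite linear groups
-/

set_option autoImplicit false

namespace CfsgLib.Blich

open scoped ComplexConjugate
open Matrix Finset

variable {n : ℕ}

/-- The squared norm of a vector. -/
noncomputable def q (v : Fin n → ℂ) : ℝ := (star v ⬝ᵥ v).re

/-- The squared Frobenius norm of a matrix. -/
noncomputable def fro (X : Matrix (Fin n) (Fin n) ℂ) : ℝ := (Matrix.trace (Xᴴ * X)).re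

theorem q_eq (v : Fin n → ℂ) : q v = ∑ i, Complex.normSq (v i) := by
  simp [q, dotProduct, Complex.normSq_apply]

theorem q_nonneg (v : Fin n → ℂ) : 0 ≤ q v := by
  rw [q_eq]; exact Finset.sum_nonneg fun i _ => Complex.normSq_nonneg _

theorem q_eq_zero {v : Fin n → ℂ} : q v = 0 ↔ v = 0 := by
  rw [q_eq, Finset.sum_eq_zero_iff_of_nonneg fun i _ => Complex.normSq_nonneg _]
  simp [funext_iff]

theorem q_add_le (v w : Fin n → ℂ) : q (v + w) ≤ 2 * q v + 2 * q w := by
  simp only [q_eq, Finset.mul_sum, ← Finset.sum_add_distrib]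
  refine Finset.sum_le_sum fun i _ => ?_
  simp only [Pi.add_apply, Complex.normSq_apply, Complex.add_re, Complex.add_im]
  nlinarith [sq_nonneg ((v i).re - (w i).re), sq_nonneg ((v i).im - (w i).im)]

theorem q_sub_of_orth {v w : Fin n → ℂ} (h : star v ⬝ᵥ w = 0) : q (v - w) = q v + q w := by
  have h' : star w ⬝ᵥ v = 0 := by
    have := congrArg star h
    rwa [star_zero, ← star_dotProduct_star, star_star] at this
  simp [q, sub_dotProduct, dotProduct_sub, h, h']

theorem fro_eq (X : Matrix (Fin n) (Fin n) ℂ) : fro X = ∑ i, ∑ j, Complex.normSq (X j i) := by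
  simp [fro, Matrix.trace, Matrix.mul_apply, Complex.normSq_apply]

theorem fro_nonneg (X : Matrix (Fin n) (Fin n) ℂ) : 0 ≤ fro X := by
  rw [fro_eq]
  exact Finset.sum_nonneg fun i _ => Finset.sum_nonneg fun j _ => Complex.normSq_nonneg _

theorem fro_eq_zero {X : Matrix (Fin n) (Fin n) ℂ} : fro X = 0 ↔ X = 0 := by
  rw [fro_eq, Finset.sum_eq_zero_iff_of_nonneg fun i _ =>
    Finset.sum_nonneg fun j _ => Complex.normSq_nonneg _]
  constructor
  · intro h
    ext j i
    have := (Finset.sum_eq_zero_iff_of_nonneg fun j _ => Complex.normSq_nonneg _).1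
      (h i (Finset.mem_univ _)) j (Finset.mem_univ _)
    simpa using this
  · rintro rfl i _; simp

theorem fro_mul_unitary (X V : Matrix (Fin n) (Fin n) ℂ) (hV : V * Vᴴ = 1) :
    fro (X * V) = fro X := by
  unfold fro
  rw [Matrix.conjTranspose_mul, Matrix.mul_assoc, Matrix.trace_mul_comm, Matrix.mul_assoc,
    Matrix.mul_assoc, hV, Matrix.mul_one]

theorem q_unitary (V : Matrix (Fin n) (Fin n) ℂ) (hV : Vᴴ * V = 1) (v : Fin n → ℂ) :
    q (V *ᵥ v) = q v := by
  unfold q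
  rw [Matrix.star_mulVec, ← Matrix.dotProduct_mulVec, Matrix.mulVec_mulVec, hV, Matrix.one_mulVec]

theorem q_sum_orth {ι : Type*} [Fintype ι] (c : ι → ℂ) (Y : ι → Fin n → ℂ)
    (h : ∀ i j, i ≠ j → star (Y i) ⬝ᵥ Y j = 0) :
    q (∑ i, c i • Y i) = ∑ i, Complex.normSq (c i) * q (Y i) := by
  classical
  unfold q
  rw [star_sum, sum_dotProduct, Complex.re_sum]
  refine Finset.sum_congr rfl fun i _ => ?_
  rw [dotProduct_sum, Finset.sum_eq_single i]
  · rw [star_smul, smul_dotProduct, dotProduct_smul, smul_eq_mul, smul_eq_mul, ← mul_assoc,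
      Complex.star_def, ← Complex.normSq_eq_conj_mul_self, Complex.re_ofReal_mul]
  · intro j _ hj
    rw [star_smul, smul_dotProduct, dotProduct_smul, h i j (Ne.symm hj)]
    simp
  · simp

theorem fro_sum_orth {ι : Type*} [Fintype ι] (c : ι → ℂ) (Y : ι → Matrix (Fin n) (Fin n) ℂ)
    (h : ∀ i j, i ≠ j → Matrix.trace ((Y i)ᴴ * Y j) = 0) :
    fro (∑ i, c i • Y i) = ∑ i, Complex.normSq (c i) * fro (Y i) := by
  classical
  unfold fro
  rw [Matrix.conjTranspose_sum, Matrix.sum_mul, Matrix.trace_sum, Complex.re_sum]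
  refine Finset.sum_congr rfl fun i _ => ?_
  rw [Matrix.mul_sum, Matrix.trace_sum, Finset.sum_eq_single i]
  · rw [Matrix.conjTranspose_smul, Matrix.smul_mul, Matrix.mul_smul, Matrix.trace_smul,
      Matrix.trace_smul, smul_eq_mul, smul_eq_mul, ← mul_assoc, Complex.star_def,
      ← Complex.normSq_eq_conj_mul_self, Complex.re_ofReal_mul]
  · intro j _ hj
    rw [Matrix.conjTranspose_smul, Matrix.smul_mul, Matrix.mul_smul, Matrix.trace_smul,
      Matrix.trace_smul, h i j (Ne.symm hj)]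
    simp
  · simp

/-! ### Spectral idempotents of a unitary matrix of finite order -/

section Spectral

variable (m : ℕ) (ζ : ℂ) (U : Matrix (Fin n) (Fin n) ℂ)

/-- The spectral idempotent of `U` for the eigenvalue `ζ ^ j`. -/
noncomputable def proj (j : Fin m) : Matrix (Fin n) (Fin n) ℂ :=
  (m : ℂ)⁻¹ • ∑ k : Fin m, ((ζ ^ (j : ℕ))⁻¹) ^ (k : ℕ) • U ^ (k : ℕ)

variable {m ζ U}

theorem geom_zero {z : ℂ} (hz : z ^ m = 1) (hz1 : z ≠ 1) : ∑ k : Fin m, z ^ (k : ℕ) = 0 := by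
  rw [Fin.sum_univ_eq_sum_range (fun k => z ^ k), geom_sum_eq hz1, hz, sub_self, zero_div]

variable (hm : 0 < m) (hζ : IsPrimitiveRoot ζ m) (hU : U ^ m = 1)

include hζ in
theorem root_pow (j : Fin m) : (ζ ^ (j : ℕ)) ^ m = 1 := by
  rw [← pow_mul, mul_comm, pow_mul, hζ.pow_eq_one, one_pow]

include hm hζ in
theorem root_ne_zero (j : Fin m) : ζ ^ (j : ℕ) ≠ 0 := pow_ne_zero _ (hζ.ne_zero hm.ne')

include hm hζ hU in
theorem mul_proj (j : Fin m) : U * proj m ζ U j = (ζ ^ (j : ℕ)) • proj m ζ U j := by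
  set l := ζ ^ (j : ℕ) with hl
  have h0 : l ≠ 0 := root_ne_zero hm hζ j
  unfold proj
  rw [Matrix.mul_smul, smul_comm l]
  congr 1
  rw [Matrix.mul_sum, Finset.smul_sum]
  simp only [Matrix.mul_smul, smul_smul, ← hl, ← pow_succ']
  rw [Fin.sum_univ_eq_sum_range (fun k => l⁻¹ ^ k • U ^ (k + 1)),
    Fin.sum_univ_eq_sum_range (fun k => (l * l⁻¹ ^ k) • U ^ k)]
  have e : ∀ k, l⁻¹ ^ k • U ^ (k + 1) = (fun k => (l * l⁻¹ ^ k) • U ^ k) (k + 1) := by
    intro k
    simp only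
    congr 1
    rw [pow_succ', ← mul_assoc, mul_inv_cancel₀ h0, one_mul]
  simp only [e]
  have h1 := Finset.sum_range_succ' (fun k => (l * l⁻¹ ^ k) • U ^ k) m
  have h2 := Finset.sum_range_succ (fun k => (l * l⁻¹ ^ k) • U ^ k) m
  rw [h1] at h2
  rw [inv_pow l m, show l ^ m = 1 from root_pow hζ j, inv_one] at h2
  simpa [hU] using h2

theorem proj_comm (j : Fin m) : Commute U (proj m ζ U j) := by
  unfold proj
  exact (Commute.sum_right _ _ _ fun k _ => ((Commute.refl U).pow_right _).smul_right _).smul_right _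

include hm hζ hU in
theorem proj_mul (j : Fin m) : proj m ζ U j * U = (ζ ^ (j : ℕ)) • proj m ζ U j := by
  rw [← (proj_comm j).eq, mul_proj hm hζ hU]

include hm hζ in
theorem sum_proj : ∑ j, proj m ζ U j = 1 := by
  unfold proj
  rw [← Finset.smul_sum, Finset.sum_comm]
  rw [Finset.sum_eq_single (⟨0, hm⟩ : Fin m)]
  · simp [← Nat.cast_smul_eq_nsmul ℂ, smul_smul, inv_mul_cancel₀ (show (m : ℂ) ≠ 0 by exact_mod_cast hm.ne')]
  · intro k _ hk
    rw [← Finset.sum_smul]
    have e : ∀ j : Fin m, ((ζ ^ (j : ℕ))⁻¹) ^ (k : ℕ) = ((ζ ^ (k : ℕ))⁻¹) ^ (j : ℕ) := by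
      intro j; rw [inv_pow, inv_pow, ← pow_mul, ← pow_mul, mul_comm]
    simp only [e]
    rw [geom_zero, zero_smul]
    · rw [inv_pow, root_pow hζ k, inv_one]
    · rw [Ne, inv_eq_one]
      exact hζ.pow_ne_one_of_pos_of_lt (fun h => hk (Fin.ext h)) k.2
  · simp

variable (hUu : Uᴴ * U = 1)

include hm hζ hU hUu in
theorem proj_orth {i j : Fin m} (hij : i ≠ j) : (proj m ζ U i)ᴴ * proj m ζ U j = 0 := by
  have h : (U * proj m ζ U i)ᴴ * (U * proj m ζ U j) = (proj m ζ U i)ᴴ * proj m ζ U j := by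
    rw [Matrix.conjTranspose_mul, Matrix.mul_assoc, ← Matrix.mul_assoc Uᴴ, hUu, Matrix.one_mul]
  rw [mul_proj hm hζ hU, mul_proj hm hζ hU, Matrix.conjTranspose_smul, Matrix.smul_mul,
    Matrix.mul_smul, smul_smul] at h
  by_contra hne
  have h1 : star (ζ ^ (i : ℕ)) * ζ ^ (j : ℕ) = 1 := smul_left_injective ℂ hne (h.trans (one_smul ℂ _).symm)
  rw [Complex.star_def, ← CfsgLib.Char.inv_eq_conj_of_pow_eq_one hm (root_pow hζ i),
    inv_mul_eq_one₀ (root_ne_zero hm hζ i)] at h1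
  exact hij (Fin.ext (hζ.pow_inj i.2 j.2 h1))

include hm hζ hU hUu in
theorem proj_orth' {i j : Fin m} (hij : i ≠ j) : proj m ζ U i * (proj m ζ U j)ᴴ = 0 := by
  have hUu' : U * Uᴴ = 1 := mul_eq_one_comm.1 hUu
  have h : (proj m ζ U i * U) * (proj m ζ U j * U)ᴴ = proj m ζ U i * (proj m ζ U j)ᴴ := by
    rw [Matrix.conjTranspose_mul, Matrix.mul_assoc, ← Matrix.mul_assoc U, hUu', Matrix.one_mul]
  rw [proj_mul hm hζ hU, proj_mul hm hζ hU, Matrix.conjTranspose_smul, Matrix.smul_mul,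
    Matrix.mul_smul, smul_smul] at h
  by_contra hne
  have h1 : ζ ^ (i : ℕ) * star (ζ ^ (j : ℕ)) = 1 := smul_left_injective ℂ hne (h.trans (one_smul ℂ _).symm)
  rw [Complex.star_def, ← CfsgLib.Char.inv_eq_conj_of_pow_eq_one hm (root_pow hζ j),
    mul_inv_eq_one₀ (root_ne_zero hm hζ j)] at h1
  exact hij (Fin.ext (hζ.pow_inj i.2 j.2 h1))

include hm hζ hU in
theorem eigen_of_ne_zero {j : Fin m} (hj : proj m ζ U j ≠ 0) :
    ∃ v, v ≠ 0 ∧ U *ᵥ v = (ζ ^ (j : ℕ)) • v := by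
  by_contra hc
  push Not at hc
  apply hj
  refine Matrix.ext_of_mulVec_single fun i => ?_
  rw [Matrix.zero_mulVec]
  by_contra hv
  apply hc _ hv
  rw [Matrix.mulVec_mulVec, mul_proj hm hζ hU, Matrix.smul_mulVec]

/-- Eigenvalues within a sixth of `π` of one. -/
def Near (U : Matrix (Fin n) (Fin n) ℂ) : Prop :=
  ∀ (l : ℂ) (v : Fin n → ℂ), v ≠ 0 → U *ᵥ v = l • v → Real.sqrt 3 / 2 < l.re

theorem near_bounds {l : ℂ} (hl : ‖l‖ = 1) (h : Real.sqrt 3 / 2 < l.re) :
    3 / 4 < l.re * l.re ∧ 17 / 20 < l.re ∧ l.im * l.im < 1 / 4 := by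
  have h3 : Real.sqrt 3 * Real.sqrt 3 = 3 := Real.mul_self_sqrt (by norm_num)
  have h17 : (17 : ℝ) / 10 ≤ Real.sqrt 3 := by
    rw [Real.le_sqrt (by norm_num) (by norm_num)]; norm_num
  have hn : l.re * l.re + l.im * l.im = 1 := by
    rw [← Complex.normSq_apply, Complex.normSq_eq_norm_sq, hl, one_pow]
  refine ⟨by nlinarith, by linarith, by nlinarith⟩

include hm hζ hU hUu in
theorem q_near (hnear : Near U) (v : Fin n → ℂ) : q (U *ᵥ v - v) ≤ 3 / 10 * q v := by
  classical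
  set Y : Fin m → Fin n → ℂ := fun j => proj m ζ U j *ᵥ v with hY
  have ho : ∀ i j, i ≠ j → star (Y i) ⬝ᵥ Y j = 0 := by
    intro i j hij
    rw [hY, Matrix.star_mulVec, ← Matrix.dotProduct_mulVec, Matrix.mulVec_mulVec,
      proj_orth hm hζ hU hUu hij, Matrix.zero_mulVec, dotProduct_zero]
  have hv : v = ∑ j, (1 : ℂ) • Y j := by
    simp only [hY, one_smul]
    rw [← Matrix.sum_mulVec, sum_proj hm hζ, Matrix.one_mulVec]
  have hd : U *ᵥ v - v = ∑ j : Fin m, (ζ ^ (j : ℕ) - 1) • Y j := by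
    simp only [sub_smul, Finset.sum_sub_distrib, ← hv]
    congr 1
    conv_lhs => rw [hv]
    rw [Matrix.mulVec_sum]
    refine Finset.sum_congr rfl fun j _ => ?_
    simp only [hY, one_smul]
    rw [Matrix.mulVec_mulVec, mul_proj hm hζ hU, Matrix.smul_mulVec]
  have hqv : q v = ∑ j, q (Y j) := by
    conv_lhs => rw [hv]
    rw [q_sum_orth _ _ ho]; simp
  rw [hd, q_sum_orth _ _ ho, hqv, Finset.mul_sum]
  refine Finset.sum_le_sum fun j _ => ?_
  by_cases hj : proj m ζ U j = 0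
  · have : Y j = 0 := by simp [hY, hj]
    simp [this, q]
  obtain ⟨w, hw, he⟩ := eigen_of_ne_zero hm hζ hU hj
  have hl : ‖ζ ^ (j : ℕ)‖ = 1 := Complex.norm_eq_one_of_pow_eq_one (root_pow hζ j) hm.ne'
  obtain ⟨h1, h2, -⟩ := near_bounds hl (hnear _ w hw he)
  refine mul_le_mul_of_nonneg_right ?_ (q_nonneg _)
  have hn : (ζ ^ (j : ℕ)).re * (ζ ^ (j : ℕ)).re + (ζ ^ (j : ℕ)).im * (ζ ^ (j : ℕ)).im = 1 := by
    rw [← Complex.normSq_apply, Complex.normSq_eq_norm_sq, hl, one_pow]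
  simp only [Complex.normSq_apply, Complex.sub_re, Complex.sub_im, Complex.one_re, Complex.one_im]
  nlinarith

include hm hζ in
theorem decompose (X : Matrix (Fin n) (Fin n) ℂ) :
    X = ∑ p : Fin m × Fin m, proj m ζ U p.1 * X * proj m ζ U p.2 := by
  rw [Fintype.sum_prod_type]
  simp only [← Matrix.mul_sum, sum_proj hm hζ, Matrix.mul_one, ← Matrix.sum_mul, Matrix.one_mul]

include hm hζ hU in
theorem commutator_decompose (X : Matrix (Fin n) (Fin n) ℂ) :
    U * X - X * U = ∑ p : Fin m × Fin m,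
      (ζ ^ (p.1 : ℕ) - ζ ^ (p.2 : ℕ)) • (proj m ζ U p.1 * X * proj m ζ U p.2) := by
  simp only [sub_smul, Finset.sum_sub_distrib]
  congr 1
  · conv_lhs => rw [decompose hm hζ (U := U) X]
    rw [Matrix.mul_sum]
    refine Finset.sum_congr rfl fun p _ => ?_
    rw [← Matrix.mul_assoc, ← Matrix.mul_assoc, mul_proj hm hζ hU, Matrix.smul_mul, Matrix.smul_mul]
  · conv_lhs => rw [decompose hm hζ (U := U) X]
    rw [Matrix.sum_mul]
    refine Finset.sum_congr rfl fun p _ => ?_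
    rw [Matrix.mul_assoc _ _ U, proj_mul hm hζ hU, Matrix.mul_smul]

include hm hζ hU hUu in
theorem fro_commutator_lt (hnear : Near U) {X : Matrix (Fin n) (Fin n) ℂ} (hX : X ≠ 0) :
    fro (U * X - X * U) < fro X := by
  classical
  set Y : Fin m × Fin m → Matrix (Fin n) (Fin n) ℂ :=
    fun p => proj m ζ U p.1 * X * proj m ζ U p.2 with hY
  have ho : ∀ p r, p ≠ r → Matrix.trace ((Y p)ᴴ * Y r) = 0 := by
    intro p r hpr
    simp only [hY, Matrix.conjTranspose_mul, Matrix.mul_assoc]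
    by_cases h1 : p.1 = r.1
    · have h2 : r.2 ≠ p.2 := fun h2 => hpr (Prod.ext h1 h2.symm)
      rw [Matrix.trace_mul_comm]
      simp only [Matrix.mul_assoc]
      rw [proj_orth' hm hζ hU hUu h2]
      simp
    · rw [← Matrix.mul_assoc (proj m ζ U p.1)ᴴ, proj_orth hm hζ hU hUu h1]
      simp
  have hX' : fro X = ∑ p, fro (Y p) := by
    conv_lhs => rw [decompose hm hζ (U := U) X]
    have := fro_sum_orth (fun _ => (1 : ℂ)) Y ho
    simpa [hY] using this
  rw [commutator_decompose hm hζ hU, fro_sum_orth _ _ ho, hX']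
  have hbound : ∀ p, fro (Y p) ≠ 0 →
      Complex.normSq (ζ ^ (p.1 : ℕ) - ζ ^ (p.2 : ℕ)) * fro (Y p) < fro (Y p) := by
    intro p hp
    have hY0 : Y p ≠ 0 := fun e => hp (by rw [e]; simp [fro])
    have e1 : proj m ζ U p.1 ≠ 0 := fun e => hY0 (by simp [hY, e])
    have e2 : proj m ζ U p.2 ≠ 0 := fun e => hY0 (by simp [hY, e])
    obtain ⟨v, hv, hve⟩ := eigen_of_ne_zero hm hζ hU e1
    obtain ⟨w, hw, hwe⟩ := eigen_of_ne_zero hm hζ hU e2
    set a := ζ ^ (p.1 : ℕ)
    set b := ζ ^ (p.2 : ℕ)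
    have ha : ‖a‖ = 1 := Complex.norm_eq_one_of_pow_eq_one (root_pow hζ p.1) hm.ne'
    have hb : ‖b‖ = 1 := Complex.norm_eq_one_of_pow_eq_one (root_pow hζ p.2) hm.ne'
    obtain ⟨a1, a2, a3⟩ := near_bounds ha (hnear _ v hv hve)
    obtain ⟨b1, b2, b3⟩ := near_bounds hb (hnear _ w hw hwe)
    have han : a.re * a.re + a.im * a.im = 1 := by
      rw [← Complex.normSq_apply, Complex.normSq_eq_norm_sq, ha, one_pow]
    have hbn : b.re * b.re + b.im * b.im = 1 := by
      rw [← Complex.normSq_apply, Complex.normSq_eq_norm_sq, hb, one_pow]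
    have hab : 3 / 4 < a.re * b.re := by
      have : 0 < a.re * b.re := by positivity
      nlinarith
    have hlt : Complex.normSq (a - b) < 1 := by
      simp only [Complex.normSq_apply, Complex.sub_re, Complex.sub_im]
      nlinarith [sq_nonneg (a.im + b.im)]
    have hpos : 0 < fro (Y p) := lt_of_le_of_ne (fro_nonneg _) (Ne.symm hp)
    exact mul_lt_of_lt_one_left hpos hlt
  refine Finset.sum_lt_sum (fun p _ => ?_) ?_
  · rcases eq_or_ne (fro (Y p)) 0 with h | h
    · rw [h, mul_zero]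
    · exact (hbound p h).le
  · obtain ⟨p, hp⟩ : ∃ p, fro (Y p) ≠ 0 := by
      by_contra hc
      push Not at hc
      apply hX
      rw [← fro_eq_zero, hX']
      exact Finset.sum_eq_zero fun p _ => hc p
    exact ⟨p, Finset.mem_univ _, hbound p hp⟩

include hm hζ hU hUu in
/-- If a unitary `W` moves every vector by less than `√2` times its length and `U` commutes
with `W U W⁻¹`, then `U` commutes with `W`. -/
theorem comm_of_comm_conj {W : Matrix (Fin n) (Fin n) ℂ} (hW : Wᴴ * W = 1)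
    (hcond : ∀ v, v ≠ 0 → q (W *ᵥ v - v) < 2 * q v)
    (hc : U * (W * U * Wᴴ) = W * U * Wᴴ * U) : U * W = W * U := by
  classical
  have hW' : W * Wᴴ = 1 := mul_eq_one_comm.1 hW
  have hzero : ∀ i j, i ≠ j → proj m ζ U i * W * proj m ζ U j = 0 := by
    intro i j hij
    refine Matrix.ext_of_mulVec_single fun k => ?_
    rw [Matrix.zero_mulVec]
    set x : Fin n → ℂ := Pi.single k 1
    set w := proj m ζ U j *ᵥ x with hwdef
    set v := (proj m ζ U i * W * proj m ζ U j) *ᵥ x with hvdef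
    by_contra hv
    set K := W * U * Wᴴ with hK
    have hKP : Commute (proj m ζ U i) K := by
      unfold proj
      exact (Commute.sum_left _ _ _ fun r _ =>
        ((show Commute U K from hc).pow_left _).smul_left _).smul_left _
    have hKW : K * W = W * U := by rw [hK, Matrix.mul_assoc, hW, Matrix.mul_one]
    have hKv : K *ᵥ v = (ζ ^ (j : ℕ)) • v := by
      rw [hvdef, Matrix.mulVec_mulVec, ← Matrix.mul_assoc, ← Matrix.mul_assoc, ← hKP.eq,
        Matrix.mul_assoc _ K, hKW, ← Matrix.mul_assoc, Matrix.mul_assoc _ U,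
        mul_proj hm hζ hU, Matrix.mul_smul, Matrix.smul_mulVec]
    set u := Wᴴ *ᵥ v with hu
    have hUv : U *ᵥ v = (ζ ^ (i : ℕ)) • v := by
      rw [hvdef, Matrix.mulVec_mulVec, ← Matrix.mul_assoc, ← Matrix.mul_assoc, mul_proj hm hζ hU,
        Matrix.smul_mul, Matrix.smul_mul, Matrix.smul_mulVec]
    have hUu' : U *ᵥ u = (ζ ^ (j : ℕ)) • u := by
      have : Wᴴ * K = U * Wᴴ := by rw [hK, ← Matrix.mul_assoc, ← Matrix.mul_assoc, hW, Matrix.one_mul]
      rw [hu, Matrix.mulVec_mulVec, ← this, ← Matrix.mulVec_mulVec, hKv, Matrix.mulVec_smul]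
    have horth : star v ⬝ᵥ u = 0 := by
      have h1 : star (U *ᵥ v) ⬝ᵥ (U *ᵥ u) = star v ⬝ᵥ u := by
        rw [Matrix.star_mulVec, ← Matrix.dotProduct_mulVec, Matrix.mulVec_mulVec, hUu,
          Matrix.one_mulVec]
      rw [hUv, hUu', star_smul, smul_dotProduct, dotProduct_smul, smul_eq_mul, smul_eq_mul,
        ← mul_assoc] at h1
      by_contra hne
      have h2 : star (ζ ^ (i : ℕ)) * ζ ^ (j : ℕ) = 1 := by
        apply mul_right_cancel₀ hne
        rw [one_mul]; exact h1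
      rw [Complex.star_def, ← CfsgLib.Char.inv_eq_conj_of_pow_eq_one hm (root_pow hζ i),
        inv_mul_eq_one₀ (root_ne_zero hm hζ i)] at h2
      exact hij (Fin.ext (hζ.pow_inj i.2 j.2 h2))
    have hWu : W *ᵥ u = v := by rw [hu, Matrix.mulVec_mulVec, hW', Matrix.one_mulVec]
    have hu0 : u ≠ 0 := fun e => hv (by rw [← hWu, e, Matrix.mulVec_zero])
    have h3 := hcond u hu0
    rw [hWu, q_sub_of_orth horth] at h3
    have h4 : q v = q u := by rw [← hWu, q_unitary W hW]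
    linarith
  rw [← sub_eq_zero, commutator_decompose hm hζ hU W]
  refine Finset.sum_eq_zero fun p _ => ?_
  by_cases h : p.1 = p.2
  · rw [h, sub_self, zero_smul]
  · rw [hzero _ _ h, smul_zero]

end Spectral

/-! ### Finite unitary groups -/

section Group

variable {G : Type*} [Group G] [Finite G] (R : G →* Matrix (Fin n) (Fin n) ℂ)
  (hR : ∀ g, (R g)ᴴ * R g = 1)

include hR in
theorem R_conjTranspose (g : G) : (R g)ᴴ = R g⁻¹ := by
  calc (R g)ᴴ = (R g)ᴴ * (R g * R g⁻¹) := by rw [← map_mul, mul_inv_cancel, map_one, Matrix.mul_one]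
    _ = R g⁻¹ := by rw [← Matrix.mul_assoc, hR, Matrix.one_mul]

theorem near_conj {g : G} (hg : Near (R g)) (h : G) : Near (R (h * g * h⁻¹)) := by
  intro l v hv he
  refine hg l (R h⁻¹ *ᵥ v) ?_ ?_
  · intro e
    apply hv
    have := congrArg (fun w => R h *ᵥ w) e
    simpa [Matrix.mulVec_mulVec, ← map_mul] using this
  · rw [Matrix.mulVec_mulVec, ← map_mul]
    have := congrArg (fun w => R h⁻¹ *ᵥ w) he
    simp only [Matrix.mulVec_mulVec, ← map_mul, Matrix.mulVec_smul] at this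
    convert this using 3
    group

include hR in
theorem near_inv {g : G} (hg : Near (R g)) : Near (R g⁻¹) := by
  intro l v hv he
  have hv1 : R g *ᵥ (R g⁻¹ *ᵥ v) = v := by
    rw [Matrix.mulVec_mulVec, ← map_mul, mul_inv_cancel, map_one, Matrix.one_mulVec]
  rw [he, Matrix.mulVec_smul] at hv1
  have hl0 : l ≠ 0 := fun e => hv (by rw [← hv1, e, zero_smul])
  have h1 := hg l⁻¹ v hv (by rw [← inv_smul_smul₀ hl0 (R g *ᵥ v), hv1])
  have hq : Complex.normSq l * q v = q v := by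
    have := q_unitary (R g⁻¹) (hR _) v
    rw [he] at this
    simpa [q_eq, Complex.normSq_mul, ← Finset.mul_sum] using this
  have hn : Complex.normSq l = 1 := by
    have : q v ≠ 0 := fun e => hv (q_eq_zero.1 e)
    exact (mul_left_eq_self₀.1 hq).resolve_right this
  rwa [Complex.inv_re, hn, div_one] at h1

include hR in
/-- Blichfeldt's lemma. -/
theorem near_commute (hinj : Function.Injective R) {g h : G} (hg : Near (R g)) (hh : Near (R h)) :
    g * h = h * g := by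
  classical
  set m := Nat.card G with hmdef
  have hm : 0 < m := Nat.card_pos
  obtain ⟨ζ, hζ⟩ : ∃ ζ : ℂ, IsPrimitiveRoot ζ m :=
    ⟨_, Complex.isPrimitiveRoot_exp m hm.ne'⟩
  have hpow : ∀ x : G, R x ^ m = 1 := fun x => by rw [← map_pow, pow_card_eq_one', map_one]
  let Bad : Set G := {x | g * x ≠ x * g ∧ ∀ v, v ≠ 0 → q (R x *ᵥ v - v) < 2 * q v}
  by_contra hne
  have hhB : h ∈ Bad := ⟨hne, fun v hv => by
    have := q_near hm hζ (hpow h) (hR h) hh v
    have hq : 0 < q v := lt_of_le_of_ne (q_nonneg v) (fun e => hv (q_eq_zero.1 e.symm))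
    linarith⟩
  obtain ⟨x, hx, hmin⟩ := Set.exists_min_image Bad (fun x => fro (R x - 1)) (Set.toFinite _) ⟨h, hhB⟩
  set y := g * x * g⁻¹ * x⁻¹ with hy
  have hlt : fro (R y - 1) < fro (R x - 1) := by
    have hX : R x - 1 ≠ 0 := by
      intro e
      have hx1 : x = 1 := hinj (by rw [map_one]; exact sub_eq_zero.1 e)
      exact hx.1 (by rw [hx1, mul_one, one_mul])
    have := fro_commutator_lt hm hζ (hpow g) (hR g) hg hX
    refine lt_of_eq_of_lt ?_ this
    have e : (R y - 1) * R (x * g) = R g * (R x - 1) - (R x - 1) * R g := by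
      rw [Matrix.sub_mul, ← map_mul, hy, Matrix.mul_sub, Matrix.sub_mul, Matrix.one_mul,
        Matrix.mul_one, Matrix.one_mul, ← map_mul, ← map_mul]
      have : g * x * g⁻¹ * x⁻¹ * (x * g) = g * x := by group
      rw [this]; abel
    rw [← e, fro_mul_unitary _ _ (mul_eq_one_comm.1 (hR _))]
  have hyc : ∀ v, v ≠ 0 → q (R y *ᵥ v - v) < 2 * q v := by
    intro v hv
    have h1 := q_near hm hζ (hpow g) (hR g) hg (R (x * g⁻¹ * x⁻¹) *ᵥ v)
    have h2 := q_near hm hζ (hpow _) (hR _) (near_conj R (near_inv R hR hg) x) v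
    rw [q_unitary _ (hR _)] at h1
    have e : R y *ᵥ v - v = (R g *ᵥ (R (x * g⁻¹ * x⁻¹) *ᵥ v) - R (x * g⁻¹ * x⁻¹) *ᵥ v) +
        (R (x * g⁻¹ * x⁻¹) *ᵥ v - v) := by
      rw [Matrix.mulVec_mulVec, ← map_mul, sub_add_sub_cancel, hy]
      congr 3
      group
    have h3 := q_add_le (R g *ᵥ (R (x * g⁻¹ * x⁻¹) *ᵥ v) - R (x * g⁻¹ * x⁻¹) *ᵥ v)
      (R (x * g⁻¹ * x⁻¹) *ᵥ v - v)
    have hq : 0 < q v := lt_of_le_of_ne (q_nonneg v) (fun e => hv (q_eq_zero.1 e.symm))
    rw [e]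
    linarith
  have hgy : g * y = y * g := by
    by_contra hc
    exact absurd (hmin y ⟨hc, hyc⟩) (not_le.2 hlt)
  -- `g` commutes with `x g⁻¹ x⁻¹`, hence with `x g x⁻¹`
  have h1 : Commute g (x * g⁻¹ * x⁻¹) := by
    have : x * g⁻¹ * x⁻¹ = g⁻¹ * y := by rw [hy]; group
    rw [this]
    exact ((Commute.refl g).inv_right).mul_right hgy
  have h2 : Commute g (x * g * x⁻¹) := by
    have := h1.inv_right
    simpa [mul_assoc] using this
  have h3 := comm_of_comm_conj hm hζ (hpow g) (hR g) (hR x) hx.2 (by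
    rw [R_conjTranspose R hR, ← map_mul, ← map_mul, ← map_mul, ← map_mul, h2.eq])
  exact hx.1 (hinj (by rw [map_mul, map_mul, h3]))

end Group

end CfsgLib.Blich
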