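import Cfsg.Agent.Lib.CharInd
import Cfsg.Agent.Lib.CharLinear
import Cfsg.Agent.Lib.CoreBasic
import Cfsg.Prelude.Def_OddOrderLocal
import Cfsg.Prelude.Def_OddOrderChar
import Mathlib.GroupTheory.SpecificGroups.Cyclic
import Mathlib.GroupTheory.NoncommCoprod

/-!
# Cyclic trivial-intersection subgroups: the rectangle rule
-/

set_option autoImplicit false
set_option linter.style.haveILetI false
set_option linter.unusedSectionVars false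

namespace CfsgLib.Char

open Cfsg
open scoped ComplexConjugate

universe u

variable {G : Type u} [Group G] {W₁ W₂ : Subgroup G}

/-- `(1 - φ)(1 - ψ)`. -/
noncomputable def tiAlpha (φ ψ : ↥(W₁ ⊔ W₂) →* ℂˣ) : ↥(W₁ ⊔ W₂) → ℂ :=
  fun w => 1 - (φ w : ℂ) - (ψ w : ℂ) + (φ w : ℂ) * (ψ w : ℂ)

/-- `φ` is trivial on `W₂`. -/
def IsLeft (φ : ↥(W₁ ⊔ W₂) →* ℂˣ) : Prop := ∀ w : ↥(W₁ ⊔ W₂), (w : G) ∈ W₂ → φ w = 1

/-- `ψ` is trivial on `W₁`. -/
def IsRight (ψ : ↥(W₁ ⊔ W₂) →* ℂˣ) : Prop := ∀ w : ↥(W₁ ⊔ W₂), (w : G) ∈ W₁ → ψ w = 1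

theorem homOneMul (ψ : ↥(W₁ ⊔ W₂) →* ℂˣ) : (1 : ↥(W₁ ⊔ W₂) →* ℂˣ) * ψ = ψ :=
  MonoidHom.ext fun _ => one_mul _

theorem homMulOne (ψ : ↥(W₁ ⊔ W₂) →* ℂˣ) : ψ * (1 : ↥(W₁ ⊔ W₂) →* ℂˣ) = ψ :=
  MonoidHom.ext fun _ => mul_one _

theorem exists_decomp (hcomm : ∀ a ∈ W₁, ∀ b ∈ W₂, a * b = b * a) (w : ↥(W₁ ⊔ W₂)) :
    ∃ a b : ↥(W₁ ⊔ W₂), (a : G) ∈ W₁ ∧ (b : G) ∈ W₂ ∧ w = a * b := by
  obtain ⟨a, ha, b, hb, h⟩ := (CfsgLib.Core.mem_sup_iff_of_le_normalizer (A := W₁) (K := W₂)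
    (fun a ha => Subgroup.centralizer_le_normalizer _ (Subgroup.mem_centralizer_iff.mpr fun b hb =>
      (hcomm a ha b hb).symm))).mp w.2
  exact ⟨⟨a, Subgroup.mem_sup_left ha⟩, ⟨b, Subgroup.mem_sup_right hb⟩, ha, hb, Subtype.ext h.symm⟩

theorem hom_ext_parts (hcomm : ∀ a ∈ W₁, ∀ b ∈ W₂, a * b = b * a)
    {ω ω' : ↥(W₁ ⊔ W₂) →* ℂˣ} (h1 : ∀ w : ↥(W₁ ⊔ W₂), (w : G) ∈ W₁ → ω w = ω' w)
    (h2 : ∀ w : ↥(W₁ ⊔ W₂), (w : G) ∈ W₂ → ω w = ω' w) : ω = ω' := by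
  refine MonoidHom.ext fun w => ?_
  obtain ⟨a, b, ha, hb, rfl⟩ := exists_decomp hcomm w
  rw [map_mul, map_mul, h1 a ha, h2 b hb]

theorem eq_and_eq_of_mul_eq (hcomm : ∀ a ∈ W₁, ∀ b ∈ W₂, a * b = b * a)
    {φ φ' ψ ψ' : ↥(W₁ ⊔ W₂) →* ℂˣ} (hφ : IsLeft φ) (hφ' : IsLeft φ') (hψ : IsRight ψ)
    (hψ' : IsRight ψ') (h : φ * ψ = φ' * ψ') : φ = φ' ∧ ψ = ψ' := by
  constructor
  · refine hom_ext_parts hcomm (fun w hw => ?_) (fun w hw => by rw [hφ w hw, hφ' w hw])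
    have := DFunLike.congr_fun h w
    simpa [MonoidHom.mul_apply, hψ w hw, hψ' w hw] using this
  · refine hom_ext_parts hcomm (fun w hw => by rw [hψ w hw, hψ' w hw]) fun w hw => ?_
    have := DFunLike.congr_fun h w
    simpa [MonoidHom.mul_apply, hφ w hw, hφ' w hw] using this

theorem isLeft_one : IsLeft (1 : ↥(W₁ ⊔ W₂) →* ℂˣ) := fun _ _ => rfl

theorem isRight_one : IsRight (1 : ↥(W₁ ⊔ W₂) →* ℂˣ) := fun _ _ => rfl

theorem exists_split (hdisj : W₁ ⊓ W₂ = ⊥) (hcomm : ∀ a ∈ W₁, ∀ b ∈ W₂, a * b = b * a)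
    (ω : ↥(W₁ ⊔ W₂) →* ℂˣ) :
    ∃ φ ψ : ↥(W₁ ⊔ W₂) →* ℂˣ, IsLeft φ ∧ IsRight ψ ∧ φ * ψ = ω := by
  set i₁ : W₁ →* ↥(W₁ ⊔ W₂) := Subgroup.inclusion le_sup_left
  set i₂ : W₂ →* ↥(W₁ ⊔ W₂) := Subgroup.inclusion le_sup_right
  let f : W₁ × W₂ →* ↥(W₁ ⊔ W₂) :=
    i₁.noncommCoprod i₂ fun a b => Subtype.ext (hcomm a a.2 b b.2)
  have hf : Function.Bijective f := by
    refine ⟨(injective_iff_map_eq_one f).mpr fun x hx => ?_, fun w => ?_⟩
    · have h1 : (x.1 : G) * x.2 = 1 := congrArg Subtype.val hx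
      have h2 : (x.1 : G) ∈ W₁ ⊓ W₂ :=
        ⟨x.1.2, by rw [mul_eq_one_iff_eq_inv.mp h1]; exact W₂.inv_mem x.2.2⟩
      rw [hdisj, Subgroup.mem_bot] at h2
      rw [h2, one_mul] at h1
      exact Prod.ext (Subtype.ext h2) (Subtype.ext h1)
    · obtain ⟨a, b, ha, hb, rfl⟩ := exists_decomp hcomm w
      exact ⟨(⟨a, ha⟩, ⟨b, hb⟩), rfl⟩
  let e := MulEquiv.ofBijective f hf
  refine ⟨ω.comp (i₁.comp ((MonoidHom.fst W₁ W₂).comp e.symm.toMonoidHom)),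
    ω.comp (i₂.comp ((MonoidHom.snd W₁ W₂).comp e.symm.toMonoidHom)), fun w hw => ?_, fun w hw => ?_,
    MonoidHom.ext fun w => ?_⟩
  · have : e.symm w = (1, ⟨(w : G), hw⟩) := e.symm_apply_eq.mpr (Subtype.ext (one_mul _).symm)
    show ω (i₁ (e.symm w).1) = 1
    rw [this, map_one, map_one]
  · have : e.symm w = (⟨(w : G), hw⟩, 1) := e.symm_apply_eq.mpr (Subtype.ext (mul_one _).symm)
    show ω (i₂ (e.symm w).2) = 1
    rw [this, map_one, map_one]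
  · show ω (i₁ (e.symm w).1) * ω (i₂ (e.symm w).2) = ω w
    rw [← map_mul]
    congr 1
    exact e.apply_symm_apply w

theorem tiAlpha_eq_zero {φ ψ : ↥(W₁ ⊔ W₂) →* ℂˣ} (hφ : IsLeft φ) (hψ : IsRight ψ)
    {w : ↥(W₁ ⊔ W₂)} (h : (w : G) ∈ W₁ ∨ (w : G) ∈ W₂) : tiAlpha φ ψ w = 0 := by
  unfold tiAlpha
  rcases h with h | h
  · rw [hψ w h, Units.val_one]; ring
  · rw [hφ w h, Units.val_one]; ring

theorem homFn_injective {K : Type u} [Group K] {a b : K →* ℂˣ}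
    (h : (fun w => (a w : ℂ)) = fun w => (b w : ℂ)) : a = b :=
  MonoidHom.ext fun w => Units.ext (congrFun h w)

open scoped Classical in
theorem inner_hom {K : Type u} [Group K] [Fintype K] (a b : K →* ℂˣ) :
    classInner (fun w => (a w : ℂ)) (fun w => (b w : ℂ)) = if a = b then 1 else 0 := by
  split_ifs with h
  · rw [h]; exact irr_inner_self (isIrrCharacter_hom b)
  · exact irr_inner_ne (isIrrCharacter_hom a) (isIrrCharacter_hom b) fun e => h (homFn_injective e)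

theorem tiAlpha_eq (φ ψ : ↥(W₁ ⊔ W₂) →* ℂˣ) :
    tiAlpha φ ψ = (fun w => ((1 : ↥(W₁ ⊔ W₂) →* ℂˣ) w : ℂ)) - (fun w => (φ w : ℂ)) -
      (fun w => (ψ w : ℂ)) + fun w => ((φ * ψ) w : ℂ) := by
  funext w
  simp [tiAlpha]

open scoped Classical in
theorem inner_hom_tiAlpha [Fintype ↥(W₁ ⊔ W₂)] (ω φ ψ : ↥(W₁ ⊔ W₂) →* ℂˣ) :
    classInner (fun w => (ω w : ℂ)) (tiAlpha φ ψ) =
      (if ω = 1 then 1 else 0) - (if ω = φ then 1 else 0) - (if ω = ψ then 1 else 0) +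
        (if ω = φ * ψ then 1 else 0) := by
  rw [tiAlpha_eq, inner_add_right, inner_sub_right, inner_sub_right, inner_hom, inner_hom, inner_hom,
    inner_hom]

theorem left_right_eq_one (hcomm : ∀ a ∈ W₁, ∀ b ∈ W₂, a * b = b * a)
    {φ : ↥(W₁ ⊔ W₂) →* ℂˣ} (hφ : IsLeft φ) (hφ' : IsRight φ) : φ = 1 :=
  hom_ext_parts hcomm (fun w hw => hφ' w hw) (fun w hw => hφ w hw)

open scoped Classical in
theorem inner_one_tiAlpha [Fintype ↥(W₁ ⊔ W₂)] (hcomm : ∀ a ∈ W₁, ∀ b ∈ W₂, a * b = b * a)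
    {φ ψ : ↥(W₁ ⊔ W₂) →* ℂˣ} (hφ : IsLeft φ) (hψ : IsRight ψ) (hφ1 : φ ≠ 1) (hψ1 : ψ ≠ 1) :
    classInner (fun w => ((1 : ↥(W₁ ⊔ W₂) →* ℂˣ) w : ℂ)) (tiAlpha φ ψ) = 1 := by
  rw [inner_hom_tiAlpha, if_pos rfl, if_neg (Ne.symm hφ1), if_neg (Ne.symm hψ1), if_neg]
  · ring
  · intro h
    exact hφ1 (eq_and_eq_of_mul_eq hcomm hφ isLeft_one hψ isRight_one (by rw [homOneMul]; exact h.symm)).1

open scoped Classical in
theorem inner_tiAlpha [Fintype ↥(W₁ ⊔ W₂)] (hcomm : ∀ a ∈ W₁, ∀ b ∈ W₂, a * b = b * a)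
    {φ φ' ψ ψ' : ↥(W₁ ⊔ W₂) →* ℂˣ} (hφ : IsLeft φ) (hφ' : IsLeft φ') (hψ : IsRight ψ)
    (hψ' : IsRight ψ') (hφ1 : φ ≠ 1) (hφ1' : φ' ≠ 1) (hψ1 : ψ ≠ 1) (hψ1' : ψ' ≠ 1) :
    classInner (tiAlpha φ ψ) (tiAlpha φ' ψ') = 1 + (if φ = φ' then 1 else 0) +
      (if ψ = ψ' then 1 else 0) + (if φ = φ' then 1 else 0) * (if ψ = ψ' then 1 else 0) := by
  have hne : ∀ {a b c : ↥(W₁ ⊔ W₂) →* ℂˣ}, IsLeft a → IsLeft b → IsRight c → c ≠ 1 → a ≠ b * c :=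
    fun {a b c} ha hb hc hc1 e => hc1
      (eq_and_eq_of_mul_eq hcomm hb ha hc isRight_one (by rw [homMulOne]; exact e.symm)).2
  have hne' : ∀ {a b c : ↥(W₁ ⊔ W₂) →* ℂˣ}, IsRight a → IsLeft b → IsRight c → b ≠ 1 → a ≠ b * c :=
    fun {a b c} ha hb hc hb1 e => hb1
      (eq_and_eq_of_mul_eq hcomm hb isLeft_one hc ha (by rw [homOneMul]; exact e.symm)).1
  have hlr : ∀ {a b : ↥(W₁ ⊔ W₂) →* ℂˣ}, IsLeft a → IsRight b → a ≠ 1 → a ≠ b := fun ha hb h1 e =>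
    h1 (left_right_eq_one hcomm ha (e ▸ hb))
  conv_lhs => rw [tiAlpha_eq φ ψ]
  rw [inner_add_left, CfsgLib.Char.inner_sub_left, CfsgLib.Char.inner_sub_left,
    inner_one_tiAlpha hcomm hφ' hψ' hφ1' hψ1', inner_hom_tiAlpha, inner_hom_tiAlpha, inner_hom_tiAlpha,
    if_neg hφ1, if_neg (hlr hφ hψ' hφ1), if_neg (hne hφ hφ' hψ' hψ1'),
    if_neg hψ1, if_neg (Ne.symm (hlr hφ' hψ hφ1')), if_neg (hne' hψ hφ' hψ' hφ1'),
    if_neg (fun e : φ * ψ = 1 => hne (isLeft_one) hφ hψ hψ1 e.symm),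
    if_neg (fun e : φ * ψ = φ' => hne hφ' hφ hψ hψ1 e.symm),
    if_neg (fun e : φ * ψ = ψ' => hne' hψ' hφ hψ hφ1 e.symm)]
  have hiff : φ * ψ = φ' * ψ' ↔ φ = φ' ∧ ψ = ψ' :=
    ⟨eq_and_eq_of_mul_eq hcomm hφ hφ' hψ hψ', fun h => by rw [h.1, h.2]⟩
  by_cases h1 : φ = φ' <;> by_cases h2 : ψ = ψ' <;> simp [h1, h2, hiff] <;> ring

/-- The functions `(1 - φ)(1 - ψ)` are linearly independent. -/
theorem tiAlpha_linearIndependent [Finite G] (hcomm : ∀ a ∈ W₁, ∀ b ∈ W₂, a * b = b * a) :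
    LinearIndependent ℂ (fun p : {p : (↥(W₁ ⊔ W₂) →* ℂˣ) × (↥(W₁ ⊔ W₂) →* ℂˣ) //
      p.1 ≠ 1 ∧ p.2 ≠ 1 ∧ IsLeft p.1 ∧ IsRight p.2} => tiAlpha p.1.1 p.1.2) := by
  classical
  haveI := Fintype.ofFinite ↥(W₁ ⊔ W₂)
  rw [linearIndependent_iff']
  intro s g hg q hq
  obtain ⟨⟨φ, ψ⟩, hφ1, hψ1, hφ, hψ⟩ := q
  have h := congrArg (fun f => classInner f (fun w => ((φ * ψ) w : ℂ))) hg
  simp only [inner_sum_left, inner_zero_left, inner_smul_left] at h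
  rw [Finset.sum_eq_single_of_mem _ hq] at h
  · rw [← inner_conj_symm, inner_hom_tiAlpha, if_pos rfl, if_neg, if_neg, if_neg] at h
    · simpa using h
    · intro e; exact hφ1 (eq_and_eq_of_mul_eq hcomm hφ isLeft_one hψ hψ (by rw [homOneMul]; exact e)).1
    · intro e; exact hψ1 (eq_and_eq_of_mul_eq hcomm hφ hφ hψ isRight_one (by rw [homMulOne]; exact e)).2
    · intro e
      exact hφ1 (eq_and_eq_of_mul_eq hcomm hφ isLeft_one hψ isRight_one (by rw [homOneMul]; exact e)).1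
  · rintro ⟨⟨φ', ψ'⟩, hφ1', hψ1', hφ', hψ'⟩ - hne
    rw [← inner_conj_symm, inner_hom_tiAlpha, if_neg, if_neg, if_neg, if_neg]
    · simp
    · intro e
      obtain ⟨e1, e2⟩ := eq_and_eq_of_mul_eq hcomm hφ hφ' hψ hψ' e
      exact hne (Subtype.ext (Prod.ext e1.symm e2.symm))
    · intro e; exact hφ1 (eq_and_eq_of_mul_eq hcomm hφ isLeft_one hψ hψ' (by rw [homOneMul]; exact e)).1
    · intro e; exact hψ1 (eq_and_eq_of_mul_eq hcomm hφ hφ' hψ isRight_one (by rw [homMulOne]; exact e)).2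
    · intro e
      exact hφ1 (eq_and_eq_of_mul_eq hcomm hφ isLeft_one hψ isRight_one (by rw [homOneMul]; exact e)).1

variable (hW : IsSelfNormalizingCyclic W₁ W₂)

include hW in
/-- Elements outside both factors have no fusion outside the subgroup. -/
theorem ti_conj_mem [Finite G] {v : ↥(W₁ ⊔ W₂)} (hv₁ : (v : G) ∉ W₁) (hv₂ : (v : G) ∉ W₂) {x : G}
    (hxW : x⁻¹ * v * x ∈ W₁ ⊔ W₂) (hx₁ : x⁻¹ * v * x ∉ W₁) (hx₂ : x⁻¹ * v * x ∉ W₂) :
    x ∈ W₁ ⊔ W₂ := by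
  obtain ⟨-, -, -, -, hcyc, hN⟩ := hW
  haveI := hcyc
  set V : Set G := (↑(W₁ ⊔ W₂) : Set G) \ (↑W₁ ∪ ↑W₂) with hV
  have hC : ∀ u : G, u ∈ V → Subgroup.centralizer ({u} : Set G) = W₁ ⊔ W₂ := fun u hu => by
    rw [← hN {u} (Set.singleton_subset_iff.mpr hu) (Set.singleton_nonempty u)]
    ext g
    rw [Subgroup.mem_centralizer_singleton_iff, Subgroup.mem_set_normalizer_iff]
    refine ⟨fun h y => ?_, fun h => ?_⟩
    · simp only [Set.mem_singleton_iff]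
      constructor
      · rintro rfl; rw [h, mul_inv_cancel_right]
      · intro e
        rw [mul_inv_eq_iff_eq_mul, ← h] at e
        exact mul_left_cancel e
    · exact mul_inv_eq_iff_eq_mul.mp (Set.mem_singleton_iff.mp ((h u).mp rfl))
  have h1 := hC _ (show (v : G) ∈ V from ⟨v.2, fun h => h.elim hv₁ hv₂⟩)
  have h2 := hC _ (show x⁻¹ * v * x ∈ V from ⟨hxW, fun h => h.elim hx₁ hx₂⟩)
  -- `x` normalises the cyclic subgroup
  have hnorm : ∀ w ∈ (W₁ ⊔ W₂), x⁻¹ * w * x ∈ (W₁ ⊔ W₂) := fun w hw => by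
    rw [← h1, Subgroup.mem_centralizer_singleton_iff] at hw
    rw [← h2, Subgroup.mem_centralizer_singleton_iff]
    calc x⁻¹ * w * x * (x⁻¹ * v * x) = x⁻¹ * (w * v) * x := by group
      _ = x⁻¹ * v * x * (x⁻¹ * w * x) := by rw [hw]; group
  let σ : ↥(W₁ ⊔ W₂) →* ↥(W₁ ⊔ W₂) :=
    { toFun := fun w => ⟨x⁻¹ * w * x, hnorm w w.2⟩
      map_one' := Subtype.ext (by simp)
      map_mul' := fun a b => Subtype.ext (by simp [mul_assoc]) }
  obtain ⟨m, hm⟩ := MonoidHom.map_cyclic σ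
  have hsub : ∀ S : Subgroup G, S ≤ (W₁ ⊔ W₂) → ∀ y : G, y ∈ S ↔ x⁻¹ * y * x ∈ S := by
    intro S hS
    have hmap : S.map (MulAut.conj x⁻¹).toMonoidHom = S := by
      refine Subgroup.eq_of_le_of_card_ge ?_
        (Subgroup.card_map_of_injective (MulAut.conj x⁻¹).injective).ge
      rintro _ ⟨y, hy, rfl⟩
      have := congrArg Subtype.val (hm ⟨y, hS hy⟩)
      show x⁻¹ * y * x⁻¹⁻¹ ∈ S
      rw [inv_inv]
      show ((σ ⟨y, hS hy⟩ : ↥(W₁ ⊔ W₂)) : G) ∈ S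
      rw [this]
      exact S.zpow_mem hy m
    intro y
    conv_rhs => rw [← hmap, show x⁻¹ * y * x = (MulAut.conj x⁻¹).toMonoidHom y by simp,
      Subgroup.mem_map_iff_mem (MulAut.conj x⁻¹).injective]
  have hxV : x ∈ Subgroup.normalizer V := by
    rw [Subgroup.mem_set_normalizer_iff'']
    intro y
    simp only [hV, Set.mem_diff, Set.mem_union, SetLike.mem_coe]
    rw [← hsub (W₁ ⊔ W₂) le_rfl, ← hsub W₁ le_sup_left, ← hsub W₂ le_sup_right]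
  rw [← hN V le_rfl ⟨v, v.2, fun h => h.elim hv₁ hv₂⟩]
  exact hxV

include hW in
theorem ti_indFun_eq [Fintype G] {f : ↥(W₁ ⊔ W₂) → ℂ}
    (hf : ∀ w : ↥(W₁ ⊔ W₂), (w : G) ∈ W₁ ∨ (w : G) ∈ W₂ → f w = 0) {v : ↥(W₁ ⊔ W₂)}
    (hv₁ : (v : G) ∉ W₁) (hv₂ : (v : G) ∉ W₂) : indFun (W₁ ⊔ W₂) f v = f v := by
  have hcyc := hW.2.2.2.2.1
  refine indFun_eq_of_fusion f (fun a b => ?_) v fun x hx => ?_
  · letI : CommGroup ↥(W₁ ⊔ W₂) := @IsCyclic.commGroup _ _ hcyc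
    congr 1
    rw [mul_comm b a, mul_inv_cancel_right]
  · by_contra h
    have hmem : x⁻¹ * v * x ∈ W₁ ⊔ W₂ := by
      by_contra hn; exact h (extendByZero_not_mem _ hn)
    rw [extendByZero_mem _ hmem] at h
    exact hx (ti_conj_mem hW hv₁ hv₂ hmem (fun e => h (hf _ (.inl e))) (fun e => h (hf _ (.inr e))))

include hW in
theorem ti_inner_one [Fintype G] {φ ψ : ↥(W₁ ⊔ W₂) →* ℂˣ} (hφ : IsLeft φ) (hψ : IsRight ψ)
    (hφ1 : φ ≠ 1) (hψ1 : ψ ≠ 1) :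
    classInner (indFun (W₁ ⊔ W₂) (tiAlpha φ ψ)) (fun _ => 1) = 1 := by
  classical
  haveI := Fintype.ofFinite ↥(W₁ ⊔ W₂)
  rw [frobenius (tiAlpha φ ψ) (fun _ : G => (1 : ℂ)) (fun _ _ => rfl), ← inner_conj_symm,
    show (fun _ : ↥(W₁ ⊔ W₂) => (1 : ℂ)) = fun w => ((1 : ↥(W₁ ⊔ W₂) →* ℂˣ) w : ℂ) by simp,
    inner_one_tiAlpha hW.2.2.2.1 hφ hψ hφ1 hψ1, map_one]

open scoped Classical in
include hW in
theorem ti_inner [Fintype G] {φ φ' ψ ψ' : ↥(W₁ ⊔ W₂) →* ℂˣ} (hφ : IsLeft φ) (hφ' : IsLeft φ')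
    (hψ : IsRight ψ) (hψ' : IsRight ψ') (hφ1 : φ ≠ 1) (hφ1' : φ' ≠ 1) (hψ1 : ψ ≠ 1) (hψ1' : ψ' ≠ 1) :
    classInner (indFun (W₁ ⊔ W₂) (tiAlpha φ ψ)) (indFun (W₁ ⊔ W₂) (tiAlpha φ' ψ')) =
      1 + (if φ = φ' then 1 else 0) + (if ψ = ψ' then 1 else 0) +
        (if φ = φ' then 1 else 0) * (if ψ = ψ' then 1 else 0) := by
  haveI := Fintype.ofFinite ↥(W₁ ⊔ W₂)
  rw [frobenius _ _ (indFun_classFunction _)]
  have key : classInner (tiAlpha φ ψ) (fun w => indFun (W₁ ⊔ W₂) (tiAlpha φ' ψ') w) =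
      classInner (tiAlpha φ ψ) (tiAlpha φ' ψ') := ?_
  · rw [key, inner_tiAlpha hW.2.2.2.1 hφ hφ' hψ hψ' hφ1 hφ1' hψ1 hψ1']
    by_cases h1 : φ = φ' <;> by_cases h2 : ψ = ψ' <;> simp [h1, h2]
  simp only [classInner]
  congr 1
  refine Finset.sum_congr rfl fun w _ => ?_
  by_cases hw : (w : G) ∈ W₁ ∨ (w : G) ∈ W₂
  · rw [tiAlpha_eq_zero hφ hψ hw, zero_mul, zero_mul]
  · push Not at hw
    rw [ti_indFun_eq hW (fun w => tiAlpha_eq_zero hφ' hψ') hw.1 hw.2]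

variable [Fintype G] {χ : (↥(W₁ ⊔ W₂) →* ℂˣ) → (G → ℂ)}

include hW in
/-- The rectangle identity. -/
theorem ti_rectangle (hχ : IsCyclicTIFamily W₁ W₂ χ) {θ : G → ℂ} (hθ : IsClassFunction G θ)
    (hθV : ∀ w : ↥(W₁ ⊔ W₂), (w : G) ∉ W₁ → (w : G) ∉ W₂ → θ w = 0)
    {φ ψ : ↥(W₁ ⊔ W₂) →* ℂˣ} (hφ : IsLeft φ) (hψ : IsRight ψ) :
    classInner θ (χ (φ * ψ)) = classInner θ (χ φ) + classInner θ (χ ψ) - classInner θ (χ 1) := by
  classical
  by_cases hφ1 : φ = 1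
  · rw [hφ1, homOneMul]; ring
  by_cases hψ1 : ψ = 1
  · rw [hψ1, homMulOne]; ring
  haveI := Fintype.ofFinite ↥(W₁ ⊔ W₂)
  have h : classInner θ (indFun (W₁ ⊔ W₂) (tiAlpha φ ψ)) = 0 := by
    rw [frobenius_right _ _ hθ, classInner, mul_eq_zero]
    refine .inr (Finset.sum_eq_zero fun w _ => ?_)
    by_cases hw : (w : G) ∈ W₁ ∨ (w : G) ∈ W₂
    · rw [tiAlpha_eq_zero hφ hψ hw, map_zero, mul_zero]
    · push Not at hw
      rw [hθV w hw.1 hw.2, zero_mul]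
  have he : indFun (W₁ ⊔ W₂) (tiAlpha φ ψ) = χ 1 - χ φ - χ ψ + χ (φ * ψ) := by
    rw [hχ.map_one]
    exact hχ.induced_eq φ ψ hφ1 hψ1 hφ hψ
  rw [he, inner_add_right, inner_sub_right, inner_sub_right] at h
  linear_combination h

include hW in
/-- An irreducible character orthogonal to the family vanishes outside the factors. -/
theorem ti_vanish (hχ : IsCyclicTIFamily W₁ W₂ χ) {θ : G → ℂ} (hθ : IsClassFunction G θ)
    (horth : ∀ ω, classInner θ (χ ω) = 0) (w : ↥(W₁ ⊔ W₂)) (hw₁ : (w : G) ∉ W₁)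
    (hw₂ : (w : G) ∉ W₂) : θ w = 0 := by
  classical
  obtain ⟨-, -, hdisj, hcomm, hcyc, -⟩ := id hW
  haveI := hcyc
  letI : CommGroup ↥(W₁ ⊔ W₂) := IsCyclic.commGroup
  haveI := Fintype.ofFinite ↥(W₁ ⊔ W₂)
  haveI : Finite (↥(W₁ ⊔ W₂) →* ℂˣ) := Finite.of_injective
    (fun f => (⟨fun g => (f g : ℂ), isIrrCharacter_hom f⟩ : IrrCharacter ↥(W₁ ⊔ W₂)))
    fun a b e => homFn_injective (congrArg Subtype.val e)
  haveI := Fintype.ofFinite (↥(W₁ ⊔ W₂) →* ℂˣ)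
  set f : ↥(W₁ ⊔ W₂) → ℂ := fun v => θ v with hf
  set b : (↥(W₁ ⊔ W₂) →* ℂˣ) → ℂ := fun ω => classInner f (fun v => (ω v : ℂ)) with hb
  have hrel : ∀ φ ψ, IsLeft φ → IsRight ψ → b (φ * ψ) = b φ + b ψ - b 1 := by
    intro φ ψ hφ hψ
    by_cases hφ1 : φ = 1
    · rw [hφ1, homOneMul]; ring
    by_cases hψ1 : ψ = 1
    · rw [hψ1, homMulOne]; ring
    have h : classInner f (tiAlpha φ ψ) = 0 := by
      rw [← frobenius_right (tiAlpha φ ψ) θ hθ,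
        show indFun (W₁ ⊔ W₂) (tiAlpha φ ψ) = χ 1 - χ φ - χ ψ + χ (φ * ψ) by
          rw [hχ.map_one]; exact hχ.induced_eq φ ψ hφ1 hψ1 hφ hψ,
        inner_add_right, inner_sub_right, inner_sub_right, horth, horth, horth, horth]
      ring
    rw [tiAlpha_eq, inner_add_right, inner_sub_right, inner_sub_right] at h
    simp only [hb]
    linear_combination h
  -- expansion in the linear characters
  have hexp : f w = ∑ ω : ↥(W₁ ⊔ W₂) →* ℂˣ, b ω * (ω w : ℂ) := by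
    have h := congrFun (classFunction_eq_sum f fun a c => by
      congr 1; rw [mul_comm c a, mul_inv_cancel_right]) w
    rw [Finset.sum_apply] at h
    rw [h]
    symm
    refine Finset.sum_bij (fun ω _ => ⟨fun g => (ω g : ℂ), isIrrCharacter_hom ω⟩)
      (fun _ _ => Finset.mem_univ _) (fun a _ c _ e => homFn_injective (congrArg Subtype.val e))
      (fun ξ _ => ?_) fun ω _ => by simp [hb]
    obtain ⟨ω, hω⟩ := exists_hom_of_irr_comm (fun a c => mul_comm a c) ξ.2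
    exact ⟨ω, Finset.mem_univ _, Subtype.ext hω.symm⟩
  set X₁ := Finset.univ.filter fun ω : ↥(W₁ ⊔ W₂) →* ℂˣ => IsLeft ω with hX₁
  set X₂ := Finset.univ.filter fun ω : ↥(W₁ ⊔ W₂) →* ℂˣ => IsRight ω with hX₂
  have hpairs : ∑ ω : ↥(W₁ ⊔ W₂) →* ℂˣ, b ω * (ω w : ℂ) =
      ∑ φ ∈ X₁, ∑ ψ ∈ X₂, (b φ + b ψ - b 1) * ((φ w : ℂ) * (ψ w : ℂ)) := by
    rw [← Finset.sum_product']
    symm
    refine Finset.sum_bij (fun p _ => p.1 * p.2) (fun _ _ => Finset.mem_univ _)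
      (fun p hp q hq e => ?_) (fun ω _ => ?_) fun p hp => ?_
    · rw [Finset.mem_product, hX₁, hX₂, Finset.mem_filter, Finset.mem_filter] at hp hq
      obtain ⟨e1, e2⟩ := eq_and_eq_of_mul_eq hcomm hp.1.2 hq.1.2 hp.2.2 hq.2.2 e
      exact Prod.ext e1 e2
    · obtain ⟨φ, ψ, hφ, hψ, e⟩ := exists_split hdisj hcomm ω
      exact ⟨(φ, ψ), by simp [hX₁, hX₂, hφ, hψ], e⟩
    · rw [Finset.mem_product, hX₁, hX₂, Finset.mem_filter, Finset.mem_filter] at hp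
      rw [hrel _ _ hp.1.2 hp.2.2, MonoidHom.mul_apply, Units.val_mul]
  have hsep : ∀ v : ↥(W₁ ⊔ W₂), v ≠ 1 → ∃ ω : ↥(W₁ ⊔ W₂) →* ℂˣ, (ω v : ℂ) ≠ 1 := fun v hv => by
    by_contra hcon
    push Not at hcon
    refine hv (isConj_one_right.mp (((isConj_iff_irr_eq 1 v).mpr fun ξ => ?_)))
    obtain ⟨ω, hω⟩ := exists_hom_of_irr_comm (fun a c => mul_comm a c) ξ.2
    rw [hω]; simp [hcon ω]
  -- the sum of each family at `w` vanishes
  have hsum : ∀ X : Finset (↥(W₁ ⊔ W₂) →* ℂˣ), (∀ a ∈ X, ∀ c ∈ X, a * c ∈ X) →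
      (∃ c ∈ X, (c w : ℂ) ≠ 1) → ∑ ω ∈ X, (ω w : ℂ) = 0 := fun X hX ⟨c, hc, hcw⟩ => by
    have hinj : Function.Injective fun ω : ↥(W₁ ⊔ W₂) →* ℂˣ => c * ω := mul_right_injective c
    have himg : X.image (fun ω => c * ω) = X := Finset.eq_of_subset_of_card_le
      (Finset.image_subset_iff.mpr fun a ha => hX c hc a ha)
      (Finset.card_image_of_injective X hinj).ge
    have h1 : ∑ ω ∈ X, (ω w : ℂ) = (c w : ℂ) * ∑ ω ∈ X, (ω w : ℂ) := by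
      conv_lhs => rw [← himg, Finset.sum_image fun a _ d _ e => hinj e]
      rw [Finset.mul_sum]
      exact Finset.sum_congr rfl fun ω _ => by rw [MonoidHom.mul_apply, Units.val_mul]
    have h2 : ((c w : ℂ) - 1) * ∑ ω ∈ X, (ω w : ℂ) = 0 := by linear_combination -h1
    exact (mul_eq_zero.mp h2).resolve_left (sub_ne_zero.mpr hcw)
  have h1 : ∑ φ ∈ X₁, (φ w : ℂ) = 0 := by
    refine hsum X₁ (fun a ha c hc => ?_) ?_
    · simp only [hX₁, Finset.mem_filter, Finset.mem_univ, true_and] at ha hc ⊢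
      exact fun v hv => by rw [MonoidHom.mul_apply, ha v hv, hc v hv, one_mul]
    · obtain ⟨a, c, ha, hc, hac⟩ := exists_decomp hcomm w
      have ha1 : a ≠ 1 := fun e => hw₂ (by rw [hac, e, one_mul]; exact hc)
      obtain ⟨ω, hω⟩ := hsep a ha1
      obtain ⟨φ, ψ, hφ, hψ, rfl⟩ := exists_split hdisj hcomm ω
      refine ⟨φ, by simp [hX₁, hφ], ?_⟩
      rw [hac, map_mul, hφ c hc, mul_one]
      rwa [MonoidHom.mul_apply, hψ a ha, mul_one] at hω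
  have h2 : ∑ ψ ∈ X₂, (ψ w : ℂ) = 0 := by
    refine hsum X₂ (fun a ha c hc => ?_) ?_
    · simp only [hX₂, Finset.mem_filter, Finset.mem_univ, true_and] at ha hc ⊢
      exact fun v hv => by rw [MonoidHom.mul_apply, ha v hv, hc v hv, one_mul]
    · obtain ⟨a, c, ha, hc, hac⟩ := exists_decomp hcomm w
      have hc1 : c ≠ 1 := fun e => hw₁ (by rw [hac, e, mul_one]; exact ha)
      obtain ⟨ω, hω⟩ := hsep c hc1
      obtain ⟨φ, ψ, hφ, hψ, rfl⟩ := exists_split hdisj hcomm ω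
      refine ⟨ψ, by simp [hX₂, hψ], ?_⟩
      rw [hac, map_mul, hψ a ha, one_mul]
      rwa [MonoidHom.mul_apply, hφ c hc, one_mul] at hω
  show f w = 0
  rw [hexp, hpairs, Finset.sum_congr rfl (g := fun φ => (b φ - b 1) * (φ w : ℂ) * ∑ ψ ∈ X₂, (ψ w : ℂ) +
      (φ w : ℂ) * ∑ ψ ∈ X₂, b ψ * (ψ w : ℂ)) (fun φ _ => by
    rw [Finset.mul_sum, Finset.mul_sum, ← Finset.sum_add_distrib]
    exact Finset.sum_congr rfl fun ψ _ => by ring)]
  simp only [h2, mul_zero, zero_add]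
  rw [← Finset.sum_mul, h1, zero_mul]

/-- The combinatorics of a sum table with few nonzero entries. -/
theorem few_nonzero {ι κ : Type*} [Fintype ι] [Fintype κ] (u : ι → ℂ) (v : κ → ℂ)
    (hI : 3 ≤ Fintype.card ι) (hIJ : Fintype.card ι + 2 ≤ Fintype.card κ)
    (hfew : Nat.card {p : ι × κ // u p.1 + v p.2 ≠ 0} < 2 * Fintype.card ι) :
    (∀ i j, u i + v j = 0) ∨
      (∃ (j₀ : κ) (a : ℂ), (∀ i, u i + v j₀ = a) ∧ ∀ i, ∀ j ≠ j₀, u i + v j = 0) ∨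
      (∃ (i₀ : ι) (a : ℂ), (∀ j, u i₀ + v j = a) ∧ ∀ i ≠ i₀, ∀ j, u i + v j = 0) := by
  classical
  have hN : Nat.card {p : ι × κ // u p.1 + v p.2 ≠ 0} =
      ∑ j, (Finset.univ.filter fun i => u i + v j ≠ 0).card := by
    rw [Nat.card_eq_fintype_card, Fintype.card_subtype, Finset.card_filter]
    simp only [Finset.card_filter]
    rw [Fintype.sum_prod_type, Finset.sum_comm]
  rw [hN] at hfew
  set I := Fintype.card ι with hId
  set J := Fintype.card κ with hJd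
  by_cases hu : ∀ i i', u i = u i'
  · obtain ⟨i₀⟩ : Nonempty ι := Fintype.card_pos_iff.mp (by omega)
    have hcol : ∀ j, (Finset.univ.filter fun i => u i + v j ≠ 0).card =
        if u i₀ + v j ≠ 0 then I else 0 := fun j => by
      split_ifs with h
      · rw [Finset.filter_true_of_mem fun i _ => by rwa [hu i i₀], Finset.card_univ]
      · rw [Finset.filter_false_of_mem fun i _ => by rw [hu i i₀]; exact h, Finset.card_empty]
    simp only [hcol, ← Finset.sum_filter, Finset.sum_const, smul_eq_mul] at hfew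
    have hk : (Finset.univ.filter fun j => u i₀ + v j ≠ 0).card ≤ 1 := by
      by_contra hc
      exact absurd hfew (not_lt.mpr (Nat.mul_le_mul_right I (by omega)))
    by_cases hz : ∃ j₀, u i₀ + v j₀ ≠ 0
    · obtain ⟨j₀, hj₀⟩ := hz
      refine .inr (.inl ⟨j₀, u i₀ + v j₀, fun i => by rw [hu i i₀], fun i j hj => ?_⟩)
      rw [hu i i₀]
      by_contra hc
      exact hj (Finset.card_le_one.mp hk j (by simp [hc]) j₀ (by simp [hj₀]))
    · push Not at hz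
      exact .inl fun i j => by rw [hu i i₀]; exact hz j
  by_cases hv : ∀ j j', v j = v j'
  · obtain ⟨j₀⟩ : Nonempty κ := Fintype.card_pos_iff.mp (by omega)
    have hcol : ∀ j, (Finset.univ.filter fun i => u i + v j ≠ 0) =
        Finset.univ.filter fun i => u i + v j₀ ≠ 0 := fun j => by rw [hv j j₀]
    simp only [hcol, Finset.sum_const, smul_eq_mul, Finset.card_univ] at hfew
    have hk : (Finset.univ.filter fun i => u i + v j₀ ≠ 0).card ≤ 1 := by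
      by_contra hc
      have h2 : J * 2 ≤ J * (Finset.univ.filter fun i => u i + v j₀ ≠ 0).card :=
        Nat.mul_le_mul_left J (by omega)
      rw [← hJd] at hfew
      omega
    by_cases hz : ∃ i₀, u i₀ + v j₀ ≠ 0
    · obtain ⟨i₀, hi₀⟩ := hz
      refine .inr (.inr ⟨i₀, u i₀ + v j₀, fun j => by rw [hv j j₀], fun i hi j => ?_⟩)
      rw [hv j j₀]
      by_contra hc
      exact hi (Finset.card_le_one.mp hk i (by simp [hc]) i₀ (by simp [hi₀]))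
    · push Not at hz
      exact .inl fun i j => by rw [hv j j₀]; exact hz i
  exfalso
  push Not at hu hv
  -- fibres of `u`
  set fib : ℂ → ℕ := fun t => (Finset.univ.filter fun i => u i = t).card with hfib
  have hcol : ∀ j, (Finset.univ.filter fun i => u i + v j ≠ 0).card + fib (-v j) = I := fun j => by
    rw [hfib, hId, ← Finset.card_univ, add_comm, ← Finset.card_filter_add_card_filter_not
      (s := Finset.univ) (fun i => u i = -v j)]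
    congr 2
    exact Finset.filter_congr fun i _ => not_congr eq_neg_iff_add_eq_zero.symm
  have hfibI : ∀ t, fib t < I := fun t => by
    rw [hfib, hId, ← Finset.card_univ]
    refine Finset.card_lt_card (Finset.ssubset_iff.mpr ?_)
    obtain ⟨i, i', hne⟩ := hu
    by_cases h : u i = t
    · exact ⟨i', by simp [show u i' ≠ t from fun e => hne (h.trans e.symm)], Finset.subset_univ _⟩
    · exact ⟨i, by simp [h], Finset.subset_univ _⟩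
  by_cases hbig : ∃ t, I < 2 * fib t
  · obtain ⟨t, ht⟩ := hbig
    set r := fib t with hr
    have hother : ∀ s, s ≠ t → fib s + r ≤ I := fun s hs => by
      rw [hr, hfib, hId, ← Finset.card_univ, ← Finset.card_union_of_disjoint]
      · exact Finset.card_le_univ _
      · exact Finset.disjoint_filter.mpr fun i _ e1 e2 => hs (e1.symm.trans e2)
    obtain ⟨j₁, hj₁⟩ : ∃ j, -v j ≠ t := by
      by_contra hc
      push Not at hc
      obtain ⟨a, c, hne⟩ := hv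
      exact hne (neg_injective ((hc a).trans (hc c).symm))
    have hle : ∀ j, I - r ≤ (Finset.univ.filter fun i => u i + v j ≠ 0).card := fun j => by
      have := hcol j
      by_cases h : -v j = t
      · rw [h] at this; omega
      · have := hother _ h; omega
    rw [← Finset.add_sum_erase _ _ (Finset.mem_univ j₁)] at hfew
    have h1 : r ≤ (Finset.univ.filter fun i => u i + v j₁ ≠ 0).card := by
      have := hcol j₁; have := hother _ hj₁; omega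
    have h2 := Finset.card_nsmul_le_sum (Finset.univ.erase j₁) _ (I - r) (fun j _ => hle j)
    rw [Finset.card_erase_of_mem (Finset.mem_univ _), Finset.card_univ, smul_eq_mul] at h2
    have hr1 : 1 ≤ I - r := by have := hfibI t; omega
    have h3 : (J - 2) * 1 ≤ (J - 2) * (I - r) := Nat.mul_le_mul_left _ hr1
    have h4 : (J - 1) * (I - r) = (J - 2) * (I - r) + (I - r) := by
      rw [← Nat.succ_mul]; congr 1; omega
    have h5 := hfibI t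
    rw [← hJd] at h2
    omega
  · push Not at hbig
    have h2 := Finset.card_nsmul_le_sum (Finset.univ : Finset κ) _ ((I + 1) / 2) (fun j _ => by
      show (I + 1) / 2 ≤ (Finset.univ.filter fun i => u i + v j ≠ 0).card
      have := hcol j; have := hbig (-v j); omega)
    rw [Finset.card_univ, smul_eq_mul, ← hJd] at h2
    have h3 : (I + 2) * ((I + 1) / 2) ≤ J * ((I + 1) / 2) := Nat.mul_le_mul_right _ hIJ
    have h4 : 2 ≤ (I + 1) / 2 := by omega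
    have h5 : (I + 2) * 2 ≤ (I + 2) * ((I + 1) / 2) := Nat.mul_le_mul_left _ h4
    omega

include hW in
/-- Few nonzero coefficients: a row, a column, or nothing. -/
theorem ti_trichotomy (hodd : Odd (Nat.card ↥(W₁ ⊔ W₂))) (hχ : IsCyclicTIFamily W₁ W₂ χ)
    (hlt : Nat.card W₁ < Nat.card W₂) {θ : G → ℂ} (hθ : IsClassFunction G θ)
    (hθV : ∀ w : ↥(W₁ ⊔ W₂), (w : G) ∉ W₁ → (w : G) ∉ W₂ → θ w = 0)
    (hfew : Nat.card {ω : ↥(W₁ ⊔ W₂) →* ℂˣ // classInner θ (χ ω) ≠ 0} < 2 * Nat.card W₁) :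
    (∀ ω, classInner θ (χ ω) = 0) ∨
      (∃ (ψ₀ : ↥(W₁ ⊔ W₂) →* ℂˣ) (a : ℂ), IsRight ψ₀ ∧ ∀ φ ψ, IsLeft φ → IsRight ψ →
        (ψ = ψ₀ → classInner θ (χ (φ * ψ)) = a) ∧ (ψ ≠ ψ₀ → classInner θ (χ (φ * ψ)) = 0)) ∨
      (∃ (φ₀ : ↥(W₁ ⊔ W₂) →* ℂˣ) (a : ℂ), IsLeft φ₀ ∧ ∀ φ ψ, IsLeft φ → IsRight ψ →
        (φ = φ₀ → classInner θ (χ (φ * ψ)) = a) ∧ (φ ≠ φ₀ → classInner θ (χ (φ * ψ)) = 0)) := by
  classical
  obtain ⟨hne₁, -, hdisj, hcomm, hcyc, -⟩ := id hW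
  haveI := hcyc
  haveI hc₁ : IsCyclic W₁ := Subgroup.isCyclic_of_le (le_sup_left : W₁ ≤ W₁ ⊔ W₂)
  haveI hc₂ : IsCyclic W₂ := Subgroup.isCyclic_of_le (le_sup_right : W₂ ≤ W₁ ⊔ W₂)
  letI : CommGroup ↥(W₁ ⊔ W₂) := IsCyclic.commGroup
  haveI : Finite (↥(W₁ ⊔ W₂) →* ℂˣ) := Finite.of_injective
    (fun f => (⟨fun g => (f g : ℂ), isIrrCharacter_hom f⟩ : IrrCharacter ↥(W₁ ⊔ W₂)))
    fun a b e => homFn_injective (congrArg Subtype.val e)
  haveI := Fintype.ofFinite {φ : ↥(W₁ ⊔ W₂) →* ℂˣ // IsLeft φ}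
  haveI := Fintype.ofFinite {ψ : ↥(W₁ ⊔ W₂) →* ℂˣ // IsRight ψ}
  have hfull : ∀ (U : Subgroup G), IsCyclic U → Nat.card (U →* ℂˣ) = Nat.card U := fun U hU => by
    letI := @IsCyclic.commGroup _ _ hU
    rw [Nat.card_congr linCharEquiv, Nat.card_congr (Equiv.subtypeUnivEquiv fun χ =>
      irr_degree_one_of_comm (fun a b : U => mul_comm a b) χ.2), card_irrCharacter,
      Nat.card_congr (ConjClasses.mkEquiv (α := U)).symm]
  have hres : ∀ (U : Subgroup G) (hU : U ≤ W₁ ⊔ W₂) (P : (↥(W₁ ⊔ W₂) →* ℂˣ) → Prop),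
      IsCyclic U → (∀ a b, P a → P b → (∀ w : ↥(W₁ ⊔ W₂), (w : G) ∈ U → a w = b w) → a = b) →
      (∀ l : U →* ℂˣ, ∃ a, P a ∧ ∀ w : U, a (Subgroup.inclusion hU w) = l w) →
      Nat.card {a // P a} = Nat.card U := fun U hU P hUc hinj hsurj => by
    rw [← hfull U hUc]
    refine Nat.card_congr (Equiv.ofBijective (fun a => a.1.comp (Subgroup.inclusion hU))
      ⟨fun a b e => Subtype.ext (hinj _ _ a.2 b.2 fun w hw => ?_), fun l => ?_⟩)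
    · exact DFunLike.congr_fun e ⟨(w : G), hw⟩
    · obtain ⟨a, ha, he⟩ := hsurj l
      exact ⟨⟨a, ha⟩, MonoidHom.ext he⟩
  set i₁ : W₁ →* ↥(W₁ ⊔ W₂) := Subgroup.inclusion le_sup_left
  set i₂ : W₂ →* ↥(W₁ ⊔ W₂) := Subgroup.inclusion le_sup_right
  let f : W₁ × W₂ →* ↥(W₁ ⊔ W₂) :=
    i₁.noncommCoprod i₂ fun a b => Subtype.ext (hcomm a a.2 b b.2)
  have hf : Function.Bijective f := by
    refine ⟨(injective_iff_map_eq_one f).mpr fun x hx => ?_, fun w => ?_⟩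
    · have h1 : (x.1 : G) * x.2 = 1 := congrArg Subtype.val hx
      have h2 : (x.1 : G) ∈ W₁ ⊓ W₂ :=
        ⟨x.1.2, by rw [mul_eq_one_iff_eq_inv.mp h1]; exact W₂.inv_mem x.2.2⟩
      rw [hdisj, Subgroup.mem_bot] at h2
      rw [h2, one_mul] at h1
      exact Prod.ext (Subtype.ext h2) (Subtype.ext h1)
    · obtain ⟨a, b, ha, hb, rfl⟩ := exists_decomp hcomm w
      exact ⟨(⟨a, ha⟩, ⟨b, hb⟩), rfl⟩
  let e := MulEquiv.ofBijective f hf
  have hcardL : Nat.card {φ : ↥(W₁ ⊔ W₂) →* ℂˣ // IsLeft φ} = Nat.card W₁ := by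
    refine hres W₁ le_sup_left _ hc₁
      (fun a b ha hb h => hom_ext_parts hcomm h fun w hw => by rw [ha w hw, hb w hw])
      fun l => ⟨l.comp ((MonoidHom.fst W₁ W₂).comp e.symm.toMonoidHom), fun w hw => ?_, fun w => ?_⟩
    · have : e.symm w = (1, ⟨(w : G), hw⟩) := e.symm_apply_eq.mpr (Subtype.ext (one_mul _).symm)
      show l (e.symm w).1 = 1
      rw [this, map_one]
    · have : e.symm (i₁ w) = (w, 1) := e.symm_apply_eq.mpr (Subtype.ext (mul_one _).symm)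
      show l (e.symm (i₁ w)).1 = l w
      rw [this]
  have hcardR : Nat.card {ψ : ↥(W₁ ⊔ W₂) →* ℂˣ // IsRight ψ} = Nat.card W₂ := by
    refine hres W₂ le_sup_right _ hc₂
      (fun a b ha hb h => hom_ext_parts hcomm (fun w hw => by rw [ha w hw, hb w hw]) h)
      fun l => ⟨l.comp ((MonoidHom.snd W₁ W₂).comp e.symm.toMonoidHom), fun w hw => ?_, fun w => ?_⟩
    · have : e.symm w = (⟨(w : G), hw⟩, 1) := e.symm_apply_eq.mpr (Subtype.ext (mul_one _).symm)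
      show l (e.symm w).2 = 1
      rw [this, map_one]
    · have : e.symm (i₂ w) = (1, w) := e.symm_apply_eq.mpr (Subtype.ext (one_mul _).symm)
      show l (e.symm (i₂ w)).2 = l w
      rw [this]
  have hodd₁ : Odd (Nat.card W₁) := hodd.of_dvd_nat (Subgroup.card_dvd_of_le le_sup_left)
  have hodd₂ : Odd (Nat.card W₂) := hodd.of_dvd_nat (Subgroup.card_dvd_of_le le_sup_right)
  have hI : 3 ≤ Nat.card W₁ := by
    have h1 := (Subgroup.one_lt_card_iff_ne_bot W₁).mpr hne₁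
    obtain ⟨k, hk⟩ := hodd₁; omega
  have hJ : Nat.card W₁ + 2 ≤ Nat.card W₂ := by
    obtain ⟨k, hk⟩ := hodd₁; obtain ⟨l, hl⟩ := hodd₂; omega
  let u : {φ : ↥(W₁ ⊔ W₂) →* ℂˣ // IsLeft φ} → ℂ := fun φ => classInner θ (χ φ.1)
  let v : {ψ : ↥(W₁ ⊔ W₂) →* ℂˣ // IsRight ψ} → ℂ := fun ψ =>
    classInner θ (χ ψ.1) - classInner θ (χ 1)
  have hval : ∀ φ ψ, classInner θ (χ (φ.1 * ψ.1)) = u φ + v ψ := fun φ ψ => by
    rw [ti_rectangle hW hχ hθ hθV φ.2 ψ.2]; ring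
  have hfew' : Nat.card {p : {φ : ↥(W₁ ⊔ W₂) →* ℂˣ // IsLeft φ} × {ψ : ↥(W₁ ⊔ W₂) →* ℂˣ // IsRight ψ} //
      u p.1 + v p.2 ≠ 0} < 2 * Fintype.card {φ : ↥(W₁ ⊔ W₂) →* ℂˣ // IsLeft φ} := by
    rw [← Nat.card_eq_fintype_card (α := {φ : ↥(W₁ ⊔ W₂) →* ℂˣ // IsLeft φ}), hcardL]
    refine lt_of_le_of_lt (Nat.card_le_card_of_injective
      (fun p => (⟨p.1.1.1 * p.1.2.1, by rw [hval]; exact p.2⟩ :
        {ω : ↥(W₁ ⊔ W₂) →* ℂˣ // classInner θ (χ ω) ≠ 0})) fun p q h => ?_) hfew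
    obtain ⟨h1, h2⟩ := eq_and_eq_of_mul_eq hcomm p.1.1.2 q.1.1.2 p.1.2.2 q.1.2.2
      (congrArg Subtype.val h)
    exact Subtype.ext (Prod.ext (Subtype.ext h1) (Subtype.ext h2))
  rcases few_nonzero u v (by rwa [← Nat.card_eq_fintype_card, hcardL])
    (by rwa [← Nat.card_eq_fintype_card, ← Nat.card_eq_fintype_card, hcardL, hcardR]) hfew' with
    h | ⟨j₀, a, h1, h2⟩ | ⟨i₀, a, h1, h2⟩
  · refine .inl fun ω => ?_
    obtain ⟨φ, ψ, hφ, hψ, rfl⟩ := exists_split hdisj hcomm ω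
    rw [hval ⟨φ, hφ⟩ ⟨ψ, hψ⟩]; exact h _ _
  · exact .inr (.inl ⟨j₀.1, a, j₀.2, fun φ ψ hφ hψ =>
      ⟨fun e => by rw [hval ⟨φ, hφ⟩ ⟨ψ, hψ⟩, show (⟨ψ, hψ⟩ : {x // IsRight x}) = j₀ from Subtype.ext e]; exact h1 _,
       fun e => by rw [hval ⟨φ, hφ⟩ ⟨ψ, hψ⟩]; exact h2 _ _ fun he => e (congrArg Subtype.val he)⟩⟩)
  · exact .inr (.inr ⟨i₀.1, a, i₀.2, fun φ ψ hφ hψ =>
      ⟨fun e => by rw [hval ⟨φ, hφ⟩ ⟨ψ, hψ⟩, show (⟨φ, hφ⟩ : {x // IsLeft x}) = i₀ from Subtype.ext e]; exact h1 _,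
       fun e => by rw [hval ⟨φ, hφ⟩ ⟨ψ, hψ⟩]; exact h2 _ (fun he => e (congrArg Subtype.val he)) _⟩⟩)

end CfsgLib.Char
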