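import Cfsg.Agent.Lib.CharCyclicTI
import Cfsg.Agent.Lib.CharGalois

/-!
# Galois action on a cyclic trivial-intersection family
-/

set_option autoImplicit false
set_option linter.style.haveILetI false
set_option linter.unusedSectionVars false

namespace CfsgLib.Char

open Cfsg
open scoped ComplexConjugate

universe u

variable {G : Type u} [Group G] {W₁ W₂ : Subgroup G}

/-- A linear character constant `ε = ±1` outside both factors is trivial. -/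
theorem hom_eq_one_of_const (hdisj : W₁ ⊓ W₂ = ⊥) (hcomm : ∀ a ∈ W₁, ∀ b ∈ W₂, a * b = b * a)
    (hne₁ : W₁ ≠ ⊥) (hne₂ : W₂ ≠ ⊥) [Finite G] (hodd : Odd (Nat.card ↥(W₁ ⊔ W₂)))
    (ρ : ↥(W₁ ⊔ W₂) →* ℂˣ) (ε : ℂˣ)
    (h : ∀ w : ↥(W₁ ⊔ W₂), (w : G) ∉ W₁ → (w : G) ∉ W₂ → ρ w = ε) : ρ = 1 := by
  have hV : ∀ a b : ↥(W₁ ⊔ W₂), (a : G) ∈ W₁ → (b : G) ∈ W₂ → a ≠ 1 → b ≠ 1 →
      ρ a * ρ b = ε := by
    intro a b ha hb ha1 hb1
    rw [← map_mul]
    refine h _ (fun hm => hb1 (Subtype.ext ?_)) fun hm => ha1 (Subtype.ext ?_)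
    · have : (b : G) ∈ W₁ ⊓ W₂ := ⟨by
        simpa using W₁.mul_mem (W₁.inv_mem ha) hm, hb⟩
      rwa [hdisj, Subgroup.mem_bot] at this
    · have : (a : G) ∈ W₁ ⊓ W₂ := ⟨ha, by
        simpa using W₂.mul_mem hm (W₂.inv_mem hb)⟩
      rwa [hdisj, Subgroup.mem_bot] at this
  have hsq : ∀ a : ↥(W₁ ⊔ W₂), a ≠ 1 → a * a ≠ 1 := fun a ha e => ha (by
    rw [← orderOf_eq_one_iff]
    have h1 : orderOf a ∣ 2 := orderOf_dvd_of_pow_eq_one (by rw [sq]; exact e)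
    obtain ⟨k, hk⟩ := hodd.of_dvd_nat (orderOf_dvd_natCard a)
    rcases (Nat.dvd_prime Nat.prime_two).mp h1 with h2 | h2 <;> omega)
  obtain ⟨⟨a₀, ha₀⟩, hane⟩ := W₁.ne_bot_iff_exists_ne_one.mp hne₁
  obtain ⟨⟨b₀, hb₀⟩, hbne⟩ := W₂.ne_bot_iff_exists_ne_one.mp hne₂
  set a : ↥(W₁ ⊔ W₂) := ⟨a₀, Subgroup.mem_sup_left ha₀⟩
  set b : ↥(W₁ ⊔ W₂) := ⟨b₀, Subgroup.mem_sup_right hb₀⟩
  have ha1 : a ≠ 1 := fun e => hane (Subtype.ext (show a₀ = 1 from congrArg (fun x : ↥(W₁ ⊔ W₂) => (x : G)) e))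
  have hb1 : b ≠ 1 := fun e => hbne (Subtype.ext (show b₀ = 1 from congrArg (fun x : ↥(W₁ ⊔ W₂) => (x : G)) e))
  have hb : ρ b = 1 := by
    have h1 := hV a b ha₀ hb₀ ha1 hb1
    have h2 := hV a (b * b) ha₀ (W₂.mul_mem hb₀ hb₀) ha1 (hsq b hb1)
    rw [map_mul, ← mul_assoc, h1] at h2
    exact mul_eq_left.mp h2
  have ha : ρ a = 1 := by
    have h1 := hV a b ha₀ hb₀ ha1 hb1
    have h2 := hV (a * a) b (W₁.mul_mem ha₀ ha₀) hb₀ (hsq a ha1) hb1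
    rw [hb, mul_one] at h1 h2
    rw [map_mul, h1] at h2
    rw [h1]
    exact mul_eq_left.mp h2
  have hε : ε = 1 := by rw [← hV a b ha₀ hb₀ ha1 hb1, ha, hb, mul_one]
  refine hom_ext_parts hcomm (fun w hw => ?_) fun w hw => ?_
  · by_cases hw1 : w = 1
    · rw [hw1, map_one, map_one]
    · have h1 := hV w b hw hb₀ hw1 hb1
      rwa [hb, mul_one, hε] at h1
  · by_cases hw1 : w = 1
    · rw [hw1, map_one, map_one]
    · have h1 := hV a w ha₀ hw ha1 hw1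
      rwa [ha, one_mul, hε] at h1

variable [Fintype G] {χ : (↥(W₁ ⊔ W₂) →* ℂˣ) → (G → ℂ)}

/-- The Galois conjugate of a member of the family. -/
theorem ti_powTwist (hW : IsSelfNormalizingCyclic W₁ W₂) (hodd : Odd (Nat.card ↥(W₁ ⊔ W₂)))
    (hχ : IsCyclicTIFamily W₁ W₂ χ) {k : ℕ} (hk : k.Coprime (Nat.card G))
    (ω : ↥(W₁ ⊔ W₂) →* ℂˣ) : powTwist k (χ ω) = χ (ω ^ k) := by
  classical
  obtain ⟨hne₁, hne₂, hdisj, hcomm, hcyc, -⟩ := id hW
  have hneg : ∀ f : G → ℂ, powTwist k (-f) = -powTwist k f := fun f => rfl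
  obtain ⟨s, ψ, hψ, hs, he⟩ : ∃ (s : ℂ) (ψ : G → ℂ), IsIrrCharacter G ψ ∧ (s = 1 ∨ s = -1) ∧
      powTwist k (χ ω) = s • ψ := by
    rcases hχ.irr_or_neg ω with h | h
    · exact ⟨1, _, powTwist_irr hk h, .inl rfl, (one_smul ℂ _).symm⟩
    · exact ⟨-1, _, powTwist_irr hk h, .inr rfl, by rw [hneg, neg_one_smul, neg_neg]⟩
  have hval : ∀ v : ↥(W₁ ⊔ W₂), (v : G) ∉ W₁ → (v : G) ∉ W₂ →
      powTwist k (χ ω) v = ((ω ^ k) v : ℂ) := by
    intro v h1 h2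
    have h := hχ.eq_on ω (v ^ k) (fun h => h1 ((coprime_mem_pow hk W₁).mp h))
      (fun h => h2 ((coprime_mem_pow hk W₂).mp h))
    show χ ω ((v : G) ^ k) = _
    rw [← Subgroup.coe_pow, h, map_pow, MonoidHom.pow_apply]
  -- an element outside both factors
  obtain ⟨v, hv1, hv2⟩ : ∃ v : ↥(W₁ ⊔ W₂), (v : G) ∉ W₁ ∧ (v : G) ∉ W₂ := by
    by_contra hcon
    push Not at hcon
    obtain ⟨⟨a₀, ha₀⟩, hane⟩ := W₁.ne_bot_iff_exists_ne_one.mp hne₁
    obtain ⟨⟨b₀, hb₀⟩, hbne⟩ := W₂.ne_bot_iff_exists_ne_one.mp hne₂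
    have h := hcon ⟨a₀ * b₀, Subgroup.mul_mem_sup ha₀ hb₀⟩
    by_cases hm : a₀ * b₀ ∈ W₁
    · have : b₀ ∈ W₁ ⊓ W₂ := ⟨by simpa using W₁.mul_mem (W₁.inv_mem ha₀) hm, hb₀⟩
      rw [hdisj, Subgroup.mem_bot] at this
      exact hbne (Subtype.ext this)
    · have : a₀ ∈ W₁ ⊓ W₂ := ⟨ha₀, by simpa using W₂.mul_mem (h hm) (W₂.inv_mem hb₀)⟩
      rw [hdisj, Subgroup.mem_bot] at this
      exact hane (Subtype.ext this)
  have hψv : s * ψ v = ((ω ^ k) v : ℂ) := by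
    rw [← hval v hv1 hv2, he, Pi.smul_apply, smul_eq_mul]
  obtain ⟨ω', hω'⟩ : ∃ ω', classInner ψ (χ ω') ≠ 0 := by
    by_contra hcon
    push Not at hcon
    have h := ti_vanish hW hχ (isCharacter_classFunction hψ.isCharacter') hcon v hv1 hv2
    rw [h, mul_zero] at hψv
    exact Units.ne_zero _ hψv.symm
  obtain ⟨t, ht, hψt⟩ : ∃ t : ℂ, (t = 1 ∨ t = -1) ∧ ψ = t • χ ω' := by
    rcases hχ.irr_or_neg ω' with h | h
    · refine ⟨1, .inl rfl, ?_⟩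
      rw [one_smul]
      by_contra hne
      exact hω' (irr_inner_ne hψ h hne)
    · refine ⟨-1, .inr rfl, ?_⟩
      rw [neg_one_smul]
      by_contra hne
      exact hω' (by rw [← neg_neg (χ ω'), inner_neg_right, irr_inner_ne hψ h hne, neg_zero])
  have hst : s * t ≠ 0 := by rcases hs with rfl | rfl <;> rcases ht with rfl | rfl <;> norm_num
  have key : ∀ w : ↥(W₁ ⊔ W₂), (w : G) ∉ W₁ → (w : G) ∉ W₂ →
      ((ω ^ k) w : ℂ) = s * t * (ω' w : ℂ) := fun w h1 h2 => by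
    rw [← hval w h1 h2, he, hψt, Pi.smul_apply, Pi.smul_apply, hχ.eq_on ω' w h1 h2, smul_eq_mul,
      smul_eq_mul, mul_assoc]
  have hone : ω ^ k * ω'⁻¹ = 1 :=
    hom_eq_one_of_const hdisj hcomm hne₁ hne₂ hodd _ (Units.mk0 _ hst) fun w h1 h2 => by
      refine Units.ext ?_
      rw [MonoidHom.mul_apply, MonoidHom.inv_apply, Units.val_mul, Units.val_inv_eq_inv_val,
        key w h1 h2, mul_assoc, mul_inv_cancel₀ (Units.ne_zero _), mul_one, Units.val_mk0]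
  have hωe : ω ^ k = ω' := by
    refine MonoidHom.ext fun w => ?_
    have h := DFunLike.congr_fun hone w
    simp only [MonoidHom.mul_apply, MonoidHom.inv_apply, MonoidHom.one_apply, mul_inv_eq_one] at h
    exact h
  have hst1 : s * t = 1 := by
    have h := key v hv1 hv2
    rw [hωe] at h
    exact (mul_eq_right₀ (Units.ne_zero _)).mp h.symm
  rw [he, hψt, smul_smul, hst1, one_smul, hωe]

/-- Integrality of a family member at elements of order coprime to the linear character. -/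
theorem ti_value_int (hW : IsSelfNormalizingCyclic W₁ W₂) (hodd : Odd (Nat.card ↥(W₁ ⊔ W₂)))
    (hχ : IsCyclicTIFamily W₁ W₂ χ) (ω : ↥(W₁ ⊔ W₂) →* ℂˣ) (g : G)
    (hg : Nat.Coprime (orderOf g) (orderOf ω)) : ∃ n : ℤ, χ ω g = (n : ℂ) := by
  set n := Nat.card G with hn
  have hn0 : 0 < n := Nat.card_pos
  set ζ := Complex.exp (2 * Real.pi * Complex.I / n) with hζd
  have hζ : IsPrimitiveRoot ζ n := Complex.isPrimitiveRoot_exp n hn0.ne'
  have hωn : orderOf ω ∣ n := by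
    refine orderOf_dvd_of_pow_eq_one (MonoidHom.ext fun w => ?_)
    rw [MonoidHom.pow_apply, MonoidHom.one_apply, ← map_pow]
    rw [orderOf_dvd_iff_pow_eq_one.mp ((orderOf_dvd_natCard w).trans
      (W₁ ⊔ W₂).card_subgroup_dvd_card), map_one]
  have hdvd : orderOf g * orderOf ω ∣ n := hg.mul_dvd_of_dvd_of_dvd (orderOf_dvd_natCard g) hωn
  have hinv : ∀ k : ℕ, k.Coprime n → χ ω (g ^ k) = χ ω g := by
    intro k hk
    obtain ⟨m, hm1, hm2⟩ := Nat.chineseRemainder hg k 1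
    have c1 : m.Coprime (orderOf g) := by
      rw [Nat.Coprime, hm1.gcd_eq]; exact hk.coprime_dvd_right (orderOf_dvd_natCard g)
    have c2 : m.Coprime (orderOf ω) := by rw [Nat.Coprime, hm2.gcd_eq]; exact Nat.coprime_one_left _
    obtain ⟨j, hj, hjm⟩ := exists_coprime_congr hn0 hdvd (c1.mul_right c2)
    have hj1 : j ≡ k [MOD orderOf g] := (hjm.of_dvd (dvd_mul_right _ _)).trans hm1
    have hj2 : j ≡ 1 [MOD orderOf ω] := (hjm.of_dvd (dvd_mul_left _ _)).trans hm2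
    have h := congrFun (ti_powTwist hW hodd hχ hj ω) g
    have hωj : ω ^ j = ω := MonoidHom.ext fun w => by
      have h1 : (ω w) ^ orderOf ω = 1 := by
        have h0 := DFunLike.congr_fun (pow_orderOf_eq_one ω) w
        rwa [MonoidHom.pow_apply, MonoidHom.one_apply] at h0
      rw [MonoidHom.pow_apply, pow_eq_pow_mod j h1, hj2, ← pow_eq_pow_mod 1 h1, pow_one]
    rw [hωj] at h
    rw [← h, powTwist, pow_eq_pow_iff_modEq.mpr hj1]
  rcases hχ.irr_or_neg ω with hirr | hirr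
  · obtain ⟨Q, hQ⟩ := hasGalPoly_char hζ hirr.isCharacter' g
    obtain ⟨q, hq⟩ := rat_of_invariant hn0 hζ Q (χ ω g) fun k hk => by rw [← hQ k hk, hinv k hk]
    obtain ⟨z, hz⟩ := int_of_isIntegral_rat q (hq ▸ isCharacter_isIntegral hirr.isCharacter' g)
    exact ⟨z, by rw [hq, ← hz, Rat.cast_intCast]⟩
  · obtain ⟨Q, hQ⟩ := hasGalPoly_char hζ hirr.isCharacter' g
    obtain ⟨q, hq⟩ := rat_of_invariant hn0 hζ Q ((-χ ω) g) fun k hk => by
      rw [← hQ k hk, Pi.neg_apply, hinv k hk, Pi.neg_apply]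
    obtain ⟨z, hz⟩ := int_of_isIntegral_rat q (hq ▸ isCharacter_isIntegral hirr.isCharacter' g)
    exact ⟨-z, by rw [← neg_neg (χ ω g), ← Pi.neg_apply (χ ω) g, hq, ← hz, Rat.cast_intCast, Int.cast_neg]⟩

end CfsgLib.Char
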