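import Cfsg.Agent.Lib.CharInd

/-!
# Pairs of involutions with product in a T.I. set
-/

set_option autoImplicit false
set_option linter.unusedSectionVars false

namespace CfsgLib.Char

open Cfsg

universe u

variable {G : Type u} [Group G]

theorem ti_involution_pair_sum [Fintype G] (H : Subgroup G) (S : Set G)
    (hTI : ∀ g : G, g ∉ H → ∀ s ∈ S, g * s * g⁻¹ ∉ S) (hSH : S ⊆ H) (hinv : ∀ s ∈ S, s⁻¹ ∈ S)
    (φ : H → ℂ) (hφS : ∀ x : H, (x : G) ∉ S → φ x = 0) (u v : G) (hu : orderOf u = 2)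
    (hv : orderOf v = 2) :
    ∑ᶠ p ∈ {p : G × G | IsConj u p.1 ∧ IsConj v p.2}, indFun H φ (p.1 * p.2) =
      (H.index : ℂ) * ∑ᶠ p ∈ {p : H × H | IsConj u (p.1 : G) ∧ IsConj v (p.2 : G)}, φ (p.1 * p.2) := by
  classical
  haveI := Fintype.ofFinite H
  have hsq : ∀ w a : G, orderOf w = 2 → IsConj w a → a * a = 1 := by
    intro w a hw h
    obtain ⟨c, rfl⟩ := isConj_iff.mp h
    have h2 : w * w = 1 := by rw [← sq, ← hw, pow_orderOf_eq_one]
    rw [show c * w * c⁻¹ * (c * w * c⁻¹) = c * (w * w) * c⁻¹ by group, h2, mul_one, mul_inv_cancel]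
  set C : Finset (G × G) := Finset.univ.filter fun p => IsConj u p.1 ∧ IsConj v p.2
  set D : Finset (H × H) := Finset.univ.filter fun p => IsConj u (p.1 : G) ∧ IsConj v (p.2 : G)
  have hC : {p : G × G | IsConj u p.1 ∧ IsConj v p.2} = (C : Set (G × G)) := by ext; simp [C]
  have hD : {p : H × H | IsConj u (p.1 : G) ∧ IsConj v (p.2 : G)} = (D : Set (H × H)) := by
    ext; simp [D]
  rw [hC, hD, finsum_mem_coe_finset, finsum_mem_coe_finset]
  simp only [indFun]
  rw [← Finset.mul_sum, Finset.sum_comm]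
  have hinvar : ∀ x : G, ∑ p ∈ C, extendByZero H φ (x⁻¹ * (p.1 * p.2) * x) =
      ∑ p ∈ C, extendByZero H φ (p.1 * p.2) := by
    intro x
    refine Finset.sum_equiv ((MulAut.conj x⁻¹).toEquiv.prodCongr (MulAut.conj x⁻¹).toEquiv)
      (fun p => ?_) (fun p _ => ?_)
    · simp only [C, Finset.mem_filter, Finset.mem_univ, true_and, Equiv.prodCongr_apply,
        Prod.map_fst, Prod.map_snd, MulEquiv.toEquiv_eq_coe, MulEquiv.coe_toEquiv]
      have key : ∀ w a : G, IsConj w a ↔ IsConj w (MulAut.conj x⁻¹ a) := fun w a =>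
        have hc : IsConj a (MulAut.conj x⁻¹ a) := isConj_iff.mpr ⟨x⁻¹, rfl⟩
        ⟨fun h => h.trans hc, fun h => h.trans hc.symm⟩
      exact and_congr (key u _) (key v _)
    · simp only [Equiv.prodCongr_apply, Prod.map_fst, Prod.map_snd, MulEquiv.toEquiv_eq_coe,
        MulEquiv.coe_toEquiv, MulAut.conj_apply, inv_inv]
      congr 1
      group
  simp only [hinvar, Finset.sum_const, nsmul_eq_mul, Finset.card_univ, ← Nat.card_eq_fintype_card]
  rw [← mul_assoc]
  have hidx : (Nat.card H : ℂ)⁻¹ * (Nat.card G : ℂ) = (H.index : ℂ) := by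
    rw [← Subgroup.card_mul_index H, Nat.cast_mul, ← mul_assoc,
      inv_mul_cancel₀ (Nat.cast_ne_zero.mpr Nat.card_pos.ne'), one_mul]
  rw [hidx]
  congr 1
  symm
  refine Finset.sum_of_injOn (fun p => ((p.1 : G), (p.2 : G))) ?_ ?_ ?_ ?_
  · intro p _ q _ h
    simp only [Prod.mk.injEq] at h
    exact Prod.ext (Subtype.ext h.1) (Subtype.ext h.2)
  · intro p hp
    simpa [C, D] using hp
  · intro p hp hnot
    obtain ⟨hp1, hp2⟩ := (Finset.mem_filter.mp hp).2
    by_cases hs : p.1 * p.2 ∈ S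
    · exfalso
      have h1 : p.1 ∈ H := by
        by_contra h
        refine hTI p.1 h _ hs ?_
        have e : p.1 * (p.1 * p.2) * p.1⁻¹ = (p.1 * p.2)⁻¹ := by
          rw [← mul_assoc p.1, hsq u p.1 hu hp1, one_mul, mul_inv_rev,
            show p.2⁻¹ = p.2 from inv_eq_of_mul_eq_one_left (hsq v p.2 hv hp2)]
        rw [e]
        exact hinv _ hs
      have h2 : p.2 ∈ H := (H.mul_mem_cancel_left h1).mp (hSH hs)
      exact hnot ⟨(⟨p.1, h1⟩, ⟨p.2, h2⟩),
        Finset.mem_coe.mpr (Finset.mem_filter.mpr ⟨Finset.mem_univ _, hp1, hp2⟩), rfl⟩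
    · by_cases hm : p.1 * p.2 ∈ H
      · rw [extendByZero_mem _ hm]; exact hφS ⟨_, hm⟩ hs
      · rw [extendByZero_not_mem _ hm]
  · intro p _
    rw [extendByZero_mem _ (H.mul_mem p.1.2 p.2.2)]
    rfl

end CfsgLib.Char
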