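import Cfsg.Agent.Lib.CharCongr
import Cfsg.Agent.Lib.CharInd
import Cfsg.Agent.Lib.CharBrauer2
import Cfsg.Agent.Lib.CharVirtual
import Cfsg.Agent.Lib.CharTIPair
import Cfsg.Agent.Lib.TransferApps
import Cfsg.Agent.Lib.TwoFusionStrong
import Mathlib

/-!
# Perfect groups with an involution centralizer dihedral of order eight
-/

set_option autoImplicit false
set_option linter.unusedSectionVars false
set_option linter.style.haveILetI false

namespace CfsgLib.DEight

open Cfsg CfsgLib.Char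
open scoped ComplexConjugate

universe u

/-- The difference on rotations used for the first exceptional function. -/
def alphaTab : DihedralGroup 4 → ℤ
  | .r i => if i = 2 then 4 else if i = 0 then 0 else 2
  | .sr _ => 0

/-- The difference on rotations used for the second exceptional function. -/
def gammaTab : DihedralGroup 4 → ℤ
  | .r i => if i = 1 ∨ i = 3 then 4 else 0
  | .sr _ => 0

/-- The two-dimensional representation. -/
def twoRep : DihedralGroup 4 → Matrix (Fin 2) (Fin 2) ℤ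
  | .r i => !![0, -1; 1, 0] ^ i.val
  | .sr i => !![1, 0; 0, -1] * !![0, -1; 1, 0] ^ i.val

/-- The linear representations. -/
def linRep (a b : ℤ) : DihedralGroup 4 → Matrix (Fin 1) (Fin 1) ℤ
  | .r i => !![a ^ i.val]
  | .sr i => !![b * a ^ i.val]

variable {H : Type u} [Group H]

/-- The trace of an integral representation is a character. -/
theorem isCharacter_trace {m : ℕ} (e : H ≃* DihedralGroup 4) (M : DihedralGroup 4 → Matrix (Fin m) (Fin m) ℤ)
    (h1 : M 1 = 1) (hM : ∀ x y, M (x * y) = M x * M y) :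
    IsCharacter H (fun h => ((Matrix.trace (M (e h)) : ℤ) : ℂ)) := by
  let f : H →* Matrix (Fin m) (Fin m) ℂ :=
    { toFun := fun h => (M (e h)).map (Int.castRingHom ℂ)
      map_one' := by rw [map_one, h1]; simp
      map_mul' := fun x y => by rw [map_mul, hM, Matrix.map_mul] }
  let ρ : Representation ℂ H (Fin m → ℂ) :=
    ((Matrix.toLinAlgEquiv' : Matrix (Fin m) (Fin m) ℂ ≃ₐ[ℂ] _).toMonoidHom).comp f
  refine ⟨m, ρ, funext fun h => ?_⟩
  show LinearMap.trace ℂ _ (Matrix.toLin' (f h)) = _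
  rw [Matrix.trace_toLin'_eq]
  simp [f, Matrix.trace, Matrix.diag]

theorem sum_d8 {A : Type*} [AddCommMonoid A] (F : DihedralGroup 4 → A) :
    ∑ d, F d = F (.r 0) + F (.r 1) + F (.r 2) + F (.r 3) +
      (F (.sr 0) + F (.sr 1) + F (.sr 2) + F (.sr 3)) := by
  have h : (Finset.univ : Finset (DihedralGroup 4)) =
      {.r 0, .r 1, .r 2, .r 3, .sr 0, .sr 1, .sr 2, .sr 3} := by decide
  rw [h]
  repeat rw [Finset.sum_insert (by decide)]
  rw [Finset.sum_singleton]
  simp only [add_assoc]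

/-- The combinatorics of the coefficients. -/
theorem coefficients {ι : Type*} [Fintype ι] [DecidableEq ι] (a g : ι → ℤ) (i₀ : ι) (ha0 : a i₀ = 1)
    (hg0 : g i₀ = 1) (haa : ∑ i, a i ^ 2 = 3) (hgg : ∑ i, g i ^ 2 = 4) (hag : ∑ i, a i * g i = 2) :
    ∃ s o, s ≠ i₀ ∧ o ≠ i₀ ∧ s ≠ o ∧ a s ^ 2 = 1 ∧ g s = a s ∧ a o ^ 2 = 1 ∧ g o = 0 ∧
      ∀ i, i ≠ i₀ → i ≠ s → i ≠ o → a i = 0 := by
  set R := Finset.univ.erase i₀ with hR
  have e1 : ∑ i ∈ R, a i ^ 2 = 2 := by
    rw [← Finset.add_sum_erase _ _ (Finset.mem_univ i₀), ha0] at haa; rw [hR]; omega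
  have e2 : ∑ i ∈ R, g i ^ 2 = 3 := by
    rw [← Finset.add_sum_erase _ _ (Finset.mem_univ i₀), hg0] at hgg; rw [hR]; omega
  have e3 : ∑ i ∈ R, a i * g i = 1 := by
    rw [← Finset.add_sum_erase _ _ (Finset.mem_univ i₀), ha0, hg0] at hag; rw [hR]; omega
  have hsmall : ∀ i ∈ R, a i ^ 2 ≤ 1 ∧ g i ^ 2 ≤ 1 := by
    intro i hi
    have h1 : a i ^ 2 ≤ 2 := e1 ▸ Finset.single_le_sum (f := fun i => a i ^ 2) (fun _ _ => sq_nonneg _) hi
    have h2 : g i ^ 2 ≤ 3 := e2 ▸ Finset.single_le_sum (f := fun i => g i ^ 2) (fun _ _ => sq_nonneg _) hi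
    refine ⟨?_, ?_⟩
    · have hu : a i ≤ 1 := by nlinarith
      have hl : -1 ≤ a i := by nlinarith
      nlinarith
    · have hu : g i ≤ 1 := by nlinarith
      have hl : -1 ≤ g i := by nlinarith
      nlinarith
  set S := R.filter fun i => a i ≠ 0 with hS
  have hsq : ∀ i ∈ S, a i ^ 2 = 1 := fun i hi => by
    obtain ⟨hiR, hne⟩ := Finset.mem_filter.mp hi
    have := (hsmall i hiR).1
    have := sq_pos_of_ne_zero hne
    omega
  have hS2 : ∑ i ∈ S, a i ^ 2 = 2 := by
    have h9 := Finset.sum_filter_of_ne (s := R) (p := fun i => a i ≠ 0) (f := fun i => a i ^ 2)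
      (fun i _ hne hz => hne (by simp only [hz]; norm_num))
    exact h9.trans e1
  have hcard : S.card = 2 := by
    rw [Finset.sum_congr rfl hsq, Finset.sum_const, nsmul_one] at hS2
    exact_mod_cast hS2
  obtain ⟨p, q, hpq, hSpq⟩ := Finset.card_eq_two.mp hcard
  have hag' : a p * g p + a q * g q = 1 := by
    rw [← Finset.sum_pair (f := fun i => a i * g i) hpq, ← hSpq, hS, ← e3]
    exact Finset.sum_filter_of_ne fun i _ hne hz => hne (by rw [hz, zero_mul])
  have hp : p ∈ S := hSpq ▸ Finset.mem_insert_self _ _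
  have hq : q ∈ S := hSpq ▸ Finset.mem_insert_of_mem (Finset.mem_singleton_self q)
  have hpR := (Finset.mem_filter.mp hp).1
  have hqR := (Finset.mem_filter.mp hq).1
  have hrest : ∀ i, i ≠ i₀ → i ≠ p → i ≠ q → a i = 0 := by
    intro i hi hip hiq
    by_contra hne
    have : i ∈ S := Finset.mem_filter.mpr ⟨Finset.mem_erase.mpr ⟨hi, Finset.mem_univ i⟩, hne⟩
    rw [hSpq, Finset.mem_insert, Finset.mem_singleton] at this
    tauto
  have key : ∀ x y : ℤ, x ^ 2 = 1 → y ^ 2 ≤ 1 → (x * y = 1 → y = x) ∧ (x * y = 0 → y = 0) ∧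
      (x * y = 1 ∨ x * y = 0 ∨ x * y = -1) := by
    intro x y hx hy
    have : y = -1 ∨ y = 0 ∨ y = 1 := by
      have hu : y ≤ 1 := by nlinarith
      have hl : -1 ≤ y := by nlinarith
      omega
    rcases sq_eq_one_iff.mp hx with rfl | rfl <;> rcases this with rfl | rfl | rfl <;> norm_num
  obtain ⟨kp1, kp0, kp⟩ := key (a p) (g p) (hsq p hp) (hsmall p hpR).2
  obtain ⟨kq1, kq0, kq⟩ := key (a q) (g q) (hsq q hq) (hsmall q hqR).2
  rcases kp with h | h | h
  · refine ⟨p, q, Finset.ne_of_mem_erase hpR, Finset.ne_of_mem_erase hqR, hpq, hsq p hp, kp1 h,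
      hsq q hq, kq0 (by omega), hrest⟩
  · refine ⟨q, p, Finset.ne_of_mem_erase hqR, Finset.ne_of_mem_erase hpR, hpq.symm, hsq q hq,
      kq1 (by omega), hsq p hp, kp0 h, fun i h1 h2 h3 => hrest i h1 h3 h2⟩
  · omega

/-- The final arithmetic. -/
theorem arith {N : ℕ} {F i : ℤ} (hN : 8 ∣ N) (hFi : F = 8 * i + 1)
    (h : (N : ℤ) * (F - 1) ^ 2 = 256 * F * (F + 1)) : N = 168 ∨ N = 360 := by
  obtain ⟨m, rfl⟩ := hN
  subst hFi
  push_cast at h
  have h1 : i * ((m : ℤ) * i - 32 * i - 12) = 1 := by linarith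
  rcases Int.eq_one_or_neg_one_of_mul_eq_one h1 with rfl | rfl
  · right; omega
  · left; omega

variable {G : Type u} [Group G] [Finite G]

theorem order (hperf : commutator G = ⊤) (t : G) (ht : orderOf t = 2)
    (e : Subgroup.centralizer ({t} : Set G) ≃* DihedralGroup 4) :
    Nat.card G = 168 ∨ Nat.card G = 360 := by
  classical
  haveI : Fact (Nat.Prime 2) := ⟨Nat.prime_two⟩
  haveI := Fintype.ofFinite G
  set H := Subgroup.centralizer ({t} : Set G) with hH
  haveI : Fintype H := Fintype.ofFinite H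
  have hH8 : Nat.card H = 8 := by
    rw [Nat.card_congr e.toEquiv, DihedralGroup.nat_card]
  have ht1 : t ≠ 1 := fun h => by rw [h, orderOf_one] at ht; norm_num at ht
  have htH : t ∈ H := Subgroup.mem_centralizer_singleton_iff.mpr rfl
  have hcomm : ∀ h ∈ H, h * t = t * h := fun h hh => Subgroup.mem_centralizer_singleton_iff.mp hh
  have het : e ⟨t, htH⟩ = DihedralGroup.r 2 := by
    have hc : ∀ d, e ⟨t, htH⟩ * d = d * e ⟨t, htH⟩ := fun d => by
      obtain ⟨h, rfl⟩ := e.surjective d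
      rw [← map_mul, ← map_mul]
      exact congrArg e (Subtype.ext (hcomm h h.2).symm)
    rcases (by decide : ∀ c : DihedralGroup 4, (∀ d, c * d = d * c) → c = 1 ∨ c = .r 2) _ hc with h | h
    · exact absurd (congrArg Subtype.val (e.injective (h.trans (map_one e).symm))) ht1
    · exact h
  -- `H` is a Sylow subgroup and all involutions are conjugate
  obtain ⟨P, hP⟩ := (IsPGroup.of_card (n := 3) (by rw [hH8]; rfl) : IsPGroup 2 H).exists_le_sylow
  have hPH : (P : Subgroup G) = H := by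
    by_contra hne
    have hlt : H.subgroupOf (P : Subgroup G) < ⊤ := by
      rw [lt_top_iff_ne_top, Ne, Subgroup.subgroupOf_eq_top]
      exact fun h => hne (le_antisymm h hP)
    haveI : Group.IsNilpotent (P : Subgroup G) := P.2.isNilpotent
    have hN := normalizerCondition_of_isNilpotent (G := (P : Subgroup G)) _ hlt
    obtain ⟨g, hgN, hgH⟩ := SetLike.exists_of_lt hN
    apply hgH
    rw [Subgroup.mem_subgroupOf]
    refine Subgroup.mem_centralizer_singleton_iff.mpr ?_
    have hmem : (g : G) * t * (g : G)⁻¹ ∈ H :=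
      (Subgroup.mem_normalizer_iff.mp hgN ⟨t, hP htH⟩).mp htH
    -- the conjugate is central in `H`, hence equal to `t`
    have hc : ∀ d, e ⟨_, hmem⟩ * d = d * e ⟨_, hmem⟩ := fun d => by
      obtain ⟨h, rfl⟩ := e.surjective d
      rw [← map_mul, ← map_mul]
      refine congrArg e (Subtype.ext ?_)
      have hh : (g : G)⁻¹ * h * g ∈ H := by
        have := (Subgroup.mem_normalizer_iff.mp hgN
          ⟨(g : G)⁻¹ * h * g, (P : Subgroup G).mul_mem ((P : Subgroup G).mul_mem
            ((P : Subgroup G).inv_mem g.2) (hP h.2)) g.2⟩).mpr (by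
              show (g : G) * ((g : G)⁻¹ * h * g) * (g : G)⁻¹ ∈ H
              simpa [mul_assoc] using h.2)
        exact this
      have h1 := hcomm _ hh
      calc (g : G) * t * (g : G)⁻¹ * h = g * (t * ((g : G)⁻¹ * h * g)) * (g : G)⁻¹ := by group
        _ = g * ((g : G)⁻¹ * h * g * t) * (g : G)⁻¹ := by rw [h1]
        _ = h * ((g : G) * t * (g : G)⁻¹) := by group
    rcases (by decide : ∀ c : DihedralGroup 4, (∀ d, c * d = d * c) → c = 1 ∨ c = .r 2) _ hc with h | h
    · exfalso
      have h' := congrArg Subtype.val (e.injective (h.trans (map_one e).symm))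
      exact ht1 (conj_eq_one_iff.mp h')
    · have h' : (g : G) * t * (g : G)⁻¹ = t :=
        congrArg Subtype.val (e.injective (h.trans het.symm))
      exact mul_inv_eq_iff_eq_mul.mp h'
  have hidx : ∀ M : Subgroup G, M.index ≠ 2 := by
    intro M hM
    haveI := Subgroup.normal_of_index_eq_two hM
    haveI : IsCyclic (G ⧸ M) :=
      isCyclic_of_prime_card (p := 2) (by rw [← Subgroup.index_eq_card]; exact hM)
    letI := IsCyclic.commGroup (α := G ⧸ M)
    have hle : commutator G ≤ M := by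
      intro x hx
      rw [← QuotientGroup.eq_one_iff]
      exact MonoidHom.mem_ker.mp (Abelianization.commutator_subset_ker (QuotientGroup.mk' M) hx)
    rw [hperf, top_le_iff] at hle
    rw [hle, Subgroup.index_top] at hM
    norm_num at hM
  have hconj : ∀ x y : G, orderOf x = 2 → orderOf y = 2 → IsConj x y := fun x y hx hy =>
    isConj_iff.mpr (CfsgLib.Transfer.dihedral_one_class P 2 le_rfl
      ⟨(MulEquiv.subgroupCongr hPH).trans e⟩ (CfsgLib.TwoFusion.pResidual_two_eq_top hidx) x y hx hy)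
  set y : G := ((e.symm (DihedralGroup.r 1) : H) : G) with hy
  have hy2 : y * y = t := by
    rw [hy, ← Subgroup.coe_mul, ← map_mul, DihedralGroup.r_mul_r, show (1 : ZMod 4) + 1 = 2 by decide,
      ← het, MulEquiv.symm_apply_apply]
  -- trivial intersection
  have hTI : ∀ h : H, e h ≠ 1 → (∀ i, e h ≠ DihedralGroup.sr i) → ∀ x : G,
      (∃ k : H, e k ≠ 1 ∧ (∀ i, e k ≠ DihedralGroup.sr i) ∧ x⁻¹ * h * x = k) → x ∈ H := by
    intro h hh1 hh2 x ⟨k, hk1, hk2, hxk⟩
    have hcases : ∀ d : DihedralGroup 4, d ≠ 1 → (∀ i, d ≠ .sr i) →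
        (d = .r 2 ∧ d * d = 1) ∨ (d * d = .r 2 ∧ d * d * (d * d) = 1) := by decide
    have hsq : ∀ k : H, e k * e k = .r 2 → (k : G) * k = t := fun k hk => by
      rw [← map_mul, ← het] at hk
      exact congrArg Subtype.val (e.injective hk)
    have hone : ∀ k : H, e k * e k = 1 → (k : G) * k = 1 := fun k hk => by
      rw [← map_mul, ← map_one e] at hk
      exact congrArg Subtype.val (e.injective hk)
    have hkk : x⁻¹ * ((h : G) * h) * x = (k : G) * k := by rw [← hxk]; group
    refine Subgroup.mem_centralizer_singleton_iff.mpr ?_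
    have key : x⁻¹ * t * x = t → x * t = t * x := fun e1 => by
      calc x * t = x * (x⁻¹ * t * x) := by rw [e1]
        _ = t * x := by group
    apply key
    rcases hcases _ hh1 hh2 with ⟨a1, a2⟩ | ⟨a1, -⟩ <;> rcases hcases _ hk1 hk2 with ⟨b1, b2⟩ | ⟨b1, -⟩
    · have eh : (h : G) = t := congrArg Subtype.val (e.injective (a1.trans het.symm))
      have ek : (k : G) = t := congrArg Subtype.val (e.injective (b1.trans het.symm))
      rw [← eh, hxk, ek]; exact eh.symm
    · exfalso
      rw [hone h a2, mul_one, inv_mul_cancel, hsq k b1] at hkk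
      exact ht1 hkk.symm
    · exfalso
      rw [hsq h a1, hone k b2] at hkk
      exact ht1 (by
        have h9 := congrArg (fun z => x * z * x⁻¹) hkk
        simpa [mul_assoc] using h9)
    · rw [hsq h a1, hsq k b1] at hkk
      exact hkk
  -- the two functions on `H`
  let mk : (DihedralGroup 4 → ℤ) → H → ℂ := fun f h => (f (e h) : ℂ)
  have hgen : ∀ (a b : ℤ), (a = 1 ∨ a = -1) → (b = 1 ∨ b = -1) →
      IsGeneralizedCharacter H (mk fun d => Matrix.trace (linRep a b d)) := by
    intro a b ha hb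
    refine isGenChar_of_isCharacter (isCharacter_trace e _ ?_ ?_) <;>
      rcases ha with rfl | rfl <;> rcases hb with rfl | rfl <;> decide +kernel
  have hgen2 : IsGeneralizedCharacter H (mk fun d => Matrix.trace (twoRep d)) :=
    isGenChar_of_isCharacter (isCharacter_trace e _ (by decide +kernel) (by decide +kernel))
  obtain ⟨α, hα⟩ : ∃ α, α = mk alphaTab := ⟨_, rfl⟩
  obtain ⟨γ, hγ⟩ : ∃ γ, γ = mk gammaTab := ⟨_, rfl⟩
  have hαgen : IsGeneralizedCharacter H α := by
    have h : α = (mk fun d => Matrix.trace (linRep 1 1 d)) + (mk fun d => Matrix.trace (linRep 1 (-1) d)) -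
        (mk fun d => Matrix.trace (twoRep d)) := by
      subst hα
      funext h
      have h0 : ∀ d, alphaTab d = Matrix.trace (linRep 1 1 d) + Matrix.trace (linRep 1 (-1) d) -
          Matrix.trace (twoRep d) := by decide +kernel
      simp only [mk, Pi.add_apply, Pi.sub_apply, h0]
      push_cast; ring
    rw [h]
    exact isGenChar_sub (isGenChar_add (hgen 1 1 (Or.inl rfl) (Or.inl rfl))
      (hgen 1 (-1) (Or.inl rfl) (Or.inr rfl))) hgen2
  have hγgen : IsGeneralizedCharacter H γ := by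
    have h : γ = (mk fun d => Matrix.trace (linRep 1 1 d)) + (mk fun d => Matrix.trace (linRep 1 (-1) d)) -
        (mk fun d => Matrix.trace (linRep (-1) 1 d)) - (mk fun d => Matrix.trace (linRep (-1) (-1) d)) := by
      subst hγ
      funext h
      have h0 : ∀ d, gammaTab d = Matrix.trace (linRep 1 1 d) + Matrix.trace (linRep 1 (-1) d) -
          Matrix.trace (linRep (-1) 1 d) - Matrix.trace (linRep (-1) (-1) d) := by decide +kernel
      simp only [mk, Pi.add_apply, Pi.sub_apply, h0]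
      push_cast; ring
    rw [h]
    exact isGenChar_sub (isGenChar_sub (isGenChar_add (hgen 1 1 (Or.inl rfl) (Or.inl rfl))
      (hgen 1 (-1) (Or.inl rfl) (Or.inr rfl))) (hgen (-1) 1 (Or.inr rfl) (Or.inl rfl)))
      (hgen (-1) (-1) (Or.inr rfl) (Or.inr rfl))
  have hind : ∀ f : DihedralGroup 4 → ℤ, (∀ d, d = 1 ∨ (∃ i, d = .sr i) → f d = 0) →
      (∀ d, f d⁻¹ = f d) → ∀ h : H, e h ≠ 1 → (∀ i, e h ≠ .sr i) →
        indFun H (mk f) (h : G) = mk f h := by
    intro f hf hfi h h1 h2
    have hsum : ∀ x : G, extendByZero H (mk f) (x⁻¹ * h * x) = if x ∈ H then mk f h else 0 := by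
      intro x
      by_cases hm : x⁻¹ * h * x ∈ H
      · rw [extendByZero_mem _ hm]
        split_ifs with hx
        · have e1 : (⟨x⁻¹ * h * x, hm⟩ : H) = (⟨x, hx⟩ : H)⁻¹ * h * ⟨x, hx⟩ := Subtype.ext rfl
          simp only [mk, e1, map_mul, map_inv]
          rcases (by decide +kernel : ∀ d d0 : DihedralGroup 4, d0 ≠ 1 → (∀ i, d0 ≠ .sr i) →
            d⁻¹ * d0 * d = d0 ∨ d⁻¹ * d0 * d = d0⁻¹) (e ⟨x, hx⟩) (e h) h1 h2 with h4 | h4
          · rw [h4]
          · rw [h4, hfi]
        · by_contra hne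
          apply hx
          refine hTI h h1 h2 x ⟨⟨_, hm⟩, fun e1 => hne ?_, fun i e1 => hne ?_, rfl⟩
          · simp only [mk]; rw [hf _ (Or.inl e1)]; simp
          · simp only [mk]; rw [hf _ (Or.inr ⟨i, e1⟩)]; simp
      · rw [extendByZero_not_mem _ hm, if_neg fun hx => hm (H.mul_mem (H.mul_mem (H.inv_mem hx) h.2) hx)]
    rw [indFun_apply, Finset.sum_congr rfl fun x _ => hsum x, Finset.sum_ite, Finset.sum_const_zero,
      add_zero, Finset.sum_const, nsmul_eq_mul, ← Fintype.card_subtype,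
      ← Nat.card_eq_fintype_card]
    rw [show Nat.card {x // x ∈ H} = 8 from hH8, ← mul_assoc]
    norm_num
  have hαp : (∀ d, d = (1 : DihedralGroup 4) ∨ (∃ i, d = .sr i) → alphaTab d = 0) ∧
      ∀ d, alphaTab d⁻¹ = alphaTab d := ⟨by decide +kernel, by decide +kernel⟩
  have hγp : (∀ d, d = (1 : DihedralGroup 4) ∨ (∃ i, d = .sr i) → gammaTab d = 0) ∧
      ∀ d, gammaTab d⁻¹ = gammaTab d := ⟨by decide +kernel, by decide +kernel⟩
  have hHsum : ∀ F : H → ℂ, ∑ h : H, F h = ∑ d, F (e.symm d) := fun F =>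
    (Fintype.sum_equiv e.symm.toEquiv (fun d => F (e.symm d)) F fun d => rfl).symm
  -- inner products of the induced functions
  have hnormf : ∀ f f' : DihedralGroup 4 → ℤ, (∀ d, d = 1 ∨ (∃ i, d = .sr i) → f d = 0) →
      (∀ d, d = 1 ∨ (∃ i, d = .sr i) → f' d = 0) → (∀ d, f' d⁻¹ = f' d) → ∀ n : ℤ,
      ∑ d, f d * f' d = 8 * n → classInner (indFun H (mk f)) (indFun H (mk f')) = n := by
    intro f f' hf hf' hf'i n hn
    rw [Char.frobenius _ _ (indFun_classFunction _)]
    simp only [classInner]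
    rw [hHsum, hH8]
    have hterm : ∀ d, mk f (e.symm d) * conj (indFun H (mk f') ((e.symm d : H) : G)) =
        ((f d * f' d : ℤ) : ℂ) := by
      intro d
      by_cases hd : d = 1 ∨ ∃ i, d = .sr i
      · simp [mk, hf d hd]
      · push Not at hd
        rw [hind f' hf' hf'i (e.symm d) (by simpa using hd.1) (by simpa using hd.2)]
        simp [mk]
    rw [Finset.sum_congr rfl fun d _ => hterm d, ← Int.cast_sum, hn]
    push_cast
    ring
  have hA : IsGeneralizedCharacter G (indFun H (mk alphaTab)) := isGenChar_indFun (hα ▸ hαgen)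
  have hB : IsGeneralizedCharacter G (indFun H (mk gammaTab)) := isGenChar_indFun (hγ ▸ hγgen)
  obtain ⟨a, ha, haexp, hanorm⟩ := genChar_coeffs hA
  obtain ⟨g, hg, -, hgnorm⟩ := genChar_coeffs hB
  -- restriction to `H`
  have hres : ∀ χ : IrrCharacter G, (χ : G → ℂ) y = g χ ∧ (χ : G → ℂ) t = 2 * a χ - g χ ∧
      ∃ n : ℕ, (χ : G → ℂ) 1 + 5 * (χ : G → ℂ) t + 2 * (χ : G → ℂ) y = 8 * n := by
    intro χ
    have hcl : IsClassFunction G (χ : G → ℂ) := isCharacter_classFunction χ.2.isCharacter'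
    have hv2 : (χ : G → ℂ) ((e.symm (.r 2) : H) : G) = (χ : G → ℂ) t := by
      rw [← het, MulEquiv.symm_apply_apply]
    have hv3 : (χ : G → ℂ) ((e.symm (.r 3) : H) : G) = (χ : G → ℂ) y := by
      rw [show (DihedralGroup.r 3 : DihedralGroup 4) = .sr 0 * .r 1 * (.sr 0)⁻¹ by decide +kernel,
        map_mul, map_mul, map_inv, Subgroup.coe_mul, Subgroup.coe_mul, Subgroup.coe_inv, hcl]
    have hvs : ∀ i, (χ : G → ℂ) ((e.symm (.sr i) : H) : G) = (χ : G → ℂ) t := fun i => by
      have ho : orderOf ((e.symm (.sr i) : H) : G) = 2 := by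
        rw [Subgroup.orderOf_coe, MulEquiv.orderOf_eq, DihedralGroup.orderOf_sr]
      obtain ⟨c, hc⟩ := isConj_iff.mp (hconj _ t ho ht)
      rw [← hc, hcl]
    have hv0 : (χ : G → ℂ) ((e.symm (.r 0) : H) : G) = (χ : G → ℂ) 1 := by
      rw [DihedralGroup.r_zero, map_one, Subgroup.coe_one]
    have hf : ∀ f : DihedralGroup 4 → ℤ, classInner (mk f) (fun h : H => (χ : G → ℂ) h) =
        ((f (.r 0) : ℂ) * conj ((χ : G → ℂ) 1) + (f (.r 1) : ℂ) * conj ((χ : G → ℂ) y) +
          (f (.r 2) : ℂ) * conj ((χ : G → ℂ) t) + (f (.r 3) : ℂ) * conj ((χ : G → ℂ) y) +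
          ((f (.sr 0) : ℂ) + f (.sr 1) + f (.sr 2) + f (.sr 3)) * conj ((χ : G → ℂ) t)) / 8 := by
      intro f
      simp only [classInner]
      rw [hHsum, hH8, sum_d8]
      simp only [mk, MulEquiv.apply_symm_apply, hv0, hv2, hv3, hvs, ← hy]
      push_cast
      ring
    have e1 : classInner (mk alphaTab) (fun h : H => (χ : G → ℂ) h) = a χ := by
      rw [← Char.frobenius _ _ hcl, ha]
    have e2 : classInner (mk gammaTab) (fun h : H => (χ : G → ℂ) h) = g χ := by
      rw [← Char.frobenius _ _ hcl, hg]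
    rw [hf] at e1 e2
    simp [alphaTab, show (1 : ZMod 4) ≠ 2 by decide, show (1 : ZMod 4) ≠ 0 by decide,
      show (0 : ZMod 4) ≠ 2 by decide, show (3 : ZMod 4) ≠ 2 by decide,
      show (3 : ZMod 4) ≠ 0 by decide] at e1
    simp [gammaTab, show (0 : ZMod 4) ≠ 1 by decide, show (0 : ZMod 4) ≠ 3 by decide,
      show (2 : ZMod 4) ≠ 1 by decide, show (2 : ZMod 4) ≠ 3 by decide] at e2
    have hY : conj ((χ : G → ℂ) y) = g χ := by linear_combination e2
    have hY' : (χ : G → ℂ) y = g χ := by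
      have := congrArg conj hY
      rwa [Complex.conj_conj, map_intCast] at this
    have hT : conj ((χ : G → ℂ) t) = 2 * a χ - g χ := by linear_combination 2 * e1 - hY
    have hT' : (χ : G → ℂ) t = 2 * a χ - g χ := by
      have := congrArg conj hT
      rwa [Complex.conj_conj, map_sub, map_mul, map_intCast, map_intCast, map_ofNat] at this
    refine ⟨hY', hT', ?_⟩
    obtain ⟨n, hn⟩ := inner_character_nat (isCharacter_restrict χ.2.isCharacter' H)
      (isIrrCharacter_one (G := H)).isCharacter'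
    refine ⟨n, ?_⟩
    rw [← hn]
    simp only [classInner, map_one, mul_one]
    rw [hHsum, hH8, sum_d8]
    simp only [hv0, hv2, hv3, hvs, ← hy]
    push_cast
    ring
  let i₀ : IrrCharacter G := ⟨fun _ => 1, isIrrCharacter_one⟩
  obtain ⟨hY0, hT0, -⟩ := hres i₀
  have hg0 : g i₀ = 1 := by
    have h1 : (1 : ℂ) = g i₀ := hY0
    exact_mod_cast h1.symm
  have ha0 : a i₀ = 1 := by
    have : (1 : ℂ) = 2 * a i₀ - g i₀ := hT0
    rw [hg0] at this
    have h2 : (1 : ℤ) = 2 * a i₀ - 1 := by exact_mod_cast this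
    omega
  have haa : ∑ i, a i ^ 2 = 3 := by
    rw [hnormf _ _ hαp.1 hαp.1 hαp.2 3 (by decide +kernel)] at hanorm
    exact_mod_cast hanorm.symm
  have hgg : ∑ i, g i ^ 2 = 4 := by
    rw [hnormf _ _ hγp.1 hγp.1 hγp.2 4 (by decide +kernel)] at hgnorm
    exact_mod_cast hgnorm.symm
  have hag : ∑ i, a i * g i = 2 := by
    have h := hnormf _ _ hαp.1 hγp.1 hγp.2 2 (by decide +kernel)
    rw [inner_eq_sum_coeff _ _ (indFun_classFunction _)] at h
    simp only [ha, hg, map_intCast] at h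
    exact_mod_cast h
  obtain ⟨s, o, hs0, ho0, hso, has, hgs, hao, hgo, hrest⟩ :=
    coefficients a g i₀ ha0 hg0 haa hgg hag
  have hexp : ∀ F : IrrCharacter G → ℂ, ∑ χ, (a χ : ℂ) * F χ =
      F i₀ + a s * F s + a o * F o := by
    intro F
    rw [← Finset.sum_subset (Finset.subset_univ {i₀, s, o}) (fun χ _ hχ => ?_)]
    · rw [Finset.sum_insert (by simp [Ne.symm hs0, Ne.symm ho0]), Finset.sum_pair hso, ha0]
      push_cast; ring
    · simp only [Finset.mem_insert, Finset.mem_singleton, not_or] at hχ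
      rw [hrest χ hχ.1 hχ.2.1 hχ.2.2]; simp
  obtain ⟨f, hf0, hf⟩ := exists_degree_pos s.2
  obtain ⟨d, hd0, hd⟩ := exists_degree_pos o.2
  have hdeg : (1 : ℤ) + a s * f + a o * d = 0 := by
    have h := congrFun haexp 1
    rw [indFun_one_apply, Finset.sum_apply] at h
    simp only [Pi.smul_apply, smul_eq_mul] at h
    rw [hexp (fun χ => (χ : G → ℂ) 1)] at h
    simp only [mk, map_one, hαp.1 1 (Or.inl rfl), Int.cast_zero, mul_zero, hf, hd,
      show (i₀ : G → ℂ) 1 = 1 from rfl] at h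
    exact_mod_cast h.symm
  obtain ⟨hYs, hTs, n, hn⟩ := hres s
  obtain ⟨-, hTo, -⟩ := hres o
  have hTs' : (s : G → ℂ) t = a s := by rw [hTs, hgs]; ring
  have hTo' : (o : G → ℂ) t = 2 * a o := by rw [hTo, hgo]; simp
  have hmod : (f : ℤ) + 7 * a s = 8 * n := by
    rw [hTs', hYs, hgs, hf] at hn
    have : ((f : ℂ) + 7 * a s) = 8 * n := by linear_combination hn
    exact_mod_cast this
  -- the count of pairs of involutions
  set K := (classFinset t).card with hK
  have hKN : K * 8 = Nat.card G := by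
    rw [Nat.card_eq_fintype_card, ← Finset.card_univ,
      Finset.card_eq_sum_card_fiberwise (f := fun x : G => x * t * x⁻¹) (t := classFinset t)
        (fun x _ => mem_classFinset.mpr (isConj_iff.mpr ⟨x, rfl⟩)),
      Finset.sum_congr rfl (fun k hk => ?_), Finset.sum_const, smul_eq_mul]
    obtain ⟨x0, hx0⟩ := isConj_iff.mp (mem_classFinset.mp hk)
    rw [← hH8, Nat.card_eq_fintype_card, ← Finset.card_univ]
    refine (Finset.card_bij (fun (h : H) _ => x0 * (h : G)) (fun h _ => ?_) (fun h _ l _ el => ?_)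
      (fun x hx => ?_)).symm
    · refine Finset.mem_filter.mpr ⟨Finset.mem_univ _, ?_⟩
      rw [← hx0]
      have := hcomm h h.2
      calc x0 * (h : G) * t * (x0 * h)⁻¹ = x0 * ((h : G) * t) * (h : G)⁻¹ * x0⁻¹ := by group
        _ = x0 * t * x0⁻¹ := by rw [this]; group
    · exact Subtype.ext (mul_left_cancel el)
    · obtain ⟨-, hx'⟩ := Finset.mem_filter.mp hx
      refine ⟨⟨x0⁻¹ * x, Subgroup.mem_centralizer_singleton_iff.mpr ?_⟩, Finset.mem_univ _,
        mul_inv_cancel_left _ _⟩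
      rw [← hx0] at hx'
      calc x0⁻¹ * x * t = x0⁻¹ * (x * t * x⁻¹) * x := by group
        _ = x0⁻¹ * (x0 * t * x0⁻¹) * x := by rw [hx']
        _ = t * (x0⁻¹ * x) := by group
  have hidx8 : H.index = K := by
    have h := Subgroup.card_mul_index H
    rw [hH8, ← hKN] at h
    omega
  have hpairs : (K : ℂ) * (1 + a s * (1 / (f : ℂ)) + a o * (4 / (d : ℂ))) = 32 := by
    let S : Set G := {x | ∃ h : H, e h ≠ 1 ∧ (∀ i, e h ≠ .sr i) ∧ (h : G) = x}
    have h := ti_involution_pair_sum H S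
      (fun x hx z ⟨h, h1, h2, hz⟩ ⟨k, k1, k2, hk⟩ => hx (by
        have := hTI h h1 h2 x⁻¹ ⟨k, k1, k2, by rw [inv_inv, hk, hz]⟩
        simpa using H.inv_mem this))
      (fun z ⟨h, _, _, hz⟩ => hz ▸ h.2)
      (fun z ⟨h, h1, h2, hz⟩ => ⟨h⁻¹, by rw [map_inv]; exact inv_ne_one.mpr h1,
        fun i => by
          rw [map_inv]
          intro e1
          exact h2 i ((by decide : ∀ (d : DihedralGroup 4) i, d⁻¹ = .sr i → d = .sr i) _ i e1),
        by rw [Subgroup.coe_inv, hz]⟩)
      (mk alphaTab) (fun x hx => by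
        by_cases hd : e x = 1 ∨ ∃ i, e x = .sr i
        · simp [mk, hαp.1 _ hd]
        · push Not at hd
          exact absurd ⟨x, hd.1, hd.2, rfl⟩ hx)
      t t ht ht
    rw [show {p : G × G | IsConj t p.1 ∧ IsConj t p.2} =
        ((classFinset t ×ˢ classFinset t : Finset (G × G)) : Set (G × G)) by
          ext; simp [mem_classFinset],
      finsum_mem_coe_finset,
      show {p : H × H | IsConj t (p.1 : G) ∧ IsConj t (p.2 : G)} =
        ((Finset.univ.filter fun p : H × H => (e p.1 * e p.1 = 1 ∧ e p.1 ≠ 1) ∧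
          (e p.2 * e p.2 = 1 ∧ e p.2 ≠ 1) : Finset (H × H)) : Set (H × H)) from ?_,
      finsum_mem_coe_finset] at h
    swap
    · have hiff : ∀ z : H, IsConj t (z : G) ↔ e z * e z = 1 ∧ e z ≠ 1 := by
        intro z
        constructor
        · intro hc
          obtain ⟨c, hc⟩ := isConj_iff.mp hc
          refine ⟨?_, fun e1 => ?_⟩
          · rw [← map_mul, ← map_one e]
            refine congrArg e (Subtype.ext ?_)
            show (z : G) * z = 1
            rw [← hc, ← hy2]
            have : t * t = 1 := by rw [← sq, ← ht]; exact pow_orderOf_eq_one t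
            rw [hy2, show c * t * c⁻¹ * (c * t * c⁻¹) = c * (t * t) * c⁻¹ by group, this, mul_one,
              mul_inv_cancel]
          · rw [← map_one e] at e1
            have h1 := congrArg Subtype.val (e.injective e1)
            rw [← hc] at h1
            exact ht1 (conj_eq_one_iff.mp h1)
        · rintro ⟨h1, h2⟩
          refine hconj t z ht (orderOf_eq_prime ?_ fun h3 => h2 ?_)
          · rw [sq]
            rw [← map_mul, ← map_one e] at h1
            exact congrArg Subtype.val (e.injective h1)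
          · rw [show z = 1 from Subtype.ext h3, map_one]
      ext p
      simp only [Set.mem_setOf_eq, Finset.coe_filter, Finset.mem_univ, true_and, hiff]
    have hlhs : ∑ p ∈ classFinset t ×ˢ classFinset t, indFun H (mk alphaTab) (p.1 * p.2) =
        ∑ χ, (a χ : ℂ) * ((K : ℂ) * K * (χ : G → ℂ) t * (χ : G → ℂ) t / (χ : G → ℂ) 1) := by
      rw [haexp]
      simp only [Finset.sum_apply, Pi.smul_apply, smul_eq_mul]
      rw [Finset.sum_comm]
      refine Finset.sum_congr rfl fun χ _ => ?_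
      rw [← Finset.mul_sum, sum_class_mul χ.2, ← hK]
    rw [hlhs, hexp, hTs', hTo', hf, hd, hidx8, show (i₀ : G → ℂ) t = 1 from rfl] at h
    have hr : ∑ p ∈ Finset.univ.filter (fun p : H × H => (e p.1 * e p.1 = 1 ∧ e p.1 ≠ 1) ∧
        (e p.2 * e p.2 = 1 ∧ e p.2 ≠ 1)), mk alphaTab (p.1 * p.2) = 32 := by
      have h1 : ∑ q ∈ Finset.univ.filter (fun q : DihedralGroup 4 × DihedralGroup 4 =>
          (q.1 * q.1 = 1 ∧ q.1 ≠ 1) ∧ (q.2 * q.2 = 1 ∧ q.2 ≠ 1)), alphaTab (q.1 * q.2) = 32 := by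
        decide +kernel
      have h2 : (∑ q ∈ Finset.univ.filter (fun q : DihedralGroup 4 × DihedralGroup 4 =>
          (q.1 * q.1 = 1 ∧ q.1 ≠ 1) ∧ (q.2 * q.2 = 1 ∧ q.2 ≠ 1)), (alphaTab (q.1 * q.2) : ℂ)) = 32 := by
        exact_mod_cast h1
      rw [← h2]
      exact Finset.sum_equiv (e.toEquiv.prodCongr e.toEquiv) (fun p => by simp)
        (fun p _ => by simp [mk])
    rw [hr] at h
    have hK0 : (K : ℂ) ≠ 0 := by
      have : K ≠ 0 := fun h0 => by
        rw [h0, zero_mul] at hKN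
        exact Nat.card_pos.ne' hKN.symm
      exact_mod_cast this
    refine mul_left_cancel₀ hK0 (Eq.trans ?_ h)
    have hs2 : (a s : ℂ) ^ 2 = 1 := by exact_mod_cast has
    have ho2 : (a o : ℂ) ^ 2 = 1 := by exact_mod_cast hao
    linear_combination (-((K : ℂ) * K * (a s : ℂ) / (f : ℂ))) * hs2 +
      (-(4 * (K : ℂ) * K * (a o : ℂ) / (d : ℂ))) * ho2
  have hN : ((Nat.card G : ℤ) : ℂ) * (1 + a s * (1 / (f : ℂ)) + a o * (4 / (d : ℂ))) = 256 := by
    rw [← hKN]; push_cast; linear_combination 8 * hpairs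
  have hfne : (f : ℂ) ≠ 0 := by exact_mod_cast (show f ≠ 0 by omega)
  have hdne : (d : ℂ) ≠ 0 := by exact_mod_cast (show d ≠ 0 by omega)
  field_simp at hN
  have hZ : (Nat.card G : ℤ) * ((f : ℤ) * d + a s * d + 4 * a o * f) = 256 * (f * d) := by
    have : ((Nat.card G : ℤ) : ℂ) * ((f : ℂ) * d + a s * d + 4 * a o * f) = 256 * ((f : ℂ) * d) := by
      linear_combination hN
    exact_mod_cast this
  refine arith (F := a s * f) (i := a s * n - 1) ?_ ?_ ?_
  · rw [← hH8]; exact Subgroup.card_subgroup_dvd_card H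
  · linear_combination (a s) * hmod - 7 * has
  · have hD : a o * d = -(a s * f + 1) := by omega
    have h1 := congrArg (· * (a s * a o)) hZ
    have e1 : a s * a s = 1 := by rw [← sq]; exact has
    have e2 : a o * a o = 1 := by rw [← sq]; exact hao
    linear_combination (-1 : ℤ) * h1 +
      ((Nat.card G : ℤ) * (a s * f + 1) - 256 * (a s * f)) * hD +
      (Nat.card G : ℤ) * (a o * d) * e1 + 4 * (Nat.card G : ℤ) * (a s * f) * e2

end CfsgLib.DEight
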