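import Cfsg.Prelude.Def_OddOrderChar
import Mathlib.GroupTheory.OrderOfElement
import Mathlib.Tactic.Group
import Mathlib.GroupTheory.Coset.Card

/-!
# The Dade set-up: group-theoretic facts
-/

set_option autoImplicit false
set_option linter.style.haveILetI false
set_option linter.unusedSectionVars false

namespace CfsgLib.Char

open Cfsg

universe u

variable {G : Type u} [Group G] {A : Set G} {L : Subgroup G} {H : G → Subgroup G}

/-- Decomposition of the centraliser. -/
theorem dade_decompose (hD : DadeHypothesis A L H) {a : G} (ha : a ∈ A) {y : G}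
    (hy : y ∈ Subgroup.centralizer ({a} : Set G)) :
    ∃ u ∈ H a, ∃ l ∈ L ⊓ Subgroup.centralizer ({a} : Set G), y = u * l := by
  rw [← hD.sup_eq a ha] at hy
  have hnorm : L ⊓ Subgroup.centralizer ({a} : Set G) ≤ Subgroup.normalizer (H a : Set G) := by
    intro c hc
    rw [Subgroup.mem_normalizer_iff]
    intro u
    constructor
    · exact fun hu => hD.conj_mem_H a ha c hc.2 u hu
    · intro hu
      have h := hD.conj_mem_H a ha c⁻¹
        ((Subgroup.centralizer ({a} : Set G)).inv_mem hc.2) _ hu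
      rwa [show c⁻¹ * (c * u * c⁻¹) * c⁻¹⁻¹ = u by group] at h
  have hc := Subgroup.coe_mul_of_right_le_normalizer_left (H a) _ hnorm
  have hy' : y ∈ (↑(H a ⊔ L ⊓ Subgroup.centralizer ({a} : Set G)) : Set G) := hy
  rw [hc] at hy'
  obtain ⟨u, hu, l, hl, rfl⟩ := hy'
  exact ⟨u, hu, l, hl, rfl⟩

/-- An element of the centraliser of order prime to the complement lies in the kernel. -/
theorem dade_mem_of_coprime [Finite G] (hD : DadeHypothesis A L H) {a : G} (ha : a ∈ A) {y : G}
    (hy : y ∈ Subgroup.centralizer ({a} : Set G))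
    (hcop : Nat.Coprime (orderOf y)
      (Nat.card ↥(L ⊓ Subgroup.centralizer ({a} : Set G)))) : y ∈ H a := by
  set K := L ⊓ Subgroup.centralizer ({a} : Set G) with hK
  set m := Nat.card K with hm
  obtain ⟨u, hu, l, hl, he⟩ := dade_decompose hD ha hy
  have hpow : ∀ j : ℕ, ∃ w ∈ H a, y ^ j = w * l ^ j := by
    intro j
    induction j with
    | zero => exact ⟨1, (H a).one_mem, by simp⟩
    | succ j ih =>
      obtain ⟨w, hw, hj⟩ := ih
      refine ⟨w * (l ^ j * u * (l ^ j)⁻¹), (H a).mul_mem hw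
        (hD.conj_mem_H a ha _ (pow_mem hl.2 j) u hu), ?_⟩
      rw [pow_succ, hj, he]
      group
  obtain ⟨w, hw, hj⟩ := hpow m
  have hlm : l ^ m = 1 := by
    have h1 : (⟨l, hl⟩ : K) ^ m = 1 := pow_card_eq_one'
    exact congrArg Subtype.val h1
  rw [hlm, mul_one] at hj
  obtain ⟨t, ht⟩ := exists_pow_eq_self_of_coprime hcop.symm
  rw [← ht, hj]
  exact pow_mem hw t

/-- Conjugation equivariance of the kernels. -/
theorem dade_conj [Finite G] (hD : DadeHypothesis A L H) {a : G} (ha : a ∈ A) {x : G}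
    (hx : x ∈ L) : H (x * a * x⁻¹) = (H a).map (MulAut.conj x).toMonoidHom := by
  have key : ∀ a x : G, a ∈ A → x ∈ L → ∀ u ∈ H a, x * u * x⁻¹ ∈ H (x * a * x⁻¹) := by
    intro a x ha hx u hu
    have hb := hD.conj_mem x hx a ha
    refine dade_mem_of_coprime hD hb ?_ ?_
    · rw [Subgroup.mem_centralizer_singleton_iff]
      have h := Subgroup.mem_centralizer_singleton_iff.mp (hD.le_centralizer a ha hu)
      calc x * u * x⁻¹ * (x * a * x⁻¹) = x * (u * a) * x⁻¹ := by group
        _ = x * a * x⁻¹ * (x * u * x⁻¹) := by rw [h]; group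
    · refine Nat.Coprime.coprime_dvd_left ?_ (hD.coprime a ha _ hb)
      have e : orderOf (x * u * x⁻¹) = orderOf u :=
        orderOf_injective (MulAut.conj x).toMonoidHom (MulAut.conj x).injective u
      rw [e, ← Subgroup.orderOf_mk u hu]
      exact orderOf_dvd_natCard _
  ext y
  constructor
  · intro hy
    refine ⟨x⁻¹ * y * x, ?_, by simp [mul_assoc]⟩
    have h := key _ x⁻¹ (hD.conj_mem x hx a ha) (L.inv_mem hx) y hy
    rwa [show x⁻¹ * (x * a * x⁻¹) * x⁻¹⁻¹ = a by group, inv_inv] at h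
  · rintro ⟨u, hu, rfl⟩
    exact key a x ha hx u hu

end CfsgLib.Char
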