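import Cfsg.Agent.Lib.CharDade
import Cfsg.Agent.Lib.CharBasic
import Cfsg.Agent.Lib.CharVirtual
import Cfsg.Agent.Lib.CharPerm
import Cfsg.Agent.Lib.CharBrauer3
import Mathlib.Algebra.Order.Chebyshev
import Mathlib.LinearAlgebra.PID

/-!
# The Dade map: isometry, integrality, norm inequality
-/

set_option autoImplicit false
set_option linter.style.haveILetI false
set_option linter.unusedSectionVars false

namespace CfsgLib.Char

open Cfsg
open scoped ComplexConjugate

universe u v

variable {G : Type u} [Group G]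

/-- Averaging over a normalised subgroup gives a character of the normalising subgroup. -/
theorem isCharacter_avg [Finite G] (K N : Subgroup G) [Fintype K]
    (hN : N ≤ Subgroup.normalizer (K : Set G)) {χ : G → ℂ} (hχ : IsCharacter G χ) :
    IsCharacter N (fun l : N => (Nat.card K : ℂ)⁻¹ * ∑ k : K, χ (k * l)) := by
  classical
  haveI := Fintype.ofFinite G
  obtain ⟨n, ρ, rfl⟩ := hχ
  set T : Module.End ℂ (Fin n → ℂ) := (Nat.card K : ℂ)⁻¹ • ∑ k : K, ρ (k : G) with hT
  have hcomm : ∀ l : N, ρ (l : G) * T = T * ρ (l : G) := fun l => by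
    rw [hT, smul_mul_assoc, mul_smul_comm, Finset.sum_mul, Finset.mul_sum]
    congr 1
    refine Fintype.sum_equiv
      ⟨fun k => ⟨l * k * (l : G)⁻¹, (Subgroup.mem_normalizer_iff.mp (hN l.2) k).mp k.2⟩,
        fun k => ⟨(l : G)⁻¹ * k * l, by
          simpa using (Subgroup.mem_normalizer_iff.mp (hN (N.inv_mem l.2)) k).mp k.2⟩,
        fun (k : K) => Subtype.ext (show (l : G)⁻¹ * ((l : G) * k * (l : G)⁻¹) * l = k by group),
        fun (k : K) => Subtype.ext (show (l : G) * ((l : G)⁻¹ * k * l) * (l : G)⁻¹ = k by group)⟩ _ _ fun k => ?_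
    simp only [Equiv.coe_fn_mk, ← map_mul]
    congr 1; group
  have hTT : T * T = T := by
    have h1 : ∀ k : K, ρ (k : G) * (∑ j : K, ρ (j : G)) = ∑ j : K, ρ (j : G) := fun k => by
      rw [Finset.mul_sum]
      refine Fintype.sum_equiv (Equiv.mulLeft k) _ _ fun j => ?_
      rw [← map_mul]; rfl
    rw [hT, smul_mul_assoc, mul_smul_comm, Finset.sum_mul]
    simp only [h1, Finset.sum_const, Finset.card_univ, ← Nat.card_eq_fintype_card,
      ← Nat.cast_smul_eq_nsmul ℂ]
    rw [smul_smul (Nat.card K : ℂ)⁻¹ (Nat.card K : ℂ), inv_mul_cancel₀ (natCard_ne_zero K),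
      one_smul]
  set W := LinearMap.range T with hW
  have hWmem : ∀ (l : N), ∀ v ∈ W, ρ (l : G) v ∈ W := by
    rintro l _ ⟨v, rfl⟩
    exact ⟨ρ (l : G) v, (LinearMap.congr_fun (hcomm l) v).symm⟩
  let σ : Representation ℂ N W :=
    { toFun := fun l => (ρ (l : G)).restrict (hWmem l)
      map_one' := LinearMap.ext fun v => Subtype.ext (by simp)
      map_mul' := fun a b => LinearMap.ext fun v => Subtype.ext (by simp) }
  have hσ : σ.character = fun l : N => (Nat.card K : ℂ)⁻¹ * ∑ k : K, ρ.character (k * l) := by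
    funext l
    have hf : ∀ x, (ρ (l : G) * T) x ∈ W := fun x => by
      rw [hcomm]; exact ⟨ρ (l : G) x, rfl⟩
    have h1 : (ρ (l : G) * T).restrict (fun x _ => hf x) = σ l := by
      refine LinearMap.ext fun v => Subtype.ext ?_
      obtain ⟨w, hw⟩ := v.2
      show ρ (l : G) (T v) = ρ (l : G) v
      rw [← hw, ← Module.End.mul_apply T T, hTT]
    show LinearMap.trace ℂ W (σ l) = _
    rw [← h1, LinearMap.trace_restrict_eq_of_forall_mem W _ hf, hcomm, hT, smul_mul_assoc, map_smul,
      Finset.sum_mul, map_sum, smul_eq_mul]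
    refine congrArg _ (Finset.sum_congr rfl fun k _ => ?_)
    rw [← map_mul]; rfl
  rw [← hσ]
  exact isCharacter_rep σ

/-- Splitting a sum over a coset of a normalised coprime subgroup along the centraliser. -/
theorem avg_coset [Finite G] (K : Subgroup G) [Fintype K] {l : G}
    (hl : l ∈ Subgroup.normalizer (K : Set G)) (hcop : (Nat.card K).Coprime (orderOf l))
    (C : Subgroup G) [Fintype C] (hC : ∀ x : G, x ∈ C ↔ x ∈ K ∧ x * l = l * x)
    {f : G → ℂ} (hf : IsClassFunction G f) :
    (Nat.card K : ℂ)⁻¹ * ∑ h : K, f (h * l) = (Nat.card C : ℂ)⁻¹ * ∑ c : C, f (c * l) := by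
  classical
  obtain ⟨a, ha⟩ := exists_partExp hcop
  have hconjK : ∀ (k : G), k ∈ K → ∀ c : G, c ∈ K → k * c * l * k⁻¹ * l⁻¹ ∈ K := fun k hk c hc => by
    have h1 := (Subgroup.mem_normalizer_iff.mp hl k⁻¹).mp (K.inv_mem hk)
    have e : k * c * l * k⁻¹ * l⁻¹ = k * c * (l * k⁻¹ * l⁻¹) := by group
    rw [e]; exact K.mul_mem (K.mul_mem hk hc) h1
  set φ : K × C → K := fun x => ⟨x.1 * x.2 * l * (x.1 : G)⁻¹ * l⁻¹,
    hconjK _ x.1.2 _ ((hC _).mp x.2.2).1⟩ with hφ
  have hpart : ∀ x : K × C, ((φ x : G) * l) ^ a = x.1 * l * (x.1 : G)⁻¹ := fun x => by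
    have e : (φ x : G) * l = x.1 * ((x.2 : G) * l) * (x.1 : G)⁻¹ := by rw [hφ]; group
    obtain ⟨hxK, hxl⟩ := (hC _).mp x.2.2
    rw [e, conj_pow, (show Commute (x.2 : G) l from hxl).mul_pow,
      ha.eq_one (congrArg Subtype.val (pow_card_eq_one' (x := (⟨x.2, hxK⟩ : K)))),
      ha.eq_self (pow_orderOf_eq_one l), one_mul]
  have hfib : ∀ x : K × C, (Finset.univ.filter fun y => φ y = φ x).card = Nat.card C := fun x => by
    rw [← Nat.card_eq_finsetCard]
    refine Nat.card_congr
      { toFun := fun y => ⟨(x.1 : G)⁻¹ * y.1.1, (hC _).mpr ⟨K.mul_mem (K.inv_mem x.1.2) y.1.1.2, ?_⟩⟩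
        invFun := fun d => ⟨(x.1 * ⟨d, ((hC _).mp d.2).1⟩, d⁻¹ * x.2 * d), ?_⟩
        left_inv := fun y => ?_
        right_inv := fun d => Subtype.ext (by simp) }
    · have h := congrArg (fun k : K => ((k : G) * l) ^ a) (Finset.mem_filter.mp y.2).2
      simp only [hpart] at h
      calc (x.1 : G)⁻¹ * y.1.1 * l = (x.1 : G)⁻¹ * (y.1.1 * l * (y.1.1 : G)⁻¹) * y.1.1 := by group
        _ = l * ((x.1 : G)⁻¹ * y.1.1) := by rw [h]; group
    · rw [Finset.mem_filter]
      refine ⟨Finset.mem_univ _, Subtype.ext ?_⟩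
      have hd := ((hC _).mp d.2).2
      have hd' : (d : G) * l * (d : G)⁻¹ = l := by rw [hd, mul_inv_cancel_right]
      rw [hφ]
      show (x.1 : G) * d * ((d : G)⁻¹ * x.2 * d) * l * ((x.1 : G) * d)⁻¹ * l⁻¹ = _
      calc (x.1 : G) * d * ((d : G)⁻¹ * x.2 * d) * l * ((x.1 : G) * d)⁻¹ * l⁻¹
          = (x.1 : G) * x.2 * ((d : G) * l * (d : G)⁻¹) * (x.1 : G)⁻¹ * l⁻¹ := by group
        _ = _ := by rw [hd']
    · have h' := congrArg (fun k : K => ((k : G) * l) ^ a) (Finset.mem_filter.mp y.2).2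
      simp only [hpart] at h'
      refine Subtype.ext (Prod.ext (Subtype.ext (by simp)) (Subtype.ext ?_))
      set d := (x.1 : G)⁻¹ * y.1.1 with hd
      have hdl : d * l = l * d := by
        calc d * l = (x.1 : G)⁻¹ * (y.1.1 * l * (y.1.1 : G)⁻¹) * y.1.1 := by rw [hd]; group
          _ = l * d := by rw [h', hd]; group
      have h2 : (y.1.1 : G) * y.1.2 * l * (y.1.1 : G)⁻¹ = x.1 * x.2 * l * (x.1 : G)⁻¹ :=
        mul_right_cancel (b := l⁻¹) (congrArg Subtype.val (Finset.mem_filter.mp y.2).2)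
      show d⁻¹ * x.2 * d = y.1.2
      calc d⁻¹ * x.2 * d
          = d⁻¹ * (x.1 : G)⁻¹ * (x.1 * x.2 * l * (x.1 : G)⁻¹) * x.1 * l⁻¹ * d := by group
        _ = (y.1.2 : G) * (l * d⁻¹) * l⁻¹ * d := by rw [← h2, hd]; group
        _ = y.1.2 := by
            rw [(show Commute d l from hdl).inv_left.eq.symm]; group
  have hsurj : Finset.univ.image φ = Finset.univ := by
    refine Finset.eq_univ_of_card _ ?_
    have h1 := Finset.card_eq_sum_card_image φ (Finset.univ : Finset (K × C))
    rw [Finset.sum_congr rfl (g := fun _ => Nat.card C) (fun z hz => by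
      obtain ⟨x, -, rfl⟩ := Finset.mem_image.mp hz
      exact hfib x), Finset.sum_const, smul_eq_mul, Finset.card_univ, Fintype.card_prod,
      ← Nat.card_eq_fintype_card (α := C)] at h1
    exact (Nat.eq_of_mul_eq_mul_right Nat.card_pos h1).symm
  have key : ∑ x : K × C, f ((φ x : G) * l) = (Nat.card C : ℂ) * ∑ h : K, f (h * l) := by
    rw [← Finset.sum_fiberwise Finset.univ φ, Finset.mul_sum]
    refine Finset.sum_congr rfl fun h _ => ?_
    obtain ⟨x, -, rfl⟩ := Finset.mem_image.mp (hsurj ▸ Finset.mem_univ h)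
    rw [Finset.sum_congr rfl (g := fun _ => f ((φ x : G) * l)) (fun y hy => by
      rw [(Finset.mem_filter.mp hy).2]), Finset.sum_const, hfib, nsmul_eq_mul]
  have key2 : ∑ x : K × C, f ((φ x : G) * l) = (Nat.card K : ℂ) * ∑ c : C, f (c * l) := by
    rw [Fintype.sum_prod_type]
    rw [Nat.card_eq_fintype_card, ← Finset.card_univ, ← nsmul_eq_mul, ← Finset.sum_const]
    refine Finset.sum_congr rfl fun k _ => Finset.sum_congr rfl fun c _ => ?_
    rw [show ((φ (k, c) : K) : G) * l = (k : G) * ((c : G) * l) * (k : G)⁻¹ by rw [hφ]; group]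
    exact hf _ _
  rw [key2] at key
  field_simp [natCard_ne_zero K, natCard_ne_zero C]
  linear_combination -key

variable {A : Set G} {L : Subgroup G} {H : G → Subgroup G}

theorem dade_commute (hD : DadeHypothesis A L H) {a u : G} (ha : a ∈ A) (hu : u ∈ H a) :
    Commute a u :=
  (Subgroup.mem_centralizer_singleton_iff.mp (hD.le_centralizer a ha hu)).symm

/-- Conjugate elements of two Dade cosets come from conjugate base points. -/
theorem dade_unique [Finite G] (hD : DadeHypothesis A L H) {a b u v g : G} (ha : a ∈ A) (hb : b ∈ A)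
    (hu : u ∈ H a) (hv : v ∈ H b) (h : g * (a * u) * g⁻¹ = b * v) : g * a * g⁻¹ = b := by
  set ca := Nat.card ↥(L ⊓ Subgroup.centralizer ({a} : Set G))
  set cb := Nat.card ↥(L ⊓ Subgroup.centralizer ({b} : Set G))
  have hcop : (Nat.card (H a) * Nat.card (H b)).Coprime (ca * cb) :=
    (((hD.coprime a ha a ha).mul_right (hD.coprime a ha b hb))).mul_left
      ((hD.coprime b hb a ha).mul_right (hD.coprime b hb b hb))
  obtain ⟨e, he⟩ := exists_partExp hcop
  have key : ∀ c w : G, c ∈ A → w ∈ H c →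
      orderOf w ∣ Nat.card (H a) * Nat.card (H b) → orderOf c ∣ ca * cb → (c * w) ^ e = c := by
    intro c w hc hw h1 h2
    rw [(dade_commute hD hc hw).mul_pow, he.eq_self (orderOf_dvd_iff_pow_eq_one.mp h2),
      he.eq_one (orderOf_dvd_iff_pow_eq_one.mp h1), mul_one]
  have hord : ∀ c : G, c ∈ A → orderOf c ∣ Nat.card ↥(L ⊓ Subgroup.centralizer ({c} : Set G)) :=
    fun c hc => Subgroup.orderOf_dvd_natCard _ ⟨hD.subset hc, Subgroup.mem_centralizer_singleton_iff.mpr rfl⟩
  have h3 := congrArg (· ^ e) h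
  simp only [conj_pow] at h3
  rwa [key a u ha hu (dvd_mul_of_dvd_left ((H a).orderOf_dvd_natCard hu) _)
      (dvd_mul_of_dvd_left (hord a ha) _),
    key b v hb hv (dvd_mul_of_dvd_right ((H b).orderOf_dvd_natCard hv) _)
      (dvd_mul_of_dvd_right (hord b hb) _)] at h3

theorem dade_fusion [Finite G] (hD : DadeHypothesis A L H) {a b u v g : G} (ha : a ∈ A) (hb : b ∈ A)
    (hu : u ∈ H a) (hv : v ∈ H b) (h : g * (a * u) * g⁻¹ = b * v) :
    ∃ x ∈ L, x * a * x⁻¹ = b := by
  have h' := dade_unique hD ha hb hu hv h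
  obtain ⟨x, hx, he⟩ := hD.fusion a ha g (by rwa [h'])
  exact ⟨x, hx, he.trans h'⟩

theorem dade_apply [Finite G] (hD : DadeHypothesis A L H) {α : L → ℂ} (hα : IsClassFunction L α)
    {a : L} (ha : (a : G) ∈ A) {g x u : G} (hu : u ∈ H (a : G)) (h : x * g * x⁻¹ = (a : G) * u) :
    dadeIsometry A L H α g = α a := by
  have hex : ∃ a : L, (a : G) ∈ A ∧ ∃ x : G, ∃ u ∈ H (a : G), x * g * x⁻¹ = (a : G) * u :=
    ⟨a, ha, x, u, hu, h⟩
  rw [dadeIsometry, dif_pos hex]
  obtain ⟨hb, y, w, hw, h'⟩ := Classical.choose_spec hex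
  obtain ⟨z, hz, hze⟩ := dade_fusion hD ha hb hu hw (g := y * x⁻¹) (by rw [← h, ← h']; group)
  have : Classical.choose hex = (⟨z, hz⟩ : L) * a * (⟨z, hz⟩ : L)⁻¹ := Subtype.ext hze.symm
  rw [this, hα]

theorem dade_eq_zero (α : L → ℂ) {g : G}
    (h : ¬ ∃ a : L, (a : G) ∈ A ∧ ∃ x : G, ∃ u ∈ H (a : G), x * g * x⁻¹ = (a : G) * u) :
    dadeIsometry A L H α g = 0 := by
  rw [dadeIsometry, dif_neg h]

theorem dade_classFunction [Finite G] (hD : DadeHypothesis A L H) {α : L → ℂ}
    (hα : IsClassFunction L α) : IsClassFunction G (dadeIsometry A L H α) := by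
  intro g z
  by_cases h : ∃ a : L, (a : G) ∈ A ∧ ∃ x : G, ∃ u ∈ H (a : G), x * g * x⁻¹ = (a : G) * u
  · obtain ⟨a, ha, x, u, hu, he⟩ := h
    rw [dade_apply hD hα ha hu he, dade_apply hD hα ha hu (x := x * z⁻¹) (g := z * g * z⁻¹) (by rw [← he]; group)]
  · rw [dade_eq_zero α h, dade_eq_zero α]
    rintro ⟨a, ha, x, u, hu, he⟩
    exact h ⟨a, ha, x * z, u, hu, by rw [← he]; group⟩

open scoped Classical in
/-- The average of `f` over the coset `a H(a)`. -/
noncomputable def dadeAvg [Fintype G] (H : G → Subgroup G) (f : G → ℂ) (a : G) : ℂ :=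
  (Nat.card (H a) : ℂ)⁻¹ * ∑ u : H a, f (a * u)

theorem dadeAvg_finsum [Fintype G] (f : G → ℂ) (a : G) :
    (Nat.card (H a) : ℂ)⁻¹ * ∑ᶠ u ∈ (H a : Set G), f (a * u) = dadeAvg H f a := by
  classical
  rw [dadeAvg, ← finsum_set_coe_eq_finsum_mem, finsum_eq_sum_of_fintype]
  rfl

/-- Summation of a Dade image against a class function. -/
theorem dade_sum [Fintype G] [Fintype L] (hD : DadeHypothesis A L H) {α : L → ℂ}
    (hα : IsClassFunction L α) (hαA : ∀ x : L, (x : G) ∉ A → α x = 0) {f : G → ℂ}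
    (hf : IsClassFunction G f) :
    (Nat.card L : ℂ) * ∑ g, dadeIsometry A L H α g * f g =
      (Nat.card G : ℂ) * ∑ a : L, α a * dadeAvg H f (a : G) := by
  classical
  set T : L → G → G → ℕ := fun a x g =>
    (Finset.univ.filter fun u : H (a : G) => x * g * x⁻¹ = (a : G) * u).card with hT
  -- the weight of each point of the support
  have hw : ∀ g, (Nat.card L : ℂ) * (dadeIsometry A L H α g * f g) =
      ∑ a : L, α a * (Nat.card (H (a : G)) : ℂ)⁻¹ * ∑ x : G, ∑ u : H (a : G),
        if x * g * x⁻¹ = (a : G) * u then f g else 0 := by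
    intro g
    by_cases hg : ∃ a : L, (a : G) ∈ A ∧ ∃ x : G, ∃ u ∈ H (a : G), x * g * x⁻¹ = (a : G) * u
    swap
    · rw [dade_eq_zero α hg, zero_mul, mul_zero, eq_comm]
      refine Finset.sum_eq_zero fun a _ => ?_
      by_cases ha : (a : G) ∈ A
      · refine mul_eq_zero_of_right _ (Finset.sum_eq_zero fun x _ => Finset.sum_eq_zero fun u _ => ?_)
        rw [if_neg fun h => hg ⟨a, ha, x, u, u.2, h⟩]
      · rw [hαA a ha, zero_mul, zero_mul]
    obtain ⟨a₀, ha₀, x₀, u₀, hu₀, h₀⟩ := hg
    rw [dade_apply hD hα ha₀ hu₀ h₀]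
    have hsum : ∀ a : L, α a * (Nat.card (H (a : G)) : ℂ)⁻¹ *
        (∑ x : G, ∑ u : H (a : G), if x * g * x⁻¹ = (a : G) * u then f g else 0) =
        α a₀ * (Nat.card (H (a₀ : G)) : ℂ)⁻¹ * f g *
          (if (a : G) ∈ A then (∑ x : G, T a x g : ℕ) else 0 : ℕ) := fun a => by
      by_cases ha : (a : G) ∈ A
      swap
      · rw [hαA a ha, if_neg ha, Nat.cast_zero, mul_zero, zero_mul, zero_mul]
      rw [if_pos ha]
      by_cases hex : ∃ x : G, ∃ u ∈ H (a : G), x * g * x⁻¹ = (a : G) * u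
      · obtain ⟨x, u, hu, hx⟩ := hex
        obtain ⟨z, hz, hze⟩ := dade_fusion hD ha₀ ha hu₀ hu (g := x * x₀⁻¹) (by rw [← h₀, ← hx]; group)
        have ea : a = (⟨z, hz⟩ : L) * a₀ * (⟨z, hz⟩ : L)⁻¹ := Subtype.ext hze.symm
        have eH : Nat.card (H (a : G)) = Nat.card (H (a₀ : G)) := by
          rw [← hze, dade_conj hD ha₀ hz, Subgroup.card_map_of_injective (MulAut.conj z).injective]
        rw [ea, hα, ← ea, eH]
        simp only [Finset.sum_ite, Finset.sum_const_zero, add_zero, Finset.sum_const, nsmul_eq_mul, hT]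
        push_cast
        rw [← Finset.sum_mul]
        ring
      · have h0 : ∀ x : G, T a x g = 0 := fun x => by
          rw [hT]; simp only [Finset.card_eq_zero, Finset.filter_eq_empty_iff]
          exact fun u _ h => hex ⟨x, u, u.2, h⟩
        simp only [h0, Finset.sum_const_zero, Nat.cast_zero, mul_zero]
        rw [Finset.sum_eq_zero fun x _ => Finset.sum_eq_zero fun u _ => ?_, mul_zero]
        rw [if_neg fun h => hex ⟨x, u, u.2, h⟩]
    rw [Finset.sum_congr rfl fun a _ => hsum a, ← Finset.mul_sum]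
    have hcount : ∑ a : L, (if (a : G) ∈ A then ∑ x : G, T a x g else 0) =
        Nat.card L * Nat.card (H (a₀ : G)) := by
      rw [← Finset.sum_filter, Nat.card_eq_fintype_card, Nat.card_eq_fintype_card,
        ← Fintype.card_prod, ← Finset.card_univ]
      simp only [hT, ← Finset.card_sigma]
      symm
      have hLA : ∀ l : L, (l : G) * (a₀ : G) * (l : G)⁻¹ ∈ A := fun l => hD.conj_mem l l.2 a₀ ha₀
      have hcw : ∀ w : H (a₀ : G), (w : G) * u₀ * (w : G)⁻¹ ∈ H (a₀ : G) := fun w =>
        (H (a₀ : G)).mul_mem ((H (a₀ : G)).mul_mem w.2 hu₀) ((H (a₀ : G)).inv_mem w.2)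
      refine Finset.card_bij (fun p _ => ⟨p.1 * a₀ * p.1⁻¹, (p.1 : G) * (p.2 : G) * x₀,
        ⟨(p.1 : G) * ((p.2 : G) * u₀ * (p.2 : G)⁻¹) * (p.1 : G)⁻¹, by
          rw [show ((p.1 * a₀ * p.1⁻¹ : L) : G) = (p.1 : G) * a₀ * (p.1 : G)⁻¹ from rfl,
            dade_conj hD ha₀ p.1.2]
          exact ⟨_, hcw p.2, rfl⟩⟩⟩) (fun p _ => ?_) (fun p _ q _ e => ?_) fun s hs => ?_
      · simp only [Finset.mem_sigma, Finset.mem_filter, Finset.mem_univ, true_and]
        refine ⟨hLA p.1, ?_⟩
        show (p.1 : G) * p.2 * x₀ * g * ((p.1 : G) * p.2 * x₀)⁻¹ =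
          (p.1 : G) * a₀ * (p.1 : G)⁻¹ * ((p.1 : G) * ((p.2 : G) * u₀ * (p.2 : G)⁻¹) * (p.1 : G)⁻¹)
        have hc := dade_commute hD ha₀ p.2.2
        calc (p.1 : G) * p.2 * x₀ * g * ((p.1 : G) * p.2 * x₀)⁻¹
            = (p.1 : G) * p.2 * (x₀ * g * x₀⁻¹) * (p.2 : G)⁻¹ * (p.1 : G)⁻¹ := by group
          _ = (p.1 : G) * ((p.2 : G) * a₀) * u₀ * (p.2 : G)⁻¹ * (p.1 : G)⁻¹ := by rw [h₀]; group
          _ = _ := by rw [← hc.eq]; group
      · simp only [Sigma.mk.injEq] at e
        obtain ⟨e1, e2⟩ := e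
        have e3 : (p.1 : G) * p.2 * x₀ = (q.1 : G) * q.2 * x₀ := by
          have := congrArg (fun s : (a : L) × ((x : G) × H (a : G)) => s.2.1)
            (show (⟨p.1 * a₀ * p.1⁻¹, (p.1 : G) * (p.2 : G) * x₀, _⟩ : (a : L) × ((x : G) × H (a : G))) =
              ⟨q.1 * a₀ * q.1⁻¹, (q.1 : G) * (q.2 : G) * x₀, _⟩ from Sigma.ext e1 e2)
          exact this
        have e4 := mul_right_cancel e3
        have h5 : (q.1 : G)⁻¹ * p.1 ∈ H (a₀ : G) := by
          rw [show (q.1 : G)⁻¹ * p.1 = q.2 * (p.2 : G)⁻¹ by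
            rw [← mul_inv_eq_iff_eq_mul.mpr e4.symm]; group]
          exact (H (a₀ : G)).mul_mem q.2.2 ((H (a₀ : G)).inv_mem p.2.2)
        have h6 : (q.1 : G)⁻¹ * p.1 ∈ H (a₀ : G) ⊓ (L ⊓ Subgroup.centralizer ({(a₀ : G)} : Set G)) :=
          ⟨h5, L.mul_mem (L.inv_mem q.1.2) p.1.2, hD.le_centralizer _ ha₀ h5⟩
        rw [hD.inf_eq_bot _ ha₀, Subgroup.mem_bot, inv_mul_eq_one] at h6
        rw [← h6] at e4
        exact Prod.ext (Subtype.ext h6.symm) (Subtype.ext (mul_left_cancel e4))
      · obtain ⟨a, x, u⟩ := s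
        simp only [Finset.mem_sigma, Finset.mem_filter, Finset.mem_univ, true_and] at hs
        obtain ⟨ha, hx⟩ := hs
        have h1 : x * x₀⁻¹ * (a₀ : G) * (x * x₀⁻¹)⁻¹ = a :=
          dade_unique hD ha₀ ha hu₀ u.2 (by rw [← h₀, ← hx]; group)
        obtain ⟨z, hz, hze⟩ := hD.fusion _ ha₀ (x * x₀⁻¹) (by rwa [h1])
        rw [h1] at hze
        have h7 : z⁻¹ * (x * x₀⁻¹) ∈ Subgroup.centralizer ({(a₀ : G)} : Set G) := by
          rw [Subgroup.mem_centralizer_singleton_iff]
          calc z⁻¹ * (x * x₀⁻¹) * (a₀ : G)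
              = z⁻¹ * (x * x₀⁻¹ * (a₀ : G) * (x * x₀⁻¹)⁻¹) * (x * x₀⁻¹) := by group
            _ = (a₀ : G) * (z⁻¹ * (x * x₀⁻¹)) := by rw [h1, ← hze]; group
        obtain ⟨w, hw, c, hc, he⟩ := dade_decompose hD ha₀ h7
        have hcC := Subgroup.mem_centralizer_singleton_iff.mp hc.2
        refine ⟨(⟨z * c, L.mul_mem hz hc.1⟩, ⟨c⁻¹ * w * c, ?_⟩), Finset.mem_univ _, ?_⟩
        · have := hD.conj_mem_H _ ha₀ c⁻¹
            ((Subgroup.centralizer ({(a₀ : G)} : Set G)).inv_mem hc.2) w hw
          simpa using this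
        have ex : z * c * (c⁻¹ * w * c) * x₀ = x := by
          rw [show z * c * (c⁻¹ * w * c) * x₀ = z * (w * c) * x₀ by group, ← he]; group
        have ea : (⟨z * c, L.mul_mem hz hc.1⟩ : L) * a₀ * (⟨z * c, L.mul_mem hz hc.1⟩ : L)⁻¹ = a := by
          refine Subtype.ext ?_
          show z * c * (a₀ : G) * (z * c)⁻¹ = a
          rw [← hze, mul_assoc z, hcC]; group
        subst ea
        refine Sigma.ext rfl (heq_of_eq (Sigma.subtype_ext ex ?_))
        show z * c * (c⁻¹ * w * c * u₀ * (c⁻¹ * w * c)⁻¹) * (z * c)⁻¹ = u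
        refine mul_left_cancel (a := z * c * (a₀ : G) * (z * c)⁻¹) (Eq.trans ?_ hx)
        have hc2 := dade_commute hD ha₀ hw
        calc z * c * (a₀ : G) * (z * c)⁻¹ * (z * c * (c⁻¹ * w * c * u₀ * (c⁻¹ * w * c)⁻¹) * (z * c)⁻¹)
            = z * (c * (a₀ : G)) * c⁻¹ * w * c * u₀ * c⁻¹ * w⁻¹ * z⁻¹ := by group
          _ = z * ((a₀ : G) * w) * c * u₀ * c⁻¹ * w⁻¹ * z⁻¹ := by rw [hcC]; group
          _ = z * w * ((a₀ : G) * c) * u₀ * c⁻¹ * w⁻¹ * z⁻¹ := by rw [hc2.eq]; group
          _ = z * (w * c) * (x₀ * g * x₀⁻¹) * (z * (w * c))⁻¹ := by rw [← hcC, h₀]; group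
          _ = x * g * x⁻¹ := by rw [← he]; group
    rw [← Nat.cast_sum, hcount, Nat.cast_mul]
    field_simp [natCard_ne_zero (H (a₀ : G))]
  rw [Finset.mul_sum, Finset.sum_congr rfl fun g _ => hw g, Finset.sum_comm, Finset.mul_sum]
  refine Finset.sum_congr rfl fun a _ => ?_
  rw [← Finset.mul_sum, dadeAvg]
  have hx : ∀ x : G, ∑ g : G, ∑ u : H (a : G), (if x * g * x⁻¹ = (a : G) * u then f g else 0) =
      ∑ u : H (a : G), f ((a : G) * u) := fun x => by
    rw [Finset.sum_comm]
    refine Finset.sum_congr rfl fun u _ => ?_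
    rw [Finset.sum_eq_single (x⁻¹ * ((a : G) * u) * x) (fun g _ hg => if_neg fun h => hg (by
      rw [← h]; group)) (fun h => absurd (Finset.mem_univ _) h), if_pos (by group)]
    simpa using hf ((a : G) * u) x⁻¹
  rw [Finset.sum_comm, Finset.sum_congr rfl fun x _ => hx x, Finset.sum_const, Finset.card_univ,
    nsmul_eq_mul, ← Nat.card_eq_fintype_card]
  ring

theorem dade_conj_val [Fintype G] (α : L → ℂ) (g : G) :
    conj (dadeIsometry A L H α g) = dadeIsometry A L H (fun x => conj (α x)) g := by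
  unfold dadeIsometry
  split_ifs with h
  · rfl
  · rw [map_zero]

/-- The Dade map is an isometry on functions supported in `A`, and its adjoint is the coset average. -/
theorem dade_inner [Fintype G] [Fintype L] (hD : DadeHypothesis A L H) {α : L → ℂ}
    (hα : IsClassFunction L α) (hαA : ∀ x : L, (x : G) ∉ A → α x = 0) {χ : G → ℂ}
    (hχ : IsClassFunction G χ) {ψ : L → ℂ}
    (hψ : ∀ a : L, (a : G) ∈ A → ψ a = dadeAvg H χ (a : G)) :
    classInner (dadeIsometry A L H α) χ = classInner α ψ := by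
  have h := dade_sum hD hα hαA (f := fun g => conj (χ g)) fun g z => by simp only [hχ g z]
  have h2 : ∀ a : L, α a * dadeAvg H (fun g => conj (χ g)) (a : G) = α a * conj (ψ a) := fun a => by
    by_cases ha : (a : G) ∈ A
    · rw [hψ a ha]
      congr 1
      simp [dadeAvg, map_sum, map_inv₀]
    · rw [hαA a ha, zero_mul, zero_mul]
  rw [Finset.sum_congr rfl fun a _ => h2 a] at h
  simp only [classInner]
  field_simp [natCard_ne_zero G, natCard_ne_zero L]
  linear_combination h

theorem dade_isometry [Fintype G] [Fintype L] (hD : DadeHypothesis A L H) {α β : L → ℂ}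
    (hα : IsClassFunction L α) (hαA : ∀ x : L, (x : G) ∉ A → α x = 0)
    (hβ : IsClassFunction L β) :
    classInner (dadeIsometry A L H α) (dadeIsometry A L H β) = classInner α β := by
  classical
  refine dade_inner hD hα hαA (dade_classFunction hD hβ) fun a ha => ?_
  rw [dadeAvg, Finset.sum_congr rfl (g := fun _ => β a) (fun u _ =>
    dade_apply hD hβ ha u.2 (x := 1) (by group)), Finset.sum_const, nsmul_eq_mul, Finset.card_univ,
    ← Nat.card_eq_fintype_card, ← mul_assoc, inv_mul_cancel₀ (natCard_ne_zero (H (a : G))), one_mul]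

/-- The Dade image of a virtual character is a virtual character. -/
theorem dade_genChar [Fintype G] [Fintype L] (hD : DadeHypothesis A L H) {α : L → ℂ}
    (hα : IsGeneralizedCharacter L α) (hαA : ∀ x : L, (x : G) ∉ A → α x = 0) :
    IsGeneralizedCharacter G (dadeIsometry A L H α) := by
  classical
  have hαc := isGenChar_classFunction hα
  refine isGenChar_iff_int.mpr ⟨dade_classFunction hD hαc, fun χ hχ => ?_⟩
  have hχc := isCharacter_classFunction hχ.isCharacter'
  rw [dade_inner hD hαc hαA hχc (ψ := fun a : L => dadeAvg H χ (a : G)) fun a _ => rfl]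
  set 𝒮 := Finset.univ.filter fun S : Finset G => S.Nonempty ∧ (↑S : Set G) ⊆ A with h𝒮
  set K : Finset G → Subgroup G := fun S => ⨅ b ∈ S, H b with hK
  set σ : L → Finset G → Finset G := fun l S => S.map (MulAut.conj (l : G)).toEquiv.toEmbedding with hσ
  set P : Finset G → ℂ → L → ℂ := fun S c a => if σ a S = S then c else 0 with hP
  have hmemσ : ∀ (l : L) S (y : G), y ∈ σ l S ↔ (l : G)⁻¹ * y * l ∈ S := fun l S y => by
    rw [hσ, Finset.mem_map]
    constructor
    · rintro ⟨b, hb, rfl⟩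
      simpa [mul_assoc] using hb
    · exact fun h => ⟨_, h, by simp [mul_assoc]⟩
  have hσ1 : ∀ S, σ 1 S = S := fun S => by ext y; simp [hmemσ]
  have hσmul : ∀ a b S, σ (a * b) S = σ a (σ b S) := fun a b S => by
    ext y; simp [hmemσ, mul_assoc]
  have hσS : ∀ (l : L) S, S ∈ 𝒮 → σ l S ∈ 𝒮 := fun l S hS => by
    rw [h𝒮, Finset.mem_filter] at hS ⊢
    refine ⟨Finset.mem_univ _, hS.2.1.map, fun y hy => ?_⟩
    have h := hD.conj_mem l l.2 _ (hS.2.2 ((hmemσ l S y).mp hy))
    simpa [mul_assoc] using h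
  have hKconj : ∀ (l : L) S, S ∈ 𝒮 → ∀ x : G, x ∈ K (σ l S) ↔ (l : G)⁻¹ * x * l ∈ K S := by
    intro l S hS x
    rw [h𝒮, Finset.mem_filter] at hS
    simp only [hK, Subgroup.mem_iInf]
    constructor
    · intro h b hb
      have h1 := h ((l : G) * b * (l : G)⁻¹) (by rw [hmemσ]; simpa [mul_assoc] using hb)
      rw [dade_conj hD (hS.2.2 hb) l.2] at h1
      obtain ⟨u, hu, rfl⟩ := h1
      simpa [mul_assoc] using hu
    · intro h y hy
      have h1 := h _ ((hmemσ l S y).mp hy)
      rw [show y = (l : G) * ((l : G)⁻¹ * y * l) * (l : G)⁻¹ by group,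
        dade_conj hD (hS.2.2 ((hmemσ l S y).mp hy)) l.2]
      exact ⟨_, h1, by simp [mul_assoc]⟩
  -- averages
  set W : Finset G → L → ℂ := fun S a =>
    (Nat.card (K S) : ℂ)⁻¹ * ∑ k : K S, conj (χ ((k : G) * a)) with hW
  set Q : Finset G → ℂ := fun S => ∑ a : L, P S (α a * W S a) a with hQ
  -- the alternating sum
  have hmain : ∀ a : L, α a * conj (dadeAvg H χ (a : G)) =
      ∑ S ∈ 𝒮, (-1 : ℂ) ^ (S.card + 1) * P S (α a * W S a) a := by
    intro a
    by_cases ha : (a : G) ∈ A
    swap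
    · rw [hαA a ha, zero_mul, eq_comm]
      exact Finset.sum_eq_zero fun S _ => by simp [hP]
    have hsingle : σ a {(a : G)} = {(a : G)} := by
      ext y; simp only [hmemσ, Finset.mem_singleton]
      exact ⟨fun h => by calc y = (a : G) * ((a : G)⁻¹ * y * a) * (a : G)⁻¹ := by group
                          _ = a := by rw [h]; group, fun h => by rw [h]; group⟩
    have hKa : K {(a : G)} = H (a : G) := by simp [hK]
    have hsub : ∀ S ∈ 𝒮, σ a S = S → W (insert (a : G) S) a = W S a := fun S hS hfix => by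
      have hS' := (Finset.mem_filter.mp hS).2
      have hnorm : (a : G) ∈ Subgroup.normalizer (K S : Set G) := by
        rw [Subgroup.mem_normalizer_iff]
        intro x
        have h := hKconj a S hS ((a : G) * x * (a : G)⁻¹)
        rw [hfix] at h
        simpa [mul_assoc] using h.symm
      obtain ⟨b, hb⟩ := hS'.1
      have hKb : K S ≤ H b := iInf₂_le b hb
      have hcop : (Nat.card (K S)).Coprime (orderOf (a : G)) :=
        ((hD.coprime b (hS'.2 hb) _ ha).coprime_dvd_left (Subgroup.card_dvd_of_le hKb)).coprime_dvd_right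
          ((L ⊓ Subgroup.centralizer ({(a : G)} : Set G)).orderOf_dvd_natCard
            ⟨a.2, Subgroup.mem_centralizer_singleton_iff.mpr rfl⟩)
      have hC : ∀ x : G, x ∈ K (insert (a : G) S) ↔ x ∈ K S ∧ x * a = a * x := fun x => by
        simp only [hK, Finset.iInf_insert, Subgroup.mem_inf]
        refine ⟨fun h => ⟨h.2, (dade_commute hD ha h.1).eq.symm⟩, fun h => ⟨?_, h.1⟩⟩
        refine dade_mem_of_coprime hD ha (Subgroup.mem_centralizer_singleton_iff.mpr h.2)
          ((hD.coprime b (hS'.2 hb) _ ha).coprime_dvd_left ((H b).orderOf_dvd_natCard (hKb h.1)))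
      exact (avg_coset (K S) hnorm hcop _ hC (f := fun g => conj (χ g))
        fun g z => by simp only [hχc g z]).symm
    rw [Finset.sum_eq_add_sum_sdiff_singleton_of_mem (i := ({(a : G)} : Finset G))
      (Finset.mem_filter.mpr ⟨Finset.mem_univ _, Finset.singleton_nonempty _, by simpa using ha⟩)]
    have h1 : (-1 : ℂ) ^ (({(a : G)} : Finset G).card + 1) * P {(a : G)} (α a * W {(a : G)} a) a =
        α a * conj (dadeAvg H χ (a : G)) := by
      have key : ∀ K' : Subgroup G, K' = H (a : G) →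
          (Nat.card K' : ℂ)⁻¹ * ∑ k : K', conj (χ ((k : G) * a)) = conj (dadeAvg H χ (a : G)) := by
        rintro _ rfl
        simp only [dadeAvg, map_mul, map_inv₀, map_natCast, map_sum]
        congr 1
        exact Finset.sum_congr rfl fun u _ => by rw [(dade_commute hD ha u.2).eq]
      simp only [Finset.card_singleton, hP, if_pos hsingle, hW, key _ hKa]
      ring
    rw [h1, left_eq_add]
    refine Finset.sum_involution
      (fun S _ => if (a : G) ∈ S then S.erase (a : G) else insert (a : G) S)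
      (fun S hS => ?_) (fun S hS _ => ?_) (fun S hS => ?_) (fun S hS => ?_)
    all_goals
      obtain ⟨hS, hne⟩ := Finset.mem_sdiff.mp hS
      have hS' := (Finset.mem_filter.mp hS).2
      rw [Finset.mem_singleton] at hne
    · by_cases has : (a : G) ∈ S
      · rw [if_pos has]
        have hne2 : (S.erase (a : G)).Nonempty := by
          rw [Finset.nonempty_iff_ne_empty]
          intro e
          rw [Finset.erase_eq_empty_iff] at e
          rcases e with e | e
          · exact hS'.1.ne_empty e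
          · exact hne e
        have hT : S.erase (a : G) ∈ 𝒮 := Finset.mem_filter.mpr ⟨Finset.mem_univ _, hne2,
          fun y hy => hS'.2 (Finset.mem_of_mem_erase hy)⟩
        have hiff : σ a (S.erase (a : G)) = S.erase (a : G) ↔ σ a S = S := by
          conv_rhs => rw [← Finset.insert_erase has]
          rw [show σ a (insert (a : G) (S.erase (a : G))) = insert (a : G) (σ a (S.erase (a : G))) by
            ext y
            simp only [hmemσ, Finset.mem_insert]
            refine or_congr_left ⟨fun h => ?_, fun h => by rw [h]; group⟩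
            calc y = (a : G) * ((a : G)⁻¹ * y * a) * (a : G)⁻¹ := by group
              _ = a := by rw [h]; group]
          refine ⟨fun h => by rw [h], fun h => ?_⟩
          have hn : (a : G) ∉ σ a (S.erase (a : G)) := by
            rw [hmemσ]; simp
          rw [← Finset.erase_insert hn, h, Finset.erase_insert (Finset.notMem_erase _ _)]
        by_cases hfix : σ a S = S
        · have h2 := hsub _ hT (hiff.mpr hfix)
          rw [Finset.insert_erase has] at h2
          simp only [hP, if_pos hfix, if_pos (hiff.mpr hfix), h2]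
          rw [← Finset.card_erase_add_one has, pow_succ]; ring
        · simp only [hP, if_neg hfix, if_neg (fun h => hfix (hiff.mp h)), mul_zero, add_zero]
      · rw [if_neg has]
        have hins : σ a (insert (a : G) S) = insert (a : G) (σ a S) := by
          ext y
          simp only [hmemσ, Finset.mem_insert]
          refine or_congr_left ⟨fun h => ?_, fun h => by rw [h]; group⟩
          calc y = (a : G) * ((a : G)⁻¹ * y * a) * (a : G)⁻¹ := by group
            _ = a := by rw [h]; group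
        have hiff : σ a (insert (a : G) S) = insert (a : G) S ↔ σ a S = S := by
          rw [hins]
          refine ⟨fun h => ?_, fun h => by rw [h]⟩
          have hn : (a : G) ∉ σ a S := by rw [hmemσ]; simpa using has
          rw [← Finset.erase_insert hn, h, Finset.erase_insert has]
        by_cases hfix : σ a S = S
        · simp only [hP, if_pos hfix, if_pos (hiff.mpr hfix), hsub S hS hfix,
            Finset.card_insert_of_notMem has, pow_succ]
          ring
        · simp only [hP, if_neg hfix, if_neg (fun h => hfix (hiff.mp h)), mul_zero, add_zero]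
    · by_cases has : (a : G) ∈ S
      · rw [if_pos has]; exact fun e => Finset.erase_ne_self.mpr has e
      · rw [if_neg has]; exact fun e => has (e ▸ Finset.mem_insert_self _ _)
    · rw [Finset.mem_sdiff, Finset.mem_singleton]
      by_cases has : (a : G) ∈ S
      · rw [if_pos has]
        have hne2 : (S.erase (a : G)).Nonempty := by
          rw [Finset.nonempty_iff_ne_empty]
          intro e
          rw [Finset.erase_eq_empty_iff] at e
          rcases e with e | e
          · exact hS'.1.ne_empty e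
          · exact hne e
        exact ⟨Finset.mem_filter.mpr ⟨Finset.mem_univ _, hne2,
          fun y hy => hS'.2 (Finset.mem_of_mem_erase hy)⟩,
          fun e => Finset.notMem_erase (a : G) S (e ▸ Finset.mem_singleton_self _)⟩
      · rw [if_neg has]
        refine ⟨Finset.mem_filter.mpr ⟨Finset.mem_univ _, Finset.insert_nonempty _ _, ?_⟩, fun e => ?_⟩
        · rw [Finset.coe_insert]; exact Set.insert_subset ha hS'.2
        · obtain ⟨b, hb⟩ := hS'.1
          have := Finset.mem_insert_of_mem (b := (a : G)) hb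
          rw [e, Finset.mem_singleton] at this
          exact has (this ▸ hb)
    · by_cases has : (a : G) ∈ S
      · simp [has, Finset.insert_erase]
      · simp [has, Finset.erase_insert]
  -- each term is an integer multiple of the stabiliser order
  set st : Finset G → Subgroup L := fun S =>
    { carrier := {a | σ a S = S}
      mul_mem' := fun {x y} hx hy => by
        show σ (x * y) S = S
        rw [hσmul, show σ y S = S from hy, show σ x S = S from hx]
      one_mem' := hσ1 S
      inv_mem' := fun {x} hx => by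
        show σ x⁻¹ S = S
        conv_lhs => rw [← (show σ x S = S from hx)]
        rw [← hσmul, inv_mul_cancel, hσ1] } with hst
  have hQint : ∀ S ∈ 𝒮, ∃ z : ℤ, Q S = (Nat.card (st S) : ℂ) * z := fun S hS => by
    set N' := (st S).map L.subtype with hN'
    have hN : N' ≤ Subgroup.normalizer (K S : Set G) := by
      rintro _ ⟨l, hl, rfl⟩
      rw [Subgroup.mem_normalizer_iff]
      intro x
      have h := hKconj l S hS ((l : G) * x * (l : G)⁻¹)
      rw [show σ l S = S from hl] at h
      simpa [mul_assoc] using h.symm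
    haveI : Fintype N' := Fintype.ofFinite _
    let e : st S ≃* N' := (st S).equivMapOfInjective L.subtype L.subtype_injective
    have hφ : IsCharacter (st S) (fun l : st S => (Nat.card (K S) : ℂ)⁻¹ * ∑ k : K S, χ ((k : G) * l)) :=
      isCharacter_comp (isCharacter_avg (K S) N' hN hχ.isCharacter') e.toMonoidHom
    obtain ⟨z, hz⟩ := inner_genChar_int (G := st S)
      (θ := fun l : st S => α l) (φ := fun l : st S => (Nat.card (K S) : ℂ)⁻¹ * ∑ k : K S, χ ((k : G) * l))
      (by obtain ⟨c, d, hc, hd, rfl⟩ := hα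
          exact ⟨_, _, isCharacter_restrict hc (st S), isCharacter_restrict hd (st S), rfl⟩)
      (isGenChar_of_isCharacter hφ)
    refine ⟨z, ?_⟩
    rw [← hz, classInner, ← mul_assoc, mul_inv_cancel₀ (natCard_ne_zero (st S)), one_mul]
    simp only [hQ, hP]
    rw [← Finset.sum_filter, Finset.sum_subtype _ (p := fun a : L => a ∈ st S) (fun a => by
      simp [hst])]
    refine Finset.sum_congr rfl fun l _ => ?_
    simp only [hW, map_mul, map_inv₀, map_natCast, map_sum]
  have hQinv : ∀ (l : L), ∀ S ∈ 𝒮, Q (σ l S) = Q S := fun l S hS => by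
    simp only [hQ]
    refine (Fintype.sum_equiv (MulAut.conj l).toEquiv _ _ fun a => ?_).symm
    show P S (α a * W S a) a = P (σ l S) (α (l * a * l⁻¹) * W (σ l S) (l * a * l⁻¹)) (l * a * l⁻¹)
    have hiff : σ (l * a * l⁻¹) (σ l S) = σ l S ↔ σ a S = S := by
      rw [← hσmul, show l * a * l⁻¹ * l = l * a by group, hσmul]
      refine ⟨fun h => ?_, fun h => by rw [h]⟩
      have := congrArg (σ l⁻¹) h
      rwa [← hσmul l⁻¹ l, ← hσmul l⁻¹ l, inv_mul_cancel, hσ1, hσ1] at this
    have hW' : W (σ l S) (l * a * l⁻¹) = W S a := by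
      simp only [hW]
      let e : K S ≃ K (σ l S) :=
        { toFun := fun k => ⟨(l : G) * k * (l : G)⁻¹,
            (hKconj l S hS _).mpr (by simp [mul_assoc])⟩
          invFun := fun k => ⟨(l : G)⁻¹ * k * l, (hKconj l S hS _).mp k.2⟩
          left_inv := fun k => Subtype.ext (by simp [mul_assoc])
          right_inv := fun k => Subtype.ext (by simp [mul_assoc]) }
      rw [← Nat.card_congr e, ← e.sum_comp]
      congr 1
      refine Finset.sum_congr rfl fun k _ => ?_
      congr 1
      rw [show ((e k : K (σ l S)) : G) * ((l * a * l⁻¹ : L) : G) = (l : G) * ((k : G) * a) * (l : G)⁻¹ by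
        show (l : G) * k * (l : G)⁻¹ * ((l : G) * a * (l : G)⁻¹) = _
        group, hχc]
    simp only [hP, hiff, isGenChar_classFunction hα a l, hW']
  -- group by orbits
  letI act : MulAction L (Finset G) :=
    { smul := σ
      one_smul := hσ1
      mul_smul := fun a b S => hσmul a b S }
  haveI : Fintype (MulAction.orbitRel.Quotient L (Finset G)) := Fintype.ofFinite _
  set term : Finset G → ℂ := fun S => if S ∈ 𝒮 then (-1 : ℂ) ^ (S.card + 1) * Q S else 0 with hterm
  have horb : ∀ ω : MulAction.orbitRel.Quotient L (Finset G), ∃ z : ℤ,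
      ∑ S ∈ Finset.univ.filter (fun S => Quotient.mk (MulAction.orbitRel L (Finset G)) S = ω), term S =
        (Nat.card L : ℂ) * z := fun ω => by
    set R := Quotient.out ω with hR
    have hfib : ∀ S, Quotient.mk (MulAction.orbitRel L (Finset G)) S = ω ↔
        S ∈ MulAction.orbit L R := fun S => by
      conv_lhs => rw [← Quotient.out_eq ω]
      rw [Quotient.eq]; exact MulAction.orbitRel_apply
    have hconst : ∀ S ∈ MulAction.orbit L R, term S = term R := by
      rintro _ ⟨l, rfl⟩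
      show term (σ l R) = term R
      have h1 : σ l R ∈ 𝒮 ↔ R ∈ 𝒮 := ⟨fun h => by
        have := hσS l⁻¹ _ h; rwa [← hσmul, inv_mul_cancel, hσ1] at this, hσS l R⟩
      by_cases h : R ∈ 𝒮
      · simp only [hterm, if_pos h, if_pos (h1.mpr h), hQinv l R h]
        rw [show (σ l R).card = R.card from Finset.card_map _]
      · simp only [hterm, if_neg h, if_neg (mt h1.mp h)]
    rw [Finset.sum_congr rfl (fun S hS => hconst S ((hfib S).mp (Finset.mem_filter.mp hS).2)),
      Finset.sum_const, nsmul_eq_mul]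
    by_cases h : R ∈ 𝒮
    swap
    · exact ⟨0, by simp [hterm, h]⟩
    obtain ⟨z, hz⟩ := hQint R h
    refine ⟨(-1) ^ (R.card + 1) * z, ?_⟩
    have hst' : st R = MulAction.stabilizer L R := Subgroup.ext fun a => Iff.rfl
    have hcardo : (Finset.univ.filter fun S => Quotient.mk (MulAction.orbitRel L (Finset G)) S = ω).card *
        Nat.card (st R) = Nat.card L := by
      rw [← Nat.card_eq_finsetCard, Nat.card_congr (Equiv.subtypeEquivRight fun S => by
        rw [Finset.mem_filter]; simp [hfib S] : _ ≃ MulAction.orbit L R), hst']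
      simp only [Nat.card_eq_fintype_card]
      exact MulAction.card_orbit_mul_card_stabilizer_eq_card_group L R
    simp only [hterm, if_pos h, hz]
    rw [← hcardo]
    push_cast
    ring
  choose z hz using horb
  refine ⟨∑ ω, z ω, ?_⟩
  have htot : ∑ a : L, α a * conj (dadeAvg H χ (a : G)) = ∑ S, term S := by
    rw [Finset.sum_congr rfl fun a _ => hmain a, Finset.sum_comm]
    simp only [← Finset.mul_sum, hterm]
    rw [← Finset.sum_filter, Finset.filter_univ_mem]
  rw [classInner, htot, ← Finset.sum_fiberwise Finset.univ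
    (fun S => Quotient.mk (MulAction.orbitRel L (Finset G)) S), Finset.sum_congr rfl fun ω _ => hz ω,
    ← Finset.mul_sum, ← mul_assoc, inv_mul_cancel₀ (natCard_ne_zero L), one_mul, Int.cast_sum]

/-- The norm inequality for coset averages. -/
theorem dade_norm_le [Fintype G] [Fintype L] (hD : DadeHypothesis A L H) {χ : G → ℂ}
    (hχ : IsClassFunction G χ) (ψ : L → ℂ)
    (hψ : ∀ a : L, (a : G) ∈ A → ψ a = dadeAvg H χ (a : G)) :
    (Nat.card L : ℝ)⁻¹ * ∑ᶠ a ∈ {a : L | (a : G) ∈ A}, ‖ψ a‖ ^ 2 ≤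
      (Nat.card G : ℝ)⁻¹ *
        ∑ᶠ g ∈ {g : G | ∃ a ∈ A, ∃ u ∈ H a, ∃ x : G, x * g * x⁻¹ = a * u}, ‖χ g‖ ^ 2 := by
  classical
  set one : L → ℂ := fun a => if (a : G) ∈ A then 1 else 0 with hone
  have hcl : IsClassFunction L one := fun a l => by
    have : ((l * a * l⁻¹ : L) : G) ∈ A ↔ (a : G) ∈ A := by
      refine ⟨fun h => ?_, fun h => hD.conj_mem l l.2 a h⟩
      have := hD.conj_mem (l : G)⁻¹ (L.inv_mem l.2) _ h
      simpa [mul_assoc] using this
    simp only [hone, this]
  have h := dade_sum hD hcl (fun x hx => if_neg hx)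
    (f := fun g => ((‖χ g‖ ^ 2 : ℝ) : ℂ)) fun g z => by simp only [hχ g z]
  have hsupp : ∀ g, dadeIsometry A L H one g =
      if ∃ a ∈ A, ∃ u ∈ H a, ∃ x : G, x * g * x⁻¹ = a * u then 1 else 0 := fun g => by
    split_ifs with hg
    · obtain ⟨a, ha, u, hu, x, hx⟩ := hg
      rw [dade_apply hD hcl (a := ⟨a, hD.subset ha⟩) ha hu hx]
      exact if_pos ha
    · exact dade_eq_zero _ fun ⟨a, ha, x, u, hu, hx⟩ => hg ⟨a, ha, u, hu, x, hx⟩
  simp only [hsupp] at h
  simp only [ite_mul, one_mul, zero_mul, hone, dadeAvg, ← Finset.sum_filter] at h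
  have hreal : (Nat.card L : ℝ) *
      ∑ g ∈ Finset.univ.filter (fun g : G => ∃ a ∈ A, ∃ u ∈ H a, ∃ x : G, x * g * x⁻¹ = a * u), ‖χ g‖ ^ 2 =
      (Nat.card G : ℝ) * ∑ a ∈ Finset.univ.filter (fun a : L => (a : G) ∈ A),
        (Nat.card (H (a : G)) : ℝ)⁻¹ * ∑ u : H (a : G), ‖χ ((a : G) * u)‖ ^ 2 := by
    apply Complex.ofReal_injective
    push_cast at h ⊢
    exact h
  rw [finsum_mem_eq_toFinset_sum, finsum_mem_eq_toFinset_sum, Set.toFinset_ofPred, Set.toFinset_ofPred]
  have hle : ∑ a ∈ Finset.univ.filter (fun a : L => (a : G) ∈ A), ‖ψ a‖ ^ 2 ≤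
      ∑ a ∈ Finset.univ.filter (fun a : L => (a : G) ∈ A),
        (Nat.card (H (a : G)) : ℝ)⁻¹ * ∑ u : H (a : G), ‖χ ((a : G) * u)‖ ^ 2 := by
    refine Finset.sum_le_sum fun a ha => ?_
    rw [hψ a (Finset.mem_filter.mp ha).2, dadeAvg, norm_mul, norm_inv, Complex.norm_natCast]
    have h1 : ‖∑ u : H (a : G), χ ((a : G) * u)‖ ^ 2 ≤
        (Nat.card (H (a : G)) : ℝ) * ∑ u : H (a : G), ‖χ ((a : G) * u)‖ ^ 2 := by
      refine le_trans (pow_le_pow_left₀ (norm_nonneg _) (norm_sum_le _ _) 2) ?_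
      rw [Nat.card_eq_fintype_card, ← Finset.card_univ]
      exact sq_sum_le_card_mul_sum_sq
    have hc : (0 : ℝ) < Nat.card (H (a : G)) := by exact_mod_cast Nat.card_pos
    rw [mul_pow]
    calc ((Nat.card (H (a : G)) : ℝ)⁻¹) ^ 2 * ‖∑ u : H (a : G), χ ((a : G) * u)‖ ^ 2
        ≤ ((Nat.card (H (a : G)) : ℝ)⁻¹) ^ 2 *
          ((Nat.card (H (a : G)) : ℝ) * ∑ u : H (a : G), ‖χ ((a : G) * u)‖ ^ 2) :=
          mul_le_mul_of_nonneg_left h1 (by positivity)
      _ = _ := by field_simp
  have hL : (0 : ℝ) < Nat.card L := by exact_mod_cast Nat.card_pos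
  have hG : (0 : ℝ) < Nat.card G := by exact_mod_cast Nat.card_pos
  calc _ ≤ (Nat.card L : ℝ)⁻¹ * ∑ a ∈ Finset.univ.filter (fun a : L => (a : G) ∈ A),
        (Nat.card (H (a : G)) : ℝ)⁻¹ * ∑ u : H (a : G), ‖χ ((a : G) * u)‖ ^ 2 :=
        mul_le_mul_of_nonneg_left hle (by positivity)
    _ = _ := by
      rw [inv_mul_eq_div, inv_mul_eq_div, div_eq_div_iff hL.ne' hG.ne']
      linear_combination -hreal

/-- The image of `χ − χ̄` is of the form `μ − μ̄`. -/
theorem dade_sub_conj [Fintype G] [Fintype L] (hD : DadeHypothesis A L H) {χ : L → ℂ}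
    (hχ : IsIrrCharacter L χ) (hsupp : ∀ x : L, x ≠ 1 → (x : G) ∉ A → χ x = 0) :
    ∃ μ : G → ℂ, IsIrrCharacter G μ ∧ dadeIsometry A L H (χ - conjFun χ) = μ - conjFun μ := by
  classical
  by_cases hr : conjFun χ = χ
  · refine ⟨fun _ => 1, isIrrCharacter_one, funext fun g => ?_⟩
    rw [hr, sub_self]
    unfold dadeIsometry
    split_ifs <;> simp [conjFun]
  set β := χ - conjFun χ with hβ
  have hχbar : IsIrrCharacter L (conjFun χ) := isIrrCharacter_conj hχ
  have hβgen : IsGeneralizedCharacter L β :=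
    ⟨χ, conjFun χ, hχ.isCharacter', hχbar.isCharacter', rfl⟩
  obtain ⟨d, hd⟩ := exists_degree hχ.isCharacter'
  have hβA : ∀ x : L, (x : G) ∉ A → β x = 0 := fun x hx => by
    by_cases h1 : x = 1
    · subst h1; simp [hβ, conjFun, hd]
    · simp [hβ, conjFun, hsupp x h1 hx]
  have hgen := dade_genChar hD hβgen hβA
  have hnorm : classInner (dadeIsometry A L H β) (dadeIsometry A L H β) = 2 := by
    rw [dade_isometry hD (isGenChar_classFunction hβgen) hβA (isGenChar_classFunction hβgen), hβ,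
      CfsgLib.Char.inner_sub_left, CfsgLib.Char.inner_sub_right, CfsgLib.Char.inner_sub_right,
      irr_inner_self hχ, irr_inner_self hχbar, irr_inner_ne hχ hχbar (Ne.symm hr),
      irr_inner_ne hχbar hχ hr]
    norm_num
  have h1 : dadeIsometry A L H β 1 = 0 := dade_eq_zero β fun ⟨a, ha, x, u, hu, he⟩ => by
    rw [mul_one, mul_inv_cancel] at he
    have hau : u = (a : G)⁻¹ := eq_inv_of_mul_eq_one_right he.symm
    have h2 : (a : G) ∈ H (a : G) ⊓ (L ⊓ Subgroup.centralizer ({(a : G)} : Set G)) :=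
      ⟨by simpa [hau] using (H (a : G)).inv_mem hu, a.2, Subgroup.mem_centralizer_singleton_iff.mpr rfl⟩
    rw [hD.inf_eq_bot _ ha, Subgroup.mem_bot] at h2
    exact hD.one_not_mem (h2 ▸ ha)
  obtain ⟨μ, ν, hμ, hν, hne, he⟩ := genChar_norm_two hgen hnorm h1
  refine ⟨μ, hμ, ?_⟩
  have hμb : IsIrrCharacter G (conjFun μ) := isIrrCharacter_conj hμ
  have hνb : IsIrrCharacter G (conjFun ν) := isIrrCharacter_conj hν
  have hanti : conjFun μ - conjFun ν = ν - μ := funext fun g => by
    have h2 : conjFun μ g - conjFun ν g = conj (dadeIsometry A L H β g) := by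
      rw [he]; simp [conjFun]
    rw [Pi.sub_apply, h2, dade_conj_val, show (fun x => conj (β x)) = -β from funext fun x => by
      simp [hβ, conjFun], show dadeIsometry A L H (-β) g = -dadeIsometry A L H β g by
        unfold dadeIsometry; split_ifs <;> simp, he]
    simp
  suffices h : ν = conjFun μ by rw [he, h]
  by_contra hne'
  have h3 := congrArg (fun f => classInner f ν) hanti
  simp only [CfsgLib.Char.inner_sub_left, irr_inner_self hν, irr_inner_ne hμ hν hne,
    irr_inner_ne hμb hν (Ne.symm hne'), sub_zero, zero_sub] at h3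
  by_cases hνν : conjFun ν = ν
  · rw [hνν, irr_inner_self hν] at h3; norm_num at h3
  · rw [irr_inner_ne hνb hν hνν] at h3; norm_num at h3

end CfsgLib.Char
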