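import Cfsg.Agent.Lib.CharBrauer2
import Cfsg.Agent.Lib.CharClifford
import Cfsg.Agent.Lib.CharExtend

/-!
# Detection of invariant characters on elementary subgroups

For a normal subgroup of `p`-power index, an invariant irreducible character has, on some
elementary subgroup, an invariant constituent with multiplicity prime to `p`.
-/

set_option autoImplicit false
set_option linter.style.haveILetI false
set_option linter.unusedSectionVars false

namespace CfsgLib.Char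

open Cfsg Representation
open scoped ComplexConjugate

universe u

/-- A sum of an invariant function over a `p`-group action is divisible by `p` when its values
at the fixed points are. -/
theorem dvd_sum_of_fixed {p : ℕ} [hp : Fact p.Prime] {S : Type*} [Group S] (hS : IsPGroup p S)
    {X : Type*} [Fintype X] [MulAction S X] (f : X → ℕ) (hf : ∀ (s : S) (x : X), f (s • x) = f x)
    (h : ∀ x : X, (∀ s : S, s • x = x) → p ∣ f x) : p ∣ ∑ x, f x := by
  classical
  rw [← Finset.sum_fiberwise Finset.univ (Quotient.mk (MulAction.orbitRel S X)) f]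
  refine Finset.dvd_sum fun q _ => ?_
  obtain ⟨a, rfl⟩ := Quotient.exists_rep q
  have hmem : ∀ x, x ∈ Finset.univ.filter
      (fun x => Quotient.mk (MulAction.orbitRel S X) x = Quotient.mk _ a) ↔
      x ∈ MulAction.orbit S a := fun x => by
    rw [Finset.mem_filter, Quotient.eq, MulAction.orbitRel_apply]
    simp
  have hconst : ∀ x ∈ Finset.univ.filter
      (fun x => Quotient.mk (MulAction.orbitRel S X) x = Quotient.mk _ a), f x = f a := fun x hx => by
    obtain ⟨s, rfl⟩ := (hmem x).mp hx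
    exact hf s a
  rw [Finset.sum_congr rfl hconst, Finset.sum_const, smul_eq_mul]
  have hc : (Finset.univ.filter
      (fun x => Quotient.mk (MulAction.orbitRel S X) x = Quotient.mk _ a)).card =
      Nat.card (MulAction.orbit S a) := by
    rw [Nat.card_eq_fintype_card, ← Set.toFinset_card]
    congr 1
    ext x
    rw [hmem, Set.mem_toFinset]
  rw [hc]
  obtain ⟨n, hn⟩ := hS.card_orbit a
  rcases Nat.eq_zero_or_pos n with h0 | h0
  · refine dvd_mul_of_dvd_right (h a fun s => ?_) _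
    rw [h0, pow_zero, Nat.card_eq_one_iff_unique] at hn
    haveI := hn.1
    exact congrArg Subtype.val (Subsingleton.elim (⟨s • a, MulAction.mem_orbit a s⟩ :
      MulAction.orbit S a) ⟨a, MulAction.mem_orbit_self a⟩)
  · exact dvd_mul_of_dvd_left (hn ▸ dvd_pow_self p h0.ne') _

variable {G : Type u} [Group G]

/-- Conjugation by elements of `E` on `E ⊓ N`. -/
def conjInf (E N : Subgroup G) [hN : N.Normal] : E →* MulAut ↥(E ⊓ N) :=
  MonoidHom.mk' (fun g =>
    { toFun := fun x => ⟨g * x * (g : G)⁻¹, Subgroup.mem_inf.mpr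
        ⟨E.mul_mem (E.mul_mem g.2 (Subgroup.mem_inf.mp x.2).1) (E.inv_mem g.2),
          hN.conj_mem (x : G) (Subgroup.mem_inf.mp x.2).2 g⟩⟩
      invFun := fun x => ⟨(g : G)⁻¹ * x * g, Subgroup.mem_inf.mpr
        ⟨E.mul_mem (E.mul_mem (E.inv_mem g.2) (Subgroup.mem_inf.mp x.2).1) g.2,
          by simpa using hN.conj_mem (x : G) (Subgroup.mem_inf.mp x.2).2 (g : G)⁻¹⟩⟩
      left_inv := fun x => Subtype.ext (by simp [mul_assoc])
      right_inv := fun x => Subtype.ext (by simp [mul_assoc])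
      map_mul' := fun x y => Subtype.ext (by simp [mul_assoc]) })
    fun g h => MulEquiv.ext fun x => Subtype.ext (by simp [mul_assoc])

theorem conjInf_apply (E N : Subgroup G) [N.Normal] (g : E) (x : ↥(E ⊓ N)) :
    ((conjInf E N g x : ↥(E ⊓ N)) : G) = g * x * (g : G)⁻¹ := rfl

/-- An invariant character `ϑ` and a character `φ` of `E`, with `⟨φϑ, ϑ⟩` on `E ⊓ N` prime to
`p`, give an invariant constituent of `ϑ` of multiplicity prime to `p`. -/
theorem exists_invariant_constituent [Fintype G] {p : ℕ} [hp : Fact p.Prime] (E N : Subgroup G)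
    [N.Normal] [Fintype ↥(E ⊓ N)] (hE : IsElementary p E) {ϑD lam : ↥(E ⊓ N) → ℂ}
    (hϑD : IsCharacter _ ϑD) (hlam : IsCharacter _ lam)
    (h1 : ∀ (g : E) x, ϑD (conjInf E N g x) = ϑD x)
    (h2 : ∀ (g : E) x, lam (conjInf E N g x) = lam x)
    (hdvd : ∀ c : ℕ, classInner (lam * ϑD) ϑD = c → ¬ p ∣ c) :
    ∃ φ : ↥(E ⊓ N) → ℂ, IsIrrCharacter _ φ ∧ (∀ (g : E) x, φ (conjInf E N g x) = φ x) ∧
      ∃ m : ℕ, ¬ p ∣ m ∧ classInner ϑD φ = m := by
  classical
  haveI := finite_irrCharacter (G := ↥(E ⊓ N))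
  letI := Fintype.ofFinite (IrrCharacter ↥(E ⊓ N))
  by_contra hno
  let σ : E →* Equiv.Perm (IrrCharacter ↥(E ⊓ N)) := MonoidHom.mk' (fun g =>
    { toFun := fun ψ => ⟨(ψ : ↥(E ⊓ N) → ℂ) ∘ conjInf E N g⁻¹, isIrrCharacter_comp_equiv ψ.2 _⟩
      invFun := fun ψ => ⟨(ψ : ↥(E ⊓ N) → ℂ) ∘ conjInf E N g, isIrrCharacter_comp_equiv ψ.2 _⟩
      left_inv := fun ψ => Subtype.ext (funext fun x => by simp)
      right_inv := fun ψ => Subtype.ext (funext fun x => by simp) })
    fun g h => Equiv.ext fun ψ => Subtype.ext (funext fun x => by simp)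
  have hσ : ∀ (g : E) (ψ : IrrCharacter ↥(E ⊓ N)) x,
      (σ g ψ : ↥(E ⊓ N) → ℂ) x = (ψ : ↥(E ⊓ N) → ℂ) (conjInf E N g⁻¹ x) := fun _ _ _ => rfl
  have hP : IsPGroup p σ.range := by
    obtain ⟨z, hz, -, k, hk⟩ := hE
    have hle : Subgroup.zpowers z ≤ σ.ker := by
      rw [Subgroup.zpowers_le, MonoidHom.mem_ker]
      refine Equiv.ext fun ψ => Subtype.ext (funext fun x => ?_)
      rw [hσ, Equiv.Perm.one_apply]
      refine congrArg (ψ : ↥(E ⊓ N) → ℂ) (Subtype.ext ?_)
      have h := Subgroup.mem_center_iff.mp (inv_mem hz)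
        ⟨(x : G), (Subgroup.mem_inf.mp x.2).1⟩
      have h' : (x : G) * (z : G)⁻¹ = (z : G)⁻¹ * x := by
        simpa using congrArg Subtype.val h
      rw [conjInf_apply, Subgroup.coe_inv, ← h', inv_inv, mul_assoc, inv_mul_cancel, mul_one]
    obtain ⟨j, -, hj⟩ := (Nat.dvd_prime_pow hp.out).mp
      (hk ▸ Subgroup.index_dvd_of_le hle)
    exact IsPGroup.of_card (n := j) (by rw [← Subgroup.index_ker, hj])
  choose a ha using fun ψ : IrrCharacter ↥(E ⊓ N) =>
    inner_character_nat hϑD ψ.2.isCharacter'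
  choose b hb using fun ψ : IrrCharacter ↥(E ⊓ N) =>
    inner_character_nat (isCharacter_mul hlam hϑD) ψ.2.isCharacter'
  have hsum : classInner (lam * ϑD) ϑD = ((∑ ψ, b ψ * a ψ : ℕ) : ℂ) := by
    rw [inner_eq_sum_coeff _ _ (isCharacter_classFunction (isCharacter_mul hlam hϑD)), Nat.cast_sum]
    refine Finset.sum_congr rfl fun ψ _ => ?_
    rw [ha, hb, Complex.conj_natCast, Nat.cast_mul]
  have hinv : ∀ (F : ↥(E ⊓ N) → ℂ), (∀ (g : E) x, F (conjInf E N g x) = F x) →
      ∀ (g : E) (ψ : IrrCharacter ↥(E ⊓ N)),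
        classInner F (σ g ψ : ↥(E ⊓ N) → ℂ) = classInner F ψ := fun F hF g ψ => by
    have e1 : F = F ∘ (conjInf E N g⁻¹) := funext fun x => (hF g⁻¹ x).symm
    conv_lhs => rw [e1]
    exact inner_comp_equiv (conjInf E N g⁻¹) F ψ
  refine hdvd _ hsum (dvd_sum_of_fixed hP (fun ψ => b ψ * a ψ) ?_ fun ψ hψ => ?_)
  · rintro ⟨_, g, rfl⟩ ψ
    show b (σ g ψ) * a (σ g ψ) = b ψ * a ψ
    have e1 : a (σ g ψ) = a ψ := by
      have h := hinv ϑD h1 g ψ
      rw [ha, ha] at h
      exact_mod_cast h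
    have e2 : b (σ g ψ) = b ψ := by
      have h := hinv (lam * ϑD) (fun g x => by rw [Pi.mul_apply, h1, h2]; rfl) g ψ
      rw [hb, hb] at h
      exact_mod_cast h
    rw [e1, e2]
  · refine dvd_mul_of_dvd_right ?_ _
    by_contra hc
    refine hno ⟨ψ, ψ.2, fun g x => ?_, a ψ, hc, ha ψ⟩
    have h := congrFun (congrArg Subtype.val (hψ ⟨σ g⁻¹, g⁻¹, rfl⟩)) x
    have h' : (σ g⁻¹ ψ : ↥(E ⊓ N) → ℂ) x = (ψ : ↥(E ⊓ N) → ℂ) x := h
    rwa [hσ, inv_inv] at h'

/-- The inner product on `N` reduces to `E ⊓ N`. -/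
theorem inner_indFun_restrict [Fintype G] (E N : Subgroup G) [N.Normal] [Fintype E] [Fintype N]
    [Fintype ↥(E ⊓ N)] (φ : E → ℂ) {ϑ : N → ℂ}
    (hinv : ∀ (g : G) (n : N), ϑ (MulAut.conjNormal g n) = ϑ n) :
    classInner ((fun n : N => indFun E φ n) * ϑ) ϑ = ((E ⊔ N).index : ℂ) *
      classInner ((fun x : ↥(E ⊓ N) => φ ⟨x, (Subgroup.mem_inf.mp x.2).1⟩) *
        fun x : ↥(E ⊓ N) => ϑ ⟨x, (Subgroup.mem_inf.mp x.2).2⟩)
        (fun x : ↥(E ⊓ N) => ϑ ⟨x, (Subgroup.mem_inf.mp x.2).2⟩) := by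
  classical
  set F : G → ℂ := extendByZero N (fun n => ϑ n * conj (ϑ n)) with hF
  have hFcl : IsClassFunction G (fun g => conj (F g)) := fun g h => by
    show conj (F (h * g * h⁻¹)) = conj (F g)
    congr 1
    by_cases hg : g ∈ N
    · rw [hF, extendByZero_mem _ hg, extendByZero_mem _
        ((inferInstance : N.Normal).conj_mem g hg h)]
      have e := hinv h ⟨g, hg⟩
      have e' : MulAut.conjNormal h (⟨g, hg⟩ : N) =
          ⟨h * g * h⁻¹, (inferInstance : N.Normal).conj_mem g hg h⟩ :=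
        Subtype.ext (MulAut.conjNormal_apply h _)
      rw [e'] at e
      simp only [e]
    · rw [hF, extendByZero_not_mem _ hg, extendByZero_not_mem]
      intro h'
      exact hg (by simpa [mul_assoc] using (inferInstance : N.Normal).conj_mem _ h' h⁻¹)
  have hfr := frobenius φ (fun g => conj (F g)) hFcl
  simp only [classInner, Complex.conj_conj] at hfr
  have hS1 : ∑ n : N, (ϑ n * conj (ϑ n)) * indFun E φ n = ∑ g : G, indFun E φ g * F g := by
    rw [← sum_extendByZero N (fun n => ϑ n * conj (ϑ n)) (indFun E φ)]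
    exact Finset.sum_congr rfl fun g _ => mul_comm _ _
  have hS2 : ∑ e : E, φ e * F e = ∑ x : ↥(E ⊓ N),
      φ ⟨x, (Subgroup.mem_inf.mp x.2).1⟩ * (ϑ ⟨x, (Subgroup.mem_inf.mp x.2).2⟩ *
        conj (ϑ ⟨x, (Subgroup.mem_inf.mp x.2).2⟩)) := by
    refine (Fintype.sum_of_injective (Subgroup.inclusion (inf_le_left : E ⊓ N ≤ E))
      (Subgroup.inclusion_injective _) _ _ (fun e he => ?_) fun x => ?_).symm
    · rw [hF, extendByZero_not_mem, mul_zero]
      exact fun hn => he ⟨⟨e, Subgroup.mem_inf.mpr ⟨e.2, hn⟩⟩, rfl⟩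
    · have hxN : ((Subgroup.inclusion (inf_le_left : E ⊓ N ≤ E) x : E) : G) ∈ N :=
        (Subgroup.mem_inf.mp x.2).2
      rw [hF, extendByZero_mem _ hxN]
      rfl
  have hidx : Nat.card G * Nat.card ↥(E ⊓ N) = (E ⊔ N).index * (Nat.card N * Nat.card E) := by
    have e1 := Subgroup.relIndex_mul_index (le_sup_right : N ≤ E ⊔ N)
    rw [Subgroup.relIndex_sup_right] at e1
    have e2 : N.relIndex E * Nat.card ↥(E ⊓ N) = Nat.card E := by
      rw [inf_comm, ← Subgroup.inf_relIndex_right]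
      rw [mul_comm]
      exact CfsgLib.Core.card_mul_relIndex inf_le_right
    rw [← N.index_mul_card, ← e1, ← e2]
    ring
  have hN0 := natCard_ne_zero N
  have hE0 := natCard_ne_zero E
  have hG0 := natCard_ne_zero G
  have hD0 := natCard_ne_zero ↥(E ⊓ N)
  have hidx' : (Nat.card G : ℂ) * Nat.card ↥(E ⊓ N) =
      ((E ⊔ N).index : ℂ) * (Nat.card N * Nat.card E) := by exact_mod_cast hidx
  simp only [classInner, Pi.mul_apply]
  have hT1 : ∑ n : N, indFun E φ n * ϑ n * conj (ϑ n) = ∑ g : G, indFun E φ g * F g := by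
    rw [← hS1]; exact Finset.sum_congr rfl fun n _ => by ring
  have hT2 : ∑ x : ↥(E ⊓ N), φ ⟨x, (Subgroup.mem_inf.mp x.2).1⟩ *
      ϑ ⟨x, (Subgroup.mem_inf.mp x.2).2⟩ * conj (ϑ ⟨x, (Subgroup.mem_inf.mp x.2).2⟩) =
      ∑ e : E, φ e * F e := by
    rw [hS2]; exact Finset.sum_congr rfl fun n _ => by ring
  rw [hT1, hT2]
  field_simp at hfr ⊢
  refine mul_left_cancel₀ hE0 ?_
  linear_combination (Nat.card ↥(E ⊓ N) : ℂ) * hfr + (∑ e : E, φ e * F e) * hidx'

/-- Dade's detection lemma. -/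
theorem elementary_detection [Fintype G] {p : ℕ} [hp : Fact p.Prime] (N : Subgroup G) [N.Normal]
    (hind : ∃ k : ℕ, N.index = p ^ k) {ϑ : N → ℂ} (hϑ : IsIrrCharacter N ϑ)
    (hinv : ∀ (g : G) (n : N), ϑ (MulAut.conjNormal g n) = ϑ n) :
    ∃ (E : Subgroup G) (φ : ↥(E ⊓ N) → ℂ), IsElementary p E ∧ E ⊔ N = ⊤ ∧
      IsIrrCharacter ↥(E ⊓ N) φ ∧ (∀ (g : E) x, φ (conjInf E N g x) = φ x) ∧
      ∃ m : ℕ, ¬ p ∣ m ∧ ∀ [Fintype ↥(E ⊓ N)],
        classInner (fun x : ↥(E ⊓ N) => ϑ ⟨x, (Subgroup.mem_inf.mp x.2).2⟩) φ = m := by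
  classical
  by_contra hno
  obtain ⟨m, hm, hmem⟩ := brauer_local (G := G) hp.out
  let Φ : (G → ℂ) →+ ℂ := AddMonoidHom.mk'
    (fun f => classInner ((fun n : N => f n) * ϑ) ϑ) fun f f' => by
      rw [← inner_add_left, ← add_mul]; rfl
  have hle : elemSpan (G := G) (· = p) ≤ (AddSubgroup.zmultiples (p : ℂ)).comap Φ := by
    refine (AddSubgroup.closure_le _).mpr ?_
    rintro _ ⟨q, E, φ, rfl, hE, hφ, rfl⟩
    let ι : ↥(E ⊓ N) →* N := Subgroup.inclusion inf_le_right
    let ιE : ↥(E ⊓ N) →* E := Subgroup.inclusion inf_le_left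
    have hϑD : IsCharacter _ (fun x : ↥(E ⊓ N) => ϑ (ι x)) := isCharacter_comp hϑ.isCharacter' ι
    have hlam : IsCharacter _ (fun x : ↥(E ⊓ N) => φ (ιE x)) := isCharacter_comp hφ ιE
    obtain ⟨c, hc⟩ := inner_character_nat (isCharacter_mul hlam hϑD) hϑD
    have hval : Φ (indFun E φ) = ((E ⊔ N).index : ℂ) * c :=
      (inner_indFun_restrict E N φ hinv).trans (by rw [← hc]; rfl)
    show Φ (indFun E φ) ∈ AddSubgroup.zmultiples (q : ℂ)
    suffices h : q ∣ (E ⊔ N).index * c by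
      obtain ⟨d, hd⟩ := h
      refine ⟨d, ?_⟩
      show (d : ℤ) • (q : ℂ) = _
      rw [hval, zsmul_eq_mul]
      have hd' : ((E ⊔ N).index : ℂ) * c = q * d := by exact_mod_cast hd
      rw [hd']; push_cast; ring
    obtain ⟨k, hk⟩ := hind
    obtain ⟨j, -, hj⟩ := (Nat.dvd_prime_pow hp.out).mp
      (hk ▸ Subgroup.index_dvd_of_le (le_sup_right : N ≤ E ⊔ N))
    rcases Nat.eq_zero_or_pos j with h0 | h0
    · refine dvd_mul_of_dvd_right ?_ _
      by_contra hqc
      have htop : E ⊔ N = ⊤ := Subgroup.index_eq_one.mp (by rw [hj, h0, pow_zero])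
      obtain ⟨ψ, hψ, hψi, a, ha, hψa⟩ := exists_invariant_constituent E N hE hϑD hlam
        (fun g x => by
          show ϑ (ι (conjInf E N g x)) = ϑ (ι x)
          rw [← hinv g (ι x)]
          congr 1)
        (fun g x => by
          show φ (ιE (conjInf E N g x)) = φ (ιE x)
          rw [← isCharacter_classFunction hφ (ιE x) g]
          rfl)
        (fun c' hc' => by
          rw [hc] at hc'
          rwa [← Nat.cast_injective hc'])
      exact hno ⟨E, ψ, hE, htop, hψ, hψi, a, ha, fun {i} => by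
        rw [← hψa]; exact classInner_congr_fintype _ _ _ _⟩
    · exact dvd_mul_of_dvd_left (hj ▸ dvd_pow_self q h0.ne') _
  obtain ⟨z, hz⟩ := hle hmem
  have hval : Φ (fun _ : G => (m : ℂ)) = m := by
    show classInner ((fun _ : N => (m : ℂ)) * ϑ) ϑ = m
    rw [show ((fun _ : N => (m : ℂ)) * ϑ) = (m : ℂ) • ϑ from funext fun _ => rfl, inner_smul_left,
      irr_inner_self hϑ, mul_one]
  have hz' : ((z * p : ℤ) : ℂ) = (m : ℂ) := by
    rw [← hval, ← hz]; simp
  exact hm ⟨z, by rw [← Int.cast_inj.mp hz', mul_comm]⟩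

end CfsgLib.Char
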