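import Cfsg.Agent.Lib.CharDadeDetect
import Cfsg.Agent.Lib.CharBrauer3
import Mathlib.GroupTheory.NoncommCoprod
import Mathlib.GroupTheory.FiniteAbelian.Duality
import Mathlib.LinearAlgebra.Trace

/-!
# Extension of invariant characters across a `p`-quotient

If a Sylow `p`-subgroup meets the normal subgroup centrally and its linear characters extend,
then every invariant irreducible character extends.
-/

set_option autoImplicit false
set_option linter.style.haveILetI false
set_option linter.unusedSectionVars false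

namespace CfsgLib.Char

open Cfsg Representation
open scoped ComplexConjugate Pointwise

universe u v

/-- A homomorphism on a subgroup covering the quotient by a normal subgroup, trivial on the
intersection, extends to a homomorphism trivial on the normal subgroup. -/
theorem exists_hom_of_cover {E : Type u} [Group E] {A : Type v} [CommGroup A] (M H : Subgroup E)
    [M.Normal] (hcover : ∀ x : E, ∃ h ∈ H, x * h⁻¹ ∈ M) (f : H →* A)
    (hf : ∀ x : H, (x : E) ∈ M → f x = 1) :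
    ∃ F : E →* A, (∀ x : H, F x = f x) ∧ ∀ m ∈ M, F m = 1 := by
  classical
  let π : H →* E ⧸ M := (QuotientGroup.mk' M).comp H.subtype
  have hπ : Function.Surjective π := fun q => by
    obtain ⟨x, rfl⟩ := QuotientGroup.mk'_surjective M q
    obtain ⟨h, hh, hx⟩ := hcover x
    refine ⟨⟨h, hh⟩, (QuotientGroup.mk'_eq_mk' M).mpr ⟨h⁻¹ * (x * h⁻¹) * h, ?_, ?_⟩⟩
    · simpa [mul_assoc] using (inferInstance : M.Normal).conj_mem _ hx h⁻¹
    · simp [mul_assoc]
  have hker : π.ker ≤ f.ker := fun x hx => hf x (by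
    rw [MonoidHom.mem_ker] at hx
    exact (QuotientGroup.eq_one_iff (x : E)).mp hx)
  refine ⟨(π.liftOfSurjective hπ ⟨f, hker⟩).comp (QuotientGroup.mk' M), fun x => ?_,
    fun m hm => ?_⟩
  · show (π.liftOfSurjective hπ ⟨f, hker⟩) (π x) = f x
    exact MonoidHom.liftOfRightInverse_comp_apply _ _ _ ⟨f, hker⟩ x
  · rw [MonoidHom.comp_apply, QuotientGroup.mk'_apply, (QuotientGroup.eq_one_iff m).mpr hm, map_one]

variable {G : Type u} [Group G]

/-- In the situation of the theorem, `E ⊓ N` is central in `E` and its linear characters extend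
to `E`. -/
theorem elementary_central_extends [Finite G] {p : ℕ} [hp : Fact p.Prime] (E N : Subgroup G)
    [N.Normal] (hE : IsElementary p E) (P : Sylow p G)
    (hcent : ∀ x ∈ (P : Subgroup G) ⊓ N, ∀ y ∈ (P : Subgroup G), x * y = y * x)
    (hlin : ∀ lam : ↥((P : Subgroup G) ⊓ N) →* ℂˣ, ∃ μ : ↥(P : Subgroup G) →* ℂˣ,
      ∀ (x : ↥((P : Subgroup G) ⊓ N)) (hx : (x : G) ∈ (P : Subgroup G)),
        μ ⟨x, hx⟩ = lam x) :
    (∀ d ∈ E ⊓ N, ∀ e ∈ E, d * e = e * d) ∧
    ∀ f : ↥(E ⊓ N) →* ℂˣ, ∃ μ : E →* ℂˣ,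
      ∀ (x : ↥(E ⊓ N)) (hx : (x : G) ∈ E), μ ⟨x, hx⟩ = f x := by
  classical
  obtain ⟨z, hz, hcop, k, hk⟩ := hE
  obtain ⟨Q0⟩ : Nonempty (Sylow p E) := inferInstance
  set Q : Subgroup E := (Q0 : Subgroup E) with hQ
  set Z : Subgroup E := Subgroup.zpowers z with hZ
  have hZcard : Nat.card Z = orderOf z := Nat.card_zpowers z
  obtain ⟨j, hj⟩ := Q0.isPGroup'.exists_card_eq
  have hcopQ : (Nat.card Z).Coprime (Nat.card Q) := by
    rw [hZcard, hj]; exact hcop.pow_right j
  have hcardE : Nat.card Z * Nat.card Q = Nat.card E := by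
    have h1 : Nat.card E = Nat.card Z * p ^ k := by
      rw [← hk, mul_comm]; exact (Z.index_mul_card).symm
    have hz0 : orderOf z ≠ 0 := (orderOf_pos z).ne'
    have hnd : ¬ p ∣ orderOf z := hp.out.coprime_iff_not_dvd.mp hcop.symm
    have h2 : Nat.card Q = p ^ k := by
      rw [hQ, Q0.card_eq_multiplicity, h1, hZcard, Nat.factorization_mul hz0
        (pow_ne_zero _ hp.out.ne_zero), Finsupp.add_apply,
        Nat.factorization_eq_zero_of_not_dvd hnd, zero_add, hp.out.factorization_pow,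
        Finsupp.single_eq_same]
    rw [h2, h1]
  have hZc : ∀ (a : Z) (e : E), (a : E) * e = e * a := fun a e =>
    (Subgroup.mem_center_iff.mp ((Subgroup.zpowers_le.mpr hz) a.2) e).symm
  let m0 : Z × Q →* E := MonoidHom.noncommCoprod Z.subtype Q.subtype fun a b => hZc a b
  have hm0 : Function.Bijective m0 := by
    haveI : Fintype (Z × Q) := Fintype.ofFinite _
    haveI : Fintype E := Fintype.ofFinite _
    refine (Fintype.bijective_iff_injective_and_card _).mpr ⟨?_, ?_⟩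
    · rw [injective_iff_map_eq_one]
      rintro ⟨a, b⟩ hab
      have hab' : (a : E) * b = 1 := hab
      have hb : (b : E) = (a : E)⁻¹ := eq_inv_of_mul_eq_one_right hab'
      have hbot : Z ⊓ Q = ⊥ := Subgroup.inf_eq_bot_of_coprime hcopQ
      have hb1 : (b : E) ∈ Z ⊓ Q := Subgroup.mem_inf.mpr ⟨hb ▸ Z.inv_mem a.2, b.2⟩
      rw [hbot, Subgroup.mem_bot] at hb1
      have ha1 : (a : E) = 1 := by rwa [hb1, mul_one] at hab'
      exact Prod.ext (Subtype.ext ha1) (Subtype.ext hb1)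
    · rw [← Nat.card_eq_fintype_card, ← Nat.card_eq_fintype_card, Nat.card_prod, hcardE]
  let e0 : Z × Q ≃* E := MulEquiv.ofBijective m0 hm0
  have he0 : ∀ (a : Z) (b : Q), e0 (a, b) = (a : E) * b := fun _ _ => rfl
  have hparts : ∀ (a : Z) (b : Q), (((a : E) * b : E) : G) ∈ N →
      ((a : E) : G) ∈ N ∧ ((b : E) : G) ∈ N := by
    intro a b hab
    obtain ⟨n, hn1, hn2⟩ := Nat.chineseRemainder hcopQ 1 0
    have h1 : (a : E) ^ n = a := by
      have h := pow_eq_pow_iff_modEq.mpr (hn1.of_dvd (orderOf_dvd_natCard a))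
      rw [pow_one] at h
      exact congrArg Subtype.val h
    have h2 : (b : E) ^ n = 1 := by
      have h := pow_eq_pow_iff_modEq.mpr (hn2.of_dvd (orderOf_dvd_natCard b))
      rw [pow_zero] at h
      exact congrArg Subtype.val h
    have h3 : ((a : E) * b) ^ n = a := by rw [Commute.mul_pow (hZc a b), h1, h2, mul_one]
    have haN : ((a : E) : G) ∈ N := by
      have h := N.pow_mem hab n
      rwa [← Subgroup.coe_pow, h3] at h
    refine ⟨haN, ?_⟩
    have h := N.mul_mem (N.inv_mem haN) hab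
    rwa [← Subgroup.coe_inv, ← Subgroup.coe_mul, inv_mul_cancel_left] at h
  obtain ⟨S, hS⟩ := (Q0.isPGroup'.map E.subtype).exists_le_sylow
  obtain ⟨g, hg⟩ := MulAction.exists_smul_eq G S P
  have hgQ : ∀ b : Q, g * ((b : E) : G) * g⁻¹ ∈ (P : Subgroup G) := fun b => by
    rw [← hg]
    show g * ((b : E) : G) * g⁻¹ ∈ ((MulAut.conj g) • (S : Subgroup G) : Subgroup G)
    exact ⟨((b : E) : G), hS (Subgroup.mem_map_of_mem _ b.2), rfl⟩
  let jP : Q →* ↥(P : Subgroup G) := MonoidHom.codRestrict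
    (((MulAut.conj g).toMonoidHom.comp E.subtype).comp Q.subtype) _ hgQ
  have hjP : ∀ b : Q, ((jP b : ↥(P : Subgroup G)) : G) = g * ((b : E) : G) * g⁻¹ := fun _ => rfl
  have hbN : ∀ b : Q, ((b : E) : G) ∈ N →
      ((jP b : ↥(P : Subgroup G)) : G) ∈ (P : Subgroup G) ⊓ N := fun b hb =>
    Subgroup.mem_inf.mpr ⟨(jP b).2, hjP b ▸ (inferInstance : N.Normal).conj_mem _ hb g⟩
  have hbcomm : ∀ b b' : Q, ((b : E) : G) ∈ N → b * b' = b' * b := fun b b' hb => by
    have h : jP b * jP b' = jP b' * jP b := Subtype.ext (hcent _ (hbN b hb) _ (jP b').2)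
    rw [← map_mul, ← map_mul] at h
    have h' := congrArg Subtype.val h
    rw [hjP, hjP] at h'
    exact Subtype.ext (Subtype.ext (mul_right_cancel (b := g⁻¹) h' |> mul_left_cancel))
  refine ⟨fun d hd e he => ?_, fun f => ?_⟩
  · obtain ⟨hdE, hdN⟩ := Subgroup.mem_inf.mp hd
    obtain ⟨⟨a, b⟩, hab⟩ := e0.surjective ⟨d, hdE⟩
    obtain ⟨⟨a', b'⟩, hab'⟩ := e0.surjective ⟨e, he⟩
    have hb := (hparts a b (by
      have : ((e0 (a, b) : E) : G) ∈ N := by rw [hab]; exact hdN
      exact this)).2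
    have h : e0 (a, b) * e0 (a', b') = e0 (a', b') * e0 (a, b) := by
      rw [← map_mul, ← map_mul]
      congr 1
      exact Prod.ext (Subtype.ext (hZc a _)) (hbcomm b b' hb)
    rw [hab, hab'] at h
    exact congrArg Subtype.val h
  · letI : CommGroup Z := { (inferInstance : Group Z) with
      mul_comm := fun a b => Subtype.ext (hZc a b) }
    let ZN : Subgroup Z := N.comap (E.subtype.comp Z.subtype)
    let fZ : ZN →* ℂˣ := MonoidHom.mk'
      (fun a => f ⟨(((a : Z) : E) : G), Subgroup.mem_inf.mpr ⟨((a : Z) : E).2, a.2⟩⟩)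
      fun a b => by rw [← map_mul]; rfl
    obtain ⟨νZ, hνZ⟩ := MonoidHom.domRestrict_surjective ℂ ZN fZ
    letI : CommGroup ↥((P : Subgroup G) ⊓ N) :=
      { (inferInstance : Group ↥((P : Subgroup G) ⊓ N)) with
        mul_comm := fun a b => Subtype.ext (hcent _ a.2 _ (Subgroup.mem_inf.mp b.2).1) }
    let QN : Subgroup Q := N.comap (E.subtype.comp Q.subtype)
    let τ : QN →* ↥((P : Subgroup G) ⊓ N) := MonoidHom.codRestrict
      (((P : Subgroup G).subtype.comp jP).comp QN.subtype) _ fun b => hbN b b.2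
    have hτ : Function.Injective τ := fun b b' h => by
      have h' : g * ((((b : Q)) : E) : G) * g⁻¹ = g * (((b' : Q) : E) : G) * g⁻¹ :=
        congrArg Subtype.val h
      exact Subtype.ext (Subtype.ext (Subtype.ext (mul_left_cancel (mul_right_cancel h'))))
    let fQ : QN →* ℂˣ := MonoidHom.mk'
      (fun b => f ⟨(((b : Q) : E) : G), Subgroup.mem_inf.mpr ⟨((b : Q) : E).2, b.2⟩⟩)
      fun a b => by rw [← map_mul]; rfl
    obtain ⟨lam, hlam⟩ := MonoidHom.domRestrict_surjective ℂ τ.range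
      (fQ.comp (MonoidHom.ofInjective hτ).symm.toMonoidHom)
    have hlam' : ∀ b : QN, lam (τ b) = fQ b := fun b => by
      have h := DFunLike.congr_fun hlam (⟨τ b, b, rfl⟩ : τ.range)
      refine h.trans ?_
      show fQ ((MonoidHom.ofInjective hτ).symm ⟨τ b, b, rfl⟩) = fQ b
      congr 1
      exact (MonoidHom.ofInjective hτ).injective ((MulEquiv.apply_symm_apply _ _).trans
        (Subtype.ext rfl))
    obtain ⟨μP, hμP⟩ := hlin lam
    refine ⟨((νZ.coprod (μP.comp jP)).comp e0.symm.toMonoidHom), fun x hx => ?_⟩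
    obtain ⟨⟨a, b⟩, hab⟩ := e0.surjective ⟨(x : G), hx⟩
    show (νZ.coprod (μP.comp jP)) (e0.symm ⟨(x : G), hx⟩) = f x
    rw [← hab, e0.symm_apply_apply]
    have hab' : ((e0 (a, b) : E) : G) = x := by rw [hab]
    obtain ⟨ha, hb⟩ := hparts a b (by
      show ((e0 (a, b) : E) : G) ∈ N
      rw [hab']; exact (Subgroup.mem_inf.mp x.2).2)
    have h1 : νZ a = f ⟨((a : E) : G), Subgroup.mem_inf.mpr ⟨(a : E).2, ha⟩⟩ :=
      DFunLike.congr_fun hνZ (⟨a, ha⟩ : ZN)
    have h2 : μP (jP b) = f ⟨((b : E) : G), Subgroup.mem_inf.mpr ⟨(b : E).2, hb⟩⟩ := by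
      have h := hμP (τ ⟨b, hb⟩) (jP b).2
      rw [hlam'] at h
      exact h
    show νZ a * μP (jP b) = f x
    rw [h1, h2, ← map_mul]
    exact congrArg f (Subtype.ext hab')

variable {N : Subgroup G} [hN : N.Normal]

/-- An invariant representation with a retraction of the scalars among the intertwiners
extends. -/
theorem exists_extension_of_retraction [Finite G] {d : ℕ}
    (ρ : Representation ℂ N (Fin d → ℂ)) (hρ : ρ.IsIrreducible)
    (hinv : ∀ (g : G) (n : N), ρ.character (MulAut.conjNormal g n) = ρ.character n)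
    (f : intertwiners ρ →* ℂˣ) (hfι : ∀ a, f (intertwinerScalar ρ a) = a)
    (hfN : ∀ n, f (intertwinerIncl ρ n) = 1) :
    ∃ χ : G → ℂ, IsIrrCharacter G χ ∧ ∀ n : N, χ n = ρ.character n := by
  classical
  haveI := hρ
  haveI := nontrivial_of_irreducible ρ
  have hπ := intertwinerFst_surjective ρ hinv
  let sc : ℂˣ →* (Module.End ℂ (Fin d → ℂ))ˣ :=
    Units.map (algebraMap ℂ (Module.End ℂ (Fin d → ℂ))).toMonoidHom
  have hscc : ∀ (a : ℂˣ) (A : (Module.End ℂ (Fin d → ℂ))ˣ), Commute (sc a) A := fun a A =>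
    Units.ext (Algebra.commutes (a : ℂ) _)
  let F : intertwiners ρ →* (Module.End ℂ (Fin d → ℂ))ˣ := MonoidHom.mk'
    (fun x => intertwinerSnd ρ x * (sc (f x))⁻¹) fun x y => by
      rw [map_mul, map_mul, map_mul, (hscc (f x) (sc (f y))).eq, mul_inv_rev]
      exact mul_mul_mul_comm' (intertwinerSnd ρ x) (intertwinerSnd ρ y) (sc (f x))⁻¹
        (sc (f y))⁻¹ (hscc (f x) (intertwinerSnd ρ y)).inv_left.eq.symm
  have hker : (intertwinerFst ρ).ker ≤ F.ker := by
    intro x hx
    have hx1 : (x : G × (Module.End ℂ (Fin d → ℂ))ˣ).1 = 1 := hx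
    obtain ⟨c, hc⟩ := schur_scalar ρ ((x : G × (Module.End ℂ (Fin d → ℂ))ˣ).2 :
        Module.End ℂ (Fin d → ℂ)) fun n => by
      have := x.2 n
      rwa [hx1, map_one, MulAut.one_apply] at this
    have hc0 : c ≠ 0 := fun h0 => by
      rw [h0, zero_smul] at hc
      exact Units.ne_zero _ hc
    have hxe : x = intertwinerScalar ρ (Units.mk0 c hc0) :=
      Subtype.ext (Prod.ext hx1 (Units.ext (by
        rw [hc, ← Algebra.algebraMap_eq_smul_one]; rfl)))
    rw [MonoidHom.mem_ker, hxe]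
    show intertwinerSnd ρ _ * (sc (f _))⁻¹ = 1
    rw [hfι, mul_inv_eq_one]
    rfl
  let R : G →* (Module.End ℂ (Fin d → ℂ))ˣ :=
    (intertwinerFst ρ).liftOfSurjective hπ ⟨F, hker⟩
  have hR : ∀ x, R (intertwinerFst ρ x) = F x := fun x =>
    MonoidHom.liftOfRightInverse_comp_apply _ _ _ ⟨F, hker⟩ x
  let τ : Representation ℂ G (Fin d → ℂ) := (Units.coeHom _).comp R
  have hτN : ∀ n : N, τ n = ρ n := fun n => by
    have h1 := hR (intertwinerIncl ρ n)
    show ((R (n : G)) : Module.End ℂ (Fin d → ℂ)) = ρ n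
    rw [show R (n : G) = F (intertwinerIncl ρ n) from h1]
    show ((intertwinerSnd ρ (intertwinerIncl ρ n) * (sc (f (intertwinerIncl ρ n)))⁻¹ :
      (Module.End ℂ (Fin d → ℂ))ˣ) : Module.End ℂ (Fin d → ℂ)) = ρ n
    rw [hfN n, map_one, inv_one, mul_one]
    rfl
  refine ⟨τ.character, ⟨d, τ, ?_, rfl⟩, fun n => congrArg (LinearMap.trace ℂ _) (hτN n)⟩
  rw [isIrreducible_iff_forall]
  refine ⟨inferInstance, fun W hW => ?_⟩
  exact subrep_eq_bot_or_eq_top ρ W fun n v hv => hτN n ▸ hW (n : G) v hv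

/-- A retraction up to the exponent `m` from an invariant linear constituent of multiplicity `m`
on a subgroup centralising it and covering the quotient. -/
theorem exists_mult_retraction [Fintype G] {d : ℕ} (ρ : Representation ℂ N (Fin d → ℂ))
    (E : Subgroup G) (htop : E ⊔ N = ⊤) [Fintype ↥(E ⊓ N)]
    (hc : ∀ x ∈ E ⊓ N, ∀ e ∈ E, x * e = e * x) (f : ↥(E ⊓ N) →* ℂˣ) (μ : E →* ℂˣ)
    (hμ : ∀ (x : ↥(E ⊓ N)) (hx : (x : G) ∈ E), μ ⟨x, hx⟩ = f x) {m : ℕ}
    (hm : classInner (fun x : ↥(E ⊓ N) => ρ.character ⟨x, (Subgroup.mem_inf.mp x.2).2⟩)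
      (fun x => (f x : ℂ)) = m) :
    ∃ F : intertwiners ρ →* ℂˣ, (∀ a, F (intertwinerScalar ρ a) = a ^ m) ∧
      ∀ n, F (intertwinerIncl ρ n) = 1 := by
  classical
  let ιN : ↥(E ⊓ N) →* N := Subgroup.inclusion inf_le_right
  let ρD : Representation ℂ ↥(E ⊓ N) (Fin d → ℂ) := ρ.comp ιN
  let Pr : Module.End ℂ (Fin d → ℂ) :=
    (Nat.card ↥(E ⊓ N) : ℂ)⁻¹ • ∑ x : ↥(E ⊓ N), conj (f x : ℂ) • ρD x
  let W : Submodule ℂ (Fin d → ℂ) :=
    { carrier := {v | ∀ x : ↥(E ⊓ N), ρD x v = (f x : ℂ) • v}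
      add_mem' := fun {v w} hv hw x => by rw [map_add, hv x, hw x, smul_add]
      zero_mem' := fun x => by simp
      smul_mem' := fun c v hv x => by rw [map_smul, hv x, smul_comm] }
  have hnorm : ∀ x : ↥(E ⊓ N), conj (f x : ℂ) * (f x : ℂ) = 1 := fun x => by
    rw [← Complex.normSq_eq_conj_mul_self, Complex.normSq_eq_norm_sq,
      Complex.norm_eq_one_of_pow_eq_one (n := orderOf x) (by
        rw [← Units.val_pow_eq_pow_val, ← map_pow, pow_orderOf_eq_one, map_one, Units.val_one])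
        (orderOf_pos x).ne']
    norm_num
  have hproj : LinearMap.IsProj W Pr := by
    refine ⟨fun v => ?_, fun v hv => ?_⟩
    · intro y
      have hy : ρD y * Pr = (f y : ℂ) • Pr := by
        show ρD y * (_ • ∑ x, _) = (f y : ℂ) • (_ • ∑ x, _)
        rw [mul_smul_comm, smul_comm, Finset.mul_sum]
        congr 1
        rw [Finset.smul_sum]
        refine Fintype.sum_equiv (Equiv.mulLeft y) _ _ fun x => ?_
        rw [mul_smul_comm, ← map_mul, Equiv.coe_mulLeft, smul_smul]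
        congr 1
        rw [map_mul f, Units.val_mul, map_mul, ← mul_assoc, mul_comm (f y : ℂ), hnorm, one_mul]
      exact LinearMap.congr_fun hy v
    · have hterm : ∀ x ∈ (Finset.univ : Finset ↥(E ⊓ N)), conj (f x : ℂ) • ρD x v = v :=
        fun x _ => by rw [hv x, smul_smul, hnorm, one_smul]
      simp only [Pr, LinearMap.smul_apply, LinearMap.sum_apply]
      rw [Finset.sum_congr rfl hterm, Finset.sum_const, Finset.card_univ, ← Nat.card_eq_fintype_card, ← Nat.cast_smul_eq_nsmul ℂ,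
        smul_smul, inv_mul_cancel₀ (natCard_ne_zero _), one_smul]
  have hrank : Module.finrank ℂ W = m := by
    have h1 := hproj.trace
    have h2 : LinearMap.trace ℂ (Fin d → ℂ) Pr = m := by
      rw [← hm]
      simp only [Pr, map_smul, map_sum, classInner, smul_eq_mul]
      congr 1
      exact Finset.sum_congr rfl fun x _ => mul_comm _ _
    rw [h2] at h1
    exact_mod_cast h1.symm
  set H : Subgroup (intertwiners ρ) := E.comap (intertwinerFst ρ) with hH
  have hpres : ∀ (x : H) (v : Fin d → ℂ), v ∈ W →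
      ((x : intertwiners ρ).1.2 : Module.End ℂ (Fin d → ℂ)) v ∈ W := by
    intro x v hv y
    have h1 := LinearMap.congr_fun ((x : intertwiners ρ).2 (ιN y)) v
    have h2 : MulAut.conjNormal (x : intertwiners ρ).1.1 (ιN y) = ιN y :=
      Subtype.ext (by
        rw [MulAut.conjNormal_apply]
        show (x : intertwiners ρ).1.1 * (y : G) * (x : intertwiners ρ).1.1⁻¹ = (y : G)
        have hxE : (x : intertwiners ρ).1.1 ∈ E := x.2
        rw [← hc (y : G) y.2 (x : intertwiners ρ).1.1 hxE, mul_inv_cancel_right])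
    rw [h2] at h1
    show ρ (ιN y) (((x : intertwiners ρ).1.2 : Module.End ℂ (Fin d → ℂ)) v) = _
    rw [Module.End.mul_apply, Module.End.mul_apply] at h1
    rw [← h1, show ρ (ιN y) v = (f y : ℂ) • v from hv y, map_smul]
  let res : H →* Module.End ℂ W :=
    { toFun := fun x => LinearMap.restrict _ (hpres x)
      map_one' := LinearMap.ext fun v => Subtype.ext rfl
      map_mul' := fun x y => LinearMap.ext fun v => Subtype.ext rfl }
  let dW : H →* ℂˣ := ((LinearMap.det).comp res).toHomUnits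
  let F1 : H →* ℂˣ := dW * (((μ.comp ((intertwinerFst ρ).subgroupComap E)) ^ m)⁻¹)
  have hF1 : ∀ (x : H) (hx : intertwinerFst ρ x ∈ E) (c : ℂ),
      (∀ v ∈ W, ((x : intertwiners ρ).1.2 : Module.End ℂ (Fin d → ℂ)) v = c • v) →
      (F1 x : ℂ) = c ^ m * ((μ ⟨intertwinerFst ρ x, hx⟩ : ℂ) ^ m)⁻¹ := by
    intro x hx c hcv
    have h1 : res x = c • LinearMap.id :=
      LinearMap.ext fun v => Subtype.ext (hcv v v.2)
    show ((dW x * ((μ ⟨intertwinerFst ρ x, hx⟩) ^ m)⁻¹ : ℂˣ) : ℂ) = _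
    rw [Units.val_mul, Units.val_inv_eq_inv_val, Units.val_pow_eq_pow_val]
    congr 1
    show LinearMap.det (res x) = c ^ m
    rw [h1, LinearMap.det_smul, LinearMap.det_id, mul_one, hrank]
  have hcov : ∀ x : intertwiners ρ, ∃ h ∈ H, x * h⁻¹ ∈ (intertwinerIncl ρ).range := by
    intro x
    have hmem : intertwinerFst ρ x ∈ N ⊔ E := by rw [sup_comm, htop]; trivial
    obtain ⟨n, hn, e, he, hne⟩ := Subgroup.mem_sup_of_normal_left.mp hmem
    refine ⟨(intertwinerIncl ρ ⟨n, hn⟩)⁻¹ * x, ?_, ⟨n, hn⟩, by group⟩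
    show intertwinerFst ρ ((intertwinerIncl ρ ⟨n, hn⟩)⁻¹ * x) ∈ E
    rw [map_mul, map_inv, ← hne, show intertwinerFst ρ (intertwinerIncl ρ ⟨n, hn⟩) = n from rfl,
      inv_mul_cancel_left]
    exact he
  obtain ⟨F, hF, hFM⟩ := exists_hom_of_cover (intertwinerIncl ρ).range H hcov F1
    fun x hx => by
      obtain ⟨n, hn⟩ := hx
      have hfst : intertwinerFst ρ x = n := by rw [← hn]; rfl
      have hnE : (n : G) ∈ E := hfst ▸ x.2
      let y : ↥(E ⊓ N) := ⟨n, Subgroup.mem_inf.mpr ⟨hnE, n.2⟩⟩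
      refine Units.ext ?_
      rw [hF1 x x.2 (f y : ℂ) (fun v hv => by
        rw [← hn]; exact hv y), Units.val_one]
      rw [show (⟨intertwinerFst ρ x, x.2⟩ : E) = ⟨(y : G), hnE⟩ from Subtype.ext hfst, hμ y hnE,
        mul_inv_cancel₀ (pow_ne_zero _ (Units.ne_zero _))]
  refine ⟨F, fun a => ?_, fun n => hFM _ ⟨n, rfl⟩⟩
  have ha : intertwinerScalar ρ a ∈ H := E.one_mem
  rw [show F (intertwinerScalar ρ a) = F1 ⟨_, ha⟩ from hF ⟨_, ha⟩]
  refine Units.ext ?_
  rw [hF1 ⟨_, ha⟩ ha (a : ℂ) fun v _ => rfl,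
    show (⟨intertwinerFst ρ (intertwinerScalar ρ a), ha⟩ : E) = 1 from rfl]
  simp

/-- A retraction up to the exponent `[G : N]`. -/
theorem exists_index_retraction [Finite G] {d : ℕ} (ρ : Representation ℂ N (Fin d → ℂ))
    (hρ : ρ.IsIrreducible)
    (hinv : ∀ (g : G) (n : N), ρ.character (MulAut.conjNormal g n) = ρ.character n) :
    ∃ F : intertwiners ρ →* ℂˣ, (∀ a, F (intertwinerScalar ρ a) = a ^ N.index) ∧
      ∀ n, F (intertwinerIncl ρ n) = 1 := by
  classical
  haveI := hρ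
  haveI := nontrivial_of_irreducible ρ
  have hπ := intertwinerFst_surjective ρ hinv
  let j : N × ℂˣ →* intertwiners ρ := MonoidHom.noncommCoprod (intertwinerIncl ρ)
    (intertwinerScalar ρ) fun n a => (intertwinerScalar_central ρ a _).symm
  have hjinj : Function.Injective j := by
    rw [injective_iff_map_eq_one]
    rintro ⟨n, a⟩ h
    have h1 : (n : G) * 1 = 1 := congrArg (fun x : intertwiners ρ => x.1.1) h
    rw [mul_one] at h1
    obtain rfl : n = 1 := Subtype.ext h1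
    have h2 : ρ 1 * algebraMap ℂ (Module.End ℂ (Fin d → ℂ)) a = 1 :=
      congrArg (fun x : intertwiners ρ => (x.1.2 : Module.End ℂ (Fin d → ℂ))) h
    rw [map_one, one_mul] at h2
    have ha : (a : ℂ) = 1 := by
      obtain ⟨v, hv⟩ := exists_ne (0 : Fin d → ℂ)
      have h3 : (a : ℂ) • v = (1 : ℂ) • v := by
        rw [one_smul]; exact LinearMap.congr_fun h2 v
      exact smul_left_injective ℂ hv h3
    exact Prod.ext rfl (Units.ext ha)
  have hrange : j.range = N.comap (intertwinerFst ρ) := by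
    refine le_antisymm ?_ fun x hx => ?_
    · rintro _ ⟨⟨n, a⟩, rfl⟩
      show (n : G) * 1 ∈ N
      rw [mul_one]; exact n.2
    · set y := (intertwinerIncl ρ ⟨_, hx⟩)⁻¹ * x with hy
      have hy1 : y.1.1 = 1 := inv_mul_cancel _
      obtain ⟨c, hc⟩ := schur_scalar ρ (y.1.2 : Module.End ℂ (Fin d → ℂ)) fun n => by
        have := y.2 n
        rwa [hy1, map_one, MulAut.one_apply] at this
      have hc0 : c ≠ 0 := fun h0 => by
        rw [h0, zero_smul] at hc
        exact Units.ne_zero _ hc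
      refine ⟨(⟨_, hx⟩, Units.mk0 c hc0), ?_⟩
      have hye : intertwinerScalar ρ (Units.mk0 c hc0) = y :=
        Subtype.ext (Prod.ext hy1.symm (Units.ext (by
          rw [hc, ← Algebra.algebraMap_eq_smul_one]; rfl)))
      show intertwinerIncl ρ _ * intertwinerScalar ρ _ = x
      rw [hye, hy, mul_inv_cancel_left]
  haveI : j.range.FiniteIndex := ⟨by
    rw [hrange, Subgroup.index_comap_of_surjective _ hπ]; exact Subgroup.index_ne_zero_of_finite⟩
  let φ : j.range →* ℂˣ :=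
    (MonoidHom.snd N ℂˣ).comp (MonoidHom.ofInjective hjinj).symm.toMonoidHom
  have hφ : ∀ z : N × ℂˣ, φ ⟨j z, z, rfl⟩ = z.2 := fun z => by
    show ((MonoidHom.ofInjective hjinj).symm ⟨j z, z, rfl⟩).2 = z.2
    congr 1
    exact (MonoidHom.ofInjective hjinj).injective ((MulEquiv.apply_symm_apply _ _).trans
      (Subtype.ext rfl))
  have hidx : j.range.index = N.index := by
    rw [hrange, Subgroup.index_comap_of_surjective _ hπ]
  refine ⟨MonoidHom.transfer φ, fun a => ?_, fun n => ?_⟩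
  · have hmem : intertwinerScalar ρ a ∈ j.range :=
      ⟨(1, a), by show intertwinerIncl ρ 1 * _ = _; rw [map_one, one_mul]⟩
    rw [MonoidHom.transfer_eq_pow φ _ fun k g₀ _ => by
      rw [← map_pow, mul_assoc, intertwinerScalar_central, ← mul_assoc, inv_mul_cancel, one_mul]]
    have e : (⟨intertwinerScalar ρ a ^ j.range.index, j.range.pow_mem hmem _⟩ : j.range) =
        ⟨j (1, a), (1, a), rfl⟩ ^ j.range.index := Subtype.ext (by
      show intertwinerScalar ρ a ^ j.range.index = j (1, a) ^ j.range.index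
      congr 1
      exact (show intertwinerIncl ρ 1 * intertwinerScalar ρ a = intertwinerScalar ρ a by rw [map_one, one_mul]).symm)
    rw [e, map_pow, hφ, hidx]
  · haveI : Fintype (intertwiners ρ ⧸ j.range) := j.range.fintypeQuotientOfFiniteIndex
    rw [MonoidHom.transfer_eq_prod_quotient_orbitRel_zpowers_quot]
    refine Finset.prod_eq_one fun q _ => ?_
    have hM : ∀ z (hz : z ∈ j.range), z ∈ (intertwinerIncl ρ).range → φ ⟨z, hz⟩ = 1 := by
      rintro z hz ⟨n', rfl⟩
      have e : (⟨intertwinerIncl ρ n', hz⟩ : j.range) = ⟨j (n', 1), _, rfl⟩ := Subtype.ext (by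
        show intertwinerIncl ρ n' = intertwinerIncl ρ n' * _
        rw [map_one, mul_one])
      rw [e, hφ]
    refine hM _ _ ?_
    simpa using (intertwinerIncl_normal ρ).conj_mem _
      ((intertwinerIncl ρ).range.pow_mem ⟨n, rfl⟩ _) q.out.out⁻¹

/-- Dade's extension theorem for invariant characters across a `p`-quotient. -/
theorem dade_extension [Fintype G] {p : ℕ} [hp : Fact p.Prime] (hind : ∃ k : ℕ, N.index = p ^ k)
    (P : Sylow p G)
    (hcent : ∀ x ∈ (P : Subgroup G) ⊓ N, ∀ y ∈ (P : Subgroup G), x * y = y * x)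
    (hlin : ∀ lam : ↥((P : Subgroup G) ⊓ N) →* ℂˣ, ∃ μ : ↥(P : Subgroup G) →* ℂˣ,
      ∀ (x : ↥((P : Subgroup G) ⊓ N)) (hx : (x : G) ∈ (P : Subgroup G)),
        μ ⟨x, hx⟩ = lam x)
    {ϑ : N → ℂ} (hϑ : IsIrrCharacter N ϑ)
    (hinv : ∀ (g : G) (n : N), ϑ (MulAut.conjNormal g n) = ϑ n) :
    ∃ χ : G → ℂ, IsIrrCharacter G χ ∧ ∀ n : N, χ n = ϑ n := by
  classical
  obtain ⟨E, φ, hE, htop, hφ, -, m, hm, hval⟩ := elementary_detection N hind hϑ hinv
  obtain ⟨d, ρ, hρ, rfl⟩ := hϑ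
  obtain ⟨hc, hext⟩ := elementary_central_extends E N hE P hcent hlin
  obtain ⟨f, rfl⟩ := exists_hom_of_irr_comm (G := ↥(E ⊓ N))
    (fun a b => Subtype.ext (hc _ a.2 _ (Subgroup.mem_inf.mp b.2).1)) hφ
  obtain ⟨μ, hμ⟩ := hext f
  obtain ⟨F1, hF1, hF1N⟩ := exists_mult_retraction ρ E htop hc f μ hμ hval
  obtain ⟨F2, hF2, hF2N⟩ := exists_index_retraction ρ hρ hinv
  obtain ⟨k, hk⟩ := hind
  have hco : Int.gcd (m : ℤ) (N.index : ℤ) = 1 := by
    rw [Int.gcd_natCast_natCast, hk]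
    exact ((hp.out.coprime_iff_not_dvd.mpr hm).symm).pow_right k
  have hbez := Int.gcd_eq_gcd_ab (m : ℤ) (N.index : ℤ)
  rw [hco, Nat.cast_one] at hbez
  refine exists_extension_of_retraction ρ hρ hinv
    ((zpowGroupHom (Int.gcdA (m : ℤ) N.index)).comp F1 *
      (zpowGroupHom (Int.gcdB (m : ℤ) N.index)).comp F2) (fun a => ?_) fun n => ?_
  · rw [MonoidHom.mul_apply]
    show F1 (intertwinerScalar ρ a) ^ Int.gcdA (m : ℤ) N.index * F2 (intertwinerScalar ρ a) ^ Int.gcdB (m : ℤ) N.index = a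
    rw [hF1, hF2, ← zpow_natCast, ← zpow_natCast a N.index, ← zpow_mul, ← zpow_mul, ← zpow_add,
      ← hbez, zpow_one]
  · show F1 (intertwinerIncl ρ n) ^ Int.gcdA (m : ℤ) N.index * F2 (intertwinerIncl ρ n) ^ Int.gcdB (m : ℤ) N.index = 1
    rw [hF1N, hF2N, one_zpow, one_zpow, one_mul]

end CfsgLib.Char
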