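import Cfsg.Agent.Lib.CharFeitCoh
import Cfsg.Agent.Lib.CharVirtual

/-!
# Exceptional characters of a T.I. subgroup with Frobenius normaliser
-/

set_option autoImplicit false
set_option linter.style.haveILetI false
set_option linter.unusedSectionVars false
set_option linter.unusedVariables false

namespace CfsgLib.Char

open Cfsg
open scoped ComplexConjugate

universe u

variable {G : Type u} [Group G] [Fintype G] {H N : Subgroup G} [Fintype N]
  [hn : (H.subgroupOf N).Normal]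

/-- The hypotheses of the exceptional character theorems. -/
structure ExcSetting (H N : Subgroup G) [Fintype N] (star : (N → ℂ) → (G → ℂ)) : Prop where
  ti : ∀ g : G, g ∉ N → ∀ k ∈ H, g * k * g⁻¹ ∈ H → k = 1
  cent : ∀ k ∈ H.subgroupOf N, k ≠ 1 → Subgroup.centralizer ({k} : Set N) ≤ H.subgroupOf N
  proper : H.subgroupOf N ≠ ⊤
  two : 2 ≤ (relChars (H.subgroupOf N) ⊥).card
  iso : IsLinearIsometryOn (zspan (↑(relChars (H.subgroupOf N) ⊥) : Set (N → ℂ))) star
  ext : ∀ α ∈ zspanOn (↑(relChars (H.subgroupOf N) ⊥) : Set (N → ℂ)) ({1}ᶜ : Set N),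
    star α = indFun N α

variable {star : (N → ℂ) → (G → ℂ)}

local notation "KK" => Subgroup.subgroupOf H N
local notation "SS" => relChars (Subgroup.subgroupOf H N) ⊥

theorem ExcSetting.mem_span {χ : N → ℂ} (hχ : χ ∈ SS) : χ ∈ zspan (↑(SS) : Set (N → ℂ)) :=
  Submodule.subset_span hχ

theorem exc_ne_bot (h : ExcSetting H N star) : (KK : Subgroup N) ≠ ⊥ := by
  intro e
  obtain ⟨χ, hχ⟩ := Finset.card_pos.mp (lt_of_lt_of_le Nat.zero_lt_two h.two)
  obtain ⟨-, ⟨k, hk, hne⟩, -⟩ := mem_relChars.mp hχ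
  rw [e, Subgroup.mem_bot] at hk
  exact hne (by rw [hk])

theorem exc_linear (h : ExcSetting H N star) : ∃ χ ∈ SS, natDeg χ = (KK : Subgroup N).index := by
  haveI : Group.IsNilpotent (KK : Subgroup N) := kernel_nilpotent h.cent h.proper
  obtain ⟨θ, hθ, hd⟩ := exists_linear_thetaSet (K := (KK : Subgroup N)) inferInstance ⊥
    (bot_lt_iff_ne_bot.mpr (exc_ne_bot h))
  refine ⟨indFun _ θ, ?_, by rw [natDeg_indFun (mem_thetaSet.mp hθ).1.isCharacter', hd, mul_one]⟩
  rw [← Finset.mem_coe, relChars_eq_inducedIrrAbove h.cent, inducedIrrAbove_eq]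
  exact ⟨θ, hθ, rfl⟩

theorem exc_deg (h : ExcSetting H N star) {χ : N → ℂ} (hχ : χ ∈ SS) :
    ∃ f : ℕ, 0 < f ∧ natDeg χ = (KK : Subgroup N).index * f := by
  obtain ⟨h1, h2, -⟩ := mem_relChars.mp hχ
  obtain ⟨φ, hφ, -, rfl⟩ := exists_induced_of_frobenius h.cent h1 h2
  exact ⟨natDeg φ, natDeg_pos hφ, natDeg_indFun hφ.isCharacter'⟩

/-- The degree zero combination attached to two members. -/
theorem exc_rel (h : ExcSetting H N star) {χ χ₀ : N → ℂ} (hχ : χ ∈ SS) (hχ₀ : χ₀ ∈ SS) {f : ℕ}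
    (h0 : natDeg χ₀ = (KK : Subgroup N).index) (hf : natDeg χ = (KK : Subgroup N).index * f) :
    star χ - (f : ℤ) • star χ₀ = indFun N (χ - (f : ℤ) • χ₀) := by
  have hm : (f : ℤ) • χ₀ ∈ zspan (↑(SS) : Set (N → ℂ)) :=
    Submodule.smul_mem _ _ (ExcSetting.mem_span hχ₀)
  have hsub : χ - (f : ℤ) • χ₀ ∈ zspanOn (↑(SS) : Set (N → ℂ)) ({1}ᶜ : Set N) := by
    refine ⟨sub_mem (ExcSetting.mem_span hχ) hm, fun x hx => ?_⟩
    rw [show x = 1 by simpa using hx, Pi.sub_apply, Pi.smul_apply,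
      natDeg_spec (relChars_irr χ hχ).isCharacter', natDeg_spec (relChars_irr χ₀ hχ₀).isCharacter',
      hf, h0, zsmul_eq_mul]
    push_cast; ring
  rw [← h.ext _ hsub]
  have hneg : ∀ a ∈ zspan (↑(SS) : Set (N → ℂ)), star (-a) = -star a := fun a ha => by
    simpa using h.iso.2.1 a ha (-1)
  rw [sub_eq_add_neg χ, h.iso.1 χ (ExcSetting.mem_span hχ) _ (Submodule.neg_mem _ hm), hneg _ hm,
    h.iso.2.1 χ₀ (ExcSetting.mem_span hχ₀), sub_eq_add_neg]

theorem exc_ind_value (h : ExcSetting H N star) {χ χ₀ : N → ℂ} (hχ : χ ∈ SS) (hχ₀ : χ₀ ∈ SS)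
    (f : ℤ) {k : N} (hk : (k : G) ∈ H) (hk1 : k ≠ 1) :
    indFun N (χ - f • χ₀) k = (χ - f • χ₀) k := by
  have hc : IsClassFunction N (χ - f • χ₀) := fun g x => by
    simp [isCharacter_classFunction (relChars_irr χ hχ).isCharacter' g x,
      isCharacter_classFunction (relChars_irr χ₀ hχ₀).isCharacter' g x]
  refine indFun_eq_of_fusion _ hc k fun x hx => ?_
  by_cases hmem : x⁻¹ * (k : G) * x ∈ N
  · rw [extendByZero_mem _ hmem]
    have hK : (⟨_, hmem⟩ : N) ∉ (KK : Subgroup N) := fun hH => hk1 (Subtype.ext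
      (h.ti x⁻¹ (fun e => hx (by simpa using N.inv_mem e)) (k : G) hk
        (by simpa using Subgroup.mem_subgroupOf.mp hH)))
    simp [relChars_vanish h.cent hχ hK, relChars_vanish h.cent hχ₀ hK]
  · exact extendByZero_not_mem _ hmem

/-- The restriction of a generalized character of `G` to the non-identity elements of `H`. -/
theorem exc_restrict (h : ExcSetting H N star) {ψ : G → ℂ} (hψ : IsGeneralizedCharacter G ψ) :
    ∃ (C : ℤ) (d : (N → ℂ) → ℤ), (∀ χ ∈ SS, classInner ψ (star χ) = d χ) ∧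
      ∀ k : N, (k : G) ∈ H → k ≠ 1 → ψ k = ∑ χ ∈ SS, (d χ : ℂ) * χ k + C := by
  classical
  have hres : IsGeneralizedCharacter N (fun n : N => ψ n) := isGenChar_restrict' hψ N
  obtain ⟨χ₀, hχ₀, h0⟩ := exc_linear h
  set e := (KK : Subgroup N).index
  have he : (e : ℂ) ≠ 0 := Nat.cast_ne_zero.mpr Subgroup.index_ne_zero_of_finite
  choose a ha using fun η : IrrCharacter N =>
    inner_genChar_int hres (isGenChar_of_isCharacter η.2.isCharacter')
  let A : (N → ℂ) → ℤ := fun χ => if hh : IsIrrCharacter N χ then a ⟨χ, hh⟩ else 0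
  have hA : ∀ χ, IsIrrCharacter N χ → classInner (fun n : N => ψ n) χ = A χ := fun χ hh => by
    simp only [A, dif_pos hh]; exact ha ⟨χ, hh⟩
  have hd' : ∀ χ : (SS : Finset (N → ℂ)), ∃ d : ℤ, classInner ψ (star χ) = d := fun χ =>
    inner_genChar_int hψ (h.iso.2.2.2 _ (ExcSetting.mem_span χ.2))
  choose d₀ hd₀ using hd'
  let d : (N → ℂ) → ℤ := fun χ => if hh : χ ∈ SS then d₀ ⟨χ, hh⟩ else 0
  have hd : ∀ χ ∈ SS, classInner ψ (star χ) = d χ := fun χ hh => by
    simp only [d, dif_pos hh]; exact hd₀ ⟨χ, hh⟩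
  set u : ℤ := A χ₀ - d χ₀
  have hrel : ∀ χ ∈ SS, (A χ : ℂ) = d χ + u * ((natDeg χ : ℂ) / e) := by
    intro χ hχ
    obtain ⟨f, -, hf⟩ := exc_deg h hχ
    have h1 : classInner ψ (star χ - (f : ℤ) • star χ₀) =
        classInner (fun n : N => ψ n) (χ - (f : ℤ) • χ₀) := by
      rw [exc_rel h hχ hχ₀ h0 hf]
      exact frobenius_right _ ψ (isGenChar_classFunction hψ)
    rw [inner_sub_right, inner_sub_right, inner_zsmul_right, inner_zsmul_right, hd χ hχ,
      hd χ₀ hχ₀, hA χ (relChars_irr χ hχ), hA χ₀ (relChars_irr χ₀ hχ₀)] at h1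
    have hfe : (natDeg χ : ℂ) / e = f := by rw [hf, Nat.cast_mul]; exact mul_div_cancel_left₀ _ he
    rw [hfe]
    simp only [u, Int.cast_sub]
    simp only [Int.cast_natCast] at h1
    linear_combination -h1
  set T := Finset.univ.filter fun η : IrrCharacter N => ¬ ((η : N → ℂ) ∈ SS) with hT
  refine ⟨∑ η ∈ T, a η * (natDeg (η : N → ℂ) : ℤ) - u, d, hd, fun k hk hk1 => ?_⟩
  have hkK : k ∈ (KK : Subgroup N) := Subgroup.mem_subgroupOf.mpr hk
  have hψk : ψ k = ∑ η : IrrCharacter N, (a η : ℂ) * (η : N → ℂ) k := by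
    have h1 := congrFun (classFunction_eq_sum _ (isGenChar_classFunction hres)) k
    simpa [Finset.sum_apply, ha] using h1
  have himg : ∀ F : (N → ℂ) → ℂ, ∑ η ∈ Finset.univ.filter (fun η : IrrCharacter N =>
      (η : N → ℂ) ∈ SS), F η = ∑ χ ∈ SS, F χ := fun F => by
    refine Finset.sum_bij' (fun η _ => (η : N → ℂ)) (fun χ hχ => ⟨χ, relChars_irr χ hχ⟩)
      (fun η hη => (Finset.mem_filter.mp hη).2)
      (fun χ hχ => Finset.mem_filter.mpr ⟨Finset.mem_univ _, hχ⟩)
      (fun _ _ => rfl) (fun _ _ => rfl) (fun _ _ => rfl)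
  have hout : ∀ η ∈ T, (η : N → ℂ) k = (natDeg (η : N → ℂ) : ℂ) := by
    intro η hη
    rw [← natDeg_spec η.2.isCharacter']
    by_contra hne
    exact (Finset.mem_filter.mp hη).2 (mem_relChars.mpr ⟨η.2, ⟨k, hkK, hne⟩,
      fun a ha => by rw [Subgroup.mem_bot.mp ha]⟩)
  have hreg : ∑ χ ∈ SS, (natDeg χ : ℂ) * χ k = -(e : ℂ) := by
    have hall : ∑ η : IrrCharacter N, (η : N → ℂ) 1 * (η : N → ℂ) k = 0 := by
      rw [sum_degree_mul k, if_neg hk1]
    rw [← Finset.sum_filter_add_sum_filter_not _ (fun η : IrrCharacter N => (η : N → ℂ) ∈ SS),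
      himg (fun χ => χ 1 * χ k)] at hall
    have hsq : (∑ χ ∈ SS, (natDeg χ : ℂ) ^ 2) + ∑ η ∈ T, (natDeg (η : N → ℂ) : ℂ) ^ 2 =
        (Nat.card N : ℂ) := by
      rw [← sum_degree_sq, ← Finset.sum_filter_add_sum_filter_not Finset.univ
        (fun η : IrrCharacter N => (η : N → ℂ) ∈ SS), himg (fun χ => χ 1 ^ 2)]
      congr 1
      · exact Finset.sum_congr rfl fun χ hχ => by rw [natDeg_spec (relChars_irr χ hχ).isCharacter']
      · exact Finset.sum_congr rfl fun η _ => by rw [natDeg_spec η.2.isCharacter']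
    have hs := relChars_sum h.cent (A := (⊥ : Subgroup N)) bot_le
    rw [Subgroup.index_bot] at hs
    have hs' : (∑ χ ∈ SS, (natDeg χ : ℂ) ^ 2) + (e : ℂ) = (Nat.card N : ℂ) := by exact_mod_cast hs
    have e1 : ∑ χ ∈ SS, χ 1 * χ k = ∑ χ ∈ SS, (natDeg χ : ℂ) * χ k :=
      Finset.sum_congr rfl fun χ hχ => by rw [natDeg_spec (relChars_irr χ hχ).isCharacter']
    have e2 : ∑ η ∈ T, (η : N → ℂ) 1 * (η : N → ℂ) k = ∑ η ∈ T, (natDeg (η : N → ℂ) : ℂ) ^ 2 :=
      Finset.sum_congr rfl fun η hη => by rw [hout η hη, natDeg_spec η.2.isCharacter', sq]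
    rw [e1, show (Finset.univ.filter fun η : IrrCharacter N => ¬ ((η : N → ℂ) ∈ SS)) = T from rfl,
      e2] at hall
    linear_combination hall - hsq + hs'
  rw [hψk, ← Finset.sum_filter_add_sum_filter_not _ (fun η : IrrCharacter N => (η : N → ℂ) ∈ SS)]
  have e1 : ∑ η ∈ Finset.univ.filter (fun η : IrrCharacter N => (η : N → ℂ) ∈ SS),
      (a η : ℂ) * (η : N → ℂ) k = ∑ χ ∈ SS, (A χ : ℂ) * χ k := by
    rw [← himg (fun χ => (A χ : ℂ) * χ k)]
    exact Finset.sum_congr rfl fun η _ => by simp only [A, dif_pos η.2]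
  have e2 : ∑ χ ∈ SS, (A χ : ℂ) * χ k = ∑ χ ∈ SS, (d χ : ℂ) * χ k - u := by
    rw [Finset.sum_congr rfl fun χ hχ => show (A χ : ℂ) * χ k =
      (d χ : ℂ) * χ k + (u : ℂ) / e * ((natDeg χ : ℂ) * χ k) by rw [hrel χ hχ]; ring,
      Finset.sum_add_distrib, ← Finset.mul_sum, hreg, div_mul_eq_mul_div, mul_neg, neg_div,
      mul_div_assoc, div_self he]
    ring
  rw [e1, e2]
  push_cast
  rw [Finset.sum_congr (s₁ := T) rfl fun η hη =>
    show (a η : ℂ) * (η : N → ℂ) k = (a η : ℂ) * (natDeg (η : N → ℂ) : ℂ) by rw [hout η hη]]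
  ring

open scoped Classical in
theorem exc_star_value (h : ExcSetting H N star) {χ : N → ℂ} (hχ : χ ∈ SS) :
    ∃ C : ℤ, ∀ k : N, (k : G) ∈ H → k ≠ 1 → star χ k = χ k + C := by
  obtain ⟨C, d, hd, hk⟩ := exc_restrict h (h.iso.2.2.2 _ (ExcSetting.mem_span hχ))
  refine ⟨C, fun k hkH hk1 => ?_⟩
  rw [hk k hkH hk1]
  congr 1
  rw [Finset.sum_eq_single χ (fun η hη hne => ?_) (fun h' => absurd hχ h')]
  · have h1 := hd χ hχ
    rw [h.iso.2.2.1 _ (ExcSetting.mem_span hχ) _ (ExcSetting.mem_span hχ),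
      irr_inner_self (relChars_irr χ hχ)] at h1
    rw [← h1, one_mul]
  · have h1 := hd η hη
    rw [h.iso.2.2.1 _ (ExcSetting.mem_span hχ) _ (ExcSetting.mem_span hη),
      irr_inner_ne (relChars_irr χ hχ) (relChars_irr η hη) (Ne.symm hne)] at h1
    rw [← h1, zero_mul]

theorem exceptional_constant (h : ExcSetting H N star) :
    ∃ m : ℤ, ∀ χ ∈ SS, ∀ k : N, (k : G) ∈ H → k ≠ 1 →
      star χ k - χ k = (m : ℂ) * χ 1 / ((KK : Subgroup N).index : ℂ) := by
  obtain ⟨χ₀, hχ₀, h0⟩ := exc_linear h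
  obtain ⟨m, hm⟩ := exc_star_value h hχ₀
  refine ⟨m, fun χ hχ k hk hk1 => ?_⟩
  obtain ⟨f, -, hf⟩ := exc_deg h hχ
  have h1 := congrFun (exc_rel h hχ hχ₀ h0 hf) k
  rw [exc_ind_value h hχ hχ₀ _ hk hk1] at h1
  simp only [Pi.sub_apply, Pi.mul_apply, Pi.natCast_apply, zsmul_eq_mul, Int.cast_natCast,
    hm k hk hk1] at h1
  rw [natDeg_spec (relChars_irr χ hχ).isCharacter', hf, Nat.cast_mul, mul_div_assoc,
    mul_div_cancel_left₀ _ (Nat.cast_ne_zero.mpr Subgroup.index_ne_zero_of_finite)]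
  linear_combination h1

theorem exceptional_iff (h : ExcSetting H N star) (hHN : H ≤ N) {ψ : G → ℂ}
    (hψ : IsIrrCharacter G ψ) :
    (∃ χ ∈ SS, ψ = star χ ∨ ψ = -star χ) ↔
      ∃ a ∈ H, ∃ b ∈ H, a ≠ 1 ∧ b ≠ 1 ∧ ψ a ≠ ψ b := by
  classical
  constructor
  · rintro ⟨χ, hχ, he⟩
    by_contra hcon
    push Not at hcon
    obtain ⟨C, hC⟩ := exc_star_value h hχ
    obtain ⟨⟨k₀, hk₀⟩, hk₀1⟩ := (KK : Subgroup N).ne_bot_iff_exists_ne_one.mp (exc_ne_bot h)
    have hk₀H : (k₀ : G) ∈ H := Subgroup.mem_subgroupOf.mp hk₀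
    have hk₀' : k₀ ≠ 1 := fun e => hk₀1 (Subtype.ext e)
    have hconst : ∀ k : N, k ∈ (KK : Subgroup N) → k ≠ 1 → χ k = χ k₀ := by
      intro k hk hk1
      have h1 : ψ k = ψ k₀ := hcon k (Subgroup.mem_subgroupOf.mp hk) k₀ hk₀H
        (fun e => hk1 (Subtype.ext e)) (fun e => hk₀' (Subtype.ext e))
      have h2 : star χ k = star χ k₀ := by
        rcases he with rfl | rfl
        · exact h1
        · simpa using h1
      rw [hC k (Subgroup.mem_subgroupOf.mp hk) hk1, hC k₀ hk₀H hk₀'] at h2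
      exact add_right_cancel h2
    set c := χ k₀
    obtain ⟨h1, h2, -⟩ := mem_relChars.mp hχ
    obtain ⟨φ, hφ, hφ1, hind⟩ := exists_induced_of_frobenius h.cent h1 h2
    haveI : Fintype (KK : Subgroup N) := Fintype.ofFinite _
    have hone : classInner (fun x : (KK : Subgroup N) => χ x) (fun _ => 1) = 0 := by
      by_contra hne
      have hφc : classInner (fun x : (KK : Subgroup N) => χ x) φ ≠ 0 := by
        rw [← frobenius_right φ χ (isCharacter_classFunction h1.isCharacter'), ← hind,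
          irr_inner_self h1]
        exact one_ne_zero
      obtain ⟨g, hg⟩ := constituent_conj h1 isIrrCharacter_one hφ hne hφc
      exact hφ1 (hg.trans rfl)
    have hsum : ∀ F : (KK : Subgroup N) → ℂ, ∑ x : (KK : Subgroup N), χ x * F x =
        (χ 1 - c) * F 1 + c * ∑ x : (KK : Subgroup N), F x := fun F => by
      rw [Finset.mul_sum, ← sub_eq_iff_eq_add, ← Finset.sum_sub_distrib,
        Finset.sum_eq_single 1 (fun x _ hx => ?_) (fun h' => absurd (Finset.mem_univ _) h')]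
      · rw [OneMemClass.coe_one]; ring
      · rw [hconst x x.2 (fun e => hx (Subtype.ext e))]; ring
    have hall : ∀ θ : (KK : Subgroup N) → ℂ, IsIrrCharacter _ θ → θ ≠ (fun _ => 1) →
        classInner (fun x : (KK : Subgroup N) => χ x) θ ≠ 0 := by
      intro θ hθ hθ1 h0
      have hθs : ∑ x : (KK : Subgroup N), conj (θ x) = 0 := by
        have := irr_inner_ne isIrrCharacter_one hθ (Ne.symm hθ1)
        unfold classInner at this
        simpa using this
      unfold classInner at h0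
      rw [hsum (fun x => conj (θ x)), hθs, mul_zero, add_zero] at h0
      rcases mul_eq_zero.mp h0 with h0 | h0
      · exact (natCard_ne_zero (KK : Subgroup N)) (inv_eq_zero.mp h0)
      rcases mul_eq_zero.mp h0 with h0 | h0
      · have hcc : c = χ 1 := (sub_eq_zero.mp h0).symm
        obtain ⟨k, hk, hne⟩ := h2
        rcases eq_or_ne k 1 with rfl | hk1
        · exact hne rfl
        · exact hne ((hconst k hk hk1).trans hcc)
      · exact irr_apply_one_ne_zero hθ ((starRingEnd ℂ).injective (h0.trans (map_zero _).symm))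
    obtain ⟨η, hη, ξ, hξ, hne⟩ := Finset.one_lt_card.mp h.two
    have huniq : ∀ η ∈ SS, η = χ := by
      intro η hη
      obtain ⟨g1, g2, -⟩ := mem_relChars.mp hη
      obtain ⟨φ', hφ', hφ'1, hind'⟩ := exists_induced_of_frobenius h.cent g1 g2
      obtain ⟨g, hg⟩ := constituent_conj h1 hφ hφ' (hall φ hφ hφ1) (hall φ' hφ' hφ'1)
      rw [hind', hg, indFun_conjFn, ← hind]
    exact hne ((huniq η hη).trans (huniq ξ hξ).symm)
  · rintro ⟨a, ha, b, hb, ha1, hb1, hne⟩
    by_contra hcon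
    push Not at hcon
    obtain ⟨C, d, hd, hk⟩ := exc_restrict h (isGenChar_of_isCharacter hψ.isCharacter')
    have hd0 : ∀ χ ∈ SS, d χ = 0 := by
      intro χ hχ
      have hs := h.iso.2.2.2 _ (ExcSetting.mem_span hχ)
      have h1 : classInner (star χ) (star χ) = 1 := by
        rw [h.iso.2.2.1 _ (ExcSetting.mem_span hχ) _ (ExcSetting.mem_span hχ),
          irr_inner_self (relChars_irr χ hχ)]
      have h2 : classInner ψ (star χ) = 0 := by
        rcases genChar_norm_one hs h1 with h' | h'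
        · exact irr_inner_ne hψ h' (hcon χ hχ).1
        · have := irr_inner_ne hψ h' (hcon χ hχ).2
          rwa [inner_neg_right, neg_eq_zero] at this
      rw [hd χ hχ] at h2
      exact_mod_cast h2
    have hval : ∀ y : N, (y : G) ∈ H → y ≠ 1 → ψ y = C := fun y hy hy1 => by
      rw [hk y hy hy1, Finset.sum_eq_zero fun χ hχ => by rw [hd0 χ hχ, Int.cast_zero, zero_mul],
        zero_add]
    refine hne ?_
    have ea := hval ⟨a, hHN ha⟩ ha fun e => ha1 (congrArg Subtype.val e)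
    have eb := hval ⟨b, hHN hb⟩ hb fun e => hb1 (congrArg Subtype.val e)
    exact ea.trans eb.symm

end CfsgLib.Char
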