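import Cfsg.Agent.Lib.CharSmallDegreeCoprime
import Cfsg.Agent.S0185
import Mathlib.GroupTheory.Transfer
import Mathlib.GroupTheory.FiniteAbelian.Duality
import Mathlib.Analysis.Complex.Polynomial.Basic
import Mathlib.RingTheory.RootsOfUnity.AlgebraicallyClosed

/-!
# Normal Sylow subgroups in small degree
-/

set_option autoImplicit false
set_option linter.unusedSectionVars false
set_option linter.style.haveILetI false

namespace CfsgLib.SmallDegree

open Cfsg CfsgLib.Char
open scoped ComplexConjugate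

universe u

/-- The hypothesis of the theorem. -/
def DegHyp (G : Type u) [Group G] (n p : ℕ) : Prop :=
  (n + 1) ^ 2 ≤ p ∨ (n + 1 < p ∧
    ∀ K : Subgroup G, ¬ p ^ 2 ∣ Nat.card K → ∀ Q : Sylow p K, (Q : Subgroup K).Normal)

theorem DegHyp.lt {G : Type u} [Group G] {n p : ℕ} [hp : Fact p.Prime] (h : DegHyp G n p) :
    n + 1 < p := by
  rcases h with h | h
  · by_contra hc
    have hn : (n + 1) ^ 2 ≤ n + 1 := le_trans h (Nat.not_lt.mp hc)
    have h1 : n = 0 := by nlinarith
    subst h1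
    exact absurd (Nat.not_lt.mp hc) (Nat.not_le.mpr hp.out.one_lt)
  · exact h.1

theorem mul_linear {G : Type u} [Group G] [Fintype G] {ξ : G → ℂ} (hξ : IsIrrCharacter G ξ)
    (μ : G →* ℂˣ) : IsIrrCharacter G (fun g => ξ g * (μ g : ℂ)) := by
  refine isIrr_of_inner_self_one (isCharacter_mul hξ.isCharacter' (isIrrCharacter_hom μ).isCharacter') ?_
  have h1 : ∀ g, (μ g : ℂ) * conj (μ g : ℂ) = 1 := fun g => by
    rw [Complex.mul_conj', Complex.norm_eq_one_of_pow_eq_one (n := orderOf g) (by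
      rw [← Units.val_pow_eq_pow_val, ← map_pow, pow_orderOf_eq_one, map_one, Units.val_one])
      (orderOf_pos g).ne']
    simp
  rw [← irr_inner_self hξ]
  simp only [classInner]
  congr 1
  refine Finset.sum_congr rfl fun g _ => ?_
  rw [map_mul, mul_mul_mul_comm, h1, mul_one]

theorem char_mul_pow_one {G : Type u} [Group G] [Finite G] {ξ : G → ℂ} {z : G} {ω : ℂ}
    (hω : ∀ g, ξ (g * z) = ω * ξ g) (k : ℕ) (g : G) : ξ (g * z ^ k) = ω ^ k * ξ g := by
  induction k generalizing g with
  | zero => simp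
  | succ k ih => rw [pow_succ' z k, ← mul_assoc, ih, hω, pow_succ]; ring

theorem normal_sylow_aux : ∀ (m : ℕ) (G : Type u) [Group G] [Finite G] (n : ℕ)
    (ρ : Representation ℂ G (Fin n → ℂ)), Function.Injective ρ → ∀ (p : ℕ) [Fact p.Prime],
      DegHyp G n p → Nat.card G ≤ m → ∀ P : Sylow p G, (P : Subgroup G).Normal := by
  classical
  intro m
  induction m with
  | zero => intro G _ _ n ρ _ p _ _ h; exact absurd h (Nat.not_le.mpr Nat.card_pos)
  | succ m ih =>
  intro G _ _ n ρ hρ p _ hhyp hm P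
  haveI : Fintype G := Fintype.ofFinite G
  have hnp : n + 1 < p := hhyp.lt
  have hpr : p.Prime := Fact.out
  -- proper subgroups have normal Sylow subgroups
  have hsub : ∀ D : Subgroup G, D ≠ ⊤ → ∀ Q : Sylow p D, (Q : Subgroup D).Normal := by
    intro D hD Q
    refine ih D n (ρ.comp D.subtype) (hρ.comp D.subtype_injective) p ?_ ?_ Q
    · rcases hhyp with h | ⟨h, hK⟩
      · exact Or.inl h
      · refine Or.inr ⟨h, fun K hKp R => ?_⟩
        have e := K.equivMapOfInjective _ D.subtype_injective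
        have h1 := hK (K.map D.subtype) (by rwa [← Nat.card_congr e.toEquiv])
          (R.comapOfInjective e.symm.toMonoidHom e.symm.injective (by
            rw [MonoidHom.range_eq_top.mpr e.symm.surjective]; exact le_top))
        have h2 := h1.comap e.toMonoidHom
        have h3 : ((R : Subgroup K).comap e.symm.toMonoidHom).comap e.toMonoidHom = R := by
          ext y
          simp
        exact h3 ▸ h2
    · have := Subgroup.card_le_card_group D
      have hne : Nat.card D ≠ Nat.card G := fun e => hD (Subgroup.eq_top_of_card_eq D e)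
      omega
  -- two Sylow subgroups in a proper subgroup coincide
  have huniq : ∀ D : Subgroup G, D ≠ ⊤ → ∀ R R' : Sylow p G, (R : Subgroup G) ≤ D →
      (R' : Subgroup G) ≤ D → R = R' := by
    intro D hD R R' hR hR'
    have hn1 := hsub D hD (R.subtype hR)
    haveI := Sylow.unique_of_normal (R.subtype hR) hn1
    have h2 : R.subtype hR = R'.subtype hR' := Subsingleton.elim _ _
    exact Sylow.subtype_injective h2
  have hab : ∀ R : Sylow p G, ∀ a ∈ (R : Subgroup G), ∀ b ∈ (R : Subgroup G), a * b = b * a := by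
    intro R a ha b hb
    have h1 := Cfsg.Agent.S0185.result (ρ.comp (R : Subgroup G).subtype)
      (hρ.comp (R : Subgroup G).subtype_injective) (fun q hq hqd => by
        obtain ⟨k, hk⟩ := IsPGroup.iff_card.mp R.2
        rw [hk] at hqd
        rw [(Nat.prime_dvd_prime_iff_eq hq hpr).mp (hq.dvd_of_dvd_pow hqd), Module.finrank_fin_fun]
        omega) ⟨a, ha⟩ ⟨b, hb⟩
    exact congrArg Subtype.val h1
  by_contra hP
  have hnotnorm : ∀ M : Subgroup G, M.Normal → (P : Subgroup G) ≤ M → M = ⊤ := by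
    intro M hMn hPM
    by_contra hM
    refine hP ⟨fun a ha g => ?_⟩
    have h2 : g • P = P := huniq M hM _ P (by
      rw [Sylow.coe_subgroup_smul]
      rintro _ ⟨b, hb, rfl⟩
      exact hMn.conj_mem b (hPM hb) g) hPM
    have h3 : g * a * g⁻¹ ∈ ((g • P : Sylow p G) : Subgroup G) := by
      rw [Sylow.coe_subgroup_smul]
      exact ⟨a, ha, rfl⟩
    rwa [h2] at h3
  have hcentral : ∀ R R' : Sylow p G, R ≠ R' → ∀ z ∈ (R : Subgroup G), z ∈ (R' : Subgroup G) →
      z ∈ Subgroup.center G := by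
    intro R R' hne z hz hz'
    by_contra hzc
    refine hne (huniq (Subgroup.centralizer ({z} : Set G)) (fun e => hzc ?_) R R'
      (fun a ha => Subgroup.mem_centralizer_singleton_iff.mpr (hab R a ha z hz))
      (fun a ha => Subgroup.mem_centralizer_singleton_iff.mpr (hab R' a ha z hz')))
    rwa [Subgroup.centralizer_eq_top_iff_subset, Set.singleton_subset_iff] at e
  set Z0 : Subgroup G := (P : Subgroup G) ⊓ Subgroup.center G with hZ0
  haveI hZ0n : Z0.Normal := ⟨fun z hz g => by
    rw [show g * z * g⁻¹ = z by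
      rw [mul_inv_eq_iff_eq_mul]; exact Subgroup.mem_center_iff.mp hz.2 g]
    exact hz⟩
  have hPne : Z0 ≠ (P : Subgroup G) := fun e => hP ⟨fun a ha g => by
    have hc : a ∈ Subgroup.center G := (e.symm ▸ ha : a ∈ Z0).2
    rwa [show g * a * g⁻¹ = a by rw [mul_inv_eq_iff_eq_mul]; exact Subgroup.mem_center_iff.mp hc g]⟩
  -- transfer
  haveI : IsMulCommutative (P : Subgroup G) :=
    ⟨⟨fun a b => Subtype.ext (hab P a a.2 b b.2)⟩⟩
  letI : CommGroup (P : Subgroup G) :=
    { (inferInstance : Group (P : Subgroup G)) with mul_comm := fun a b => Subtype.ext (hab P a a.2 b b.2) }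
  let τ : G →* (P : Subgroup G) := MonoidHom.transfer (MonoidHom.id (P : Subgroup G))
  have hτ : ∀ z ∈ Z0, (τ z : G) = z ^ (P : Subgroup G).index := by
    intro z hz
    have h1 := MonoidHom.transfer_eq_pow (MonoidHom.id (P : Subgroup G)) z fun k g _ => by
      rw [mul_assoc, ← Subgroup.mem_center_iff.mp (pow_mem hz.2 k) g, ← mul_assoc, inv_mul_cancel,
        one_mul]
    show ((MonoidHom.transfer (MonoidHom.id (P : Subgroup G)) z : (P : Subgroup G)) : G) = _
    rw [h1]
    rfl
  have hτinj : ∀ z ∈ Z0, τ z = 1 → z = 1 := by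
    intro z hz e
    have h1 : z ^ (P : Subgroup G).index = 1 := by rw [← hτ z hz, e]; rfl
    obtain ⟨k, hk⟩ := IsPGroup.iff_card.mp P.2
    exact orderOf_eq_one_iff.mp (Nat.eq_one_of_dvd_coprimes
      (((Nat.Prime.coprime_iff_not_dvd hpr).mpr P.not_dvd_index).pow_left k)
      (hk ▸ Subgroup.orderOf_dvd_natCard _ hz.1) (orderOf_dvd_iff_pow_eq_one.mpr h1))
  -- a non-linear constituent of the character
  obtain ⟨ξ, hξ, hξd, d, hd, hd1⟩ : ∃ ξ : G → ℂ, IsIrrCharacter G ξ ∧ (ξ 1).re ≤ n ∧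
      ∃ d : ℕ, ξ 1 = d ∧ 2 ≤ d := by
    set f : G → ℂ := ρ.character
    have hfc : IsCharacter G f := isCharacter_rep ρ
    choose k hk using fun θ : IrrCharacter G => inner_character_nat hfc θ.2.isCharacter'
    choose e he using fun θ : IrrCharacter G => exists_degree_pos θ.2
    have hsum : n = ∑ θ : IrrCharacter G, k θ * e θ := by
      have h1 := congrFun (classFunction_eq_sum f (isCharacter_classFunction hfc)) 1
      simp only [Finset.sum_apply, Pi.smul_apply, smul_eq_mul, hk, fun θ => (he θ).2] at h1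
      rw [show f 1 = (n : ℂ) by show ρ.character 1 = _; rw [ρ.char_one, Module.finrank_fin_fun]] at h1
      exact_mod_cast h1
    by_contra hc
    push Not at hc
    refine hP ⟨fun a ha g => ?_⟩
    suffices g * a = a * g by rwa [this, mul_inv_cancel_right]
    have hcomm : ρ (g * a * g⁻¹ * a⁻¹) = 1 := by
      refine (char_eq_one_iff ρ _).mp ?_
      show f _ = f 1
      rw [congrFun (classFunction_eq_sum f (isCharacter_classFunction hfc)) (g * a * g⁻¹ * a⁻¹),
        congrFun (classFunction_eq_sum f (isCharacter_classFunction hfc)) 1]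
      simp only [Finset.sum_apply, Pi.smul_apply, smul_eq_mul]
      refine Finset.sum_congr rfl fun θ _ => ?_
      by_cases h0 : k θ = 0
      · rw [hk, h0, Nat.cast_zero, zero_mul, zero_mul]
      congr 1
      have h2 := hc θ θ.2 (by
        rw [(he θ).2, Complex.natCast_re, hsum, Nat.cast_le]
        exact le_trans (Nat.le_mul_of_pos_left _ (Nat.pos_of_ne_zero h0))
          (Finset.single_le_sum (f := fun η => k η * e η) (fun _ _ => Nat.zero_le _) (Finset.mem_univ θ)))
        (e θ) (he θ).2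
      obtain ⟨φ, hφ⟩ := exists_hom_of_degree_one θ.2.isCharacter' (by
        rw [(he θ).2, show e θ = 1 by have := (he θ).1; omega, Nat.cast_one])
      simp only [hφ]
      rw [show φ (g * a * g⁻¹ * a⁻¹) = 1 by
        rw [map_mul, map_mul, map_mul, map_inv, map_inv, mul_inv_cancel_comm, mul_inv_cancel], map_one]
    have h3 := hρ (hcomm.trans (map_one ρ).symm)
    rwa [mul_inv_eq_one, mul_inv_eq_iff_eq_mul] at h3
  -- remove `Z0` from the kernel
  choose w hw1 hw using fun z : Z0 => Leonard.center_scalar hξ z.2.2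
  have hd0 : (d : ℂ) ≠ 0 := Nat.cast_ne_zero.mpr (by omega)
  have hwval : ∀ z : Z0, ξ z = w z * d := fun z => by
    have := hw z 1
    rwa [one_mul, hd] at this
  have hwmul : ∀ z z' : Z0, w (z * z') = w z * w z' := fun z z' => by
    have h1 := hwval (z * z')
    rw [Subgroup.coe_mul, hw z' (z : G), hwval z] at h1
    exact mul_right_cancel₀ hd0 (by rw [← h1]; ring)
  have hw1' : w 1 = 1 := mul_right_cancel₀ hd0 (by rw [← hwval, one_mul, OneMemClass.coe_one, hd])
  let wh : Z0 →* ℂˣ := MonoidHom.toHomUnits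
    { toFun := w, map_one' := hw1', map_mul' := hwmul }
  let τ0 : Z0 →* (P : Subgroup G) := τ.comp Z0.subtype
  have hτ0 : Function.Injective τ0 := (injective_iff_map_eq_one τ0).mpr fun z hz =>
    Subtype.ext (hτinj z z.2 hz)
  let eR : Z0 ≃* τ0.range := MonoidHom.ofInjective hτ0
  haveI : HasEnoughRootsOfUnity ℂ (Monoid.exponent (P : Subgroup G)) := by
    haveI : NeZero (Monoid.exponent (P : Subgroup G)) := ⟨Monoid.exponent_ne_zero_of_finite⟩
    infer_instance
  obtain ⟨μ, hμ⟩ := MonoidHom.domRestrict_surjective ℂ τ0.range (wh⁻¹.comp eR.symm.toMonoidHom)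
  have hμz : ∀ z : Z0, μ (τ z) = (wh z)⁻¹ := fun z => by
    have := DFunLike.congr_fun hμ (eR z)
    simp only [MonoidHom.coe_comp, MulEquiv.coe_toMonoidHom, Function.comp_apply,
      MulEquiv.symm_apply_apply, MonoidHom.inv_apply] at this
    exact this
  set η : G → ℂ := fun g => ξ g * ((μ.comp τ) g : ℂ) with hη
  have hηirr : IsIrrCharacter G η := mul_linear hξ (μ.comp τ)
  have hη1 : η 1 = d := by simp [hη, hd]
  have hηker : ∀ z ∈ Z0, η z = η 1 := fun z hz => by
    rw [hη1]
    show ξ z * ((μ (τ z) : ℂˣ) : ℂ) = d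
    rw [show ξ z = w ⟨z, hz⟩ * d from hwval ⟨z, hz⟩, hμz ⟨z, hz⟩, Units.val_inv_eq_inv_val]
    show w ⟨z, hz⟩ * d * (w ⟨z, hz⟩)⁻¹ = d
    rw [mul_comm (w ⟨z, hz⟩), mul_inv_cancel_right₀]
    intro h0
    have := hw1 ⟨z, hz⟩
    rw [h0, norm_zero] at this
    exact zero_ne_one this
  let π : G →* G ⧸ Z0 := QuotientGroup.mk' Z0
  obtain ⟨χ', -, hχ'π, hχ'irr⟩ := exists_deflate hηirr.isCharacter' π (QuotientGroup.mk'_surjective Z0)
    (fun k hk => hηker k ((QuotientGroup.eq_one_iff k).mp hk))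
  have hχ' := hχ'irr hηirr
  set H : Subgroup (G ⧸ Z0) := (P : Subgroup G).map π with hH
  haveI : Fintype H := Fintype.ofFinite _
  haveI : Fintype (G ⧸ Z0) := Fintype.ofFinite _
  have hker : ∃ h ∈ H, χ' h ≠ χ' 1 := by
    by_contra hc
    push Not at hc
    have h1 : (P : Subgroup G) ≤ charKer hηirr.isCharacter' := fun a ha => by
      show η a = η 1
      have := hc (π a) ⟨a, ha, rfl⟩
      rwa [show χ' (π a) = η a from congrFun hχ'π a,
        show χ' 1 = η 1 by rw [← congrFun hχ'π 1, Function.comp_apply, map_one]] at this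
    have h2 := hnotnorm _ (charKer_normal _) h1
    have h3 : ∀ g, η g = d := fun g => by
      rw [← hη1]
      exact (h2 ▸ Subgroup.mem_top g : g ∈ charKer hηirr.isCharacter')
    have h4 := irr_inner_self hηirr
    simp only [classInner, h3, Complex.conj_natCast, Finset.sum_const, Finset.card_univ,
      ← Nat.card_eq_fintype_card, nsmul_eq_mul] at h4
    rw [inv_mul_cancel_left₀ (natCard_ne_zero G), ← Nat.cast_mul, ← Nat.cast_one, Nat.cast_inj] at h4
    have := Nat.eq_one_of_mul_eq_one_left h4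
    omega
  have hHab : ∀ a ∈ H, ∀ b ∈ H, a * b = b * a := by
    rintro _ ⟨a, ha, rfl⟩ _ ⟨b, hb, rfl⟩
    rw [← map_mul, ← map_mul, hab P a ha b hb]
  have hallZ0 : ∀ R : Sylow p G, Z0 ≤ R := fun R => by
    obtain ⟨g, rfl⟩ := MulAction.exists_smul_eq G P R
    intro z hz
    rw [Sylow.coe_subgroup_smul]
    refine ⟨z, hz.1, ?_⟩
    show g * z * g⁻¹ = z
    rw [mul_inv_eq_iff_eq_mul]
    exact Subgroup.mem_center_iff.mp hz.2 g
  have hHZ : H ⊓ Subgroup.center (G ⧸ Z0) = ⊥ := by
    rw [Subgroup.eq_bot_iff_forall]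
    rintro _ ⟨⟨x, hx, rfl⟩, hxc⟩
    refine (QuotientGroup.eq_one_iff x).mpr ⟨hx, ?_⟩
    obtain ⟨R, hR⟩ : ∃ R : Sylow p G, R ≠ P := by
      by_contra hc
      push Not at hc
      haveI : Subsingleton (Sylow p G) := ⟨fun a b => (hc a).trans (hc b).symm⟩
      exact hP (P.normal_of_subsingleton)
    refine hcentral R P hR x ?_ hx
    obtain ⟨g, rfl⟩ := MulAction.exists_smul_eq G P R
    have h1 : x⁻¹ * (g⁻¹ * x * g) ∈ Z0 := by
      rw [← QuotientGroup.eq_one_iff]
      show π (x⁻¹ * (g⁻¹ * x * g)) = 1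
      rw [map_mul, map_mul, map_mul, map_inv, map_inv, mul_assoc (π g)⁻¹,
        ← Subgroup.mem_center_iff.mp hxc, inv_mul_cancel_left, inv_mul_cancel]
    have h2 : g⁻¹ * x * g ∈ (P : Subgroup G) := by
      have := mul_mem hx h1.1
      rwa [mul_inv_cancel_left] at this
    rw [Sylow.coe_subgroup_smul]
    exact ⟨_, h2, by show g * (g⁻¹ * x * g) * g⁻¹ = x; group⟩
  have hone : ∀ g : G ⧸ Z0, g ∉ Subgroup.center (G ⧸ Z0) → ∀ a b : G ⧸ Z0,
      Subgroup.centralizer ({g} : Set (G ⧸ Z0)) ⊓ H.map (MulAut.conj a).toMonoidHom ≠ ⊥ →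
      Subgroup.centralizer ({g} : Set (G ⧸ Z0)) ⊓ H.map (MulAut.conj b).toMonoidHom ≠ ⊥ →
      H.map (MulAut.conj a).toMonoidHom = H.map (MulAut.conj b).toMonoidHom := by
    intro g hg a b ha hb
    have hmap : ∀ a : G, ((a • P : Sylow p G) : Subgroup G).map π =
        H.map (MulAut.conj (π a)).toMonoidHom := fun a => by
      rw [hH, Sylow.coe_subgroup_smul, Subgroup.map_map]
      show ((P : Subgroup G).map (MulAut.conj a).toMonoidHom).map π = _
      rw [Subgroup.map_map]
      congr 1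
    obtain ⟨g, rfl⟩ := QuotientGroup.mk'_surjective Z0 g
    obtain ⟨a, rfl⟩ := QuotientGroup.mk'_surjective Z0 a
    obtain ⟨b, rfl⟩ := QuotientGroup.mk'_surjective Z0 b
    rw [← hmap] at ha ⊢
    rw [← hmap] at hb ⊢
    set D : Subgroup G := (Subgroup.centralizer ({π g} : Set (G ⧸ Z0))).comap π with hD
    have hDtop : D ≠ ⊤ := fun e => hg (Subgroup.mem_center_iff.mpr fun q => by
      obtain ⟨y, rfl⟩ := QuotientGroup.mk'_surjective Z0 q
      exact Subgroup.mem_centralizer_singleton_iff.mp (e.symm ▸ Subgroup.mem_top y : y ∈ D))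
    have hex : ∀ R : Sylow p G,
        Subgroup.centralizer ({π g} : Set (G ⧸ Z0)) ⊓ (R : Subgroup G).map π ≠ ⊥ →
        ∃ x, x ∈ (R : Subgroup G) ∧ x ∈ D ∧ x ∉ Z0 := by
      intro R hR
      obtain ⟨⟨y, hy⟩, hy1⟩ := (Subgroup.ne_bot_iff_exists_ne_one).mp hR
      obtain ⟨x, hx, hxy⟩ := (Subgroup.mem_inf.mp hy).2
      refine ⟨x, hx, ?_, fun h => hy1 (Subtype.ext ?_)⟩
      · refine Subgroup.mem_comap.mpr ?_
        rw [hxy]
        exact (Subgroup.mem_inf.mp hy).1
      · show y = 1
        rw [← hxy]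
        exact (QuotientGroup.eq_one_iff x).mpr h
    obtain ⟨x, hxR, hxD, hx0⟩ := hex (a • P) ha
    obtain ⟨y, hyR, hyD, hy0⟩ := hex (b • P) hb
    let Q : Sylow p D := default
    haveI : (Q : Subgroup D).Normal := hsub D hDtop Q
    haveI := Sylow.unique_of_normal Q (hsub D hDtop Q)
    have hmemQ : ∀ R : Sylow p G, ∀ x ∈ (R : Subgroup G), x ∈ D → x ∈ (Q : Subgroup D).map D.subtype := by
      intro R x hx hxD
      obtain ⟨Q', hQ'⟩ := (IsPGroup.comap_of_injective (H := Subgroup.zpowers x)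
        (R.2.to_le (Subgroup.zpowers_le.mpr hx)) D.subtype D.subtype_injective).exists_le_sylow
      refine ⟨⟨x, hxD⟩, ?_, rfl⟩
      rw [Subsingleton.elim Q Q']
      exact hQ' (Subgroup.mem_comap.mpr (Subgroup.mem_zpowers x))
    obtain ⟨R, hR⟩ := (Q.2.map D.subtype).exists_le_sylow
    have hxR' : x ∈ (R : Subgroup G) := hR (hmemQ _ x hxR hxD)
    have hyR' : y ∈ (R : Subgroup G) := hR (hmemQ _ y hyR hyD)
    have hnc : ∀ (T : Sylow p G) (z : G), z ∈ (T : Subgroup G) → z ∉ Z0 → z ∉ Subgroup.center G := by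
      intro T z hz hz0 hzc
      obtain ⟨t, rfl⟩ := MulAction.exists_smul_eq G P T
      rw [Sylow.coe_subgroup_smul] at hz
      obtain ⟨w', hw', rfl⟩ := hz
      refine hz0 ⟨?_, hzc⟩
      have h1 := Subgroup.mem_center_iff.mp hzc t⁻¹
      change t⁻¹ * (t * w' * t⁻¹) = t * w' * t⁻¹ * t⁻¹ at h1
      show t * w' * t⁻¹ ∈ (P : Subgroup G)
      rwa [show t * w' * t⁻¹ = w' by
        calc t * w' * t⁻¹ = t * w' * t⁻¹ * t⁻¹ * t := by group
          _ = t⁻¹ * (t * w' * t⁻¹) * t := by rw [h1]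
          _ = w' := by group]
    have e1 : R = a • P := by
      by_contra hne
      exact hnc _ x hxR hx0 (hcentral R (a • P) hne x hxR' hxR)
    have e2 : R = b • P := by
      by_contra hne
      exact hnc _ y hyR hy0 (hcentral R (b • P) hne y hyR' hyR)
    rw [← e1, ← e2]
  obtain ⟨-, hbound⟩ := Leonard.bounds H hHab hHZ hone hχ' hker
  have hχ1 : χ' 1 = (d : ℂ) := by rw [← hη1, ← congrFun hχ'π 1, Function.comp_apply, map_one]
  have hgen : ∀ M : Subgroup (G ⧸ Z0), M.Normal → H ≤ M → M = ⊤ := fun M hM hHM => by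
    have := hnotnorm (M.comap π) (hM.comap π) fun a ha => hHM ⟨a, ha, rfl⟩
    rw [← Subgroup.map_comap_eq_self_of_surjective (QuotientGroup.mk'_surjective Z0) M, this,
      Subgroup.map_top_of_surjective _ (QuotientGroup.mk'_surjective Z0)]
  have hlt := hbound (fun e => by
    rw [hχ1, ← Nat.cast_one, Nat.cast_inj] at e
    omega) hgen
  rw [hχ1, Complex.natCast_re] at hlt
  have hdn : d ≤ n := by
    rw [hd, Complex.natCast_re] at hξd
    exact_mod_cast hξd
  have hHlt : Nat.card H < (n + 1) ^ 2 := by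
    have h1 : (1 + (d : ℝ)) ^ 2 ≤ ((n : ℝ) + 1) ^ 2 :=
      pow_le_pow_left₀ (by positivity) (by
        have : (d : ℝ) ≤ n := by exact_mod_cast hdn
        linarith) 2
    have h2 := lt_of_lt_of_le hlt h1
    exact_mod_cast h2
  -- `P / Z0` has order `p`
  have hPcard : Nat.card (P : Subgroup G) = Nat.card Z0 * Nat.card H := by
    have e1 := (Subgroup.card_mul_index (π.comp (P : Subgroup G).subtype).ker).symm
    rw [Subgroup.index_ker, MonoidHom.range_comp, Subgroup.range_subtype, ← hH] at e1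
    rw [e1]
    congr 1
    refine Nat.card_congr
      { toFun := fun y => ⟨(y.1 : G), (QuotientGroup.eq_one_iff _).mp y.2⟩
        invFun := fun y => ⟨⟨y, y.2.1⟩, (QuotientGroup.eq_one_iff _).mpr y.2⟩
        left_inv := fun y => rfl
        right_inv := fun y => rfl }
  obtain ⟨k, hk⟩ := IsPGroup.iff_card.mp (P.2.map π : IsPGroup p H)
  have hk1 : 1 ≤ k := by
    by_contra h0
    rw [Nat.lt_one_iff.mp (Nat.not_le.mp h0), pow_zero] at hk
    rw [hk, mul_one] at hPcard
    exact hPne (Subgroup.eq_of_le_of_card_ge inf_le_left hPcard.le)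
  rcases hhyp with hbig | ⟨-, hK⟩
  · have : p ≤ Nat.card H := by rw [hk]; exact Nat.le_self_pow (by omega) p
    omega
  have hk2 : k = 1 := by
    by_contra h
    have h1 : p ^ 2 ≤ p ^ k := Nat.pow_le_pow_right hpr.pos (by omega)
    have h2 : (n + 1) ^ 2 ≤ p ^ 2 := Nat.pow_le_pow_left hnp.le 2
    rw [hk] at hHlt
    omega
  rw [hk2, pow_one] at hk
  by_cases hZ1 : Z0 = ⊥
  · have h1 : ¬ p ^ 2 ∣ Nat.card (⊤ : Subgroup G) := by
      rw [Subgroup.card_top]
      intro h
      have : p ^ 2 ∣ Nat.card (P : Subgroup G) := by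
        rw [P.card_eq_multiplicity]
        exact Nat.pow_dvd_pow p ((hpr.pow_dvd_iff_le_factorization Nat.card_pos.ne').mp h)
      rw [hPcard, hk, hZ1, Subgroup.card_bot, one_mul] at this
      have := Nat.le_of_dvd hpr.pos this
      nlinarith [hpr.two_le]
    have h2 := hK ⊤ h1 (P.subtype le_top)
    refine hP ⟨fun a ha g => ?_⟩
    exact h2.conj_mem ⟨a, Subgroup.mem_top a⟩ ha ⟨g, Subgroup.mem_top g⟩
  -- the kernel of the transfer
  set M : Subgroup G := τ.ker with hM
  haveI hMn : M.Normal := MonoidHom.normal_ker τ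
  have hMtop : M ≠ ⊤ := fun e => hZ1 ((Subgroup.eq_bot_iff_forall Z0).mpr fun z hz =>
    hτinj z hz (MonoidHom.mem_ker.mp (show z ∈ τ.ker by rw [← hM, e]; exact Subgroup.mem_top z)))
  have hMZ : ∀ z ∈ Z0, z ∈ M → z = 1 := fun z hz hzM => hτinj z hz hzM
  set P1 : Subgroup G := (P : Subgroup G) ⊓ M with hP1
  have hP1le : Nat.card P1 ≤ p := by
    rw [← hk]
    refine Nat.card_le_card_of_injective (fun y => ⟨π (y : G), ⟨y, y.2.1, rfl⟩⟩) ?_
    intro y y' e
    have e' : π (y : G) = π (y' : G) := congrArg Subtype.val e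
    have h1 : (y : G)⁻¹ * y' ∈ Z0 := QuotientGroup.eq.mp e'
    exact Subtype.ext (inv_mul_eq_one.mp (hMZ _ h1 (mul_mem (inv_mem y.2.2) y'.2.2)))
  have hP1idx : ¬ p ∣ (P1.subgroupOf M).index := by
    intro h
    let S : Sylow p M := default
    obtain ⟨R, hR⟩ := (S.2.map M.subtype).exists_le_sylow
    obtain ⟨g, rfl⟩ := MulAction.exists_smul_eq G P R
    rw [Sylow.coe_subgroup_smul] at hR
    have hmem : ∀ y : (S : Subgroup M), g⁻¹ * ((y : M) : G) * g ∈ P1 := fun y => by
      obtain ⟨b, hb, hby⟩ := hR ⟨(y : M), y.2, rfl⟩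
      refine ⟨?_, ?_⟩
      · rw [← show g * b * g⁻¹ = ((y : M) : G) from hby, show g⁻¹ * (g * b * g⁻¹) * g = b by group]
        exact hb
      · have := hMn.conj_mem _ (y : M).2 g⁻¹
        rwa [inv_inv] at this
    have hle : Nat.card (S : Subgroup M) ≤ Nat.card P1 :=
      Nat.card_le_card_of_injective (fun y => (⟨_, hmem y⟩ : P1)) fun y y' e => by
        have e' : g⁻¹ * ((y : M) : G) * g = g⁻¹ * ((y' : M) : G) * g := congrArg Subtype.val e
        exact Subtype.ext (Subtype.ext (mul_left_cancel (mul_right_cancel e')))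
    obtain ⟨i, hi⟩ := IsPGroup.iff_card.mp (P.2.to_le (inf_le_left : P1 ≤ (P : Subgroup G)))
    obtain ⟨j, hj⟩ := IsPGroup.iff_card.mp S.2
    refine S.not_dvd_index (h.trans ?_)
    have e1 := Subgroup.card_mul_index (P1.subgroupOf M)
    rw [Nat.card_congr (Subgroup.subgroupOfEquivOfLe (inf_le_right : P1 ≤ M)).toEquiv,
      ← Subgroup.card_mul_index (S : Subgroup M)] at e1
    obtain ⟨c, hc⟩ : Nat.card (S : Subgroup M) ∣ Nat.card P1 := by
      rw [hi, hj] at hle ⊢
      exact Nat.pow_dvd_pow p ((Nat.pow_le_pow_iff_right hpr.one_lt).mp hle)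
    rw [hc, mul_assoc] at e1
    exact Dvd.intro_left c (Nat.eq_of_mul_eq_mul_left Nat.card_pos e1)
  let P1s : Sylow p M :=
    (IsPGroup.comap_of_injective (H := P1) (P.2.to_le inf_le_left) M.subtype M.subtype_injective).toSylow
      hP1idx
  haveI hP1n : (P1s : Subgroup M).Normal := hsub M hMtop P1s
  have hP1G : P1.Normal := by
    haveI := Sylow.unique_of_normal P1s hP1n
    haveI := P1s.characteristic_of_normal hP1n
    have h1 : ((P1s : Subgroup M).map M.subtype) = P1 := by
      show (P1.subgroupOf M).map M.subtype = P1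
      exact Subgroup.map_subgroupOf_eq_of_le inf_le_right
    rw [← h1]
    infer_instance
  have hP1Z : Disjoint P1 Z0 := disjoint_iff.mpr ((Subgroup.eq_bot_iff_forall _).mpr
    fun z hz => hMZ z hz.2 hz.1.2)
  by_cases hP1bot : P1 = ⊥
  · -- `M` has order prime to `p`
    have hMp : ¬ p ∣ Nat.card M := by
      intro h
      rw [hP1bot, Subgroup.bot_subgroupOf, Subgroup.index_bot] at hP1idx
      exact hP1idx h
    refine hP ⟨fun a ha g => ?_⟩
    have hPcent : ∀ x ∈ (P : Subgroup G), x ∈ Subgroup.centralizer (M : Set G) := by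
      intro x hx
      refine centralizes_coprime ρ hρ hnp x (P.2.to_le (Subgroup.zpowers_le.mpr hx)) ?_ M hMp
        (by rw [Subgroup.normalizer_eq_top]; exact Subgroup.mem_top x)
      have h1 : π (x ^ p) = 1 := by
        rw [map_pow, ← hk]
        have := pow_card_eq_one' (G := H) (x := ⟨π x, x, hx, rfl⟩)
        exact congrArg Subtype.val this
      exact ((QuotientGroup.eq_one_iff _).mp h1).2
    -- `g` is the product of an element of `M` and one of `P`
    have hbij : Function.Bijective (τ.comp (P : Subgroup G).subtype) := by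
      rw [← Finite.injective_iff_bijective]
      exact (injective_iff_map_eq_one _).mpr fun y hy => Subtype.ext (Subgroup.mem_bot.mp
        (hP1bot ▸ (⟨y.2, hy⟩ : (y : G) ∈ P1)))
    obtain ⟨y, hy⟩ := hbij.2 (τ g)
    have hgy : g * (y : G)⁻¹ ∈ M := by
      rw [hM, MonoidHom.mem_ker, map_mul, map_inv]
      change τ g * (τ (y : G))⁻¹ = 1
      rw [show τ (y : G) = τ g from hy, mul_inv_cancel]
    have h1 := Subgroup.mem_centralizer_iff.mp (hPcent a ha) _ hgy
    have h2 : g * a * g⁻¹ = a := by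
      have e1 : (y : G) * a = a * y := hab P y y.2 a ha
      calc g * a * g⁻¹ = (g * (y : G)⁻¹) * ((y : G) * a) * g⁻¹ := by group
        _ = (g * (y : G)⁻¹ * a) * y * g⁻¹ := by rw [e1]; group
        _ = a * (g * (y : G)⁻¹) * y * g⁻¹ := by rw [h1]
        _ = a := by group
    rwa [h2]
  · have hcard : Nat.card ↥(P1 ⊔ Z0) = Nat.card P1 * Nat.card Z0 := by
      haveI := hP1G
      exact (Subgroup.IsComplement'.card_mul_card
        (Subgroup.isComplement'_of_disjoint_and_mul_eq_univ (H := P1.subgroupOf (P1 ⊔ Z0))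
          (K := Z0.subgroupOf (P1 ⊔ Z0)) (disjoint_iff.mpr ((Subgroup.eq_bot_iff_forall _).mpr fun z hz =>
            Subtype.ext (hMZ z hz.2 hz.1.2))) (by
            rw [← Subgroup.normal_mul, ← Subgroup.subgroupOf_sup le_sup_left le_sup_right,
              Subgroup.subgroupOf_self, Subgroup.coe_top]))).symm.trans (by
          rw [Nat.card_congr (Subgroup.subgroupOfEquivOfLe le_sup_left).toEquiv,
            Nat.card_congr (Subgroup.subgroupOfEquivOfLe le_sup_right).toEquiv])
    obtain ⟨j, hj⟩ := IsPGroup.iff_card.mp (P.2.to_le (inf_le_left : P1 ≤ (P : Subgroup G)))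
    have hj1 : 1 ≤ j := by
      by_contra h0
      rw [Nat.lt_one_iff.mp (Nat.not_le.mp h0), pow_zero] at hj
      exact hP1bot (Subgroup.card_eq_one.mp hj)
    have hge : p ≤ Nat.card P1 := by rw [hj]; exact Nat.le_self_pow (by omega) p
    have e1 : P1 ⊔ Z0 = (P : Subgroup G) := Subgroup.eq_of_le_of_card_ge (sup_le inf_le_left inf_le_left)
      (by rw [hcard, hPcard, hk, mul_comm (Nat.card Z0)]; exact Nat.mul_le_mul_right _ hge)
    refine hP ?_
    haveI := hP1G
    rw [← e1]
    infer_instance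

theorem normal_sylow {G : Type u} [Group G] [Finite G] {n : ℕ}
    (ρ : Representation ℂ G (Fin n → ℂ)) (hρ : Function.Injective ρ) {p : ℕ} [Fact p.Prime]
    (h : DegHyp G n p) (P : Sylow p G) : (P : Subgroup G).Normal :=
  normal_sylow_aux (Nat.card G) G n ρ hρ p h le_rfl P

end CfsgLib.SmallDegree
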