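import Cfsg.Agent.Lib.CharGLTwoThreeTab
import Cfsg.Agent.Lib.CharCongr
import Cfsg.Agent.Lib.CharInd
import Cfsg.Agent.Lib.CharVirtual
import Cfsg.Agent.Lib.CharTIPair
import Cfsg.Agent.Lib.TransferApps
import Mathlib

/-!
# Simple groups with an involution centralizer isomorphic to `GL(2,3)`
-/

set_option autoImplicit false
set_option linter.unusedSectionVars false
set_option linter.style.haveILetI false

namespace CfsgLib.GLTwoThree

open Cfsg CfsgLib.Char
open scoped ComplexConjugate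

universe u

section Combinatorics

variable {ι : Type*} [Fintype ι] [DecidableEq ι]

theorem supp_two (f : ι → ℤ) (R : Finset ι) (h : ∑ i ∈ R, f i ^ 2 = 2) :
    ∃ p ∈ R, ∃ q ∈ R, p ≠ q ∧ f p ^ 2 = 1 ∧ f q ^ 2 = 1 ∧
      ∀ i ∈ R, i ≠ p → i ≠ q → f i = 0 := by
  set S := R.filter fun i => f i ≠ 0 with hS
  have h2 : ∑ i ∈ S, f i ^ 2 = 2 := by
    have h9 := Finset.sum_filter_of_ne (s := R) (p := fun i => f i ≠ 0) (f := fun i => f i ^ 2)
      (fun i _ hne hz => hne (by simp only [hz]; norm_num))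
    exact h9.trans h
  have hsq : ∀ i ∈ S, f i ^ 2 = 1 := fun i hi => by
    have hne := (Finset.mem_filter.mp hi).2
    have h0 : f i ^ 2 ≤ 2 :=
      h2 ▸ Finset.single_le_sum (f := fun i => f i ^ 2) (fun _ _ => sq_nonneg _) hi
    have hu : f i ≤ 1 := by nlinarith
    have hl : -1 ≤ f i := by nlinarith
    rcases (by omega : f i = -1 ∨ f i = 1) with e | e <;> rw [e] <;> norm_num
  have hcard : S.card = 2 := by
    rw [Finset.sum_congr rfl hsq, Finset.sum_const, nsmul_one] at h2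
    exact_mod_cast h2
  obtain ⟨p, q, hpq, hSpq⟩ := Finset.card_eq_two.mp hcard
  have hp : p ∈ S := hSpq ▸ Finset.mem_insert_self _ _
  have hq : q ∈ S := hSpq ▸ Finset.mem_insert_of_mem (Finset.mem_singleton_self q)
  refine ⟨p, (Finset.mem_filter.mp hp).1, q, (Finset.mem_filter.mp hq).1, hpq, hsq p hp, hsq q hq,
    fun i hi hip hiq => ?_⟩
  by_contra hne
  have : i ∈ S := Finset.mem_filter.mpr ⟨hi, hne⟩
  rw [hSpq, Finset.mem_insert, Finset.mem_singleton] at this
  tauto

theorem small_of_norm (f : ι → ℤ) {n : ℤ} (hn : n ≤ 3) (h : ∑ i, f i ^ 2 = n) (i : ι) :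
    -1 ≤ f i ∧ f i ≤ 1 := by
  have h0 : f i ^ 2 ≤ n :=
    h ▸ Finset.single_le_sum (f := fun i => f i ^ 2) (fun _ _ => sq_nonneg _) (Finset.mem_univ i)
  constructor <;> nlinarith

theorem sum_two (f F : ι → ℤ) (p q : ι) (hpq : p ≠ q) (h : ∀ i, i ≠ p → i ≠ q → f i = 0) :
    ∑ i, f i * F i = f p * F p + f q * F q := by
  rw [← Finset.sum_subset (Finset.subset_univ {p, q}) (fun i _ hi => ?_)]
  · rw [Finset.sum_pair hpq]
  · simp only [Finset.mem_insert, Finset.mem_singleton, not_or] at hi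
    rw [h i hi.1 hi.2, zero_mul]

theorem sum_three (f F : ι → ℤ) (o p q : ι) (hop : o ≠ p) (hoq : o ≠ q) (hpq : p ≠ q)
    (h : ∀ i, i ≠ o → i ≠ p → i ≠ q → f i = 0) :
    ∑ i, f i * F i = f o * F o + f p * F p + f q * F q := by
  rw [← Finset.sum_subset (Finset.subset_univ {o, p, q}) (fun i _ hi => ?_)]
  · rw [Finset.sum_insert (by simp [hop, hoq]), Finset.sum_pair hpq, add_assoc]
  · simp only [Finset.mem_insert, Finset.mem_singleton, not_or] at hi
    rw [h i hi.1 hi.2.1 hi.2.2, zero_mul]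

/-- The coefficients of the five induced functions. -/
theorem coefficients (a b g d e deg : ι → ℤ) (i₀ : ι) (hpos : ∀ i, 0 < deg i) (h0 : deg i₀ = 1)
    (ha0 : a i₀ = 1) (hb0 : b i₀ = 1) (hg0 : g i₀ = 0) (hd0 : d i₀ = 0) (he0 : e i₀ = 0)
    (haa : ∑ i, a i * a i = 3) (hbb : ∑ i, b i * b i = 3) (hgg : ∑ i, g i * g i = 3)
    (hdd : ∑ i, d i * d i = 2) (hee : ∑ i, e i * e i = 2)
    (hab : ∑ i, a i * b i = 1) (hag : ∑ i, a i * g i = 1) (had : ∑ i, a i * d i = 1)
    (hae : ∑ i, a i * e i = 1) (hbg : ∑ i, b i * g i = -1) (hbd : ∑ i, b i * d i = 0)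
    (hbe : ∑ i, b i * e i = 0) (hgd : ∑ i, g i * d i = 1) (hge : ∑ i, g i * e i = 1)
    (hde : ∑ i, d i * e i = 1)
    (zA : ∑ i, a i * deg i = 0) (zG : ∑ i, g i * deg i = 0) (zD : ∑ i, d i * deg i = 0)
    (zE : ∑ i, e i * deg i = 0) :
    ∃ X W P Q, X ≠ i₀ ∧ W ≠ i₀ ∧ X ≠ W ∧ P ≠ i₀ ∧ Q ≠ i₀ ∧ P ≠ Q ∧
      (∀ i, i ≠ i₀ → i ≠ X → i ≠ W → a i = 0) ∧ (∀ i, i ≠ i₀ → i ≠ P → i ≠ Q → b i = 0) ∧
      a X ^ 2 = 1 ∧ a W ^ 2 = 1 ∧ b P ^ 2 = 1 ∧ b Q ^ 2 = 1 ∧
      4 * b X - 3 * a X + g X + 2 * (d X + e X) = 2 * a X ∧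
      4 * b W - 3 * a W + g W + 2 * (d W + e W) = -3 * a W ∧
      4 * b P - 3 * a P + g P + 2 * (d P + e P) = 3 * b P ∧
      4 * b Q - 3 * a Q + g Q + 2 * (d Q + e Q) = 4 * b Q ∧
      20 * b X - 21 * a X + 7 * g X + 10 * (d X + e X) = 6 * a X ∧
      20 * b P - 21 * a P + 7 * g P + 10 * (d P + e P) = 13 * b P := by
  simp only [← sq] at haa hbb hgg hdd hee
  have sa := small_of_norm a le_rfl haa
  have sg := small_of_norm g le_rfl hgg
  have se := small_of_norm e (by norm_num) hee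
  have ea : ∑ i ∈ Finset.univ.erase i₀, a i ^ 2 = 2 := by
    rw [← Finset.add_sum_erase _ _ (Finset.mem_univ i₀), ha0] at haa; omega
  have eb : ∑ i ∈ Finset.univ.erase i₀, b i ^ 2 = 2 := by
    rw [← Finset.add_sum_erase _ _ (Finset.mem_univ i₀), hb0] at hbb; omega
  -- the two functions of norm two
  obtain ⟨X, Y, σ, hXY, hσ, dX, dY, eX, eY, hd⟩ : ∃ X Y σ, X ≠ Y ∧ σ ^ 2 = 1 ∧ d X = σ ∧
      d Y = -σ ∧ e X = σ ∧ e Y = 0 ∧ ∀ i, i ≠ X → i ≠ Y → d i = 0 := by
    obtain ⟨p, -, q, -, hpq, hp, hq, hr⟩ := supp_two d Finset.univ hdd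
    have hr' : ∀ i, i ≠ p → i ≠ q → d i = 0 := fun i => hr i (Finset.mem_univ i)
    rw [sum_two d e p q hpq hr'] at hde
    rw [sum_two d deg p q hpq hr'] at zD
    have hneg : d q = -d p := by
      have := hpos p; have := hpos q
      rcases sq_eq_one_iff.mp hp with u | u <;> rcases sq_eq_one_iff.mp hq with v | v <;>
        rw [u, v] at zD ⊢ <;> omega
    rcases sq_eq_one_iff.mp hp with u | u <;> rw [hneg, u] at hde
    · rcases (by have := se p; have := se q; omega : (e p = 1 ∧ e q = 0) ∨ (e q = -1 ∧ e p = 0)) with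
        ⟨h1, h2⟩ | ⟨h1, h2⟩
      · exact ⟨p, q, 1, hpq, by norm_num, u, by rw [hneg, u], h1, h2, hr'⟩
      · exact ⟨q, p, -1, hpq.symm, by norm_num, by rw [hneg, u], by rw [u]; norm_num, h1, h2,
          fun i hi hj => hr' i hj hi⟩
    · rcases (by have := se p; have := se q; omega : (e p = -1 ∧ e q = 0) ∨ (e q = 1 ∧ e p = 0)) with
        ⟨h1, h2⟩ | ⟨h1, h2⟩
      · exact ⟨p, q, -1, hpq, by norm_num, u, by rw [hneg, u], h1, h2, hr'⟩
      · exact ⟨q, p, 1, hpq.symm, by norm_num, by rw [hneg, u]; norm_num, u, h1, h2,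
          fun i hi hj => hr' i hj hi⟩
  have hσ0 : σ = 1 ∨ σ = -1 := sq_eq_one_iff.mp hσ
  obtain ⟨Z, hXZ, hYZ, eZ, he, hdeg1, hdeg2⟩ : ∃ Z, X ≠ Z ∧ Y ≠ Z ∧ e Z = -σ ∧
      (∀ i, i ≠ X → i ≠ Z → e i = 0) ∧ deg Y = deg X ∧ deg Z = deg X := by
    obtain ⟨p, -, q, -, hpq, hp, hq, hr⟩ := supp_two e Finset.univ hee
    have hr' : ∀ i, i ≠ p → i ≠ q → e i = 0 := fun i => hr i (Finset.mem_univ i)
    obtain ⟨Z, hXZ, hZ, hr''⟩ : ∃ Z, X ≠ Z ∧ e Z ^ 2 = 1 ∧ ∀ i, i ≠ X → i ≠ Z → e i = 0 := by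
      rcases eq_or_ne X p with rfl | hxp
      · exact ⟨q, hpq, hq, hr'⟩
      · rcases eq_or_ne X q with rfl | hxq
        · exact ⟨p, hpq.symm, hp, fun i hi hj => hr' i hj hi⟩
        · exfalso
          have := hr' X hxp hxq
          rw [eX] at this
          omega
    rw [sum_two e deg X Z hXZ hr'', eX] at zE
    rw [sum_two d deg X Y hXY hd, dX, dY] at zD
    have hYZ : Y ≠ Z := fun h => by rw [h] at eY; rw [eY] at hZ; norm_num at hZ
    have := hpos X; have := hpos Y; have := hpos Z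
    refine ⟨Z, hXZ, hYZ, ?_, hr'', ?_, ?_⟩ <;>
      rcases sq_eq_one_iff.mp hZ with v | v <;> rw [v] at zE <;> rcases hσ0 with u | u <;>
      rw [u] at zE zD <;> omega
  have hX0 : X ≠ i₀ := fun h => by rw [h, hd0] at dX; omega
  have hY0 : Y ≠ i₀ := fun h => by rw [h, hd0] at dY; omega
  have hZ0 : Z ≠ i₀ := fun h => by rw [h, he0] at eZ; omega
  -- the first function
  have had' : a X * σ - a Y * σ = 1 := by
    rw [Finset.sum_congr rfl (fun i _ => mul_comm (a i) (d i)), sum_two d a X Y hXY hd, dX, dY] at had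
    linarith
  have hae' : a X * σ - a Z * σ = 1 := by
    rw [Finset.sum_congr rfl (fun i _ => mul_comm (a i) (e i)), sum_two e a X Z hXZ he, eX, eZ] at hae
    linarith
  obtain ⟨p, hp, q, hq, hpq, hp1, hq1, hr⟩ := supp_two a _ ea
  have hr' : ∀ i, i ≠ i₀ → i ≠ p → i ≠ q → a i = 0 := fun i h =>
    hr i (Finset.mem_erase.mpr ⟨h, Finset.mem_univ i⟩)
  have aY : a Y = 0 := by
    by_contra hne
    have hZne : a Z ≠ 0 := by rcases hσ0 with rfl | rfl <;> omega
    have hX : a X = 0 := by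
      by_contra hXne
      have hm : ∀ i, i ≠ i₀ → a i ≠ 0 → i = p ∨ i = q := fun i h1 h2 => by
        by_contra h3; push Not at h3; exact h2 (hr' i h1 h3.1 h3.2)
      rcases hm X hX0 hXne with rfl | rfl <;> rcases hm Y hY0 hne with rfl | rfl <;>
        rcases hm Z hZ0 hZne with rfl | rfl <;> contradiction
    have hs : ∀ i, i ≠ i₀ → i ≠ Y → i ≠ Z → a i = 0 := fun i h1 h2 h3 => by
      by_contra h4
      have hm : ∀ i, i ≠ i₀ → a i ≠ 0 → i = p ∨ i = q := fun i h1 h2 => by
        by_contra h3; push Not at h3; exact h2 (hr' i h1 h3.1 h3.2)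
      rcases hm i h1 h4 with rfl | rfl <;> rcases hm Y hY0 hne with rfl | rfl <;>
        rcases hm Z hZ0 hZne with rfl | rfl <;> contradiction
    rw [sum_three a deg i₀ Y Z (Ne.symm hY0) (Ne.symm hZ0) hYZ hs, ha0, h0, hdeg1, hdeg2] at zA
    have := hpos X
    rcases hσ0 with rfl | rfl
    · rw [show a Y = -1 by omega, show a Z = -1 by omega] at zA; omega
    · rw [show a Y = 1 by omega, show a Z = 1 by omega] at zA; omega
  have aX : a X = σ := by rcases hσ0 with rfl | rfl <;> omega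
  have aZ : a Z = 0 := by rcases hσ0 with rfl | rfl <;> omega
  obtain ⟨W, hXW, hW0, hW1, haW⟩ : ∃ W, X ≠ W ∧ W ≠ i₀ ∧ a W ^ 2 = 1 ∧
      ∀ i, i ≠ i₀ → i ≠ X → i ≠ W → a i = 0 := by
    rcases eq_or_ne X p with rfl | hxp
    · exact ⟨q, hpq, Finset.ne_of_mem_erase hq, hq1, hr'⟩
    · rcases eq_or_ne X q with rfl | hxq
      · exact ⟨p, hpq.symm, Finset.ne_of_mem_erase hp, hp1, fun i h1 h2 h3 => hr' i h1 h3 h2⟩
      · exfalso
        have := hr' X hX0 hxp hxq
        omega
  have hWY : W ≠ Y := fun h => by rw [h, aY] at hW1; norm_num at hW1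
  have hWZ : W ≠ Z := fun h => by rw [h, aZ] at hW1; norm_num at hW1
  have dW : d W = 0 := hd W hXW.symm hWY
  have eW : e W = 0 := he W hXW.symm hWZ
  rw [sum_three a deg i₀ X W (Ne.symm hX0) (Ne.symm hW0) hXW haW, ha0, h0, aX] at zA
  -- the third function
  have hgd' : g X * σ - g Y * σ = 1 := by
    rw [Finset.sum_congr rfl (fun i _ => mul_comm (g i) (d i)), sum_two d g X Y hXY hd, dX, dY] at hgd
    linarith
  have hge' : g X * σ - g Z * σ = 1 := by
    rw [Finset.sum_congr rfl (fun i _ => mul_comm (g i) (e i)), sum_two e g X Z hXZ he, eX, eZ] at hge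
    linarith
  rw [sum_three a g i₀ X W (Ne.symm hX0) (Ne.symm hW0) hXW haW, ha0, hg0, aX] at hag
  have gY : g Y = 0 := by
    by_contra hne
    have := sg X; have := sg Y; have := sg Z
    have e1 : g X = 0 := by rcases hσ0 with rfl | rfl <;> omega
    have e2 : g Y = -σ := by rcases hσ0 with rfl | rfl <;> omega
    have e3 : g Z = -σ := by rcases hσ0 with rfl | rfl <;> omega
    have e4 : g W = a W := by
      rw [e1] at hag
      rcases sq_eq_one_iff.mp hW1 with v | v <;> rw [v] at hag ⊢ <;> omega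
    have hs : ∀ i, i ≠ Y → i ≠ Z → i ≠ W → g i = 0 := by
      have h3 : ∑ i ∈ ({Y, Z, W} : Finset ι), g i ^ 2 = 3 := by
        rw [Finset.sum_insert (by simp [hYZ, hWY.symm]), Finset.sum_pair hWZ.symm, e2, e3, e4,
          neg_sq, hσ, hW1]
        norm_num
      intro i h1 h2 h5
      by_contra h4
      have := Finset.sum_le_sum_of_subset_of_nonneg (Finset.subset_univ (insert i ({Y, Z, W} : Finset ι)))
        (f := fun i => g i ^ 2) (fun _ _ _ => sq_nonneg _)
      rw [Finset.sum_insert (by simp [h1, h2, h5]), h3, hgg] at this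
      have := sq_pos_of_ne_zero h4
      omega
    rw [sum_three g deg Y Z W hYZ hWY.symm hWZ.symm hs, e2, e3, e4, hdeg1, hdeg2] at zG
    have := hpos X; have := hpos W
    rcases hσ0 with rfl | rfl <;> omega
  have gX : g X = σ := by rcases hσ0 with rfl | rfl <;> omega
  have gZ : g Z = 0 := by rcases hσ0 with rfl | rfl <;> omega
  have gW : g W = 0 := by
    rcases sq_eq_one_iff.mp hW1 with v | v <;> rw [v, gX] at hag <;>
      rcases hσ0 with rfl | rfl <;> omega
  -- the second function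
  have hbd' : b X = b Y := by
    rw [Finset.sum_congr rfl (fun i _ => mul_comm (b i) (d i)), sum_two d b X Y hXY hd, dX, dY] at hbd
    rcases hσ0 with rfl | rfl <;> omega
  have hbe' : b X = b Z := by
    rw [Finset.sum_congr rfl (fun i _ => mul_comm (b i) (e i)), sum_two e b X Z hXZ he, eX, eZ] at hbe
    rcases hσ0 with rfl | rfl <;> omega
  obtain ⟨p', hp', q', hq', hpq', hp1', hq1', hr2⟩ := supp_two b _ eb
  have hb' : ∀ i, i ≠ i₀ → b i ≠ 0 → i = p' ∨ i = q' := fun i h1 h2 => by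
    by_contra h3; push Not at h3
    exact h2 (hr2 i (Finset.mem_erase.mpr ⟨h1, Finset.mem_univ i⟩) h3.1 h3.2)
  have bX : b X = 0 := by
    by_contra hne
    rcases hb' X hX0 hne with rfl | rfl <;> rcases hb' Y hY0 (hbd' ▸ hne) with rfl | rfl <;>
      rcases hb' Z hZ0 (hbe' ▸ hne) with rfl | rfl <;> contradiction
  rw [sum_three a b i₀ X W (Ne.symm hX0) (Ne.symm hW0) hXW haW, ha0, hb0, aX, bX] at hab
  have bW : b W = 0 := by
    rcases sq_eq_one_iff.mp hW1 with v | v <;> rw [v] at hab <;> omega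
  have hbr : ∀ i, i ≠ i₀ → i ≠ p' → i ≠ q' → b i = 0 := fun i h1 h2 h3 =>
    hr2 i (Finset.mem_erase.mpr ⟨h1, Finset.mem_univ i⟩) h2 h3
  rw [sum_three b g i₀ p' q' (Finset.ne_of_mem_erase hp').symm (Finset.ne_of_mem_erase hq').symm hpq'
    hbr, hg0] at hbg
  obtain ⟨P, Q, hPQ, hP0, hQ0, hP1, hQ1, hgP, hgQ, hbPQ⟩ : ∃ P Q, P ≠ Q ∧ P ≠ i₀ ∧ Q ≠ i₀ ∧
      b P ^ 2 = 1 ∧ b Q ^ 2 = 1 ∧ g P = -b P ∧ g Q = 0 ∧
      ∀ i, i ≠ i₀ → i ≠ P → i ≠ Q → b i = 0 := by
    have := sg p'; have := sg q'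
    have hor : (g p' = -b p' ∧ g q' = 0) ∨ (g q' = -b q' ∧ g p' = 0) := by
      rcases sq_eq_one_iff.mp hp1' with v | v <;> rcases sq_eq_one_iff.mp hq1' with w | w <;>
        rw [v, w] at hbg ⊢ <;> omega
    rcases hor with ⟨h1, h2⟩ | ⟨h1, h2⟩
    · exact ⟨p', q', hpq', Finset.ne_of_mem_erase hp', Finset.ne_of_mem_erase hq', hp1', hq1', h1,
        h2, hbr⟩
    · exact ⟨q', p', hpq'.symm, Finset.ne_of_mem_erase hq', Finset.ne_of_mem_erase hp', hq1', hp1',
        h1, h2, fun i u1 u2 u3 => hbr i u1 u3 u2⟩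
  have hne : ∀ i, b i ^ 2 = 1 → i ≠ X ∧ i ≠ Y ∧ i ≠ Z ∧ i ≠ W := fun i hi => by
    refine ⟨?_, ?_, ?_, ?_⟩ <;> rintro rfl
    · rw [bX] at hi; norm_num at hi
    · rw [← hbd', bX] at hi; norm_num at hi
    · rw [← hbe', bX] at hi; norm_num at hi
    · rw [bW] at hi; norm_num at hi
  obtain ⟨p1, p2, p3, p4⟩ := hne P hP1
  obtain ⟨q1, q2, q3, q4⟩ := hne Q hQ1
  refine ⟨X, W, P, Q, hX0, hW0, hXW, hP0, hQ0, hPQ, haW, hbPQ, by rw [aX]; exact hσ, hW1, hP1, hQ1,
    ?_, ?_, ?_, ?_, ?_, ?_⟩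
  · rw [bX, gX, dX, eX, aX]; ring
  · rw [bW, gW, dW, eW]; ring
  · rw [haW P hP0 p1 p4, hgP, hd P p1 p2, he P p1 p3]; ring
  · rw [haW Q hQ0 q1 q4, hgQ, hd Q q1 q2, he Q q1 q3]; ring
  · rw [bX, gX, dX, eX, aX]; ring
  · rw [haW P hP0 p1 p4, hgP, hd P p1 p2, he P p1 p3]; ring

/-- The final arithmetic. -/
theorem arith {K : ℕ} (hK : 0 < K) {X P i j : ℤ} (hX : X = 16 * i + 10) (hP : P = 16 * j + 3)
    (h1 : (K : ℤ) * (X - 2) ^ 2 = 96 * X * (X + 1))
    (h2 : (K : ℤ) * (P - 3) ^ 2 = 192 * P * (P + 1)) : K = 117 ∨ K = 165 := by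
  subst hX hP
  have e1 : (2 * i + 1) * (2 * (K : ℤ) * (2 * i + 1) - 192 * (2 * i + 1) - 120) = 18 := by linarith
  have e2 : j * ((K : ℤ) * j - 192 * j - 84) = 9 := by linarith
  have hi := Int.natAbs_le_of_dvd_ne_zero (Dvd.intro _ e1) (by norm_num)
  have hj := Int.natAbs_le_of_dvd_ne_zero (Dvd.intro _ e2) (by norm_num)
  have i1 : -10 ≤ i := by omega
  have i2 : i ≤ 9 := by omega
  have j1 : -9 ≤ j := by omega
  have j2 : j ≤ 9 := by omega
  interval_cases i <;> (try omega) <;> interval_cases j <;> omega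

end Combinatorics

/-- The embedding of the coefficient ring. -/
noncomputable def phi : R →+* ℂ :=
  Zsqrtd.lift ⟨(Real.sqrt 2 : ℂ) * Complex.I, by
    rw [mul_mul_mul_comm, ← Complex.ofReal_mul, Real.mul_self_sqrt (by norm_num), Complex.I_mul_I]
    push_cast; ring⟩

theorem conj_phi (r : R) : conj (phi r) = phi (star r) := by
  simp only [phi, Zsqrtd.lift_apply_apply, Zsqrtd.re_star, Zsqrtd.im_star, map_add, map_mul,
    map_intCast, Complex.conj_I, Complex.conj_ofReal]
  push_cast; ring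

/-- The quadruple of a matrix. -/
def toQ (A : Matrix (Fin 2) (Fin 2) (ZMod 3)) : Q := (A 0 0, A 0 1, A 1 0, A 1 1)

theorem toQ_mul (A B : Matrix (Fin 2) (Fin 2) (ZMod 3)) : toQ (A * B) = qm (toQ A) (toQ B) := by
  simp [toQ, qm, Matrix.mul_apply, Fin.sum_univ_two]

theorem toQ_inj {A B : Matrix (Fin 2) (Fin 2) (ZMod 3)} (h : toQ A = toQ B) : A = B := by
  simp only [toQ, Prod.mk.injEq] at h
  ext i j
  fin_cases i <;> fin_cases j <;> simp [h.1, h.2.1, h.2.2.1, h.2.2.2]

theorem qdet_toQ (A : Matrix (Fin 2) (Fin 2) (ZMod 3)) : qdet (toQ A) = A.det := by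
  simp [qdet, toQ, Matrix.det_fin_two]

/-- The complex matrix of the two-dimensional representation. -/
noncomputable def repC (a : Q) : Matrix (Fin 2) (Fin 2) ℂ :=
  !![phi (rep a).1, phi (rep a).2.1; phi (rep a).2.2.1, phi (rep a).2.2.2]

theorem repC_mul {a b : Q} (ha : a ∈ U) (hb : b ∈ U) : repC (qm a b) = repC a * repC b := by
  simp only [repC, rep_mul a ha b hb, rm]
  ext i j
  fin_cases i <;> fin_cases j <;> simp [Matrix.mul_apply, Fin.sum_univ_two]

section Group

variable {G : Type u} [Group G] [Finite G]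

theorem card_simple [IsSimpleGroup G] (t : G) (ht : orderOf t = 2)
    (e : Subgroup.centralizer ({t} : Set G) ≃* Matrix.GeneralLinearGroup (Fin 2) (ZMod 3)) :
    Nat.card G = 5616 ∨ Nat.card G = 7920 := by
  classical
  haveI : Fact (Nat.Prime 2) := ⟨Nat.prime_two⟩
  haveI : Fact (Nat.Prime 3) := ⟨Nat.prime_three⟩
  haveI := Fintype.ofFinite G
  set H := Subgroup.centralizer ({t} : Set G) with hH
  haveI : Fintype H := Fintype.ofFinite H
  let ψ : H → Q := fun h => toQ (e h : Matrix (Fin 2) (Fin 2) (ZMod 3))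
  have hψm : ∀ h k : H, ψ (h * k) = qm (ψ h) (ψ k) := fun h k => by
    simp only [ψ, map_mul, Units.val_mul, toQ_mul]
  have hψ1 : ψ 1 = qone := by
    simp only [ψ, map_one, Units.val_one]; rfl
  have hψi : Function.Injective ψ := fun h k hk => e.injective (Units.ext (toQ_inj hk))
  have hψU : ∀ h, ψ h ∈ U := fun h => by
    refine Finset.mem_filter.mpr ⟨Finset.mem_univ _, ?_⟩
    show qdet (toQ _) ≠ 0
    rw [qdet_toQ]
    exact (Matrix.GeneralLinearGroup.det (e h)).ne_zero
  have hψs : ∀ q ∈ U, ∃ h, ψ h = q := fun q hq => by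
    have hdet : (!![q.1, q.2.1; q.2.2.1, q.2.2.2] : Matrix (Fin 2) (Fin 2) (ZMod 3)).det ≠ 0 := by
      rw [← qdet_toQ]; exact (Finset.mem_filter.mp hq).2
    refine ⟨e.symm (Matrix.GeneralLinearGroup.mkOfDetNeZero _ hdet), ?_⟩
    simp only [ψ, MulEquiv.apply_symm_apply]
    rfl
  have himg : (Finset.univ : Finset H).image ψ = U := by
    ext q
    simp only [Finset.mem_image, Finset.mem_univ, true_and]
    exact ⟨fun ⟨h, e1⟩ => e1 ▸ hψU h, hψs q⟩
  have hHsum : ∀ {A : Type} [AddCommMonoid A] (F : Q → A), ∑ h : H, F (ψ h) = ∑ q ∈ U, F q := by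
    intro A _ F
    rw [← himg, Finset.sum_image fun a _ b _ hab => hψi hab]
  have hH48 : Nat.card H = 48 := by
    rw [Nat.card_eq_fintype_card, ← Finset.card_univ, ← card_U, ← himg,
      Finset.card_image_of_injective _ hψi]
  have ht1 : t ≠ 1 := fun h => by rw [h, orderOf_one] at ht; norm_num at ht
  have htH : t ∈ H := Subgroup.mem_centralizer_singleton_iff.mpr rfl
  have hcomm : ∀ h ∈ H, h * t = t * h := fun h hh => Subgroup.mem_centralizer_singleton_iff.mp hh
  have hψt : ψ ⟨t, htH⟩ = qneg := by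
    have hc : ∀ q ∈ U, qm (ψ ⟨t, htH⟩) q = qm q (ψ ⟨t, htH⟩) := fun q hq => by
      obtain ⟨h, rfl⟩ := hψs q hq
      rw [← hψm, ← hψm]
      exact congrArg ψ (Subtype.ext (hcomm h h.2).symm)
    rcases center _ (hψU _) hc with h | h
    · exact absurd (congrArg Subtype.val (hψi (h.trans hψ1.symm))) ht1
    · exact h
  have htt : ∀ h : H, ψ h = qneg → (h : G) = t := fun h hh =>
    congrArg Subtype.val (hψi (hh.trans hψt.symm))
  have hinvol : ∀ z : H, orderOf z = 2 ↔ ψ z ∈ J := by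
    intro z
    simp only [J, Finset.mem_filter, hψU z, true_and]
    rw [← hψm, ← hψ1, hψi.eq_iff, hψi.ne_iff, ← sq]
    exact ⟨fun h => ⟨h ▸ pow_orderOf_eq_one z, fun h1 => by rw [h1, orderOf_one] at h; norm_num at h⟩,
      fun ⟨h1, h2⟩ => orderOf_eq_prime h1 h2⟩
  -- `H` contains a Sylow subgroup of `G`
  obtain ⟨P, hPH⟩ : ∃ P : Sylow 2 G, (P : Subgroup G) ≤ H := by
    obtain ⟨S₀⟩ : Nonempty (Sylow 2 H) := inferInstance
    have hcard : Nat.card (S₀ : Subgroup H) = 16 := by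
      rw [S₀.card_eq_multiplicity, hH48,
        show Nat.factorization 48 2 = 4 by
          rw [show (48 : ℕ) = 2 ^ 4 * 3 by norm_num, Nat.factorization_mul (by norm_num) (by norm_num),
            Nat.Prime.factorization_pow Nat.prime_two,
            Nat.Prime.factorization Nat.prime_three]
          simp [Finsupp.single_apply]]
      norm_num
    set S := (S₀ : Subgroup H).map H.subtype with hS
    have hScard : Nat.card S = 16 := by
      rw [hS, Subgroup.card_map_of_injective H.subtype_injective, hcard]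
    obtain ⟨P, hP⟩ := (IsPGroup.of_card (n := 4) (by rw [hScard]; rfl) : IsPGroup 2 S).exists_le_sylow
    refine ⟨P, ?_⟩
    by_contra hne
    have hSH : S ≤ H := Subgroup.map_subtype_le _
    have hlt : S.subgroupOf (P : Subgroup G) < ⊤ := by
      rw [lt_top_iff_ne_top, Ne, Subgroup.subgroupOf_eq_top]
      exact fun h => hne (h.trans hSH)
    haveI : Group.IsNilpotent (P : Subgroup G) := P.2.isNilpotent
    obtain ⟨g, hgN, hgS⟩ := SetLike.exists_of_lt
      (Group.normalizerCondition_of_isNilpotent (G := (P : Subgroup G)) _ hlt)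
    have hconj' : ∀ s ∈ S, (g : G) * s * (g : G)⁻¹ ∈ S := fun s hs =>
      (Subgroup.mem_normalizer_iff.mp hgN ⟨s, hP hs⟩).mp hs
    have htS : t ∈ S := by
      obtain ⟨Q, hQ⟩ := (IsPGroup.of_card (n := 1)
        (by rw [Nat.card_zpowers, Subgroup.orderOf_mk, ht]; rfl) :
          IsPGroup 2 (Subgroup.zpowers (⟨t, htH⟩ : H))).exists_le_sylow
      obtain ⟨c, hc⟩ := MulAction.exists_smul_eq H Q S₀
      have hm : c * ⟨t, htH⟩ * c⁻¹ ∈ (S₀ : Subgroup H) := by
        rw [← hc, Sylow.coe_subgroup_smul, ← MulAut.conj_apply]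
        exact Subgroup.smul_mem_pointwise_smul _ _ _ (hQ (Subgroup.mem_zpowers _))
      refine ⟨_, hm, ?_⟩
      show (c : G) * t * (c : G)⁻¹ = t
      rw [hcomm c c.2, mul_inv_cancel_right]
    set z : H := ⟨(g : G) * t * (g : G)⁻¹, hSH (hconj' t htS)⟩ with hz
    have hz2 : orderOf z = 2 := by
      rw [← Subgroup.orderOf_coe, show (z : G) = MulAut.conj (g : G) t from rfl, MulEquiv.orderOf_eq, ht]
    have hzt : (z : G) = t := by
      refine htt z (by_contra fun hzn => ?_)
      have hle := centralizer_small _ ((hinvol z).mp hz2) hzn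
      have hsub : ((Finset.univ.filter fun s : H => s ∈ (S₀ : Subgroup H)).image ψ) ⊆
          U.filter fun b => qm (ψ z) b = qm b (ψ z) := by
        intro b hb
        obtain ⟨s, hs, rfl⟩ := Finset.mem_image.mp hb
        refine Finset.mem_filter.mpr ⟨hψU s, ?_⟩
        rw [← hψm, ← hψm]
        refine congrArg ψ (Subtype.ext ?_)
        have hsS : (s : G) ∈ S := ⟨s, (Finset.mem_filter.mp hs).2, rfl⟩
        -- `z` commutes with `s` as `t` commutes with the conjugate of `s`
        obtain ⟨s', hs'S, hs'⟩ : ∃ s' ∈ S, (g : G) * s' * (g : G)⁻¹ = s := by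
          have := (Subgroup.mem_normalizer_iff.mp hgN
            ⟨(g : G)⁻¹ * s * g, (P : Subgroup G).mul_mem ((P : Subgroup G).mul_mem
              ((P : Subgroup G).inv_mem g.2) (hP hsS)) g.2⟩).mpr (by
                show (g : G) * ((g : G)⁻¹ * s * g) * (g : G)⁻¹ ∈ S
                simpa [mul_assoc] using hsS)
          exact ⟨_, this, by simp [mul_assoc]⟩
        show (g : G) * t * (g : G)⁻¹ * s = s * ((g : G) * t * (g : G)⁻¹)
        rw [← hs']
        calc (g : G) * t * (g : G)⁻¹ * (g * s' * (g : G)⁻¹) = g * (t * s') * (g : G)⁻¹ := by group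
          _ = g * (s' * t) * (g : G)⁻¹ := by rw [hcomm s' (hSH hs'S)]
          _ = g * s' * (g : G)⁻¹ * (g * t * (g : G)⁻¹) := by group
      have := (Finset.card_le_card hsub).trans hle
      rw [Finset.card_image_of_injective _ hψi, ← Fintype.card_subtype,
        ← Nat.card_eq_fintype_card] at this
      rw [show Nat.card {s : H // s ∈ (S₀ : Subgroup H)} = 16 from hcard] at this
      omega
    have hgH : (g : G) ∈ H :=
      Subgroup.mem_centralizer_singleton_iff.mpr (mul_inv_eq_iff_eq_mul.mp hzt)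
    have hPle : ((P : Subgroup G) ⊓ H).subgroupOf H = (S₀ : Subgroup H) :=
      S₀.is_maximal' ((P.2.to_le inf_le_left).of_equiv
        (Subgroup.subgroupOfEquivOfLe inf_le_right).symm)
        (fun s hs => ⟨hP ⟨s, hs, rfl⟩, s.2⟩)
    apply hgS
    rw [Subgroup.mem_subgroupOf]
    refine ⟨⟨g, hgH⟩, ?_, rfl⟩
    rw [SetLike.mem_coe, ← hPle, Subgroup.mem_subgroupOf]
    exact ⟨g.2, hgH⟩
  -- all involutions are conjugate
  have hconj : ∀ x : G, orderOf x = 2 → IsConj t x := by
    intro x hx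
    obtain ⟨P', hP'⟩ := (IsPGroup.of_card (n := 1) (by rw [Nat.card_zpowers, hx]; rfl) :
      IsPGroup 2 (Subgroup.zpowers x)).exists_le_sylow
    obtain ⟨c, hc⟩ := MulAction.exists_smul_eq G P' P
    set u := c * x * c⁻¹ with hu
    have huP : u ∈ (P : Subgroup G) := by
      rw [← hc, Sylow.coe_subgroup_smul, hu, ← MulAut.conj_apply]
      exact Subgroup.smul_mem_pointwise_smul _ _ _ (hP' (Subgroup.mem_zpowers x))
    have hu2 : orderOf u = 2 := by
      rw [show u = MulAut.conj c x from rfl, MulEquiv.orderOf_eq, hx]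
    refine IsConj.trans ?_ (isConj_iff.mpr ⟨c, rfl⟩ : IsConj x u).symm
    let f : (P : Subgroup G) →* (ZMod 3)ˣ :=
      Matrix.GeneralLinearGroup.det.comp (e.toMonoidHom.comp (Subgroup.inclusion hPH))
    have hfker : ∀ z : (P : Subgroup G), f z = 1 ↔ qdet (ψ ⟨z, hPH z.2⟩) = 1 := fun z => by
      rw [← Units.val_inj]
      show _ ↔ qdet (toQ _) = 1
      rw [qdet_toQ]
      rfl
    set Q' := f.ker.map (P : Subgroup G).subtype with hQ'
    have hQP : Q' ≤ (P : Subgroup G) := Subgroup.map_subtype_le _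
    have hunique : ∀ y ∈ Q', orderOf y = 2 → y = t := by
      rintro _ ⟨y, hy, rfl⟩ hy2
      have h2 : orderOf (⟨y, hPH y.2⟩ : H) = 2 := by rw [Subgroup.orderOf_mk]; exact hy2
      exact htt ⟨y, hPH y.2⟩ (det_one_involution _ ((hinvol _).mp h2) ((hfker y).mp hy))
    by_cases huQ : u ∈ Q'
    · rw [hunique u huQ hu2]
    · have hrel : Q'.relIndex (P : Subgroup G) = 2 := by
        have h1 : Q'.relIndex (P : Subgroup G) = f.ker.index := by
          rw [hQ', Subgroup.relIndex, Subgroup.subgroupOf,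
            Subgroup.comap_map_eq_self_of_injective (P : Subgroup G).subtype_injective]
        rw [h1, Subgroup.index_ker]
        have h2 : Nat.card f.range ∣ 2 := by
          refine (Subgroup.card_subgroup_dvd_card _).trans ?_
          rw [Nat.card_eq_fintype_card, ZMod.card_units]
        rcases (Nat.dvd_prime Nat.prime_two).mp h2 with h | h
        · exfalso
          apply huQ
          refine ⟨⟨u, huP⟩, ?_, rfl⟩
          rw [SetLike.mem_coe, MonoidHom.mem_ker]
          exact Subgroup.mem_bot.mp (Subgroup.card_eq_one.mp h ▸ ⟨⟨u, huP⟩, rfl⟩)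
        · exact h
      rcases CfsgLib.Transfer.thompson_transfer P Q' hQP hrel u hu2 huP huQ with
        ⟨M, hMn, hMi, -⟩ | ⟨g, hg⟩
      · exfalso
        rcases IsSimpleGroup.eq_bot_or_eq_top_of_normal M hMn with rfl | rfl
        · rw [Subgroup.index_bot] at hMi
          have := Subgroup.card_subgroup_dvd_card H
          rw [hH48, hMi] at this
          norm_num at this
        · rw [Subgroup.index_top] at hMi; norm_num at hMi
      · have h2 : orderOf (g * u * g⁻¹) = 2 := by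
          rw [show g * u * g⁻¹ = MulAut.conj g u from rfl, MulEquiv.orderOf_eq, hu2]
        rw [← hunique _ hg h2]
        exact (isConj_iff.mpr ⟨g, rfl⟩ : IsConj u (g * u * g⁻¹)).symm
  -- functions on `H`
  let F : (Q → R) → H → ℂ := fun T h => phi (T (ψ h))
  have hC6 : IsCharacter H (F C6) := by
    let f : H →* Matrix (Fin 2) (Fin 2) ℂ :=
      { toFun := fun h => repC (ψ h)
        map_one' := by
          rw [hψ1, repC, rep_one]
          ext i j
          fin_cases i <;> fin_cases j <;> simp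
        map_mul' := fun h k => by rw [hψm, repC_mul (hψU h) (hψU k)] }
    let ρ : Representation ℂ H (Fin 2 → ℂ) :=
      ((Matrix.toLinAlgEquiv' : Matrix (Fin 2) (Fin 2) ℂ ≃ₐ[ℂ] _).toMonoidHom).comp f
    refine ⟨2, ρ, funext fun h => ?_⟩
    show LinearMap.trace ℂ _ (Matrix.toLin' (f h)) = _
    rw [Matrix.trace_toLin'_eq, Matrix.trace_fin_two]
    simp [f, F, repC, C6]
  have gC6 : IsGeneralizedCharacter H (F C6) := isGenChar_of_isCharacter hC6
  have gC7 : IsGeneralizedCharacter H (F C7) := by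
    have h : F C7 = fun h => conj (F C6 h) := funext fun h => by
      simp only [F, C7, conj_phi]
    rw [h]
    exact isGenChar_of_isCharacter (isCharacter_conj hC6)
  have gC2 : IsGeneralizedCharacter H (F C2) := by
    let f : H →* ℂ :=
      { toFun := F C2
        map_one' := by simp only [F, hψ1]; rw [show C2 qone = 1 by decide +kernel, map_one]
        map_mul' := fun h k => by simp only [F, hψm, C2_mul _ (hψU h) _ (hψU k), map_mul] }
    exact isGenChar_of_isCharacter (isCharacter_hom f.toHomUnits)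
  have g1 : IsGeneralizedCharacter H (fun _ => (1 : ℂ)) := isGenChar_of_isCharacter isCharacter_one
  have gC4 : IsGeneralizedCharacter H (F C4) := by
    have h : F C4 = F C6 * F C6 - F C2 := funext fun h => by simp [F, C4]
    rw [h]; exact isGenChar_sub (isGenChar_mul gC6 gC6) gC2
  have gC5 : IsGeneralizedCharacter H (F C5) := by
    have h : F C5 = F C6 * F C7 - fun _ => (1 : ℂ) := funext fun h => by simp [F, C5]
    rw [h]; exact isGenChar_sub (isGenChar_mul gC6 gC7) g1
  have gC3 : IsGeneralizedCharacter H (F C3) := by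
    have h : F C3 = F C4 * F C4 - F C4 - F C5 - fun _ => (1 : ℂ) := funext fun h => by simp [F, C3]
    rw [h]; exact isGenChar_sub (isGenChar_sub (isGenChar_sub (isGenChar_mul gC4 gC4) gC4) gC5) g1
  have gA : IsGeneralizedCharacter H (F tA) := by
    have h : F tA = (fun _ => (1 : ℂ)) + F C3 - F C4 := funext fun h => by simp [F, tA]
    rw [h]; exact isGenChar_sub (isGenChar_add g1 gC3) gC4
  have gB : IsGeneralizedCharacter H (F tB) := by
    have h : F tB = (fun _ => (1 : ℂ)) + F C5 - F C6 * F C3 := funext fun h => by simp [F, tB, C8]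
    rw [h]; exact isGenChar_sub (isGenChar_add g1 gC5) (isGenChar_mul gC6 gC3)
  have gG : IsGeneralizedCharacter H (F tG) := by
    have h : F tG = F C2 + F C3 - F C5 := funext fun h => by simp [F, tG]
    rw [h]; exact isGenChar_sub (isGenChar_add gC2 gC3) gC5
  have gD : IsGeneralizedCharacter H (F tD) := by
    have h : F tD = F C3 - F C6 := funext fun h => by simp [F, tD]
    rw [h]; exact isGenChar_sub gC3 gC6
  have gE : IsGeneralizedCharacter H (F tE) := by
    have h : F tE = F C3 - F C7 := funext fun h => by simp [F, tE]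
    rw [h]; exact isGenChar_sub gC3 gC7
  -- trivial intersection
  have hTI : ∀ h k : H, inS (ψ h) → inS (ψ k) → ∀ x : G, x⁻¹ * h * x = (k : G) → x ∈ H := by
    intro h k hh hk x hxk
    have key : ∀ zh zk : H, ψ zh = qneg → x⁻¹ * (zh : G) * x = zk →
        ψ zk ∈ [ψ k, qm (ψ k) (ψ k), qm (qm (ψ k) (ψ k)) (ψ k),
          qm (qm (ψ k) (ψ k)) (qm (ψ k) (ψ k))] → x ∈ H := by
      intro zh zk hzh hx hl
      rw [htt zh hzh] at hx
      have hzk : orderOf zk = 2 := by
        rw [← Subgroup.orderOf_coe, ← hx,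
          show x⁻¹ * t * x = MulAut.conj x⁻¹ t by rw [MulAut.conj_apply, inv_inv], MulEquiv.orderOf_eq, ht]
      have hJ := (hinvol zk).mp hzk
      simp only [J, Finset.mem_filter] at hJ
      have h1 := htt zk (unique_power _ (hψU k) hk _ hl hJ.2.1 hJ.2.2)
      rw [h1] at hx
      refine Subgroup.mem_centralizer_singleton_iff.mpr ?_
      calc x * t = x * (x⁻¹ * t * x) := by rw [hx]
        _ = t * x := by group
    rcases hh with h1 | h1 | h1 | h1
    · exact key h k h1 hxk (by simp)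
    · refine key (h * h) (k * k) (by rw [hψm]; exact h1) ?_ (by simp [hψm])
      rw [Subgroup.coe_mul, Subgroup.coe_mul, ← hxk]; group
    · refine key (h * h * h) (k * k * k) (by rw [hψm, hψm]; exact h1) ?_ (by simp [hψm])
      simp only [Subgroup.coe_mul, ← hxk]; group
    · refine key (h * h * (h * h)) (k * k * (k * k)) (by rw [hψm, hψm]; exact h1) ?_ (by simp [hψm])
      simp only [Subgroup.coe_mul, ← hxk]; group
  have hind : ∀ T : Q → R, (∀ q ∈ U, ¬ inS q → T q = 0) → IsGeneralizedCharacter H (F T) →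
      ∀ h : H, inS (ψ h) → indFun H (F T) (h : G) = F T h := by
    intro T hT hgen h hh
    have hsum : ∀ x : G, extendByZero H (F T) (x⁻¹ * h * x) = if x ∈ H then F T h else 0 := by
      intro x
      by_cases hm : x⁻¹ * h * x ∈ H
      · rw [extendByZero_mem _ hm]
        split_ifs with hx
        · have e1 : (⟨x⁻¹ * h * x, hm⟩ : H) = (⟨x, hx⟩ : H)⁻¹ * h * (⟨x, hx⟩ : H)⁻¹⁻¹ := by
            refine Subtype.ext ?_
            simp
          rw [e1]
          exact isGenChar_classFunction hgen h _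
        · by_contra hne
          refine hx (hTI h ⟨_, hm⟩ hh (by_contra fun hk => hne ?_) x rfl)
          simp only [F, hT _ (hψU _) hk, map_zero]
      · rw [extendByZero_not_mem _ hm, if_neg fun hx => hm (H.mul_mem (H.mul_mem (H.inv_mem hx) h.2) hx)]
    rw [indFun_apply, Finset.sum_congr rfl fun x _ => hsum x, Finset.sum_ite, Finset.sum_const_zero,
      add_zero, Finset.sum_const, nsmul_eq_mul, ← Fintype.card_subtype,
      ← Nat.card_eq_fintype_card]
    rw [show Nat.card {x // x ∈ H} = 48 from hH48, ← mul_assoc]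
    norm_num
  have hnormf : ∀ T T' : Q → R, (∀ q ∈ U, ¬ inS q → T q = 0) → (∀ q ∈ U, ¬ inS q → T' q = 0) →
      IsGeneralizedCharacter H (F T') → ∀ n : ℤ, ∑ q ∈ U, T q * star (T' q) = (48 * n : ℤ) →
      classInner (indFun H (F T)) (indFun H (F T')) = n := by
    intro T T' hT hT' hgen n hn
    rw [Char.frobenius _ _ (indFun_classFunction _)]
    simp only [classInner]
    have hterm : ∀ h : H, F T h * conj (indFun H (F T') (h : G)) =
        phi (T (ψ h) * star (T' (ψ h))) := by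
      intro h
      by_cases hd : inS (ψ h)
      · rw [hind T' hT' hgen h hd]
        simp only [F, conj_phi, map_mul]
      · simp [F, hT _ (hψU h) hd]
    rw [Finset.sum_congr rfl fun h _ => hterm h, ← map_sum, hHsum (fun q => T q * star (T' q)), hn,
      hH48, map_intCast]
    push_cast
    ring
  have sA := fun q hq hs => (supported q hq hs).1
  have sB := fun q hq hs => (supported q hq hs).2.1
  have sG := fun q hq hs => (supported q hq hs).2.2.1
  have sD := fun q hq hs => (supported q hq hs).2.2.2.1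
  have sE := fun q hq hs => (supported q hq hs).2.2.2.2
  obtain ⟨a, ha, haexp, -⟩ := genChar_coeffs (isGenChar_indFun gA)
  obtain ⟨b, hb, hbexp, -⟩ := genChar_coeffs (isGenChar_indFun gB)
  obtain ⟨g, hg, hgexp, -⟩ := genChar_coeffs (isGenChar_indFun gG)
  obtain ⟨d, hd, hdexp, -⟩ := genChar_coeffs (isGenChar_indFun gD)
  obtain ⟨c, hc, hcexp, -⟩ := genChar_coeffs (isGenChar_indFun gE)
  -- the sums against a character of `G`
  have hpair : ∀ (T : Q → R) (m : IrrCharacter G → ℤ),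
      (∀ χ : IrrCharacter G, classInner (indFun H (F T)) χ = m χ) → ∀ χ : IrrCharacter G,
      ∑ h : H, F T h * conj ((χ : G → ℂ) h) = 48 * (m χ : ℂ) := by
    intro T m hm χ
    rw [← hm χ, Char.frobenius _ _ (isCharacter_classFunction χ.2.isCharacter')]
    simp only [classInner, hH48]
    ring
  have hval : ∀ χ : IrrCharacter G,
      (χ : G → ℂ) t = ((4 * b χ - 3 * a χ + g χ + 2 * (d χ + c χ) : ℤ) : ℂ) ∧
      ∃ n : ℤ, (3 : ℂ) * (χ : G → ℂ) 1 +
        ((60 * b χ - 63 * a χ + 21 * g χ + 30 * (d χ + c χ) : ℤ) : ℂ) = 48 * n := by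
    intro χ
    have e1 := hpair tA a ha χ
    have e2 := hpair tB b hb χ
    have e3 := hpair tG g hg χ
    have e4 := hpair tD d hd χ
    have e5 := hpair tE c hc χ
    have hv : (χ : G → ℂ) t = ((4 * b χ - 3 * a χ + g χ + 2 * (d χ + c χ) : ℤ) : ℂ) := by
      have h1 : ∑ h : H, phi (if ψ h = qneg then 48 else 0) * conj ((χ : G → ℂ) h) =
          48 * conj ((χ : G → ℂ) t) := by
        rw [Finset.sum_eq_single (⟨t, htH⟩ : H) (fun h _ hne => ?_)
          (fun h => absurd (Finset.mem_univ _) h)]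
        · rw [if_pos hψt, map_ofNat]
        · rw [if_neg fun hh => hne (hψi (hh.trans hψt.symm)), map_zero, zero_mul]
      have h2 : ∑ h : H, phi (if ψ h = qneg then 48 else 0) * conj ((χ : G → ℂ) h) =
          4 * ∑ h : H, F tB h * conj ((χ : G → ℂ) h) - 3 * ∑ h : H, F tA h * conj ((χ : G → ℂ) h) +
            ∑ h : H, F tG h * conj ((χ : G → ℂ) h) + 2 * (∑ h : H, F tD h * conj ((χ : G → ℂ) h) +
              ∑ h : H, F tE h * conj ((χ : G → ℂ) h)) := by
        simp only [Finset.mul_sum, ← Finset.sum_add_distrib, ← Finset.sum_sub_distrib]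
        refine Finset.sum_congr rfl fun h _ => ?_
        rw [← at_neg _ (hψU h)]
        simp only [F, map_add, map_sub, map_mul, map_ofNat]
        ring
      rw [h1, e1, e2, e3, e4, e5] at h2
      have h3 : conj ((χ : G → ℂ) t) = ((4 * b χ - 3 * a χ + g χ + 2 * (d χ + c χ) : ℤ) : ℂ) := by
        push_cast; linear_combination h2 / 48
      have := congrArg conj h3
      rwa [Complex.conj_conj, map_intCast] at this
    refine ⟨hv, ?_⟩
    obtain ⟨n, hn⟩ := inner_genChar_int gC4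
      (isGenChar_of_isCharacter (isCharacter_restrict χ.2.isCharacter' H))
    refine ⟨n, ?_⟩
    obtain ⟨x, hx⟩ := exists_degree χ.2.isCharacter'
    have h0 : ∑ h : H, F C4 h * conj ((χ : G → ℂ) h) = 48 * (n : ℂ) := by
      rw [← hn]; simp only [classInner, hH48]; ring
    have h1 : ∑ h : H, phi (if ψ h = qone then 144 else 0) * conj ((χ : G → ℂ) h) =
        144 * (χ : G → ℂ) 1 := by
      rw [Finset.sum_eq_single (1 : H) (fun h _ hne => ?_) (fun h => absurd (Finset.mem_univ _) h)]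
      · rw [if_pos hψ1, map_ofNat, Subgroup.coe_one, hx, Complex.conj_natCast]
      · rw [if_neg fun hh => hne (hψi (hh.trans hψ1.symm)), map_zero, zero_mul]
    have h2 : ∑ h : H, phi (if ψ h ∈ J.erase qneg then 48 else 0) * conj ((χ : G → ℂ) h) =
        48 * 12 * (χ : G → ℂ) t := by
      have hterm : ∀ h : H, phi (if ψ h ∈ J.erase qneg then 48 else 0) * conj ((χ : G → ℂ) h) =
          phi (if ψ h ∈ J.erase qneg then 48 else 0) * (χ : G → ℂ) t := by
        intro h
        split_ifs with hh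
        · obtain ⟨k, hk⟩ := isConj_iff.mp (hconj h (by
            rw [Subgroup.orderOf_coe]; exact (hinvol h).mpr (Finset.mem_of_mem_erase hh)))
          rw [← hk, isCharacter_classFunction χ.2.isCharacter' t k, hv, map_intCast]
        · simp
      rw [Finset.sum_congr rfl fun h _ => hterm h, ← Finset.sum_mul, ← map_sum,
        hHsum (fun q => if q ∈ J.erase qneg then (48 : R) else 0),
        show (∑ q ∈ U, if q ∈ J.erase qneg then (48 : R) else 0) = 576 by decide +kernel, map_ofNat]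
      norm_num
    have h3 : 48 * ∑ h : H, F C4 h * conj ((χ : G → ℂ) h) =
          12 * ∑ h : H, F tB h * conj ((χ : G → ℂ) h) - 27 * ∑ h : H, F tA h * conj ((χ : G → ℂ) h) +
            9 * ∑ h : H, F tG h * conj ((χ : G → ℂ) h) + 6 * (∑ h : H, F tD h * conj ((χ : G → ℂ) h) +
              ∑ h : H, F tE h * conj ((χ : G → ℂ) h)) +
            ∑ h : H, phi (if ψ h = qone then 144 else 0) * conj ((χ : G → ℂ) h) +
            ∑ h : H, phi (if ψ h ∈ J.erase qneg then 48 else 0) * conj ((χ : G → ℂ) h) := by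
      simp only [Finset.mul_sum, ← Finset.sum_add_distrib, ← Finset.sum_sub_distrib]
      refine Finset.sum_congr rfl fun h _ => ?_
      have h4 := congrArg phi (C4_split _ (hψU h))
      simp only [map_add, map_sub, map_mul, map_ofNat] at h4
      simp only [F]
      linear_combination conj ((χ : G → ℂ) h) * h4
    rw [h0, e1, e2, e3, e4, e5, h1, h2, hv] at h3
    push_cast at h3 ⊢
    linear_combination (-1 / 48 : ℂ) * h3
  -- the trivial character
  let i₀ : IrrCharacter G := ⟨fun _ => 1, isIrrCharacter_one⟩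
  have htriv : ∀ (T : Q → R) (m : IrrCharacter G → ℤ),
      (∀ χ : IrrCharacter G, classInner (indFun H (F T)) χ = m χ) → ∀ k : ℤ,
      ∑ q ∈ U, T q = (48 * k : ℤ) → m i₀ = k := by
    intro T m hm k hk
    have h := hpair T m hm i₀
    simp only [i₀, map_one, mul_one, F] at h
    rw [← map_sum, hHsum, hk, map_intCast] at h
    have h1 : (48 * k : ℤ) = 48 * m ⟨fun _ => 1, isIrrCharacter_one⟩ := by exact_mod_cast h
    show m ⟨fun _ => 1, isIrrCharacter_one⟩ = k
    omega
  obtain ⟨tA1, tB1, tG1, tD1, tE1⟩ := trivial_sums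
  have ha0 : a i₀ = 1 := htriv tA a ha 1 (by rw [tA1]; norm_num)
  have hb0 : b i₀ = 1 := htriv tB b hb 1 (by rw [tB1]; norm_num)
  have hg0 : g i₀ = 0 := htriv tG g hg 0 (by rw [tG1]; norm_num)
  have hd0 : d i₀ = 0 := htriv tD d hd 0 (by rw [tD1]; norm_num)
  have hc0 : c i₀ = 0 := htriv tE c hc 0 (by rw [tE1]; norm_num)
  have hgram : ∀ (T T' : Q → R) (m m' : IrrCharacter G → ℤ),
      (∀ q ∈ U, ¬ inS q → T q = 0) → (∀ q ∈ U, ¬ inS q → T' q = 0) →
      IsGeneralizedCharacter H (F T') →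
      (∀ χ : IrrCharacter G, classInner (indFun H (F T)) χ = m χ) →
      (∀ χ : IrrCharacter G, classInner (indFun H (F T')) χ = m' χ) → ∀ n : ℤ,
      ∑ q ∈ U, T q * star (T' q) = (48 * n : ℤ) → ∑ χ, m χ * m' χ = n := by
    intro T T' m m' hT hT' hgen hm hm' n hn
    have h := hnormf T T' hT hT' hgen n hn
    rw [inner_eq_sum_coeff _ _ (indFun_classFunction _)] at h
    simp only [hm, hm', map_intCast] at h
    exact_mod_cast h
  obtain ⟨gAA, gBB, gGG, gDD, gEE, gAB, gAG, gAD, gAE, gBG, gBD, gBE, gGD, gGE, gDE⟩ := gram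
  let deg : IrrCharacter G → ℤ := fun χ => (Classical.choose (exists_degree_pos χ.2) : ℕ)
  have hdeg : ∀ χ : IrrCharacter G, (χ : G → ℂ) 1 = (deg χ : ℂ) ∧ 0 < deg χ := fun χ => by
    obtain ⟨h1, h2⟩ := Classical.choose_spec (exists_degree_pos χ.2)
    exact ⟨by rw [h2]; simp [deg], by simp only [deg]; exact_mod_cast h1⟩
  have hdeg0 : deg i₀ = 1 := by
    have h : (1 : ℂ) = (deg i₀ : ℂ) := (hdeg i₀).1
    exact_mod_cast h.symm
  have hzero : ∀ (T : Q → R) (m : IrrCharacter G → ℤ), (∀ q ∈ U, ¬ inS q → T q = 0) →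
      indFun H (F T) = ∑ χ : IrrCharacter G, (m χ : ℂ) • (χ : G → ℂ) →
      ∑ χ, m χ * deg χ = 0 := by
    intro T m hT hexp
    have h := congrFun hexp 1
    rw [indFun_one_apply, Finset.sum_apply] at h
    simp only [Pi.smul_apply, smul_eq_mul, F, hψ1,
      hT _ (hψ1 ▸ hψU 1) not_inS_one, map_zero, mul_zero, (hdeg _).1] at h
    exact_mod_cast h.symm
  obtain ⟨X, W, P', Q', hX0, hW0, hXW, hP0, hQ0, hPQ, haW, hbQ, sX, sW, sP, sQ, vX, vW, vP, vQ, cX, cP⟩ :=
    coefficients a b g d c deg i₀ (fun χ => (hdeg χ).2) hdeg0 ha0 hb0 hg0 hd0 hc0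
      (hgram tA tA a a sA sA gA ha ha 3 (by rw [gAA]; norm_num))
      (hgram tB tB b b sB sB gB hb hb 3 (by rw [gBB]; norm_num))
      (hgram tG tG g g sG sG gG hg hg 3 (by rw [gGG]; norm_num))
      (hgram tD tD d d sD sD gD hd hd 2 (by rw [gDD]; norm_num))
      (hgram tE tE c c sE sE gE hc hc 2 (by rw [gEE]; norm_num))
      (hgram tA tB a b sA sB gB ha hb 1 (by rw [gAB]; norm_num))
      (hgram tA tG a g sA sG gG ha hg 1 (by rw [gAG]; norm_num))
      (hgram tA tD a d sA sD gD ha hd 1 (by rw [gAD]; norm_num))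
      (hgram tA tE a c sA sE gE ha hc 1 (by rw [gAE]; norm_num))
      (hgram tB tG b g sB sG gG hb hg (-1) (by rw [gBG]; norm_num))
      (hgram tB tD b d sB sD gD hb hd 0 (by rw [gBD]; norm_num))
      (hgram tB tE b c sB sE gE hb hc 0 (by rw [gBE]; norm_num))
      (hgram tG tD g d sG sD gD hg hd 1 (by rw [gGD]; norm_num))
      (hgram tG tE g c sG sE gE hg hc 1 (by rw [gGE]; norm_num))
      (hgram tD tE d c sD sE gE hd hc 1 (by rw [gDE]; norm_num))
      (hzero tA a sA haexp) (hzero tG g sG hgexp) (hzero tD d sD hdexp) (hzero tE c sE hcexp)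
  -- the counts of pairs of involutions
  set K := (classFinset t).card with hK
  have hKN : K * 48 = Nat.card G := by
    rw [Nat.card_eq_fintype_card, ← Finset.card_univ,
      Finset.card_eq_sum_card_fiberwise (f := fun x : G => x * t * x⁻¹) (t := classFinset t)
        (fun x _ => mem_classFinset.mpr (isConj_iff.mpr ⟨x, rfl⟩)),
      Finset.sum_congr rfl (fun k hk => ?_), Finset.sum_const, smul_eq_mul]
    obtain ⟨x0, hx0⟩ := isConj_iff.mp (mem_classFinset.mp hk)
    rw [← hH48, Nat.card_eq_fintype_card, ← Finset.card_univ]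
    refine (Finset.card_bij (fun (h : H) _ => x0 * (h : G)) (fun h _ => ?_) (fun h _ l _ el => ?_)
      (fun x hx => ?_)).symm
    · refine Finset.mem_filter.mpr ⟨Finset.mem_univ _, ?_⟩
      rw [← hx0]
      calc x0 * (h : G) * t * (x0 * h)⁻¹ = x0 * ((h : G) * t) * (h : G)⁻¹ * x0⁻¹ := by group
        _ = x0 * t * x0⁻¹ := by rw [hcomm h h.2]; group
    · exact Subtype.ext (mul_left_cancel el)
    · obtain ⟨-, hx'⟩ := Finset.mem_filter.mp hx
      refine ⟨⟨x0⁻¹ * x, Subgroup.mem_centralizer_singleton_iff.mpr ?_⟩, Finset.mem_univ _,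
        mul_inv_cancel_left _ _⟩
      rw [← hx0] at hx'
      calc x0⁻¹ * x * t = x0⁻¹ * (x * t * x⁻¹) * x := by group
        _ = x0⁻¹ * (x0 * t * x0⁻¹) * x := by rw [hx']
        _ = t * (x0⁻¹ * x) := by group
  have hK0 : 0 < K := by
    have := Nat.card_pos (α := G)
    omega
  have hidx : H.index = K := by
    have h := Subgroup.card_mul_index H
    rw [hH48, ← hKN] at h
    omega
  have hpairs : ∀ (T : Q → R) (m : IrrCharacter G → ℤ) (s : ℤ), (∀ q ∈ U, ¬ inS q → T q = 0) →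
      indFun H (F T) = ∑ χ : IrrCharacter G, (m χ : ℂ) • (χ : G → ℂ) →
      (∑ p ∈ J, ∑ q ∈ J, T (qm p q) = (s : R)) →
      (K : ℂ) * ∑ χ : IrrCharacter G, (m χ : ℂ) * ((χ : G → ℂ) t ^ 2 / (χ : G → ℂ) 1) = s := by
    intro T m s hT hexp hs
    let S : Set G := {x | ∃ h : H, inS (ψ h) ∧ (h : G) = x}
    have h := ti_involution_pair_sum H S
      (fun x hx z ⟨h, h1, hz⟩ ⟨k, k1, hk⟩ => hx (by
        have := hTI h k h1 k1 x⁻¹ (by rw [inv_inv, hz, hk])
        simpa using H.inv_mem this))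
      (fun z ⟨h, _, hz⟩ => hz ▸ h.2)
      (fun z ⟨h, h1, hz⟩ => ⟨h⁻¹, inS_inv _ (hψU h) _ (hψU h⁻¹)
        (by rw [← hψm, mul_inv_cancel, hψ1]) h1, by rw [Subgroup.coe_inv, hz]⟩)
      (F T) (fun x hx => by
        simp only [F, hT _ (hψU x) (fun hs => hx ⟨x, hs, rfl⟩), map_zero]) t t ht ht
    have hiff : ∀ z : H, IsConj t (z : G) ↔ ψ z ∈ J := fun z => by
      rw [← hinvol, ← Subgroup.orderOf_coe]
      refine ⟨fun hz => ?_, hconj z⟩
      obtain ⟨k, hk⟩ := isConj_iff.mp hz
      rw [← hk, ← MulAut.conj_apply, MulEquiv.orderOf_eq, ht]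
    rw [show {p : G × G | IsConj t p.1 ∧ IsConj t p.2} =
        ((classFinset t ×ˢ classFinset t : Finset (G × G)) : Set (G × G)) by
          ext; simp [mem_classFinset],
      finsum_mem_coe_finset,
      show {p : H × H | IsConj t (p.1 : G) ∧ IsConj t (p.2 : G)} =
        ((Finset.univ.filter fun p : H × H => ψ p.1 ∈ J ∧ ψ p.2 ∈ J : Finset (H × H)) : Set (H × H)) by
          ext p
          simp only [Set.mem_ofPred_eq, Finset.coe_filter, Finset.mem_univ, true_and, hiff],
      finsum_mem_coe_finset] at h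
    have hlhs : ∑ p ∈ classFinset t ×ˢ classFinset t, indFun H (F T) (p.1 * p.2) =
        (K : ℂ) * K * ∑ χ : IrrCharacter G, (m χ : ℂ) * ((χ : G → ℂ) t ^ 2 / (χ : G → ℂ) 1) := by
      rw [hexp]
      simp only [Finset.sum_apply, Pi.smul_apply, smul_eq_mul]
      rw [Finset.sum_comm, Finset.mul_sum]
      refine Finset.sum_congr rfl fun χ _ => ?_
      rw [← Finset.mul_sum, sum_class_mul χ.2, ← hK]
      ring
    have hrhs : ∑ p ∈ Finset.univ.filter (fun p : H × H => ψ p.1 ∈ J ∧ ψ p.2 ∈ J),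
        F T (p.1 * p.2) = (s : ℂ) := by
      rw [Finset.sum_filter, Fintype.sum_prod_type]
      simp only [F, hψm]
      rw [hHsum (fun p => ∑ k : H, if p ∈ J ∧ ψ k ∈ J then phi (T (qm p (ψ k))) else 0),
        Finset.sum_congr rfl fun p _ =>
          hHsum (fun q => if p ∈ J ∧ q ∈ J then phi (T (qm p q)) else 0)]
      have hJU : J ⊆ U := Finset.filter_subset _ _
      rw [← Finset.sum_subset hJU (fun p _ hp => Finset.sum_eq_zero fun q _ => if_neg fun h => hp h.1)]
      rw [Finset.sum_congr rfl fun p hp => (Finset.sum_subset hJU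
        (fun q _ hq => if_neg fun h => hq h.2)).symm.trans
          (Finset.sum_congr rfl fun q hq => if_pos ⟨hp, hq⟩)]
      simp only [← map_sum]
      rw [hs, map_intCast]
    rw [hlhs, hrhs, hidx] at h
    have hKne : (K : ℂ) ≠ 0 := by exact_mod_cast hK0.ne'
    refine mul_left_cancel₀ hKne ?_
    rw [← mul_assoc]
    exact h
  have hexp3 : ∀ (m : IrrCharacter G → ℤ) (p q : IrrCharacter G), p ≠ i₀ → q ≠ i₀ → p ≠ q →
      (∀ i, i ≠ i₀ → i ≠ p → i ≠ q → m i = 0) → ∀ f : IrrCharacter G → ℂ,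
      ∑ χ, (m χ : ℂ) * f χ = m i₀ * f i₀ + m p * f p + m q * f q := by
    intro m p q hp hq hpq hm f
    rw [← Finset.sum_subset (Finset.subset_univ {i₀, p, q}) (fun χ _ hχ => ?_)]
    · rw [Finset.sum_insert (by simp [Ne.symm hp, Ne.symm hq]), Finset.sum_pair hpq, add_assoc]
    · simp only [Finset.mem_insert, Finset.mem_singleton, not_or] at hχ
      rw [hm χ hχ.1 hχ.2.1 hχ.2.2]; simp
  have hw : 1 + a X * deg X + a W * deg W = 0 := by
    have h := hzero tA a sA haexp
    rw [sum_three a deg i₀ X W (Ne.symm hX0) (Ne.symm hW0) hXW haW, ha0, hdeg0] at h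
    linarith
  have hq : 1 + b P' * deg P' + b Q' * deg Q' = 0 := by
    have h := hzero tB b sB hbexp
    rw [sum_three b deg i₀ P' Q' (Ne.symm hP0) (Ne.symm hQ0) hPQ hbQ, hb0, hdeg0] at h
    linarith
  have h96 := hpairs tA a 96 sA haexp (by rw [pair_sums.1]; norm_num)
  have h192 := hpairs tB b 192 sB hbexp (by rw [pair_sums.2]; norm_num)
  rw [hexp3 a X W hX0 hW0 hXW haW (fun χ => (χ : G → ℂ) t ^ 2 / (χ : G → ℂ) 1)] at h96
  rw [hexp3 b P' Q' hP0 hQ0 hPQ hbQ (fun χ => (χ : G → ℂ) t ^ 2 / (χ : G → ℂ) 1)] at h192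
  simp only [(hval X).1, (hval W).1, (hval P').1, (hval Q').1, vX, vW, vP, vQ, (hdeg X).1,
    (hdeg W).1, (hdeg P').1, (hdeg Q').1, show (i₀ : G → ℂ) t = 1 from rfl,
    show (i₀ : G → ℂ) 1 = 1 from rfl, ha0, hb0] at h96 h192
  obtain ⟨nX, hnX⟩ := (hval X).2
  obtain ⟨nP, hnP⟩ := (hval P').2
  rw [(hdeg X).1] at hnX
  rw [(hdeg P').1] at hnP
  have mX : deg X + 6 * a X = 16 * nX := by
    have h : 3 * deg X + (60 * b X - 63 * a X + 21 * g X + 30 * (d X + c X)) = 48 * nX := by
      exact_mod_cast hnX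
    linarith
  have mP : deg P' + 13 * b P' = 16 * nP := by
    have h : 3 * deg P' + (60 * b P' - 63 * a P' + 21 * g P' + 30 * (d P' + c P')) = 48 * nP := by
      exact_mod_cast hnP
    linarith
  have hne : ∀ χ : IrrCharacter G, (deg χ : ℂ) ≠ 0 := fun χ => by
    exact_mod_cast (hdeg χ).2.ne'
  have zX := hne X
  have zW := hne W
  have zP := hne P'
  have zQ := hne Q'
  push_cast at h96 h192
  field_simp at h96 h192
  have i96 : (K : ℤ) * (deg X * deg W + a X * (2 * a X) ^ 2 * deg W + a W * (-3 * a W) ^ 2 * deg X)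
      = 96 * (deg X * deg W) := by
    have h : (K : ℂ) * ((deg X : ℂ) * deg W + a X * (2 * a X) ^ 2 * deg W +
        a W * (-3 * a W) ^ 2 * deg X) = 96 * ((deg X : ℂ) * deg W) := by linear_combination h96
    exact_mod_cast h
  have i192 : (K : ℤ) * (deg P' * deg Q' + b P' * (3 * b P') ^ 2 * deg Q' +
      b Q' * (4 * b Q') ^ 2 * deg P') = 192 * (deg P' * deg Q') := by
    have h : (K : ℂ) * ((deg P' : ℂ) * deg Q' + b P' * (3 * b P') ^ 2 * deg Q' +
        b Q' * (4 * b Q') ^ 2 * deg P') = 192 * ((deg P' : ℂ) * deg Q') := by linear_combination h192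
    exact_mod_cast h
  have key : K = 117 ∨ K = 165 := by
    have ew : deg W = -a W * (1 + a X * deg X) := by
      linear_combination (a W) * hw - deg W * sW
    have eq' : deg Q' = -b Q' * (1 + b P' * deg P') := by
      linear_combination (b Q') * hq - deg Q' * sQ
    rw [ew] at i96
    rw [eq'] at i192
    refine arith (X := a X * deg X) (P := b P' * deg P') (i := a X * nX - 1) (j := b P' * nP - 1)
      hK0 ?_ ?_ ?_ ?_
    · linear_combination (a X) * mX - 6 * sX
    · linear_combination (b P') * mP - 13 * sP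
    · rcases sq_eq_one_iff.mp sX with u | u <;> rcases sq_eq_one_iff.mp sW with v | v <;>
        rw [u, v] at i96 <;> rw [u] <;> linarith
    · rcases sq_eq_one_iff.mp sP with u | u <;> rcases sq_eq_one_iff.mp sQ with v | v <;>
        rw [u, v] at i192 <;> rw [u] <;> linarith
  rcases key with h | h <;> omega

end Group

end CfsgLib.GLTwoThree
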