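import Mathlib
import Cfsg.Agent.Lib.CharGalois
import Cfsg.Agent.Lib.CharSmall
import Cfsg.Agent.Lib.CharLinear
import Cfsg.Agent.Lib.CharInt
import Cfsg.Agent.Lib.CoreWielandt

/-!
# The abelian Hall subgroup for the primes above `n + 1` in a linear group of degree `n`
-/

set_option autoImplicit false
set_option linter.unusedSectionVars false
set_option linter.style.haveILetI false

namespace CfsgLib.LinHall

open Cfsg CfsgLib.Char
open scoped Pointwise ComplexConjugate

universe u

variable {G : Type u} [Group G]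

/-- A prime-sized nonnegative integer constraint: the trace of an element of order `p` which is
fixed by all Galois automorphisms equals the degree. -/
theorem eq_one_of_const [Finite G] {χ : G → ℂ} (hχ : IsCharacter G χ) {p d : ℕ} (hp : p.Prime)
    (hd : χ 1 = d) (hdp : d + 1 < p) {x : G} (hx : orderOf x = p)
    (hconst : ∀ k : ℕ, ¬ p ∣ k → χ (x ^ k) = χ x) : χ x = χ 1 := by
  classical
  haveI := Fintype.ofFinite G
  set A := Subgroup.zpowers x with hA
  haveI : Fintype ↥A := Fintype.ofFinite _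
  have hcard : Nat.card ↥A = p := by rw [hA, Nat.card_zpowers, hx]
  obtain ⟨a, ha⟩ := inner_character_nat (isCharacter_restrict hχ A) (isCharacter_one (G := ↥A))
  have hval : ∀ b : ↥A, b ≠ 1 → χ (b : G) = χ x := by
    rintro ⟨b, hb⟩ hne
    obtain ⟨k, rfl⟩ := (mem_powers_iff_mem_zpowers.mpr hb : b ∈ Submonoid.powers x)
    refine hconst k fun hk => hne (Subtype.ext ?_)
    show x ^ k = 1
    rw [← orderOf_dvd_iff_pow_eq_one, hx]
    exact hk
  have hsum : ∑ b : ↥A, χ (b : G) = (d : ℂ) + ((p - 1 : ℕ) : ℂ) * χ x := by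
    rw [← Finset.add_sum_erase _ _ (Finset.mem_univ (1 : ↥A)),
      Finset.sum_congr rfl fun b hb => hval b (Finset.ne_of_mem_erase hb)]
    rw [Finset.sum_const, Finset.card_erase_of_mem (Finset.mem_univ _), Finset.card_univ,
      ← Nat.card_eq_fintype_card, hcard, nsmul_eq_mul, Subgroup.coe_one, hd]
  have hsum2 : (p : ℂ) * (a : ℂ) = (d : ℂ) + ((p - 1 : ℕ) : ℂ) * χ x := by
    rw [← hsum, ← ha]
    unfold Cfsg.classInner
    simp only [map_one, mul_one]
    rw [hcard, ← mul_assoc, mul_inv_cancel₀ (by exact_mod_cast hp.ne_zero), one_mul]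
  have hp1 : ((p - 1 : ℕ) : ℚ) ≠ 0 := by
    have := hp.two_le
    exact_mod_cast (show p - 1 ≠ 0 by omega)
  have hq : χ x = ((((p : ℚ) * a - d) / ((p - 1 : ℕ) : ℚ) : ℚ) : ℂ) := by
    push_cast
    rw [eq_div_iff (by exact_mod_cast hp1), hsum2]
    ring
  have hint : IsIntegral ℤ (χ x) := isCharacter_isIntegral hχ x
  rw [hq] at hint
  obtain ⟨c, hc⟩ := int_of_isIntegral_rat _ hint
  have hcx : χ x = (c : ℂ) := by rw [hq, ← hc]; simp
  rw [hcx] at hsum2
  have hz : (p : ℤ) * a = d + ((p - 1 : ℕ) : ℤ) * c := by exact_mod_cast hsum2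
  have hle : (c : ℝ) ≤ d := by
    have h1 := isCharacter_norm_le hχ x
    rw [hcx, hd, Complex.norm_intCast, Complex.natCast_re] at h1
    exact (le_abs_self _).trans h1
  have hle' : c ≤ (d : ℤ) := by exact_mod_cast hle
  have h2 := hp.two_le
  have h0 : 0 ≤ c := by
    by_contra hneg
    have : ((p - 1 : ℕ) : ℤ) * c ≤ -((p - 1 : ℕ) : ℤ) := by
      have hc1 : c ≤ -1 := by omega
      have h0' : (0 : ℤ) ≤ ((p - 1 : ℕ) : ℤ) := by positivity
      nlinarith
    have ha0 : (0 : ℤ) ≤ (p : ℤ) * a := by positivity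
    omega
  have hdvd : (p : ℤ) ∣ (d : ℤ) - c := by
    refine ⟨(a : ℤ) - c, ?_⟩
    have e : ((p - 1 : ℕ) : ℤ) = (p : ℤ) - 1 := by omega
    rw [e] at hz
    linear_combination -hz
  have : (d : ℤ) - c = 0 := Int.eq_zero_of_abs_lt_dvd hdvd (by rw [abs_lt]; omega)
  rw [hcx, hd]
  have : c = (d : ℤ) := by omega
  rw [this]; simp

/-- Elements of orders `p` and `q` commute modulo the kernel of an irreducible character of degree
below `p - 1` and `q - 1`, unless some element order is divisible by `p q`. -/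
theorem irr_ker_or [Finite G] {χ : G → ℂ} (hχ : IsIrrCharacter G χ) {p q d : ℕ} (hp : p.Prime)
    (hq : q.Prime) (hd : χ 1 = d) (hdp : d + 1 < p) (hdq : d + 1 < q)
    (hno : ∀ g : G, p ∣ orderOf g → q ∣ orderOf g → False)
    {x y : G} (hx : orderOf x = p) (hy : orderOf y = q) : χ x = χ 1 ∨ χ y = χ 1 := by
  classical
  haveI := Fintype.ofFinite G
  have twist : ∀ (r : ℕ) (z : G), r.Prime → orderOf z = r → ∀ k : ℕ, ¬ r ∣ k →
      ∃ χ' : G → ℂ, IsIrrCharacter G χ' ∧ χ' z = χ (z ^ k) ∧
        ∀ g : G, ¬ r ∣ orderOf g → χ' g = χ g := by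
    intro r z hr hz k hk
    haveI := Fact.mk hr
    set v := (Nat.card G).factorization r
    obtain ⟨χ', -, h2, h3, h4⟩ := exists_partial_twist (G := G) (a := r ^ v)
      (b := Nat.card G / r ^ v) (k := k)
      (Nat.ordProj_mul_ordCompl_eq_self (Nat.card G) r).symm
      ((Nat.coprime_ordCompl hr Nat.card_pos.ne').pow_left v)
      ((hr.coprime_iff_not_dvd.mpr hk).symm.pow_right v) hχ.isCharacter'
    refine ⟨χ', h2 hχ, h3 z ?_, fun g hg => h4 g ((hr.coprime_iff_not_dvd.mpr hg).symm.pow_right v)⟩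
    rw [hz]
    refine dvd_pow_self r ?_
    have : r ∣ Nat.card G := hz ▸ orderOf_dvd_natCard z
    exact (hr.factorization_pos_of_dvd Nat.card_pos.ne' this).ne'
  by_contra hcon
  push Not at hcon
  obtain ⟨k, hk, hkne⟩ : ∃ k : ℕ, ¬ p ∣ k ∧ χ (x ^ k) ≠ χ x := by
    by_contra h; push Not at h; exact hcon.1 (eq_one_of_const hχ.isCharacter' hp hd hdp hx h)
  obtain ⟨l, hl, hlne⟩ : ∃ l : ℕ, ¬ q ∣ l ∧ χ (y ^ l) ≠ χ y := by
    by_contra h; push Not at h; exact hcon.2 (eq_one_of_const hχ.isCharacter' hq hd hdq hy h)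
  obtain ⟨σ, hσ, hσx, hσ1⟩ := twist p x hp hx k hk
  obtain ⟨τ, hτ, hτy, hτ1⟩ := twist q y hq hy l hl
  have hσne : σ ≠ χ := fun e => hkne (by rw [← hσx, e])
  have hτne : τ ≠ χ := fun e => hlne (by rw [← hτy, e])
  have hzero : classInner (σ - χ) (τ - χ) = 0 := by
    unfold Cfsg.classInner
    rw [Finset.sum_eq_zero, mul_zero]
    intro g _
    by_cases hg : p ∣ orderOf g
    · have := hτ1 g fun h => hno g hg h
      simp [this]
    · simp [hσ1 g hg]
  rw [CfsgLib.Char.inner_sub_left, CfsgLib.Char.inner_sub_right, CfsgLib.Char.inner_sub_right, irr_inner_self hχ,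
    irr_inner_ne hσ hχ hσne, irr_inner_ne hχ hτ hτne.symm] at hzero
  obtain ⟨m, hm⟩ := inner_character_nat hσ.isCharacter' hτ.isCharacter'
  rw [hm] at hzero
  have : ((m + 1 : ℕ) : ℂ) = 0 := by push_cast; linear_combination hzero
  exact absurd (Nat.cast_eq_zero.mp this) (by omega)

/-- In a linear group of degree `n` two primes above `n + 1` dividing the order give commuting
elements of these orders. -/
theorem exists_commuting [Finite G] {n : ℕ} (ρ : Representation ℂ G (Fin n → ℂ))
    (hρ : Function.Injective ρ) {p q : ℕ} (hp : p.Prime) (hq : q.Prime) (hpq : p ≠ q)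
    (hnp : n + 1 < p) (hnq : n + 1 < q) (hpG : p ∣ Nat.card G) (hqG : q ∣ Nat.card G) :
    ∃ x y : G, orderOf x = p ∧ orderOf y = q ∧ x * y = y * x := by
  classical
  haveI := Fintype.ofFinite G
  haveI := Fact.mk hp
  haveI := Fact.mk hq
  by_cases hex : ∃ g : G, p ∣ orderOf g ∧ q ∣ orderOf g
  · obtain ⟨g, hgp, hgq⟩ := hex
    refine ⟨g ^ (orderOf g / p), g ^ (orderOf g / q), orderOf_pow_orderOf_div (orderOf_pos g).ne' hgp,
      orderOf_pow_orderOf_div (orderOf_pos g).ne' hgq, (Commute.refl g).pow_pow _ _⟩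
  push Not at hex
  exfalso
  obtain ⟨x, hx⟩ := exists_prime_orderOf_dvd_card' (G := G) p hpG
  obtain ⟨y, hy⟩ := exists_prime_orderOf_dvd_card' (G := G) q hqG
  have hcomm : x * y = y * x := by
    have hf := isCharacter_rep ρ
    choose k hk using fun θ : IrrCharacter G => inner_character_nat hf θ.2.isCharacter'
    choose e he using fun θ : IrrCharacter G => exists_degree_pos θ.2
    have hexp := classFunction_eq_sum ρ.character (isCharacter_classFunction hf)
    have hsum : n = ∑ θ : IrrCharacter G, k θ * e θ := by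
      have h1 := congrFun hexp 1
      simp only [Finset.sum_apply, Pi.smul_apply, smul_eq_mul, hk, fun θ => (he θ).2] at h1
      rw [ρ.char_one, Module.finrank_fin_fun] at h1
      exact_mod_cast h1
    have hker : ρ.character (x * y * x⁻¹ * y⁻¹) = ρ.character 1 := by
      rw [hexp]
      simp only [Finset.sum_apply, Pi.smul_apply, smul_eq_mul]
      refine Finset.sum_congr rfl fun θ _ => ?_
      by_cases h0 : k θ = 0
      · rw [hk, h0, Nat.cast_zero, zero_mul, zero_mul]
      congr 1
      have hle : e θ ≤ n := by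
        rw [hsum]
        exact le_trans (Nat.le_mul_of_pos_left _ (Nat.pos_of_ne_zero h0))
          (Finset.single_le_sum (f := fun η => k η * e η) (fun _ _ => Nat.zero_le _) (Finset.mem_univ θ))
      have hK : (charKer θ.2.isCharacter').Normal := inferInstance
      show x * y * x⁻¹ * y⁻¹ ∈ charKer θ.2.isCharacter'
      rcases irr_ker_or θ.2 hp hq (he θ).2 (by omega) (by omega)
        (fun g h1 h2 => hex g h1 h2) hx hy with h | h
      · have h1 : x ∈ charKer θ.2.isCharacter' := h
        have h2 := mul_mem h1 (hK.conj_mem _ (inv_mem h1) y)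
        rwa [← mul_assoc, ← mul_assoc] at h2
      · have h1 : y ∈ charKer θ.2.isCharacter' := h
        exact mul_mem (hK.conj_mem _ h1 x) (inv_mem h1)
    have h2 := hρ (((char_eq_one_iff ρ _).mp hker).trans (map_one ρ).symm)
    rwa [mul_inv_eq_one, mul_inv_eq_iff_eq_mul] at h2
  have hord : orderOf (x * y) = p * q := by
    rw [Commute.orderOf_mul_eq_mul_orderOf_of_coprime hcomm (by rw [hx, hy]; exact (Nat.coprime_primes hp hq).mpr hpq),
      hx, hy]
  exact hex (x * y) (hord ▸ dvd_mul_right p q) (hord ▸ dvd_mul_left q p)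

/-- A Hall subgroup for the primes above `n + 1`. -/
def IsPiHall (n : ℕ) (H : Subgroup G) : Prop :=
  (∀ q : ℕ, q.Prime → q ∣ Nat.card H → n + 1 < q) ∧ ∀ q : ℕ, q.Prime → q ∣ H.index → q ≤ n + 1

theorem dvd_hall [Finite G] {n : ℕ} {H : Subgroup G} (hH : IsPiHall n H) {m : ℕ}
    (hm : ∀ q : ℕ, q.Prime → q ∣ m → n + 1 < q) (hdvd : m ∣ Nat.card G) : m ∣ Nat.card H := by
  rw [← H.card_mul_index] at hdvd
  refine (Nat.coprime_of_dvd fun q hq h1 h2 => ?_).dvd_of_dvd_mul_right hdvd
  have := hm q hq h1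
  have := hH.2 q hq h2
  omega

theorem abelian_of_pi [Finite G] {n : ℕ} (ρ : Representation ℂ G (Fin n → ℂ))
    (hρ : Function.Injective ρ) (H : Subgroup G)
    (hH : ∀ q : ℕ, q.Prime → q ∣ Nat.card H → n < q) : ∀ a ∈ H, ∀ b ∈ H, a * b = b * a := by
  intro a ha b hb
  have h := abelian_of_small_degree (ρ.comp H.subtype) (hρ.comp H.subtype_injective)
    (fun q hq hd => by rw [Module.finrank_fin_fun]; exact hH q hq hd) (⟨a, ha⟩ : H) ⟨b, hb⟩
  exact congrArg Subtype.val h

/-- The extension step over a normal subgroup of index a power of a prime above `n + 1`. -/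
theorem extend_hall [Finite G] {n p : ℕ} [Fact p.Prime] (ρ : Representation ℂ G (Fin n → ℂ))
    (hρ : Function.Injective ρ) (hnp : n + 1 < p) (N : Subgroup G) [N.Normal] {j : ℕ}
    (hidx : N.index = p ^ j) (H₀ : Subgroup N) (hH₀ : IsPiHall n H₀) :
    ∃ H : Subgroup G, IsPiHall n H := by
  classical
  have hp : p.Prime := Fact.out
  set K₀ := H₀.map N.subtype with hK₀
  have hK₀card : Nat.card K₀ = Nat.card H₀ := Subgroup.card_subtype _ _
  set M := Subgroup.normalizer (K₀ : Set G) with hM
  -- Frattini argument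
  haveI : Group.IsNilpotent ↥H₀ := by
    letI : CommGroup ↥H₀ :=
      { (inferInstance : Group ↥H₀) with
        mul_comm := fun a b => Subtype.ext <| Subtype.ext <|
          abelian_of_pi ρ hρ K₀ (fun q hq hd => by
            have := hH₀.1 q hq (hK₀card ▸ hd); omega) _ ⟨a, a.2, rfl⟩ _ ⟨b, b.2, rfl⟩ }
    exact CommGroup.isNilpotent
  have hfr : ∀ g : G, ∃ x : N, (x : G)⁻¹ * g ∈ M := by
    intro g
    let K : Subgroup N := H₀.map (MulAut.conjNormal g : MulAut N).toMonoidHom
    have hKc : Nat.card K = Nat.card H₀ := Subgroup.card_map_of_injective (MulEquiv.injective _)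
    obtain ⟨x, hx⟩ := CfsgLib.Core.wielandt_aux (Nat.card K) N H₀ K le_rfl inferInstance
      (Nat.coprime_of_dvd fun q hq h1 h2 => by
        have := hH₀.1 q hq h1; have := hH₀.2 q hq h2; omega)
      (fun q _ hd => hKc ▸ hd)
    refine ⟨x, ?_⟩
    rw [hM, Subgroup.mem_normalizer_iff_map_conj_eq]
    refine Subgroup.eq_of_le_of_card_ge ?_
      (Subgroup.card_map_of_injective (MulEquiv.injective _)).ge
    rintro _ ⟨a, ⟨b, hb, rfl⟩, rfl⟩
    have h1 : (MulAut.conjNormal g : MulAut N) b ∈ MulAut.conj x • H₀ := hx ⟨b, hb, rfl⟩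
    rw [Subgroup.mem_pointwise_smul_iff_inv_smul_mem, MulAut.smul_def, ← map_inv, MulAut.conj_apply,
      inv_inv] at h1
    refine ⟨_, h1, ?_⟩
    simp only [Subgroup.coe_subtype, Subgroup.coe_mul, InvMemClass.coe_inv, MulAut.conjNormal_apply]
    show _ = ((x : G)⁻¹ * g) * (b : G) * ((x : G)⁻¹ * g)⁻¹
    group
  obtain ⟨P⟩ := (inferInstance : Nonempty (Sylow p M))
  set P₀ := (P : Subgroup M).map M.subtype with hP₀
  have hP₀M : P₀ ≤ M := Subgroup.map_subtype_le _
  set H := K₀ ⊔ P₀ with hH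
  refine ⟨H, fun q hq hd => ?_, fun q hq hd => ?_⟩
  · have hdvd : Nat.card H ∣ Nat.card K₀ * Nat.card P₀ := by
      rw [hH, sup_comm, mul_comm]
      exact CfsgLib.Core.card_sup_dvd_mul hP₀M
    rcases (Nat.Prime.dvd_mul hq).mp (hd.trans hdvd) with h | h
    · exact hH₀.1 q hq (hK₀card ▸ h)
    · rw [hP₀, Subgroup.card_subtype, P.card_eq_multiplicity] at h
      rw [(Nat.prime_dvd_prime_iff_eq hq hp).mp (hq.dvd_of_dvd_pow h)]
      exact hnp
  · by_contra hnq
    rw [Nat.not_le] at hnq
    by_cases hqp : q = p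
    · -- the full power of `p` divides `|P₀|`
      subst hqp
      have hMN : M ⊔ N = ⊤ := by
        rw [eq_top_iff]
        intro g _
        obtain ⟨x, hx⟩ := hfr g
        have : g = (x : G) * ((x : G)⁻¹ * g) := by group
        rw [this]
        exact mul_mem (Subgroup.mem_sup_right x.2) (Subgroup.mem_sup_left hx)
      have e1 : N.relIndex M = N.index := by
        rw [← Subgroup.relIndex_sup_right (H := M) (K := N), hMN, Subgroup.relIndex_top_right]
      have e2 : M.relIndex N = M.index := by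
        have a1 := Subgroup.relIndex_mul_index (inf_le_right : M ⊓ N ≤ N)
        have a2 := Subgroup.relIndex_mul_index (inf_le_left : M ⊓ N ≤ M)
        rw [Subgroup.inf_relIndex_right] at a1
        rw [Subgroup.inf_relIndex_left, e1] at a2
        rw [← a1, mul_comm N.index] at a2
        exact (Nat.eq_of_mul_eq_mul_right (Nat.pos_of_ne_zero Subgroup.index_ne_zero_of_finite) a2).symm
      have hK₀N : K₀.relIndex N = H₀.index := by
        have := Subgroup.relIndex_map_map_of_injective H₀ ⊤ N.subtype_injective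
        rwa [← MonoidHom.range_eq_map, Subgroup.range_subtype, Subgroup.relIndex_top_right] at this
      have hMp : ¬ q ∣ M.index := fun h => by
        have h3 : M.index ∣ H₀.index := by
          rw [← e2, ← hK₀N]
          exact Subgroup.relIndex_dvd_of_le_left _ Subgroup.le_normalizer
        have := hH₀.2 q hq (h.trans h3)
        omega
      have hfull : q ^ (Nat.card G).factorization q ∣ Nat.card H := by
        refine dvd_trans ?_ (Subgroup.card_dvd_of_le (le_sup_right : P₀ ≤ H))
        rw [hP₀, Subgroup.card_subtype, P.card_eq_multiplicity]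
        refine dvd_of_eq (congrArg _ ?_)
        rw [← M.card_mul_index, Nat.factorization_mul Nat.card_pos.ne' Subgroup.index_ne_zero_of_finite,
          Finsupp.add_apply, Nat.factorization_eq_zero_of_not_dvd hMp, add_zero]
      have h4 : q ^ ((Nat.card G).factorization q + 1) ∣ Nat.card G := by
        rw [pow_succ]
        exact dvd_trans (mul_dvd_mul hfull hd) (dvd_of_eq H.card_mul_index)
      exact Nat.pow_succ_factorization_not_dvd Nat.card_pos.ne' hq h4
    · have h1 : H.index ∣ K₀.index := Subgroup.index_dvd_of_le le_sup_left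
      have h2 : K₀.index = H₀.index * N.index := by
        rw [hK₀, Subgroup.index_map_subtype]
      rcases (Nat.Prime.dvd_mul hq).mp (h2 ▸ hd.trans h1) with h | h
      · have := hH₀.2 q hq h
        omega
      · rw [hidx] at h
        exact hqp ((Nat.prime_dvd_prime_iff_eq hq hp).mp (hq.dvd_of_dvd_pow h))

/-- A central element of prime order above `n + 1` gives a proper normal subgroup of index a power
of that prime. -/
theorem exists_normal_of_central [Finite G] {n p : ℕ} [Fact p.Prime]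
    (ρ : Representation ℂ G (Fin n → ℂ)) (hρ : Function.Injective ρ) (hnp : n + 1 < p) {z : G}
    (hz : orderOf z = p) (hzc : z ∈ Subgroup.center G) :
    ∃ (N : Subgroup G) (j : ℕ), N.Normal ∧ N ≠ ⊤ ∧ N.index = p ^ j := by
  classical
  have hp : p.Prime := Fact.out
  haveI : (Subgroup.zpowers z).Normal := ⟨fun a ha g => by
    have : a ∈ Subgroup.center G := Subgroup.zpowers_le.mpr hzc ha
    rw [Subgroup.mem_center_iff.mp this g, mul_inv_cancel_right]
    exact ha⟩
  obtain ⟨P, hzP⟩ := (IsPGroup.of_card (G := Subgroup.zpowers z) (p := p) (n := 1)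
    (by rw [Nat.card_zpowers, hz, pow_one])).exists_le_sylow
  have hab : ∀ a ∈ (P : Subgroup G), ∀ b ∈ (P : Subgroup G), a * b = b * a :=
    abelian_of_pi ρ hρ P fun q hq hd => by
      rw [P.card_eq_multiplicity] at hd
      rw [(Nat.prime_dvd_prime_iff_eq hq hp).mp (hq.dvd_of_dvd_pow hd)]
      omega
  letI : CommGroup (P : Subgroup G) :=
    { (inferInstance : Group (P : Subgroup G)) with
      mul_comm := fun a b => Subtype.ext (hab a a.2 b b.2) }
  let τ : G →* (P : Subgroup G) := MonoidHom.transfer (MonoidHom.id (P : Subgroup G))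
  have hτ : (τ z : G) = z ^ (P : Subgroup G).index := by
    have h1 := MonoidHom.transfer_eq_pow (MonoidHom.id (P : Subgroup G)) z fun k g _ => by
      rw [mul_assoc, ← Subgroup.mem_center_iff.mp (pow_mem hzc k) g, ← mul_assoc, inv_mul_cancel,
        one_mul]
    show ((MonoidHom.transfer (MonoidHom.id (P : Subgroup G)) z : (P : Subgroup G)) : G) = _
    rw [h1]
    rfl
  obtain ⟨k, hk⟩ := IsPGroup.iff_card.mp P.2
  obtain ⟨j, -, hj⟩ := (Nat.dvd_prime_pow hp).mp (hk ▸ τ.range.card_subgroup_dvd_card)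
  refine ⟨τ.ker, j, inferInstance, fun e => ?_, by rw [Subgroup.index_ker, hj]⟩
  have h1 : τ z = 1 := (e ▸ Subgroup.mem_top z : z ∈ τ.ker)
  rw [h1, Subgroup.coe_one, eq_comm, ← orderOf_dvd_iff_pow_eq_one, hz] at hτ
  exact P.not_dvd_index hτ

/-- Blichfeldt: a linear group of degree `n` has an abelian Hall subgroup for the primes above
`n + 1`. -/
theorem exists_hall_aux : ∀ (m : ℕ) (G : Type u) [Group G] [Finite G] (n : ℕ)
    (ρ : Representation ℂ G (Fin n → ℂ)), Function.Injective ρ → Nat.card G ≤ m →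
      ∃ H : Subgroup G, IsPiHall n H := by
  classical
  intro m
  induction m with
  | zero => intro G _ _ n ρ _ h; exact absurd h (Nat.not_le.mpr Nat.card_pos)
  | succ m ih =>
  intro G _ _ n ρ hρ hm
  have hsub : ∀ C : Subgroup G, C ≠ ⊤ → ∃ H : Subgroup C, IsPiHall n H := fun C hC => by
    refine ih C n (ρ.comp C.subtype) (hρ.comp C.subtype_injective) ?_
    have := Subgroup.card_le_card_group C
    have hne : Nat.card C ≠ Nat.card G := fun e => hC (Subgroup.eq_top_of_card_eq C e)
    omega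
  by_contra hcon
  have hnocentral : ∀ (p : ℕ) (z : G), p.Prime → n + 1 < p → orderOf z = p →
      Subgroup.centralizer ({z} : Set G) ≠ ⊤ := by
    intro p z hp hnp hz htop
    haveI := Fact.mk hp
    rw [Subgroup.centralizer_eq_top_iff_subset, Set.singleton_subset_iff] at htop
    obtain ⟨N, j, hN, hNt, hidx⟩ := exists_normal_of_central ρ hρ hnp hz htop
    haveI := hN
    obtain ⟨H₀, hH₀⟩ := hsub N hNt
    exact hcon (extend_hall ρ hρ hnp N hidx H₀ hH₀)
  -- a π-number dividing the order of a proper subgroup is the order of some π-subgroup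
  have hpart : ∀ C : Subgroup G, C ≠ ⊤ → ∃ K : Subgroup G,
      (∀ q : ℕ, q.Prime → q ∣ Nat.card K → n + 1 < q) ∧ K ≤ C ∧
      ∀ d : ℕ, (∀ q : ℕ, q.Prime → q ∣ d → n + 1 < q) → d ∣ Nat.card C → d ∣ Nat.card K := by
    intro C hC
    obtain ⟨K, hK⟩ := hsub C hC
    refine ⟨K.map C.subtype, fun q hq hd => hK.1 q hq ?_, Subgroup.map_subtype_le _, fun d hd hdvd => ?_⟩
    · rwa [Subgroup.card_subtype] at hd
    · rw [Subgroup.card_subtype]; exact dvd_hall hK hd hdvd
  -- a π-subgroup of greatest order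
  obtain ⟨H, hH, hmax⟩ := Set.exists_max_image
    {K : Subgroup G | ∀ q : ℕ, q.Prime → q ∣ Nat.card K → n + 1 < q} (fun K => Nat.card K)
    (Set.toFinite _) ⟨⊥, fun q hq hd => by
      rw [Subgroup.card_bot] at hd
      exact absurd (Nat.dvd_one.mp hd) hq.ne_one⟩
  refine hcon ⟨H, hH, fun q hq hd => ?_⟩
  by_contra hnq
  rw [Nat.not_le] at hnq
  haveI := Fact.mk hq
  have hHab := abelian_of_pi ρ hρ H fun r hr hrd => by
    have := hH r hr hrd; omega
  -- `H` has full order for each of its primes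
  have hfull : ∀ p : ℕ, p.Prime → p ∣ Nat.card H →
      p ^ (Nat.card G).factorization p ∣ Nat.card H := by
    intro p hp hpH
    haveI := Fact.mk hp
    have hnp := hH p hp hpH
    obtain ⟨⟨x, hxH⟩, hx⟩ := exists_prime_orderOf_dvd_card' (G := H) p hpH
    rw [Subgroup.orderOf_mk] at hx
    set C := Subgroup.centralizer ({x} : Set G) with hC
    have hCtop : C ≠ ⊤ := hnocentral p x hp hnp hx
    obtain ⟨K, hKπ, -, hKd⟩ := hpart C hCtop
    have hHK : Nat.card H = Nat.card K := by
      refine le_antisymm (Nat.le_of_dvd Nat.card_pos (hKd _ hH (Subgroup.card_dvd_of_le ?_))) (hmax K hKπ)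
      exact fun a ha => Subgroup.mem_centralizer_singleton_iff.mpr (hHab a ha x hxH)
    rw [hHK]
    refine hKd _ (fun r hr hd => ?_) ?_
    · rw [(Nat.prime_dvd_prime_iff_eq hr hp).mp (hr.dvd_of_dvd_pow hd)]; exact hnp
    · obtain ⟨P, hxP⟩ := (IsPGroup.of_card (G := Subgroup.zpowers x) (p := p) (n := 1)
        (by rw [Nat.card_zpowers, hx, pow_one])).exists_le_sylow
      rw [← P.card_eq_multiplicity]
      refine Subgroup.card_dvd_of_le fun a ha => ?_
      have hPab := abelian_of_pi ρ hρ (P : Subgroup G) fun r hr hrd => by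
        rw [P.card_eq_multiplicity] at hrd
        rw [(Nat.prime_dvd_prime_iff_eq hr hp).mp (hr.dvd_of_dvd_pow hrd)]; omega
      exact Subgroup.mem_centralizer_singleton_iff.mpr
        (hPab a ha x (hxP (Subgroup.mem_zpowers x)))
  have hqG : q ∣ Nat.card G := hd.trans (Subgroup.index_dvd_card H)
  have hqH : ¬ q ∣ Nat.card H := by
    intro h
    have h4 : q ^ ((Nat.card G).factorization q + 1) ∣ Nat.card G := by
      rw [pow_succ]
      exact dvd_trans (mul_dvd_mul (hfull q hq h) hd) (dvd_of_eq H.card_mul_index)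
    exact Nat.pow_succ_factorization_not_dvd Nat.card_pos.ne' hq h4
  -- `H` is not trivial
  rcases eq_or_ne (Nat.card H) 1 with h1 | h1
  · obtain ⟨P⟩ := (inferInstance : Nonempty (Sylow q G))
    have := hmax (P : Subgroup G) fun r hr hrd => by
      rw [P.card_eq_multiplicity] at hrd
      rw [(Nat.prime_dvd_prime_iff_eq hr hq).mp (hr.dvd_of_dvd_pow hrd)]; exact hnq
    have h2 := P.dvd_card_of_dvd_card hqG
    have h3 : q ≤ Nat.card (P : Subgroup G) := Nat.le_of_dvd Nat.card_pos h2
    have := hq.two_le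
    omega
  obtain ⟨p, hp, hpH⟩ := Nat.exists_prime_and_dvd h1
  haveI := Fact.mk hp
  have hnp := hH p hp hpH
  have hpq : p ≠ q := fun e => hqH (e ▸ hpH)
  obtain ⟨x, y, hx, hy, hxy⟩ := exists_commuting ρ hρ hp hq hpq hnp hnq
    (hpH.trans H.card_subgroup_dvd_card) hqG
  -- the centraliser of `x` contains commuting elements of a Sylow `p`-subgroup and of order `q`
  set C := Subgroup.centralizer ({x} : Set G) with hC
  obtain ⟨K, hKπ, hKC, hKd⟩ := hpart C (hnocentral p x hp hnp hx)
  obtain ⟨P', hxP'⟩ := (IsPGroup.of_card (G := Subgroup.zpowers x) (p := p) (n := 1)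
    (by rw [Nat.card_zpowers, hx, pow_one])).exists_le_sylow
  have hPK : p ^ (Nat.card G).factorization p ∣ Nat.card K := by
    refine hKd _ (fun r hr hd => ?_) ?_
    · rw [(Nat.prime_dvd_prime_iff_eq hr hp).mp (hr.dvd_of_dvd_pow hd)]; exact hnp
    · rw [← P'.card_eq_multiplicity]
      refine Subgroup.card_dvd_of_le fun a ha => ?_
      have hPab := abelian_of_pi ρ hρ (P' : Subgroup G) fun r hr hrd => by
        rw [P'.card_eq_multiplicity] at hrd
        rw [(Nat.prime_dvd_prime_iff_eq hr hp).mp (hr.dvd_of_dvd_pow hrd)]; omega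
      exact Subgroup.mem_centralizer_singleton_iff.mpr
        (hPab a ha x (hxP' (Subgroup.mem_zpowers x)))
  have hqK : q ∣ Nat.card K := by
    refine hKd q (fun r hr hd => by rw [(Nat.prime_dvd_prime_iff_eq hr hq).mp hd]; exact hnq) ?_
    rw [← hy, ← Nat.card_zpowers]
    refine Subgroup.card_dvd_of_le (Subgroup.zpowers_le.mpr ?_)
    exact Subgroup.mem_centralizer_singleton_iff.mpr hxy.symm
  obtain ⟨PK⟩ := (inferInstance : Nonempty (Sylow p K))
  obtain ⟨⟨w, hwK⟩, hw⟩ := exists_prime_orderOf_dvd_card' (G := K) q hqK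
  rw [Subgroup.orderOf_mk] at hw
  obtain ⟨PH⟩ := (inferInstance : Nonempty (Sylow p H))
  -- both are Sylow subgroups of `G`
  have hsyl : ∀ (L : Subgroup G), p ^ (Nat.card G).factorization p ∣ Nat.card L → ∀ S : Sylow p L,
      Nat.card ((S : Subgroup L).map L.subtype) = p ^ (Nat.card G).factorization p := by
    intro L hL S
    rw [Subgroup.card_subtype, S.card_eq_multiplicity]
    refine congrArg _ (le_antisymm ?_ ((hp.pow_dvd_iff_le_factorization Nat.card_pos.ne').mp hL))
    exact (Nat.factorization_le_iff_dvd Nat.card_pos.ne' Nat.card_pos.ne').mpr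
      L.card_subgroup_dvd_card p
  obtain ⟨g, hg⟩ := MulAction.exists_smul_eq G
    (Sylow.ofCard _ (hsyl K hPK PK)) (Sylow.ofCard _ (hsyl H (hfull p hp hpH) PH))
  set S := (PH : Subgroup H).map H.subtype with hS
  have hg' : MulAut.conj g • ((PK : Subgroup K).map K.subtype) = S := congrArg (fun T : Sylow p G => (T : Subgroup G)) hg
  set D := Subgroup.centralizer (S : Set G) with hD
  have hHD : H ≤ D := fun a ha => Subgroup.mem_centralizer_iff.mpr fun b hb =>
    hHab b (Subgroup.map_subtype_le _ hb) a ha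
  have hKab := abelian_of_pi ρ hρ K fun r hr hrd => by
    have := hKπ r hr hrd; omega
  have hwD : g * w * g⁻¹ ∈ D := by
    rw [hD, Subgroup.mem_centralizer_iff]
    intro b hb
    rw [← hg'] at hb
    obtain ⟨c, hc, rfl⟩ := hb
    show (g * c * g⁻¹) * (g * w * g⁻¹) = (g * w * g⁻¹) * (g * c * g⁻¹)
    have := hKab c (Subgroup.map_subtype_le _ hc) w hwK
    calc g * c * g⁻¹ * (g * w * g⁻¹) = g * (c * w) * g⁻¹ := by group
      _ = g * (w * c) * g⁻¹ := by rw [this]
      _ = g * w * g⁻¹ * (g * c * g⁻¹) := by group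
  have hDtop : D ≠ ⊤ := by
    intro e
    have hSne : S ≠ ⊥ := by
      intro e'
      have h := hsyl H (hfull p hp hpH) PH
      rw [← hS, e', Subgroup.card_bot, eq_comm, Nat.pow_eq_one] at h
      rcases h with h | h
      · exact hp.ne_one h
      · exact (hp.factorization_pos_of_dvd Nat.card_pos.ne'
          (hpH.trans H.card_subgroup_dvd_card)).ne' h
    have hSp : p ∣ Nat.card S := by
      rw [hS, hsyl H (hfull p hp hpH) PH]
      exact dvd_pow_self p (hp.factorization_pos_of_dvd Nat.card_pos.ne'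
          (hpH.trans H.card_subgroup_dvd_card)).ne'
    obtain ⟨⟨s, hs⟩, hs1⟩ := exists_prime_orderOf_dvd_card' (G := S) p hSp
    rw [Subgroup.orderOf_mk] at hs1
    refine hnocentral p s hp hnp hs1 (eq_top_iff.mpr ?_)
    rw [← e]
    exact Subgroup.centralizer_le (Set.singleton_subset_iff.mpr hs)
  obtain ⟨L, hLπ, -, hLd⟩ := hpart D hDtop
  have hLH : Nat.card H * q ∣ Nat.card L := by
    refine (Nat.Coprime.mul_dvd_of_dvd_of_dvd ((hq.coprime_iff_not_dvd.mpr hqH).symm)
      (hLd _ hH (Subgroup.card_dvd_of_le hHD)) ?_)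
    refine hLd q (fun r hr hd => by rw [(Nat.prime_dvd_prime_iff_eq hr hq).mp hd]; exact hnq) ?_
    have ho : orderOf (g * w * g⁻¹) = q := by
      rw [show g * w * g⁻¹ = MulAut.conj g w from rfl, MulEquiv.orderOf_eq, hw]
    rw [← ho, ← Nat.card_zpowers]
    exact Subgroup.card_dvd_of_le (Subgroup.zpowers_le.mpr hwD)
  have := Nat.le_of_dvd Nat.card_pos hLH
  have := hmax L hLπ
  have := hq.two_le
  have := (Nat.card_pos : 0 < Nat.card H)
  nlinarith

theorem exists_hall [Finite G] {n : ℕ} (ρ : Representation ℂ G (Fin n → ℂ))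
    (hρ : Function.Injective ρ) :
    ∃ H : Subgroup G, (∀ a ∈ H, ∀ b ∈ H, a * b = b * a) ∧ IsPiHall n H := by
  obtain ⟨H, hH⟩ := exists_hall_aux (Nat.card G) G n ρ hρ le_rfl
  exact ⟨H, abelian_of_pi ρ hρ H (fun q hq hd => by have := hH.1 q hq hd; omega), hH⟩

end CfsgLib.LinHall
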