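import Cfsg.Agent.Lib.CharRelMGroup
import Cfsg.Agent.Lib.CharLinear

/-!
# Characters irreducible on a normal subgroup with abelian Sylow subgroups are monomial
-/

set_option autoImplicit false
set_option linter.style.haveILetI false
set_option linter.unusedSectionVars false

namespace CfsgLib.Char

open Cfsg
open scoped ComplexConjugate

universe u

variable {G : Type u} [Group G]

/-- A subgroup containing every element of prime power order of `M` contains `M`. -/
theorem le_of_forall_prime_pow_mem [Finite G] {M K : Subgroup G}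
    (h : ∀ p : ℕ, p.Prime → ∀ x ∈ M, (∃ k, orderOf x = p ^ k) → x ∈ K) : M ≤ K := by
  suffices hK : (K.subgroupOf M).index = 1 by
    exact Subgroup.subgroupOf_eq_top.mp (Subgroup.index_eq_one.mp hK)
  rw [Nat.eq_one_iff_not_exists_prime_dvd]
  intro p hp hdvd
  haveI := Fact.mk hp
  set P : Sylow p M := default
  have hle : (P : Subgroup M) ≤ K.subgroupOf M := by
    intro x hx
    obtain ⟨k, hk⟩ := IsPGroup.iff_orderOf.mp P.isPGroup' ⟨x, hx⟩
    refine Subgroup.mem_subgroupOf.mpr (h p hp (x : G) x.2 ⟨k, ?_⟩)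
    rw [Subgroup.orderOf_coe, ← hk, ← Subgroup.orderOf_coe (⟨x, hx⟩ : (P : Subgroup M))]
  exact P.not_dvd_index (hdvd.trans (Subgroup.index_dvd_of_le hle))

variable {V : Type*} [AddCommGroup V] [Module ℂ V] (ρ : Representation ℂ G V)

/-- The elements whose image commutes with the image of `a`. -/
def imageCentralizer (a : G) : Subgroup G where
  carrier := {g | Commute (ρ g) (ρ a)}
  one_mem' := by simp
  mul_mem' {g h} hg hh := by
    show Commute (ρ (g * h)) (ρ a)
    rw [map_mul]; exact Commute.mul_left hg hh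
  inv_mem' {g} hg := by
    show Commute (ρ g⁻¹) (ρ a)
    have h : ρ g⁻¹ * ρ g = 1 := by rw [← map_mul, inv_mul_cancel, map_one]
    have h' : ρ g * ρ g⁻¹ = 1 := by rw [← map_mul, mul_inv_cancel, map_one]
    exact Commute.units_inv_left (u := ⟨ρ g, ρ g⁻¹, h', h⟩) hg

theorem mem_imageCentralizer {a g : G} : g ∈ imageCentralizer ρ a ↔ Commute (ρ g) (ρ a) := Iff.rfl

/-- The elements acting as scalars. -/
def scalarSubgroup : Subgroup G where
  carrier := {g | ∃ c : ℂ, ρ g = c • (1 : Module.End ℂ V) ∧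
    ∃ d : ℂ, ρ g⁻¹ = d • (1 : Module.End ℂ V)}
  one_mem' := ⟨1, by simp, 1, by simp⟩
  mul_mem' {g h} := by
    rintro ⟨c, hc, d, hd⟩ ⟨c', hc', d', hd'⟩
    refine ⟨c * c', ?_, d' * d, ?_⟩
    · rw [map_mul, hc, hc', smul_mul_smul_comm, one_mul]
    · rw [mul_inv_rev, map_mul, hd, hd', smul_mul_smul_comm, one_mul]
  inv_mem' {g} := by
    rintro ⟨c, hc, d, hd⟩
    exact ⟨d, hd, c, by rw [inv_inv, hc]⟩

theorem mem_scalarSubgroup [Finite G] {g : G} :
    g ∈ scalarSubgroup ρ ↔ ∃ c : ℂ, ρ g = c • (1 : Module.End ℂ V) := by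
  refine ⟨fun ⟨c, hc, _⟩ => ⟨c, hc⟩, fun ⟨c, hc⟩ => ⟨c, hc, c ^ (orderOf g - 1), ?_⟩⟩
  have : g⁻¹ = g ^ (orderOf g - 1) := inv_eq_of_mul_eq_one_right (by
    rw [← pow_succ', Nat.sub_add_cancel (orderOf_pos g), pow_orderOf_eq_one])
  rw [this, map_pow, hc, smul_pow, one_pow]

instance scalarSubgroup_normal : (scalarSubgroup ρ).Normal := by
  refine ⟨?_⟩
  rintro n ⟨c, hc, d, hd⟩ g
  refine ⟨c, ?_, d, ?_⟩
  · rw [map_mul, map_mul, hc, mul_smul_comm, mul_one, smul_mul_assoc, ← map_mul, mul_inv_cancel,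
      map_one]
  · rw [show (g * n * g⁻¹)⁻¹ = g * n⁻¹ * g⁻¹ by group, map_mul, map_mul, hd, mul_smul_comm,
      mul_one, smul_mul_assoc, ← map_mul, mul_inv_cancel, map_one]

/-- A subgroup with abelian Sylow subgroups and scalar commutators has abelian image. -/
theorem image_comm_of_scalar_commutator [Finite G] [Nontrivial V] (M : Subgroup G)
    (hsc : ∀ a ∈ M, ∀ b ∈ M, a * b * a⁻¹ * b⁻¹ ∈ scalarSubgroup ρ)
    (hab : ∀ p : ℕ, p.Prime → ∀ Q : Subgroup G, Q ≤ M → IsPGroup p Q → ∀ a ∈ Q, ∀ b ∈ Q,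
      a * b = b * a)
    {a b : G} (ha : a ∈ M) (hb : b ∈ M) : Commute (ρ a) (ρ b) := by
  -- the commutation constant
  have hω : ∀ x ∈ M, ∀ y ∈ M, ∃ ω : ℂ, ρ x * ρ y = ω • (ρ y * ρ x) := by
    intro x hx y hy
    obtain ⟨ω, hω⟩ := (mem_scalarSubgroup ρ).mp (hsc x hx y hy)
    refine ⟨ω, ?_⟩
    rw [← map_mul, ← map_mul, show x * y = x * y * x⁻¹ * y⁻¹ * (y * x) by group, map_mul, hω,
      smul_mul_assoc, one_mul]
  -- elements of prime power order
  have hpp : ∀ p : ℕ, p.Prime → ∀ q : ℕ, q.Prime → ∀ x ∈ M, ∀ y ∈ M,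
      (∃ k, orderOf x = p ^ k) → (∃ l, orderOf y = q ^ l) → Commute (ρ y) (ρ x) := by
    intro p hp q hq x hx y hy ⟨k, hk⟩ ⟨l, hl⟩
    obtain ⟨ω, hωe⟩ := hω x hx y hy
    haveI := Fact.mk hp
    by_cases hpq : p = q
    · subst hpq
      -- move `y` into a Sylow subgroup of `M` containing `x`
      have hxp : IsPGroup p (Subgroup.zpowers (⟨x, hx⟩ : M)) := by
        refine IsPGroup.of_card (n := k) ?_
        rw [Nat.card_zpowers, Subgroup.orderOf_mk, hk]
      have hyp : IsPGroup p (Subgroup.zpowers (⟨y, hy⟩ : M)) := by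
        refine IsPGroup.of_card (n := l) ?_
        rw [Nat.card_zpowers, Subgroup.orderOf_mk, hl]
      obtain ⟨P, hP⟩ := hxp.exists_le_sylow
      obtain ⟨Q, hQ⟩ := hyp.exists_le_sylow
      obtain ⟨m, hm⟩ := MulAction.exists_smul_eq M Q P
      have hxP : (⟨x, hx⟩ : M) ∈ (P : Subgroup M) := hP (Subgroup.mem_zpowers _)
      have hyP : m * ⟨y, hy⟩ * m⁻¹ ∈ (P : Subgroup M) := by
        rw [← hm, Sylow.coe_subgroup_smul]
        exact Subgroup.smul_mem_pointwise_smul _ (MulAut.conj m) _ (hQ (Subgroup.mem_zpowers _))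
      have hcomm : x * ((m : G) * y * (m : G)⁻¹) = (m : G) * y * (m : G)⁻¹ * x :=
        hab p hp ((P : Subgroup M).map M.subtype) (Subgroup.map_subtype_le _)
          (P.isPGroup'.map M.subtype) x ⟨_, hxP, rfl⟩ _ ⟨_, hyP, by simp⟩
      obtain ⟨ν, hν⟩ := (mem_scalarSubgroup ρ).mp (hsc _ m.2 y hy)
      have hy' : ρ ((m : G) * y * (m : G)⁻¹) = ν • ρ y := by
        rw [show (m : G) * y * (m : G)⁻¹ = (m : G) * y * (m : G)⁻¹ * y⁻¹ * y by group, map_mul,
          hν, smul_mul_assoc, one_mul]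
      have hν0 : ν ≠ 0 := by
        rintro rfl
        rw [zero_smul] at hν
        have h1 := congrArg (· * ρ (((m : G) * y * (m : G)⁻¹ * y⁻¹)⁻¹)) hν
        simp only [zero_mul, ← map_mul, mul_inv_cancel, map_one] at h1
        exact one_ne_zero h1
      have h2 : ρ x * (ν • ρ y) = (ν • ρ y) * ρ x := by
        rw [← hy', ← map_mul, ← map_mul, hcomm]
      rw [mul_smul_comm, smul_mul_assoc] at h2
      exact (smul_right_injective _ hν0 h2).symm
    · have hne : ∀ g : G, ρ g ≠ 0 := fun g h => by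
        have h1 := congrArg (· * ρ g⁻¹) h
        simp only [zero_mul, ← map_mul, mul_inv_cancel, map_one] at h1
        exact one_ne_zero h1
      have hconjy : ρ (x * y * x⁻¹) = ω • ρ y := by
        rw [map_mul, map_mul, hωe, smul_mul_assoc, mul_assoc, ← map_mul, mul_inv_cancel, map_one,
          mul_one]
      have hconjx : ρ x = ω • ρ (y * x * y⁻¹) := by
        rw [map_mul, map_mul, ← smul_mul_assoc, ← hωe, mul_assoc, ← map_mul, mul_inv_cancel,
          map_one, mul_one]
      have hωy : ω ^ orderOf y = 1 := by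
        have h1 := congrArg (· ^ orderOf y) hconjy
        simp only [smul_pow, ← map_pow, conj_pow, pow_orderOf_eq_one, mul_one, mul_inv_cancel,
          map_one] at h1
        exact smul_left_injective ℂ (one_ne_zero (α := Module.End ℂ V))
          (show ω ^ orderOf y • (1 : Module.End ℂ V) = (1 : ℂ) • 1 by rw [one_smul, ← h1])
      have hωx : ω ^ orderOf x = 1 := by
        have h1 := congrArg (· ^ orderOf x) hconjx
        simp only [smul_pow, ← map_pow, conj_pow, pow_orderOf_eq_one, mul_one, mul_inv_cancel,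
          map_one] at h1
        exact smul_left_injective ℂ (one_ne_zero (α := Module.End ℂ V))
          (show ω ^ orderOf x • (1 : Module.End ℂ V) = (1 : ℂ) • 1 by rw [one_smul, ← h1])
      have hω1 : ω = 1 := by
        have hcop : (orderOf x).Coprime (orderOf y) := by
          rw [hk, hl]
          exact Nat.Coprime.pow _ _ ((Nat.coprime_primes hp hq).mpr hpq)
        have := pow_gcd_eq_one.mpr ⟨hωx, hωy⟩
        rwa [hcop.gcd_eq_one, pow_one] at this
      rw [hω1, one_smul] at hωe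
      exact hωe.symm
  -- every element commutes with the prime power elements
  have hone : ∀ p : ℕ, p.Prime → ∀ x ∈ M, (∃ k, orderOf x = p ^ k) → M ≤ imageCentralizer ρ x :=
    fun p hp x hx hk => le_of_forall_prime_pow_mem fun q hq y hy hl =>
      (mem_imageCentralizer ρ).mpr (hpp p hp q hq x hx y hy hk hl)
  have hall : M ≤ imageCentralizer ρ b :=
    le_of_forall_prime_pow_mem fun p hp x hx hk =>
      (mem_imageCentralizer ρ).mpr ((mem_imageCentralizer ρ).mp (hone p hp x hx hk hb)).symm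
  exact (mem_imageCentralizer ρ).mp (hall ha)

/-- An irreducible representation with commutative image has degree one. -/
theorem degree_one_of_commute [FiniteDimensional ℂ V] [ρ.IsIrreducible]
    (h : ∀ a b : G, Commute (ρ a) (ρ b)) : Module.finrank ℂ V = 1 := by
  haveI := nontrivial_of_irreducible ρ
  obtain ⟨v, hv⟩ := exists_ne (0 : V)
  rcases subrep_eq_bot_or_eq_top ρ (Submodule.span ℂ {v}) (fun g w hw => by
    obtain ⟨ω, hω⟩ := schur_scalar ρ (ρ g) (fun k => (h g k).eq)
    rw [hω, LinearMap.smul_apply, Module.End.one_apply]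
    exact Submodule.smul_mem _ ω hw) with e | e
  · exact absurd ((Submodule.span_singleton_eq_bot).mp e) hv
  · rw [← finrank_top, ← e, finrank_span_singleton hv]

/-- Restricting an induced irreducible character that stays irreducible on a normal subgroup. -/
theorem isIrr_restrict_inf [Fintype G] (N T : Subgroup G) [Fintype T] [Fintype N]
    {ψ : G → ℂ} (hψ : IsIrrCharacter G ψ)
    (hψN : IsIrrCharacter N (fun x : N => ψ x)) {φ : T → ℂ} (hφ : IsIrrCharacter T φ)
    (hind : indFun T φ = ψ) :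
    IsIrrCharacter (N.subgroupOf T) (fun x : N.subgroupOf T => φ x) := by
  classical
  set D := T.subgroupOf N with hD
  haveI := Fintype.ofFinite D
  haveI := Fintype.ofFinite (N.subgroupOf T)
  set μ : D → ℂ := fun x => φ ⟨((x : N) : G), Subgroup.mem_subgroupOf.mp x.2⟩ with hμd
  let j : D →* T :=
    { toFun := fun x => ⟨((x : N) : G), Subgroup.mem_subgroupOf.mp x.2⟩
      map_one' := rfl
      map_mul' := fun _ _ => rfl }
  have hμ : IsCharacter D μ := isCharacter_comp hφ.isCharacter' j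
  have hψT := isCharacter_restrict hψ.isCharacter' T
  obtain ⟨hcl, hnat⟩ := isCharacter_iff_nat.mp hψT
  have hrest : IsCharacter T (fun x => ψ x - φ x) := by
    refine isCharacter_iff_nat.mpr ⟨fun a b => ?_, fun ξ hξ => ?_⟩
    · show ψ _ - φ _ = ψ _ - φ _
      rw [isCharacter_classFunction hφ.isCharacter' a b]
      exact congrArg (· - φ a) (hcl a b)
    · obtain ⟨n, hn⟩ := hnat ξ hξ
      rw [show (fun x : T => ψ x - φ x) = (fun x : T => ψ x) - φ from rfl, inner_sub_left, hn]
      by_cases he : φ = ξ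
      · subst he
        have h1 : classInner (indFun T φ) ψ = 1 := by rw [hind, irr_inner_self hψ]
        rw [frobenius _ _ (isCharacter_classFunction hψ.isCharacter'),
          inner_comm_of_isCharacter hφ.isCharacter' hψT, hn] at h1
        exact ⟨0, by rw [irr_inner_self hφ, h1]; simp⟩
      · exact ⟨n, by rw [irr_inner_ne hφ hξ he, sub_zero]⟩
  obtain ⟨m, hm⟩ := inner_character_nat hμ (isCharacter_comp hrest j)
  obtain ⟨k, hk⟩ := inner_character_nat hμ hμ
  have hk0 : k ≠ 0 := by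
    intro h0
    rw [h0, Nat.cast_zero, inner_self_eq_zero] at hk
    exact irr_apply_one_ne_zero hφ (congrFun hk 1)
  have hsum : classInner (indFun D μ) (fun x : N => ψ x) = (k : ℂ) + m := by
    rw [frobenius _ _ (isCharacter_classFunction hψN.isCharacter'), ← hk, ← hm,
      ← inner_add_right]
    congr 1
    funext x
    show ψ _ = φ (j x) + (ψ (j x : G) - φ (j x))
    rw [add_sub_cancel]
    rfl
  have hne : classInner (indFun D μ) (fun x : N => ψ x) ≠ 0 := by
    rw [hsum]
    exact_mod_cast fun h : k + m = 0 => hk0 (Nat.eq_zero_of_add_eq_zero_right h)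
  have heq : indFun D μ = fun x : N => ψ x := by
    refine eq_of_constituent_of_degree (isCharacter_indFun hμ) hψN hne ?_
    obtain ⟨d, hd⟩ := exists_degree hφ.isCharacter'
    show (indFun D μ 1).re ≤ (ψ 1).re
    rw [← hind, indFun_one_apply, indFun_one_apply, show μ 1 = φ 1 from congrArg φ (Subtype.ext rfl),
      hd, ← Nat.cast_mul, ← Nat.cast_mul, Complex.natCast_re, Complex.natCast_re]
    refine Nat.cast_le.mpr (Nat.mul_le_mul_right _ ?_)
    rw [← Subgroup.relIndex_top_right T]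
    exact Subgroup.relIndex_le_of_le_right le_top
      (by rw [Subgroup.relIndex_top_right]; exact Subgroup.index_ne_zero_of_finite)
  have h1 : (k : ℂ) + m = 1 := by
    rw [← hsum, heq, irr_inner_self hψN]
  have hk1 : k = 1 := by
    have : k + m = 1 := by exact_mod_cast h1
    omega
  have hμirr : IsIrrCharacter D μ := isIrr_of_inner_self_one hμ (by rw [hk, hk1, Nat.cast_one])
  let e : N.subgroupOf T ≃* D :=
    { toFun := fun x => ⟨⟨((x : T) : G), Subgroup.mem_subgroupOf.mp x.2⟩,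
        Subgroup.mem_subgroupOf.mpr (x : T).2⟩
      invFun := fun x => ⟨⟨((x : N) : G), Subgroup.mem_subgroupOf.mp x.2⟩,
        Subgroup.mem_subgroupOf.mpr (x : N).2⟩
      left_inv := fun _ => rfl
      right_inv := fun _ => rfl
      map_mul' := fun _ _ => rfl }
  exact isIrrCharacter_comp_equiv hμirr e

/-- Being induced from a linear character. -/
def IsMonomialChar [Fintype G] (χ : G → ℂ) : Prop :=
  ∃ (U : Subgroup G) (lam : U → ℂ), IsCharacter U lam ∧ lam 1 = 1 ∧ indFun U lam = χ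

theorem isMonomialChar_indFun [Fintype G] {T : Subgroup G} [Fintype T] {φ : T → ℂ}
    (h : IsMonomialChar φ) : IsMonomialChar (indFun T φ) := by
  obtain ⟨U, lam, hlam, h1, rfl⟩ := h
  refine ⟨U.map T.subtype, _, isCharacter_comp hlam
    (U.equivMapOfInjective T.subtype T.subtype_injective).symm.toMonoidHom, ?_,
    (indFun_map_subtype T U lam).symm⟩
  show lam (((U.equivMapOfInjective T.subtype T.subtype_injective).symm.toMonoidHom) 1) = 1
  rw [map_one, h1]

/-- The main step: either linear, or induced from a proper subgroup. -/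
theorem linear_or_proper [Fintype G] [Group.IsSolvable G] (N : Subgroup G) [hN : N.Normal]
    (hab : ∀ p : ℕ, p.Prime → ∀ Q : Subgroup G, Q ≤ N → IsPGroup p Q → ∀ a ∈ Q, ∀ b ∈ Q,
      a * b = b * a) {ψ : G → ℂ} (hψ : IsIrrCharacter G ψ)
    (hψN : IsIrrCharacter N (fun x : N => ψ x)) :
    ψ 1 = 1 ∨ ∃ T : Subgroup G, T ≠ ⊤ ∧ ∃ φ : T → ℂ, IsIrrCharacter T φ ∧ indFun T φ = ψ := by
  classical
  obtain ⟨d, ρ, hρ, hρψ⟩ := hψ
  haveI := hρ
  haveI := nontrivial_of_irreducible ρ
  haveI := Fintype.ofFinite N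
  by_cases hNZ : N ≤ scalarSubgroup ρ
  · left
    have h1 : ∀ x : N, ‖ψ x‖ = (d : ℝ) := fun x => by
      obtain ⟨c, hc⟩ := (mem_scalarSubgroup ρ).mp (hNZ x.2)
      rw [← hρψ, (norm_rep_char_eq_iff ρ (x : G)).mpr ⟨c, hc⟩, Module.finrank_fin_fun]
    have h := irr_inner_self hψN
    rw [inner_self_eq_norm_sq, Complex.ofReal_eq_one,
      Finset.sum_congr rfl (g := fun _ => (d : ℝ) ^ 2) (fun x _ => by rw [h1]), Finset.sum_const,
      Finset.card_univ, nsmul_eq_mul, ← Nat.card_eq_fintype_card,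
      inv_mul_cancel_left₀ (by exact_mod_cast Nat.card_pos.ne')] at h
    have hd : d = 1 := by
      have : d ^ 2 = 1 := by exact_mod_cast h
      nlinarith
    rw [← hρψ, ρ.char_one, Module.finrank_fin_fun, hd, Nat.cast_one]
  right
  set S : Set (Subgroup G) := {M | M.Normal ∧ M ≤ N ∧ ¬ M ≤ scalarSubgroup ρ} with hS
  obtain ⟨M, hMS, hMmin⟩ :=
    Set.Finite.exists_minimal (Set.toFinite S) ⟨N, hN, le_rfl, hNZ⟩
  obtain ⟨hMn, hMN, hMZ⟩ := hMS
  have hcomm : ⁅M, M⁆ ≤ scalarSubgroup ρ := by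
    by_contra hc
    have h1 : M ≤ ⁅M, M⁆ :=
      hMmin ⟨inferInstance, (Subgroup.commutator_le_self M).trans hMN, hc⟩
        (Subgroup.commutator_le_self M)
    exact hMZ ((eq_bot_of_commutator_eq (le_antisymm (Subgroup.commutator_le_self M) h1)).le.trans
      bot_le)
  have himg : ∀ a b : M, Commute (ρ (a : G)) (ρ (b : G)) := fun a b =>
    image_comm_of_scalar_commutator ρ M
      (fun x hx y hy => hcomm (Subgroup.commutator_mem_commutator hx hy))
      (fun p hp Q hQ => hab p hp Q (hQ.trans hMN)) a.2 b.2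
  haveI := Fintype.ofFinite M
  have hψ' : IsIrrCharacter G ψ := ⟨d, ρ, hρ, hρψ⟩
  obtain ⟨θ, hθ, hcon⟩ := exists_irr_under (H := M) hψ'
  -- `θ` is linear
  have hθ1 : θ 1 = 1 := by
    obtain ⟨e, σ, hσ, hσθ⟩ := hθ
    haveI := hσ
    have hθ' : IsIrrCharacter M θ := ⟨e, σ, hσ, hσθ⟩
    have hker : ∀ a b : M, σ (a * b * a⁻¹ * b⁻¹) = 1 := fun a b => by
      have h0 : ψ ((a * b * a⁻¹ * b⁻¹ : M) : G) = ψ ((1 : M) : G) := by
        rw [← hρψ, OneMemClass.coe_one, char_eq_one_iff]
        push_cast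
        rw [map_mul, map_mul, map_mul, (himg a b).eq, mul_assoc (ρ (b : G)), ← map_mul,
          mul_inv_cancel, map_one, mul_one, ← map_mul, mul_inv_cancel, map_one]
      have h := constituent_ker (isCharacter_restrict hψ'.isCharacter' M) hθ' hcon h0
      rw [← hσθ] at h
      exact (char_eq_one_iff σ _).mp h
    have hc : ∀ a b : M, Commute (σ a) (σ b) := fun a b => by
      show σ a * σ b = σ b * σ a
      rw [← map_mul, ← map_mul, show a * b = a * b * a⁻¹ * b⁻¹ * (b * a) by group, map_mul,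
        hker a b, one_mul]
    rw [← hσθ, σ.char_one, degree_one_of_commute σ hc, Nat.cast_one]
  have hTne : inertia θ ≠ (⊤ : Subgroup G) := by
    intro hT
    refine hMZ fun a ha => (mem_scalarSubgroup ρ).mpr ?_
    have h := restrict_invariant hψ' hθ (fun g n => by
      exact congrFun (mem_inertia.mp (hT ▸ Subgroup.mem_top g : g ∈ inertia θ)) n) hcon
    have h1 := congrFun h 1
    rw [Pi.smul_apply, smul_eq_mul, hθ1, mul_one] at h1
    have ha' := congrFun h ⟨a, ha⟩
    rw [Pi.smul_apply, smul_eq_mul, ← h1] at ha'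
    obtain ⟨f, hf⟩ := exists_hom_of_degree_one hθ.isCharacter' hθ1
    have hn : ‖θ ⟨a, ha⟩‖ = 1 := by
      refine norm_eq_one_of_pow_eq_one' (orderOf_pos (⟨a, ha⟩ : M)) ?_
      rw [hf, ← Units.val_pow_eq_pow_val, ← map_pow, pow_orderOf_eq_one, map_one, Units.val_one]
    have hnorm : ‖ψ a‖ = Module.finrank ℂ (Fin d → ℂ) := by
      rw [show ψ a = _ from ha', norm_mul, hn, mul_one, OneMemClass.coe_one, ← hρψ, ρ.char_one,
        Complex.norm_natCast]
    obtain ⟨ω, hω⟩ := (norm_rep_char_eq_iff ρ a).mp (by rw [hρψ]; exact hnorm)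
    exact ⟨ω, hω⟩
  haveI := Fintype.ofFinite (inertia (G := G) θ)
  obtain ⟨φ, hφ, hind, -⟩ := exists_clifford_correspondent hψ' hθ hcon (inertia θ) rfl
    (le_inertia (isCharacter_classFunction hθ.isCharacter'))
  exact ⟨inertia θ, hTne, φ, hφ, hind⟩

/-- Characters irreducible on a normal subgroup with abelian Sylow subgroups are monomial. -/
theorem monomial_of_restrict : ∀ (n : ℕ) {G : Type u} [Group G] [Fintype G] [Group.IsSolvable G],
    Nat.card G = n → ∀ (N : Subgroup G) [N.Normal],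
    (∀ p : ℕ, p.Prime → ∀ Q : Subgroup G, Q ≤ N → IsPGroup p Q → ∀ a ∈ Q, ∀ b ∈ Q,
      a * b = b * a) →
    ∀ ψ : G → ℂ, IsIrrCharacter G ψ → IsIrrCharacter N (fun x : N => ψ x) →
      IsMonomialChar ψ := by
  intro n
  induction n using Nat.strong_induction_on with
  | _ n ih =>
  intro G _ _ _ hn N hN hab ψ hψ hψN
  haveI := Fintype.ofFinite N
  rcases linear_or_proper N hab hψ hψN with h1 | ⟨T, hT, φ, hφ, hind⟩
  · exact ⟨⊤, fun x => ψ x, isCharacter_restrict hψ.isCharacter' ⊤, h1,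
      indFun_top_restrict (isCharacter_classFunction hψ.isCharacter')⟩
  haveI := Fintype.ofFinite T
  have hlt : Nat.card T < n := by
    rw [← hn]
    by_contra h
    exact hT (Subgroup.eq_top_of_le_card T (not_lt.mp h))
  haveI : (N.subgroupOf T).Normal := hN.subgroupOf T
  have habT : ∀ p : ℕ, p.Prime → ∀ Q : Subgroup T, Q ≤ N.subgroupOf T → IsPGroup p Q →
      ∀ a ∈ Q, ∀ b ∈ Q, a * b = b * a := by
    intro p hp Q hQ hQp a ha b hb
    refine Subtype.ext (hab p hp (Q.map T.subtype) ?_ (hQp.map T.subtype) (a : G) ⟨a, ha, rfl⟩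
      (b : G) ⟨b, hb, rfl⟩)
    rintro _ ⟨x, hx, rfl⟩
    exact hQ hx
  have hm := @ih _ hlt T _ _ inferInstance rfl (N.subgroupOf T) _ habT φ hφ
    (isIrr_restrict_inf N T hψ hψN hφ hind)
  exact hind ▸ isMonomialChar_indFun hm

end CfsgLib.Char
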