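import Cfsg.Agent.Lib.CharMisc
import Cfsg.Agent.Lib.CharGallagher
import Cfsg.Agent.S0173

/-!
# Irreducible characters of a normal subgroup under a coprime cyclic group acting semiregularly
modulo `W₂`
-/

set_option autoImplicit false
set_option linter.style.haveILetI false
set_option linter.unusedSectionVars false
set_option linter.unusedVariables false

namespace CfsgLib.Char

open Cfsg
open scoped ComplexConjugate

universe u

variable {L : Type u} [Group L] [Fintype L]

theorem card_fixed_classes_eq (K W₂ : Subgroup L) [hK : K.Normal] {x : L}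
    (hx : (orderOf x).Coprime (Nat.card K))
    (hC : K ⊓ Subgroup.centralizer ({x} : Set L) = W₂)
    (hab : ∀ a ∈ W₂, ∀ b ∈ W₂, a * b = b * a) :
    Nat.card {C : ConjClasses K // ConjClasses.map
      (MulEquiv.toMonoidHom ((MulAut.conjNormal x : MulAut K))) C = C} = Nat.card W₂ := by
  refine le_antisymm (card_fixed_classes_le K W₂ hx hC) ?_
  have hW : ∀ w ∈ W₂, w ∈ K ∧ w * x = x * w := fun w hw => by
    rw [← hC] at hw
    exact ⟨hw.1, Subgroup.mem_centralizer_singleton_iff.mp hw.2⟩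
  let F : W₂ → {C : ConjClasses K // ConjClasses.map
      (MulEquiv.toMonoidHom ((MulAut.conjNormal x : MulAut K))) C = C} := fun w =>
    ⟨ConjClasses.mk ⟨w, (hW w w.2).1⟩, by
      show ConjClasses.mk ((MulAut.conjNormal x : MulAut K) ⟨w, (hW w w.2).1⟩) = _
      congr 1
      exact Subtype.ext (by rw [MulAut.conjNormal_apply]; simp [← (hW w w.2).2])⟩
  haveI : Finite (ConjClasses K) := Finite.of_surjective _ ConjClasses.mk_surjective
  refine Nat.card_le_card_of_injective F fun w w' h => ?_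
  have hconj := ConjClasses.mk_eq_mk_iff_isConj.mp (congrArg Subtype.val h)
  letI : MulAction L K := MulAction.compHom K (MulAut.conjNormal : L →* MulAut K)
  have hsmul : ∀ (g : L) (k : K), g • k = (MulAut.conjNormal g : MulAut K) k := fun _ _ => rfl
  have hfix : ∀ v : W₂, ∀ a ∈ Subgroup.zpowers x,
      a • (⟨v, (hW v v.2).1⟩ : K) = ⟨v, (hW v v.2).1⟩ := fun v a ha => by
    refine Subtype.ext ?_
    rw [hsmul, MulAut.conjNormal_apply]
    obtain ⟨n, rfl⟩ := Subgroup.mem_zpowers_iff.mp ha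
    have hc : Commute (x ^ n) (v : L) := Commute.zpow_left ((hW v v.2).2.symm) n
    show x ^ n * (v : L) * (x ^ n)⁻¹ = v
    rw [hc.eq, mul_inv_cancel_right]
  let S : Set K := {z | IsConj (⟨w, (hW w w.2).1⟩ : K) z}
  have hinner : ∀ c : L, ∀ hc : c ∈ K, ∀ z : K, c • z = ⟨c, hc⟩ * z * ⟨c, hc⟩⁻¹ := fun c hc z =>
    Subtype.ext (by rw [hsmul, MulAut.conjNormal_apply]; rfl)
  obtain ⟨-, h2⟩ := CfsgLib.Core.glauberman (A := Subgroup.zpowers x) (K := K)
    (fun a _ => by rw [Subgroup.normalizer_eq_top]; trivial) (by rwa [Nat.card_zpowers])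
    (.inl inferInstance) S ⟨_, IsConj.refl _⟩
    (fun a ha z hz => by
      show IsConj _ _
      rw [← hfix w a ha, hsmul, hsmul]
      exact (MulAut.conjNormal a : MulAut K).toMonoidHom.map_isConj hz)
    (fun z hz c hc => by
      rw [hinner c hc]
      exact hz.trans (isConj_iff.mpr ⟨_, rfl⟩))
    (fun y hy z hz => by
      obtain ⟨c, hc⟩ := isConj_iff.mp (hy.symm.trans hz)
      exact ⟨c, c.2, by rw [hinner c c.2]; exact hc⟩)
  obtain ⟨c, hc, hcw⟩ := h2 _ (IsConj.refl _) _ hconj (hfix w) (hfix w')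
  have hcW : c ∈ W₂ := hC ▸ ⟨hc.1, Subgroup.mem_centralizer_singleton_iff.mpr
    (Subgroup.mem_centralizer_iff.mp hc.2 x (Subgroup.mem_zpowers x)).symm⟩
  rw [hsmul] at hcw
  have h3 := congrArg Subtype.val hcw
  rw [MulAut.conjNormal_apply] at h3
  have h4 : c * (w : L) * c⁻¹ = (w' : L) := h3
  rw [hab c hcW w w.2, mul_inv_cancel_right] at h4
  exact Subtype.ext h4

variable (K W₁ W₂ : Subgroup L) [hK : K.Normal]

theorem mem_inertia_iff_fixed {θ : K → ℂ} {x : L} :
    x ∈ inertia θ ↔ (fun k : K => θ ⟨x * k * x⁻¹, hK.conj_mem (k : L) k.2 x⟩) = θ := Iff.rfl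

theorem card_fixed_irr (hC : ∀ x ∈ W₁, x ≠ 1 → K ⊓ Subgroup.centralizer ({x} : Set L) = W₂)
    (hcop : (Nat.card W₁).Coprime (Nat.card K)) (hW₂c : IsCyclic W₂) {x : L} (hx : x ∈ W₁)
    (hx1 : x ≠ 1) : Nat.card {θ : IrrCharacter K // x ∈ inertia (θ : K → ℂ)} = Nat.card W₂ := by
  have hab : ∀ a ∈ W₂, ∀ b ∈ W₂, a * b = b * a := fun a ha b hb => by
    haveI := hW₂c
    exact congrArg Subtype.val (IsCyclic.commGroup.mul_comm (⟨a, ha⟩ : W₂) ⟨b, hb⟩)
  rw [← card_fixed_classes_eq K W₂ (hcop.coprime_dvd_left (W₁.orderOf_dvd_natCard hx)) (hC x hx hx1)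
    hab, Cfsg.Agent.S0173.result (MulAut.conjNormal x : MulAut K)]
  refine Nat.card_congr (Equiv.subtypeEquivRight fun θ => ?_)
  rw [mem_inertia, conjFn_eq_comp]

theorem inertia_le_or_top (hKW₁' : K ⊔ W₁ = ⊤) (hW₁c : IsCyclic W₁)
    (hC : ∀ x ∈ W₁, x ≠ 1 → K ⊓ Subgroup.centralizer ({x} : Set L) = W₂)
    (hcop : (Nat.card W₁).Coprime (Nat.card K)) (hW₂c : IsCyclic W₂) {θ : K → ℂ}
    (hθ : IsIrrCharacter K θ) :
    inertia θ ≤ K ∨ inertia θ = ⊤ := by
  classical
  haveI := Fintype.ofFinite K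
  by_cases hmove : ∀ y ∈ W₁, y ∈ inertia θ → y = 1
  · left
    intro l hl
    have hl' : l ∈ K ⊔ W₁ := by rw [hKW₁']; trivial
    rw [← SetLike.mem_coe, Subgroup.normal_mul, Set.mem_mul] at hl'
    obtain ⟨k, hk, w, hw, rfl⟩ := hl'
    have hkT : k ∈ inertia θ := le_inertia (isCharacter_classFunction hθ.isCharacter') hk
    have hwT : w ∈ inertia θ := by
      have := (inertia θ).mul_mem ((inertia θ).inv_mem hkT) hl
      rwa [inv_mul_cancel_left] at this
    rw [hmove w hw hwT, mul_one]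
    exact hk
  · right
    push Not at hmove
    obtain ⟨y, hy, hyT, hy1⟩ := hmove
    haveI := hW₁c
    obtain ⟨g, hg⟩ := IsCyclic.exists_zpow_surjective (G := W₁)
    have hg1 : (g : L) ≠ 1 := fun e => hy1 (by
      obtain ⟨n, hn⟩ := hg ⟨y, hy⟩
      have h1 : (g : W₁) = 1 := Subtype.ext e
      rw [h1] at hn
      simpa using (congrArg Subtype.val hn).symm)
    have hgall : ∀ θ' : IrrCharacter K, (g : L) ∈ inertia (θ' : K → ℂ) →
        ∀ z ∈ W₁, z ∈ inertia (θ' : K → ℂ) := by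
      intro θ' hg' z hz
      obtain ⟨n, hn⟩ := hg ⟨z, hz⟩
      have : z = (g : L) ^ n := by simpa using (congrArg Subtype.val hn).symm
      exact this ▸ Subgroup.zpow_mem _ hg' n
    haveI : Finite (IrrCharacter K) := finite_irrCharacter
    let F : {θ' : IrrCharacter K // (g : L) ∈ inertia (θ' : K → ℂ)} →
        {θ' : IrrCharacter K // y ∈ inertia (θ' : K → ℂ)} :=
      fun θ' => ⟨θ'.1, hgall θ'.1 θ'.2 y hy⟩
    have hF : Function.Injective F := fun a b h => Subtype.ext (congrArg Subtype.val h :)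
    obtain ⟨θ', hθ'⟩ := (hF.bijective_of_nat_card_le (by
      rw [card_fixed_irr K W₁ W₂ hC hcop hW₂c hy hy1,
        card_fixed_irr K W₁ W₂ hC hcop hW₂c g.2 hg1])).2 ⟨⟨θ, hθ⟩, hyT⟩
    have hgθ : (g : L) ∈ inertia θ := by
      have h := congrArg (fun t : {θ' : IrrCharacter K // y ∈ inertia (θ' : K → ℂ)} => (t.1 : K → ℂ)) hθ'
      simp only [F] at h
      exact h ▸ θ'.2
    rw [eq_top_iff, ← hKW₁']
    exact sup_le (le_inertia (isCharacter_classFunction hθ.isCharacter'))
      fun z hz => hgall ⟨θ, hθ⟩ hgθ z hz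

theorem prime_action_irr (hKW₁ : K ⊓ W₁ = ⊥) (hKW₁' : K ⊔ W₁ = ⊤) (hW₁ : W₁ ≠ ⊥)
    (hW₁c : IsCyclic W₁) (hHall : Nat.Coprime (Nat.card W₁) W₁.index) (hW₂c : IsCyclic W₂)
    (hC : ∀ x ∈ W₁, x ≠ 1 → K ⊓ Subgroup.centralizer ({x} : Set L) = W₂) :
    (∀ θ : K → ℂ, IsIrrCharacter K θ →
        (∃ x ∈ W₁, (fun k : K => θ ⟨x * k * x⁻¹, hK.conj_mem (k : L) k.2 x⟩) ≠ θ) →
        IsIrrCharacter L (indFun K θ)) ∧
      Nat.card {θ : IrrCharacter K //
        ∀ x ∈ W₁, (fun k : K => (θ : K → ℂ) ⟨x * k * x⁻¹, hK.conj_mem (k : L) k.2 x⟩) = θ} =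
          Nat.card W₂ ∧
      (∀ θ : K → ℂ, IsIrrCharacter K θ →
        (∀ x ∈ W₁, (fun k : K => θ ⟨x * k * x⁻¹, hK.conj_mem (k : L) k.2 x⟩) = θ) →
        ∃ C : Finset (L → ℂ), C.card = Nat.card W₁ ∧ (∀ μ ∈ C, IsIrrCharacter L μ) ∧
          indFun K θ = ∑ μ ∈ C, μ) := by
  classical
  haveI := Fintype.ofFinite K
  have hidx : W₁.index = Nat.card K := by
    refine (Subgroup.IsComplement'.index_eq_card ?_)
    exact Subgroup.isComplement'_of_disjoint_and_mul_eq_univ
      (disjoint_iff.mpr hKW₁)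
      (by rw [← Subgroup.normal_mul, hKW₁', Subgroup.coe_top])
  have hcop : (Nat.card W₁).Coprime (Nat.card K) := hidx ▸ hHall
  have hKidx : K.index = Nat.card W₁ := Subgroup.IsComplement'.index_eq_card
    (Subgroup.isComplement'_of_disjoint_and_mul_eq_univ (disjoint_iff.mpr (by rw [inf_comm]; exact hKW₁))
      (by rw [← Subgroup.mul_normal, sup_comm, hKW₁', Subgroup.coe_top]))
  obtain ⟨g₀, hg₀⟩ := (haveI := hW₁c; IsCyclic.exists_zpow_surjective (G := W₁))
  have hg₀1 : (g₀ : L) ≠ 1 := fun e => hW₁ ((Subgroup.eq_bot_iff_forall _).mpr fun z hz => by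
    obtain ⟨n, hn⟩ := hg₀ ⟨z, hz⟩
    rw [show g₀ = 1 from Subtype.ext e] at hn
    simpa using (congrArg Subtype.val hn).symm)
  refine ⟨fun θ hθ hmove => ?_, ?_, fun θ hθ hfix => ?_⟩
  · rcases inertia_le_or_top K W₁ W₂ hKW₁' hW₁c hC hcop hW₂c hθ with h | h
    · exact isIrr_indFun_of_inertia_le hθ h
    · obtain ⟨x, -, hx⟩ := hmove
      exact absurd ((mem_inertia_iff_fixed K).mp (h ▸ Subgroup.mem_top x)) hx
  · rw [← card_fixed_irr K W₁ W₂ hC hcop hW₂c g₀.2 hg₀1]
    refine Nat.card_congr (Equiv.subtypeEquivRight fun θ => ⟨fun h => h g₀ g₀.2, fun h x hx => ?_⟩)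
    obtain ⟨n, hn⟩ := hg₀ ⟨x, hx⟩
    have e : x = (g₀ : L) ^ n := by simpa using (congrArg Subtype.val hn).symm
    have hxT : x ∈ inertia (θ : K → ℂ) := e ▸ Subgroup.zpow_mem _ h n
    exact (mem_inertia_iff_fixed K).mp hxT
  · have htop : inertia θ = ⊤ := by
      rw [eq_top_iff, ← hKW₁']
      exact sup_le (le_inertia (isCharacter_classFunction hθ.isCharacter'))
        fun z hz => (mem_inertia_iff_fixed K).mpr (hfix z hz)
    have hinv : ∀ (g : L) (n : K), θ ⟨g * n * g⁻¹, hK.conj_mem (n : L) n.2 g⟩ = θ n := fun g n =>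
      congrFun ((mem_inertia_iff_fixed K).mp (htop ▸ Subgroup.mem_top g)) n
    have hgen : ∀ g : L, ∃ k : ℤ, (g₀ : L) ^ k * g⁻¹ ∈ K := by
      intro g
      have hl : g ∈ K ⊔ W₁ := by rw [hKW₁']; trivial
      rw [← SetLike.mem_coe, Subgroup.normal_mul, Set.mem_mul] at hl
      obtain ⟨k, hk, w, hw, rfl⟩ := hl
      obtain ⟨n, hn⟩ := hg₀ ⟨w, hw⟩
      have e : w = (g₀ : L) ^ n := by simpa using (congrArg Subtype.val hn).symm
      exact ⟨n, by rw [← e, mul_inv_rev, mul_inv_cancel_left]; exact K.inv_mem hk⟩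
    obtain ⟨χ, hχ, hext⟩ := exists_extension_of_cyclic hθ (fun g n => by
      rw [show MulAut.conjNormal g n = (⟨g * n * g⁻¹, hK.conj_mem (n : L) n.2 g⟩ : K) from
        Subtype.ext (MulAut.conjNormal_apply g n)]
      exact hinv g n) (g₀ : L) hgen
    have hbij := bijOn_mul_extension K (φ := fun _ => 1) isIrrCharacter_one (fun _ _ => rfl)
      (fun g n => hinv g n) (by convert hθ using 1; funext n; simp) hχ hext
    set B := Finset.univ.filter fun β : IrrCharacter L =>
      ∀ a ∈ K, (β : L → ℂ) a = (β : L → ℂ) 1 with hB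
    have hlin : ∀ β ∈ B, (β : L → ℂ) 1 = 1 := by
      intro β hβ
      obtain ⟨β', -, hcomp, hirr⟩ := exists_deflate β.2.isCharacter' (QuotientGroup.mk' K)
        (QuotientGroup.mk'_surjective K)
        (fun k hk => (Finset.mem_filter.mp hβ).2 k (by rwa [QuotientGroup.ker_mk'] at hk))
      rw [← hcomp, Function.comp_apply, map_one]
      have hrep : ∀ q : L ⧸ K, ∃ n : ℤ, q = (QuotientGroup.mk (g₀ : L) : L ⧸ K) ^ n := fun q => by
        obtain ⟨g, rfl⟩ := QuotientGroup.mk_surjective q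
        obtain ⟨n, hn⟩ := hgen g
        refine ⟨n, ?_⟩
        rw [← QuotientGroup.mk_zpow, eq_comm, ← mul_inv_eq_one, ← QuotientGroup.mk_inv,
          ← QuotientGroup.mk_mul]
        exact (QuotientGroup.eq_one_iff _).mpr hn
      refine irr_degree_one_of_comm (fun a b => ?_) (hirr β.2)
      obtain ⟨i, rfl⟩ := hrep a
      obtain ⟨j, rfl⟩ := hrep b
      exact (Commute.refl _).zpow_zpow i j
    have hBcard : B.card = Nat.card W₁ := by
      rw [← hKidx]
      haveI : Fintype (L ⧸ K) := Fintype.ofFinite _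
      let e := inflateEquiv (QuotientGroup.mk' K) (QuotientGroup.mk'_surjective K)
      have h1 : ∀ q : IrrCharacter (L ⧸ K), (q : L ⧸ K → ℂ) 1 = 1 := fun q => by
        have := hlin ((e q).1) (Finset.mem_filter.mpr ⟨Finset.mem_univ _, fun a ha =>
          (e q).2 a (by rwa [QuotientGroup.ker_mk'])⟩)
        show (q : L ⧸ K → ℂ) 1 = 1
        have h2 : ((e q).1 : L → ℂ) 1 = (q : L ⧸ K → ℂ) (QuotientGroup.mk' K 1) := rfl
        rw [h2, map_one] at this
        exact this
      have h2 : Nat.card (IrrCharacter (L ⧸ K)) = K.index := by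
        apply Nat.cast_injective (R := ℂ)
        rw [Subgroup.index_eq_card, ← sum_degree_sq (G := L ⧸ K),
          Finset.sum_congr (s₁ := Finset.univ) rfl fun (q : IrrCharacter (L ⧸ K)) _ =>
          show (q : L ⧸ K → ℂ) 1 ^ 2 = 1 by rw [h1 q, one_pow], Finset.sum_const, Finset.card_univ,
          nsmul_one, Nat.card_eq_fintype_card]
      rw [← h2, Nat.card_congr e, Nat.card_eq_fintype_card, hB, Fintype.card_subtype]
      congr 1
      ext β
      simp [QuotientGroup.ker_mk']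
    have hmult : ∀ β : IrrCharacter L, classInner (indFun K (fun _ => (1 : ℂ))) (β : L → ℂ) =
        if β ∈ B then 1 else 0 := by
      intro β
      rw [frobenius _ _ (isCharacter_classFunction β.2.isCharacter')]
      split_ifs with hβ
      · have : (fun k : K => (β : L → ℂ) k) = fun _ => 1 := funext fun k => by
          rw [(Finset.mem_filter.mp hβ).2 k k.2, hlin β hβ]
        rw [this]; exact irr_inner_self isIrrCharacter_one
      · by_contra hne
        apply hβ
        refine Finset.mem_filter.mpr ⟨Finset.mem_univ _, fun a ha => ?_⟩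
        have hcon : classInner (fun k : K => (β : L → ℂ) k) (fun _ => 1) ≠ 0 := by
          rwa [inner_comm_of_isCharacter (isCharacter_restrict β.2.isCharacter' K) isCharacter_one]
        have hcl := clifford β.2 (θ := fun _ : K => (1 : ℂ)) isIrrCharacter_one hcon
        have e1 := congrFun hcl (⟨a, ha⟩ : K)
        have e2 := congrFun hcl 1
        simp only [Pi.smul_apply, Finset.sum_apply] at e1 e2
        rw [OneMemClass.coe_one] at e2
        rw [e1, e2]
        congr 1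
        exact Finset.sum_congr rfl fun φ hφ => by
          obtain ⟨g, rfl⟩ := mem_conjOrbit.mp hφ; rfl
    have hmem : ∀ β ∈ B, (β : L → ℂ) ∈ {β : L → ℂ | IsIrrCharacter L β ∧
        classInner (indFun K (fun _ => (1 : ℂ))) β ≠ 0} := fun β hβ =>
      ⟨β.2, by rw [hmult β, if_pos hβ]; exact one_ne_zero⟩
    refine ⟨B.image (fun β : IrrCharacter L => (β : L → ℂ) * χ), ?_, ?_, ?_⟩
    · rw [Finset.card_image_of_injOn fun a ha b hb h =>
        Subtype.ext (hbij.injOn (hmem a ha) (hmem b hb) h), hBcard]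
    · intro μ hμ
      obtain ⟨β, hβ, rfl⟩ := Finset.mem_image.mp hμ
      exact (hbij.mapsTo (hmem β hβ)).1
    · rw [Finset.sum_image fun a ha b hb h => Subtype.ext (hbij.injOn (hmem a ha) (hmem b hb) h)]
      have e : indFun K θ = indFun K (fun _ => (1 : ℂ)) * χ := by
        rw [indFun_mul _ χ (isCharacter_classFunction hχ.isCharacter')]
        congr 1
        funext n; simp [hext n]
      rw [e, classFunction_eq_sum _ (indFun_classFunction _), Finset.sum_mul,
        Finset.sum_congr rfl fun β _ => by rw [hmult β, ite_smul, one_smul, zero_smul, ite_mul, zero_mul],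
        Finset.sum_ite_mem, Finset.univ_inter]

end CfsgLib.Char
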