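import Cfsg.Agent.Lib.CharRamified
import Cfsg.Agent.Lib.CharClifford
import Cfsg.Agent.Lib.CharBrauer2

/-!
# Relative M-groups
-/

set_option autoImplicit false
set_option linter.style.haveILetI false
set_option linter.unusedSectionVars false

namespace CfsgLib.Char

open Cfsg
open scoped ComplexConjugate

universe u

variable {G : Type u} [Group G]

/-- Inducing from the whole group changes nothing. -/
theorem indFun_top_restrict [Fintype G] {χ : G → ℂ} (hχ : IsClassFunction G χ) :
    indFun (⊤ : Subgroup G) (fun x : (⊤ : Subgroup G) => χ x) = χ := by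
  funext g
  rw [indFun_apply, Subgroup.card_top, Finset.sum_congr rfl (g := fun _ => χ g) fun x _ => by
    rw [extendByZero_mem _ (Subgroup.mem_top _)]
    show χ (x⁻¹ * g * x) = χ g
    simpa using hχ g x⁻¹]
  rw [Finset.sum_const, Finset.card_univ, nsmul_eq_mul, ← Nat.card_eq_fintype_card,
    inv_mul_cancel_left₀ (natCard_ne_zero G)]

theorem isIrr_restrict_top [Fintype G] {χ : G → ℂ} (hχ : IsIrrCharacter G χ) :
    IsIrrCharacter (⊤ : Subgroup G) (fun x : (⊤ : Subgroup G) => χ x) :=
  isIrrCharacter_comp_equiv hχ Subgroup.topEquiv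

/-- A perfect subgroup of a solvable group is trivial. -/
theorem eq_bot_of_commutator_eq [Group.IsSolvable G] {Q : Subgroup G} (h : ⁅Q, Q⁆ = Q) :
    Q = ⊥ := by
  obtain ⟨n, hn⟩ := (Group.isSolvable_def G).mp inferInstance
  have : ∀ k, Q ≤ derivedSeries G k := fun k => by
    induction k with
    | zero => simp
    | succ k ih =>
      rw [derivedSeries_succ]
      exact h.ge.trans (Subgroup.commutator_mono ih ih)
  exact eq_bot_iff.mpr (hn ▸ this n)

theorem indFun_congr_subgroup [Fintype G] {H H' : Subgroup G} (h : H = H') {θ : H → ℂ} {θ' : H' → ℂ}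
    (hv : ∀ (g : G) (hg : g ∈ H) (hg' : g ∈ H'), θ ⟨g, hg⟩ = θ' ⟨g, hg'⟩) :
    indFun H θ = indFun H' θ' := by
  subst h
  exact congrArg (indFun H) (funext fun x => hv x x.2 x.2)

/-- Transitivity of induction with an explicit identification. -/
theorem indFun_map_subtype [Fintype G] (T : Subgroup G) [Fintype T] (U : Subgroup T) (μ : U → ℂ) :
    indFun T (indFun U μ) = indFun (U.map T.subtype)
      (fun x => μ ((U.equivMapOfInjective T.subtype T.subtype_injective).symm x)) := by
  rw [← indFun_trans (U.map T.subtype) T (Subgroup.map_subtype_le U)]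
  congr 1
  refine indFun_congr_subgroup
    (Subgroup.comap_map_eq_self_of_injective T.subtype_injective U).symm fun g hg hg' => ?_
  refine congrArg μ ?_
  rw [MulEquiv.eq_symm_apply]
  exact Subtype.ext (Subgroup.coe_equivMapOfInjective_apply _ _ T.subtype_injective _)

/-- The chief factor condition of the relative M-group criterion. -/
def NonSquareChief (N : Subgroup G) : Prop :=
  ∀ (H K L : Subgroup G), N ≤ L → L < K → K ≤ H → (∀ h ∈ H, ∀ k ∈ K, h * k * h⁻¹ ∈ K) →
    (∀ h ∈ H, ∀ l ∈ L, h * l * h⁻¹ ∈ L) → (∀ M : Subgroup G, L ≤ M → M ≤ K →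
      (∀ h ∈ H, ∀ m ∈ M, h * m * h⁻¹ ∈ M) → M = L ∨ M = K) → ¬ IsSquare (L.relIndex K)

theorem nonSquareChief_subgroupOf {N : Subgroup G} (hN : NonSquareChief N) {T : Subgroup G}
    (hNT : N ≤ T) : NonSquareChief (N.subgroupOf T) := by
  intro H K L hNL hLK hKH hK hL hmin
  have hinj := Subgroup.map_injective T.subtype_injective
  have hconj : ∀ {A : Subgroup T}, (∀ h ∈ H, ∀ k ∈ A, h * k * h⁻¹ ∈ A) →
      ∀ h ∈ H.map T.subtype, ∀ k ∈ A.map T.subtype, h * k * h⁻¹ ∈ A.map T.subtype := by
    rintro A hA _ ⟨h, hh, rfl⟩ _ ⟨k, hk, rfl⟩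
    exact ⟨h * k * h⁻¹, hA h hh k hk, by simp⟩
  rw [← Subgroup.relIndex_map_map_of_injective _ _ (f := T.subtype) T.subtype_injective]
  refine hN (H.map T.subtype) (K.map T.subtype) (L.map T.subtype) ?_ ?_
    (Subgroup.map_mono hKH) (hconj hK) (hconj hL) ?_
  · rw [← Subgroup.map_subgroupOf_eq_of_le hNT]
    exact Subgroup.map_mono hNL
  · exact lt_of_le_of_ne (Subgroup.map_mono hLK.le) fun e => hLK.ne (hinj e)
  · intro M hLM hMK hM
    have hMT : M ≤ T := hMK.trans (Subgroup.map_subtype_le K)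
    rw [← Subgroup.map_subgroupOf_eq_of_le hMT] at hLM hMK ⊢
    rcases hmin (M.subgroupOf T) ((Subgroup.map_le_map_iff_of_injective T.subtype_injective).mp hLM)
        ((Subgroup.map_le_map_iff_of_injective T.subtype_injective).mp hMK) (fun h hh m hm =>
          Subgroup.mem_subgroupOf.mpr (by
            simpa using hM h ⟨h, hh, rfl⟩ m (Subgroup.mem_subgroupOf.mp hm))) with e | e
    · exact Or.inl (by rw [e])
    · exact Or.inr (by rw [e])

/-- One step down: a character which is reducible on `N` comes from a proper subgroup. -/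
theorem exists_proper_inducing [Fintype G] (N : Subgroup G) [hN : N.Normal]
    (hsolv : Group.IsSolvable (G ⧸ N)) (hns : NonSquareChief N) {χ : G → ℂ}
    (hχ : IsIrrCharacter G χ) (hred : ¬ IsIrrCharacter N (fun n : N => χ n)) :
    ∃ T : Subgroup G, N ≤ T ∧ T ≠ ⊤ ∧
      ∃ ψ : T → ℂ, IsIrrCharacter T ψ ∧ indFun T ψ = χ := by
  classical
  set S : Set (Subgroup G) :=
    {K | K.Normal ∧ N ≤ K ∧ IsIrrCharacter K (fun k : K => χ k)} with hS
  have hne : S.Nonempty := ⟨⊤, inferInstance, le_top, isIrr_restrict_top hχ⟩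
  obtain ⟨K, hKS, hKmin⟩ := Set.Finite.exists_minimal (Set.toFinite S) hne
  obtain ⟨hKn, hNK, hKirr⟩ := hKS
  have hNK' : N < K := lt_of_le_of_ne hNK fun e => hred (by subst e; exact hKirr)
  set S' : Set (Subgroup G) := {L | L.Normal ∧ N ≤ L ∧ L < K} with hS'
  obtain ⟨L, hLS, hLmax⟩ :=
    Set.Finite.exists_maximal (Set.toFinite S') ⟨N, hN, le_rfl, hNK'⟩
  obtain ⟨hLn, hNL, hLK⟩ := hLS
  have hLred : ¬ IsIrrCharacter L (fun x : L => χ x) := fun h =>
    hLK.not_ge (hKmin ⟨hLn, hNL, h⟩ hLK.le)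
  have hchief : ∀ M : Subgroup G, M.Normal → L ≤ M → M ≤ K → M = L ∨ M = K := by
    intro M hMn hLM hMK
    rcases eq_or_lt_of_le hMK with e | hlt
    · exact Or.inr e
    · exact Or.inl (le_antisymm (hLmax ⟨hMn, hNL.trans hLM, hlt⟩ hLM) hLM)
  have hab : ⁅K, K⁆ ≤ L := by
    rcases hchief (⁅K, K⁆ ⊔ L) inferInstance le_sup_right
        (sup_le (Subgroup.commutator_le_self K) hLK.le) with e | e
    · exact sup_eq_right.mp e
    · exfalso
      haveI : Group.IsSolvable (G ⧸ L) := by
        haveI := hsolv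
        exact Group.isSolvable_of_surjective
          (f := QuotientGroup.map N L (MonoidHom.id G) hNL)
          (fun x => by
            obtain ⟨g, rfl⟩ := QuotientGroup.mk_surjective x
            exact ⟨QuotientGroup.mk g, rfl⟩)
      have hperf : ⁅K.map (QuotientGroup.mk' L), K.map (QuotientGroup.mk' L)⁆ =
          K.map (QuotientGroup.mk' L) := by
        rw [← Subgroup.map_commutator]
        conv_rhs => rw [← e, Subgroup.map_sup, QuotientGroup.map_mk'_self, sup_bot_eq]
      have h0 := eq_bot_of_commutator_eq hperf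
      rw [Subgroup.map_eq_bot_iff, QuotientGroup.ker_mk'] at h0
      exact hLK.not_ge h0
  have hinv : ∀ (g : G) (n : K),
      (fun k : K => χ k) ⟨g * n * g⁻¹, hKn.conj_mem (n : G) n.2 g⟩ = (fun k : K => χ k) n :=
    fun g n => isCharacter_classFunction hχ.isCharacter' (n : G) g
  have hsq : ¬ IsSquare (L.relIndex K) :=
    hns ⊤ K L hNL hLK le_top (fun h _ k hk => hKn.conj_mem k hk h)
      (fun h _ l hl => hLn.conj_mem l hl h) fun M h1 h2 h3 =>
      hchief M ⟨fun m hm g => h3 g (Subgroup.mem_top g) m hm⟩ h1 h2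
  rcases going_down K L hLK hchief hab _ hKirr hinv with h | ⟨φ, e, -, -, he⟩ | ⟨F, hF, hcard, hsum⟩
  · exact absurd h hLred
  · exact absurd ⟨e, by rw [← he]; ring⟩ hsq
  · haveI := Fintype.ofFinite L
    obtain ⟨φ, hφF⟩ : F.Nonempty := by
      rw [← Finset.card_pos, hcard]
      exact Nat.pos_of_ne_zero fun h0 => hsq (h0 ▸ ⟨0, rfl⟩)
    have hc : classInner (fun x : L => χ x) φ = 1 := by
      rw [show (fun x : L => χ x) = ∑ φ ∈ F, φ from hsum, inner_sum_left,
        Finset.sum_eq_single φ (fun b hb hne => irr_inner_ne (hF b hb) (hF φ hφF) hne)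
          (fun h => absurd hφF h), irr_inner_self (hF φ hφF)]
    have hφ := hF φ hφF
    refine ⟨inertia φ, hNL.trans (le_inertia (isCharacter_classFunction hφ.isCharacter')), ?_, ?_⟩
    · intro hT
      have h := restrict_invariant hχ hφ (fun g n => by
        exact congrFun (mem_inertia.mp (hT ▸ Subgroup.mem_top g : g ∈ inertia φ)) n)
        (by rw [hc]; exact one_ne_zero)
      rw [hc, one_smul] at h
      exact hLred (h ▸ hφ)
    · haveI := Fintype.ofFinite (inertia (G := G) φ)
      obtain ⟨ψ, hψ, hind, -⟩ := exists_clifford_correspondent hχ hφ (by rw [hc]; exact one_ne_zero)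
        (inertia φ) rfl (le_inertia (isCharacter_classFunction hφ.isCharacter'))
      exact ⟨ψ, hψ, hind⟩

/-- Chief factors of non-square order force a relative M-group. -/
theorem relative_m_group : ∀ (n : ℕ) {G : Type u} [Group G] [Fintype G], Nat.card G = n →
    ∀ (N : Subgroup G) [N.Normal], Group.IsSolvable (G ⧸ N) → NonSquareChief N →
    ∀ χ : G → ℂ, IsIrrCharacter G χ →
      ∃ (H : Subgroup G) (hNH : N ≤ H) (ψ : H → ℂ), IsIrrCharacter H ψ ∧ indFun H ψ = χ ∧
        IsIrrCharacter N (fun n : N => ψ ⟨(n : G), hNH n.2⟩) := by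
  intro n
  induction n using Nat.strong_induction_on with
  | _ n ih =>
  intro G _ _ hn N hN hsolv hns χ hχ
  by_cases hirr : IsIrrCharacter N (fun x : N => χ x)
  · exact ⟨⊤, le_top, _, isIrr_restrict_top hχ,
      indFun_top_restrict (isCharacter_classFunction hχ.isCharacter'), hirr⟩
  obtain ⟨T, hNT, hTtop, ψ, hψ, hind⟩ := exists_proper_inducing N hsolv hns hχ hirr
  haveI := Fintype.ofFinite T
  have hlt : Nat.card T < n := by
    rw [← hn]
    by_contra h
    exact hTtop (Subgroup.eq_top_of_le_card T (not_lt.mp h))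
  haveI : (N.subgroupOf T).Normal := hN.subgroupOf T
  have hsolvT : Group.IsSolvable (T ⧸ N.subgroupOf T) := by
    haveI := hsolv
    have hle : N.subgroupOf T ≤ N.comap T.subtype := fun x hx => hx
    refine Group.isSolvable_of_isSolvable_injective
      (f := QuotientGroup.map (N.subgroupOf T) N T.subtype hle) ?_
    rw [injective_iff_map_eq_one]
    intro q hq
    obtain ⟨x, rfl⟩ := QuotientGroup.mk_surjective q
    rw [QuotientGroup.map_mk, QuotientGroup.eq_one_iff] at hq
    exact (QuotientGroup.eq_one_iff x).mpr hq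
  obtain ⟨U, hNU, μ, hμ, hμind, hμN⟩ :=
    @ih _ hlt T _ _ rfl (N.subgroupOf T) _ hsolvT (nonSquareChief_subgroupOf hns hNT) ψ hψ
  haveI := Fintype.ofFinite U
  set e : U.map T.subtype ≃* U := (U.equivMapOfInjective T.subtype T.subtype_injective).symm
    with hed
  have hes : ∀ x : U.map T.subtype, ((e x : T) : G) = (x : G) := fun x => by
    conv_rhs => rw [← e.symm_apply_apply x]
    exact (Subgroup.coe_equivMapOfInjective_apply _ _ T.subtype_injective (e x)).symm
  have hNU' : N ≤ U.map T.subtype := by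
    rw [← Subgroup.map_subgroupOf_eq_of_le hNT]
    exact Subgroup.map_mono hNU
  refine ⟨U.map T.subtype, hNU', fun x => μ (e x), isIrrCharacter_comp_equiv hμ e,
    by rw [hed, ← indFun_map_subtype, hμind, hind], ?_⟩
  have h := isIrrCharacter_comp_equiv hμN (Subgroup.subgroupOfEquivOfLe hNT).symm
  convert h using 1
  funext x
  exact congrArg μ (Subtype.ext (Subtype.ext (hes ⟨x, hNU' x.2⟩)))

end CfsgLib.Char
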