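import Cfsg.Agent.Lib.CharGalois
import Cfsg.Agent.Lib.CharMisc
import Mathlib.Algebra.CharP.Lemmas
import Mathlib.Data.Nat.Choose.Factorization

/-!
# Schur's bound for rational-valued characters of `p`-groups
-/

set_option autoImplicit false
set_option linter.style.haveILetI false
set_option linter.unusedSectionVars false

namespace CfsgLib.SchurBound

open Cfsg CfsgLib.Char Polynomial

universe u

variable {G : Type u} [Group G]

theorem exists_pow_prime_pow_sum {ι : Type*} (p e : ℕ) (hp : p.Prime) (s : Finset ι) (μ : ι → ℂ)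
    (hμ : ∀ i, IsIntegral ℤ (μ i)) :
    ∃ r : ℂ, IsIntegral ℤ r ∧ (∑ i ∈ s, μ i) ^ (p ^ e) = ∑ i ∈ s, μ i ^ (p ^ e) + p * r := by
  classical
  induction s using Finset.induction_on with
  | empty => exact ⟨0, isIntegral_zero, by simp [hp.ne_zero]⟩
  | insert a s has ih =>
    obtain ⟨r, hr, hs⟩ := ih
    obtain ⟨t, ht⟩ := exists_add_pow_prime_pow_eq (R := integralClosure ℤ ℂ) hp ⟨μ a, hμ a⟩
      ⟨∑ i ∈ s, μ i, IsIntegral.sum _ fun i _ => hμ i⟩ e
    have h' := congrArg (fun x : integralClosure ℤ ℂ => (x : ℂ)) ht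
    push_cast at h'
    refine ⟨r + μ a * (∑ i ∈ s, μ i) * t, hr.add (((hμ a).mul (IsIntegral.sum _ fun i _ => hμ i)).mul t.2), ?_⟩
    rw [Finset.sum_insert has, Finset.sum_insert has, h', hs]
    ring

theorem geom_sum_root {μ : ℂ} {m : ℕ} (h : μ ^ m = 1) :
    ∑ i ∈ Finset.range m, μ ^ i = if μ = 1 then (m : ℂ) else 0 := by
  split_ifs with h1
  · simp [h1]
  · rw [geom_sum_eq h1, h, sub_self, zero_div]

/-- The values of a rational faithful character of a `p`-group are `n - p j` with `1 ≤ j ≤ n/(p-1)`. -/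
theorem value_bound [Finite G] {p a : ℕ} (hp : p.Prime) (hG : Nat.card G = p ^ a) {χ : G → ℂ}
    (hχ : IsCharacter G χ) {n : ℕ} (hn : χ 1 = n) (hfaith : ∀ g : G, χ g = χ 1 → g = 1)
    (hrat : ∀ g : G, ∀ k : ℕ, k.Coprime p → χ (g ^ k) = χ g) {g : G} (hg : g ≠ 1) :
    ∃ j ∈ Finset.Icc 1 (n / (p - 1)), χ g = (n : ℂ) - p * j := by
  classical
  haveI := Fintype.ofFinite G
  obtain ⟨N0, ρ, hρ⟩ := hχ
  have hN0 : N0 = n := by
    have h := hn
    rw [← hρ, ρ.char_one, Module.finrank_fin_fun] at h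
    exact_mod_cast h
  subst hN0
  obtain ⟨e, -, he⟩ := (Nat.dvd_prime_pow hp).mp (hG ▸ orderOf_dvd_natCard g)
  obtain ⟨e, rfl⟩ : ∃ e', e = e' + 1 := by
    rcases Nat.eq_zero_or_pos e with h | h
    · rw [h, pow_zero, orderOf_eq_one_iff] at he; exact absurd he hg
    · exact ⟨e - 1, by omega⟩
  obtain ⟨b, μ, -, hμ, hpow⟩ := exists_rep_eigenbasis ρ g
  rw [he] at hμ
  set d0 := (Finset.univ.filter fun i => μ i = 1).card with hd0
  set d1 := (Finset.univ.filter fun i => μ i ^ p = 1).card with hd1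
  have hd01 : d1 ≤ N0 := by
    rw [hd1]
    refine (Finset.card_filter_le _ _).trans ?_
    simp
  have hS0 : ∑ k ∈ Finset.range (p ^ (e + 1)), χ (g ^ k) = (p : ℂ) ^ (e + 1) * d0 := by
    rw [← hρ]; simp only [hpow]
    rw [Finset.sum_comm]
    simp only [geom_sum_root (hμ _)]
    rw [Finset.sum_ite, Finset.sum_const_zero, add_zero, Finset.sum_const, nsmul_eq_mul]
    push_cast; ring
  have hS1 : ∑ k ∈ Finset.range (p ^ e), χ (g ^ (p * k)) = (p : ℂ) ^ e * d1 := by
    rw [← hρ]; simp only [hpow]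
    simp only [pow_mul]
    rw [Finset.sum_comm]
    have hμ' : ∀ i, (μ i ^ p) ^ (p ^ e) = 1 := fun i => by rw [← pow_mul, ← pow_succ']; exact hμ i
    simp only [geom_sum_root (hμ' _)]
    rw [Finset.sum_ite, Finset.sum_const_zero, add_zero, Finset.sum_const, nsmul_eq_mul]
    push_cast; ring
  have himg : (Finset.range (p ^ (e + 1))).filter (fun k => p ∣ k) =
      (Finset.range (p ^ e)).image (fun k => p * k) := by
    ext k
    simp only [Finset.mem_filter, Finset.mem_range, Finset.mem_image]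
    constructor
    · rintro ⟨hk, c, rfl⟩
      exact ⟨c, lt_of_mul_lt_mul_left (by rwa [pow_succ'] at hk) (Nat.zero_le _), rfl⟩
    · rintro ⟨c, hc, rfl⟩
      exact ⟨by rw [pow_succ']; exact Nat.mul_lt_mul_of_pos_left hc hp.pos, dvd_mul_right _ _⟩
  have hval : ((p : ℂ) - 1) * χ g = (p : ℂ) * d0 - d1 := by
    have h := Finset.sum_filter_add_sum_filter_not (Finset.range (p ^ (e + 1))) (fun k => p ∣ k)
      (fun k => χ (g ^ k))
    rw [hS0, himg, Finset.sum_image (fun x _ y _ h => Nat.eq_of_mul_eq_mul_left hp.pos h), hS1,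
      Finset.sum_congr rfl (g := fun _ => χ g) fun k hk => hrat g k
        ((hp.coprime_iff_not_dvd.mpr (Finset.mem_filter.mp hk).2).symm),
      Finset.sum_const, nsmul_eq_mul] at h
    have hc : ((Finset.range (p ^ (e + 1))).filter (fun k => ¬ p ∣ k)).card = p ^ (e + 1) - p ^ e := by
      rw [Finset.filter_not, Finset.card_sdiff_of_subset (Finset.filter_subset _ _), himg,
        Finset.card_image_of_injective _ (fun x y h => Nat.eq_of_mul_eq_mul_left hp.pos h),
        Finset.card_range, Finset.card_range]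
    rw [hc, Nat.cast_sub (Nat.pow_le_pow_right hp.pos (Nat.le_succ e))] at h
    simp only [Nat.succ_eq_add_one] at h
    push_cast at h
    have hpe : (p : ℂ) ^ e ≠ 0 := pow_ne_zero _ (Nat.cast_ne_zero.mpr hp.ne_zero)
    refine mul_left_cancel₀ hpe ?_
    linear_combination h
  have hp1 : ((p : ℂ) - 1) ≠ 0 := by
    rw [sub_ne_zero]; exact_mod_cast hp.ne_one
  obtain ⟨z, hz⟩ := int_of_isIntegral_rat (((p : ℚ) * d0 - d1) / ((p : ℚ) - 1)) (by
    have : χ g = ((((p : ℚ) * d0 - d1) / ((p : ℚ) - 1) : ℚ) : ℂ) := by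
      push_cast; rw [eq_div_iff hp1, mul_comm]; exact hval
    rw [← this, ← hρ]; exact isIntegral_rep_char ρ g)
  have hzg : χ g = (z : ℂ) := by
    have h2 : ((z : ℚ) : ℂ) = (((p : ℚ) * d0 - d1) / ((p : ℚ) - 1) : ℚ) := by rw [hz]
    push_cast at h2
    rw [eq_div_iff hp1, ← hval, mul_comm] at h2
    exact (mul_left_cancel₀ hp1 h2).symm
  have hzv : ((p : ℤ) - 1) * z = (p : ℤ) * d0 - d1 := by
    rw [hzg] at hval; exact_mod_cast hval
  have hμint : ∀ i, IsIntegral ℤ (μ i) := fun i =>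
    IsIntegral.of_pow (pow_pos hp.pos _) (by rw [hμ i]; exact isIntegral_one)
  obtain ⟨r, hr, hreq⟩ := exists_pow_prime_pow_sum p (e + 1) hp Finset.univ μ hμint
  have hsum : ∑ i, μ i = (z : ℂ) := by
    rw [← hzg, ← hρ]; simpa using (hpow 1).symm
  rw [hsum] at hreq
  simp only [hμ, Finset.sum_const, Finset.card_univ, Fintype.card_fin, Module.finrank_fin_fun,
    nsmul_eq_mul, mul_one] at hreq
  have hdvd : (p : ℤ) ∣ z ^ (p ^ (e + 1)) - N0 := by
    refine intCast_dvd_of_isIntegral_div (by exact_mod_cast hp.ne_zero) ?_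
    push_cast
    rw [hreq, add_sub_cancel_left, mul_div_cancel_left₀ _ (Nat.cast_ne_zero.mpr hp.ne_zero)]
    exact hr
  haveI := Fact.mk hp
  have hmod : (p : ℤ) ∣ (N0 : ℤ) - z := by
    rw [← ZMod.intCast_zmod_eq_zero_iff_dvd] at hdvd ⊢
    push_cast at hdvd ⊢
    rw [ZMod.pow_card_pow] at hdvd
    rw [← neg_sub, hdvd, neg_zero]
  obtain ⟨j, hj⟩ := hmod
  have hle : z ≤ (N0 : ℤ) := by
    have h := re_le_degree (χ := χ) ⟨N0, ρ, hρ⟩ g
    rw [hzg, hn] at h
    simp only [Complex.intCast_re, Complex.natCast_re] at h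
    exact_mod_cast h
  have hne : z ≠ (N0 : ℤ) := fun h => hg (hfaith g (by rw [hzg, hn, h]; norm_cast))
  have hp2 : (2 : ℤ) ≤ p := by exact_mod_cast hp.two_le
  have hj1 : 1 ≤ j := by
    by_contra hcon
    push Not at hcon
    nlinarith [lt_of_le_of_ne hle hne]
  have hj2 : ((p : ℤ) - 1) * j ≤ N0 := by
    have h1 : ((p : ℤ) - 1) * z ≥ - (N0 : ℤ) := by
      have : (d1 : ℤ) ≤ N0 := by exact_mod_cast hd01
      have : (0 : ℤ) ≤ (p : ℤ) * d0 := by positivity
      rw [hzv]; linarith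
    have h2 : (p : ℤ) * (((p : ℤ) - 1) * j) ≤ (p : ℤ) * N0 := by
      have h3 : (p : ℤ) * (((p : ℤ) - 1) * j) = ((p : ℤ) - 1) * ((N0 : ℤ) - z) := by rw [hj]; ring
      rw [h3]; linarith
    exact le_of_mul_le_mul_left h2 (by linarith)
  obtain ⟨j', rfl⟩ := Int.eq_ofNat_of_zero_le (by linarith : 0 ≤ j)
  refine ⟨j', Finset.mem_Icc.mpr ⟨by omega, ?_⟩, ?_⟩
  · rw [Nat.le_div_iff_mul_le (by have := hp.two_le; omega)]
    zify [hp.one_le]
    linarith
  · rw [hzg, show z = (N0 : ℤ) - p * (j' : ℤ) by linarith]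
    push_cast; ring

/-- Sums of polynomial expressions in a character are divisible by the group order. -/
theorem dvd_sum_prod [Fintype G] {χ : G → ℂ} (hχ : IsCharacter G χ) {ι : Type*} (s : Finset ι)
    (c : ι → ℤ) : ∀ ψ : G → ℂ, IsCharacter G ψ →
      ∃ z : ℤ, ∑ g : G, ψ g * ∏ i ∈ s, (χ g - c i) = (Nat.card G : ℂ) * z := by
  classical
  induction s using Finset.induction_on with
  | empty =>
    intro ψ hψ
    obtain ⟨m, hm⟩ := inner_character_nat hψ (isCharacter_one (G := G))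
    refine ⟨m, ?_⟩
    simp only [classInner, map_one, mul_one] at hm
    simp only [Finset.prod_empty, mul_one, Int.cast_natCast]
    rw [← hm, mul_inv_cancel_left₀ (natCard_ne_zero G)]
  | insert a s has ih =>
    intro ψ hψ
    obtain ⟨z1, h1⟩ := ih _ (isCharacter_mul hψ hχ)
    obtain ⟨z2, h2⟩ := ih ψ hψ
    refine ⟨z1 - c a * z2, ?_⟩
    push_cast
    rw [mul_sub, ← h1, ← mul_assoc, mul_comm _ (c a : ℂ), mul_assoc, ← h2, Finset.mul_sum,
      ← Finset.sum_sub_distrib]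
    refine Finset.sum_congr rfl fun g _ => ?_
    rw [Finset.prod_insert has]
    simp only [Pi.mul_apply]
    ring

/-- Schur: a rational faithful character of degree `n` of a group of order `p ^ a`. -/
theorem schur_bound [Finite G] {p a : ℕ} (hp : p.Prime) (hG : Nat.card G = p ^ a) {χ : G → ℂ}
    (hχ : IsCharacter G χ) {n : ℕ} (hn : χ 1 = n) (hfaith : ∀ g : G, χ g = χ 1 → g = 1)
    (hrat : ∀ g : G, ∀ k : ℕ, k.Coprime p → χ (g ^ k) = χ g) :
    a ≤ ∑ i ∈ Finset.range (n + 1), n / ((p - 1) * p ^ i) := by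
  classical
  haveI := Fintype.ofFinite G
  set N := n / (p - 1) with hN
  obtain ⟨z, hz⟩ := dvd_sum_prod hχ (Finset.Icc 1 N) (fun j => (n : ℤ) - p * j) _
    (isCharacter_one (G := G))
  simp only [one_mul, Int.cast_sub, Int.cast_mul, Int.cast_natCast] at hz
  rw [Finset.sum_eq_single (1 : G) (fun g _ hg => by
      obtain ⟨j, hj, hgj⟩ := value_bound hp hG hχ hn hfaith hrat hg
      exact Finset.prod_eq_zero hj (by rw [hgj, sub_self]))
    (fun h => absurd (Finset.mem_univ _) h), hn, hG] at hz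
  simp only [sub_sub_cancel, Finset.prod_mul_distrib, Finset.prod_const, Nat.card_Icc,
    Nat.add_sub_cancel] at hz
  rw [show (∏ j ∈ Finset.Icc 1 N, (j : ℂ)) = (N.factorial : ℂ) by
    rw [← Finset.prod_Ico_id_eq_factorial, Nat.cast_prod]; rfl] at hz
  have hz' : ((p ^ N * N.factorial : ℕ) : ℤ) = ((p ^ a : ℕ) : ℤ) * z := by exact_mod_cast hz
  have hdvd : p ^ a ∣ p ^ N * N.factorial := Int.natCast_dvd_natCast.mp ⟨z, hz'⟩
  have hne : p ^ N * N.factorial ≠ 0 :=
    Nat.mul_ne_zero (pow_ne_zero _ hp.ne_zero) N.factorial_ne_zero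
  rw [hp.pow_dvd_iff_le_factorization hne, Nat.factorization_mul (pow_ne_zero _ hp.ne_zero)
    N.factorial_ne_zero, Finsupp.add_apply, hp.factorization_pow, Finsupp.single_eq_same,
    Nat.factorization_factorial hp (b := n + 1)
      (Nat.lt_succ_of_le ((Nat.log_le_self p N).trans (Nat.div_le_self n _)))] at hdvd
  refine hdvd.trans (le_of_eq ?_)
  rw [Finset.range_eq_Ico, Finset.sum_eq_sum_Ico_succ_bot (Nat.succ_pos n), pow_zero, mul_one, ← hN]
  congr 1
  exact Finset.sum_congr rfl fun i _ => by rw [hN, Nat.div_div_eq_div_mul]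

/-- A character with values in a cyclotomic field of conductor prime to `p`. -/
theorem pRational_pow [Finite G] {p : ℕ} (hp : p.Prime) {χ : G → ℂ} (hχ : IsCharacter G χ) {r : ℕ}
    (hr : 0 < r) (hpr : ¬ p ∣ r)
    (hval : ∀ g : G, χ g ∈ IntermediateField.adjoin ℚ
      ({Complex.exp (2 * Real.pi * Complex.I / r)} : Set ℂ))
    {g : G} {e : ℕ} (hg : orderOf g = p ^ e) {k : ℕ} (hk : k.Coprime p) : χ (g ^ k) = χ g := by
  haveI := Fintype.ofFinite G
  set c := Nat.card G with hc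
  have hc0 : 0 < c := Nat.card_pos
  set M := c * r with hM
  have hM0 : 0 < M := Nat.mul_pos hc0 hr
  set ζ := Complex.exp (2 * Real.pi * Complex.I / M) with hζd
  have hζ : IsPrimitiveRoot ζ M := Complex.isPrimitiveRoot_exp M hM0.ne'
  have hζr : ζ ^ c = Complex.exp (2 * Real.pi * Complex.I / r) := by
    rw [hζd, ← Complex.exp_nat_mul, hM]
    congr 1
    have hc' : (c : ℂ) ≠ 0 := Nat.cast_ne_zero.mpr hc0.ne'
    have hr' : (r : ℂ) ≠ 0 := Nat.cast_ne_zero.mpr hr.ne'
    push_cast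
    field_simp
  have hζc : IsPrimitiveRoot (ζ ^ r) c := hζ.pow hM0 (by rw [hM, mul_comm])
  have hrint : IsPrimitiveRoot (ζ ^ c) r := hζ.pow hM0 hM
  obtain ⟨Q, hQ⟩ := hasGalPoly_char (hc ▸ hζc) hχ g
  have hmem := hval g
  rw [← hζr, ← IntermediateField.mem_toSubalgebra,
    IntermediateField.adjoin_simple_toSubalgebra_of_isAlgebraic
      ((hrint.isIntegral hr).tower_top (A := ℚ)).isAlgebraic,
    Algebra.adjoin_singleton_eq_range_aeval] at hmem
  obtain ⟨R, hR⟩ := hmem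
  replace hR : aeval (ζ ^ c) R = χ g := hR
  have hcop : (p ^ e).Coprime r := (hp.coprime_iff_not_dvd.mpr hpr).pow_left e
  obtain ⟨m0, hm0, hm0'⟩ := Nat.chineseRemainder hcop k 1
  have hm0c : m0.Coprime (p ^ e * r) := by
    refine Nat.Coprime.mul_right ?_ ?_
    · rw [Nat.Coprime, hm0.gcd_eq]; exact hk.pow_right e
    · rw [Nat.Coprime, hm0'.gcd_eq]; exact Nat.coprime_one_left r
  obtain ⟨m, hmc, hmm⟩ := exists_coprime_congr hM0
    (show p ^ e * r ∣ M from Nat.mul_dvd_mul_right (hg ▸ orderOf_dvd_natCard g) r) hm0c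
  have h0 : aeval (ζ ^ 1) (Q.comp (X ^ r) - R.comp (X ^ c)) = ((0 : ℚ) : ℂ) := by
    rw [pow_one, map_sub, aeval_comp, aeval_comp, aeval_X_pow, aeval_X_pow, hR,
      ← pow_one (ζ ^ r), ← hQ 1 (Nat.coprime_one_left _), pow_one, sub_self, Rat.cast_zero]
  rw [pow_one] at h0
  have h1 := aeval_pow_eq_rat hM0 hζ _ _ h0 hmc
  rw [map_sub, aeval_comp, aeval_comp, aeval_X_pow, aeval_X_pow, ← pow_mul, ← pow_mul,
    mul_comm m r, mul_comm m c, pow_mul, pow_mul, ← hQ m (hmc.coprime_dvd_right (Dvd.intro r rfl)),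
    Rat.cast_zero, sub_eq_zero] at h1
  have h2 : g ^ m = g ^ k :=
    pow_eq_pow_iff_modEq.mpr (by rw [hg]; exact (hmm.of_mul_right r).trans hm0)
  have h3 : (ζ ^ c) ^ m = ζ ^ c := by
    conv_rhs => rw [← pow_one (ζ ^ c)]
    have hm1 : m ≡ 1 [MOD r] := (hmm.of_mul_left (p ^ e)).trans hm0'
    exact pow_eq_pow_of_modEq hm1 hrint.pow_eq_one
  rw [h2, h3, hR] at h1
  exact h1

end CfsgLib.SchurBound
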