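import Mathlib

/-!
# The double cover of the alternating group

Gamma operators act on functions of finite subsets with values in `ZMod 3`; differences of two
of them lift transpositions, so the cover is cut out of a finite group of units.
-/

set_option autoImplicit false
set_option linter.unusedSectionVars false

namespace CfsgLib.SpinCover

open scoped commutatorElement

variable {n : ℕ}

/-- The coefficient field. -/
abbrev K := ZMod 3

/-- The space on which everything acts. -/
abbrev V (n : ℕ) := Finset (Fin n) → K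

/-- Left sign. -/
def lsgn (i j : Fin n) : K := if j < i then -1 else 1

/-- Right sign. -/
def rsgn (i j : Fin n) : K := if i < j then -1 else 1

/-- A signed toggle. -/
def tog (g : Fin n → K) (i : Fin n) : Module.End K (V n) where
  toFun f S := (∏ j ∈ S, g j) * f (symmDiff S {i})
  map_add' f h := funext fun S => mul_add _ _ _
  map_smul' c f := funext fun S => mul_left_comm _ _ _

/-- Left gamma operators. -/
def gam (i : Fin n) : Module.End K (V n) := tog (lsgn i) i

/-- Right gamma operators. -/
def rho (i : Fin n) : Module.End K (V n) := tog (rsgn i) i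

/-- Parity operator. -/
def par (n : ℕ) : Module.End K (V n) where
  toFun f S := (∏ _j ∈ S, (-1 : K)) * f S
  map_add' f h := funext fun S => mul_add _ _ _
  map_smul' c f := funext fun S => mul_left_comm _ _ _

theorem tog_apply (g : Fin n → K) (i : Fin n) (f : V n) (S : Finset (Fin n)) :
    tog g i f S = (∏ j ∈ S, g j) * f (symmDiff S {i}) := rfl

theorem par_apply (f : V n) (S : Finset (Fin n)) :
    par n f S = (∏ _j ∈ S, (-1 : K)) * f S := rfl

theorem lsgn_sq (i j : Fin n) : lsgn i j * lsgn i j = 1 := by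
  unfold lsgn; split_ifs <;> ring

theorem rsgn_sq (i j : Fin n) : rsgn i j * rsgn i j = 1 := by
  unfold rsgn; split_ifs <;> ring

theorem prod_toggle (g : Fin n → K) (hg : ∀ j, g j * g j = 1) (S : Finset (Fin n)) (i : Fin n) :
    ∏ j ∈ symmDiff S {i}, g j = g i * ∏ j ∈ S, g j := by
  by_cases hi : i ∈ S
  · rw [show symmDiff S {i} = S.erase i from by
      ext x
      by_cases hx : x = i <;> simp [Finset.mem_symmDiff, hx, hi]]
    rw [← Finset.mul_prod_erase S g hi, ← mul_assoc, hg, one_mul]
  · rw [show symmDiff S {i} = insert i S from by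
      ext x
      by_cases hx : x = i <;> simp [Finset.mem_symmDiff, hx, hi]]
    rw [Finset.prod_insert hi]

theorem tog_mul (g h : Fin n → K) (i j : Fin n) (hg : ∀ k, g k * g k = 1) (hh : ∀ k, h k * h k = 1) :
    tog g i * tog h j = (h i * g j) • (tog h j * tog g i) := by
  refine LinearMap.ext fun f => funext fun S => ?_
  simp only [Module.End.mul_apply, LinearMap.smul_apply, Pi.smul_apply, smul_eq_mul, tog_apply,
    prod_toggle g hg, prod_toggle h hh, symmDiff_right_comm S {i} {j}]
  linear_combination (-(h i * (∏ k ∈ S, g k) * (∏ k ∈ S, h k) *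
    f (symmDiff (symmDiff S {j}) {i}))) * hg j

theorem gam_sq (i : Fin n) : gam i * gam i = 1 := by
  refine LinearMap.ext fun f => funext fun S => ?_
  rw [gam, Module.End.mul_apply, Module.End.one_apply, tog_apply, tog_apply,
    prod_toggle _ (lsgn_sq i), symmDiff_symmDiff_cancel_right,
    show lsgn i i = 1 from if_neg (lt_irrefl i), one_mul, ← mul_assoc, ← Finset.prod_mul_distrib,
    Finset.prod_eq_one (fun j _ => lsgn_sq i j), one_mul]

theorem end_mul_neg (a b : Module.End K (V n)) : a * -b = -(a * b) := mul_neg a b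

theorem end_neg_mul (a b : Module.End K (V n)) : -a * b = -(a * b) := neg_mul a b

theorem end_neg_neg (a : Module.End K (V n)) : - -a = a := neg_neg a

theorem end_three : (1 : Module.End K (V n)) + 1 + 1 = 0 :=
  LinearMap.ext fun f => funext fun S => (by decide : ∀ x : K, x + x + x = 0) (f S)

theorem gam_anti {i j : Fin n} (h : i ≠ j) : gam i * gam j = -(gam j * gam i) := by
  rw [gam, gam, tog_mul _ _ _ _ (lsgn_sq i) (lsgn_sq j),
    show lsgn j i * lsgn i j = -1 from ?_]
  · exact neg_one_smul K (tog (lsgn j) j * tog (lsgn i) i)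
  · rcases lt_or_gt_of_ne h with h' | h' <;> simp [lsgn, h', h'.not_gt]

theorem gam_rho (i j : Fin n) : Commute (gam i) (rho j) := by
  show gam i * rho j = rho j * gam i
  rw [gam, rho, tog_mul _ _ _ _ (lsgn_sq i) (rsgn_sq j), show rsgn j i * lsgn i j = 1 from ?_,
    one_smul]
  unfold rsgn lsgn
  split_ifs <;> ring

theorem gam_par (i : Fin n) : gam i * par n = -(par n * gam i) := by
  refine LinearMap.ext fun f => funext fun S => ?_
  simp only [gam, Module.End.mul_apply, LinearMap.neg_apply, Pi.neg_apply, tog_apply, par_apply,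
    prod_toggle (fun _ => (-1 : K)) (fun _ => by ring)]
  ring

/-- The lift of a transposition. -/
def tt (a b : Fin n) : Module.End K (V n) := gam a - gam b

theorem tt_sq {a b : Fin n} (h : a ≠ b) : tt a b * tt a b = -1 := by
  rw [tt, mul_sub, sub_mul, sub_mul, gam_sq, gam_sq, gam_anti h]
  rw [eq_neg_iff_add_eq_zero, ← end_three (n := n)]
  abel

/-- The lift of a transposition as a unit. -/
def ttU (a b : Fin n) (h : a ≠ b) : (Module.End K (V n))ˣ :=
  ⟨tt a b, -tt a b, by rw [end_mul_neg, tt_sq h, end_neg_neg], by rw [end_neg_mul, tt_sq h, end_neg_neg]⟩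

theorem tt_gam {a b : Fin n} (h : a ≠ b) (i : Fin n) :
    tt a b * gam i = -(gam (Equiv.swap a b i) * tt a b) := by
  by_cases ha : i = a
  · subst ha
    rw [Equiv.swap_apply_left, tt, sub_mul, mul_sub, gam_sq, gam_sq]
    abel
  by_cases hb : i = b
  · subst hb
    rw [Equiv.swap_apply_right, tt, sub_mul, mul_sub, gam_sq, gam_sq]
    abel
  · rw [Equiv.swap_apply_of_ne_of_ne ha hb, tt, sub_mul, mul_sub, gam_anti (Ne.symm ha),
      gam_anti (Ne.symm hb)]
    abel

theorem tt_par (a b : Fin n) : tt a b * par n = -(par n * tt a b) := by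
  rw [tt, sub_mul, mul_sub, gam_par, gam_par]
  abel

theorem tt_rho (a b j : Fin n) : Commute (tt a b) (rho j) :=
  (gam_rho a j).sub_left (gam_rho b j)

/-- The units lifting an even permutation. -/
def Lifts (u : (Module.End K (V n))ˣ) (π : Equiv.Perm (Fin n)) : Prop :=
  (∀ i, SemiconjBy (u : Module.End K (V n)) (gam i) (gam (π i))) ∧
    Commute (u : Module.End K (V n)) (par n) ∧ ∀ i, Commute (u : Module.End K (V n)) (rho i)

theorem lifts_two {a b c d : Fin n} (hab : a ≠ b) (hcd : c ≠ d) :
    Lifts (ttU a b hab * ttU c d hcd) (Equiv.swap a b * Equiv.swap c d) := by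
  refine ⟨fun i => ?_, ?_, fun i => (tt_rho a b i).mul_left (tt_rho c d i)⟩
  · show tt a b * tt c d * gam i = gam (Equiv.swap a b (Equiv.swap c d i)) * (tt a b * tt c d)
    rw [mul_assoc, tt_gam hcd, end_mul_neg, ← mul_assoc, tt_gam hab, end_neg_mul, end_neg_neg, mul_assoc]
  · show tt a b * tt c d * par n = par n * (tt a b * tt c d)
    rw [mul_assoc, tt_par, end_mul_neg, ← mul_assoc, tt_par, end_neg_mul, end_neg_neg, mul_assoc]

theorem exists_lift (π : Equiv.Perm (Fin n)) : ∃ u : (Module.End K (V n))ˣ,
    (∀ i, (u : Module.End K (V n)) * gam i =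
      (Equiv.Perm.sign π : ℤ) • (gam (π i) * (u : Module.End K (V n)))) ∧
    (u : Module.End K (V n)) * par n =
      (Equiv.Perm.sign π : ℤ) • (par n * (u : Module.End K (V n))) ∧
    ∀ i, Commute (u : Module.End K (V n)) (rho i) := by
  induction π using Equiv.Perm.swap_induction_on with
  | one => exact ⟨1, fun i => by simp, by simp, fun i => Commute.one_left _⟩
  | swap_mul f x y hxy ih =>
    obtain ⟨u, h1, h2, h3⟩ := ih
    refine ⟨ttU x y hxy * u, fun i => ?_, ?_, fun i => (tt_rho x y i).mul_left (h3 i)⟩
    · show tt x y * (u : Module.End K (V n)) * gam i = _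
      rw [mul_assoc, h1, mul_smul_comm, ← mul_assoc, tt_gam hxy, Equiv.Perm.sign_mul,
        Equiv.Perm.sign_swap hxy, Units.val_mul, end_neg_mul, mul_assoc]
      simp [Equiv.Perm.mul_apply, ttU]
    · show tt x y * (u : Module.End K (V n)) * par n = _
      rw [mul_assoc, h2, mul_smul_comm, ← mul_assoc, tt_par, Equiv.Perm.sign_mul,
        Equiv.Perm.sign_swap hxy, Units.val_mul, end_neg_mul, mul_assoc]
      simp [ttU]

theorem exists_lift_even (π : alternatingGroup (Fin n)) :
    ∃ u, Lifts u (π : Equiv.Perm (Fin n)) := by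
  obtain ⟨u, h1, h2, h3⟩ := exists_lift (π : Equiv.Perm (Fin n))
  have hs : (Equiv.Perm.sign (π : Equiv.Perm (Fin n)) : ℤ) = 1 := by
    rw [Equiv.Perm.mem_alternatingGroup.mp π.2]; rfl
  rw [hs, one_smul] at h2
  exact ⟨u, fun i => (h1 i).trans (by rw [hs, one_smul]), h2, h3⟩

theorem lifts_one_scalar {u : (Module.End K (V n))ˣ} (h : Lifts u 1) : u = 1 ∨ u = -1 := by
  obtain ⟨h1, h2, h3⟩ := h
  let δ : Finset (Fin n) → V n := fun S => Pi.single S 1
  have hδ : ∀ (g : Fin n → K) (i : Fin n), g i = 1 → tog g i (δ ∅) = δ {i} := by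
    intro g i hi
    refine funext fun T => ?_
    by_cases hT : T = {i}
    · subst hT; simp [δ, tog_apply, hi]
    · have : symmDiff T {i} ≠ ∅ := fun e => hT (symmDiff_eq_bot.mp e)
      simp [δ, tog_apply, Pi.single_apply, this, hT]
  set v := (u : Module.End K (V n)) (δ ∅) with hv
  have hgr : ∀ i, gam i v = rho i v := by
    intro i
    have e1 := LinearMap.congr_fun (h1 i).eq (δ ∅)
    have e2 := LinearMap.congr_fun (h3 i).eq (δ ∅)
    simp only [Module.End.mul_apply, Equiv.Perm.one_apply] at e1 e2
    rw [hv, ← e1, ← e2]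
    exact congrArg _ ((hδ _ i (by simp [lsgn])).trans (hδ _ i (by simp [rsgn])).symm)
  have hneg : ∀ x : K, x = -x → x = 0 := by decide
  have hv0 : ∀ S, S ≠ ∅ → v S = 0 := by
    intro S hS
    have hp : (∏ _j ∈ S, (-1 : K)) * v S = v S := by
      have e := LinearMap.congr_fun h2.eq (δ ∅)
      have hd : par n (δ ∅) = δ ∅ := funext fun T => by
        by_cases hT : T = ∅
        · subst hT; simp [par_apply]
        · simp [δ, par_apply, Pi.single_apply, hT]
      simp only [Module.End.mul_apply, hd] at e
      exact (congrFun e S).symm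
    obtain ⟨i, hi⟩ := Finset.nonempty_iff_ne_empty.mpr hS
    have hq := congrFun (hgr i) (symmDiff S {i})
    simp only [gam, rho, tog_apply, symmDiff_symmDiff_cancel_right] at hq
    have hT : symmDiff S {i} = S.erase i := by
      ext x
      by_cases hx : x = i <;> simp [Finset.mem_symmDiff, hx, hi]
    rw [hT] at hq
    have hlr : (∏ j ∈ S.erase i, lsgn i j) * (∏ j ∈ S.erase i, rsgn i j) =
        ∏ _j ∈ S.erase i, (-1 : K) := by
      rw [← Finset.prod_mul_distrib]
      refine Finset.prod_congr rfl fun j hj => ?_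
      rcases lt_or_gt_of_ne (Finset.ne_of_mem_erase hj) with h' | h' <;>
        simp [lsgn, rsgn, h', h'.not_gt]
    have hl : (∏ j ∈ S.erase i, lsgn i j) * (∏ j ∈ S.erase i, lsgn i j) = 1 := by
      rw [← Finset.prod_mul_distrib]
      exact Finset.prod_eq_one fun j _ => lsgn_sq i j
    rw [← Finset.mul_prod_erase S _ hi] at hp
    refine hneg _ ?_
    linear_combination (∏ j ∈ S.erase i, lsgn i j) * hq - v S * hl + v S * hlr - hp
  have hvc : v = v ∅ • δ ∅ := funext fun S => by
    by_cases hS : S = ∅
    · subst hS; simp [δ]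
    · simp [δ, hS, hv0 S hS, Pi.single_apply]
  have hall : ∀ S, (u : Module.End K (V n)) (δ S) = v ∅ • δ S := by
    intro S
    induction S using Finset.induction_on with
    | empty => exact hv ▸ hvc
    | insert i S hi ih =>
      obtain ⟨k, hk, hkg⟩ : ∃ k : K, k * k = 1 ∧ gam i (δ S) = k • δ (insert i S) := by
        refine ⟨∏ j ∈ insert i S, lsgn i j, ?_, funext fun T => ?_⟩
        · rw [← Finset.prod_mul_distrib]
          exact Finset.prod_eq_one fun j _ => lsgn_sq i j
        · have hiff : symmDiff T {i} = S ↔ T = insert i S := by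
            have hins : symmDiff S {i} = insert i S := by
              ext x
              by_cases hx : x = i <;> simp [Finset.mem_symmDiff, hx, hi]
            constructor
            · rintro rfl; rw [← hins, symmDiff_symmDiff_cancel_right]
            · rintro rfl; rw [← hins, symmDiff_symmDiff_cancel_right]
          by_cases hT : T = insert i S
          · subst hT; simp [δ, gam, tog_apply, hiff.mpr rfl]
          · simp [δ, gam, tog_apply, hT, Pi.single_apply, mt hiff.mp hT]
      have e := LinearMap.congr_fun (h1 i).eq (δ S)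
      simp only [Module.End.mul_apply, Equiv.Perm.one_apply, hkg, ih, map_smul] at e
      have e' := congrArg (k • ·) e
      simpa only [smul_smul, mul_comm (v ∅) k, ← mul_assoc, hk, one_smul, one_mul] using e'
  have huc : (u : Module.End K (V n)) = v ∅ • 1 :=
    (Pi.basisFun K (Finset (Fin n))).ext fun S => by
      rw [Pi.basisFun_apply]; exact hall S
  have hc : ∀ c : K, c ≠ 0 → c = 1 ∨ c = -1 := by decide
  rcases hc (v ∅) (fun e => by
    have h0 := u.isUnit
    rw [huc, e, zero_smul] at h0
    exact not_isUnit_zero h0) with e | e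
  · exact Or.inl (Units.ext (by rw [huc, e, one_smul, Units.val_one]))
  · exact Or.inr (Units.ext (by rw [huc, e]; exact neg_one_smul K (1 : Module.End K (V n))))

/-- The double cover. -/
def cover (n : ℕ) : Subgroup ((Module.End K (V n))ˣ × alternatingGroup (Fin n)) where
  carrier := {x | Lifts x.1 (x.2 : Equiv.Perm (Fin n))}
  one_mem' := ⟨fun i => SemiconjBy.one_left _, Commute.one_left _, fun i => Commute.one_left _⟩
  mul_mem' := fun {x y} hx hy =>
    ⟨fun i => (hx.1 _).mul_left (hy.1 i), hx.2.1.mul_left hy.2.1,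
      fun i => (hx.2.2 i).mul_left (hy.2.2 i)⟩
  inv_mem' := fun {x} hx => by
    refine ⟨fun i => ?_, hx.2.1.units_inv_left, fun i => (hx.2.2 i).units_inv_left⟩
    have h := hx.1 ((x.2 : Equiv.Perm (Fin n))⁻¹ i)
    rw [← Equiv.Perm.mul_apply, mul_inv_cancel, Equiv.Perm.one_apply] at h
    exact h.units_inv_symm_left

theorem exists_double_cover (n : ℕ) (hn : 4 ≤ n) :
    ∃ (Γ : Type) (_ : Group Γ) (_ : Finite Γ) (z : Γ) (_ : z ∈ Subgroup.center Γ),
      orderOf z = 2 ∧ z ∈ commutator Γ ∧ ∃ _ : (Subgroup.zpowers z).Normal,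
        Nonempty (Γ ⧸ Subgroup.zpowers z ≃* alternatingGroup (Fin n)) := by
  haveI : Finite (Module.End K (V n)) :=
    Finite.of_injective (fun f => (f : V n → V n)) DFunLike.coe_injective
  have hneg : Lifts (-1 : (Module.End K (V n))ˣ) 1 :=
    ⟨fun i => (Commute.one_left _).neg_left, (Commute.one_left _).neg_left,
      fun i => (Commute.one_left _).neg_left⟩
  obtain ⟨z, hz⟩ : ∃ z : cover n, z = ⟨(-1, 1), hneg⟩ := ⟨_, rfl⟩
  have hzc : z ∈ Subgroup.center (cover n) := by
    rw [Subgroup.mem_center_iff]
    intro g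
    subst hz
    refine Subtype.ext (Prod.ext (Units.ext ?_) ?_)
    · simp
    · simp
  have hne : z ≠ 1 := by
    intro e
    subst hz
    have h1 := congrArg (fun w : cover n => ((w.1.1 : Module.End K (V n)) (Pi.single ∅ 1)) ∅) e
    simp at h1
    exact (show (-1 : K) ≠ 1 by decide) h1
  have hord : orderOf z = 2 := by
    refine orderOf_eq_prime ?_ hne
    subst hz
    refine Subtype.ext (Prod.ext (Units.ext ?_) ?_)
    · show (-1 : Module.End K (V n)) ^ 2 = 1
      rw [sq, end_mul_neg, mul_one, end_neg_neg]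
    · simp [sq]
  have hcomm : z ∈ commutator (cover n) := by
    let a : Fin n := ⟨0, by omega⟩
    let b : Fin n := ⟨1, by omega⟩
    let c : Fin n := ⟨2, by omega⟩
    let d : Fin n := ⟨3, by omega⟩
    have hab : a ≠ b := by simp [a, b, Fin.ext_iff]
    have hcd : c ≠ d := by simp [c, d, Fin.ext_iff]
    have hac : a ≠ c := by simp [a, c, Fin.ext_iff]
    have hbd : b ≠ d := by simp [b, d, Fin.ext_iff]
    have had : a ≠ d := by simp [a, d, Fin.ext_iff]
    have hbc : b ≠ c := by simp [b, c, Fin.ext_iff]
    have hev : ∀ {x y x' y' : Fin n}, x ≠ y → x' ≠ y' →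
        Equiv.swap x y * Equiv.swap x' y' ∈ alternatingGroup (Fin n) := fun h h' => by
      rw [Equiv.Perm.mem_alternatingGroup, Equiv.Perm.sign_mul, Equiv.Perm.sign_swap h,
        Equiv.Perm.sign_swap h']
      rfl
    let u : cover n := ⟨(ttU a b hab * ttU c d hcd, ⟨_, hev hab hcd⟩), lifts_two hab hcd⟩
    let w : cover n := ⟨(ttU a c hac * ttU b d hbd, ⟨_, hev hac hbd⟩), lifts_two hac hbd⟩
    have hl := (lifts_two hab hcd).1
    have ea : (Equiv.swap a b * Equiv.swap c d) a = b := by
      rw [Equiv.Perm.mul_apply, Equiv.swap_apply_of_ne_of_ne hac had, Equiv.swap_apply_left]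
    have eb : (Equiv.swap a b * Equiv.swap c d) b = a := by
      rw [Equiv.Perm.mul_apply, Equiv.swap_apply_of_ne_of_ne hbc hbd, Equiv.swap_apply_right]
    have ec : (Equiv.swap a b * Equiv.swap c d) c = d := by
      rw [Equiv.Perm.mul_apply, Equiv.swap_apply_left,
        Equiv.swap_apply_of_ne_of_ne had.symm hbd.symm]
    have ed : (Equiv.swap a b * Equiv.swap c d) d = c := by
      rw [Equiv.Perm.mul_apply, Equiv.swap_apply_right,
        Equiv.swap_apply_of_ne_of_ne hac.symm hbc.symm]
    have k1 : ((ttU a b hab * ttU c d hcd : (Module.End K (V n))ˣ) : Module.End K (V n)) * tt a c =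
        tt b d * ((ttU a b hab * ttU c d hcd : (Module.End K (V n))ˣ) : Module.End K (V n)) := by
      have := ((hl a).sub_right (hl c)).eq
      rwa [ea, ec] at this
    have k2 : ((ttU a b hab * ttU c d hcd : (Module.End K (V n))ˣ) : Module.End K (V n)) * tt b d =
        tt a c * ((ttU a b hab * ttU c d hcd : (Module.End K (V n))ˣ) : Module.End K (V n)) := by
      have := ((hl b).sub_right (hl d)).eq
      rwa [eb, ed] at this
    have k3 : tt b d * tt a c = -(tt a c * tt b d) := by
      rw [tt, tt, mul_sub, sub_mul, sub_mul, gam_anti hab.symm, gam_anti had.symm,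
        gam_anti hbc, gam_anti hcd.symm, mul_sub, sub_mul, sub_mul]
      abel
    have huw : u * w = z * (w * u) := by
      subst hz
      refine Subtype.ext (Prod.ext (Units.ext ?_) (Subtype.ext ?_))
      · show ((ttU a b hab * ttU c d hcd : (Module.End K (V n))ˣ) : Module.End K (V n)) *
            (tt a c * tt b d) = -1 * (tt a c * tt b d *
              ((ttU a b hab * ttU c d hcd : (Module.End K (V n))ˣ) : Module.End K (V n)))
        rw [← mul_assoc, k1, mul_assoc, k2, ← mul_assoc, k3]
        noncomm_ring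
      · show Equiv.swap a b * Equiv.swap c d * (Equiv.swap a c * Equiv.swap b d) =
          1 * (Equiv.swap a c * Equiv.swap b d * (Equiv.swap a b * Equiv.swap c d))
        have e1 : Equiv.swap a b * Equiv.swap c d * Equiv.swap a c =
            Equiv.swap b d * (Equiv.swap a b * Equiv.swap c d) := by
          rw [Equiv.mul_swap_eq_swap_mul, ea, ec]
        have e2 : Equiv.swap a b * Equiv.swap c d * Equiv.swap b d =
            Equiv.swap a c * (Equiv.swap a b * Equiv.swap c d) := by
          rw [Equiv.mul_swap_eq_swap_mul, eb, ed]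
        have e3 : Equiv.swap b d * Equiv.swap a c = Equiv.swap a c * Equiv.swap b d := by
          rw [Equiv.mul_swap_eq_swap_mul, Equiv.swap_apply_of_ne_of_ne hab had,
            Equiv.swap_apply_of_ne_of_ne hbc.symm hcd]
        rw [one_mul, ← mul_assoc, e1, mul_assoc, e2, ← mul_assoc, e3]
    have hzeq : z = ⁅u, w⁆ := by
      rw [commutatorElement_def, huw]
      group
    rw [hzeq, commutator_def]
    exact Subgroup.commutator_mem_commutator (Subgroup.mem_top u) (Subgroup.mem_top w)
  obtain ⟨f, hf⟩ : ∃ f : cover n →* alternatingGroup (Fin n), ∀ x, f x = x.1.2 :=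
    ⟨(MonoidHom.snd _ _).comp (cover n).subtype, fun x => rfl⟩
  have hsurj : Function.Surjective f := fun π => by
    obtain ⟨u, hu⟩ := exists_lift_even π
    exact ⟨⟨(u, π), hu⟩, hf _⟩
  have hker : f.ker = Subgroup.zpowers z := by
    refine le_antisymm (fun x hx => ?_) ?_
    · rw [MonoidHom.mem_ker, hf] at hx
      have hl : Lifts x.1.1 (x.1.2 : Equiv.Perm (Fin n)) := x.2
      rw [hx] at hl
      rcases lifts_one_scalar hl with e | e
      · have : x = 1 := Subtype.ext (Prod.ext e hx)
        rw [this]; exact one_mem _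
      · have : x = z := by subst hz; exact Subtype.ext (Prod.ext e hx)
        rw [this]; exact Subgroup.mem_zpowers z
    · rw [Subgroup.zpowers_le, MonoidHom.mem_ker, hf]
      subst hz
      rfl
  have hn' : (Subgroup.zpowers z).Normal := hker ▸ f.normal_ker
  exact ⟨cover n, inferInstance, inferInstance, z, hzc, hord, hcomm, hn',
    ⟨(QuotientGroup.quotientMulEquivOfEq hker.symm).trans
      (QuotientGroup.quotientKerEquivOfSurjective f hsurj)⟩⟩

end CfsgLib.SpinCover
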