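import Cfsg.Agent.Lib.CharBrauer2
import Cfsg.Agent.Lib.CharEquiv
import Mathlib.RepresentationTheory.Maschke
import Mathlib.LinearAlgebra.Matrix.ToLin

/-!
# Brauer's splitting field theorem
-/

set_option autoImplicit false
set_option linter.style.haveILetI false
set_option linter.unusedSectionVars false

namespace CfsgLib.Char

open Cfsg
open scoped ComplexConjugate

universe u v w

variable {F : Type v} [Field F] (φ : F →+* ℂ) {G : Type u} [Group G]

/-- The complex representation defined by a representation over `F`. -/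
noncomputable def baseChangeRep {n : ℕ} (ρ : Representation F G (Fin n → F)) :
    Representation ℂ G (Fin n → ℂ) :=
  (Matrix.toLinAlgEquiv' : Matrix (Fin n) (Fin n) ℂ ≃ₐ[ℂ] _).toMonoidHom.comp
    (φ.mapMatrix.toMonoidHom.comp
      ((LinearMap.toMatrixAlgEquiv' : _ ≃ₐ[F] Matrix (Fin n) (Fin n) F).toMonoidHom.comp ρ))

theorem baseChangeRep_entries {n : ℕ} (ρ : Representation F G (Fin n → F)) (g : G) (i j : Fin n) :
    LinearMap.toMatrix' (baseChangeRep φ ρ g) i j = φ (LinearMap.toMatrix' (ρ g) i j) := by
  show LinearMap.toMatrix' (Matrix.toLin' (φ.mapMatrix (LinearMap.toMatrix' (ρ g)))) i j = _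
  rw [LinearMap.toMatrix'_toLin']
  rfl

theorem baseChangeRep_character {n : ℕ} (ρ : Representation F G (Fin n → F)) (g : G) :
    (baseChangeRep φ ρ).character g = φ (ρ.character g) := by
  show LinearMap.trace ℂ _ (baseChangeRep φ ρ g) = φ (LinearMap.trace F _ (ρ g))
  rw [LinearMap.trace_eq_matrix_trace ℂ (Pi.basisFun ℂ (Fin n)),
    LinearMap.trace_eq_matrix_trace F (Pi.basisFun F (Fin n))]
  simp only [Matrix.trace, Matrix.diag, map_sum]
  refine Finset.sum_congr rfl fun i _ => ?_
  rw [LinearMap.toMatrix_eq_toMatrix', LinearMap.toMatrix_eq_toMatrix', baseChangeRep_entries]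

/-- Being the character of a representation over `F`. -/
def IsRealizable (f : G → ℂ) : Prop :=
  ∃ (n : ℕ) (ρ : Representation F G (Fin n → F)), f = fun g => φ (ρ.character g)

theorem realizable_isCharacter {f : G → ℂ} (h : IsRealizable φ f) : IsCharacter G f := by
  obtain ⟨n, ρ, rfl⟩ := h
  exact ⟨n, baseChangeRep φ ρ, funext fun g => baseChangeRep_character φ ρ g⟩

theorem realizable_of_rep {V : Type w} [AddCommGroup V] [Module F V] [FiniteDimensional F V]
    (ρ : Representation F G V) : IsRealizable φ fun g => φ (ρ.character g) := by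
  let e : V ≃ₗ[F] (Fin (Module.finrank F V) → F) := (Module.finBasis F V).equivFun
  refine ⟨Module.finrank F V, e.conjAlgEquiv F |>.toMonoidHom.comp ρ, funext fun g => congrArg φ ?_⟩
  show LinearMap.trace F V (ρ g) = LinearMap.trace F _ (e.conj (ρ g))
  rw [LinearMap.trace_conj']

theorem realizable_zero : IsRealizable φ (0 : G → ℂ) := by
  refine ⟨0, 1, funext fun g => ?_⟩
  show (0 : ℂ) = φ (LinearMap.trace F _ _)
  rw [show (1 : Representation F G (Fin 0 → F)) g = 0 from Subsingleton.elim _ _, map_zero, map_zero]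

theorem realizable_add {f f' : G → ℂ} (h : IsRealizable φ f) (h' : IsRealizable φ f') :
    IsRealizable φ (f + f') := by
  obtain ⟨n, ρ, rfl⟩ := h
  obtain ⟨m, σ, rfl⟩ := h'
  have h := realizable_of_rep φ (ρ.prod σ)
  convert h using 1
  funext g
  show φ (LinearMap.trace F _ (ρ g)) + φ (LinearMap.trace F _ (σ g)) = _
  rw [← map_add]
  refine congrArg φ ?_
  show _ = LinearMap.trace F _ ((ρ g).prodMap (σ g))
  rw [LinearMap.trace_prodMap']

/-- The trace of the restriction to the range of a projection. -/
theorem realizable_of_proj {V : Type w} [AddCommGroup V] [Module F V] [FiniteDimensional F V]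
    (ρ : Representation F G V) (W : Submodule F V) (hW : ∀ g : G, ∀ v ∈ W, ρ g v ∈ W)
    (P : Module.End F V) (hP : ∀ v, P v ∈ W) (hPW : ∀ v ∈ W, P v = v) :
    IsRealizable φ fun g => φ (LinearMap.trace F V (P ∘ₗ ρ g)) := by
  let S : Subrepresentation ρ := ⟨W, fun g v hv => hW g v hv⟩
  have h := realizable_of_rep φ S.toRepresentation
  convert h using 1
  funext g
  refine congrArg φ ?_
  show _ = LinearMap.trace F W _
  have h1 : P ∘ₗ ρ g = W.subtype ∘ₗ (P.codRestrict W hP ∘ₗ ρ g) := LinearMap.ext fun v => rfl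
  rw [h1, LinearMap.trace_comp_comm']
  congr 1
  refine LinearMap.ext fun v => Subtype.ext ?_
  exact hPW _ (hW g v v.2)

theorem trace_pi_eq {ι : Type w} [Fintype ι] [DecidableEq ι] (T : Module.End F (ι → F)) :
    LinearMap.trace F _ T = ∑ i, T (Pi.single i 1) i := by
  rw [LinearMap.trace_eq_matrix_trace F (Pi.basisFun F ι)]
  refine Finset.sum_congr rfl fun i _ => ?_
  rw [Matrix.diag_apply, LinearMap.toMatrix_apply]
  simp [Pi.basisFun_apply]

/-- A character induced from a linear character with values in `F` is realizable. -/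
theorem realizable_indFun [Fintype G] (H : Subgroup G) (c : H → F) (hc : ∀ a b, c (a * b) = c a * c b)
    (hc1 : c 1 = 1) : IsRealizable φ (indFun H fun h => φ (c h)) := by
  classical
  haveI := Fintype.ofFinite H
  have hcard : (Nat.card H : F) ≠ 0 := by
    haveI : CharZero F := φ.charZero
    exact_mod_cast Nat.card_pos.ne'
  let ρ : Representation F G (G → F) :=
    { toFun := fun x => LinearMap.funLeft F F (fun y : G => y * x)
      map_one' := LinearMap.ext fun f => funext fun y => by simp [LinearMap.funLeft_apply]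
      map_mul' := fun a b => LinearMap.ext fun f => funext fun y => by
        simp [LinearMap.funLeft_apply, mul_assoc] }
  let W : Submodule F (G → F) :=
    { carrier := {f | ∀ (h : H) (y : G), f (h * y) = c h * f y}
      add_mem' := fun {a b} ha hb h y => by
        show a _ + b _ = c h * (a y + b y)
        rw [ha h y, hb h y, mul_add]
      zero_mem' := fun h y => (mul_zero _).symm
      smul_mem' := fun r a ha h y => by
        show r * a _ = c h * (r * a y)
        rw [ha h y]; ring }
  have hcinv : ∀ h : H, c h⁻¹ * c h = 1 := fun h => by rw [← hc, inv_mul_cancel, hc1]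
  let P : Module.End F (G → F) :=
    { toFun := fun f y => (Nat.card H : F)⁻¹ * ∑ h : H, c h⁻¹ * f ((h : G) * y)
      map_add' := fun a b => funext fun y => by
        simp [mul_add, Finset.sum_add_distrib]
      map_smul' := fun r a => funext fun y => by
        simp only [Pi.smul_apply, smul_eq_mul, RingHom.id_apply, Finset.mul_sum]
        exact Finset.sum_congr rfl fun h _ => by ring }
  have hPapply : ∀ f y, P f y = (Nat.card H : F)⁻¹ * ∑ h : H, c h⁻¹ * f ((h : G) * y) :=
    fun f y => rfl
  have h := realizable_of_proj φ ρ W (fun g f hf h y => by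
      show f (↑h * y * g) = c h * f (y * g)
      rw [mul_assoc]; exact hf h (y * g)) P (fun f h y => by
      rw [hPapply, hPapply, mul_left_comm, Finset.mul_sum (a := c h)]
      congr 1
      refine Fintype.sum_equiv (Equiv.mulRight h) _ _ fun k => ?_
      rw [Equiv.coe_mulRight, mul_inv_rev, hc, Subgroup.coe_mul, mul_assoc (k : G),
        ← mul_assoc (c h) (c h⁻¹ * c k⁻¹), ← mul_assoc (c h) (c h⁻¹), mul_comm (c h), hcinv,
        one_mul])
    (fun f hf => funext fun y => by
      rw [hPapply, Finset.sum_congr rfl (g := fun _ => f y) fun h _ => by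
        rw [hf h y, ← mul_assoc, hcinv, one_mul], Finset.sum_const, nsmul_eq_mul, Finset.card_univ,
        ← Nat.card_eq_fintype_card, ← mul_assoc, inv_mul_cancel₀ hcard, one_mul])
  convert h using 1
  funext g
  rw [trace_pi_eq, map_sum, indFun_apply]
  rw [Finset.mul_sum]
  refine Fintype.sum_equiv (Equiv.inv G) _ _ fun x => ?_
  show _ = φ (P (ρ g (Pi.single x⁻¹ 1)) x⁻¹)
  rw [hPapply, map_mul, map_inv₀, map_natCast, map_sum]
  congr 1
  have hterm : ∀ k : H, φ (c k⁻¹ * ρ g (Pi.single x⁻¹ (1 : F)) ((k : G) * x⁻¹)) =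
      if ((k⁻¹ : H) : G) = x⁻¹ * g * x then φ (c k⁻¹) else 0 := fun k => by
    show φ (c k⁻¹ * (Pi.single x⁻¹ (1 : F) : G → F) ((k : G) * x⁻¹ * g)) = _
    have hiff : (k : G) * x⁻¹ * g = x⁻¹ ↔ ((k⁻¹ : H) : G) = x⁻¹ * g * x := by
      rw [InvMemClass.coe_inv]
      constructor <;> intro e
      · rw [eq_comm, ← mul_right_inj (k : G), mul_inv_cancel, ← mul_assoc, ← mul_assoc, e,
          inv_mul_cancel]
      · calc (k : G) * x⁻¹ * g = (k : G) * (x⁻¹ * g * x) * x⁻¹ := by group
          _ = x⁻¹ := by rw [← e, mul_inv_cancel, one_mul]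
    rw [Pi.single_apply]
    split_ifs with h1 h2 h2
    · rw [mul_one]
    · exact absurd (hiff.mp h1) h2
    · exact absurd (hiff.mpr h2) h1
    · rw [mul_zero, map_zero]
  rw [Finset.sum_congr rfl fun k _ => hterm k]
  by_cases hm : x⁻¹ * g * x ∈ H
  · rw [extendByZero_mem _ hm, Finset.sum_eq_single ((⟨_, hm⟩ : H)⁻¹)]
    · rw [inv_inv, if_pos rfl]
    · intro k _ hk
      rw [if_neg]
      exact fun e => hk (inv_eq_iff_eq_inv.mp (Subtype.ext e))
    · exact fun h => absurd (Finset.mem_univ _) h
  · rw [extendByZero_not_mem _ hm, Finset.sum_eq_zero]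
    intro k _
    rw [if_neg fun e : ((k⁻¹ : H) : G) = x⁻¹ * g * x => hm (e ▸ SetLike.coe_mem _)]

/-- A subrepresentation of a representation over a field of characteristic zero splits off. -/
theorem exists_invariant_compl [Finite G] [CharZero F] {V : Type w} [AddCommGroup V] [Module F V]
    (ρ : Representation F G V) (S : Subrepresentation ρ) :
    ∃ T : Subrepresentation ρ, IsCompl S.toSubmodule T.toSubmodule := by
  haveI : NeZero (Nat.card G : F) := ⟨by exact_mod_cast Nat.card_pos.ne'⟩
  obtain ⟨T, hT⟩ := exists_isCompl S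
  refine ⟨T, ⟨?_, ?_⟩⟩
  · rw [disjoint_iff]
    exact congrArg Subrepresentation.toSubmodule hT.inf_eq_bot
  · rw [codisjoint_iff]
    exact congrArg Subrepresentation.toSubmodule hT.sup_eq_top

/-- The character over a field of an internal direct sum. -/
theorem character_of_isCompl_field {V : Type w} [AddCommGroup V] [Module F V]
    [FiniteDimensional F V] (ρ : Representation F G V) (A B : Subrepresentation ρ)
    (h : IsCompl A.toSubmodule B.toSubmodule) (g : G) :
    ρ.character g = A.toRepresentation.character g + B.toRepresentation.character g := by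
  let e := Submodule.prodEquivOfIsCompl _ _ h
  have key : e.conj ((A.toRepresentation g).prodMap (B.toRepresentation g)) = ρ g := by
    refine LinearMap.ext fun v => ?_
    obtain ⟨⟨a, b⟩, rfl⟩ := e.surjective v
    simp [LinearEquiv.conj_apply, e, Submodule.coe_prodEquivOfIsCompl',
      Subrepresentation.toRepresentation]
  show LinearMap.trace F V (ρ g) = _
  rw [← key, LinearMap.trace_conj', LinearMap.trace_prodMap']
  rfl

/-- Equivalent representations over a field have the same character. -/
theorem character_eq_of_equivariant {V : Type w} [AddCommGroup V] [Module F V] [FiniteDimensional F V]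
    {W : Type w} [AddCommGroup W] [Module F W] [FiniteDimensional F W]
    (ρ : Representation F G V) (σ : Representation F G W) (e : V ≃ₗ[F] W)
    (he : ∀ g v, e (ρ g v) = σ g (e v)) (g : G) : ρ.character g = σ.character g := by
  show LinearMap.trace F V (ρ g) = LinearMap.trace F W (σ g)
  rw [← LinearMap.trace_conj' (ρ g) e]
  congr 1
  refine LinearMap.ext fun w => ?_
  rw [LinearEquiv.conj_apply, LinearMap.comp_apply, LinearMap.comp_apply, LinearEquiv.coe_coe,
    LinearEquiv.coe_coe, he, LinearEquiv.apply_symm_apply]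

/-- A common constituent can be cancelled. -/
theorem exists_smaller_difference [Finite G] [CharZero F] {n m : ℕ}
    (ρ : Representation F G (Fin n → F)) (σ : Representation F G (Fin m → F))
    (f : (Fin n → F) →ₗ[F] (Fin m → F)) (hf : ∀ g v, f (ρ g v) = σ g (f v)) (hf0 : f ≠ 0) :
    ∃ (n' m' : ℕ) (ρ' : Representation F G (Fin n' → F)) (σ' : Representation F G (Fin m' → F)),
      m' < m ∧ ∀ g, φ (ρ.character g) - φ (σ.character g) =
        φ (ρ'.character g) - φ (σ'.character g) := by
  let K : Subrepresentation ρ := ⟨LinearMap.ker f, fun g v hv => by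
    rw [LinearMap.mem_ker] at hv ⊢; rw [hf, hv, map_zero]⟩
  let R : Subrepresentation σ := ⟨LinearMap.range f, fun g v hv => by
    obtain ⟨u, rfl⟩ := hv; exact ⟨ρ g u, hf g u⟩⟩
  obtain ⟨C, hC⟩ := exists_invariant_compl ρ K
  obtain ⟨D, hD⟩ := exists_invariant_compl σ R
  have hbij : Function.Bijective (f.rangeRestrict ∘ₗ C.toSubmodule.subtype) := by
    refine ⟨(injective_iff_map_eq_zero _).mpr fun v hv => ?_, fun w => ?_⟩
    · refine Subtype.ext ((Submodule.mem_bot F).mp (hC.inf_eq_bot ▸ Submodule.mem_inf.mpr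
        ⟨?_, v.2⟩))
      exact LinearMap.mem_ker.mpr (congrArg Subtype.val hv)
    · obtain ⟨u, hu⟩ := w.2
      obtain ⟨a, ha, b, hb, rfl⟩ := Submodule.mem_sup.mp
        (hC.sup_eq_top ▸ Submodule.mem_top : u ∈ K.toSubmodule ⊔ C.toSubmodule)
      refine ⟨⟨b, hb⟩, Subtype.ext ?_⟩
      show f b = (w : Fin m → F)
      rw [← hu, map_add, LinearMap.mem_ker.mp ha, zero_add]
  have hchar := character_eq_of_equivariant C.toRepresentation R.toRepresentation
    (LinearEquiv.ofBijective _ hbij) (fun g v => Subtype.ext (hf g v))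
  let bK : K.toSubmodule ≃ₗ[F] (Fin (Module.finrank F K.toSubmodule) → F) :=
    (Module.finBasis F K.toSubmodule).equivFun
  let bD : D.toSubmodule ≃ₗ[F] (Fin (Module.finrank F D.toSubmodule) → F) :=
    (Module.finBasis F D.toSubmodule).equivFun
  refine ⟨_, _, (bK.conjAlgEquiv F).toMonoidHom.comp K.toRepresentation,
    (bD.conjAlgEquiv F).toMonoidHom.comp D.toRepresentation, ?_, fun g => ?_⟩
  · have h1 := Submodule.finrank_add_eq_of_isCompl hD
    have h2 : 0 < Module.finrank F R.toSubmodule := by
      rw [Module.finrank_pos_iff, Submodule.nontrivial_iff_ne_bot]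
      exact fun e => hf0 (LinearMap.range_eq_bot.mp e)
    rw [Module.finrank_fin_fun] at h1
    omega
  · rw [character_of_isCompl_field ρ K C hC g, character_of_isCompl_field σ R D hD g, hchar g]
    show _ = φ (LinearMap.trace F _ (bK.conj (K.toRepresentation g))) -
      φ (LinearMap.trace F _ (bD.conj (D.toRepresentation g)))
    rw [LinearMap.trace_conj', LinearMap.trace_conj', map_add, map_add]
    show φ (LinearMap.trace F _ (K.toRepresentation g)) + _ - _ = _
    ring_nf
    rfl

/-- No equivariant maps forces orthogonality. -/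
theorem inner_eq_zero_of_no_hom [Fintype G] {n m : ℕ} (ρ : Representation F G (Fin n → F))
    (σ : Representation F G (Fin m → F))
    (h : ∀ f : (Fin n → F) →ₗ[F] (Fin m → F), (∀ g v, f (ρ g v) = σ g (f v)) → f = 0) :
    classInner (fun g => φ (σ.character g)) (fun g => φ (ρ.character g)) = 0 := by
  classical
  have hsum : ∑ g : G, σ.character g * ρ.character g⁻¹ = 0 := by
    have havg : ∀ (i : Fin m) (j : Fin n),
        (∑ g : G, σ g ∘ₗ ((LinearMap.proj j).smulRight (Pi.single i 1)) ∘ₗ ρ g⁻¹) = 0 := by
      intro i j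
      refine h _ fun a v => ?_
      simp only [LinearMap.sum_apply, map_sum, LinearMap.comp_apply]
      refine Fintype.sum_equiv (Equiv.mulLeft a⁻¹) _ _ fun g => ?_
      simp only [Equiv.coe_mulLeft, mul_inv_rev, inv_inv, map_mul, Module.End.mul_apply]
      rw [← Module.End.mul_apply (σ a) (σ a⁻¹), ← map_mul, mul_inv_cancel, map_one,
        Module.End.one_apply]
    simp only [Representation.character, trace_pi_eq, Finset.sum_mul, Finset.mul_sum]
    rw [Finset.sum_comm]
    refine Finset.sum_eq_zero fun i _ => ?_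
    rw [Finset.sum_comm]
    refine Finset.sum_eq_zero fun j _ => ?_
    have := congrFun (LinearMap.congr_fun (havg j i) (Pi.single i 1)) j
    simp only [LinearMap.sum_apply, Finset.sum_apply, LinearMap.comp_apply, LinearMap.smulRight_apply,
      LinearMap.proj_apply, map_smul, Pi.smul_apply, smul_eq_mul, LinearMap.zero_apply,
      Pi.zero_apply] at this
    refine Eq.trans ?_ this
    exact Finset.sum_congr rfl fun g _ => mul_comm _ _
  rw [classInner, mul_eq_zero]
  right
  rw [Finset.sum_congr rfl (g := fun g => φ (σ.character g * ρ.character g⁻¹)) fun g _ => by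
    rw [map_mul, ← baseChangeRep_character φ ρ g, ← baseChangeRep_character φ ρ g⁻¹,
      char_inv_eq_conj], ← map_sum, hsum, map_zero]

/-- An irreducible character that is a difference of realizable ones is realizable. -/
theorem realizable_of_difference [Fintype G] : ∀ (m : ℕ) {n : ℕ}
    (ρ : Representation F G (Fin n → F)) (σ : Representation F G (Fin m → F)),
    IsIrrCharacter G (fun g => φ (ρ.character g) - φ (σ.character g)) →
    IsRealizable φ fun g => φ (ρ.character g) - φ (σ.character g) := by
  intro m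
  induction m using Nat.strong_induction_on with
  | _ m ih =>
  intro n ρ σ hirr
  haveI : CharZero F := φ.charZero
  by_cases hhom : ∃ f : (Fin n → F) →ₗ[F] (Fin m → F), (∀ g v, f (ρ g v) = σ g (f v)) ∧ f ≠ 0
  · obtain ⟨f, hf, hf0⟩ := hhom
    obtain ⟨n', m', ρ', σ', hlt, he⟩ := exists_smaller_difference φ ρ σ f hf hf0
    rw [funext he] at hirr ⊢
    exact ih m' hlt ρ' σ' hirr
  push Not at hhom
  set A : G → ℂ := fun g => φ (ρ.character g) with hA
  set B : G → ℂ := fun g => φ (σ.character g) with hB
  have hAc : IsCharacter G A := realizable_isCharacter φ ⟨n, ρ, rfl⟩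
  have hBc : IsCharacter G B := realizable_isCharacter φ ⟨m, σ, rfl⟩
  have hBA : classInner B A = 0 := inner_eq_zero_of_no_hom φ ρ σ hhom
  have h1 : classInner (A - B) (A - B) = 1 := irr_inner_self hirr
  obtain ⟨a, ha⟩ := inner_character_nat hAc hAc
  obtain ⟨b, hb⟩ := inner_character_nat hBc hBc
  rw [inner_sub_left, inner_sub_right, inner_sub_right, inner_comm_of_isCharacter hAc hBc, hBA, ha,
    hb, sub_zero, zero_sub, sub_neg_eq_add] at h1
  have hab : a + b = 1 := by exact_mod_cast h1
  rcases Nat.eq_zero_or_pos b with hb0 | hb0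
  · rw [hb0, Nat.cast_zero, inner_self_eq_zero] at hb
    exact ⟨n, ρ, funext fun g => by rw [show φ (σ.character g) = 0 from congrFun hb g, sub_zero]⟩
  · exfalso
    have ha0 : a = 0 := by omega
    rw [ha0, Nat.cast_zero, inner_self_eq_zero] at ha
    obtain ⟨d, hd, hd1⟩ := exists_degree_pos hirr
    obtain ⟨e, he⟩ := exists_degree hBc
    have h2 : ((d + e : ℕ) : ℂ) = 0 := by
      push_cast
      rw [← hd1, ← he]
      show φ (ρ.character 1) - φ (σ.character 1) + φ (σ.character 1) = 0
      rw [show φ (ρ.character 1) = 0 from congrFun ha 1]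
      ring
    have h3 : d + e = 0 := by exact_mod_cast h2
    omega

/-- Every character is realizable over a field containing the values of all linear characters. -/
theorem isRealizable_of_character [Fintype G]
    (hroots : ∀ z : ℂ, z ^ Monoid.exponent G = 1 → z ∈ Set.range φ) {χ : G → ℂ}
    (hχ : IsCharacter G χ) : IsRealizable φ χ := by
  classical
  have hdiff : ∀ f ∈ monSpan (G := G), ∃ a b : G → ℂ,
      IsRealizable φ a ∧ IsRealizable φ b ∧ f = a - b := by
    intro f hf
    induction hf using AddSubgroup.closure_induction with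
    | mem f hf =>
      obtain ⟨p, E, l, -, -, rfl⟩ := hf
      have hval : ∀ e : E, ∃ x : F, φ x = (l e : ℂ) := fun e => hroots _ (by
        rw [← Units.val_pow_eq_pow_val, ← map_pow]
        have : e ^ Monoid.exponent G = 1 := Subtype.ext (by simp [Monoid.pow_exponent_eq_one])
        rw [this, map_one, Units.val_one])
      choose c hc using hval
      refine ⟨_, 0, realizable_indFun φ E c (fun a b => φ.injective ?_) (φ.injective ?_),
        realizable_zero φ, ?_⟩
      · rw [map_mul φ, hc, hc, hc, map_mul l, Units.val_mul]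
      · rw [hc, map_one l, map_one φ, Units.val_one]
      · rw [sub_zero]
        exact congrArg (indFun E) (funext fun e => (hc e).symm)
    | zero => exact ⟨0, 0, realizable_zero φ, realizable_zero φ, (sub_zero 0).symm⟩
    | add a b _ _ iha ihb =>
      obtain ⟨a1, a2, h1, h2, rfl⟩ := iha
      obtain ⟨b1, b2, h3, h4, rfl⟩ := ihb
      exact ⟨a1 + b1, a2 + b2, realizable_add φ h1 h3, realizable_add φ h2 h4, by abel⟩
    | neg a _ iha =>
      obtain ⟨a1, a2, h1, h2, rfl⟩ := iha
      exact ⟨a2, a1, h2, h1, by abel⟩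
  have hirr : ∀ ξ : G → ℂ, IsIrrCharacter G ξ → IsRealizable φ ξ := by
    intro ξ hξ
    obtain ⟨a, b, ⟨n, ρ, rfl⟩, ⟨m, σ, rfl⟩, rfl⟩ := hdiff ξ (brauer_induction hξ.isCharacter')
    exact realizable_of_difference φ m ρ σ hξ
  rw [classFunction_eq_sum χ (isCharacter_classFunction hχ)]
  refine Finset.sum_induction _ (IsRealizable φ) (fun a b => realizable_add φ) (realizable_zero φ)
    fun ξ _ => ?_
  obtain ⟨k, hk⟩ := inner_character_nat hχ ξ.2.isCharacter'
  rw [hk, Nat.cast_smul_eq_nsmul]
  clear hk
  induction k with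
  | zero => rw [zero_smul]; exact realizable_zero φ
  | succ k ihk => rw [succ_nsmul]; exact realizable_add φ ihk (hirr _ ξ.2)

/-- Brauer's splitting field theorem. -/
theorem exists_cyclotomic_model [Finite G] (n : ℕ) (ρ : Representation ℂ G (Fin n → ℂ)) :
    ∃ σ : Representation ℂ G (Fin n → ℂ), Nonempty (ρ.Equiv σ) ∧ ∀ g : G, ∀ i j : Fin n,
      LinearMap.toMatrix' (σ g) i j ∈ Algebra.adjoin ℚ
        ({Complex.exp (2 * Real.pi * Complex.I / (Monoid.exponent G : ℂ))} : Set ℂ) := by
  haveI := Fintype.ofFinite G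
  have hm : Monoid.exponent G ≠ 0 := Monoid.exponent_ne_zero_of_finite
  haveI : NeZero (Monoid.exponent G) := ⟨hm⟩
  set ζ : ℂ := Complex.exp (2 * Real.pi * Complex.I / (Monoid.exponent G : ℂ)) with hζdef
  have hζ : IsPrimitiveRoot ζ (Monoid.exponent G) := Complex.isPrimitiveRoot_exp _ hm
  let K : IntermediateField ℚ ℂ := IntermediateField.adjoin ℚ {ζ}
  have hK : K.toSubalgebra = Algebra.adjoin ℚ ({ζ} : Set ℂ) :=
    IntermediateField.adjoin_simple_toSubalgebra_of_isAlgebraic
      (hζ.isIntegral (Nat.pos_of_ne_zero hm)).tower_top.isAlgebraic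
  let ψ : K →+* ℂ := K.val.toRingHom
  have hroots : ∀ z : ℂ, z ^ Monoid.exponent G = 1 → z ∈ Set.range ψ := fun z hz => by
    obtain ⟨i, -, rfl⟩ := hζ.eq_pow_of_pow_eq_one hz
    exact ⟨⟨ζ ^ i, pow_mem (IntermediateField.mem_adjoin_simple_self ℚ ζ) i⟩, rfl⟩
  obtain ⟨k, τ, hτ⟩ := isRealizable_of_character ψ hroots (isCharacter_rep ρ)
  have hkn : k = n := by
    have h1 := congrFun hτ 1
    rw [← baseChangeRep_character ψ τ 1, ρ.char_one, (baseChangeRep ψ τ).char_one,
      Module.finrank_fin_fun, Module.finrank_fin_fun] at h1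
    exact_mod_cast h1.symm
  subst hkn
  refine ⟨baseChangeRep ψ τ, equiv_of_char_eq _ _ _ ρ (baseChangeRep ψ τ) rfl
    (funext fun g => by rw [baseChangeRep_character]; exact congrFun hτ g), fun g i j => ?_⟩
  rw [baseChangeRep_entries, ← hK]
  exact (LinearMap.toMatrix' (τ g) i j).2

end CfsgLib.Char
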