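import Cfsg.Agent.Lib.CharTIExist
import Cfsg.Agent.Lib.CharCohUnion
import Cfsg.Agent.Lib.CharMisc

/-!
# A cyclic complement with constant fixed points: the characters of `L` on `W ∖ W₂`
-/

set_option autoImplicit false
set_option linter.style.haveILetI false
set_option linter.unusedSectionVars false

namespace CfsgLib.Char

open Cfsg
open scoped ComplexConjugate

universe u

variable {L : Type u} [Group L] {W₁ W₂ : Subgroup L}

/-- Elements of `W` outside `W₂` have no fusion outside `W`. -/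
theorem compl_conj_mem [Finite L] (K : Subgroup L) [hK : K.Normal] (hKW₁ : K ⊓ W₁ = ⊥)
    (hKW₁' : K ⊔ W₁ = ⊤) (hcop : (Nat.card W₁).Coprime (Nat.card W₂)) (hW₂K : W₂ ≤ K)
    (hC : ∀ x ∈ W₁, x ≠ 1 → K ⊓ Subgroup.centralizer ({x} : Set L) = W₂)
    (hW : IsSelfNormalizingCyclic W₁ W₂) {v : ↥(W₁ ⊔ W₂)} (hv : (v : L) ∉ W₂) {x : L}
    (hxW : x⁻¹ * v * x ∈ W₁ ⊔ W₂) : x ∈ W₁ ⊔ W₂ := by
  obtain ⟨-, -, -, hcomm, hcyc, -⟩ := hW
  letI := @IsCyclic.commGroup _ _ hcyc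
  have hx' : x⁻¹ ∈ K ⊔ W₁ := hKW₁' ▸ Subgroup.mem_top _
  rw [← SetLike.mem_coe, Subgroup.normal_mul] at hx'
  obtain ⟨k, hk, w, hw, hkw⟩ := hx'
  suffices hkW : k ∈ W₁ ⊔ W₂ by
    have h : x⁻¹ ∈ W₁ ⊔ W₂ := hkw ▸ Subgroup.mul_mem _ hkW (Subgroup.mem_sup_left hw)
    simpa using Subgroup.inv_mem _ h
  have hwv : w * v * w⁻¹ = v := by
    have := mul_comm (⟨w, Subgroup.mem_sup_left hw⟩ : ↥(W₁ ⊔ W₂)) v
    rw [show w * v = v * w from congrArg Subtype.val this, mul_inv_cancel_right]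
  have hy : k * v * k⁻¹ ∈ W₁ ⊔ W₂ := by
    have h1 : x⁻¹ * v * x = k * (w * v * w⁻¹) * k⁻¹ := by
      rw [← inv_inv x, ← hkw]; group
    rw [← hwv]
    rwa [← h1]
  have hnorm : W₁ ≤ Subgroup.normalizer (W₂ : Set L) := fun a ha =>
    Subgroup.centralizer_le_normalizer _ (Subgroup.mem_centralizer_iff.mpr fun b hb =>
      (hcomm a ha b hb).symm)
  obtain ⟨a, ha, b, hb, he⟩ := (CfsgLib.Core.mem_sup_iff_of_le_normalizer hnorm).mp v.2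
  obtain ⟨a', ha', b', hb', he'⟩ := (CfsgLib.Core.mem_sup_iff_of_le_normalizer hnorm).mp hy
  rw [← he] at he'
  have ha1 : a ≠ 1 := fun e => hv (by rw [← he, e, one_mul]; exact hb)
  have haa : a' = a := by
    have h1 : a'⁻¹ * a ∈ K ⊓ W₁ := by
      refine ⟨?_, W₁.mul_mem (W₁.inv_mem ha') ha⟩
      have h2 : a'⁻¹ * a = b' * (k * b⁻¹ * k⁻¹) * (k * (a⁻¹ * k⁻¹ * a)) := by
        have e1 : b' = a'⁻¹ * (k * (a * b) * k⁻¹) := by rw [← he']; group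
        rw [e1]; group
      rw [h2]
      exact K.mul_mem (K.mul_mem (hW₂K hb') (hK.conj_mem _ (K.inv_mem (hW₂K hb)) k))
        (K.mul_mem hk (by simpa using hK.conj_mem _ (K.inv_mem hk) a⁻¹))
    rw [hKW₁, Subgroup.mem_bot, inv_mul_eq_one] at h1
    exact h1
  subst haa
  obtain ⟨m, hm1, hm2⟩ := Nat.chineseRemainder hcop 1 0
  have hpa : a' ^ m = a' := by
    have h := pow_eq_pow_iff_modEq.mpr (hm1.of_dvd
      (show orderOf (⟨a', ha⟩ : W₁) ∣ Nat.card W₁ from orderOf_dvd_natCard _))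
    simpa using congrArg Subtype.val h
  have hpb : ∀ c ∈ W₂, c ^ m = 1 := fun c hc => by
    have h := pow_eq_pow_iff_modEq.mpr (hm2.of_dvd
      (show orderOf (⟨c, hc⟩ : W₂) ∣ Nat.card W₂ from orderOf_dvd_natCard _))
    simpa using congrArg Subtype.val h
  have hconj : k * a' * k⁻¹ = a' := by
    have h := congrArg (· ^ m) he'
    simp only [conj_pow, (show Commute a' b' from hcomm _ ha' _ hb').mul_pow,
      (show Commute a' b from hcomm _ ha _ hb).mul_pow, hpa, hpb b hb, hpb b' hb', mul_one] at h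
    exact h.symm
  refine Subgroup.mem_sup_right ?_
  rw [← hC a' ha ha1]
  exact ⟨hk, Subgroup.mem_centralizer_singleton_iff.mpr (mul_inv_eq_iff_eq_mul.mp hconj)⟩

/-- Orthogonality to all differences within the fibres forces vanishing outside `W₂`. -/
theorem vanish_of_orth_diff [Finite L] (hW : IsSelfNormalizingCyclic W₁ W₂)
    [Fintype ↥(W₁ ⊔ W₂)] (f : ↥(W₁ ⊔ W₂) → ℂ)
    (horth : ∀ φ ψ : ↥(W₁ ⊔ W₂) →* ℂˣ, IsLeft φ → IsRight ψ →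
      classInner f (fun w => ((φ * ψ) w : ℂ) - (ψ w : ℂ)) = 0)
    (w : ↥(W₁ ⊔ W₂)) (hw₂ : (w : L) ∉ W₂) : f w = 0 := by
  classical
  haveI := Fintype.ofFinite L
  obtain ⟨-, -, hdisj, hcomm, hcyc, -⟩ := hW
  haveI := hcyc
  letI : CommGroup ↥(W₁ ⊔ W₂) := IsCyclic.commGroup
  haveI : Finite (↥(W₁ ⊔ W₂) →* ℂˣ) := Finite.of_injective
    (fun f => (⟨fun g => (f g : ℂ), isIrrCharacter_hom f⟩ : IrrCharacter ↥(W₁ ⊔ W₂)))
    fun a b e => homFn_injective (congrArg Subtype.val e)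
  haveI := Fintype.ofFinite (↥(W₁ ⊔ W₂) →* ℂˣ)
  set b : (↥(W₁ ⊔ W₂) →* ℂˣ) → ℂ := fun ω => classInner f (fun v => (ω v : ℂ)) with hb
  have hrel : ∀ φ ψ, IsLeft φ → IsRight ψ → b (φ * ψ) = b ψ := fun φ ψ hφ hψ => by
    have h := horth φ ψ hφ hψ
    rw [show (fun w => ((φ * ψ) w : ℂ) - (ψ w : ℂ)) =
      (fun w => ((φ * ψ) w : ℂ)) - fun w => (ψ w : ℂ) from rfl, inner_sub_right, sub_eq_zero] at h
    exact h
  have hexp : f w = ∑ ω : ↥(W₁ ⊔ W₂) →* ℂˣ, b ω * (ω w : ℂ) := by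
    have h := congrFun (classFunction_eq_sum f fun a c => by
      congr 1; rw [mul_comm c a, mul_inv_cancel_right]) w
    rw [Finset.sum_apply] at h
    rw [h]
    symm
    refine Finset.sum_bij (fun ω _ => ⟨fun g => (ω g : ℂ), isIrrCharacter_hom ω⟩)
      (fun _ _ => Finset.mem_univ _) (fun a _ c _ e => homFn_injective (congrArg Subtype.val e))
      (fun ξ _ => ?_) fun ω _ => by simp [hb]
    obtain ⟨ω, hω⟩ := exists_hom_of_irr_comm (fun a c => mul_comm a c) ξ.2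
    exact ⟨ω, Finset.mem_univ _, Subtype.ext hω.symm⟩
  set X₁ := Finset.univ.filter fun ω : ↥(W₁ ⊔ W₂) →* ℂˣ => IsLeft ω with hX₁
  set X₂ := Finset.univ.filter fun ω : ↥(W₁ ⊔ W₂) →* ℂˣ => IsRight ω with hX₂
  have hpairs : ∑ ω : ↥(W₁ ⊔ W₂) →* ℂˣ, b ω * (ω w : ℂ) =
      ∑ ψ ∈ X₂, b ψ * (ψ w : ℂ) * ∑ φ ∈ X₁, (φ w : ℂ) := by
    rw [Finset.sum_congr rfl (s₁ := X₂) fun ψ _ => Finset.mul_sum X₁ _ _, Finset.sum_comm,
      ← Finset.sum_product']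
    symm
    refine Finset.sum_bij (fun p _ => p.1 * p.2) (fun _ _ => Finset.mem_univ _)
      (fun p hp q hq e => ?_) (fun ω _ => ?_) fun p hp => ?_
    · rw [Finset.mem_product, hX₁, hX₂, Finset.mem_filter, Finset.mem_filter] at hp hq
      obtain ⟨e1, e2⟩ := eq_and_eq_of_mul_eq hcomm hp.1.2 hq.1.2 hp.2.2 hq.2.2 e
      exact Prod.ext e1 e2
    · obtain ⟨φ, ψ, hφ, hψ, e⟩ := exists_split hdisj hcomm ω
      exact ⟨(φ, ψ), by simp [hX₁, hX₂, hφ, hψ], e⟩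
    · rw [Finset.mem_product, hX₁, hX₂, Finset.mem_filter, Finset.mem_filter] at hp
      rw [hrel _ _ hp.1.2 hp.2.2, MonoidHom.mul_apply, Units.val_mul]
      ring
  have h0 : ∑ φ ∈ X₁, (φ w : ℂ) = 0 := by
    obtain ⟨a, c, ha, hc, hac⟩ := exists_decomp hcomm w
    have ha1 : a ≠ 1 := fun e => hw₂ (by rw [hac, e, one_mul]; exact hc)
    obtain ⟨ω, hω⟩ : ∃ ω : ↥(W₁ ⊔ W₂) →* ℂˣ, (ω a : ℂ) ≠ 1 := by
      by_contra hcon
      push Not at hcon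
      refine ha1 (isConj_one_right.mp (((isConj_iff_irr_eq 1 a).mpr fun ξ => ?_)))
      obtain ⟨ω, hω⟩ := exists_hom_of_irr_comm (fun a c => mul_comm a c) ξ.2
      rw [hω]; simp [hcon ω]
    obtain ⟨φ₀, ψ₀, hφ₀, hψ₀, rfl⟩ := exists_split hdisj hcomm ω
    have hne : (φ₀ w : ℂ) ≠ 1 := by
      rw [hac, map_mul, hφ₀ c hc, mul_one]
      rwa [MonoidHom.mul_apply, hψ₀ a ha, mul_one] at hω
    have himg : X₁.image (fun ω => φ₀ * ω) = X₁ := by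
      refine Finset.eq_of_subset_of_card_le (Finset.image_subset_iff.mpr fun d hd => ?_)
        (Finset.card_image_of_injective X₁ (mul_right_injective φ₀)).ge
      simp only [hX₁, Finset.mem_filter, Finset.mem_univ, true_and] at hd ⊢
      exact fun v hv => by rw [MonoidHom.mul_apply, hφ₀ v hv, hd v hv, one_mul]
    have h1 : ∑ φ ∈ X₁, (φ w : ℂ) = (φ₀ w : ℂ) * ∑ φ ∈ X₁, (φ w : ℂ) := by
      conv_lhs => rw [← himg, Finset.sum_image fun a _ d _ e => mul_right_injective φ₀ e]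
      rw [Finset.mul_sum]
      exact Finset.sum_congr rfl fun ω _ => by rw [MonoidHom.mul_apply, Units.val_mul]
    have h2 : ((φ₀ w : ℂ) - 1) * ∑ φ ∈ X₁, (φ w : ℂ) = 0 := by linear_combination -h1
    exact (mul_eq_zero.mp h2).resolve_left (sub_ne_zero.mpr hne)
  rw [hexp, hpairs, h0]
  simp

/-- The characters of `L` attached to the linear characters of `W`. -/
theorem exists_compl_chars [Fintype L] (K : Subgroup L) [K.Normal] (hKW₁ : K ⊓ W₁ = ⊥)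
    (hKW₁' : K ⊔ W₁ = ⊤) (hcop : (Nat.card W₁).Coprime (Nat.card W₂)) (hW₂K : W₂ ≤ K)
    (hC : ∀ x ∈ W₁, x ≠ 1 → K ⊓ Subgroup.centralizer ({x} : Set L) = W₂)
    (hW : IsSelfNormalizingCyclic W₁ W₂) (hodd : Odd (Nat.card ↥(W₁ ⊔ W₂))) :
    ∃ (μ : (↥(W₁ ⊔ W₂) →* ℂˣ) → (L → ℂ)) (δ : (↥(W₁ ⊔ W₂) →* ℂˣ) → ℂ), Function.Injective μ ∧
      (∀ ω, IsIrrCharacter L (μ ω)) ∧ (∀ ω, δ ω = 1 ∨ δ ω = -1) ∧
      (∀ ω ω' : ↥(W₁ ⊔ W₂) →* ℂˣ, (∀ w : ↥(W₁ ⊔ W₂), (w : L) ∈ W₂ → ω w = ω' w) →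
        δ ω = δ ω' ∧ indFun (W₁ ⊔ W₂) (fun w => (ω w : ℂ) - (ω' w : ℂ)) = δ ω • (μ ω - μ ω')) ∧
      (∀ ω, ∀ w : ↥(W₁ ⊔ W₂), (w : L) ∉ W₂ → μ ω w = δ ω * (ω w : ℂ)) ∧
      (∀ θ : L → ℂ, IsIrrCharacter L θ → (∀ ω, θ ≠ μ ω) →
        ∀ w : ↥(W₁ ⊔ W₂), (w : L) ∉ W₂ → θ w = 0) ∧
      (∀ ω, ∃ n : ℤ, μ ω 1 - δ ω = n * (Nat.card W₁ : ℂ)) := by
  classical
  haveI := Fintype.ofFinite ↥(W₁ ⊔ W₂)
  obtain ⟨hne₁, -, hdisj, hcomm, hcyc, -⟩ := id hW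
  obtain ⟨hcL, -, hcW, -⟩ := card_left_right hW
  let ι := {φ : ↥(W₁ ⊔ W₂) →* ℂˣ // IsLeft φ}
  let i₀ : ι := ⟨1, isLeft_one⟩
  let D : (↥(W₁ ⊔ W₂) →* ℂˣ) → (↥(W₁ ⊔ W₂) →* ℂˣ) → ↥(W₁ ⊔ W₂) → ℂ := fun a b w =>
    (a w : ℂ) - (b w : ℂ)
  have hD : ∀ a b, D a b = (fun w => (a w : ℂ)) - fun w => (b w : ℂ) := fun a b => rfl
  have hsupp : ∀ (φ φ' ψ : ↥(W₁ ⊔ W₂) →* ℂˣ), IsLeft φ → IsLeft φ' →
      ∀ w : ↥(W₁ ⊔ W₂), (w : L) ∈ W₂ → D (φ * ψ) (φ' * ψ) w = 0 := by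
    intro φ φ' ψ hφ hφ' w hw
    simp [D, hφ w hw, hφ' w hw]
  have hindV : ∀ f : ↥(W₁ ⊔ W₂) → ℂ, (∀ w : ↥(W₁ ⊔ W₂), (w : L) ∈ W₂ → f w = 0) →
      ∀ v : ↥(W₁ ⊔ W₂), (v : L) ∉ W₂ → indFun (W₁ ⊔ W₂) f v = f v := by
    intro f hf v hv
    refine indFun_eq_of_fusion f (fun a b => ?_) v fun x hx => ?_
    · letI : CommGroup ↥(W₁ ⊔ W₂) := @IsCyclic.commGroup _ _ hcyc
      congr 1
      rw [mul_comm b a, mul_inv_cancel_right]
    · by_contra h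
      have hmem : x⁻¹ * v * x ∈ W₁ ⊔ W₂ := by
        by_contra hn; exact h (extendByZero_not_mem _ hn)
      exact hx (compl_conj_mem K hKW₁ hKW₁' hcop hW₂K hC hW hv hmem)
  have hiso : ∀ f g : ↥(W₁ ⊔ W₂) → ℂ, (∀ w : ↥(W₁ ⊔ W₂), (w : L) ∈ W₂ → f w = 0) →
      (∀ w : ↥(W₁ ⊔ W₂), (w : L) ∈ W₂ → g w = 0) →
      classInner (indFun (W₁ ⊔ W₂) f) (indFun (W₁ ⊔ W₂) g) = classInner f g := by
    intro f g hf hg
    rw [frobenius _ _ (indFun_classFunction _), classInner, classInner]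
    congr 1
    refine Finset.sum_congr rfl fun w _ => ?_
    by_cases hw : (w : L) ∈ W₂
    · rw [hf w hw, zero_mul, zero_mul]
    · rw [hindV g hg w hw]
  let τ : (↥(W₁ ⊔ W₂) →* ℂˣ) → ι → L → ℂ := fun ψ φ =>
    indFun (W₁ ⊔ W₂) (D (φ.1 * ψ) (1 * ψ))
  have hτinner : ∀ (ψ ψ' : ↥(W₁ ⊔ W₂) →* ℂˣ) (φ φ' : ι),
      classInner (τ ψ φ) (τ ψ' φ') = (if φ.1 * ψ = φ'.1 * ψ' then 1 else 0) -
        (if φ.1 * ψ = 1 * ψ' then 1 else 0) - ((if 1 * ψ = φ'.1 * ψ' then 1 else 0) -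
          (if 1 * ψ = 1 * ψ' then 1 else 0)) := by
    intro ψ ψ' φ φ'
    rw [hiso _ _ (hsupp _ _ ψ φ.2 isLeft_one) (hsupp _ _ ψ' φ'.2 isLeft_one), hD, hD, inner_sub_left,
      inner_sub_right, inner_sub_right, inner_hom, inner_hom, inner_hom, inner_hom]
  have hiff : ∀ {φ φ' ψ ψ' : ↥(W₁ ⊔ W₂) →* ℂˣ}, IsLeft φ → IsLeft φ' → IsRight ψ → IsRight ψ' →
      (φ * ψ = φ' * ψ' ↔ φ = φ' ∧ ψ = ψ') := fun h1 h2 h3 h4 =>
    ⟨eq_and_eq_of_mul_eq hcomm h1 h2 h3 h4, fun h => by rw [h.1, h.2]⟩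
  have hτgen : ∀ ψ φ, IsGeneralizedCharacter L (τ ψ φ) := fun ψ φ =>
    isGenChar_indFun (hD _ _ ▸ isGenChar_sub (isGenChar_of_isCharacter (isCharacter_hom _))
      (isGenChar_of_isCharacter (isCharacter_hom _)))
  have hone : IsIrrCharacter L (fun _ => (1 : ℂ)) := isIrrCharacter_one
  have hfam : ∀ ψ : {ψ : ↥(W₁ ⊔ W₂) →* ℂˣ // IsRight ψ}, ∃ (ε : ℤ) (m : ι → L → ℂ),
      (ε = 1 ∨ ε = -1) ∧ (∀ φ, IsIrrCharacter L (m φ)) ∧ Function.Injective m ∧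
        ∀ φ, τ ψ.1 φ = (ε : ℂ) • (m φ - m i₀) := by
    intro ψ
    have hne' : ∀ {φ : ι}, φ ≠ i₀ → φ.1 ≠ 1 := fun h e => h (Subtype.ext e)
    have h0 : τ ψ.1 i₀ = 0 := by
      show indFun (W₁ ⊔ W₂) (D (1 * ψ.1) (1 * ψ.1)) = 0
      rw [show D (1 * ψ.1) (1 * ψ.1) = 0 from funext fun w => sub_self _, indFun_zero]
    obtain ⟨ε, m, hε, hm, hm0, hminj, hτm⟩ := exists_common_constituent (τ ψ.1) i₀ h0
      (hτgen ψ.1) (fun φ => by
        show indFun (W₁ ⊔ W₂) _ 1 = 0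
        rw [indFun_one_apply]; simp [D])
      (fun φ hφ => by
        rw [hτinner, if_pos rfl, if_pos rfl, if_neg, if_neg]
        · norm_num
        · exact fun e => hne' hφ ((hiff isLeft_one φ.2 ψ.2 ψ.2).mp e).1.symm
        · exact fun e => hne' hφ ((hiff φ.2 isLeft_one ψ.2 ψ.2).mp e).1)
      (fun φ φ' hφ hφ' hne => by
        rw [hτinner, if_pos (rfl : 1 * ψ.1 = 1 * ψ.1), if_neg, if_neg, if_neg]
        · norm_num
        · exact fun e => hne' hφ' ((hiff isLeft_one φ'.2 ψ.2 ψ.2).mp e).1.symm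
        · exact fun e => hne' hφ ((hiff φ.2 isLeft_one ψ.2 ψ.2).mp e).1
        · exact fun e => hne (Subtype.ext ((hiff φ.2 φ'.2 ψ.2 ψ.2).mp e).1))
      _ _ hone hone
    refine ⟨ε, m, hε, fun φ => ?_, fun a b e => hminj a b e, fun φ => by
      rw [hτm φ, Int.cast_smul_eq_zsmul]⟩
    rcases eq_or_ne φ i₀ with rfl | h
    · exact hm0
    · exact hm φ h
  choose ε m hε hm hminj hτm using hfam
  have hεc : ∀ ψ, ((ε ψ : ℂ) = 1 ∨ (ε ψ : ℂ) = -1) := fun ψ => by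
    rcases hε ψ with e | e <;> simp [e]
  have hεne : ∀ ψ, (ε ψ : ℂ) ≠ 0 := fun ψ => by rcases hεc ψ with e | e <;> simp [e]
  -- three indices
  have hι : 3 ≤ Nat.card ι := by
    rw [show Nat.card ι = Nat.card W₁ from hcL]
    have h1 := (Subgroup.one_lt_card_iff_ne_bot W₁).mpr hne₁
    rw [hcW] at hodd
    obtain ⟨k, hk⟩ := (Nat.odd_mul.mp hodd).1
    omega
  haveI : Finite ι := Nat.finite_of_card_ne_zero (by omega)
  have hmdisj : ∀ ψ ψ', ψ ≠ ψ' → ∀ a b, m ψ a ≠ m ψ' b := by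
    intro ψ ψ' hne a b hab
    have hM : ∀ φ φ' : ι, classInner (m ψ φ - m ψ i₀) (m ψ' φ' - m ψ' i₀) = 0 := by
      intro φ φ'
      have h := hτinner ψ.1 ψ'.1 φ φ'
      rw [if_neg, if_neg, if_neg, if_neg, hτm, hτm, inner_smul_left, inner_smul_right] at h
      · have hz : conj (ε ψ' : ℂ) ≠ 0 := by simpa using hεne ψ'
        have hz' : ε ψ' ≠ 0 := fun e => hεne ψ' (by rw [e, Int.cast_zero])
        simpa [hεne ψ, hz, hz'] using h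
      · exact fun e => hne (Subtype.ext ((hiff isLeft_one isLeft_one ψ.2 ψ'.2).mp e).2)
      · exact fun e => hne (Subtype.ext ((hiff isLeft_one φ'.2 ψ.2 ψ'.2).mp e).2)
      · exact fun e => hne (Subtype.ext ((hiff φ.2 isLeft_one ψ.2 ψ'.2).mp e).2)
      · exact fun e => hne (Subtype.ext ((hiff φ.2 φ'.2 ψ.2 ψ'.2).mp e).2)
    have hM' : ∀ p q r s : ι, classInner (m ψ p - m ψ r) (m ψ' q - m ψ' s) = 0 := by
      intro p q r s
      have h1 := hM p q; have h2 := hM r q; have h3 := hM p s; have h4 := hM r s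
      simp only [inner_sub_left, inner_sub_right] at h1 h2 h3 h4 ⊢
      linear_combination h1 - h2 - h3 + h4
    haveI := Fintype.ofFinite ι
    rw [Nat.card_eq_fintype_card, ← Finset.card_univ] at hι
    obtain ⟨c, hc⟩ : ∃ c, c ≠ a := by
      obtain ⟨c, hc⟩ := Finset.exists_mem_ne (s := (Finset.univ : Finset ι)) (by omega) a
      exact ⟨c, hc.2⟩
    obtain ⟨d, hd, hcd⟩ : ∃ d, d ≠ b ∧ m ψ c ≠ m ψ' d := by
      have h2 : 1 < (Finset.univ.erase b).card := by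
        have := Finset.pred_card_le_card_erase (a := b) (s := (Finset.univ : Finset ι))
        omega
      obtain ⟨x, hx, y, hy, hxy⟩ := Finset.one_lt_card.mp h2
      by_cases h : m ψ c = m ψ' x
      · exact ⟨y, (Finset.mem_erase.mp hy).1, fun e => hxy (hminj ψ' (h.symm.trans e))⟩
      · exact ⟨x, (Finset.mem_erase.mp hx).1, h⟩
    have h := hM' a b c d
    rw [inner_sub_left, inner_sub_right, inner_sub_right, irr_inner_ne (hm ψ c) (hm ψ' d) hcd,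
      irr_inner_ne (hm ψ a) (hm ψ' d) fun e => hd (hminj ψ' (e.symm.trans hab)),
      irr_inner_ne (hm ψ c) (hm ψ' b) fun e => hc (hminj ψ (e.trans hab.symm)), hab,
      irr_inner_self (hm ψ' b)] at h
    simp at h
  choose pφ pψ hpφ hpψ hpe using fun ω : ↥(W₁ ⊔ W₂) →* ℂˣ => exists_split hdisj hcomm ω
  let R : (↥(W₁ ⊔ W₂) →* ℂˣ) → {ψ : ↥(W₁ ⊔ W₂) →* ℂˣ // IsRight ψ} := fun ω => ⟨pψ ω, hpψ ω⟩
  let μ : (↥(W₁ ⊔ W₂) →* ℂˣ) → (L → ℂ) := fun ω => m (R ω) ⟨pφ ω, hpφ ω⟩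
  let δ : (↥(W₁ ⊔ W₂) →* ℂˣ) → ℂ := fun ω => (ε (R ω) : ℂ)
  have hμinj : Function.Injective μ := by
    intro ω ω' h
    by_cases hR : R ω = R ω'
    · have key : ∀ (A B : {ψ : ↥(W₁ ⊔ W₂) →* ℂˣ // IsRight ψ}) (x y : ι), A = B →
          m A x = m B y → x = y := fun A B x y e h => by subst e; exact hminj _ h
      have e1 : pφ ω = pφ ω' := congrArg Subtype.val (key _ _ _ _ hR h)
      rw [← hpe ω, ← hpe ω', e1, show pψ ω = pψ ω' from congrArg Subtype.val hR]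
    · exact absurd h (hmdisj _ _ hR _ _)
  have hinner : ∀ ω ω', classInner (μ ω) (μ ω') = if ω = ω' then 1 else 0 := fun ω ω' => by
    split_ifs with h
    · rw [h]; exact irr_inner_self (hm _ _)
    · exact irr_inner_ne (hm _ _) (hm _ _) fun e => h (hμinj e)
  have hdiff : ∀ φ ψ, IsLeft φ → IsRight ψ →
      indFun (W₁ ⊔ W₂) (D (φ * ψ) ψ) = δ (φ * ψ) • (μ (φ * ψ) - μ ψ) ∧ δ (φ * ψ) = δ ψ := by
    intro φ ψ hφ hψ
    have e1 := eq_and_eq_of_mul_eq hcomm (hpφ (φ * ψ)) hφ (hpψ _) hψ (hpe _)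
    have e2 := eq_and_eq_of_mul_eq hcomm (hpφ ψ) isLeft_one (hpψ _) hψ
      ((hpe ψ).trans (homOneMul ψ).symm)
    have eR1 : R (φ * ψ) = ⟨ψ, hψ⟩ := Subtype.ext e1.2
    have eR2 : R ψ = ⟨ψ, hψ⟩ := Subtype.ext e2.2
    have hδ : δ (φ * ψ) = δ ψ := by simp only [δ, eR1, eR2]
    refine ⟨?_, hδ⟩
    have h := hτm ⟨ψ, hψ⟩ ⟨φ, hφ⟩
    show indFun (W₁ ⊔ W₂) (D (φ * ψ) ψ) = _
    simp only [τ, homOneMul] at h
    rw [h]
    simp only [δ, μ, eR1, eR2]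
    rw [show (⟨pφ (φ * ψ), hpφ _⟩ : ι) = ⟨φ, hφ⟩ from Subtype.ext e1.1,
      show (⟨pφ ψ, hpφ _⟩ : ι) = i₀ from Subtype.ext e2.1]
  have hsame : ∀ ω ω' : ↥(W₁ ⊔ W₂) →* ℂˣ,
      (∀ w : ↥(W₁ ⊔ W₂), (w : L) ∈ W₂ → ω w = ω' w) → pψ ω = pψ ω' := by
    intro ω ω' h
    refine hom_ext_parts hcomm (fun w hw => by rw [hpψ ω w hw, hpψ ω' w hw]) fun w hw => ?_
    have h1 := h w hw
    rw [← hpe ω, ← hpe ω', MonoidHom.mul_apply, MonoidHom.mul_apply, hpφ ω w hw, hpφ ω' w hw,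
      one_mul, one_mul] at h1
    exact h1
  have hind : ∀ ω ω' : ↥(W₁ ⊔ W₂) →* ℂˣ, (∀ w : ↥(W₁ ⊔ W₂), (w : L) ∈ W₂ → ω w = ω' w) →
      δ ω = δ ω' ∧ indFun (W₁ ⊔ W₂) (fun w => (ω w : ℂ) - (ω' w : ℂ)) = δ ω • (μ ω - μ ω') := by
    intro ω ω' h
    have hψ := hsame ω ω' h
    obtain ⟨h1, h1'⟩ := hdiff (pφ ω) (pψ ω) (hpφ ω) (hpψ ω)
    obtain ⟨h2, h2'⟩ := hdiff (pφ ω') (pψ ω') (hpφ ω') (hpψ ω')
    rw [hpe] at h1 h1' h2 h2'
    rw [← hψ] at h2 h2'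
    refine ⟨h1'.trans h2'.symm, ?_⟩
    rw [show (fun w => (ω w : ℂ) - (ω' w : ℂ)) = D ω (pψ ω) - D ω' (pψ ω) from
      funext fun w => by simp [D], indFun_sub, h1, h2, h1', h2', ← smul_sub, sub_sub_sub_cancel_right]
  have horthμ : ∀ (θ : L → ℂ), IsClassFunction L θ → ∀ φ ψ, IsLeft φ → IsRight ψ →
      classInner (fun v : ↥(W₁ ⊔ W₂) => θ v) (fun w => ((φ * ψ) w : ℂ) - (ψ w : ℂ)) =
        conj (δ ψ) * (classInner θ (μ (φ * ψ)) - classInner θ (μ ψ)) := by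
    intro θ hθ φ ψ hφ hψ
    obtain ⟨h1, h1'⟩ := hdiff φ ψ hφ hψ
    rw [← frobenius_right _ θ hθ, show indFun (W₁ ⊔ W₂) (fun w => ((φ * ψ) w : ℂ) - (ψ w : ℂ)) =
      indFun (W₁ ⊔ W₂) (D (φ * ψ) ψ) from rfl, h1, h1', inner_smul_right, inner_sub_right]
  have hδR : ∀ ω, δ ω = δ (pψ ω) := fun ω => by
    have h := (hdiff (pφ ω) (pψ ω) (hpφ ω) (hpψ ω)).2
    rwa [hpe] at h
  have hcδ : ∀ ω, conj (δ ω) = δ ω := fun ω => by simp [δ]
  have hval : ∀ ω, ∀ w : ↥(W₁ ⊔ W₂), (w : L) ∉ W₂ → μ ω w = δ ω * (ω w : ℂ) := by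
    intro ω w hw
    refine sub_eq_zero.mp (vanish_of_orth_diff hW
      (fun v : ↥(W₁ ⊔ W₂) => μ ω v - δ ω * (ω v : ℂ)) (fun φ ψ hφ hψ => ?_) w hw)
    rw [show (fun v : ↥(W₁ ⊔ W₂) => μ ω v - δ ω * (ω v : ℂ)) =
      (fun v : ↥(W₁ ⊔ W₂) => μ ω v) - δ ω • (fun v : ↥(W₁ ⊔ W₂) => (ω v : ℂ)) from rfl,
      inner_sub_left, horthμ _ (isCharacter_classFunction (hm _ _).isCharacter') φ ψ hφ hψ,
      inner_smul_left,
      show (fun w => ((φ * ψ) w : ℂ) - (ψ w : ℂ)) =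
        (fun w => ((φ * ψ) w : ℂ)) - fun w => (ψ w : ℂ) from rfl,
      inner_sub_right, inner_hom, inner_hom, hinner, hinner, hcδ]
    by_cases h : pψ ω = ψ
    · rw [hδR ω, h, sub_self]
    · rw [if_neg, if_neg]
      · ring
      · exact fun e => h (eq_and_eq_of_mul_eq hcomm (hpφ ω) isLeft_one (hpψ ω) hψ
          (by rw [hpe, homOneMul]; exact e)).2
      · exact fun e => h (eq_and_eq_of_mul_eq hcomm (hpφ ω) hφ (hpψ ω) hψ
          (by rw [hpe]; exact e)).2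
  refine ⟨μ, δ, hμinj, fun ω => hm _ _, fun ω => hεc _, hind, hval, fun θ hθ hne w hw => ?_,
    fun ω => ?_⟩
  · refine vanish_of_orth_diff hW (fun v : ↥(W₁ ⊔ W₂) => θ v) (fun φ ψ hφ hψ => ?_) w hw
    rw [horthμ θ (isCharacter_classFunction hθ.isCharacter') φ ψ hφ hψ,
      irr_inner_ne hθ (hm _ _) (hne _), irr_inner_ne hθ (hm _ _) (hne _), sub_zero,
      mul_zero]
  · haveI := Fintype.ofFinite W₁
    let j : W₁ →* ↥(W₁ ⊔ W₂) := Subgroup.inclusion le_sup_left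
    set f : W₁ → ℂ := fun x => μ ω (j x : L) - δ ω * (ω (j x) : ℂ) with hf
    have hfz : ∀ x : W₁, x ≠ 1 → f x = 0 := fun x hx => sub_eq_zero.mpr (hval ω (j x) fun h => hx
      (Subtype.ext (Subgroup.mem_bot.mp (hdisj ▸ Subgroup.mem_inf.mpr ⟨x.2, h⟩ : (x : L) ∈ (⊥ : Subgroup L)))))
    have hgen : IsGeneralizedCharacter W₁ f := by
      have h1 : IsCharacter W₁ (fun x : W₁ => μ ω (j x : L)) :=
        isCharacter_comp (isCharacter_restrict (hm _ _).isCharacter' (W₁ ⊔ W₂)) j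
      have h2 : IsCharacter W₁ (fun x : W₁ => (ω (j x) : ℂ)) := isCharacter_hom (ω.comp j)
      rcases hεc (R ω) with e | e
      · convert isGenChar_sub (isGenChar_of_isCharacter h1) (isGenChar_of_isCharacter h2) using 1
        funext x; simp [hf, δ, e]
      · convert isGenChar_add (isGenChar_of_isCharacter h1) (isGenChar_of_isCharacter h2) using 1
        funext x; simp [hf, δ, e]
    obtain ⟨n, hn⟩ := inner_genChar_int hgen (isGenChar_of_isCharacter (isCharacter_one (G := W₁)))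
    rw [classInner, Finset.sum_eq_single 1 (fun x _ hx => by rw [hfz x hx, zero_mul])
      (fun h => absurd (Finset.mem_univ _) h), map_one, mul_one,
      inv_mul_eq_iff_eq_mul₀ (natCard_ne_zero W₁)] at hn
    refine ⟨n, ?_⟩
    rw [mul_comm, ← hn]
    simp [hf, j]

end CfsgLib.Char
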