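import Mathlib.Data.Finset.Card
import Mathlib.Data.Finset.Image
import Mathlib.SetTheory.Cardinal.Finite
import Mathlib.Data.Fintype.Card
import Mathlib.Data.Finite.Card

/-!
# Grids of signed triples: the combinatorial core of the cyclic TI construction

A grid assigns three signed points to every cell so that cells in a common line share exactly
one point, with the same sign, and cells in general position share no point or exactly two,
one with each sign. Every such grid which is large enough consists of a row point, a column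
point and a private point in every cell.
-/

set_option autoImplicit false
set_option linter.style.haveILetI false
set_option linter.unusedVariables false
set_option linter.unusedSectionVars false
set_option linter.unusedDecidableInType false

namespace CfsgLib.TIGrid

universe u v w

variable {S : Type u} [DecidableEq S] (neg : S → S)

/-- Exactly one common point, none with opposite sign. -/
def Adj (P Q : Finset S) : Prop :=
  (∃ e, ∀ x, x ∈ P ∧ x ∈ Q ↔ x = e) ∧ ∀ x ∈ P, neg x ∉ Q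

/-- Nothing in common, or one point of each sign. -/
def Cross (P Q : Finset S) : Prop :=
  (∀ x ∈ P, x ∉ Q ∧ neg x ∉ Q) ∨
    ∃ e f, (∀ x, x ∈ P ∧ x ∈ Q ↔ x = e) ∧ ∀ x, x ∈ P ∧ neg x ∈ Q ↔ x = f

/-- Three points, no two opposite. -/
def Good (P : Finset S) : Prop := P.card = 3 ∧ ∀ x ∈ P, neg x ∉ P

variable {neg}

theorem Adj.exists_common {P Q : Finset S} (h : Adj neg P Q) : ∃ e, e ∈ P ∧ e ∈ Q := by
  obtain ⟨⟨e, he⟩, -⟩ := h
  exact ⟨e, (he e).mpr rfl⟩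

theorem Adj.eq {P Q : Finset S} (h : Adj neg P Q) {x y : S} (hx : x ∈ P) (hx' : x ∈ Q)
    (hy : y ∈ P) (hy' : y ∈ Q) : x = y := by
  obtain ⟨⟨e, he⟩, -⟩ := h
  rw [(he x).mp ⟨hx, hx'⟩, (he y).mp ⟨hy, hy'⟩]

theorem Cross.eq {P Q : Finset S} (h : Cross neg P Q) {x y : S} (hx : x ∈ P) (hx' : x ∈ Q)
    (hy : y ∈ P) (hy' : y ∈ Q) : x = y := by
  rcases h with h | ⟨e, f, he, -⟩
  · exact absurd hx' (h x hx).1
  · rw [(he x).mp ⟨hx, hx'⟩, (he y).mp ⟨hy, hy'⟩]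

theorem Cross.common_of_opp {P Q : Finset S} (h : Cross neg P Q) {x : S} (hx : x ∈ P)
    (hx' : neg x ∈ Q) : ∃ e, e ∈ P ∧ e ∈ Q := by
  rcases h with h | ⟨e, f, he, -⟩
  · exact absurd hx' (h x hx).2
  · exact ⟨e, (he e).mpr rfl⟩

theorem Cross.opp_of_common {P Q : Finset S} (h : Cross neg P Q) {x : S} (hx : x ∈ P)
    (hx' : x ∈ Q) : ∃ f, f ∈ P ∧ neg f ∈ Q := by
  rcases h with h | ⟨e, f, -, hf⟩
  · exact absurd hx' (h x hx).1
  · exact ⟨f, (hf f).mpr rfl⟩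

theorem Cross.opp_eq {P Q : Finset S} (h : Cross neg P Q) {x y : S} (hx : x ∈ P) (hx' : neg x ∈ Q)
    (hy : y ∈ P) (hy' : neg y ∈ Q) : x = y := by
  rcases h with h | ⟨e, f, -, hf⟩
  · exact absurd hx' (h x hx).2
  · rw [(hf x).mp ⟨hx, hx'⟩, (hf y).mp ⟨hy, hy'⟩]

theorem eq_triple {P : Finset S} (hP : P.card = 3) {a b c : S} (ha : a ∈ P) (hb : b ∈ P)
    (hc : c ∈ P) (hab : a ≠ b) (hac : a ≠ c) (hbc : b ≠ c) : P = {a, b, c} := by
  refine (Finset.eq_of_subset_of_card_le ?_ ?_).symm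
  · intro x hx
    simp only [Finset.mem_insert, Finset.mem_singleton] at hx
    rcases hx with rfl | rfl | rfl <;> assumption
  · rw [hP, Finset.card_insert_of_notMem (by simp [hab, hac]),
      Finset.card_pair hbc]

theorem mem_triple {P : Finset S} (hP : P.card = 3) {a b c : S} (ha : a ∈ P) (hb : b ∈ P)
    (hc : c ∈ P) (hab : a ≠ b) (hac : a ≠ c) (hbc : b ≠ c) {x : S} (hx : x ∈ P) :
    x = a ∨ x = b ∨ x = c := by
  rw [eq_triple hP ha hb hc hab hac hbc] at hx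
  simpa using hx

theorem exists_third {P : Finset S} (hP : P.card = 3) {a b : S} (ha : a ∈ P) (hb : b ∈ P)
    (hab : a ≠ b) : ∃ c ∈ P, a ≠ c ∧ b ≠ c := by
  by_contra hcon
  push Not at hcon
  have : P ⊆ {a, b} := fun x hx => by
    simp only [Finset.mem_insert, Finset.mem_singleton]
    by_cases h : a = x
    · exact Or.inl h.symm
    · exact Or.inr (hcon x hx h).symm
  have := Finset.card_le_card this
  rw [hP, Finset.card_pair hab] at this
  omega

theorem four_le {P : Finset S} (hP : P.card = 3) {a b c d : S} (ha : a ∈ P) (hb : b ∈ P)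
    (hc : c ∈ P) (hd : d ∈ P) (hab : a ≠ b) (hac : a ≠ c) (had : a ≠ d) (hbc : b ≠ c) (hbd : b ≠ d)
    (hcd : c ≠ d) : False := by
  rcases mem_triple hP ha hb hc hab hac hbc hd with h | h | h
  · exact had h.symm
  · exact hbd h.symm
  · exact hcd h.symm

/-! ### The two crossing configurations -/

section configs

variable (hinv : Function.Involutive neg)

include hinv

theorem Adj.symm {P Q : Finset S} (h : Adj neg P Q) : Adj neg Q P := by
  obtain ⟨⟨e, he⟩, hn⟩ := h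
  exact ⟨⟨e, fun x => and_comm.trans (he x)⟩, fun x hx hx' => hn (neg x) hx' (by rwa [hinv x])⟩

theorem Cross.symm {P Q : Finset S} (h : Cross neg P Q) : Cross neg Q P := by
  rcases h with h | ⟨e, f, he, hf⟩
  · exact Or.inl fun x hx => ⟨fun hx' => (h x hx').1 hx, fun hx' => (h (neg x) hx').2 (by rwa [hinv x])⟩
  · refine Or.inr ⟨e, neg f, fun x => and_comm.trans (he x), fun x => ⟨fun h => ?_, fun h => ?_⟩⟩
    · rw [← (hf (neg x)).mp ⟨h.2, by rw [hinv x]; exact h.1⟩, hinv x]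
    · subst h
      obtain ⟨h1, h2⟩ := (hf f).mpr rfl
      exact ⟨h2, by rwa [hinv f]⟩

/-- A cell in a new column next to a crossing whose corners all share one point. -/
theorem cell_all_share {A B C D X : Finset S} {e f g h u v t : S}
    (hA : A.card = 3) (hB : Good neg B) (hC : C.card = 3) (hD : Good neg D) (hX : Good neg X)
    (eA : e ∈ A) (fA : f ∈ A) (gA : g ∈ A) (eB : e ∈ B) (fB : neg f ∈ B) (hB' : h ∈ B)
    (eC : e ∈ C) (uC : u ∈ C) (vC : v ∈ C) (eD : e ∈ D) (uD : neg u ∈ D) (tD : t ∈ D)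
    (dA : e ≠ f ∧ e ≠ g ∧ f ≠ g) (dB : e ≠ neg f ∧ e ≠ h ∧ neg f ≠ h)
    (dC : e ≠ u ∧ e ≠ v ∧ u ≠ v) (dD : e ≠ neg u ∧ e ≠ t ∧ neg u ≠ t)
    (hAC : Adj neg A C) (hAB : Cross neg A B) (hBD : Adj neg B D) (hBC : Adj neg B C)
    (hAD : Adj neg A D) (hCD : Cross neg C D)
    (hXA : Adj neg X A) (hXC : Adj neg X C) (hXB : Cross neg X B) (hXD : Cross neg X D) :
    (e ∈ X ∧ neg h ∈ X ∧ neg t ∈ X) ∨ (f ∈ X ∧ v ∈ X ∧ h ∈ X) ∨ (g ∈ X ∧ u ∈ X ∧ t ∈ X) ∨
      (g ∈ X ∧ v ∈ X ∧ f ∉ X ∧ e ∉ X ∧ u ∉ X) := by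
  obtain ⟨x, hxX, hxA⟩ := hXA.exists_common
  obtain ⟨y, hyX, hyC⟩ := hXC.exists_common
  by_cases he : e ∈ X
  · refine Or.inl ⟨he, ?_, ?_⟩
    · obtain ⟨z, hzX, hz⟩ := hXB.opp_of_common he eB
      rcases mem_triple hB.1 eB fB hB' dB.1 dB.2.1 dB.2.2 hz with e1 | e1 | e1
      · exact absurd (e1 ▸ he) (hX.2 z hzX)
      · rw [hinv.injective e1] at hzX
        exact absurd (hXA.eq he eA hzX fA) dA.1
      · rwa [← e1, hinv z]
    · obtain ⟨z, hzX, hz⟩ := hXD.opp_of_common he eD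
      rcases mem_triple hD.1 eD uD tD dD.1 dD.2.1 dD.2.2 hz with e1 | e1 | e1
      · exact absurd (e1 ▸ he) (hX.2 z hzX)
      · rw [hinv.injective e1] at hzX
        exact absurd (hXC.eq he eC hzX uC) dC.1
      · rwa [← e1, hinv z]
  · have hf : f ∈ X → h ∈ X := fun hf => by
      obtain ⟨z, hzX, hz⟩ := hXB.common_of_opp hf fB
      rcases mem_triple hB.1 eB fB hB' dB.1 dB.2.1 dB.2.2 hz with e1 | e1 | e1
      · exact absurd (e1 ▸ hzX) he
      · exact absurd (e1 ▸ hzX) (hX.2 f hf)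
      · exact e1 ▸ hzX
    have hu : u ∈ X → t ∈ X := fun hu => by
      obtain ⟨z, hzX, hz⟩ := hXD.common_of_opp hu uD
      rcases mem_triple hD.1 eD uD tD dD.1 dD.2.1 dD.2.2 hz with e1 | e1 | e1
      · exact absurd (e1 ▸ hzX) he
      · exact absurd (e1 ▸ hzX) (hX.2 u hu)
      · exact e1 ▸ hzX
    rcases mem_triple hA eA fA gA dA.1 dA.2.1 dA.2.2 hxA with rfl | rfl | rfl
    · exact absurd hxX he
    · rcases mem_triple hC eC uC vC dC.1 dC.2.1 dC.2.2 hyC with rfl | rfl | rfl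
      · exact absurd hyX he
      · exfalso
        refine four_le hX.1 hxX hyX (hf hxX) (hu hyX) ?_ ?_ ?_ ?_ ?_ ?_
        · exact fun e1 => dA.1 (hAC.eq eA eC fA (e1 ▸ uC))
        · exact fun e1 => dB.2.1 (hAB.eq eA eB (e1 ▸ fA) hB')
        · exact fun e1 => dA.1 (hAD.eq eA eD fA (e1 ▸ tD))
        · exact fun e1 => dB.2.1 (hBC.eq eB eC hB' (e1 ▸ uC))
        · exact fun e1 => dC.1 (hCD.eq eC eD uC (e1 ▸ tD))
        · exact fun e1 => dD.2.1 (hBD.eq eB eD (e1 ▸ hB') tD)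
      · exact Or.inr (Or.inl ⟨hxX, hyX, hf hxX⟩)
    · rcases mem_triple hC eC uC vC dC.1 dC.2.1 dC.2.2 hyC with rfl | rfl | rfl
      · exact absurd hyX he
      · exact Or.inr (Or.inr (Or.inl ⟨hxX, hyX, hu hyX⟩))
      · exact Or.inr (Or.inr (Or.inr ⟨hxX, hyX,
          fun h' => dA.2.2 (hXA.eq h' fA hxX gA), he,
          fun h' => dC.2.2 (hXC.eq h' uC hyX vC)⟩))

/-- Two new cells in one row next to such a crossing: one of them avoids the generic shape. -/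
theorem exists_special {A B C D X X' : Finset S} {e f g h u v t : S}
    (hA : A.card = 3) (hB : Good neg B) (hC : C.card = 3) (hD : Good neg D) (hX : Good neg X)
    (hX' : Good neg X')
    (eA : e ∈ A) (fA : f ∈ A) (gA : g ∈ A) (eB : e ∈ B) (fB : neg f ∈ B) (hB' : h ∈ B)
    (eC : e ∈ C) (uC : u ∈ C) (vC : v ∈ C) (eD : e ∈ D) (uD : neg u ∈ D) (tD : t ∈ D)
    (dA : e ≠ f ∧ e ≠ g ∧ f ≠ g) (dB : e ≠ neg f ∧ e ≠ h ∧ neg f ≠ h)
    (dC : e ≠ u ∧ e ≠ v ∧ u ≠ v) (dD : e ≠ neg u ∧ e ≠ t ∧ neg u ≠ t)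
    (hAC : Adj neg A C) (hAB : Cross neg A B) (hBD : Adj neg B D) (hBC : Adj neg B C)
    (hAD : Adj neg A D) (hCD : Cross neg C D)
    (hXA : Adj neg X A) (hXC : Adj neg X C) (hXB : Cross neg X B) (hXD : Cross neg X D)
    (hX'A : Adj neg X' A) (hX'C : Adj neg X' C) (hX'B : Cross neg X' B) (hX'D : Cross neg X' D)
    (hXX' : Adj neg X X') :
    ((f ∈ X ∧ v ∈ X ∧ h ∈ X) ∨ (g ∈ X ∧ u ∈ X ∧ t ∈ X)) ∨
      ((f ∈ X' ∧ v ∈ X' ∧ h ∈ X') ∨ (g ∈ X' ∧ u ∈ X' ∧ t ∈ X')) := by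
  have hht : neg h ≠ neg t := fun e1 => dB.2.1 (hBD.eq eB eD hB' (hinv.injective e1 ▸ tD))
  have hvg : g ≠ v := fun e1 => dA.2.1 (hAC.eq eA eC gA (e1 ▸ vC))
  have key : ∀ {X X' : Finset S}, Good neg X → Good neg X' → Adj neg X X' → Adj neg X' A →
      Adj neg X' C → Cross neg X' B → Cross neg X' D → (e ∈ X ∧ neg h ∈ X ∧ neg t ∈ X) →
      (g ∈ X' ∧ v ∈ X' ∧ f ∉ X' ∧ e ∉ X' ∧ u ∉ X') → False := by
    intro X X' hX hX' hXX' hX'A hX'C hX'B hX'D ⟨he, hh, ht⟩ ⟨hg, hv, hf, he', hu⟩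
    obtain ⟨z, hzX, hzX'⟩ := hXX'.exists_common
    have heh : e ≠ neg h := fun e1 => hB.2 e eB (by rw [e1, hinv h]; exact hB')
    have het : e ≠ neg t := fun e1 => hD.2 e eD (by rw [e1, hinv t]; exact tD)
    rcases mem_triple hX.1 he hh ht heh het hht hzX with e1 | e1 | e1
    · exact he' (e1 ▸ hzX')
    · obtain ⟨w, hwX, hw⟩ := hX'B.common_of_opp (e1 ▸ hzX') (by rw [hinv h]; exact hB')
      rcases mem_triple hB.1 eB fB hB' dB.1 dB.2.1 dB.2.2 hw with e2 | e2 | e2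
      · exact he' (e2 ▸ hwX)
      · exact hX'A.2 _ (e2 ▸ hwX) (by rw [hinv f]; exact fA)
      · exact hX'.2 _ (e2 ▸ hwX) (e1 ▸ hzX')
    · obtain ⟨w, hwX, hw⟩ := hX'D.common_of_opp (e1 ▸ hzX') (by rw [hinv t]; exact tD)
      rcases mem_triple hD.1 eD uD tD dD.1 dD.2.1 dD.2.2 hw with e2 | e2 | e2
      · exact he' (e2 ▸ hwX)
      · exact hX'C.2 _ (e2 ▸ hwX) (by rw [hinv u]; exact uC)
      · exact hX'.2 _ (e2 ▸ hwX) (e1 ▸ hzX')
  rcases cell_all_share hinv hA hB hC hD hX eA fA gA eB fB hB' eC uC vC eD uD tD dA dB dC dD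
      hAC hAB hBD hBC hAD hCD hXA hXC hXB hXD with h1 | h1 | h1 | h1
  · rcases cell_all_share hinv hA hB hC hD hX' eA fA gA eB fB hB' eC uC vC eD uD tD dA dB dC dD
      hAC hAB hBD hBC hAD hCD hX'A hX'C hX'B hX'D with h2 | h2 | h2 | h2
    · exact absurd (hXX'.eq h1.2.1 h2.2.1 h1.2.2 h2.2.2) hht
    · exact Or.inr (Or.inl h2)
    · exact Or.inr (Or.inr h2)
    · exact (key hX hX' hXX' hX'A hX'C hX'B hX'D h1 h2).elim
  · exact Or.inl (Or.inl h1)
  · exact Or.inl (Or.inr h1)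
  · rcases cell_all_share hinv hA hB hC hD hX' eA fA gA eB fB hB' eC uC vC eD uD tD dA dB dC dD
      hAC hAB hBD hBC hAD hCD hX'A hX'C hX'B hX'D with h2 | h2 | h2 | h2
    · exact (key hX' hX (hXX'.symm hinv) hXA hXC hXB hXD h2 h1).elim
    · exact Or.inr (Or.inl h2)
    · exact Or.inr (Or.inr h2)
    · exact absurd (hXX'.eq h1.1 h2.1 h1.2.1 h2.2.1) hvg

/-- A cell in a new column next to a crossing with one corner missing the shared point. -/
theorem cell_three_share {A B C D X : Finset S} {e f g h t : S}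
    (hA : A.card = 3) (hB : Good neg B) (hC : Good neg C) (hD : Good neg D) (hX : Good neg X)
    (eA : e ∈ A) (fA : f ∈ A) (gA : g ∈ A) (eB : e ∈ B) (fB : neg f ∈ B) (hB' : h ∈ B)
    (eC : e ∈ C) (gD : g ∈ D) (hD' : h ∈ D) (tD : t ∈ D) (eD : e ∉ D)
    (dA : e ≠ f ∧ e ≠ g ∧ f ≠ g) (dB : e ≠ neg f ∧ e ≠ h ∧ neg f ≠ h)
    (dD : g ≠ h ∧ g ≠ t ∧ h ≠ t)
    (hAC : Adj neg A C) (hBC : Adj neg B C) (hAD : Adj neg A D) (hCD : Cross neg C D)
    (hXA : Adj neg X A) (hXC : Adj neg X C) (hXB : Cross neg X B) (hXD : Cross neg X D) :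
    (e ∈ X ∧ neg h ∈ X ∧ t ∈ X) ∨ (g ∈ X ∧ neg t ∈ X ∧ e ∉ X) := by
  obtain ⟨x, hxX, hxA⟩ := hXA.exists_common
  obtain ⟨y, hyX, hyC⟩ := hXC.exists_common
  by_cases he : e ∈ X
  · obtain ⟨z, hzX, hz⟩ := hXB.opp_of_common he eB
    have hh : neg h ∈ X := by
      rcases mem_triple hB.1 eB fB hB' dB.1 dB.2.1 dB.2.2 hz with e1 | e1 | e1
      · exact absurd (e1 ▸ he) (hX.2 z hzX)
      · rw [hinv.injective e1] at hzX
        exact absurd (hXA.eq he eA hzX fA) dA.1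
      · rwa [← e1, hinv z]
    obtain ⟨w, hwX, hw⟩ := hXD.common_of_opp hh (by rw [hinv h]; exact hD')
    rcases mem_triple hD.1 gD hD' tD dD.1 dD.2.1 dD.2.2 hw with e1 | e1 | e1
    · exact absurd (hXA.eq he eA (e1 ▸ hwX) gA) dA.2.1
    · exact absurd hh (hX.2 h (e1 ▸ hwX))
    · exact Or.inl ⟨he, hh, e1 ▸ hwX⟩
  · refine Or.inr ?_
    have hgt : g ∈ X → neg t ∈ X := fun hg => by
      obtain ⟨z, hzX, hz⟩ := hXD.opp_of_common hg gD
      rcases mem_triple hD.1 gD hD' tD dD.1 dD.2.1 dD.2.2 hz with e1 | e1 | e1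
      · exact absurd gA (e1 ▸ hXA.2 z hzX)
      · exfalso
        obtain ⟨w, hwX, hw⟩ := hXB.common_of_opp hzX (e1 ▸ hB')
        rcases mem_triple hB.1 eB fB hB' dB.1 dB.2.1 dB.2.2 hw with e2 | e2 | e2
        · exact he (e2 ▸ hwX)
        · exact hXA.2 _ (e2 ▸ hwX) (by rw [hinv f]; exact fA)
        · exact hX.2 z hzX (e1 ▸ e2 ▸ hwX)
      · rwa [← e1, hinv z]
    rcases mem_triple hA eA fA gA dA.1 dA.2.1 dA.2.2 hxA with rfl | rfl | rfl
    · exact absurd hxX he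
    · exfalso
      have hh : h ∈ X := by
        obtain ⟨z, hzX, hz⟩ := hXB.common_of_opp hxX fB
        rcases mem_triple hB.1 eB fB hB' dB.1 dB.2.1 dB.2.2 hz with e1 | e1 | e1
        · exact absurd (e1 ▸ hzX) he
        · exact absurd (e1 ▸ hzX) (hX.2 _ hxX)
        · exact e1 ▸ hzX
      obtain ⟨z, hzX, hz⟩ := hXD.opp_of_common hh hD'
      have ht : neg t ∈ X := by
        rcases mem_triple hD.1 gD hD' tD dD.1 dD.2.1 dD.2.2 hz with e1 | e1 | e1
        · exact absurd gA (e1 ▸ hXA.2 z hzX)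
        · exact absurd (e1 ▸ hh) (hX.2 z hzX)
        · rwa [← e1, hinv z]
      refine four_le hX.1 hxX hh ht hyX ?_ ?_ ?_ ?_ ?_ ?_
      · exact fun e1 => hB.2 _ hB' (e1 ▸ fB)
      · exact fun e1 => hAD.2 _ fA (by rw [e1, hinv t]; exact tD)
      · exact fun e1 => dA.1 (hAC.eq eA eC fA (e1.symm ▸ hyC))
      · exact fun e1 => hD.2 t tD (e1 ▸ hD')
      · exact fun e1 => dB.2.1 (hBC.eq eB eC hB' (e1.symm ▸ hyC))
      · intro e1
        obtain ⟨w, hwC, hwD⟩ := hCD.common_of_opp hyC (by rw [← e1, hinv t]; exact tD)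
        rcases mem_triple hD.1 gD hD' tD dD.1 dD.2.1 dD.2.2 hwD with e2 | e2 | e2
        · exact dA.2.1 (hAC.eq eA eC gA (e2 ▸ hwC))
        · exact dB.2.1 (hBC.eq eB eC hB' (e2 ▸ hwC))
        · exact hC.2 t (e2 ▸ hwC) (e1.symm ▸ hyC)
    · exact ⟨hxX, hgt hxX, he⟩

end configs

/-! ### Grids -/

variable (neg) in
/-- A grid of signed triples. -/
structure IsGrid {I : Type v} {J : Type w} (P : I → J → Finset S) : Prop where
  invol : Function.Involutive neg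
  good : ∀ i j, Good neg (P i j)
  row : ∀ i j l, j ≠ l → Adj neg (P i j) (P i l)
  col : ∀ i k j, i ≠ k → Adj neg (P i j) (P k j)
  cross : ∀ i k j l, i ≠ k → j ≠ l → Cross neg (P i j) (P k l)

variable {I : Type v} {J : Type w} {P : I → J → Finset S}

theorem IsGrid.swap (h : IsGrid neg P) : IsGrid neg fun j i => P i j :=
  ⟨h.invol, fun j i => h.good i j, fun j i k hik => h.col i k j hik,
    fun j l i hjl => h.row i j l hjl, fun j l i k hjl hik => h.cross i k j l hik hjl⟩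

theorem exists_two_others [Finite J] (hJ : 4 ≤ Nat.card J) (j l : J) :
    ∃ m n : J, m ≠ j ∧ m ≠ l ∧ n ≠ j ∧ n ≠ l ∧ m ≠ n := by
  classical
  haveI := Fintype.ofFinite J
  rw [Nat.card_eq_fintype_card, ← Finset.card_univ] at hJ
  have h2 : 1 < ((Finset.univ.erase j).erase l).card := by
    have h3 := Finset.pred_card_le_card_erase (a := j) (s := (Finset.univ : Finset J))
    have h4 := Finset.pred_card_le_card_erase (a := l) (s := Finset.univ.erase j)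
    omega
  obtain ⟨m, hm, n, hn, hmn⟩ := Finset.one_lt_card.mp h2
  simp only [Finset.mem_erase, Finset.mem_univ, and_true] at hm hn
  exact ⟨m, n, hm.2, hm.1, hn.2, hn.1, hmn⟩

theorem IsGrid.three_false [Finite J] (hP : IsGrid neg P) (hJ : 4 ≤ Nat.card J) {i k : I} {j l : J}
    (hik : i ≠ k) (hjl : j ≠ l) {e f g h : S} (eA : e ∈ P i j) (fA : f ∈ P i j) (gA : g ∈ P i j)
    (eB : e ∈ P k l) (fB : neg f ∈ P k l) (hB' : h ∈ P k l) (eC : e ∈ P i l) (gD : g ∈ P k j)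
    (hD' : h ∈ P k j) (eD : e ∉ P k j) (dA : e ≠ f ∧ e ≠ g ∧ f ≠ g)
    (dB : e ≠ neg f ∧ e ≠ h ∧ neg f ≠ h) : False := by
  have hinv := hP.invol
  have hgh : g ≠ h := fun e1 =>
    dA.2.1 ((hP.cross i k j l hik hjl).eq eA eB gA (e1 ▸ hB'))
  obtain ⟨t, tD, hgt, hht⟩ := exists_third (hP.good k j).1 gD hD' hgh
  obtain ⟨m, n, hmj, hml, hnj, hnl, hmn⟩ := exists_two_others hJ j l
  have key : ∀ m, m ≠ j → m ≠ l →
      (e ∈ P i m ∧ neg h ∈ P i m ∧ t ∈ P i m) ∨ (g ∈ P i m ∧ neg t ∈ P i m ∧ e ∉ P i m) :=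
    fun m hmj hml => cell_three_share hinv (hP.good i j).1 (hP.good k l) (hP.good i l)
      (hP.good k j) (hP.good i m) eA fA gA eB fB hB' eC gD hD' tD eD dA dB ⟨hgh, hgt, hht⟩
      (hP.row i j l hjl) (hP.col k i l hik.symm) (hP.col i k j hik)
      (hP.cross i k l j hik hjl.symm) (hP.row i m j hmj) (hP.row i m l hml)
      (hP.cross i k m l hik hml) (hP.cross i k m j hik hmj)
  have hrow := hP.row i m n hmn
  rcases key m hmj hml with h1 | h1 <;> rcases key n hnj hnl with h2 | h2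
  · have := hrow.eq h1.1 h2.1 h1.2.1 h2.2.1
    exact (hP.good k l).2 e eB (by rw [this, hinv h]; exact hB')
  · exact hrow.2 t h1.2.2 h2.2.1
  · exact (hrow.symm hinv).2 t h2.2.2 h1.2.1
  · have := hrow.eq h1.1 h2.1 h1.2.1 h2.2.1
    exact (hP.good k j).2 t tD (this ▸ gD)

theorem IsGrid.all_false [Finite J] (hP : IsGrid neg P) (hJ : 4 ≤ Nat.card J) {i k : I} {j l : J}
    (hik : i ≠ k) (hjl : j ≠ l) {e f g h : S} (eA : e ∈ P i j) (fA : f ∈ P i j) (gA : g ∈ P i j)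
    (eB : e ∈ P k l) (fB : neg f ∈ P k l) (hB' : h ∈ P k l) (eC : e ∈ P i l) (eD : e ∈ P k j)
    (dA : e ≠ f ∧ e ≠ g ∧ f ≠ g) (dB : e ≠ neg f ∧ e ≠ h ∧ neg f ≠ h) : False := by
  have hinv := hP.invol
  have hA := hP.good i j
  have hB := hP.good k l
  have hC := hP.good i l
  have hD := hP.good k j
  have hAB := hP.cross i k j l hik hjl
  have hCD := hP.cross i k l j hik hjl.symm
  have hAC := hP.row i j l hjl
  have hBD := hP.row k l j hjl.symm
  have hBC := hP.col k i l hik.symm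
  have hAD := hP.col i k j hik
  obtain ⟨u, uC, uD⟩ := hCD.opp_of_common eC eD
  have heu : e ≠ u := fun e1 => hD.2 e eD (e1 ▸ uD)
  have heu' : e ≠ neg u := fun e1 => hC.2 u uC (e1 ▸ eC)
  obtain ⟨v, vC, hev, huv⟩ := exists_third hC.1 eC uC heu
  obtain ⟨t, tD, het, hut⟩ := exists_third hD.1 eD uD heu'
  obtain ⟨m, n, hmj, hml, hnj, hnl, hmn⟩ := exists_two_others hJ j l
  obtain ⟨m₁, hm1j, hm1l, hX⟩ : ∃ m₁, m₁ ≠ j ∧ m₁ ≠ l ∧
      ((f ∈ P i m₁ ∧ v ∈ P i m₁ ∧ h ∈ P i m₁) ∨ (g ∈ P i m₁ ∧ u ∈ P i m₁ ∧ t ∈ P i m₁)) := by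
    rcases exists_special hinv hA.1 hB hC.1 hD (hP.good i m) (hP.good i n) eA fA gA eB fB hB' eC uC
      vC eD uD tD dA dB ⟨heu, hev, huv⟩ ⟨heu', het, hut⟩ hAC hAB hBD hBC hAD hCD
      (hP.row i m j hmj) (hP.row i m l hml) (hP.cross i k m l hik hml) (hP.cross i k m j hik hmj)
      (hP.row i n j hnj) (hP.row i n l hnl) (hP.cross i k n l hik hnl) (hP.cross i k n j hik hnj)
      (hP.row i m n hmn) with h1 | h1
    · exact ⟨m, hmj, hml, h1⟩
    · exact ⟨n, hnj, hnl, h1⟩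
  obtain ⟨m₂, -, -, hY⟩ : ∃ m₂, m₂ ≠ j ∧ m₂ ≠ l ∧
      ((neg f ∈ P k m₂ ∧ t ∈ P k m₂ ∧ g ∈ P k m₂) ∨
        (h ∈ P k m₂ ∧ neg u ∈ P k m₂ ∧ v ∈ P k m₂)) := by
    rcases exists_special (f := neg f) (u := neg u) hinv hB.1 hA hD.1 hC (hP.good k m) (hP.good k n)
      eB fB hB' eA (by rw [hinv f]; exact fA) gA eD uD tD eC (by rw [hinv u]; exact uC) vC dB
      (by rw [hinv f]; exact dA) ⟨heu', het, hut⟩ (by rw [hinv u]; exact ⟨heu, hev, huv⟩)
      hBD (hAB.symm hinv) hAC hAD hBC (hCD.symm hinv)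
      (hP.row k m l hml) (hP.row k m j hmj) (hP.cross k i m j hik.symm hmj)
      (hP.cross k i m l hik.symm hml)
      (hP.row k n l hnl) (hP.row k n j hnj) (hP.cross k i n j hik.symm hnj)
      (hP.cross k i n l hik.symm hnl) (hP.row k m n hmn) with h1 | h1
    · exact ⟨m, hmj, hml, h1⟩
    · exact ⟨n, hnj, hnl, h1⟩
  -- the two new cells are incompatible
  have two : ∀ {x y : S}, x ∈ P i m₁ → x ∈ P k m₂ → y ∈ P i m₁ → y ∈ P k m₂ → x = y := by
    intro x y h1 h2 h3 h4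
    rcases eq_or_ne m₁ m₂ with rfl | hne
    · exact (hP.col i k m₁ hik).eq h1 h2 h3 h4
    · exact (hP.cross i k m₁ m₂ hik hne).eq h1 h2 h3 h4
  have opp : ∀ {x : S}, x ∈ P i m₁ → neg x ∈ P k m₂ → ∃ w, w ∈ P i m₁ ∧ w ∈ P k m₂ := by
    intro x h1 h2
    rcases eq_or_ne m₁ m₂ with rfl | hne
    · exact (hP.col i k m₁ hik).exists_common
    · exact (hP.cross i k m₁ m₂ hik hne).common_of_opp h1 h2
  have hgv : g ≠ v := fun e1 => dA.2.1 (hAC.eq eA eC gA (e1 ▸ vC))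
  have hgu : g ≠ u := fun e1 => dA.2.1 (hAC.eq eA eC gA (e1 ▸ uC))
  have hfv : f ≠ v := fun e1 => dA.1 (hAC.eq eA eC fA (e1 ▸ vC))
  have hgt : g ≠ t := fun e1 => dA.2.1 (hAD.eq eA eD gA (e1 ▸ tD))
  have hft : neg f ≠ t := fun e1 => hAD.2 f fA (e1 ▸ tD)
  have hnfg : neg f ≠ g := fun e1 => hA.2 f fA (e1 ▸ gA)
  have hgh : g ≠ h := fun e1 => dA.2.1 (hAB.eq eA eB gA (e1 ▸ hB'))
  have hfh : f ≠ h := fun e1 => hB.2 f (e1 ▸ hB') fB
  have hhu : h ≠ u := fun e1 => dB.2.1 (hBC.eq eB eC hB' (e1 ▸ uC))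
  have hhnu : h ≠ neg u := fun e1 => hBC.2 h hB' (by rw [e1, hinv u]; exact uC)
  have hhv : h ≠ v := fun e1 => dB.2.1 (hBC.eq eB eC hB' (e1 ▸ vC))
  have hht : h ≠ t := fun e1 => dB.2.1 (hBD.eq eB eD hB' (e1 ▸ tD))
  have hvt : v ≠ t := fun e1 => hev (hCD.eq eC eD vC (e1 ▸ tD))
  have hut' : u ≠ t := fun e1 => hD.2 t tD (e1 ▸ uD)
  have hvnu : v ≠ neg u := fun e1 => hC.2 u uC (e1 ▸ vC)
  have hgm := hP.good i m₁
  rcases hX with ⟨fX, vX, hX'⟩ | ⟨gX, uX, tX⟩ <;> rcases hY with ⟨fY, tY, gY⟩ | ⟨hY', uY, vY⟩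
  · obtain ⟨w, hwX, hwY⟩ := opp fX fY
    rcases mem_triple hgm.1 fX vX hX' hfv hfh hhv.symm hwX with rfl | rfl | rfl
    · exact (hP.good k m₂).2 _ hwY fY
    · rcases mem_triple (hP.good k m₂).1 fY tY gY hft hnfg hgt.symm hwY with e1 | e1 | e1
      · exact hgm.2 f fX (e1 ▸ vX)
      · exact hvt e1
      · exact hgv e1.symm
    · rcases mem_triple (hP.good k m₂).1 fY tY gY hft hnfg hgt.symm hwY with e1 | e1 | e1
      · exact hgm.2 f fX (e1 ▸ hX')
      · exact hht e1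
      · exact hgh e1.symm
  · exact hhv (two hX' hY' vX vY)
  · exact hgt (two gX gY tX tY)
  · obtain ⟨w, hwX, hwY⟩ := opp uX uY
    rcases mem_triple hgm.1 gX uX tX hgu hgt hut' hwX with rfl | rfl | rfl
    · rcases mem_triple (hP.good k m₂).1 hY' uY vY hhnu hhv hvnu.symm hwY with e1 | e1 | e1
      · exact hgh e1
      · exact hgm.2 u uX (e1 ▸ gX)
      · exact hgv e1
    · exact (hP.good k m₂).2 _ hwY uY
    · rcases mem_triple (hP.good k m₂).1 hY' uY vY hhnu hhv hvnu.symm hwY with e1 | e1 | e1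
      · exact hht e1.symm
      · exact hgm.2 u uX (e1 ▸ tX)
      · exact hvt e1.symm

/-- In a grid with at least four columns, cells in general position have nothing in common. -/
theorem IsGrid.no_cross [Finite J] (hP : IsGrid neg P) (hJ : 4 ≤ Nat.card J) {i k : I} {j l : J}
    (hik : i ≠ k) (hjl : j ≠ l) : ∀ x ∈ P i j, x ∉ P k l ∧ neg x ∉ P k l := by
  have hinv := hP.invol
  rcases hP.cross i k j l hik hjl with h | ⟨e, f, he, hf⟩
  · exact h
  exfalso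
  obtain ⟨eA, eB⟩ := (he e).mpr rfl
  obtain ⟨fA, fB⟩ := (hf f).mpr rfl
  have hef : e ≠ f := fun e1 => (hP.good k l).2 e eB (e1 ▸ fB)
  have hef' : e ≠ neg f := fun e1 => (hP.good i j).2 f fA (e1 ▸ eA)
  obtain ⟨g, gA, heg, hfg⟩ := exists_third (hP.good i j).1 eA fA hef
  obtain ⟨h, hB', heh, hfh⟩ := exists_third (hP.good k l).1 eB fB hef'
  have hAB := hP.cross i k j l hik hjl
  have corner : ∀ C : Finset S, Adj neg C (P i j) → Adj neg C (P k l) →
      e ∈ C ∨ (g ∈ C ∧ h ∈ C) := by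
    intro C h1 h2
    by_cases hc : e ∈ C
    · exact Or.inl hc
    obtain ⟨x, hxC, hxA⟩ := h1.exists_common
    obtain ⟨y, hyC, hyB⟩ := h2.exists_common
    refine Or.inr ⟨?_, ?_⟩
    · rcases mem_triple (hP.good i j).1 eA fA gA hef heg hfg hxA with rfl | rfl | rfl
      · exact absurd hxC hc
      · exact absurd fB (h2.2 _ hxC)
      · exact hxC
    · rcases mem_triple (hP.good k l).1 eB fB hB' hef' heh hfh hyB with rfl | rfl | rfl
      · exact absurd hyC hc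
      · exact absurd (by rw [hinv f]; exact fA) (h1.2 _ hyC)
      · exact hyC
  have hC := corner (P i l) (hP.row i l j hjl.symm) (hP.col i k l hik)
  have hD := corner (P k j) (hP.col k i j hik.symm) (hP.row k j l hjl)
  by_cases eC : e ∈ P i l <;> by_cases eD : e ∈ P k j
  · exact hP.all_false hJ hik hjl eA fA gA eB fB hB' eC eD ⟨hef, heg, hfg⟩ ⟨hef', heh, hfh⟩
  · obtain ⟨gD, hD'⟩ := hD.resolve_left eD
    exact hP.three_false hJ hik hjl eA fA gA eB fB hB' eC gD hD' eD ⟨hef, heg, hfg⟩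
      ⟨hef', heh, hfh⟩
  · obtain ⟨gC, hC'⟩ := hC.resolve_left eC
    exact hP.three_false (f := neg f) hJ hik.symm hjl.symm eB fB hB' eA (by rw [hinv f]; exact fA)
      gA eD hC' gC eC ⟨hef', heh, hfh⟩ (by rw [hinv f]; exact ⟨hef, heg, hfg⟩)
  · obtain ⟨gC, hC'⟩ := hC.resolve_left eC
    obtain ⟨gD, hD'⟩ := hD.resolve_left eD
    have := (hP.cross i k l j hik hjl.symm).eq gC gD hC' hD'
    exact heg (hAB.eq eA eB gA (this ▸ hB'))

/-- Four triples meeting pairwise once, each with a private point, have a common point. -/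
theorem exists_star [Finite J] (hJ : 4 ≤ Nat.card J) (L : J → Finset S) (hL : ∀ j, (L j).card = 3)
    (hadj : ∀ j l, j ≠ l → Adj neg (L j) (L l)) (c : J → S) (hc : ∀ j, c j ∈ L j)
    (hc' : ∀ j l, j ≠ l → c j ∉ L l) : ∃ a, ∀ j, a ∈ L j := by
  haveI : Nonempty J := (Nat.card_pos_iff.mp (by omega)).1
  obtain ⟨j₁⟩ := ‹Nonempty J›
  obtain ⟨j₂, -, hj₂, -, -, -, -⟩ := exists_two_others hJ j₁ j₁
  have h12 := (hadj j₁ j₂ hj₂.symm)
  obtain ⟨a, ha1, ha2⟩ := h12.exists_common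
  by_contra hcon
  push Not at hcon
  obtain ⟨j₃, ha3⟩ := hcon a
  have h31 : j₃ ≠ j₁ := fun e => ha3 (e ▸ ha1)
  have h32 : j₃ ≠ j₂ := fun e => ha3 (e ▸ ha2)
  obtain ⟨b, hb1, hb3⟩ := (hadj j₁ j₃ h31.symm).exists_common
  obtain ⟨d, hd2, hd3⟩ := (hadj j₂ j₃ h32.symm).exists_common
  have hab : a ≠ b := fun e => ha3 (e ▸ hb3)
  have had : a ≠ d := fun e => ha3 (e ▸ hd3)
  have hbd : b ≠ d := fun e => hab (h12.eq ha1 ha2 hb1 (e ▸ hd2))
  obtain ⟨j₄, h41, h42, h43⟩ : ∃ j₄, j₄ ≠ j₁ ∧ j₄ ≠ j₂ ∧ j₄ ≠ j₃ := by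
    obtain ⟨m, n, hm1, hm2, hn1, hn2, hmn⟩ := exists_two_others hJ j₁ j₂
    rcases eq_or_ne m j₃ with rfl | hm3
    · exact ⟨n, hn1, hn2, hmn.symm⟩
    · exact ⟨m, hm1, hm2, hm3⟩
  have hc0 : ∀ {j l : J} {x : S}, j ≠ l → x ∈ L l → c j ≠ x := fun hjl hx e =>
    hc' _ _ hjl (e ▸ hx)
  have m1 : ∀ x ∈ L j₁, x ≠ c j₁ → x = a ∨ x = b := fun x hx hxc =>
    (mem_triple (hL j₁) (hc j₁) ha1 hb1 (hc0 hj₂.symm ha2) (hc0 h31.symm hb3) hab hx).resolve_left
      hxc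
  have m2 : ∀ x ∈ L j₂, x ≠ c j₂ → x = a ∨ x = d := fun x hx hxc =>
    (mem_triple (hL j₂) (hc j₂) ha2 hd2 (hc0 hj₂ ha1) (hc0 h32.symm hd3) had hx).resolve_left hxc
  have m3 : ∀ x ∈ L j₃, x ≠ c j₃ → x = b ∨ x = d := fun x hx hxc =>
    (mem_triple (hL j₃) (hc j₃) hb3 hd3 (hc0 h31 hb1) (hc0 h32 hd2) hbd hx).resolve_left hxc
  obtain ⟨x, hx1, hx4⟩ := (hadj j₁ j₄ h41.symm).exists_common
  obtain ⟨y, hy2, hy4⟩ := (hadj j₂ j₄ h42.symm).exists_common
  obtain ⟨z, hz3, hz4⟩ := (hadj j₃ j₄ h43.symm).exists_common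
  rcases m1 x hx1 (fun e => hc' j₁ j₄ h41.symm (e ▸ hx4)) with rfl | rfl
  · rcases m3 z hz3 (fun e => hc' j₃ j₄ h43.symm (e ▸ hz4)) with rfl | rfl
    · exact hab ((hadj j₁ j₄ h41.symm).eq ha1 hx4 hb1 hz4)
    · exact had ((hadj j₂ j₄ h42.symm).eq ha2 hx4 hd2 hz4)
  · rcases m2 y hy2 (fun e => hc' j₂ j₄ h42.symm (e ▸ hy4)) with rfl | rfl
    · exact hab ((hadj j₁ j₄ h41.symm).eq ha1 hy4 hb1 hx4)
    · exact hbd ((hadj j₃ j₄ h43.symm).eq hb3 hx4 hd3 hy4)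

/-- A common point along a line, in a grid without crossings. -/
theorem IsGrid.exists_line_point [Finite J] (hP : IsGrid neg P) [Nontrivial I]
    (hJ : Nat.card J = 2 ∨ 4 ≤ Nat.card J)
    (hnc : ∀ i k j l, i ≠ k → j ≠ l → ∀ x ∈ P i j, x ∉ P k l) (i : I) :
    ∃ a, ∀ j, a ∈ P i j := by
  classical
  rcases hJ with h2 | h4
  · haveI := Fintype.ofFinite J
    rw [Nat.card_eq_fintype_card, ← Finset.card_univ] at h2
    obtain ⟨j₁, j₂, hne, huniv⟩ := Finset.card_eq_two.mp h2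
    obtain ⟨a, h1, h2⟩ := (hP.row i j₁ j₂ hne).exists_common
    refine ⟨a, fun j => ?_⟩
    have := Finset.mem_univ j
    rw [huniv] at this
    simp only [Finset.mem_insert, Finset.mem_singleton] at this
    rcases this with rfl | rfl <;> assumption
  · obtain ⟨k, hk⟩ := exists_ne i
    choose c hci hck using fun j => (hP.col i k j hk.symm).exists_common
    exact exists_star h4 (fun j => P i j) (fun j => (hP.good i j).1) (fun j l h => hP.row i j l h) c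
      hci fun j l hjl hcl => hnc k i j l hk hjl (c j) (hck j) hcl

/-- A large grid consists of row points, column points and private points. -/
theorem IsGrid.decompose [Finite I] [Finite J] (hP : IsGrid neg P)
    (hI : Nat.card I = 2 ∨ 4 ≤ Nat.card I) (hJ : Nat.card J = 2 ∨ 4 ≤ Nat.card J)
    (hne : 4 ≤ Nat.card I ∨ 4 ≤ Nat.card J) :
    ∃ (r : I → S) (c : J → S) (d : I → J → S),
      (∀ i j, P i j = {r i, c j, d i j} ∧ r i ≠ c j ∧ r i ≠ d i j ∧ c j ≠ d i j) ∧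
      Function.Injective (Sum.elim r (Sum.elim c fun p : I × J => d p.1 p.2)) ∧
      ∀ a b, Sum.elim r (Sum.elim c fun p : I × J => d p.1 p.2) a ≠
        neg (Sum.elim r (Sum.elim c (fun p : I × J => d p.1 p.2)) b) := by
  haveI : Nontrivial I := Finite.one_lt_card_iff_nontrivial.mp (by omega)
  haveI : Nontrivial J := Finite.one_lt_card_iff_nontrivial.mp (by omega)
  have hinv := hP.invol
  have hnc : ∀ i k j l, i ≠ k → j ≠ l → ∀ x ∈ P i j, x ∉ P k l ∧ neg x ∉ P k l := by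
    intro i k j l hik hjl
    rcases hne with h4 | h4
    · exact hP.swap.no_cross h4 hjl hik
    · exact hP.no_cross h4 hik hjl
  choose r hr using hP.exists_line_point hJ fun i k j l h h' x hx => (hnc i k j l h h' x hx).1
  choose c hc using hP.swap.exists_line_point hI
    fun j l i k h h' x hx => (hnc i k j l h' h x hx).1
  have hrc : ∀ i j, r i ≠ c j := fun i j e => by
    obtain ⟨l, hl⟩ := exists_ne j
    obtain ⟨k, hk⟩ := exists_ne i
    exact (hnc i k l j hk.symm hl (r i) (hr i l)).1 (e ▸ hc j k)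
  choose d hd hrd hcd using fun i j => exists_third (hP.good i j).1 (hr i j) (hc j i) (hrc i j)
  refine ⟨r, c, d, fun i j => ⟨eq_triple (hP.good i j).1 (hr i j) (hc j i) (hd i j) (hrc i j)
    (hrd i j) (hcd i j), hrc i j, hrd i j, hcd i j⟩, ?_⟩
  -- any two labels are put in cells of general position, in one cell, or in one line
  have hrr : ∀ i k, i ≠ k → r i ≠ r k ∧ r i ≠ neg (r k) := fun i k hik => by
    obtain ⟨j, l, hjl⟩ := exists_pair_ne J
    have h := hnc i k j l hik hjl (r i) (hr i j)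
    exact ⟨fun e => h.1 (e ▸ hr k l), fun e => h.2 (by rw [e, hinv (r k)]; exact hr k l)⟩
  have hcc : ∀ j l, j ≠ l → c j ≠ c l ∧ c j ≠ neg (c l) := fun j l hjl => by
    obtain ⟨i, k, hik⟩ := exists_pair_ne I
    have h := hnc i k j l hik hjl (c j) (hc j i)
    exact ⟨fun e => h.1 (e ▸ hc l k), fun e => h.2 (by rw [e, hinv (c l)]; exact hc l k)⟩
  have hrc' : ∀ i j, r i ≠ neg (c j) := fun i j e =>
    (hP.good i j).2 (r i) (hr i j) (by rw [e, hinv (c j)]; exact hc j i)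
  have hrd' : ∀ i k l, r i ≠ d k l ∧ r i ≠ neg (d k l) := fun i k l => by
    rcases eq_or_ne i k with rfl | hik
    · exact ⟨hrd i l, fun e => (hP.good i l).2 (r i) (hr i l)
        (by rw [e, hinv (d i l)]; exact hd i l)⟩
    · obtain ⟨j, hjl⟩ := exists_ne l
      have h := hnc i k j l hik hjl (r i) (hr i j)
      exact ⟨fun e => h.1 (e ▸ hd k l), fun e => h.2 (by rw [e, hinv (d k l)]; exact hd k l)⟩
  have hcd' : ∀ j k l, c j ≠ d k l ∧ c j ≠ neg (d k l) := fun j k l => by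
    rcases eq_or_ne j l with rfl | hjl
    · exact ⟨hcd k j, fun e => (hP.good k j).2 (c j) (hc j k)
        (by rw [e, hinv (d k j)]; exact hd k j)⟩
    · obtain ⟨i, hik⟩ := exists_ne k
      have h := hnc i k j l hik hjl (c j) (hc j i)
      exact ⟨fun e => h.1 (e ▸ hd k l), fun e => h.2 (by rw [e, hinv (d k l)]; exact hd k l)⟩
  have hdd : ∀ i j k l, (i, j) ≠ (k, l) → d i j ≠ d k l ∧ d i j ≠ neg (d k l) := fun i j k l hp => by
    rcases eq_or_ne i k with rfl | hik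
    · have hjl : j ≠ l := fun e => hp (by rw [e])
      refine ⟨fun e => hrd i j ((hP.row i j l hjl).eq (hr i j) (hr i l) (hd i j) (e ▸ hd i l)),
        fun e => (hP.row i j l hjl).2 _ (hd i j) (by rw [e, hinv (d i l)]; exact hd i l)⟩
    · rcases eq_or_ne j l with rfl | hjl
      · refine ⟨fun e => hcd i j ((hP.col i k j hik).eq (hc j i) (hc j k) (hd i j) (e ▸ hd k j)),
          fun e => (hP.col i k j hik).2 _ (hd i j) (by rw [e, hinv (d k j)]; exact hd k j)⟩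
      · have h := hnc i k j l hik hjl (d i j) (hd i j)
        exact ⟨fun e => h.1 (e ▸ hd k l), fun e => h.2 (by rw [e, hinv (d k l)]; exact hd k l)⟩
  have hflip : ∀ {x y : S}, x ≠ neg y → y ≠ neg x := fun h e => h (by rw [e, hinv _])
  have hfix : ∀ i j x, x ∈ P i j → x ≠ neg x := fun i j x hx e => (hP.good i j).2 x hx (e ▸ hx)
  have key : ∀ a b : I ⊕ J ⊕ I × J, a ≠ b →
      Sum.elim r (Sum.elim c fun p : I × J => d p.1 p.2) a ≠
          Sum.elim r (Sum.elim c fun p : I × J => d p.1 p.2) b ∧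
        Sum.elim r (Sum.elim c fun p : I × J => d p.1 p.2) a ≠
          neg (Sum.elim r (Sum.elim c (fun p : I × J => d p.1 p.2)) b) := by
    rintro (i | j | ⟨i, j⟩) (k | l | ⟨k, l⟩) hab
    · exact hrr i k fun e => hab (by rw [e])
    · exact ⟨hrc i l, hrc' i l⟩
    · exact hrd' i k l
    · exact ⟨(hrc k j).symm, hflip (hrc' k j)⟩
    · exact hcc j l fun e => hab (by rw [e])
    · exact hcd' j k l
    · exact ⟨(hrd' k i j).1.symm, hflip (hrd' k i j).2⟩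
    · exact ⟨(hcd' l i j).1.symm, hflip (hcd' l i j).2⟩
    · exact hdd i j k l fun e => hab (by rw [e])
  refine ⟨fun a b h => by_contra fun hne' => (key a b hne').1 h, fun a b => ?_⟩
  rcases eq_or_ne a b with rfl | hne'
  · obtain ⟨i₀, -⟩ := exists_pair_ne I
    obtain ⟨j₀, -⟩ := exists_pair_ne J
    rcases a with i | j | ⟨i, j⟩
    · exact hfix i j₀ _ (hr i j₀)
    · exact hfix i₀ j _ (hc j i₀)
    · exact hfix i j _ (hd i j)
  · exact (key a b hne').2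

end CfsgLib.TIGrid
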