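import Cfsg.Agent.Lib.CharCyclicTI
import Cfsg.Agent.Lib.CharVirtual
import Cfsg.Agent.Lib.CharTIGrid

/-!
# Existence of cyclic trivial-intersection families
-/

set_option autoImplicit false
set_option linter.style.haveILetI false
set_option linter.unusedSectionVars false

namespace CfsgLib.Char

open Cfsg
open scoped ComplexConjugate

universe u

variable {G : Type u} [Group G] {W₁ W₂ : Subgroup G}

/-- A function on the subgroup orthogonal to all `(1 - φ)(1 - ψ)` vanishes outside both factors. -/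
theorem vanish_of_orth_alpha [Fintype G] (hW : IsSelfNormalizingCyclic W₁ W₂) [Fintype ↥(W₁ ⊔ W₂)]
    (f : ↥(W₁ ⊔ W₂) → ℂ)
    (horth : ∀ φ ψ : ↥(W₁ ⊔ W₂) →* ℂˣ, IsLeft φ → IsRight ψ → φ ≠ 1 → ψ ≠ 1 →
      classInner f (tiAlpha φ ψ) = 0)
    (w : ↥(W₁ ⊔ W₂)) (hw₁ : (w : G) ∉ W₁) (hw₂ : (w : G) ∉ W₂) : f w = 0 := by
  classical
  obtain ⟨-, -, hdisj, hcomm, hcyc, -⟩ := id hW
  haveI := hcyc
  letI : CommGroup ↥(W₁ ⊔ W₂) := IsCyclic.commGroup
  haveI : Finite (↥(W₁ ⊔ W₂) →* ℂˣ) := Finite.of_injective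
    (fun f => (⟨fun g => (f g : ℂ), isIrrCharacter_hom f⟩ : IrrCharacter ↥(W₁ ⊔ W₂)))
    fun a b e => homFn_injective (congrArg Subtype.val e)
  haveI := Fintype.ofFinite (↥(W₁ ⊔ W₂) →* ℂˣ)
  set b : (↥(W₁ ⊔ W₂) →* ℂˣ) → ℂ := fun ω => classInner f (fun v => (ω v : ℂ)) with hb
  have hrel : ∀ φ ψ, IsLeft φ → IsRight ψ → b (φ * ψ) = b φ + b ψ - b 1 := by
    intro φ ψ hφ hψ
    by_cases hφ1 : φ = 1
    · rw [hφ1, homOneMul]; ring
    by_cases hψ1 : ψ = 1
    · rw [hψ1, homMulOne]; ring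
    have h := horth φ ψ hφ hψ hφ1 hψ1
    rw [tiAlpha_eq, inner_add_right, inner_sub_right, inner_sub_right] at h
    simp only [hb]
    linear_combination h
  -- expansion in the linear characters
  have hexp : f w = ∑ ω : ↥(W₁ ⊔ W₂) →* ℂˣ, b ω * (ω w : ℂ) := by
    have h := congrFun (classFunction_eq_sum f fun a c => by
      congr 1; rw [mul_comm c a, mul_inv_cancel_right]) w
    rw [Finset.sum_apply] at h
    rw [h]
    symm
    refine Finset.sum_bij (fun ω _ => ⟨fun g => (ω g : ℂ), isIrrCharacter_hom ω⟩)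
      (fun _ _ => Finset.mem_univ _) (fun a _ c _ e => homFn_injective (congrArg Subtype.val e))
      (fun ξ _ => ?_) fun ω _ => by simp [hb]
    obtain ⟨ω, hω⟩ := exists_hom_of_irr_comm (fun a c => mul_comm a c) ξ.2
    exact ⟨ω, Finset.mem_univ _, Subtype.ext hω.symm⟩
  set X₁ := Finset.univ.filter fun ω : ↥(W₁ ⊔ W₂) →* ℂˣ => IsLeft ω with hX₁
  set X₂ := Finset.univ.filter fun ω : ↥(W₁ ⊔ W₂) →* ℂˣ => IsRight ω with hX₂
  have hpairs : ∑ ω : ↥(W₁ ⊔ W₂) →* ℂˣ, b ω * (ω w : ℂ) =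
      ∑ φ ∈ X₁, ∑ ψ ∈ X₂, (b φ + b ψ - b 1) * ((φ w : ℂ) * (ψ w : ℂ)) := by
    rw [← Finset.sum_product']
    symm
    refine Finset.sum_bij (fun p _ => p.1 * p.2) (fun _ _ => Finset.mem_univ _)
      (fun p hp q hq e => ?_) (fun ω _ => ?_) fun p hp => ?_
    · rw [Finset.mem_product, hX₁, hX₂, Finset.mem_filter, Finset.mem_filter] at hp hq
      obtain ⟨e1, e2⟩ := eq_and_eq_of_mul_eq hcomm hp.1.2 hq.1.2 hp.2.2 hq.2.2 e
      exact Prod.ext e1 e2
    · obtain ⟨φ, ψ, hφ, hψ, e⟩ := exists_split hdisj hcomm ω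
      exact ⟨(φ, ψ), by simp [hX₁, hX₂, hφ, hψ], e⟩
    · rw [Finset.mem_product, hX₁, hX₂, Finset.mem_filter, Finset.mem_filter] at hp
      rw [hrel _ _ hp.1.2 hp.2.2, MonoidHom.mul_apply, Units.val_mul]
  have hsep : ∀ v : ↥(W₁ ⊔ W₂), v ≠ 1 → ∃ ω : ↥(W₁ ⊔ W₂) →* ℂˣ, (ω v : ℂ) ≠ 1 := fun v hv => by
    by_contra hcon
    push Not at hcon
    refine hv (isConj_one_right.mp (((isConj_iff_irr_eq 1 v).mpr fun ξ => ?_)))
    obtain ⟨ω, hω⟩ := exists_hom_of_irr_comm (fun a c => mul_comm a c) ξ.2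
    rw [hω]; simp [hcon ω]
  -- the sum of each family at `w` vanishes
  have hsum : ∀ X : Finset (↥(W₁ ⊔ W₂) →* ℂˣ), (∀ a ∈ X, ∀ c ∈ X, a * c ∈ X) →
      (∃ c ∈ X, (c w : ℂ) ≠ 1) → ∑ ω ∈ X, (ω w : ℂ) = 0 := fun X hX ⟨c, hc, hcw⟩ => by
    have hinj : Function.Injective fun ω : ↥(W₁ ⊔ W₂) →* ℂˣ => c * ω := mul_right_injective c
    have himg : X.image (fun ω => c * ω) = X := Finset.eq_of_subset_of_card_le
      (Finset.image_subset_iff.mpr fun a ha => hX c hc a ha)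
      (Finset.card_image_of_injective X hinj).ge
    have h1 : ∑ ω ∈ X, (ω w : ℂ) = (c w : ℂ) * ∑ ω ∈ X, (ω w : ℂ) := by
      conv_lhs => rw [← himg, Finset.sum_image fun a _ d _ e => hinj e]
      rw [Finset.mul_sum]
      exact Finset.sum_congr rfl fun ω _ => by rw [MonoidHom.mul_apply, Units.val_mul]
    have h2 : ((c w : ℂ) - 1) * ∑ ω ∈ X, (ω w : ℂ) = 0 := by linear_combination -h1
    exact (mul_eq_zero.mp h2).resolve_left (sub_ne_zero.mpr hcw)
  have h1 : ∑ φ ∈ X₁, (φ w : ℂ) = 0 := by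
    refine hsum X₁ (fun a ha c hc => ?_) ?_
    · simp only [hX₁, Finset.mem_filter, Finset.mem_univ, true_and] at ha hc ⊢
      exact fun v hv => by rw [MonoidHom.mul_apply, ha v hv, hc v hv, one_mul]
    · obtain ⟨a, c, ha, hc, hac⟩ := exists_decomp hcomm w
      have ha1 : a ≠ 1 := fun e => hw₂ (by rw [hac, e, one_mul]; exact hc)
      obtain ⟨ω, hω⟩ := hsep a ha1
      obtain ⟨φ, ψ, hφ, hψ, rfl⟩ := exists_split hdisj hcomm ω
      refine ⟨φ, by simp [hX₁, hφ], ?_⟩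
      rw [hac, map_mul, hφ c hc, mul_one]
      rwa [MonoidHom.mul_apply, hψ a ha, mul_one] at hω
  have h2 : ∑ ψ ∈ X₂, (ψ w : ℂ) = 0 := by
    refine hsum X₂ (fun a ha c hc => ?_) ?_
    · simp only [hX₂, Finset.mem_filter, Finset.mem_univ, true_and] at ha hc ⊢
      exact fun v hv => by rw [MonoidHom.mul_apply, ha v hv, hc v hv, one_mul]
    · obtain ⟨a, c, ha, hc, hac⟩ := exists_decomp hcomm w
      have hc1 : c ≠ 1 := fun e => hw₁ (by rw [hac, e, mul_one]; exact ha)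
      obtain ⟨ω, hω⟩ := hsep c hc1
      obtain ⟨φ, ψ, hφ, hψ, rfl⟩ := exists_split hdisj hcomm ω
      refine ⟨ψ, by simp [hX₂, hψ], ?_⟩
      rw [hac, map_mul, hψ a ha, one_mul]
      rwa [MonoidHom.mul_apply, hφ c hc, one_mul] at hω
  show f w = 0
  rw [hexp, hpairs, Finset.sum_congr rfl (g := fun φ => (b φ - b 1) * (φ w : ℂ) * ∑ ψ ∈ X₂, (ψ w : ℂ) +
      (φ w : ℂ) * ∑ ψ ∈ X₂, b ψ * (ψ w : ℂ)) (fun φ _ => by
    rw [Finset.mul_sum, Finset.mul_sum, ← Finset.sum_add_distrib]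
    exact Finset.sum_congr rfl fun ψ _ => by ring)]
  simp only [h2, mul_zero, zero_add]
  rw [← Finset.sum_mul, h1, zero_mul]

section signed

variable (G : Type u) [Group G]

/-- Irreducible characters up to sign. -/
abbrev SignedIrr : Type u := {f : G → ℂ // IsIrrCharacter G f ∨ IsIrrCharacter G (-f)}

variable {G}

/-- The opposite sign. -/
def sneg (x : SignedIrr G) : SignedIrr G :=
  ⟨-x.1, x.2.symm.imp id fun h => by rwa [neg_neg]⟩

theorem sneg_invol : Function.Involutive (sneg (G := G)) := fun x => Subtype.ext (neg_neg x.1)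

variable [Fintype G]

theorem signed_self (x : SignedIrr G) : classInner x.1 x.1 = 1 := by
  rcases x.2 with h | h
  · exact irr_inner_self h
  · rw [← irr_inner_self h, inner_neg_left, inner_neg_right, neg_neg]

theorem sneg_ne (x : SignedIrr G) : x ≠ sneg x := by
  intro e
  have h := signed_self x
  have h2 : x.1 = -x.1 := congrArg Subtype.val e
  rw [show x.1 = 0 from funext fun g => by
    have := congrFun h2 g
    simp only [Pi.neg_apply] at this
    show x.1 g = 0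
    linear_combination this / 2, inner_zero_left] at h
  exact zero_ne_one h

open scoped Classical in
theorem signed_inner (x y : SignedIrr G) :
    classInner x.1 y.1 = (if x = y then 1 else 0) - (if sneg x = y then 1 else 0) := by
  rcases eq_or_ne x y with rfl | hne
  · rw [if_pos rfl, if_neg (sneg_ne x).symm, signed_self, sub_zero]
  rw [if_neg hne]
  rcases eq_or_ne (sneg x) y with rfl | hne'
  · rw [if_pos rfl]
    show classInner x.1 (-x.1) = _
    rw [inner_neg_right, signed_self, zero_sub]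
  rw [if_neg hne', sub_zero]
  have h1 : x.1 ≠ y.1 := fun e => hne (Subtype.ext e)
  have h2 : -x.1 ≠ y.1 := fun e => hne' (Subtype.ext e)
  rcases x.2 with hx | hx <;> rcases y.2 with hy | hy
  · exact irr_inner_ne hx hy h1
  · rw [← neg_neg y.1, inner_neg_right, irr_inner_ne hx hy (fun e => h2 (by rw [e, neg_neg])),
      neg_zero]
  · rw [← neg_neg x.1, inner_neg_left, irr_inner_ne hx hy h2, neg_zero]
  · rw [← neg_neg x.1, ← neg_neg y.1, inner_neg_left, inner_neg_right,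
      irr_inner_ne hx hy (fun e => h1 (neg_injective e)), neg_zero, neg_zero]

open scoped Classical in
theorem signed_inner_sum (P Q : Finset (SignedIrr G)) :
    classInner (∑ x ∈ P, x.1) (∑ y ∈ Q, y.1) =
      ((P.filter (fun x => x ∈ Q)).card : ℂ) - ((P.filter (fun x => sneg x ∈ Q)).card : ℂ) := by
  rw [inner_sum_left, Finset.card_filter, Finset.card_filter, Nat.cast_sum, Nat.cast_sum,
    ← Finset.sum_sub_distrib]
  refine Finset.sum_congr rfl fun x _ => ?_
  rw [inner_sum_right, Finset.sum_congr rfl (fun y _ => signed_inner x y), Finset.sum_sub_distrib,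
    Finset.sum_ite_eq, Finset.sum_ite_eq]
  push_cast
  rfl

open scoped Classical in
/-- A virtual character of norm three is a good signed triple. -/
theorem exists_triple {θ : G → ℂ} (hθ : IsGeneralizedCharacter G θ) (h : classInner θ θ = 3) :
    ∃ P : Finset (SignedIrr G), TIGrid.Good sneg P ∧ θ = ∑ x ∈ P, x.1 := by
  obtain ⟨c, hc, hexp, hnorm⟩ := genChar_coeffs hθ
  rw [h] at hnorm
  have hsum : ∑ χ : IrrCharacter G, c χ ^ 2 = 3 := by exact_mod_cast hnorm.symm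
  set T := Finset.univ.filter fun χ : IrrCharacter G => c χ ≠ 0 with hT
  have hsq : ∀ χ ∈ T, c χ = 1 ∨ c χ = -1 := fun χ hχ => by
    have h2 : c χ ^ 2 ≤ 3 :=
      hsum ▸ Finset.single_le_sum (f := fun χ => c χ ^ 2) (fun _ _ => sq_nonneg _) (Finset.mem_univ χ)
    have h0 : c χ ≠ 0 := (Finset.mem_filter.mp hχ).2
    have hu : c χ ≤ 1 := by nlinarith
    have hl : -1 ≤ c χ := by nlinarith
    omega
  have hcard : T.card = 3 := by
    rw [← Finset.sum_filter_of_ne (p := fun χ : IrrCharacter G => c χ ≠ 0)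
      (fun χ _ hne hz => hne (by rw [hz]; rfl)), ← hT,
      Finset.sum_congr rfl (g := fun _ => (1 : ℤ)) (fun χ hχ => by
        rcases hsq χ hχ with e | e <;> rw [e] <;> norm_num)] at hsum
    simp only [Finset.sum_const, nsmul_eq_mul, mul_one] at hsum
    exact_mod_cast hsum
  let sg : IrrCharacter G → SignedIrr G := fun χ =>
    if c χ = -1 then sneg ⟨χ.1, Or.inl χ.2⟩ else ⟨χ.1, Or.inl χ.2⟩
  have hval : ∀ χ : IrrCharacter G, (sg χ).1 = χ.1 ∨ (sg χ).1 = -χ.1 := fun χ => by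
    simp only [sg]; split_ifs
    · exact Or.inr rfl
    · exact Or.inl rfl
  have habs : ∀ χ ξ : IrrCharacter G, ((sg χ).1 = (sg ξ).1 ∨ (sg χ).1 = -(sg ξ).1) → χ = ξ := by
    intro χ ξ he
    by_contra hne
    have h0 := irr_inner_ne χ.2 ξ.2 fun e => hne (Subtype.ext e)
    have h1 := irr_inner_self χ.2
    have hcases : (χ.1 : G → ℂ) = ξ.1 ∨ (χ.1 : G → ℂ) = -ξ.1 := by
      rcases hval χ with e1 | e1 <;> rcases hval ξ with e2 | e2 <;> rcases he with e3 | e3 <;>
        (rw [e1, e2] at e3; try simp only [neg_neg, neg_inj] at e3) <;>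
        first
          | exact Or.inl e3
          | exact Or.inr e3
          | exact Or.inr (neg_eq_iff_eq_neg.mp e3)
    rcases hcases with e | e
    · exact hne (Subtype.ext e)
    · rw [e, inner_neg_left] at h0
      rw [neg_eq_zero, irr_inner_self ξ.2] at h0
      exact one_ne_zero h0
  refine ⟨T.image sg, ⟨?_, ?_⟩, ?_⟩
  · rw [Finset.card_image_of_injective _ (fun χ ξ e => habs χ ξ (Or.inl (congrArg Subtype.val e))),
      hcard]
  · intro x hx hx'
    obtain ⟨χ, -, rfl⟩ := Finset.mem_image.mp hx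
    obtain ⟨ξ, -, e⟩ := Finset.mem_image.mp hx'
    have hξ := habs ξ χ (Or.inr (congrArg Subtype.val e))
    rw [hξ] at e
    exact sneg_ne _ e
  · rw [Finset.sum_image fun χ _ ξ _ e => habs χ ξ (Or.inl (congrArg Subtype.val e)), hexp,
      ← Finset.sum_filter_of_ne (p := fun χ : IrrCharacter G => c χ ≠ 0)
        (fun χ _ hne hz => hne (by simp [hz])), ← hT]
    refine Finset.sum_congr rfl fun χ hχ => ?_
    rcases hsq χ hχ with e | e <;> simp [sg, e, sneg]

open scoped Classical in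
/-- Counting form of the line and crossing relations. -/
theorem triples_rel {P Q : Finset (SignedIrr G)}
    (hP : TIGrid.Good sneg P) (hQ : TIGrid.Good sneg Q)
    (h1 : (∑ x ∈ P, x.1) 1 = (∑ x ∈ Q, x.1) 1) :
    (classInner (∑ x ∈ P, x.1) (∑ y ∈ Q, y.1) = 1 → TIGrid.Adj sneg P Q) ∧
      (classInner (∑ x ∈ P, x.1) (∑ y ∈ Q, y.1) = 0 → TIGrid.Cross sneg P Q) := by
  rw [signed_inner_sum]
  set A := P.filter (fun x => x ∈ Q) with hA
  set B := P.filter (fun x => sneg x ∈ Q) with hB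
  have hmemA : ∀ x, x ∈ A ↔ x ∈ P ∧ x ∈ Q := fun x => Finset.mem_filter
  have hmemB : ∀ x, x ∈ B ↔ x ∈ P ∧ sneg x ∈ Q := fun x => Finset.mem_filter
  have hle : A.card + B.card ≤ 3 := by
    rw [← hP.1, ← Finset.card_union_of_disjoint]
    · exact Finset.card_le_card
        (Finset.union_subset (fun x hx => ((hmemA x).mp hx).1) fun x hx => ((hmemB x).mp hx).1)
    · rw [Finset.disjoint_left]
      exact fun x hx hx' => hQ.2 x ((hmemA x).mp hx).2 ((hmemB x).mp hx').2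
  constructor <;> intro h
  · have h' : A.card = B.card + 1 := by
      exact_mod_cast (by linear_combination h : (A.card : ℂ) = (B.card : ℂ) + 1)
    rcases Nat.eq_zero_or_pos B.card with h0 | h0
    · rw [h0] at h'
      obtain ⟨e, he⟩ := Finset.card_eq_one.mp h'
      exact ⟨⟨e, fun x => by rw [← hmemA, he, Finset.mem_singleton]⟩, fun x hx hx' =>
        Finset.card_eq_zero.mp h0 ▸ Finset.notMem_empty x <| (hmemB x).mpr ⟨hx, hx'⟩⟩
    · -- three points in common would force a character to vanish at the identity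
      exfalso
      obtain ⟨x, y, hxy, hAxy⟩ := Finset.card_eq_two.mp (show A.card = 2 by omega)
      obtain ⟨z, hBz⟩ := Finset.card_eq_one.mp (show B.card = 1 by omega)
      obtain ⟨hxP, hxQ⟩ := (hmemA x).mp (by rw [hAxy]; simp)
      obtain ⟨hyP, hyQ⟩ := (hmemA y).mp (by rw [hAxy]; simp)
      obtain ⟨hzP, hzQ⟩ := (hmemB z).mp (by rw [hBz]; simp)
      have hzx : x ≠ z := fun e => hQ.2 x hxQ (e ▸ hzQ)
      have hzy : y ≠ z := fun e => hQ.2 y hyQ (e ▸ hzQ)
      have hzx' : x ≠ sneg z := fun e => hP.2 z hzP (e ▸ hxP)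
      have hzy' : y ≠ sneg z := fun e => hP.2 z hzP (e ▸ hyP)
      rw [TIGrid.eq_triple hP.1 hxP hyP hzP hxy hzx hzy,
        TIGrid.eq_triple hQ.1 hxQ hyQ hzQ hxy hzx' hzy', Finset.sum_insert (by simp [hxy, hzx]),
        Finset.sum_pair hzy, Finset.sum_insert (by simp [hxy, hzx']), Finset.sum_pair hzy'] at h1
      simp only [Pi.add_apply] at h1
      have hz0 : z.1 1 = 0 := by
        have : (sneg z).1 1 = -z.1 1 := rfl
        rw [this] at h1
        linear_combination h1 / 2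
      rcases z.2 with hz | hz
      · exact irr_apply_one_ne_zero hz hz0
      · exact irr_apply_one_ne_zero hz (by simp [hz0])
  · have h' : A.card = B.card := by
      exact_mod_cast (by linear_combination h : (A.card : ℂ) = (B.card : ℂ))
    rcases Nat.eq_zero_or_pos B.card with h0 | h0
    · rw [h0] at h'
      exact Or.inl fun x hx => ⟨fun hx' => by
          have := (hmemA x).mpr ⟨hx, hx'⟩
          rw [Finset.card_eq_zero.mp h'] at this; exact absurd this (Finset.notMem_empty x),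
        fun hx' => by
          have := (hmemB x).mpr ⟨hx, hx'⟩
          rw [Finset.card_eq_zero.mp h0] at this; exact absurd this (Finset.notMem_empty x)⟩
    · obtain ⟨e, he⟩ := Finset.card_eq_one.mp (show A.card = 1 by omega)
      obtain ⟨f, hf⟩ := Finset.card_eq_one.mp (show B.card = 1 by omega)
      exact Or.inr ⟨e, f, fun x => by rw [← hmemA, he, Finset.mem_singleton],
        fun x => by rw [← hmemB, hf, Finset.mem_singleton]⟩

end signed

/-- The numbers of linear characters trivial on one of the factors. -/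
theorem card_left_right [Finite G] (hW : IsSelfNormalizingCyclic W₁ W₂) :
    Nat.card {φ : ↥(W₁ ⊔ W₂) →* ℂˣ // IsLeft φ} = Nat.card W₁ ∧
      Nat.card {ψ : ↥(W₁ ⊔ W₂) →* ℂˣ // IsRight ψ} = Nat.card W₂ ∧
      Nat.card ↥(W₁ ⊔ W₂) = Nat.card W₁ * Nat.card W₂ ∧ Nat.card W₁ ≠ Nat.card W₂ := by
  classical
  haveI := Fintype.ofFinite G
  obtain ⟨hne₁, -, hdisj, hcomm, hcyc, -⟩ := id hW
  haveI := hcyc
  haveI hc₁ : IsCyclic W₁ := Subgroup.isCyclic_of_le (le_sup_left : W₁ ≤ W₁ ⊔ W₂)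
  haveI hc₂ : IsCyclic W₂ := Subgroup.isCyclic_of_le (le_sup_right : W₂ ≤ W₁ ⊔ W₂)
  have hfull : ∀ (U : Subgroup G), IsCyclic U → Nat.card (U →* ℂˣ) = Nat.card U := fun U hU => by
    letI := @IsCyclic.commGroup _ _ hU
    haveI := Fintype.ofFinite U
    rw [Nat.card_congr linCharEquiv, Nat.card_congr (Equiv.subtypeUnivEquiv fun χ =>
      irr_degree_one_of_comm (fun a b : U => mul_comm a b) χ.2), card_irrCharacter,
      Nat.card_congr (ConjClasses.mkEquiv (α := U)).symm]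
  set i₁ : W₁ →* ↥(W₁ ⊔ W₂) := Subgroup.inclusion le_sup_left
  set i₂ : W₂ →* ↥(W₁ ⊔ W₂) := Subgroup.inclusion le_sup_right
  let f : W₁ × W₂ →* ↥(W₁ ⊔ W₂) :=
    i₁.noncommCoprod i₂ fun a b => Subtype.ext (hcomm a a.2 b b.2)
  have hf : Function.Bijective f := by
    refine ⟨(injective_iff_map_eq_one f).mpr fun x hx => ?_, fun w => ?_⟩
    · have h1 : (x.1 : G) * x.2 = 1 := congrArg Subtype.val hx
      have h2 : (x.1 : G) ∈ W₁ ⊓ W₂ :=
        ⟨x.1.2, by rw [mul_eq_one_iff_eq_inv.mp h1]; exact W₂.inv_mem x.2.2⟩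
      rw [hdisj, Subgroup.mem_bot] at h2
      rw [h2, one_mul] at h1
      exact Prod.ext (Subtype.ext h2) (Subtype.ext h1)
    · obtain ⟨a, b, ha, hb, rfl⟩ := exists_decomp hcomm w
      exact ⟨(⟨a, ha⟩, ⟨b, hb⟩), rfl⟩
  let e := MulEquiv.ofBijective f hf
  have hcardW : Nat.card ↥(W₁ ⊔ W₂) = Nat.card W₁ * Nat.card W₂ := by
    rw [← Nat.card_congr e.toEquiv, Nat.card_prod]
  refine ⟨?_, ?_, hcardW, ?_⟩
  · rw [← hfull W₁ hc₁]
    refine Nat.card_congr (Equiv.ofBijective (fun a => a.1.comp i₁) ⟨fun a b h => ?_, fun l => ?_⟩)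
    · exact Subtype.ext (hom_ext_parts hcomm (fun w hw => DFunLike.congr_fun h ⟨(w : G), hw⟩)
        fun w hw => by rw [a.2 w hw, b.2 w hw])
    · refine ⟨⟨l.comp ((MonoidHom.fst W₁ W₂).comp e.symm.toMonoidHom), fun w hw => ?_⟩,
        MonoidHom.ext fun w => ?_⟩
      · have : e.symm w = (1, ⟨(w : G), hw⟩) := e.symm_apply_eq.mpr (Subtype.ext (one_mul _).symm)
        show l (e.symm w).1 = 1
        rw [this, map_one]
      · have : e.symm (i₁ w) = (w, 1) := e.symm_apply_eq.mpr (Subtype.ext (mul_one _).symm)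
        show l (e.symm (i₁ w)).1 = l w
        rw [this]
  · rw [← hfull W₂ hc₂]
    refine Nat.card_congr (Equiv.ofBijective (fun a => a.1.comp i₂) ⟨fun a b h => ?_, fun l => ?_⟩)
    · exact Subtype.ext (hom_ext_parts hcomm (fun w hw => by rw [a.2 w hw, b.2 w hw])
        fun w hw => DFunLike.congr_fun h ⟨(w : G), hw⟩)
    · refine ⟨⟨l.comp ((MonoidHom.snd W₁ W₂).comp e.symm.toMonoidHom), fun w hw => ?_⟩,
        MonoidHom.ext fun w => ?_⟩
      · have : e.symm w = (⟨(w : G), hw⟩, 1) := e.symm_apply_eq.mpr (Subtype.ext (mul_one _).symm)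
        show l (e.symm w).2 = 1
        rw [this, map_one]
      · have : e.symm (i₂ w) = (1, w) := e.symm_apply_eq.mpr (Subtype.ext (one_mul _).symm)
        show l (e.symm (i₂ w)).2 = l w
        rw [this]
  · intro heq
    have h1 := (Subgroup.one_lt_card_iff_ne_bot W₁).mpr hne₁
    obtain ⟨g, hg⟩ := IsCyclic.exists_generator (α := ↥(W₁ ⊔ W₂))
    have hord : orderOf g = Nat.card ↥(W₁ ⊔ W₂) := orderOf_eq_card_of_forall_mem_zpowers hg
    have hdvd : orderOf g ∣ Nat.card W₁ := by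
      refine orderOf_dvd_of_pow_eq_one (e.symm.injective (Prod.ext ?_ ?_))
      · rw [map_pow, map_one]; exact pow_card_eq_one'
      · rw [map_pow, map_one, heq]; exact pow_card_eq_one'
    rw [hord, hcardW, ← heq] at hdvd
    have := Nat.le_of_dvd (by omega) hdvd
    nlinarith

open scoped Classical in
/-- Existence of the family attached to a self-normalising cyclic pair. -/
theorem exists_cyclicTIFamily [Fintype G] (hW : IsSelfNormalizingCyclic W₁ W₂)
    (hodd : Odd (Nat.card ↥(W₁ ⊔ W₂))) :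
    ∃ χ : (↥(W₁ ⊔ W₂) →* ℂˣ) → (G → ℂ), IsCyclicTIFamily W₁ W₂ χ := by
  haveI := Fintype.ofFinite ↥(W₁ ⊔ W₂)
  obtain ⟨hne₁, hne₂, hdisj, hcomm, hcyc, -⟩ := id hW
  obtain ⟨hcL, hcR, hcW, hcne⟩ := card_left_right hW
  haveI hfinHom : Finite (↥(W₁ ⊔ W₂) →* ℂˣ) := Finite.of_injective
    (fun f => (⟨fun g => (f g : ℂ), isIrrCharacter_hom f⟩ : IrrCharacter ↥(W₁ ⊔ W₂)))
    fun a b e => homFn_injective (congrArg Subtype.val e)
  let LT := {φ : ↥(W₁ ⊔ W₂) →* ℂˣ // IsLeft φ ∧ φ ≠ 1}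
  let RT := {ψ : ↥(W₁ ⊔ W₂) →* ℂˣ // IsRight ψ ∧ ψ ≠ 1}
  let β : LT → RT → G → ℂ := fun φ ψ =>
    indFun (W₁ ⊔ W₂) (tiAlpha φ.1 ψ.1) - fun _ => 1
  have hone : IsIrrCharacter G (fun _ => (1 : ℂ)) := isIrrCharacter_one
  have hβgen : ∀ φ ψ, IsGeneralizedCharacter G (β φ ψ) := fun φ ψ => by
    refine isGenChar_sub (isGenChar_indFun ?_) (isGenChar_of_isCharacter isCharacter_one)
    rw [tiAlpha_eq]
    exact isGenChar_add (isGenChar_sub (isGenChar_sub (isGenChar_of_isCharacter (isCharacter_hom _))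
      (isGenChar_of_isCharacter (isCharacter_hom _))) (isGenChar_of_isCharacter (isCharacter_hom _)))
      (isGenChar_of_isCharacter (isCharacter_hom _))
  have hI1 : ∀ (φ : LT) (ψ : RT),
      classInner (indFun (W₁ ⊔ W₂) (tiAlpha φ.1 ψ.1)) (fun _ : G => (1 : ℂ)) = 1 :=
    fun φ ψ => ti_inner_one hW φ.2.1 ψ.2.1 φ.2.2 ψ.2.2
  have hβone : ∀ φ ψ, classInner (β φ ψ) (fun _ => 1) = 0 := fun φ ψ => by
    rw [inner_sub_left, hI1, irr_inner_self hone, sub_self]
  have hββ : ∀ φ φ' ψ ψ', classInner (β φ ψ) (β φ' ψ') = (if φ = φ' then 1 else 0) +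
      (if ψ = ψ' then 1 else 0) + (if φ = φ' then 1 else 0) * (if ψ = ψ' then 1 else 0) := by
    intro φ φ' ψ ψ'
    have h1 : classInner (fun _ : G => (1 : ℂ)) (indFun (W₁ ⊔ W₂) (tiAlpha φ'.1 ψ'.1)) = 1 := by
      rw [← inner_conj_symm, hI1, map_one]
    rw [inner_sub_left, inner_sub_right, inner_sub_right, hI1, h1, irr_inner_self hone,
      ti_inner hW φ.2.1 φ'.2.1 ψ.2.1 ψ'.2.1 φ.2.2 φ'.2.2 ψ.2.2 ψ'.2.2]
    have hi1 : (φ.1 = φ'.1) ↔ φ = φ' := ⟨fun e => Subtype.ext e, fun e => e ▸ rfl⟩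
    have hi2 : (ψ.1 = ψ'.1) ↔ ψ = ψ' := ⟨fun e => Subtype.ext e, fun e => e ▸ rfl⟩
    by_cases k1 : φ = φ' <;> by_cases k2 : ψ = ψ' <;> simp [k1, k2, hi1, hi2]
  have hβ1 : ∀ φ ψ, β φ ψ 1 = -1 := fun φ ψ => by
    show indFun (W₁ ⊔ W₂) (tiAlpha φ.1 ψ.1) 1 - 1 = -1
    rw [indFun_one_apply, show tiAlpha φ.1 ψ.1 1 = 0 by simp [tiAlpha], mul_zero, zero_sub]
  have hex : ∀ φ ψ, ∃ P : Finset (SignedIrr G), TIGrid.Good sneg P ∧ β φ ψ = ∑ x ∈ P, x.1 :=
    fun φ ψ => exists_triple (hβgen φ ψ) (by rw [hββ, if_pos rfl, if_pos rfl]; norm_num)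
  choose P hgood hsum using hex
  have hgrid : TIGrid.IsGrid sneg P := by
    refine ⟨sneg_invol, hgood, fun φ ψ ψ' h => ?_, fun φ φ' ψ h => ?_, fun φ φ' ψ ψ' h h' => ?_⟩
    · refine (triples_rel (hgood φ ψ) (hgood φ ψ') (by rw [← hsum, ← hsum, hβ1, hβ1])).1 ?_
      rw [← hsum, ← hsum, hββ, if_pos rfl, if_neg h]; ring
    · refine (triples_rel (hgood φ ψ) (hgood φ' ψ) (by rw [← hsum, ← hsum, hβ1, hβ1])).1 ?_
      rw [← hsum, ← hsum, hββ, if_neg h, if_pos rfl]; ring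
    · refine (triples_rel (hgood φ ψ) (hgood φ' ψ') (by rw [← hsum, ← hsum, hβ1, hβ1])).2 ?_
      rw [← hsum, ← hsum, hββ, if_neg h, if_neg h']; ring
  -- the sizes of the grid
  have hLT : Nat.card LT + 1 = Nat.card W₁ := by
    haveI := Fintype.ofFinite (↥(W₁ ⊔ W₂) →* ℂˣ)
    rw [← hcL, Nat.card_eq_fintype_card, Nat.card_eq_fintype_card, Fintype.card_subtype,
      Fintype.card_subtype, ← Finset.filter_filter, Finset.filter_ne',
      Finset.card_erase_add_one (by simp [isLeft_one])]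
  have hRT : Nat.card RT + 1 = Nat.card W₂ := by
    haveI := Fintype.ofFinite (↥(W₁ ⊔ W₂) →* ℂˣ)
    rw [← hcR, Nat.card_eq_fintype_card, Nat.card_eq_fintype_card, Fintype.card_subtype,
      Fintype.card_subtype, ← Finset.filter_filter, Finset.filter_ne',
      Finset.card_erase_add_one (by simp [isRight_one])]
  have h₁ := (Subgroup.one_lt_card_iff_ne_bot W₁).mpr hne₁
  have h₂ := (Subgroup.one_lt_card_iff_ne_bot W₂).mpr hne₂
  rw [hcW] at hodd
  obtain ⟨hodd₁, hodd₂⟩ := Nat.odd_mul.mp hodd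
  obtain ⟨k₁, hk₁⟩ := hodd₁
  obtain ⟨k₂, hk₂⟩ := hodd₂
  obtain ⟨r, c, d, hP3, hinj, hneg⟩ :=
    hgrid.decompose (by omega) (by omega) (by omega)
  have honeP : ∀ (φ : LT) (ψ : RT) (x : SignedIrr G), x ∈ P φ ψ →
      classInner (fun _ => (1 : ℂ)) x.1 = 0 := by
    intro φ ψ x hx
    set one : SignedIrr G := ⟨fun _ => 1, Or.inl hone⟩ with hone'
    have h := hβone φ ψ
    rw [hsum, show (fun _ : G => (1 : ℂ)) = ∑ y ∈ ({one} : Finset (SignedIrr G)), y.1 by
      simp [hone'], signed_inner_sum] at h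
    have h' : ((P φ ψ).filter (fun y => y ∈ ({one} : Finset _))).card =
        ((P φ ψ).filter (fun y => sneg y ∈ ({one} : Finset _))).card := by
      exact_mod_cast sub_eq_zero.mp h
    show classInner one.1 x.1 = 0
    rw [signed_inner]
    have hno : one ∉ P φ ψ ∧ sneg one ∉ P φ ψ := by
      constructor <;> intro hm
      · have h1 : 0 < ((P φ ψ).filter (fun y => y ∈ ({one} : Finset _))).card :=
          Finset.card_pos.mpr ⟨one, by simp [hm]⟩
        obtain ⟨y, hy⟩ := Finset.card_pos.mp (h' ▸ h1)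
        simp only [Finset.mem_filter, Finset.mem_singleton] at hy
        exact (hgood φ ψ).2 y hy.1 (hy.2 ▸ hm)
      · have h1 : 0 < ((P φ ψ).filter (fun y => sneg y ∈ ({one} : Finset _))).card :=
          Finset.card_pos.mpr ⟨sneg one, by simp [hm, sneg_invol one]⟩
        obtain ⟨y, hy⟩ := Finset.card_pos.mp (h'.symm ▸ h1)
        simp only [Finset.mem_filter, Finset.mem_singleton] at hy
        exact (hgood φ ψ).2 y hy.1 (hy.2 ▸ hm)
    rw [if_neg (fun e : one = x => hno.1 (e ▸ hx)), if_neg (fun e : sneg one = x => hno.2 (e ▸ hx)),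
      sub_zero]
  haveI hneL : Nonempty LT := (Nat.card_pos_iff.mp (by omega)).1
  haveI hneR : Nonempty RT := (Nat.card_pos_iff.mp (by omega)).1
  let g : LT ⊕ RT ⊕ LT × RT → SignedIrr G := Sum.elim r (Sum.elim c fun p => d p.1 p.2)
  have hg0 : ∀ a, classInner (fun _ => (1 : ℂ)) (g a).1 = 0 := by
    obtain ⟨φ₀⟩ := hneL
    obtain ⟨ψ₀⟩ := hneR
    rintro (φ | ψ | ⟨φ, ψ⟩)
    · exact honeP φ ψ₀ _ (by rw [(hP3 φ ψ₀).1]; simp [g])
    · exact honeP φ₀ ψ _ (by rw [(hP3 φ₀ ψ).1]; simp [g])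
    · exact honeP φ ψ _ (by rw [(hP3 φ ψ).1]; simp [g])
  -- the family, indexed by `1`, the row, the column and the cell labels
  let X : Option (LT ⊕ RT ⊕ LT × RT) → (G → ℂ) := fun o => o.elim (fun _ => 1)
    (Sum.elim (fun φ => -(r φ).1) (Sum.elim (fun ψ => -(c ψ).1) fun p => (d p.1 p.2).1))
  have hXg : ∀ a, X (some a) = (g a).1 ∨ X (some a) = -(g a).1 := by
    rintro (φ | ψ | p)
    · exact Or.inr rfl
    · exact Or.inr rfl
    · exact Or.inl rfl
  have hXirr : ∀ o, IsIrrCharacter G (X o) ∨ IsIrrCharacter G (-X o) := by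
    rintro (_ | a)
    · exact Or.inl hone
    · rcases hXg a with e | e <;> rw [e]
      · exact (g a).2
      · rw [neg_neg]; exact (g a).2.symm
  have hXorth : ∀ o o', classInner (X o) (X o') = if o = o' then 1 else 0 := by
    intro o o'
    rcases eq_or_ne o o' with rfl | hne
    · rw [if_pos rfl]
      exact signed_self ⟨X o, hXirr o⟩
    rw [if_neg hne]
    rcases o with _ | a <;> rcases o' with _ | b
    · exact absurd rfl hne
    · show classInner (fun _ => (1 : ℂ)) (X (some b)) = 0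
      rcases hXg b with e | e <;> rw [e] <;> simp [inner_neg_right, hg0 b]
    · show classInner (X (some a)) (fun _ => (1 : ℂ)) = 0
      rw [← inner_conj_symm]
      rcases hXg a with e | e <;> rw [e] <;> simp [inner_neg_right, hg0 a]
    · have hab : a ≠ b := fun e => hne (by rw [e])
      have h0 : classInner (g a).1 (g b).1 = 0 := by
        rw [signed_inner, if_neg (fun e => hab (hinj e)),
          if_neg (fun e => hneg b a e.symm), sub_zero]
      rcases hXg a with e | e <;> rcases hXg b with e' | e' <;> rw [e, e'] <;>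
        simp [inner_neg_left, inner_neg_right, h0]
  -- transporting the indexing to linear characters
  choose pφ pψ hpφ hpψ hpe using fun ω : ↥(W₁ ⊔ W₂) →* ℂˣ => exists_split hdisj hcomm ω
  let idx : (↥(W₁ ⊔ W₂) →* ℂˣ) → Option (LT ⊕ RT ⊕ LT × RT) := fun ω =>
    if h : pφ ω = 1 then (if h' : pψ ω = 1 then none else some (.inr (.inl ⟨pψ ω, hpψ ω, h'⟩)))
    else if h' : pψ ω = 1 then some (.inl ⟨pφ ω, hpφ ω, h⟩)
    else some (.inr (.inr (⟨pφ ω, hpφ ω, h⟩, ⟨pψ ω, hpψ ω, h'⟩)))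
  let back : Option (LT ⊕ RT ⊕ LT × RT) → (↥(W₁ ⊔ W₂) →* ℂˣ) := fun o => o.elim 1
    (Sum.elim (fun φ => φ.1) (Sum.elim (fun ψ => ψ.1) fun p => p.1.1 * p.2.1))
  have hback : ∀ ω, back (idx ω) = ω := fun ω => by
    simp only [idx, back]
    split_ifs with h h' h'
    · conv_rhs => rw [← hpe ω, h, h', homMulOne]
      rfl
    · conv_rhs => rw [← hpe ω, h, homOneMul]
      rfl
    · conv_rhs => rw [← hpe ω, h', homMulOne]
      rfl
    · exact hpe ω
  have hsplit : ∀ φ ψ, IsLeft φ → IsRight ψ → pφ (φ * ψ) = φ ∧ pψ (φ * ψ) = ψ := fun φ ψ h h' =>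
    eq_and_eq_of_mul_eq hcomm (hpφ _) h (hpψ _) h' (hpe _)
  let χ : (↥(W₁ ⊔ W₂) →* ℂˣ) → (G → ℂ) := fun ω => X (idx ω)
  have hχorth : ∀ ω ω', classInner (χ ω) (χ ω') = if ω = ω' then 1 else 0 := fun ω ω' => by
    show classInner (X (idx ω)) (X (idx ω')) = _
    rw [hXorth]
    exact if_congr ⟨fun e => by rw [← hback ω, ← hback ω', e], fun e => by rw [e]⟩ rfl rfl
  have hχ1 : χ 1 = fun _ => 1 := by
    have h := hsplit 1 1 isLeft_one isRight_one
    rw [homMulOne] at h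
    show X (idx 1) = _
    simp only [idx, h.1, h.2, dite_true]
    rfl
  have hind : ∀ φ ψ : ↥(W₁ ⊔ W₂) →* ℂˣ, φ ≠ 1 → ψ ≠ 1 → IsLeft φ → IsRight ψ →
      indFun (W₁ ⊔ W₂) (tiAlpha φ ψ) = χ 1 - χ φ - χ ψ + χ (φ * ψ) := by
    intro φ ψ hφ1 hψ1 hφ hψ
    have e1 := hsplit φ 1 hφ isRight_one
    rw [homMulOne] at e1
    have e2 := hsplit 1 ψ isLeft_one hψ
    rw [homOneMul] at e2
    have e3 := hsplit φ ψ hφ hψ
    have hφX : χ φ = -(r ⟨φ, hφ, hφ1⟩).1 := by
      show X (idx φ) = _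
      simp only [idx, e1.1, e1.2, hφ1, dite_true, dite_false]
      rfl
    have hψX : χ ψ = -(c ⟨ψ, hψ, hψ1⟩).1 := by
      show X (idx ψ) = _
      simp only [idx, e2.1, e2.2, hψ1, dite_true, dite_false]
      rfl
    have hdX : χ (φ * ψ) = (d ⟨φ, hφ, hφ1⟩ ⟨ψ, hψ, hψ1⟩).1 := by
      show X (idx (φ * ψ)) = _
      simp only [idx, e3.1, e3.2, hφ1, hψ1, dite_false]
      rfl
    have h := hsum ⟨φ, hφ, hφ1⟩ ⟨ψ, hψ, hψ1⟩
    obtain ⟨h3, h4, h5, h6⟩ := hP3 ⟨φ, hφ, hφ1⟩ ⟨ψ, hψ, hψ1⟩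
    rw [h3, Finset.sum_insert (by simp [h4, h5]), Finset.sum_pair h6] at h
    rw [hχ1, hφX, hψX, hdX]
    funext x
    have hx := congrFun h x
    simp only [β, Pi.sub_apply, Pi.add_apply] at hx
    simp only [Pi.sub_apply, Pi.add_apply, Pi.neg_apply]
    linear_combination hx
  have hcl : ∀ ω, IsClassFunction G (χ ω) := fun ω => by
    rcases hXirr (idx ω) with h | h
    · exact isCharacter_classFunction h.isCharacter'
    · intro a b
      exact neg_injective (isCharacter_classFunction h.isCharacter' a b)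
  refine ⟨χ, fun ω => hXirr _, fun ω ω' => by convert hχorth ω ω', hχ1, fun ω w hw₁ hw₂ => ?_, fun φ ψ h1 h2 h3 h4 => ?_⟩
  · have h := vanish_of_orth_alpha hW (fun v => χ ω v - (ω v : ℂ)) (fun φ ψ hφ hψ hφ1 hψ1 => ?_)
      w hw₁ hw₂
    · exact sub_eq_zero.mp h
    rw [show (fun v : ↥(W₁ ⊔ W₂) => χ ω v - (ω v : ℂ)) =
      (fun v : ↥(W₁ ⊔ W₂) => χ ω v) - fun v => (ω v : ℂ) from rfl, inner_sub_left,
      ← frobenius_right (tiAlpha φ ψ) (χ ω) (hcl ω), hind φ ψ hφ1 hψ1 hφ hψ, inner_add_right,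
      inner_sub_right, inner_sub_right, hχorth, hχorth, hχorth, hχorth, inner_hom_tiAlpha, sub_self]
  · have h := hind φ ψ h1 h2 h3 h4
    rw [hχ1] at h
    exact h

end CfsgLib.Char
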