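import Mathlib
import Cfsg.Agent.Lib.CharLinear
import Cfsg.Agent.Lib.CharMisc
import Cfsg.Agent.Lib.CharVirtual

/-!
# Multiplicities along an abelian TI Sylow subgroup with uniform centralisers
-/

set_option autoImplicit false
set_option linter.unusedSectionVars false
set_option linter.style.haveILetI false

namespace CfsgLib.Uniform

open Cfsg CfsgLib.Char
open scoped ComplexConjugate

universe u

section Abelian

variable {A : Type u} [Group A] [Fintype A]

theorem irr_map_mul (hA : ∀ a b : A, a * b = b * a) (μ : IrrCharacter A) (a b : A) :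
    (μ : A → ℂ) (a * b) = (μ : A → ℂ) a * (μ : A → ℂ) b := by
  obtain ⟨f, hf⟩ := exists_hom_of_irr_comm hA μ.2
  rw [hf]
  simp

theorem irr_one (hA : ∀ a b : A, a * b = b * a) (μ : IrrCharacter A) : (μ : A → ℂ) 1 = 1 :=
  irr_degree_one_of_comm hA μ.2

theorem irr_ne_zero (hA : ∀ a b : A, a * b = b * a) (μ : IrrCharacter A) (a : A) :
    (μ : A → ℂ) a ≠ 0 := by
  intro h
  have h1 := irr_map_mul hA μ a a⁻¹
  rw [mul_inv_cancel, irr_one hA, h, zero_mul] at h1
  exact one_ne_zero h1

theorem irr_conj (hA : ∀ a b : A, a * b = b * a) (μ : IrrCharacter A) (a : A) :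
    conj ((μ : A → ℂ) a) = (μ : A → ℂ) a⁻¹ :=
  (isCharacter_inv_eq_conj μ.2.isCharacter' a).symm

theorem classFun_of_comm (hA : ∀ a b : A, a * b = b * a) (f : A → ℂ) : IsClassFunction A f := by
  intro g h
  rw [hA h g, mul_inv_cancel_right]

theorem sum_irr_at_one (hA : ∀ a b : A, a * b = b * a) (f : A → ℂ) :
    f 1 = ∑ μ : IrrCharacter A, classInner f (μ : A → ℂ) := by
  conv_lhs => rw [classFunction_eq_sum f (classFun_of_comm hA f)]
  simp [Finset.sum_apply, irr_one hA]

theorem card_irr (hA : ∀ a b : A, a * b = b * a) :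
    Fintype.card (IrrCharacter A) = Nat.card A := by
  have h := sum_degree_sq (G := A)
  simp only [irr_one hA, one_pow, Finset.sum_const, Finset.card_univ, nsmul_eq_mul, mul_one] at h
  exact_mod_cast h

/-- The trivial character. -/
noncomputable def one' : IrrCharacter A := ⟨fun _ => 1, isIrrCharacter_one⟩

theorem one'_apply (a : A) : (one' : IrrCharacter A).1 a = 1 := rfl

end Abelian

variable {G : Type u} [Group G] [Fintype G]

/-- Standing hypotheses. -/
structure Setting (p : ℕ) (P : Subgroup G) : Prop where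
  prime : p.Prime
  pgroup : IsPGroup p P
  max : ∀ Q : Subgroup G, IsPGroup p Q → P ≤ Q → Q = P
  comm : ∀ a ∈ P, ∀ b ∈ P, a * b = b * a
  star : ∀ x ∈ P, x ≠ 1 → Subgroup.centralizer ({x} : Set G) = Subgroup.centralizer (P : Set G)
  noncentral : P ⊓ Subgroup.center G = ⊥
  hone : ∀ g : G, g ∉ Subgroup.center G → ∀ a b : G,
      Subgroup.centralizer ({g} : Set G) ⊓ P.map (MulAut.conj a).toMonoidHom ≠ ⊥ →
      Subgroup.centralizer ({g} : Set G) ⊓ P.map (MulAut.conj b).toMonoidHom ≠ ⊥ →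
      P.map (MulAut.conj a).toMonoidHom = P.map (MulAut.conj b).toMonoidHom
  gen : ∀ M : Subgroup G, M.Normal → P ≤ M → M = ⊤

namespace Setting

variable {p : ℕ} {P : Subgroup G}

theorem comm' (S : Setting p P) (a b : P) : a * b = b * a := Subtype.ext (S.comm _ a.2 _ b.2)

/-- The `p`-elements normalising `P` lie in `P`. -/
theorem pelem_mem (S : Setting p P) {y : G} (hy : y ∈ Subgroup.normalizer (P : Set G)) {k : ℕ}
    (hk : orderOf y = p ^ k) : y ∈ P := by
  haveI := Fact.mk S.prime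
  have h1 : IsPGroup p (Subgroup.zpowers y) := IsPGroup.of_card (n := k) (by rw [Nat.card_zpowers, hk])
  have h2 : IsPGroup p ((Subgroup.zpowers y ⊔ P : Subgroup G)) :=
    h1.to_sup_of_normal_right' S.pgroup (Subgroup.zpowers_le.mpr hy)
  rw [← S.max _ h2 le_sup_right]
  exact Subgroup.mem_sup_left (Subgroup.mem_zpowers y)

theorem le_normalizer_of_comm (S : Setting p P) :
    Subgroup.centralizer (P : Set G) ≤ Subgroup.normalizer (P : Set G) := by
  intro c hc
  rw [Subgroup.mem_normalizer_iff]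
  intro x
  constructor
  · intro hx
    rw [← Subgroup.mem_centralizer_iff.mp hc x hx, mul_inv_cancel_right]
    exact hx
  · intro hx
    have h1 := Subgroup.mem_centralizer_iff.mp hc _ hx
    rw [inv_mul_cancel_right] at h1
    rw [mul_left_cancel h1]
    exact hx

/-- The TI property. -/
theorem mem_normalizer_of_conj (S : Setting p P) {x g : G} (hx : x ∈ P) (hx1 : x ≠ 1)
    (hg : g⁻¹ * x * g ∈ Subgroup.normalizer (P : Set G)) : g ∈ Subgroup.normalizer (P : Set G) := by
  haveI := Fact.mk S.prime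
  set y := g⁻¹ * x * g with hy
  have hord : ∀ a ∈ P, ∃ k, orderOf (g⁻¹ * a * g) = p ^ k := by
    intro a ha
    obtain ⟨k, hk⟩ := IsPGroup.iff_orderOf.mp S.pgroup ⟨a, ha⟩
    refine ⟨k, ?_⟩
    rw [show g⁻¹ * a * g = MulAut.conj g⁻¹ a by simp, MulEquiv.orderOf_eq, ← hk, Subgroup.orderOf_mk]
  obtain ⟨k, hk⟩ := hord x hx
  have hyP : y ∈ P := S.pelem_mem hg hk
  have hy1 : y ≠ 1 := fun e => hx1 (by
    have : x = g * y * g⁻¹ := by rw [hy]; group
    rw [this, e]; group)
  have hmap : P.map (MulAut.conj g⁻¹).toMonoidHom = P := by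
    refine Subgroup.eq_of_le_of_card_ge ?_ (Subgroup.card_map_of_injective (MulEquiv.injective _)).ge
    rintro _ ⟨a, ha, rfl⟩
    show g⁻¹ * a * g⁻¹⁻¹ ∈ P
    rw [inv_inv]
    obtain ⟨j, hj⟩ := hord a ha
    refine S.pelem_mem (S.le_normalizer_of_comm ?_) hj
    rw [← S.star y hyP hy1, Subgroup.mem_centralizer_singleton_iff]
    calc g⁻¹ * a * g * y = g⁻¹ * (a * x) * g := by rw [hy]; group
      _ = g⁻¹ * (x * a) * g := by rw [S.comm a ha x hx]
      _ = y * (g⁻¹ * a * g) := by rw [hy]; group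
  have h := (Subgroup.mem_normalizer_iff_map_conj_eq (H := P) (g := g⁻¹)).mpr hmap
  simpa using inv_mem h

theorem ti (S : Setting p P) : ∀ g : G, g ∉ Subgroup.normalizer (P : Set G) → ∀ x ∈ P,
    g⁻¹ * x * g ∈ Subgroup.normalizer (P : Set G) → x = 1 :=
  fun _ hg _ hx h => by_contra fun hne => hg (S.mem_normalizer_of_conj hx hne h)

/-- Conjugation by an element of the normaliser. -/
def cj (S : Setting p P) (n : Subgroup.normalizer (P : Set G)) : P →* P where
  toFun a := ⟨(n : G) * a * (n : G)⁻¹, (Subgroup.mem_normalizer_iff.mp n.2 a).mp a.2⟩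
  map_one' := Subtype.ext (by simp)
  map_mul' a b := Subtype.ext (by simp [mul_assoc])

theorem cj_surjective (S : Setting p P) (n : Subgroup.normalizer (P : Set G)) :
    Function.Surjective (S.cj n) := fun b =>
  ⟨⟨(n : G)⁻¹ * b * n, by
      have := (Subgroup.mem_normalizer_iff.mp (inv_mem n.2) (b : G)).mp b.2
      rwa [inv_inv] at this⟩, Subtype.ext (by simp [cj, mul_assoc])⟩

/-- The action of the normaliser on the characters of `P`. -/
def act (S : Setting p P) (n : Subgroup.normalizer (P : Set G)) (μ : IrrCharacter P) : IrrCharacter P :=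
  ⟨(μ : P → ℂ) ∘ S.cj n, isIrrCharacter_comp_surjective μ.2 (S.cj n) (S.cj_surjective n)⟩

theorem act_apply (S : Setting p P) (n : Subgroup.normalizer (P : Set G)) (μ : IrrCharacter P) (a : P) :
    (S.act n μ : P → ℂ) a = (μ : P → ℂ) (S.cj n a) := rfl

theorem act_mul (S : Setting p P) (m n : Subgroup.normalizer (P : Set G)) (μ : IrrCharacter P) :
    S.act n (S.act m μ) = S.act (m * n) μ := by
  refine Subtype.ext (funext fun a => ?_)
  show (μ : P → ℂ) (S.cj m (S.cj n a)) = (μ : P → ℂ) (S.cj (m * n) a)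
  exact congrArg _ (Subtype.ext (by simp [cj, mul_assoc]))

theorem act_one (S : Setting p P) (μ : IrrCharacter P) : S.act 1 μ = μ := by
  refine Subtype.ext (funext fun a => ?_)
  show (μ : P → ℂ) (S.cj 1 a) = (μ : P → ℂ) a
  exact congrArg _ (Subtype.ext (by simp [cj]))

theorem act_of_mem (S : Setting p P) (n : Subgroup.normalizer (P : Set G))
    (hn : (n : G) ∈ Subgroup.centralizer (P : Set G)) (μ : IrrCharacter P) : S.act n μ = μ := by
  refine Subtype.ext (funext fun a => ?_)
  show (μ : P → ℂ) (S.cj n a) = (μ : P → ℂ) a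
  refine congrArg _ (Subtype.ext ?_)
  show (n : G) * a * (n : G)⁻¹ = a
  rw [← Subgroup.mem_centralizer_iff.mp hn a a.2, mul_inv_cancel_right]

/-- The normaliser modulo the centraliser acts freely on the nontrivial characters. -/
theorem act_free (S : Setting p P) (n : Subgroup.normalizer (P : Set G)) {μ : IrrCharacter P}
    (hμ : μ ≠ one') (h : S.act n μ = μ) : (n : G) ∈ Subgroup.centralizer (P : Set G) := by
  classical
  by_contra hn
  haveI : Fintype P := Fintype.ofFinite _
  have hinj : Function.Injective fun a : P => S.cj n a * a⁻¹ := by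
    intro a b e
    have e' : S.cj n (a * b⁻¹) = a * b⁻¹ := by
      have e1 : S.cj n a * a⁻¹ = S.cj n b * b⁻¹ := e
      rw [map_mul, map_inv]
      calc S.cj n a * (S.cj n b)⁻¹ = (S.cj n a * a⁻¹) * a * (S.cj n b)⁻¹ := by group
        _ = (S.cj n b * b⁻¹) * a * (S.cj n b)⁻¹ := by rw [e1]
        _ = a * b⁻¹ := by
            rw [S.comm' (S.cj n b) b⁻¹, mul_assoc b⁻¹, S.comm' (S.cj n b) a, mul_assoc, mul_assoc,
              mul_inv_cancel, mul_one, S.comm' b⁻¹ a]
    by_contra hab
    refine hn ?_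
    have hne : ((a * b⁻¹ : P) : G) ≠ 1 := fun e2 => hab (mul_inv_eq_one.mp (Subtype.ext e2))
    rw [← S.star _ (a * b⁻¹).2 hne, Subgroup.mem_centralizer_singleton_iff]
    have e3 : (n : G) * ((a * b⁻¹ : P) : G) * (n : G)⁻¹ = ((a * b⁻¹ : P) : G) :=
      congrArg Subtype.val e'
    exact mul_inv_eq_iff_eq_mul.mp e3
  obtain ⟨hsurj⟩ : Nonempty (Function.Surjective fun a : P => S.cj n a * a⁻¹) :=
    ⟨Finite.injective_iff_surjective.mp hinj⟩
  refine hμ (Subtype.ext (funext fun b => ?_))
  obtain ⟨a, rfl⟩ := hsurj b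
  have h1 := congrFun (congrArg Subtype.val h) a
  show (μ : P → ℂ) (S.cj n a * a⁻¹) = 1
  rw [irr_map_mul S.comm', show (μ : P → ℂ) (S.cj n a) = (μ : P → ℂ) a from h1,
    ← irr_map_mul S.comm', mul_inv_cancel, irr_one S.comm']

theorem act_ne_one (S : Setting p P) (n : Subgroup.normalizer (P : Set G)) {μ : IrrCharacter P}
    (hμ : μ ≠ one') : S.act n μ ≠ one' := by
  intro e
  refine hμ (Subtype.ext (funext fun b => ?_))
  obtain ⟨a, rfl⟩ := S.cj_surjective n b
  exact congrFun (congrArg Subtype.val e) a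

open Classical in
/-- The orbit of a character. -/
noncomputable def orbit (S : Setting p P) (μ : IrrCharacter P) : Finset (IrrCharacter P) :=
  Finset.univ.image fun n : Subgroup.normalizer (P : Set G) => S.act n μ

theorem mem_orbit (S : Setting p P) {μ ν : IrrCharacter P} :
    ν ∈ S.orbit μ ↔ ∃ n, S.act n μ = ν := by
  classical
  simp [orbit]

theorem self_mem_orbit (S : Setting p P) (μ : IrrCharacter P) : μ ∈ S.orbit μ :=
  S.mem_orbit.mpr ⟨1, S.act_one μ⟩

theorem orbit_symm (S : Setting p P) {μ ν : IrrCharacter P} (h : ν ∈ S.orbit μ) : μ ∈ S.orbit ν := by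
  obtain ⟨n, rfl⟩ := S.mem_orbit.mp h
  exact S.mem_orbit.mpr ⟨n⁻¹, by rw [S.act_mul, mul_inv_cancel, S.act_one]⟩

theorem orbit_trans (S : Setting p P) {μ ν ξ : IrrCharacter P} (h : ν ∈ S.orbit μ)
    (h' : ξ ∈ S.orbit ν) : ξ ∈ S.orbit μ := by
  obtain ⟨n, rfl⟩ := S.mem_orbit.mp h
  obtain ⟨m, rfl⟩ := S.mem_orbit.mp h'
  exact S.mem_orbit.mpr ⟨n * m, (S.act_mul n m μ).symm⟩

open Classical in
theorem card_fiber (S : Setting p P) {μ ν : IrrCharacter P} (hμ : μ ≠ one') :
    (Finset.univ.filter fun n : Subgroup.normalizer (P : Set G) => S.act n μ = ν).card =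
      if ν ∈ S.orbit μ then Nat.card (Subgroup.centralizer (P : Set G)) else 0 := by
  split_ifs with h
  · obtain ⟨n₀, hn₀⟩ := S.mem_orbit.mp h
    rw [← Fintype.card_subtype, ← Nat.card_eq_fintype_card]
    refine Nat.card_congr
      { toFun := fun n => ⟨(n.1 : G) * (n₀ : G)⁻¹, ?_⟩
        invFun := fun c => ⟨⟨(c : G) * n₀, mul_mem (S.le_normalizer_of_comm c.2) n₀.2⟩, ?_⟩
        left_inv := fun n => Subtype.ext (Subtype.ext (by simp))
        right_inv := fun c => Subtype.ext (by simp) }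
    · refine S.act_free (n.1 * n₀⁻¹) hμ ?_
      rw [← S.act_mul, n.2, ← hn₀, S.act_mul, mul_inv_cancel, S.act_one]
    · rw [← hn₀]
      have hm : (⟨(c : G) * n₀, mul_mem (S.le_normalizer_of_comm c.2) n₀.2⟩ :
          Subgroup.normalizer (P : Set G)) = ⟨c, S.le_normalizer_of_comm c.2⟩ * n₀ := rfl
      rw [hm, ← S.act_mul, S.act_of_mem ⟨c, S.le_normalizer_of_comm c.2⟩ c.2]
  · rw [Finset.card_eq_zero, Finset.filter_eq_empty_iff]
    exact fun n _ e => h (S.mem_orbit.mpr ⟨n, e⟩)

theorem card_orbit_mul (S : Setting p P) {μ : IrrCharacter P} (hμ : μ ≠ one') :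
    (S.orbit μ).card * Nat.card (Subgroup.centralizer (P : Set G)) =
      Nat.card (Subgroup.normalizer (P : Set G)) := by
  classical
  rw [Nat.card_eq_fintype_card (α := Subgroup.normalizer (P : Set G)), ← Finset.card_univ,
    Finset.card_eq_sum_card_fiberwise (t := S.orbit μ) (f := fun n => S.act n μ)
      (fun n _ => S.mem_orbit.mpr ⟨n, rfl⟩),
    Finset.sum_congr rfl fun ν hν => (S.card_fiber hμ).trans (if_pos hν), Finset.sum_const,
    smul_eq_mul]

theorem card_orbit_eq (S : Setting p P) {μ ν : IrrCharacter P} (hμ : μ ≠ one') (hν : ν ≠ one') :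
    (S.orbit μ).card = (S.orbit ν).card :=
  Nat.eq_of_mul_eq_mul_right Nat.card_pos ((S.card_orbit_mul hμ).trans (S.card_orbit_mul hν).symm)

/-- Stable sets of nontrivial characters have size a multiple of the orbit size. -/
theorem dvd_card_stable (S : Setting p P) {e : ℕ}
    (he : ∀ μ : IrrCharacter P, μ ≠ one' → (S.orbit μ).card = e) :
    ∀ (T : Finset (IrrCharacter P)), (∀ μ ∈ T, μ ≠ one') →
      (∀ μ ∈ T, S.orbit μ ⊆ T) → e ∣ T.card := by
  classical
  intro T
  induction T using Finset.strongInduction with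
  | H T ih =>
    intro h1 h2
    rcases T.eq_empty_or_nonempty with rfl | ⟨μ, hμ⟩
    · simp
    have hsub := h2 μ hμ
    have hlt : T \ S.orbit μ ⊂ T := Finset.sdiff_ssubset hsub ⟨μ, S.self_mem_orbit μ⟩
    have := ih _ hlt (fun ν hν => h1 ν (Finset.mem_sdiff.mp hν).1) (fun ν hν ξ hξ => by
      obtain ⟨hνT, hνo⟩ := Finset.mem_sdiff.mp hν
      exact Finset.mem_sdiff.mpr ⟨h2 ν hνT hξ, fun h => hνo (S.orbit_trans h (S.orbit_symm hξ))⟩)
    rw [← Finset.card_sdiff_add_card_eq_card hsub]
    exact dvd_add this (dvd_of_eq (he μ (h1 μ hμ)).symm)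

end Setting

/-- The multiplicity of `μ` in the restriction of `f` to `P`. -/
noncomputable def mult {P : Subgroup G} [Fintype P] (f : G → ℂ) (μ : IrrCharacter P) : ℂ :=
  classInner (fun a : P => f a) (μ : P → ℂ)

theorem mult_nat {P : Subgroup G} [Fintype P] {f : G → ℂ} (hf : IsCharacter G f) (μ : IrrCharacter P) :
    ∃ m : ℕ, mult f μ = m :=
  inner_character_nat (isCharacter_restrict hf P) μ.2.isCharacter'

theorem mult_act {p : ℕ} {P : Subgroup G} [Fintype P] (S : Setting p P) {f : G → ℂ}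
    (hf : IsClassFunction G f) (n : Subgroup.normalizer (P : Set G)) (μ : IrrCharacter P) :
    mult f (S.act n μ) = mult f μ := by
  unfold mult
  simp only [classInner, S.act_apply]
  congr 1
  refine Fintype.sum_bijective (S.cj n) ⟨?_, S.cj_surjective n⟩ _ _ fun a => ?_
  · exact Finite.injective_iff_surjective.mpr (S.cj_surjective n)
  · show f a * _ = f ((n : G) * a * (n : G)⁻¹) * _
    rw [hf a n]

end CfsgLib.Uniform
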