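import Mathlib
import Cfsg.Agent.Lib.CharUniformBasic
import Cfsg.Agent.Lib.CharUniformBound
import Cfsg.Agent.Lib.BlockTIFixed

/-!
# A small faithful character forces the uniform centraliser of a Sylow subgroup to be `P × Z(G)`
-/

set_option autoImplicit false
set_option linter.unusedSectionVars false
set_option linter.style.haveILetI false

namespace CfsgLib.Uniform

open Cfsg CfsgLib.Char
open scoped ComplexConjugate

universe u

variable {G : Type u} [Group G] [Fintype G]

namespace Setting

variable {p : ℕ} {P : Subgroup G} [Fintype P]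

theorem sum_mult (S : Setting p P) (f : G → ℂ) : f 1 = ∑ μ : IrrCharacter P, mult f μ :=
  sum_irr_at_one S.comm' (fun a : P => f a)

theorem mult_expand (S : Setting p P) {f : G → ℂ} (hf : IsClassFunction G f) (μ : IrrCharacter P) :
    mult f μ = ∑ η : IrrCharacter G, classInner f (η : G → ℂ) * mult (η : G → ℂ) μ := by
  unfold mult
  have e : (fun a : P => f a) = ∑ η : IrrCharacter G, classInner f (η : G → ℂ) • fun a : P => (η : G → ℂ) a := by
    funext a
    have := congrFun (classFunction_eq_sum f hf) (a : G)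
    simpa [Finset.sum_apply] using this
  rw [e, CfsgLib.Char.inner_sum_left]
  simp only [CfsgLib.Char.inner_smul_left]

theorem degree_expand (f : G → ℂ) (hf : IsClassFunction G f) :
    f 1 = ∑ η : IrrCharacter G, classInner f (η : G → ℂ) * (η : G → ℂ) 1 := by
  conv_lhs => rw [classFunction_eq_sum f hf]
  simp [Finset.sum_apply]

/-- An irreducible character without nontrivial constituents on `P` is principal. -/
theorem eq_one_of_mult (S : Setting p P) {η : G → ℂ} (hη : IsIrrCharacter G η)
    (h : ∀ μ : IrrCharacter P, μ ≠ one' → mult η μ = 0) : η = fun _ => 1 := by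
  classical
  have hval : ∀ a : P, η a = mult η (one' : IrrCharacter P) := by
    intro a
    have h1 := congrFun (classFunction_eq_sum (fun a : P => η a) (classFun_of_comm S.comm' _)) a
    rw [Finset.sum_apply, Finset.sum_eq_single (one' : IrrCharacter P)] at h1
    · simpa [mult, one'_apply] using h1
    · intro μ _ hμ
      simp [show classInner (fun a : P => η a) (μ : P → ℂ) = 0 from h μ hμ]
    · simp
  have hker : P ≤ charKer hη.isCharacter' := by
    intro a ha
    show η a = η 1
    exact (hval ⟨a, ha⟩).trans (hval 1).symm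
  have htop := S.gen _ (charKer_normal _) hker
  obtain ⟨e, he0, he⟩ := exists_degree_pos hη
  have hconst : ∀ g, η g = (e : ℂ) := fun g => by
    rw [← he]
    exact (htop ▸ Subgroup.mem_top g : g ∈ charKer hη.isCharacter')
  have h1 := irr_inner_self hη
  simp only [classInner, hconst, Complex.conj_natCast, Finset.sum_const, Finset.card_univ,
    ← Nat.card_eq_fintype_card, nsmul_eq_mul] at h1
  rw [inv_mul_cancel_left₀ (natCard_ne_zero G), ← Nat.cast_mul, ← Nat.cast_one, Nat.cast_inj] at h1
  funext g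
  rw [hconst g, Nat.eq_one_of_mul_eq_one_left h1, Nat.cast_one]

theorem exists_ker (S : Setting p P) {η : G → ℂ} (hη : IsIrrCharacter G η)
    (h1 : η ≠ fun _ => 1) : ∃ a ∈ P, η a ≠ η 1 := by
  classical
  by_contra hc
  push Not at hc
  refine h1 (S.eq_one_of_mult hη fun μ hμ => ?_)
  have : (fun a : P => η a) = η 1 • (one' : IrrCharacter P).1 := by
    funext a
    simp [hc a a.2, one'_apply]
  rw [mult, this, CfsgLib.Char.inner_smul_left,
    irr_inner_ne one'.2 μ.2 (fun e => hμ (Subtype.ext e.symm)), mul_zero]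

/-- The degree bound. -/
theorem bound (S : Setting p P) {η : G → ℂ} (hη : IsIrrCharacter G η) (h1 : η ≠ fun _ => 1)
    {e c : ℕ} (he : η 1 = e) (hc : mult η (one' : IrrCharacter P) = c) : Nat.card P * c ^ 2 < e ^ 2 := by
  have h2 := CfsgLib.Leonard.degree_bound P S.noncentral S.hone hη (S.exists_ker hη h1)
  rw [show classInner (fun h : P => η h) (fun _ => 1) = (c : ℂ) from hc, he] at h2
  simp only [Complex.natCast_re] at h2
  exact_mod_cast h2

end Setting

/-- The data of a small character. -/
structure Small (p : ℕ) (P : Subgroup G) [Fintype P] (ξ : G → ℂ) (d : ℕ) : Prop where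
  setting : Setting p P
  irr : IsIrrCharacter G ξ
  deg : ξ 1 = d
  two_le : 2 ≤ d
  small : d ^ 2 + 1 < Nat.card P
  faithful : ∀ g, ξ g = ξ 1 → g = 1

namespace Small

variable {p : ℕ} {P : Subgroup G} [Fintype P] {ξ : G → ℂ} {d : ℕ}

theorem ne_one (h : Small p P ξ d) : ξ ≠ fun _ => 1 := by
  intro e
  have h1 := h.deg
  rw [e] at h1
  have h2 : (d : ℂ) = 1 := h1.symm
  have : d = 1 := by exact_mod_cast h2
  have := h.two_le
  omega

/-- The square of the character. -/
noncomputable def sq (ξ : G → ℂ) : G → ℂ := ξ * fun g => conj (ξ g)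

theorem sq_char (h : Small p P ξ d) : IsCharacter G (sq ξ) :=
  isCharacter_mul h.irr.isCharacter' (isCharacter_conj h.irr.isCharacter')

theorem sq_apply_one (h : Small p P ξ d) : sq ξ 1 = ((d ^ 2 : ℕ) : ℂ) := by
  simp [sq, h.deg, pow_two]

theorem sq_inner_one (h : Small p P ξ d) : classInner (sq ξ) (fun _ => 1) = 1 := by
  refine Eq.trans ?_ (irr_inner_self h.irr)
  simp [classInner, sq]

theorem sq_mult_one (h : Small p P ξ d) :
    mult (sq ξ) (one' : IrrCharacter P) = ∑ μ : IrrCharacter P, mult ξ μ * conj (mult ξ μ) := by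
  unfold mult
  rw [← inner_eq_sum_coeff _ _ (classFun_of_comm h.setting.comm' _)]
  simp [classInner, sq, one'_apply]

/-- The constituents of the square. -/
theorem sq_data (h : Small p P ξ d) {M : ℕ}
    (hM : mult (sq ξ) (one' : IrrCharacter P) = M) :
    ∃ k e c : IrrCharacter G → ℕ, (∀ η : IrrCharacter G, classInner (sq ξ) (η : G → ℂ) = k η ∧
      (η : G → ℂ) 1 = e η ∧ mult (η : G → ℂ) (one' : IrrCharacter P) = c η) ∧
      ∃ one : IrrCharacter G, (one : G → ℂ) = (fun _ => 1) ∧
        1 + ∑ η ∈ Finset.univ.erase one, k η * e η = d ^ 2 ∧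
        1 + ∑ η ∈ Finset.univ.erase one, k η * c η = M := by
  classical
  choose k hk using fun η : IrrCharacter G => inner_character_nat h.sq_char η.2.isCharacter'
  choose e he using fun η : IrrCharacter G => exists_degree η.2.isCharacter'
  choose c hc using fun η : IrrCharacter G => mult_nat (P := P) η.2.isCharacter' (one' : IrrCharacter P)
  refine ⟨k, e, c, fun η => ⟨hk η, he η, hc η⟩, ⟨fun _ => 1, isIrrCharacter_one⟩, rfl, ?_, ?_⟩
  · have h1 := Setting.degree_expand (sq ξ) (isCharacter_classFunction h.sq_char)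
    rw [h.sq_apply_one, ← Finset.add_sum_erase _ _ (Finset.mem_univ
      (⟨fun _ => 1, isIrrCharacter_one⟩ : IrrCharacter G)),
      show classInner (sq ξ) _ = 1 from h.sq_inner_one] at h1
    simp only [hk, he, mul_one] at h1
    exact_mod_cast h1.symm
  · have h1 := h.setting.mult_expand (isCharacter_classFunction h.sq_char) (one' : IrrCharacter P)
    rw [hM, ← Finset.add_sum_erase _ _ (Finset.mem_univ
      (⟨fun _ => 1, isIrrCharacter_one⟩ : IrrCharacter G)),
      show classInner (sq ξ) _ = 1 from h.sq_inner_one, one_mul,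
      show mult (fun _ : G => (1 : ℂ)) (one' : IrrCharacter P) = 1 from
        irr_inner_self (one' : IrrCharacter P).2] at h1
    simp only [hk, hc] at h1
    exact_mod_cast h1.symm

/-- The restriction to `P` is multiplicity free and has no principal constituent. -/
theorem mult_le_one (h : Small p P ξ d) : ∀ μ : IrrCharacter P,
    mult ξ μ = 0 ∨ mult ξ μ = 1 := by
  classical
  choose m hm using fun μ : IrrCharacter P => mult_nat (P := P) h.irr.isCharacter' μ
  have hd : d = ∑ μ, m μ := by
    have := h.setting.sum_mult ξ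
    simp only [hm, h.deg] at this
    exact_mod_cast this
  have hM : mult (sq ξ) (one' : IrrCharacter P) = ((∑ μ, m μ * m μ : ℕ) : ℂ) := by
    rw [h.sq_mult_one]
    simp [hm]
  obtain ⟨k, e, c, hkec, one, hone, hke, hkc⟩ := h.sq_data hM
  have hstep : d * (∑ η ∈ Finset.univ.erase one, k η * c η) ≤ ∑ η ∈ Finset.univ.erase one, k η * e η := by
    rw [Finset.mul_sum]
    refine Finset.sum_le_sum fun η hη => ?_
    rw [mul_left_comm]
    refine Nat.mul_le_mul_left _ ?_
    have hne : (η : G → ℂ) ≠ fun _ => 1 := fun e' =>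
      Finset.ne_of_mem_erase hη (Subtype.ext (e'.trans hone.symm))
    have hb := h.setting.bound η.2 hne (hkec η).2.1 (hkec η).2.2
    have h1 : (d * c η) ^ 2 ≤ (e η) ^ 2 := by
      rw [mul_pow]
      exact le_trans (Nat.mul_le_mul_right _ (by have := h.small; omega)) hb.le
    exact (Nat.pow_le_pow_iff_left two_ne_zero).mp h1
  set T := ∑ η ∈ Finset.univ.erase one, k η * c η
  have hTd : T < d := by
    by_contra hc'
    have := Nat.mul_le_mul_left d (Nat.not_lt.mp hc')
    have : d ^ 2 = d * d := pow_two d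
    omega
  have hle : ∑ μ, m μ ≤ ∑ μ, m μ * m μ := Finset.sum_le_sum fun μ _ => Nat.le_mul_self _
  have heq : ∀ μ ∈ (Finset.univ : Finset (IrrCharacter P)), m μ = m μ * m μ :=
    (Finset.sum_eq_sum_iff_of_le fun μ _ => Nat.le_mul_self _).mp (by omega)
  intro μ
  rw [hm]
  have h2 := heq μ (Finset.mem_univ μ)
  rcases Nat.eq_zero_or_pos (m μ) with h0 | h0
  · exact Or.inl (by rw [h0, Nat.cast_zero])
  · exact Or.inr (by rw [Nat.eq_of_mul_eq_mul_left h0 ((h2.symm.trans (mul_one (m μ)).symm)), Nat.cast_one])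

theorem mult_one' (h : Small p P ξ d) : mult ξ (one' : IrrCharacter P) = 0 := by
  rcases h.mult_le_one one' with h1 | h1
  · exact h1
  · exfalso
    have hb := h.setting.bound h.irr h.ne_one (c := 1) h.deg (by rw [h1, Nat.cast_one])
    have := h.small
    rw [one_pow, mul_one] at hb
    omega

/-- The constituents on `P` form one orbit. -/
theorem one_orbit (h : Small p P ξ d) : ∃ μ₀ : IrrCharacter P, μ₀ ≠ one' ∧
    (∀ ν, mult ξ ν = if ν ∈ h.setting.orbit μ₀ then 1 else 0) ∧ (h.setting.orbit μ₀).card = d := by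
  classical
  have S := h.setting
  haveI := Fact.mk S.prime
  have hm01 := h.mult_le_one
  obtain ⟨μ₀, hμ₀⟩ : ∃ μ, mult ξ μ = 1 := by
    by_contra hc
    push Not at hc
    have := S.sum_mult ξ
    rw [h.deg, Finset.sum_eq_zero fun μ _ => (hm01 μ).resolve_right (hc μ), Nat.cast_eq_zero] at this
    have := h.two_le
    omega
  have hμ₀1 : μ₀ ≠ one' := fun e => by
    rw [e, h.mult_one'] at hμ₀
    exact zero_ne_one hμ₀
  obtain ⟨dd, ρ, hρirr, hρ⟩ := id h.irr
  haveI := hρirr
  have hdd : dd = d := by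
    have h1 := congrFun hρ 1
    rw [ρ.char_one, Module.finrank_fin_fun, h.deg] at h1
    exact_mod_cast h1
  subst hdd
  set N := Subgroup.normalizer (P : Set G) with hN
  let φ : P → ℂ := fun a => ∑ n : N, conj ((S.act n μ₀ : P → ℂ) a)
  have hφinv : ∀ (n : N) (a : P), φ (S.cj n a) = φ a := by
    intro n a
    refine Fintype.sum_equiv (Equiv.mulRight n) _ _ fun m => ?_
    show conj ((S.act m μ₀ : P → ℂ) (S.cj n a)) = conj ((S.act (m * n) μ₀ : P → ℂ) a)
    rw [← S.act_mul]
    rfl
  let w : Module.End ℂ (Fin dd → ℂ) := ∑ a : P, φ a • ρ (a : G)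
  let σ : Representation ℂ G (Module.End ℂ (Fin dd → ℂ)) := Representation.linHom ρ ρ
  have hσ : ∀ (g : G) (T : Module.End ℂ (Fin dd → ℂ)), σ g T = ρ g * T * ρ g⁻¹ := fun g T => rfl
  have hw : ∀ n ∈ N, σ n w = w := by
    intro n hn
    rw [hσ, Finset.mul_sum, Finset.sum_mul]
    refine Fintype.sum_bijective (S.cj ⟨n, hn⟩)
      ⟨Finite.injective_iff_surjective.mpr (S.cj_surjective _), S.cj_surjective _⟩ _ _ fun a => ?_
    rw [hφinv, mul_smul_comm, smul_mul_assoc, ← map_mul, ← map_mul]
    rfl
  haveI : Nonempty (Fin dd) := ⟨⟨0, by have := h.two_le; omega⟩⟩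
  have hfix : ∃ v : Module.End ℂ (Fin dd → ℂ), v ≠ 0 ∧ ∀ g, σ g v = v :=
    ⟨1, one_ne_zero, fun g => by rw [hσ, mul_one, ← map_mul, mul_inv_cancel, map_one]⟩
  have hdim : Module.finrank ℂ (Module.End ℂ (Fin dd → ℂ)) ≤ Nat.card P := by
    rw [Module.finrank_linearMap, Module.finrank_fin_fun, ← pow_two]
    have := h.small
    omega
  have hall := CfsgLib.Block.fixed_of_TI_of_finrank_le P S.pgroup N S.ti Subgroup.le_normalizer σ hdim
    hfix w hw
  obtain ⟨t, ht⟩ := schur_scalar ρ w fun g => by
    have h1 := hall g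
    rw [hσ] at h1
    conv_lhs => rw [← h1]
    rw [mul_assoc (ρ g * w), ← map_mul, inv_mul_cancel, map_one, mul_one]
  have htrace : ∀ b : P, ∑ a : P, φ a * ξ (a * b : P) = t * ξ b := by
    intro b
    have h1 := congrArg (fun T => LinearMap.trace ℂ _ (T * ρ (b : G))) ht
    simp only [w, Finset.sum_mul, smul_mul_assoc, ← map_mul, map_sum, map_smul, one_mul, smul_eq_mul] at h1
    rw [← hρ]
    exact h1
  have hkey : ∀ ν : IrrCharacter P,
      (∑ a : P, φ a * (ν : P → ℂ) a) * mult ξ ν = t * mult ξ ν := by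
    intro ν
    unfold mult
    simp only [classInner]
    rw [mul_left_comm, mul_left_comm t]
    congr 1
    rw [Finset.sum_mul, Finset.mul_sum]
    have e1 : ∀ b : P, t * (ξ b * conj ((ν : P → ℂ) b)) =
        ∑ a : P, φ a * ξ (a * b : P) * conj ((ν : P → ℂ) b) := fun b => by
      rw [← mul_assoc, ← htrace b, Finset.sum_mul]
    simp only [Finset.mul_sum] at e1 ⊢
    simp only [e1]
    conv_rhs => rw [Finset.sum_comm]
    refine Finset.sum_congr rfl fun a _ => ?_
    refine Fintype.sum_equiv (Equiv.mulLeft a⁻¹) _ _ fun b => ?_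
    have e2 : conj ((ν : P → ℂ) (a⁻¹ * b)) = (ν : P → ℂ) a * conj ((ν : P → ℂ) b) := by
      rw [irr_map_mul S.comm', map_mul, irr_conj S.comm' ν a⁻¹, inv_inv]
    simp only [Equiv.coe_mulLeft, mul_inv_cancel_left, e2]
    ring
  have hcount : ∀ ν : IrrCharacter P, ∑ a : P, φ a * (ν : P → ℂ) a =
      ((if ν ∈ S.orbit μ₀ then Nat.card (Subgroup.centralizer (P : Set G)) else 0 : ℕ) : ℂ) * Nat.card P := by
    intro ν
    suffices hgen : ∑ a : P, φ a * (ν : P → ℂ) a =
        (((Finset.univ.filter fun n : N => S.act n μ₀ = ν).card : ℕ) : ℂ) * Nat.card P by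
      rw [hgen]
      congr 2
      have h5 := S.card_fiber (ν := ν) hμ₀1
      split_ifs at h5 ⊢ <;> (rw [← h5]; congr)
    rw [Finset.natCast_card_filter, Finset.sum_mul]
    simp only [φ, Finset.sum_mul]
    rw [Finset.sum_comm]
    refine Finset.sum_congr rfl fun n _ => ?_
    have e3 : ∑ a : P, conj ((S.act n μ₀ : P → ℂ) a) * (ν : P → ℂ) a =
        Nat.card P * classInner (ν : P → ℂ) (S.act n μ₀ : P → ℂ) := by
      rw [classInner, ← mul_assoc, mul_inv_cancel₀ (natCard_ne_zero P), one_mul]
      exact Finset.sum_congr rfl fun a _ => mul_comm _ _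
    rw [e3, irr_classInner, mul_comm]
    congr 1
    exact if_congr eq_comm rfl rfl
  have ht0 : t = (Nat.card (Subgroup.centralizer (P : Set G)) : ℂ) * Nat.card P := by
    have h1 := hkey μ₀
    rw [hμ₀, mul_one, mul_one, hcount, if_pos (S.self_mem_orbit μ₀)] at h1
    exact h1.symm
  have hne : t ≠ 0 := by
    rw [ht0]
    exact mul_ne_zero (natCard_ne_zero _) (natCard_ne_zero _)
  have hsupp : ∀ ν, mult ξ ν = if ν ∈ S.orbit μ₀ then 1 else 0 := by
    intro ν
    split_ifs with hν
    · obtain ⟨n, rfl⟩ := S.mem_orbit.mp hν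
      rw [mult_act S (isCharacter_classFunction h.irr.isCharacter'), hμ₀]
    · have h1 := hkey ν
      rw [hcount, if_neg hν, Nat.cast_zero, zero_mul, zero_mul] at h1
      exact (mul_eq_zero.mp h1.symm).resolve_left hne
  refine ⟨μ₀, hμ₀1, hsupp, ?_⟩
  have h1 := S.sum_mult ξ
  rw [h.deg, Finset.sum_congr rfl fun ν _ => hsupp ν, Finset.sum_boole, Finset.filter_mem_eq_inter, Finset.univ_inter] at h1
  exact_mod_cast h1.symm

theorem card_orbit (h : Small p P ξ d) {μ : IrrCharacter P} (hμ : μ ≠ one') :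
    (h.setting.orbit μ).card = d := by
  obtain ⟨μ₀, h0, -, hd⟩ := h.one_orbit
  rw [h.setting.card_orbit_eq hμ h0, hd]

theorem card_ge (h : Small p P ξ d) : d * (d + 1) + 1 ≤ Nat.card P := by
  classical
  have hdvd := h.setting.dvd_card_stable (fun μ hμ => h.card_orbit hμ)
    ((Finset.univ : Finset (IrrCharacter P)).erase one') (fun μ hμ => Finset.ne_of_mem_erase hμ)
    (fun μ hμ ν hν => by
      obtain ⟨n, rfl⟩ := h.setting.mem_orbit.mp hν
      exact Finset.mem_erase.mpr ⟨h.setting.act_ne_one n (Finset.ne_of_mem_erase hμ), Finset.mem_univ _⟩)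
  rw [Finset.card_erase_of_mem (Finset.mem_univ _), Finset.card_univ, card_irr h.setting.comm'] at hdvd
  obtain ⟨j, hj⟩ := hdvd
  have hs := h.small
  rw [pow_two] at hs
  have hpos : 0 < Nat.card P := Nat.card_pos
  have : d + 1 ≤ j := by
    by_contra hc
    have := Nat.mul_le_mul_left d (show j ≤ d by omega)
    omega
  have := Nat.mul_le_mul_left d this
  omega

/-- The centraliser of `P` is abelian. -/
theorem centralizer_comm (h : Small p P ξ d) :
    ∀ a ∈ Subgroup.centralizer (P : Set G), ∀ b ∈ Subgroup.centralizer (P : Set G), a * b = b * a := by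
  classical
  have S := h.setting
  set C := Subgroup.centralizer (P : Set G) with hC
  haveI : Fintype C := Fintype.ofFinite _
  have hPC : P ≤ C := fun a ha => Subgroup.mem_centralizer_iff.mpr fun b hb => S.comm b hb a ha
  set f : C → ℂ := fun c => ξ c with hf
  have hfc : IsCharacter C f := isCharacter_restrict h.irr.isCharacter' C
  choose k hk using fun θ : IrrCharacter C => inner_character_nat hfc θ.2.isCharacter'
  choose e he using fun θ : IrrCharacter C => exists_degree_pos θ.2
  have hlin : ∀ θ : IrrCharacter C, k θ ≠ 0 → (θ : C → ℂ) 1 = 1 := by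
    intro θ hθ
    let g : P → ℂ := fun a => (θ : C → ℂ) ⟨a, hPC a.2⟩
    have hgc : IsCharacter P g := isCharacter_comp θ.2.isCharacter' (Subgroup.inclusion hPC)
    choose m hm using fun μ : IrrCharacter P => inner_character_nat hgc μ.2.isCharacter'
    have hsum : e θ = ∑ μ, m μ := by
      have := sum_irr_at_one S.comm' g
      simp only [hm] at this
      rw [show g 1 = (e θ : ℂ) from (he θ).2] at this
      exact_mod_cast this
    have hm1 : ∀ μ, m μ ≤ 1 := by
      intro μ
      have hexp : mult ξ μ = ∑ θ' : IrrCharacter C,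
          (k θ' : ℂ) * classInner (fun a : P => (θ' : C → ℂ) ⟨a, hPC a.2⟩) (μ : P → ℂ) := by
        have e1 : (fun a : P => ξ a) = ∑ θ' : IrrCharacter C,
            (k θ' : ℂ) • fun a : P => (θ' : C → ℂ) ⟨a, hPC a.2⟩ := by
          funext a
          have := congrFun (classFunction_eq_sum f (isCharacter_classFunction hfc)) ⟨a, hPC a.2⟩
          simpa [Finset.sum_apply, hk] using this
        unfold mult
        rw [e1, CfsgLib.Char.inner_sum_left]
        simp only [CfsgLib.Char.inner_smul_left]
      choose m' hm' using fun θ' : IrrCharacter C => inner_character_nat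
        (isCharacter_comp θ'.2.isCharacter' (Subgroup.inclusion hPC)) μ.2.isCharacter'
      have hm'θ : m' θ = m μ := by exact_mod_cast (hm' θ).symm.trans (hm μ)
      have hexp' : mult ξ μ = ((∑ θ', k θ' * m' θ' : ℕ) : ℂ) := by
        rw [hexp]
        push_cast
        exact Finset.sum_congr rfl fun θ' _ => congrArg _ (hm' θ')
      have hle : ∑ θ', k θ' * m' θ' ≤ 1 := by
        rcases h.mult_le_one μ with h0 | h0 <;> rw [hexp'] at h0
        · rw [Nat.cast_eq_zero] at h0; omega
        · rw [Nat.cast_eq_one] at h0; omega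
      have h3 := le_trans (Finset.single_le_sum (f := fun θ' => k θ' * m' θ') (fun _ _ => Nat.zero_le _)
        (Finset.mem_univ θ)) hle
      rw [hm'θ] at h3
      exact le_trans (Nat.le_mul_of_pos_left _ (Nat.pos_of_ne_zero hθ)) h3
    have hnorm : ∀ a : P, Complex.normSq (g a) = (e θ : ℝ) ^ 2 := by
      intro a
      have hz : (⟨a, hPC a.2⟩ : C) ∈ Subgroup.center C := by
        rw [Subgroup.mem_center_iff]
        exact fun y => Subtype.ext (Subgroup.mem_centralizer_iff.mp y.2 a a.2).symm
      obtain ⟨ω, hω, hωg⟩ := CfsgLib.Leonard.center_scalar θ.2 hz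
      have h1 := hωg 1
      rw [one_mul, (he θ).2] at h1
      show Complex.normSq ((θ : C → ℂ) ⟨a, hPC a.2⟩) = _
      rw [h1, Complex.normSq_mul, Complex.normSq_eq_norm_sq ω, hω, Complex.normSq_natCast]
      ring
    have hsq : (((e θ) ^ 2 : ℕ) : ℂ) = ((∑ μ, m μ * m μ : ℕ) : ℂ) := by
      have h1 := inner_eq_sum_coeff g g (classFun_of_comm S.comm' g)
      simp only [hm, Complex.conj_natCast] at h1
      push_cast
      rw [← h1, classInner, Finset.sum_congr rfl fun a _ => Complex.mul_conj (g a),
        Finset.sum_congr rfl fun a _ => congrArg (Complex.ofReal) (hnorm a), Finset.sum_const,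
        Finset.card_univ, ← Nat.card_eq_fintype_card, nsmul_eq_mul, ← mul_assoc,
        inv_mul_cancel₀ (natCard_ne_zero P), one_mul]
      push_cast
      rfl
    rw [Nat.cast_inj, Finset.sum_congr rfl fun μ _ => show m μ * m μ = m μ by
      have := hm1 μ; interval_cases (m μ) <;> rfl, ← hsum] at hsq
    rw [(he θ).2, show e θ = 1 from Nat.eq_of_mul_eq_mul_left (he θ).1 (by rw [mul_one, ← pow_two]; exact hsq),
      Nat.cast_one]
  intro a ha b hb
  let x : C := ⟨a, ha⟩
  let y : C := ⟨b, hb⟩
  have hval : f (x * y * x⁻¹ * y⁻¹) = f 1 := by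
    rw [classFunction_eq_sum f (isCharacter_classFunction hfc)]
    simp only [Finset.sum_apply, Pi.smul_apply, smul_eq_mul, hk]
    refine Finset.sum_congr rfl fun θ _ => ?_
    by_cases h0 : k θ = 0
    · simp [h0]
    congr 1
    obtain ⟨l, hl⟩ := exists_hom_of_degree_one θ.2.isCharacter' (hlin θ h0)
    simp only [hl]
    rw [show l (x * y * x⁻¹ * y⁻¹) = 1 by
      rw [map_mul, map_mul, map_mul, map_inv, map_inv, mul_inv_cancel_comm, mul_inv_cancel], map_one]
  have := h.faithful _ hval
  have e1 : a * b * a⁻¹ * b⁻¹ = 1 := this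
  rwa [mul_inv_eq_one, mul_inv_eq_iff_eq_mul] at e1

/-- The centraliser of `P` is `P × Z(G)`. -/
theorem decompose (h : Small p P ξ d) {c : G} (hc : c ∈ Subgroup.centralizer (P : Set G)) :
    ∃ a ∈ P, ∃ z ∈ Subgroup.center G, c = a * z := by
  classical
  have S := h.setting
  haveI := Fact.mk S.prime
  set C := Subgroup.centralizer (P : Set G) with hC
  haveI : Fintype C := Fintype.ofFinite _
  have hPC : P ≤ C := fun a ha => Subgroup.mem_centralizer_iff.mpr fun b hb => S.comm b hb a ha
  have hCab : ∀ a b : C, a * b = b * a := fun a b => Subtype.ext (h.centralizer_comm _ a.2 _ b.2)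
  -- a complement of `P` in its centraliser
  obtain ⟨Q, hQ⟩ := (S.pgroup.comap_of_injective C.subtype C.subtype_injective).exists_le_sylow
  have hPQ : (Q : Subgroup C) = P.subgroupOf C := by
    refine le_antisymm (fun y hy => ?_) hQ
    have h1 : (Q : Subgroup C).map C.subtype ⊔ P = P := by
      have hle : P ≤ (Q : Subgroup C).map C.subtype := fun a ha => ⟨⟨a, hPC ha⟩, hQ ha, rfl⟩
      rw [sup_eq_left.mpr hle]
      exact S.max _ (Q.isPGroup'.map _) hle
    exact (sup_eq_right.mp h1) ⟨y, hy, rfl⟩
  haveI : (P.subgroupOf C).Normal := ⟨fun a ha g => by rwa [hCab g a, mul_inv_cancel_right]⟩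
  obtain ⟨K', hK'⟩ := Subgroup.exists_right_complement'_of_coprime (N := P.subgroupOf C) (by
    obtain ⟨j, hj⟩ := IsPGroup.iff_card.mp Q.isPGroup'
    have := Q.not_dvd_index
    rw [hPQ] at hj this
    rw [hj]
    exact ((S.prime.coprime_iff_not_dvd).mpr this).pow_left j)
  set K := K'.map C.subtype with hKdef
  haveI : Fintype K := Fintype.ofFinite _
  have hKC : K ≤ C := Subgroup.map_subtype_le _
  have hKcard : (Nat.card P).Coprime (Nat.card K) := by
    obtain ⟨j, hj⟩ := IsPGroup.iff_card.mp S.pgroup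
    rw [hKdef, Subgroup.card_subtype, hj, ← hK'.symm.index_eq_card]
    have := Q.not_dvd_index
    rw [hPQ] at this
    exact ((S.prime.coprime_iff_not_dvd).mpr this).pow_left j
  have hdisj : P ⊓ K = ⊥ := by
    rw [← Subgroup.card_eq_one]
    exact Nat.eq_one_of_dvd_coprimes hKcard (Subgroup.card_dvd_of_le inf_le_left)
      (Subgroup.card_dvd_of_le inf_le_right)
  have hdec : ∀ c ∈ C, ∃ a ∈ P, ∃ k ∈ K, c = a * k := by
    intro c hc
    obtain ⟨⟨⟨a, ha⟩, ⟨k, hk⟩⟩, he⟩ := hK'.2 (⟨c, hc⟩ : C)
    exact ⟨(a : G), ha, (k : G), ⟨k, hk, rfl⟩, (congrArg Subtype.val he).symm⟩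
  have hPK : ∀ a ∈ P, ∀ k ∈ K, a * k = k * a := fun a ha k hk =>
    Subgroup.mem_centralizer_iff.mp (hKC hk) a ha
  have hZK : Subgroup.center G ≤ K := by
    intro z hz
    obtain ⟨a, ha, k, hk, he⟩ := hdec z (Subgroup.center_le_centralizer _ hz)
    have h1 : z ^ Nat.card K = a ^ Nat.card K := by
      rw [he, (show Commute a k from hPK a ha k hk).mul_pow]
      have : (⟨k, hk⟩ : K) ^ Nat.card K = 1 := pow_card_eq_one'
      have h2 : k ^ Nat.card K = 1 := congrArg Subtype.val this
      rw [h2, mul_one]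
    have h2 : a ^ Nat.card K ∈ P ⊓ Subgroup.center G := ⟨pow_mem ha _, h1 ▸ pow_mem hz _⟩
    rw [S.noncentral, Subgroup.mem_bot] at h2
    have h3 : orderOf a ∣ 1 := by
      have d1 := orderOf_dvd_of_pow_eq_one h2
      have d2 : orderOf a ∣ Nat.card P := by
        rw [← Subgroup.orderOf_mk (H := P) a ha]; exact orderOf_dvd_natCard _
      exact (Nat.eq_one_of_dvd_coprimes hKcard d2 d1).dvd
    rw [he, orderOf_eq_one_iff.mp (Nat.dvd_one.mp h3), one_mul]
    exact hk
  suffices hKZ : K ≤ Subgroup.center G by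
    obtain ⟨a, ha, k, hk, he⟩ := hdec c hc
    exact ⟨a, ha, k, hKZ hk, he⟩
  by_contra hKZ
  have hlt : 2 * Nat.card (Subgroup.center G) ≤ Nat.card K := by
    obtain ⟨j, hj⟩ := Subgroup.card_dvd_of_le hZK
    have hne : Nat.card (Subgroup.center G) ≠ Nat.card K := fun e =>
      hKZ (Subgroup.eq_of_le_of_card_ge hZK e.ge).ge
    rw [hj] at hne ⊢
    have hj2 : 2 ≤ j := by
      rcases j with _ | _ | j
      · rw [mul_zero] at hj; exact absurd hj Nat.card_pos.ne'
      · exact absurd (mul_one _).symm hne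
      · omega
    rw [mul_comm 2]
    exact Nat.mul_le_mul_left _ hj2
  -- expansions over the characters of the centraliser
  let res : IrrCharacter C → IrrCharacter P := fun L =>
    ⟨fun a => (L : C → ℂ) ⟨a, hPC a.2⟩, by
      refine isIrr_of_degree_one (isCharacter_comp L.2.isCharacter' (Subgroup.inclusion hPC)) ?_
      exact irr_one hCab L⟩
  have hexpand : ∀ (F : G → ℂ) (a : P) (k : G) (hk : k ∈ C), F ((a : G) * k) =
      ∑ L : IrrCharacter C, classInner (fun c : C => F c) (L : C → ℂ) *
        ((L : C → ℂ) ⟨k, hk⟩ * (res L : P → ℂ) a) := by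
    intro F a k hk
    have h1 := congrFun (classFunction_eq_sum (fun c : C => F c) (classFun_of_comm hCab _))
      (⟨a, hPC a.2⟩ * ⟨k, hk⟩)
    simp only [Finset.sum_apply, Pi.smul_apply, smul_eq_mul, irr_map_mul hCab, Subgroup.coe_mul] at h1
    rw [h1]
    exact Finset.sum_congr rfl fun L _ => by rw [mul_comm ((L : C → ℂ) ⟨a, hPC a.2⟩)]
  choose nL hnL using fun L : IrrCharacter C =>
    inner_character_nat (isCharacter_restrict h.irr.isCharacter' C) L.2.isCharacter'
  have hres_inj : ∀ L L', nL L ≠ 0 → nL L' ≠ 0 → res L = res L' → L = L' := by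
    intro L L' hL hL' he
    by_contra hne
    have h1 : mult ξ (res L) = ((∑ M ∈ Finset.univ.filter (fun M => res M = res L), nL M : ℕ) : ℂ) := by
      unfold mult
      have e1 : (fun a : P => ξ a) = ∑ M : IrrCharacter C, (nL M : ℂ) • (res M : P → ℂ) := by
        funext a
        have := hexpand ξ a 1 (one_mem C)
        simp only [mul_one, hnL] at this
        rw [this, Finset.sum_apply]
        refine Finset.sum_congr rfl fun M _ => ?_
        rw [Pi.smul_apply, smul_eq_mul, show (M : C → ℂ) ⟨1, one_mem C⟩ = 1 from irr_one hCab M, one_mul]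
      rw [e1, CfsgLib.Char.inner_sum_left, Nat.cast_sum, Finset.sum_filter]
      refine Finset.sum_congr rfl fun M _ => ?_
      rw [CfsgLib.Char.inner_smul_left, irr_classInner]
      split_ifs <;> simp
    have h2 : ∑ M ∈ ({L, L'} : Finset (IrrCharacter C)), nL M ≤
        ∑ M ∈ Finset.univ.filter (fun M => res M = res L), nL M :=
      Finset.sum_le_sum_of_subset (fun M hM => by
        simp only [Finset.mem_insert, Finset.mem_singleton] at hM
        rcases hM with rfl | rfl <;> simp [he])
    rw [Finset.sum_pair hne] at h2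
    rcases h.mult_le_one (res L) with h0 | h0 <;> rw [h1] at h0
    · rw [Nat.cast_eq_zero] at h0; omega
    · rw [Nat.cast_eq_one] at h0; omega
  -- the average of the square over a coset of `P`
  have hsqsum : ∀ k ∈ K, ∑ a : P, sq ξ ((a : G) * k) = ∑ a : P, sq ξ a := by
    have hform : ∀ (k : G) (hk : k ∈ C), ∑ a : P, sq ξ ((a : G) * k) =
        Nat.card P * ∑ L : IrrCharacter C, (nL L : ℂ) * nL L := by
      intro k hk
      show ∑ a : P, ξ ((a : G) * k) * conj (ξ ((a : G) * k)) = _
      simp only [hexpand ξ _ k hk, hnL, map_sum, map_mul, Complex.conj_natCast, Finset.sum_mul,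
        Finset.mul_sum]
      rw [Finset.sum_comm]
      refine Finset.sum_congr rfl fun L _ => ?_
      rw [Finset.sum_comm, Finset.sum_eq_single L]
      · have hu : ∀ (A' : IrrCharacter C) (y : C), (A' : C → ℂ) y * conj ((A' : C → ℂ) y) = 1 := fun A' y => by
          rw [irr_conj hCab, ← irr_map_mul hCab, mul_inv_cancel, irr_one hCab]
        rw [Finset.sum_congr rfl fun a _ => show
          (nL L : ℂ) * ((L : C → ℂ) ⟨k, hk⟩ * (res L : P → ℂ) a) *
            ((nL L : ℂ) * (conj ((L : C → ℂ) ⟨k, hk⟩) * conj ((res L : P → ℂ) a))) = (nL L : ℂ) * nL L by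
          linear_combination ((nL L : ℂ) * nL L) * ((L : C → ℂ) ⟨k, hk⟩ * conj ((L : C → ℂ) ⟨k, hk⟩)) *
            (hu L ⟨a, hPC a.2⟩) + ((nL L : ℂ) * nL L) * (hu L ⟨k, hk⟩),
          Finset.sum_const, Finset.card_univ, ← Nat.card_eq_fintype_card, nsmul_eq_mul]
      · intro L' _ hne
        by_cases h0 : nL L = 0
        · simp [h0]
        by_cases h0' : nL L' = 0
        · simp [h0']
        have hne' : res L' ≠ res L := fun e => hne (hres_inj L' L h0' h0 e)
        have horth := irr_classInner (res L') (res L)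
        rw [if_neg hne', classInner, mul_eq_zero, inv_eq_zero] at horth
        have horth' := horth.resolve_left (natCard_ne_zero P)
        calc _ = ((nL L' : ℂ) * (L' : C → ℂ) ⟨k, hk⟩ * ((nL L : ℂ) * conj ((L : C → ℂ) ⟨k, hk⟩))) *
              ∑ a : P, (res L' : P → ℂ) a * conj ((res L : P → ℂ) a) := by
              rw [Finset.mul_sum]
              exact Finset.sum_congr rfl fun a _ => by ring
          _ = 0 := by rw [horth', mul_zero]
      · simp
    intro k hk
    rw [hform k (hKC hk)]
    have := hform 1 (one_mem C)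
    simp only [mul_one] at this
    exact this.symm
  obtain ⟨M, hM⟩ := mult_nat (P := P) h.sq_char (one' : IrrCharacter P)
  obtain ⟨kk, e, cc, hkec, one, hone, hke, hkc⟩ := h.sq_data hM
  have hKsum : ∀ η : IrrCharacter G, kk η ≠ 0 → ∀ k ∈ K,
      ∑ a : P, (η : G → ℂ) ((a : G) * k) = ∑ a : P, (η : G → ℂ) a := by
    have hnorm : ∀ η : IrrCharacter G, ∀ k (hk : k ∈ C),
        ‖∑ a : P, (η : G → ℂ) ((a : G) * k)‖ ≤ (∑ a : P, (η : G → ℂ) a).re := by
      intro η k hk
      choose aL haL using fun L : IrrCharacter C =>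
        inner_character_nat (isCharacter_restrict η.2.isCharacter' C) L.2.isCharacter'
      have hs : ∀ (k : G) (hk : k ∈ C), ∑ a : P, (η : G → ℂ) ((a : G) * k) =
          ∑ L : IrrCharacter C, (aL L : ℂ) * (L : C → ℂ) ⟨k, hk⟩ *
            (if res L = one' then (Nat.card P : ℂ) else 0) := by
        intro k hk
        simp only [hexpand (η : G → ℂ) _ k hk, haL]
        rw [Finset.sum_comm]
        refine Finset.sum_congr rfl fun L _ => ?_
        rw [← Finset.mul_sum, ← Finset.mul_sum, ← mul_assoc]
        congr 1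
        have h1 := irr_classInner (res L) (one' : IrrCharacter P)
        simp only [classInner, one'_apply, map_one, mul_one] at h1
        rw [inv_mul_eq_iff_eq_mul₀ (natCard_ne_zero P)] at h1
        rw [h1]
        split_ifs <;> simp
      have h1 := hs 1 (one_mem C)
      simp only [mul_one] at h1
      rw [hs k hk, h1, Complex.re_sum]
      refine le_trans (norm_sum_le _ _) (le_of_eq (Finset.sum_congr rfl fun L _ => ?_))
      rw [show (L : C → ℂ) ⟨1, one_mem C⟩ = 1 from irr_one hCab L]
      rw [norm_mul, norm_mul, Complex.norm_natCast,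
        norm_eq_one_of_pow_eq_one' (m := Nat.card C) Nat.card_pos (μ := (L : C → ℂ) ⟨k, hk⟩) (by
          obtain ⟨l, hl⟩ := exists_hom_of_irr_comm hCab L.2
          rw [hl, ← Units.val_pow_eq_pow_val, ← map_pow, pow_card_eq_one', map_one, Units.val_one])]
      split_ifs <;> simp
    intro η hη k hk
    have hdiff : ∀ η' : IrrCharacter G, 0 ≤ (kk η' : ℝ) *
        ((∑ a : P, (η' : G → ℂ) a).re - (∑ a : P, (η' : G → ℂ) ((a : G) * k)).re) := fun η' =>
      mul_nonneg (Nat.cast_nonneg _)
        (sub_nonneg.mpr ((Complex.re_le_norm _).trans (hnorm η' k (hKC hk))))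
    have hzero : ∑ η' : IrrCharacter G, (kk η' : ℝ) *
        ((∑ a : P, (η' : G → ℂ) a).re - (∑ a : P, (η' : G → ℂ) ((a : G) * k)).re) = 0 := by
      have hx : ∀ g : P → G, (∑ a : P, sq ξ (g a)).re =
          ∑ η' : IrrCharacter G, (kk η' : ℝ) * (∑ a : P, (η' : G → ℂ) (g a)).re := by
        intro g
        have e1 : ∑ a : P, sq ξ (g a) = ∑ η' : IrrCharacter G, (kk η' : ℂ) * ∑ a : P, (η' : G → ℂ) (g a) := by
          rw [classFunction_eq_sum (sq ξ) (isCharacter_classFunction h.sq_char)]
          simp only [Finset.sum_apply, Pi.smul_apply, smul_eq_mul, (hkec _).1, Finset.mul_sum]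
          exact Finset.sum_comm
        rw [e1, Complex.re_sum]
        exact Finset.sum_congr rfl fun η' _ => by
          rw [← Complex.ofReal_natCast, Complex.re_ofReal_mul]
      simp only [mul_sub, Finset.sum_sub_distrib]
      rw [← hx (fun a => (a : G)), ← hx (fun a => (a : G) * k), hsqsum k hk, sub_self]
    have h2 := (Finset.sum_eq_zero_iff_of_nonneg fun η' _ => hdiff η').mp hzero η (Finset.mem_univ η)
    have h3 : (∑ a : P, (η : G → ℂ) a).re = (∑ a : P, (η : G → ℂ) ((a : G) * k)).re :=
      sub_eq_zero.mp ((mul_eq_zero.mp h2).resolve_left (Nat.cast_ne_zero.mpr hη))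
    have him : ∀ z : ℂ, ‖z‖ ≤ z.re → z.im = 0 := by
      intro z hz
      have hz0 : 0 ≤ z.re := (norm_nonneg z).trans hz
      have := Complex.abs_re_le_norm z
      have h4 : Complex.normSq z = z.re * z.re := by
        rw [Complex.normSq_eq_norm_sq, le_antisymm hz (Complex.re_le_norm z)]; ring
      rw [Complex.normSq_apply] at h4
      nlinarith
    refine Complex.ext h3.symm ?_
    have h5 := hnorm η 1 (one_mem C)
    simp only [mul_one] at h5
    rw [him _ ((hnorm η k (hKC hk)).trans h3.le), him _ h5]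
  have hZpos : 0 < Nat.card (Subgroup.center G) := Nat.card_pos
  have hstep : (d + 1) * (∑ η ∈ Finset.univ.erase one, kk η * cc η) +
      ∑ η ∈ Finset.univ.erase one, kk η ≤ ∑ η ∈ Finset.univ.erase one, kk η * e η := by
    rw [Finset.mul_sum, ← Finset.sum_add_distrib]
    refine Finset.sum_le_sum fun η hη => ?_
    rcases Nat.eq_zero_or_pos (kk η) with h0 | h0
    · simp [h0]
    have hne : (η : G → ℂ) ≠ fun _ => 1 := fun e' =>
      Finset.ne_of_mem_erase hη (Subtype.ext (e'.trans hone.symm))
    have hb := degree_bound_strong P K S.comm S.noncentral hdisj hPK S.hone η.2 (S.exists_ker η.2 hne)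
      (hKsum η h0.ne')
    rw [show classInner (fun a : P => (η : G → ℂ) a) (fun _ => 1) = (cc η : ℂ) from (hkec η).2.2,
      (hkec η).2.1] at hb
    simp only [Complex.natCast_re] at hb
    have hb' : Nat.card P * Nat.card K * cc η ^ 2 < Nat.card (Subgroup.center G) * e η ^ 2 := by
      exact_mod_cast hb
    have h6 : (d + 1) * cc η < e η := by
      by_contra hcon
      have h7 : e η ^ 2 ≤ (d + 1) ^ 2 * cc η ^ 2 := by
        rw [← mul_pow]; exact Nat.pow_le_pow_left (Nat.not_lt.mp hcon) 2
      have h8 : (d + 1) ^ 2 ≤ 2 * Nat.card P := by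
        have := h.card_ge; nlinarith
      have h9 : Nat.card (Subgroup.center G) * e η ^ 2 ≤ Nat.card P * Nat.card K * cc η ^ 2 := by
        calc Nat.card (Subgroup.center G) * e η ^ 2
            ≤ Nat.card (Subgroup.center G) * (2 * Nat.card P * cc η ^ 2) :=
              Nat.mul_le_mul_left _ (h7.trans (Nat.mul_le_mul_right _ h8))
          _ = Nat.card P * (2 * Nat.card (Subgroup.center G)) * cc η ^ 2 := by ring
          _ ≤ Nat.card P * Nat.card K * cc η ^ 2 :=
              Nat.mul_le_mul_right _ (Nat.mul_le_mul_left _ hlt)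
      omega
    calc (d + 1) * (kk η * cc η) + kk η = kk η * ((d + 1) * cc η + 1) := by ring
      _ ≤ kk η * e η := Nat.mul_le_mul_left _ h6
  have hMd : M = d := by
    have h1 := h.sq_mult_one
    rw [hM] at h1
    have h2 := S.sum_mult ξ
    rw [h.deg] at h2
    have e1 : ∑ μ : IrrCharacter P, mult ξ μ * conj (mult ξ μ) = ∑ μ : IrrCharacter P, mult ξ μ :=
      Finset.sum_congr rfl fun μ _ => by
        rcases h.mult_le_one μ with h0 | h0 <;> simp [h0]
    rw [e1, ← h2] at h1
    exact_mod_cast h1
  have hd2 := h.two_le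
  set T := ∑ η ∈ Finset.univ.erase one, kk η * cc η with hT
  have hTd : T + 1 = d := by omega
  have hk0 : ∑ η ∈ Finset.univ.erase one, kk η = 0 := by
    rw [← hTd] at hke hstep
    ring_nf at hke hstep
    omega
  have hT0 : T = 0 := Finset.sum_eq_zero fun η hη => by
    rw [(Finset.sum_eq_zero_iff.mp hk0) η hη, zero_mul]
  omega

end Small

end CfsgLib.Uniform
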