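import Mathlib
import Cfsg.Agent.Lib.CharUniformCore

/-!
# There is no small faithful character with uniform centralisers
-/

set_option autoImplicit false
set_option linter.unusedSectionVars false
set_option linter.style.haveILetI false

namespace CfsgLib.Uniform

open Cfsg CfsgLib.Char
open scoped ComplexConjugate

universe u

variable {G : Type u} [Group G] [Fintype G]

theorem center_comm (a b : Subgroup.center G) : a * b = b * a :=
  Subtype.ext ((Subgroup.mem_center_iff.mp b.2) a)

/-- The central character of an irreducible character. -/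
theorem exists_central_char [Fintype (Subgroup.center G)] {η : G → ℂ} (hη : IsIrrCharacter G η) :
    ∃ φ : IrrCharacter (Subgroup.center G),
      ∀ (g : G) (z : Subgroup.center G), η (g * z) = (φ : Subgroup.center G → ℂ) z * η g := by
  choose ω hω hωg using fun z : Subgroup.center G => CfsgLib.Leonard.center_scalar hη z.2
  have h0 := irr_apply_one_ne_zero hη
  have hmul : ∀ z w, ω (z * w) = ω z * ω w := fun z w => by
    have h1 := hωg (z * w) 1
    rw [Subgroup.coe_mul, ← mul_assoc, hωg w, hωg z, ← mul_assoc, mul_comm (ω w)] at h1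
    exact (mul_right_cancel₀ h0 h1).symm
  have h1 : ω 1 = 1 := by
    have h2 := hωg 1 1
    rw [Subgroup.coe_one, mul_one] at h2
    exact mul_right_cancel₀ h0 (h2.symm.trans (one_mul _).symm)
  let f : Subgroup.center G →* ℂ := { toFun := ω, map_one' := h1, map_mul' := hmul }
  exact ⟨⟨fun z => (f.toHomUnits z : ℂ), isIrrCharacter_hom f.toHomUnits⟩, fun g z => hωg z g⟩

/-- Equivariant functions can only meet with matching scalars. -/
theorem scalar_eq_of_inner {f η : G → ℂ} {z : G} {α β : ℂ} (hf : ∀ g, f (g * z) = α * f g)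
    (hη : ∀ g, η (g * z) = β * η g) (h : classInner f η ≠ 0) : α * conj β = 1 := by
  have h1 : classInner f η = α * conj β * classInner f η := by
    simp only [classInner]
    rw [mul_left_comm]
    congr 1
    rw [Finset.mul_sum]
    refine (Fintype.sum_equiv (Equiv.mulRight z) _ _ fun g => ?_).symm
    rw [Equiv.coe_mulRight, hf, hη, map_mul]
    ring
  exact mul_right_cancel₀ h (h1.symm.trans (one_mul _).symm)

namespace Small

variable {p : ℕ} {P : Subgroup G} [Fintype P] {ξ : G → ℂ} {d : ℕ}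

/-- The internal product. -/
noncomputable def prodHom (h : Small p P ξ d) :
    P × Subgroup.center G →* Subgroup.centralizer (P : Set G) where
  toFun q := ⟨(q.1 : G) * q.2, mul_mem
    (Subgroup.mem_centralizer_iff.mpr fun b hb => h.setting.comm b hb _ q.1.2)
    (Subgroup.center_le_centralizer _ q.2.2)⟩
  map_one' := Subtype.ext (by simp)
  map_mul' q r := Subtype.ext (by
    show ((q.1 : G) * r.1) * ((q.2 : G) * r.2) = ((q.1 : G) * q.2) * ((r.1 : G) * r.2)
    rw [mul_assoc, mul_assoc, ← mul_assoc (r.1 : G), (Subgroup.mem_center_iff.mp q.2.2 r.1), mul_assoc])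

theorem prodHom_bijective (h : Small p P ξ d) : Function.Bijective h.prodHom := by
  refine ⟨(injective_iff_map_eq_one _).mpr ?_, fun c => ?_⟩
  · rintro ⟨a, z⟩ e
    have e' : (a : G) * (z : G) = 1 := congrArg Subtype.val e
    have ha : (a : G) ∈ P ⊓ Subgroup.center G :=
      ⟨a.2, by rw [eq_inv_of_mul_eq_one_left e']; exact (Subgroup.center G).inv_mem z.2⟩
    rw [h.setting.noncentral, Subgroup.mem_bot] at ha
    rw [ha, one_mul] at e'
    exact Prod.ext (Subtype.ext ha) (Subtype.ext e')
  · obtain ⟨a, ha, z, hz, e⟩ := h.decompose c.2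
    exact ⟨(⟨a, ha⟩, ⟨z, hz⟩), Subtype.ext e.symm⟩

/-- The internal product, as an isomorphism. -/
noncomputable def prodEquiv (h : Small p P ξ d) :
    P × Subgroup.center G ≃* Subgroup.centralizer (P : Set G) :=
  MulEquiv.ofBijective h.prodHom h.prodHom_bijective

theorem prodEquiv_coe (h : Small p P ξ d) (q : P × Subgroup.center G) :
    (h.prodEquiv q : G) = (q.1 : G) * q.2 := rfl

/-- The product character of `μ` and `φ`. -/
noncomputable def lift (h : Small p P ξ d) (μ : IrrCharacter P)
    (φ : IrrCharacter (Subgroup.center G)) : IrrCharacter (Subgroup.centralizer (P : Set G)) :=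
  ⟨fun c => (μ : P → ℂ) (h.prodEquiv.symm c).1 * (φ : Subgroup.center G → ℂ) (h.prodEquiv.symm c).2, by
    refine isIrr_of_degree_one (isCharacter_mul
      (isCharacter_comp μ.2.isCharacter' ((MonoidHom.fst P (Subgroup.center G)).comp h.prodEquiv.symm.toMonoidHom))
      (isCharacter_comp φ.2.isCharacter' ((MonoidHom.snd P (Subgroup.center G)).comp h.prodEquiv.symm.toMonoidHom))) ?_
    show (μ : P → ℂ) (h.prodEquiv.symm 1).1 * (φ : Subgroup.center G → ℂ) (h.prodEquiv.symm 1).2 = 1
    rw [map_one, Prod.fst_one, Prod.snd_one]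
    haveI : Fintype (Subgroup.center G) := Fintype.ofFinite _
    rw [irr_one h.setting.comm', irr_one center_comm, one_mul]⟩

theorem lift_apply (h : Small p P ξ d) (μ : IrrCharacter P) (φ : IrrCharacter (Subgroup.center G))
    (q : P × Subgroup.center G) : (h.lift μ φ : Subgroup.centralizer (P : Set G) → ℂ) (h.prodEquiv q) =
      (μ : P → ℂ) q.1 * (φ : Subgroup.center G → ℂ) q.2 := by
  show (μ : P → ℂ) (h.prodEquiv.symm _).1 * (φ : Subgroup.center G → ℂ) (h.prodEquiv.symm _).2 = _
  rw [MulEquiv.symm_apply_apply]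

theorem lift_inj (h : Small p P ξ d) [Fintype (Subgroup.center G)] {μ ν : IrrCharacter P}
    {φ : IrrCharacter (Subgroup.center G)} (e : h.lift μ φ = h.lift ν φ) : μ = ν := by
  refine Subtype.ext (funext fun a => ?_)
  have h1 := congrFun (congrArg Subtype.val e) (h.prodEquiv (a, 1))
  rw [lift_apply, lift_apply, irr_one center_comm, mul_one, mul_one] at h1
  exact h1

variable [Fintype (Subgroup.centralizer (P : Set G))] [Fintype (Subgroup.center G)]

/-- The induced virtual character. -/
noncomputable def theta (h : Small p P ξ d) (φ : IrrCharacter (Subgroup.center G))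
    (μ ν : IrrCharacter P) : G → ℂ :=
  indFun (Subgroup.centralizer (P : Set G))
    ((h.lift μ φ : Subgroup.centralizer (P : Set G) → ℂ) - (h.lift ν φ : Subgroup.centralizer (P : Set G) → ℂ))

theorem theta_genChar (h : Small p P ξ d) (φ : IrrCharacter (Subgroup.center G))
    (μ ν : IrrCharacter P) : IsGeneralizedCharacter G (h.theta φ μ ν) :=
  isGenChar_indFun (isGenChar_sub (isGenChar_of_isCharacter (h.lift μ φ).2.isCharacter')
    (isGenChar_of_isCharacter (h.lift ν φ).2.isCharacter'))

theorem theta_one (h : Small p P ξ d) (φ : IrrCharacter (Subgroup.center G))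
    (μ ν : IrrCharacter P) : h.theta φ μ ν 1 = 0 := by
  rw [theta, indFun_one_apply, Pi.sub_apply,
    irr_one (fun a b => Subtype.ext (h.centralizer_comm _ a.2 _ b.2)) (h.lift μ φ),
    irr_one (fun a b => Subtype.ext (h.centralizer_comm _ a.2 _ b.2)) (h.lift ν φ), sub_self, mul_zero]

theorem card_centralizer (h : Small p P ξ d) :
    (Nat.card (Subgroup.centralizer (P : Set G)) : ℂ) = Nat.card P * Nat.card (Subgroup.center G) := by
  rw [← Nat.card_congr h.prodEquiv.toEquiv, Nat.card_prod, Nat.cast_mul]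

theorem inner_theta (h : Small p P ξ d) {η : G → ℂ} (hη : IsClassFunction G η)
    {φ' φ : IrrCharacter (Subgroup.center G)}
    (hc : ∀ (g : G) (z : Subgroup.center G), η (g * z) = (φ' : Subgroup.center G → ℂ) z * η g)
    (μ ν : IrrCharacter P) :
    classInner η (h.theta φ μ ν) =
      (mult η μ - mult η ν) * classInner (φ' : Subgroup.center G → ℂ) (φ : Subgroup.center G → ℂ) := by
  rw [theta, frobenius_right _ _ hη, CfsgLib.Char.inner_sub_right, sub_mul]
  have key : ∀ μ : IrrCharacter P,
      classInner (fun c : Subgroup.centralizer (P : Set G) => η c) (h.lift μ φ : _ → ℂ) =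
        mult η μ * classInner (φ' : Subgroup.center G → ℂ) (φ : Subgroup.center G → ℂ) := by
    intro μ
    simp only [mult, classInner]
    rw [h.card_centralizer, mul_inv, mul_mul_mul_comm, Finset.sum_mul_sum, ← Fintype.sum_prod_type',
      ← Equiv.sum_comp h.prodEquiv.toEquiv]
    congr 1
    refine Finset.sum_congr rfl fun q _ => ?_
    rw [MulEquiv.toEquiv_eq_coe, MulEquiv.coe_toEquiv, lift_apply, prodEquiv_coe, hc, map_mul]
    ring
  rw [key, key]

open Classical in
theorem theta_on_centralizer (h : Small p P ξ d) (φ : IrrCharacter (Subgroup.center G))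
    (σ τ : IrrCharacter P) :
    (fun c : Subgroup.centralizer (P : Set G) => h.theta φ σ τ c) =
      (Nat.card (Subgroup.centralizer (P : Set G)) : ℂ)⁻¹ • ∑ n : Subgroup.normalizer (P : Set G),
        ((h.lift (h.setting.act n σ) φ : Subgroup.centralizer (P : Set G) → ℂ) -
          (h.lift (h.setting.act n τ) φ : Subgroup.centralizer (P : Set G) → ℂ)) := by
  classical
  have S := h.setting
  funext c
  obtain ⟨⟨a, z⟩, rfl⟩ := h.prodEquiv.surjective c
  simp only [Pi.smul_apply, Finset.sum_apply, Pi.sub_apply, smul_eq_mul, lift_apply]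
  rw [theta, indFun_apply]
  congr 1
  set F : Subgroup.centralizer (P : Set G) → ℂ := (h.lift σ φ : Subgroup.centralizer (P : Set G) → ℂ) -
    (h.lift τ φ : Subgroup.centralizer (P : Set G) → ℂ) with hF
  rcases eq_or_ne (a : G) 1 with ha | ha
  · have ha1 : a = 1 := Subtype.ext ha
    rw [Finset.sum_eq_zero, Finset.sum_eq_zero]
    · intro n _
      rw [ha1, irr_one h.setting.comm', irr_one h.setting.comm', sub_self]
    · intro x _
      have e : x⁻¹ * ((h.prodEquiv (a, z) : Subgroup.centralizer (P : Set G)) : G) * x =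
          ((h.prodEquiv (1, z) : Subgroup.centralizer (P : Set G)) : G) := by
        rw [prodEquiv_coe, prodEquiv_coe, ha, Subgroup.coe_one, one_mul, mul_assoc,
          ← Subgroup.mem_center_iff.mp z.2 x, inv_mul_cancel_left]
      rw [e, extendByZero_mem F (SetLike.coe_mem _), Subtype.coe_eta, hF, Pi.sub_apply, lift_apply,
        lift_apply, irr_one h.setting.comm', irr_one h.setting.comm', sub_self]
  · have hconj : ∀ x : G, x⁻¹ * ((h.prodEquiv (a, z) : Subgroup.centralizer (P : Set G)) : G) * x =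
        (x⁻¹ * (a : G) * x) * z := fun x => by
      rw [prodEquiv_coe]
      calc x⁻¹ * ((a : G) * z) * x = x⁻¹ * a * ((z : G) * x) := by group
        _ = x⁻¹ * a * (x * z) := by rw [Subgroup.mem_center_iff.mp z.2 x]
        _ = x⁻¹ * a * x * z := by group
    rw [← Finset.sum_subset (Finset.subset_univ (Finset.univ.filter fun x : G =>
      x ∈ Subgroup.normalizer (P : Set G)))]
    · rw [Finset.sum_subtype (Finset.univ.filter fun x : G => x ∈ Subgroup.normalizer (P : Set G))
        (p := fun x : G => x ∈ Subgroup.normalizer (P : Set G)) (by simp)]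
      refine Fintype.sum_equiv (Equiv.inv (Subgroup.normalizer (P : Set G))) _ _ fun n => ?_
      have e : ((n : G))⁻¹ * ((h.prodEquiv (a, z) : Subgroup.centralizer (P : Set G)) : G) * n =
          ((h.prodEquiv (h.setting.cj n⁻¹ a, z) : Subgroup.centralizer (P : Set G)) : G) := by
        rw [hconj, prodEquiv_coe]
        simp [Setting.cj, mul_assoc]
      rw [e, extendByZero_mem F (SetLike.coe_mem _), Subtype.coe_eta, hF, Pi.sub_apply, lift_apply, lift_apply]
      rfl
    · intro x _ hx
      refine extendByZero_not_mem F fun hm => ha ?_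
      have hx' : x ∉ Subgroup.normalizer (P : Set G) := fun hxN =>
        hx (Finset.mem_filter.mpr ⟨Finset.mem_univ _, hxN⟩)
      rw [hconj] at hm
      refine S.ti x hx' a a.2 (S.le_normalizer_of_comm ?_)
      exact (Subgroup.mul_mem_cancel_right _ (Subgroup.center_le_centralizer _ z.2)).mp hm

open Classical in
theorem inner_theta_theta (h : Small p P ξ d) (φ : IrrCharacter (Subgroup.center G))
    (μ ν : IrrCharacter P) {σ τ : IrrCharacter P} (hσ : σ ≠ one') (hτ : τ ≠ one') :
    classInner (h.theta φ μ ν) (h.theta φ σ τ) =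
      (if μ ∈ h.setting.orbit σ then 1 else 0) - (if μ ∈ h.setting.orbit τ then 1 else 0) -
      ((if ν ∈ h.setting.orbit σ then 1 else 0) - (if ν ∈ h.setting.orbit τ then 1 else 0)) := by
  set C := Subgroup.centralizer (P : Set G)
  have key : ∀ (μ σ : IrrCharacter P), σ ≠ one' →
      ∑ n : Subgroup.normalizer (P : Set G), classInner (h.lift μ φ : C → ℂ)
        (h.lift (h.setting.act n σ) φ : C → ℂ) =
        (Nat.card C : ℂ) * if μ ∈ h.setting.orbit σ then 1 else 0 := by
    intro μ σ hσ
    have e : ∀ n, classInner (h.lift μ φ : C → ℂ) (h.lift (h.setting.act n σ) φ : C → ℂ) =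
        if h.setting.act n σ = μ then 1 else 0 := by
      intro n
      rw [irr_classInner]
      split_ifs with h1 h2 h2
      · rfl
      · exact absurd (h.lift_inj h1).symm h2
      · exact absurd (by rw [h2]) h1
      · rfl
    rw [Finset.sum_congr rfl fun n _ => e n, Finset.sum_boole]
    have h5 := h.setting.card_fiber (ν := μ) hσ
    split_ifs at h5 ⊢
    · rw [mul_one, ← h5]; congr
    · rw [mul_zero, Nat.cast_eq_zero, ← h5]; congr
  have hcl : IsClassFunction G (h.theta φ σ τ) := indFun_classFunction _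
  rw [theta, CfsgLib.Char.frobenius _ _ hcl]
  have e2 := h.theta_on_centralizer φ σ τ
  rw [show (fun c : C => h.theta φ σ τ c) = _ from e2, CfsgLib.Char.inner_smul_right,
    CfsgLib.Char.inner_sum_right]
  simp only [CfsgLib.Char.inner_sub_left, CfsgLib.Char.inner_sub_right, Finset.sum_sub_distrib]
  rw [key μ σ hσ, key μ τ hτ, key ν σ hσ, key ν τ hτ, map_inv₀, Complex.conj_natCast, ← mul_sub, ← mul_sub,
    ← mul_sub, ← mul_assoc, inv_mul_cancel₀ (natCard_ne_zero C), one_mul]
  ring

/-- The difference of two irreducible characters behind `theta`. -/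
theorem theta_pair (h : Small p P ξ d) (φ : IrrCharacter (Subgroup.center G))
    {μ ν : IrrCharacter P} (hμ : μ ≠ one') (hν : ν ≠ one') (hμν : μ ∉ h.setting.orbit ν) :
    ∃ A B : G → ℂ, IsIrrCharacter G A ∧ IsIrrCharacter G B ∧ A ≠ B ∧ h.theta φ μ ν = A - B ∧ A 1 = B 1 := by
  classical
  have hνμ : ν ∉ h.setting.orbit μ := fun h' => hμν (h.setting.orbit_symm h')
  obtain ⟨A, B, hA, hB, hne, he⟩ := genChar_norm_two (h.theta_genChar φ μ ν) (by
    rw [h.inner_theta_theta φ μ ν hμ hν, if_pos (h.setting.self_mem_orbit μ), if_neg hμν, if_neg hνμ,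
      if_pos (h.setting.self_mem_orbit ν)]
    norm_num) (h.theta_one φ μ ν)
  refine ⟨A, B, hA, hB, hne, he, ?_⟩
  have := congrFun he 1
  rw [h.theta_one, Pi.sub_apply] at this
  exact sub_eq_zero.mp this.symm

/-- Coefficients of a pair. -/
theorem pair_coeff {A B θ η : G → ℂ} (hA : IsIrrCharacter G A) (hB : IsIrrCharacter G B) (hne : A ≠ B)
    (hη : IsIrrCharacter G η) (he : θ = A - B) :
    (η = A ∧ classInner η θ = 1) ∨ (η = B ∧ classInner η θ = -1) ∨
      (η ≠ A ∧ η ≠ B ∧ classInner η θ = 0) := by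
  rw [he, CfsgLib.Char.inner_sub_right]
  by_cases h1 : η = A
  · subst h1
    exact Or.inl ⟨rfl, by rw [irr_inner_self hη, irr_inner_ne hη hB hne, sub_zero]⟩
  by_cases h2 : η = B
  · subst h2
    exact Or.inr (Or.inl ⟨rfl, by rw [irr_inner_self hη, irr_inner_ne hη hA h1, zero_sub]⟩)
  · exact Or.inr (Or.inr ⟨h1, h2, by rw [irr_inner_ne hη hA h1, irr_inner_ne hη hB h2, sub_zero]⟩)

open Classical in
/-- Every orbit is the restriction of an irreducible character of degree `d`. -/
theorem exists_on_orbit (h : Small p P ξ d) {φ₀ : IrrCharacter (Subgroup.center G)}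
    (hφ₀ : ∀ (g : G) (z : Subgroup.center G), ξ (g * z) = (φ₀ : Subgroup.center G → ℂ) z * ξ g)
    {σ : IrrCharacter P} (hσ : σ ≠ one') :
    ∃ X : G → ℂ, IsIrrCharacter G X ∧ X 1 = d ∧
      (∀ (g : G) (z : Subgroup.center G), X (g * z) = (φ₀ : Subgroup.center G → ℂ) z * X g) ∧
      ∀ ν, mult X ν = if ν ∈ h.setting.orbit σ then 1 else 0 := by
  obtain ⟨μ₀, hμ₀, hsupp, hcard⟩ := h.one_orbit
  by_cases hin : σ ∈ h.setting.orbit μ₀
  · refine ⟨ξ, h.irr, h.deg, hφ₀, fun ν => ?_⟩
    rw [hsupp]
    exact if_congr ⟨fun hν => h.setting.orbit_trans (h.setting.orbit_symm hin) hν,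
      fun hν => h.setting.orbit_trans hin hν⟩ rfl rfl
  have hμσ : μ₀ ∉ h.setting.orbit σ := fun h' => hin (h.setting.orbit_symm h')
  obtain ⟨A, B, hA, hB, hne, he, hdeg⟩ := h.theta_pair φ₀ hμ₀ hσ hμσ
  have hξ : classInner ξ (h.theta φ₀ μ₀ σ) = 1 := by
    rw [h.inner_theta (isCharacter_classFunction h.irr.isCharacter') hφ₀, irr_inner_self φ₀.2, mul_one,
      hsupp, hsupp, if_pos (h.setting.self_mem_orbit μ₀), if_neg hin, sub_zero]
  obtain rfl : ξ = A := by
    rcases pair_coeff hA hB hne h.irr he with ⟨e, -⟩ | ⟨-, e⟩ | ⟨-, -, e⟩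
    · exact e
    · rw [hξ] at e; norm_num at e
    · rw [hξ] at e; exact absurd e one_ne_zero
  have hBθ : classInner B (h.theta φ₀ μ₀ σ) = -1 := by
    rw [he, CfsgLib.Char.inner_sub_right, irr_inner_self hB, irr_inner_ne hB hA hne.symm, zero_sub]
  obtain ⟨φB, hφB⟩ := exists_central_char hB
  rw [h.inner_theta (isCharacter_classFunction hB.isCharacter') hφB, irr_classInner] at hBθ
  have hφ : φB = φ₀ := by
    by_contra hne'
    rw [if_neg hne', mul_zero] at hBθ
    norm_num at hBθ
  rw [if_pos hφ, mul_one] at hBθ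
  subst hφ
  choose m hm using fun ν : IrrCharacter P => mult_nat (P := P) hB.isCharacter' ν
  have hpos : 1 ≤ m σ := by
    rw [hm, hm] at hBθ
    have : ((m σ : ℕ) : ℂ) = ((m μ₀ + 1 : ℕ) : ℂ) := by push_cast; linear_combination -hBθ
    rw [Nat.cast_inj] at this
    omega
  have horb : ∀ ν ∈ h.setting.orbit σ, m ν = m σ := by
    intro ν hν
    obtain ⟨n, rfl⟩ := h.setting.mem_orbit.mp hν
    have := mult_act h.setting (isCharacter_classFunction hB.isCharacter') n σ
    rw [hm, hm] at this
    exact_mod_cast this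
  have hsum : ∑ ν, m ν = d := by
    have := h.setting.sum_mult B
    rw [← hdeg, h.deg] at this
    simp only [hm] at this
    exact_mod_cast this.symm
  have hsplit := Finset.sum_add_sum_compl (h.setting.orbit σ) m
  rw [Finset.sum_congr rfl horb, Finset.sum_const, h.card_orbit hσ, smul_eq_mul] at hsplit
  have hdle : d ≤ d * m σ := Nat.le_mul_of_pos_right _ hpos
  have hmσ : m σ = 1 := by
    have h1 : d * m σ ≤ d * 1 := by rw [mul_one]; omega
    have := Nat.le_of_mul_le_mul_left h1 (by have := h.two_le; omega)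
    omega
  have hrest : ∑ ν ∈ (h.setting.orbit σ)ᶜ, m ν = 0 := by omega
  refine ⟨B, hB, by rw [← hdeg, h.deg], hφB, fun ν => ?_⟩
  rw [hm]
  split_ifs with hν
  · rw [horb ν hν, hmσ, Nat.cast_one]
  · rw [(Finset.sum_eq_zero_iff.mp hrest) ν (Finset.mem_compl.mpr hν), Nat.cast_zero]

/-- Blichfeldt's contradiction. -/
theorem false_of_small_aux (h : Small p P ξ d) : False := by
  classical
  have S := h.setting
  have hd2 := h.two_le
  have hcard := h.card_ge
  obtain ⟨φ₀, hφ₀⟩ := exists_central_char h.irr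
  obtain ⟨μ₀, hμ₀, hsupp, hμcard⟩ := h.one_orbit
  have hM : mult (sq ξ) (one' : IrrCharacter P) = (d : ℂ) := by
    rw [h.sq_mult_one, ← h.deg, S.sum_mult ξ]
    refine Finset.sum_congr rfl fun μ _ => ?_
    rcases h.mult_le_one μ with h0 | h0 <;> simp [h0]
  obtain ⟨k, e, c, hkec, one, hone, hke, hkc⟩ := h.sq_data hM
  obtain ⟨η, hη, hkη, hcη⟩ : ∃ η ∈ Finset.univ.erase one, k η ≠ 0 ∧ c η ≠ 0 := by
    by_contra hcon
    push Not at hcon
    have hz : ∑ η ∈ Finset.univ.erase one, k η * c η = 0 := Finset.sum_eq_zero fun η hη => by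
      rcases eq_or_ne (k η) 0 with h0 | h0
      · rw [h0, zero_mul]
      · rw [hcon η hη h0, mul_zero]
    omega
  obtain ⟨hkη', heη, hmη⟩ := hkec η
  have heη_le : e η + 1 ≤ d ^ 2 := by
    have := Finset.single_le_sum (f := fun η => k η * e η) (fun _ _ => Nat.zero_le _) hη
    have := Nat.le_mul_of_pos_left (e η) (Nat.pos_of_ne_zero hkη)
    omega
  have hη1 : (η : G → ℂ) ≠ fun _ => 1 := fun e' =>
    Finset.ne_of_mem_erase hη (Subtype.ext (e'.trans hone.symm))
  -- `η` is trivial on the centre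
  obtain ⟨φη, hφη⟩ := exists_central_char η.2
  have hunit : ∀ (φ : IrrCharacter (Subgroup.center G)) z,
      (φ : Subgroup.center G → ℂ) z * conj ((φ : Subgroup.center G → ℂ) z) = 1 := fun φ z => by
    rw [irr_conj center_comm, ← irr_map_mul center_comm, mul_inv_cancel, irr_one center_comm]
  let φ₁ : IrrCharacter (Subgroup.center G) := one'
  have hφη1 : φη = φ₁ := by
    refine Subtype.ext (funext fun z => ?_)
    have hsq : ∀ g, sq ξ (g * (z : G)) = 1 * sq ξ g := fun g => by
      show ξ (g * z) * conj (ξ (g * z)) = 1 * (ξ g * conj (ξ g))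
      rw [hφ₀, map_mul]
      linear_combination (ξ g * conj (ξ g)) * hunit φ₀ z
    have h1 := scalar_eq_of_inner hsq (fun g => hφη g z) (by rw [hkη']; exact_mod_cast hkη)
    rw [one_mul] at h1
    calc (φη : Subgroup.center G → ℂ) z = conj (conj ((φη : Subgroup.center G → ℂ) z)) := (Complex.conj_conj _).symm
      _ = 1 := by rw [h1, map_one]
  subst hφη1
  choose m hm using fun ν : IrrCharacter P => mult_nat (P := P) η.2.isCharacter' ν
  have horb : ∀ μ, ∀ ν ∈ S.orbit μ, m ν = m μ := by
    intro μ ν hν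
    obtain ⟨n, rfl⟩ := S.mem_orbit.mp hν
    have := mult_act S (isCharacter_classFunction η.2.isCharacter') n μ
    rw [hm, hm] at this
    exact_mod_cast this
  set T := (Finset.univ.erase (one' : IrrCharacter P)).filter fun ν => m ν ≠ 0 with hT
  have hcm : m one' = c η := by exact_mod_cast (hm one').symm.trans hmη
  have hsum : e η = c η + ∑ ν ∈ Finset.univ.erase one', m ν := by
    have h1 := S.sum_mult (η : G → ℂ)
    simp only [hm, heη] at h1
    have h2 : e η = ∑ ν, m ν := by exact_mod_cast h1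
    rw [h2, ← Finset.add_sum_erase _ _ (Finset.mem_univ (one' : IrrCharacter P)), hcm]
  have hTsum : T.card ≤ ∑ ν ∈ Finset.univ.erase one', m ν := by
    rw [Finset.card_eq_sum_ones]
    refine le_trans (Finset.sum_le_sum fun ν hν => ?_)
      (Finset.sum_le_sum_of_subset (Finset.filter_subset _ _))
    exact Nat.pos_of_ne_zero (Finset.mem_filter.mp hν).2
  have hTne1 : ∀ ν ∈ T, ν ≠ one' := fun ν hν => Finset.ne_of_mem_erase (Finset.mem_filter.mp hν).1
  have hTclosed : ∀ μ ∈ T, S.orbit μ ⊆ T := by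
    intro μ hμ ν hν
    obtain ⟨n, rfl⟩ := S.mem_orbit.mp hν
    refine Finset.mem_filter.mpr ⟨Finset.mem_erase.mpr ⟨S.act_ne_one n (hTne1 μ hμ), Finset.mem_univ _⟩, ?_⟩
    rw [horb μ _ (S.mem_orbit.mpr ⟨n, rfl⟩)]
    exact (Finset.mem_filter.mp hμ).2
  have hTd : T.card + d ≤ d * d := by
    obtain ⟨j, hj⟩ := S.dvd_card_stable (fun μ hμ => h.card_orbit hμ) T hTne1 hTclosed
    have hlt : j < d := by
      by_contra hc
      have h1 := Nat.mul_le_mul_left d (Nat.not_lt.mp hc)
      rw [pow_two] at heη_le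
      omega
    have h1 := Nat.mul_le_mul_left d (show j + 1 ≤ d by omega)
    rw [mul_add, mul_one] at h1
    omega
  set U := (Finset.univ.erase (one' : IrrCharacter P)).filter fun ν => m ν = 0 with hU
  have hUcard : 2 * d ≤ U.card := by
    have h1 := Finset.card_filter_add_card_filter_not (s := Finset.univ.erase (one' : IrrCharacter P))
      (fun ν => m ν = 0)
    rw [Finset.card_erase_of_mem (Finset.mem_univ _), Finset.card_univ, card_irr S.comm'] at h1
    have e2 : ((Finset.univ.erase (one' : IrrCharacter P)).filter fun ν => ¬ m ν = 0) = T := rfl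
    rw [e2, ← hU] at h1
    rw [mul_add, mul_one] at hcard
    omega
  obtain ⟨σ, hσ⟩ : U.Nonempty := Finset.card_pos.mp (by omega)
  obtain ⟨τ, hτ, hτσ⟩ : ∃ τ ∈ U, τ ∉ S.orbit σ := by
    by_contra hc
    push Not at hc
    have := Finset.card_le_card (show U ⊆ S.orbit σ from hc)
    rw [h.card_orbit (Finset.ne_of_mem_erase (Finset.mem_filter.mp hσ).1)] at this
    omega
  have hU1 : ∀ ν ∈ U, ν ≠ one' := fun ν hν => Finset.ne_of_mem_erase (Finset.mem_filter.mp hν).1
  have hU0 : ∀ ν ∈ U, m ν = 0 := fun ν hν => (Finset.mem_filter.mp hν).2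
  have hsep : ∀ μ ∈ T, ∀ ν ∈ U, μ ∉ S.orbit ν := fun μ hμ ν hν hmem =>
    (Finset.mem_filter.mp hμ).2 (by rw [horb ν μ hmem, hU0 ν hν])
  have hone1 : classInner (φ₁ : Subgroup.center G → ℂ) (φ₁ : Subgroup.center G → ℂ) = 1 := irr_inner_self φ₁.2
  have hpairT : ∀ μ ∈ T, ∀ ν ∈ U, m μ = 1 ∧ ∃ B : G → ℂ, IsIrrCharacter G B ∧ (η : G → ℂ) ≠ B ∧
      h.theta φ₁ μ ν = (η : G → ℂ) - B := by
    intro μ hμ ν hν
    obtain ⟨A, B, hA, hB, hne, he, -⟩ := h.theta_pair φ₁ (hTne1 μ hμ) (hU1 ν hν) (hsep μ hμ ν hν)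
    have hval : classInner (η : G → ℂ) (h.theta φ₁ μ ν) = (m μ : ℂ) := by
      rw [h.inner_theta (isCharacter_classFunction η.2.isCharacter') hφη, hone1, mul_one, hm, hm, hU0 ν hν,
        Nat.cast_zero, sub_zero]
    rcases pair_coeff hA hB hne η.2 he with ⟨e1, e2⟩ | ⟨-, e2⟩ | ⟨-, -, e2⟩
    · rw [hval, Nat.cast_eq_one] at e2
      exact ⟨e2, B, hB, e1 ▸ hne, by rw [he, e1]⟩
    · rw [hval] at e2
      have : ((m μ + 1 : ℕ) : ℂ) = 0 := by push_cast; linear_combination e2
      exact absurd (Nat.cast_eq_zero.mp this) (by omega)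
    · rw [hval, Nat.cast_eq_zero] at e2
      exact absurd e2 (Finset.mem_filter.mp hμ).2
  obtain ⟨μ', hμ'⟩ : T.Nonempty := by
    by_contra hc
    rw [Finset.not_nonempty_iff_eq_empty] at hc
    refine hη1 (S.eq_one_of_mult η.2 fun ν hν => ?_)
    rw [hm, Nat.cast_eq_zero]
    by_contra h0
    have : ν ∈ T := Finset.mem_filter.mpr ⟨Finset.mem_erase.mpr ⟨hν, Finset.mem_univ _⟩, h0⟩
    rw [hc] at this
    exact Finset.notMem_empty _ this
  have hTorb : T = S.orbit μ' := by
    refine Finset.Subset.antisymm (fun μ hμ => ?_) (hTclosed μ' hμ')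
    by_contra hnot
    obtain ⟨B, hB, hB1, hB2⟩ := (hpairT μ' hμ' σ hσ).2
    obtain ⟨B', hB', hB1', hB2'⟩ := (hpairT μ hμ τ hτ).2
    have h1 := h.inner_theta_theta φ₁ μ' σ (hTne1 μ hμ) (hU1 τ hτ)
    rw [if_neg (fun hmem => hnot (S.orbit_symm hmem)), if_neg (hsep μ' hμ' τ hτ),
      if_neg (fun hmem => hsep μ hμ σ hσ (S.orbit_symm hmem)),
      if_neg (fun hmem => hτσ (S.orbit_symm hmem)), sub_self, hB2, hB2',
      CfsgLib.Char.inner_sub_left, CfsgLib.Char.inner_sub_right, CfsgLib.Char.inner_sub_right,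
      irr_inner_self η.2, irr_inner_ne η.2 hB' hB1', irr_inner_ne hB η.2 hB1.symm] at h1
    obtain ⟨j, hj⟩ := inner_character_nat hB.isCharacter' hB'.isCharacter'
    rw [hj] at h1
    have : ((j + 1 : ℕ) : ℂ) = 0 := by push_cast; linear_combination h1
    exact absurd (Nat.cast_eq_zero.mp this) (by omega)
  have heq : ∑ ν ∈ Finset.univ.erase one', m ν = d := by
    rw [← Finset.sum_filter_ne_zero, ← hT, hTorb, Finset.sum_congr rfl fun ν hν =>
      (horb μ' ν hν).trans (hpairT μ' hμ' σ hσ).1, Finset.sum_const, h.card_orbit (hTne1 μ' hμ'),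
      smul_eq_mul, mul_one]
  have hc1 : c η = 1 := by
    have hb := S.bound η.2 hη1 heη hmη
    rw [hsum, heq] at hb
    by_contra hne
    have h2 : 2 ≤ c η := by omega
    have h3 : c η + d ≤ d * c η := by
      have := Nat.mul_le_mul_left d h2
      have := Nat.mul_le_mul_right (c η) hd2
      omega
    have h4 : (d * c η) ^ 2 ≤ Nat.card P * c η ^ 2 := by
      rw [mul_pow]
      exact Nat.mul_le_mul_right _ (by have := h.small; omega)
    have h5 := Nat.pow_le_pow_left h3 2
    omega
  have hedeg : e η = d + 1 := by rw [hsum, heq, hc1, add_comm]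
  -- the product with the character on the inverse orbit
  let σ' : IrrCharacter P := ⟨fun a => conj ((μ' : P → ℂ) a),
    isIrr_of_degree_one (isCharacter_conj μ'.2.isCharacter') (by simp [irr_one S.comm'])⟩
  have hσ' : σ' ≠ one' := by
    intro e'
    refine hTne1 μ' hμ' (Subtype.ext (funext fun a => ?_))
    have h1 := congrFun (congrArg Subtype.val e') a
    calc (μ' : P → ℂ) a = conj (conj ((μ' : P → ℂ) a)) := (Complex.conj_conj _).symm
      _ = conj 1 := congrArg _ h1
      _ = 1 := map_one _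
  obtain ⟨X, hX, hXd, hφX, hXm⟩ := h.exists_on_orbit hφ₀ hσ'
  set f : G → ℂ := X * (η : G → ℂ) with hf
  have hfc : IsCharacter G f := isCharacter_mul hX.isCharacter' η.2.isCharacter'
  have hf1 : mult f (one' : IrrCharacter P) ≠ 0 := by
    set g : P → ℂ := fun a => conj ((η : G → ℂ) a) with hg
    have e1 : mult f (one' : IrrCharacter P) = classInner (fun a : P => X a) g := by
      simp [mult, classInner, hf, hg, one'_apply]
    have hgc : IsCharacter P g := isCharacter_conj (isCharacter_restrict η.2.isCharacter' P)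
    choose m' hm' using fun ν : IrrCharacter P => inner_character_nat hgc ν.2.isCharacter'
    have hσm : m' σ' = 1 := by
      have h1 : classInner g (σ' : P → ℂ) = conj (mult (η : G → ℂ) μ') := by
        simp [classInner, mult, hg, σ', map_sum]
      rw [hm', hm, Complex.conj_natCast, Nat.cast_inj] at h1
      exact h1.trans (hpairT μ' hμ' σ hσ).1
    rw [e1, inner_eq_sum_coeff _ _ (classFun_of_comm S.comm' _)]
    rw [Finset.sum_congr rfl fun (ν : IrrCharacter P) _ => show classInner (fun a : P => X a) (ν : P → ℂ) *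
        conj (classInner g (ν : P → ℂ)) = ((if ν ∈ S.orbit σ' then m' ν else 0 : ℕ) : ℂ) by
      rw [show classInner (fun a : P => X a) (ν : P → ℂ) = mult X ν from rfl, hXm, hm',
        Complex.conj_natCast]
      split_ifs <;> simp]
    rw [← Nat.cast_sum, Nat.cast_ne_zero, Finset.sum_ite_mem, Finset.univ_inter]
    intro h0
    have := (Finset.sum_eq_zero_iff.mp h0) σ' (S.self_mem_orbit σ')
    omega
  obtain ⟨ω, hωf, hω1⟩ : ∃ ω : IrrCharacter G, classInner f (ω : G → ℂ) ≠ 0 ∧
      mult (ω : G → ℂ) (one' : IrrCharacter P) ≠ 0 := by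
    by_contra hc
    push Not at hc
    refine hf1 ?_
    rw [S.mult_expand (isCharacter_classFunction hfc)]
    refine Finset.sum_eq_zero fun ω _ => ?_
    by_cases h0 : classInner f (ω : G → ℂ) = 0
    · rw [h0, zero_mul]
    · rw [hc ω h0, mul_zero]
  obtain ⟨φω, hφω⟩ := exists_central_char ω.2
  have hφω0 : φω = φ₀ := by
    refine Subtype.ext (funext fun z => ?_)
    have hfz : ∀ g, f (g * (z : G)) = (φ₀ : Subgroup.center G → ℂ) z * f g := fun g => by
      show X (g * z) * (η : G → ℂ) (g * z) = _ * (X g * (η : G → ℂ) g)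
      rw [hφX, hφη, show (φ₁ : Subgroup.center G → ℂ) z = 1 from rfl]
      ring
    have h1 := scalar_eq_of_inner hfz (fun g => hφω g z) hωf
    have h2 := hunit φω z
    calc (φω : Subgroup.center G → ℂ) z
        = (φω : Subgroup.center G → ℂ) z * ((φ₀ : Subgroup.center G → ℂ) z * conj ((φω : Subgroup.center G → ℂ) z)) := by
          rw [h1, mul_one]
      _ = (φ₀ : Subgroup.center G → ℂ) z * ((φω : Subgroup.center G → ℂ) z * conj ((φω : Subgroup.center G → ℂ) z)) := by ring
      _ = (φ₀ : Subgroup.center G → ℂ) z := by rw [h2, mul_one]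
  subst hφω0
  have hωne : (ω : G → ℂ) ≠ fun _ => 1 := by
    intro e'
    refine hωf ?_
    rw [e']
    have h1 : classInner f (fun _ => 1) = classInner (η : G → ℂ) (fun g => conj (X g)) := by
      simp only [classInner, hf, Pi.mul_apply, map_one, mul_one, Complex.conj_conj]
      exact congrArg _ (Finset.sum_congr rfl fun g _ => mul_comm _ _)
    rw [h1]
    obtain ⟨d', ρ, hρ, hρX⟩ := id hX
    have hXc : IsIrrCharacter G (fun g => conj (X g)) := by
      refine isIrr_of_inner_self_one (isCharacter_conj hX.isCharacter') ?_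
      rw [← irr_inner_self hX]
      simp only [classInner, Complex.conj_conj]
      exact congrArg _ (Finset.sum_congr rfl fun g _ => mul_comm _ _)
    refine irr_inner_ne η.2 hXc fun e'' => ?_
    have h2 := congrFun e'' 1
    rw [heη, hXd, Complex.conj_natCast, Nat.cast_inj] at h2
    omega
  choose w hw using fun ν : IrrCharacter P => mult_nat (P := P) ω.2.isCharacter' ν
  have hconst : ∀ μ ν : IrrCharacter P, μ ≠ one' → ν ≠ one' → w μ = w ν := by
    intro μ ν hμ hν
    by_cases hor : μ ∈ S.orbit ν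
    · obtain ⟨n, rfl⟩ := S.mem_orbit.mp hor
      have := mult_act S (isCharacter_classFunction ω.2.isCharacter') n ν
      rw [hw, hw] at this
      exact_mod_cast this
    obtain ⟨A, B, hA, hB, hne, he, -⟩ := h.theta_pair φω hμ hν hor
    have hval : ∀ X' : G → ℂ, IsClassFunction G X' → (∀ (g : G) (z : Subgroup.center G),
        X' (g * z) = (φω : Subgroup.center G → ℂ) z * X' g) →
        classInner X' (h.theta φω μ ν) = mult X' μ - mult X' ν := fun X' hcl hX' => by
      rw [h.inner_theta hcl hX', irr_inner_self φω.2, mul_one]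
    obtain ⟨X1, hX1, -, hX1φ, hX1m⟩ := h.exists_on_orbit hφ₀ hμ
    obtain ⟨X2, hX2, -, hX2φ, hX2m⟩ := h.exists_on_orbit hφ₀ hν
    have v1 := hval X1 (isCharacter_classFunction hX1.isCharacter') hX1φ
    have v2 := hval X2 (isCharacter_classFunction hX2.isCharacter') hX2φ
    have hor' : ν ∉ S.orbit μ := fun h' => hor (S.orbit_symm h')
    rw [hX1m, hX1m, if_pos (S.self_mem_orbit μ), if_neg hor', sub_zero] at v1
    rw [hX2m, hX2m, if_pos (S.self_mem_orbit ν), if_neg hor, zero_sub] at v2
    have eA : X1 = A := by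
      rcases pair_coeff hA hB hne hX1 he with ⟨e', -⟩ | ⟨-, e'⟩ | ⟨-, -, e'⟩
      · exact e'
      · rw [v1] at e'; norm_num at e'
      · rw [v1] at e'; exact absurd e' one_ne_zero
    have eB : X2 = B := by
      rcases pair_coeff hA hB hne hX2 he with ⟨-, e'⟩ | ⟨e', -⟩ | ⟨-, -, e'⟩
      · rw [v2] at e'; norm_num at e'
      · exact e'
      · rw [v2] at e'; norm_num at e'
    have hvω := hval (ω : G → ℂ) (isCharacter_classFunction ω.2.isCharacter') hφω
    rcases pair_coeff hA hB hne ω.2 he with ⟨e', -⟩ | ⟨e', -⟩ | ⟨-, -, e'⟩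
    · exact absurd (by rw [e', ← eA, hX1m, if_neg (fun h' => by
        obtain ⟨n, hn⟩ := S.mem_orbit.mp h'
        exact S.act_ne_one n hμ hn)]) hω1
    · exact absurd (by rw [e', ← eB, hX2m, if_neg (fun h' => by
        obtain ⟨n, hn⟩ := S.mem_orbit.mp h'
        exact S.act_ne_one n hν hn)]) hω1
    · rw [hvω, hw, hw, sub_eq_zero, Nat.cast_inj] at e'
      exact e'
  have hwpos : ∀ ν : IrrCharacter P, 1 ≤ w ν := by
    obtain ⟨ν₀, hν₀, hν₀w⟩ : ∃ ν₀ : IrrCharacter P, ν₀ ≠ one' ∧ w ν₀ ≠ 0 := by
      by_contra hc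
      push Not at hc
      exact hωne (S.eq_one_of_mult ω.2 fun ν hν => by rw [hw, hc ν hν, Nat.cast_zero])
    intro ν
    rcases eq_or_ne ν one' with rfl | hν
    · refine Nat.pos_of_ne_zero fun h0 => hω1 ?_
      rw [hw, h0, Nat.cast_zero]
    · rw [hconst ν ν₀ hν hν₀]
      exact Nat.pos_of_ne_zero hν₀w
  have hle := constituent_degree_le hfc ω.2 hωf
  have hω_deg : (ω : G → ℂ) 1 = ((∑ ν, w ν : ℕ) : ℂ) := by
    rw [S.sum_mult (ω : G → ℂ), Nat.cast_sum]
    exact Finset.sum_congr rfl fun ν _ => hw ν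
  have hf_deg : f 1 = ((d * (d + 1) : ℕ) : ℂ) := by
    show X 1 * (η : G → ℂ) 1 = _
    rw [hXd, heη, hedeg, Nat.cast_mul]
  rw [hω_deg, hf_deg, Complex.natCast_re, Complex.natCast_re, Nat.cast_le] at hle
  have hcount : Nat.card P ≤ ∑ ν, w ν := by
    rw [← card_irr S.comm', ← Finset.card_univ, Finset.card_eq_sum_ones]
    exact Finset.sum_le_sum fun ν _ => hwpos ν
  omega

end Small

theorem false_of_small {p : ℕ} {P : Subgroup G} [Fintype P] {ξ : G → ℂ} {d : ℕ}
    (h : Small p P ξ d) : False := by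
  haveI : Fintype (Subgroup.centralizer (P : Set G)) := Fintype.ofFinite _
  haveI : Fintype (Subgroup.center G) := Fintype.ofFinite _
  exact h.false_of_small_aux

end CfsgLib.Uniform
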