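import Mathlib
import Cfsg.Agent.Lib.CharUniformExceptional

/-!
# Blichfeldt's theorem on Sylow subgroups with uniform centralisers
-/

set_option autoImplicit false
set_option linter.unusedSectionVars false
set_option linter.style.haveILetI false

namespace CfsgLib.Uniform

open Cfsg CfsgLib.Char

universe u

variable {G : Type u} [Group G] {p : ℕ}

/-- Every nontrivial element of the Sylow subgroup has the centraliser of the whole. -/
def HStar (P : Sylow p G) : Prop :=
  ∀ x ∈ (P : Subgroup G), x ≠ 1 →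
    Subgroup.centralizer ({x} : Set G) = Subgroup.centralizer ((P : Subgroup G) : Set G)

theorem HStar.comm {P : Sylow p G} (h : HStar P) :
    ∀ a ∈ (P : Subgroup G), ∀ b ∈ (P : Subgroup G), a * b = b * a := by
  intro a ha b hb
  by_cases hb1 : b = 1
  · simp [hb1]
  have h1 : b ∈ Subgroup.centralizer ({b} : Set G) := Subgroup.mem_centralizer_singleton_iff.mpr rfl
  rw [h b hb hb1] at h1
  exact Subgroup.mem_centralizer_iff.mp h1 a ha

theorem sylow_le_centralizer {P : Sylow p G} (h : HStar P) {g x : G} (hx : x ∈ (P : Subgroup G))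
    (hx1 : x ≠ 1) (hgx : g * x = x * g) : (P : Subgroup G) ≤ Subgroup.centralizer ({g} : Set G) := by
  intro a ha
  rw [Subgroup.mem_centralizer_singleton_iff]
  have h1 : g ∈ Subgroup.centralizer ({x} : Set G) := Subgroup.mem_centralizer_singleton_iff.mpr hgx
  rw [h x hx hx1] at h1
  exact Subgroup.mem_centralizer_iff.mp h1 a ha

/-- Conjugates of nontrivial elements inside the Sylow subgroup come from its normaliser. -/
theorem HStar.mem_normalizer [Finite G] [Fact p.Prime] {P : Sylow p G} (h : HStar P) {x g : G}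
    (hx : x ∈ (P : Subgroup G)) (hx1 : x ≠ 1) (hy : g * x * g⁻¹ ∈ (P : Subgroup G)) :
    g ∈ Subgroup.normalizer ((P : Subgroup G) : Set G) := by
  set y := g * x * g⁻¹ with hydef
  have hy1 : y ≠ 1 := fun e => hx1 (conj_eq_one_iff.mp e)
  rw [Subgroup.mem_normalizer_iff_map_conj_eq]
  set Q := (P : Subgroup G).map (MulAut.conj g).toMonoidHom with hQ
  have hQp : IsPGroup p Q := P.isPGroup'.map _
  have hQC : Q ≤ Subgroup.centralizer ((P : Subgroup G) : Set G) := by
    rw [← h y hy hy1]
    rintro _ ⟨a, ha, rfl⟩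
    rw [Subgroup.mem_centralizer_singleton_iff, hydef]
    show g * a * g⁻¹ * (g * x * g⁻¹) = g * x * g⁻¹ * (g * a * g⁻¹)
    calc g * a * g⁻¹ * (g * x * g⁻¹) = g * (a * x) * g⁻¹ := by group
      _ = g * (x * a) * g⁻¹ := by rw [h.comm a ha x hx]
      _ = g * x * g⁻¹ * (g * a * g⁻¹) := by group
  have hQN : Q ≤ Subgroup.normalizer ((P : Subgroup G) : Set G) := by
    intro c hc
    have hcc := hQC hc
    rw [Subgroup.mem_normalizer_iff]
    intro a
    constructor
    · intro ha
      rw [← Subgroup.mem_centralizer_iff.mp hcc a ha, mul_inv_cancel_right]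
      exact ha
    · intro ha
      have h1 := Subgroup.mem_centralizer_iff.mp hcc _ ha
      rw [inv_mul_cancel_right] at h1
      rw [mul_left_cancel h1]
      exact ha
  have h2 := P.is_maximal' (hQp.to_sup_of_normal_right' P.isPGroup' hQN) le_sup_right
  exact Subgroup.eq_of_le_of_card_ge (sup_eq_right.mp h2)
    (Subgroup.card_map_of_injective (MulEquiv.injective _)).ge

/-- Two `p`-subgroups inside a subgroup with a normal Sylow subgroup. -/
theorem le_of_normal_in [Finite G] [Fact p.Prime] (P : Sylow p G) {D : Subgroup G}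
    (hPD : (P : Subgroup G) ≤ D) (hn : (P.subtype hPD : Subgroup D).Normal) {Q : Subgroup G}
    (hQ : IsPGroup p Q) (hQD : Q ≤ D) : Q ≤ (P : Subgroup G) := by
  obtain ⟨S, hS⟩ := (hQ.comap_of_injective D.subtype D.subtype_injective).exists_le_sylow
  haveI := Sylow.unique_of_normal (P.subtype hPD) hn
  rw [Subsingleton.elim S (P.subtype hPD)] at hS
  intro a ha
  exact hS (show (⟨a, hQD ha⟩ : D) ∈ Q.comap D.subtype from ha)

/-- The hypothesis passes to the quotient by a normal subgroup meeting `P` trivially. -/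
theorem HStar.quotient [Finite G] [Fact p.Prime] {P : Sylow p G} (h : HStar P) (R : Subgroup G)
    [R.Normal] (hR : (P : Subgroup G) ⊓ R = ⊥) :
    HStar (P.mapSurjective (QuotientGroup.mk'_surjective R)) := by
  classical
  have hp : p.Prime := Fact.out
  intro xb hxb hxb1
  rw [Sylow.coe_mapSurjective] at hxb ⊢
  obtain ⟨x, hx, rfl⟩ := hxb
  have hx1 : x ≠ 1 := fun e => hxb1 (by rw [e, map_one])
  refine le_antisymm ?_ (Subgroup.centralizer_le (Set.singleton_subset_iff.mpr ⟨x, hx, rfl⟩))
  intro gb hgb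
  obtain ⟨g, rfl⟩ := QuotientGroup.mk'_surjective R gb
  rw [Subgroup.mem_centralizer_singleton_iff, ← map_mul, ← map_mul, QuotientGroup.mk'_apply,
    QuotientGroup.mk'_apply, QuotientGroup.eq] at hgb
  -- `p` does not divide the order of `R`
  have hpR : ¬ p ∣ Nat.card R := by
    intro hd
    obtain ⟨⟨r, hr⟩, hro⟩ := exists_prime_orderOf_dvd_card' (G := R) p hd
    rw [Subgroup.orderOf_mk] at hro
    obtain ⟨S, hS⟩ := (IsPGroup.of_card (G := Subgroup.zpowers r) (p := p) (n := 1)
      (by rw [Nat.card_zpowers, hro, pow_one])).exists_le_sylow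
    obtain ⟨t, ht⟩ := MulAction.exists_smul_eq G S P
    have h1 : t * r * t⁻¹ ∈ (P : Subgroup G) ⊓ R := by
      refine ⟨?_, (inferInstance : R.Normal).conj_mem r hr t⟩
      rw [← ht, Sylow.coe_subgroup_smul]
      exact ⟨r, hS (Subgroup.mem_zpowers r), rfl⟩
    rw [hR, Subgroup.mem_bot, conj_eq_one_iff] at h1
    rw [h1, orderOf_one] at hro
    exact hp.ne_one hro.symm
  set y := g * x * g⁻¹ with hy
  have hyx : y * x⁻¹ ∈ R := by
    have h1 := (inferInstance : R.Normal).conj_mem _ (inv_mem hgb) (x * g)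
    have e : x * g * ((g * x)⁻¹ * (x * g))⁻¹ * (x * g)⁻¹ = g * x * g⁻¹ * x⁻¹ := by group
    rwa [e] at h1
  set L := Subgroup.zpowers x ⊔ R with hL
  have hyL : y ∈ L := by
    have : y = y * x⁻¹ * x := by group
    rw [this]
    exact mul_mem (Subgroup.mem_sup_right hyx) (Subgroup.mem_sup_left (Subgroup.mem_zpowers x))
  obtain ⟨k, hk⟩ := IsPGroup.iff_orderOf.mp P.isPGroup' ⟨x, hx⟩
  rw [Subgroup.orderOf_mk] at hk
  have hdisj : Subgroup.zpowers x ⊓ R = ⊥ := by
    rw [eq_bot_iff, ← hR]
    exact inf_le_inf_right R (Subgroup.zpowers_le.mpr hx)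
  have hLcard : Nat.card L = p ^ k * Nat.card R := by
    have h1 := CfsgLib.Core.card_sup_mul_card_inf (A := Subgroup.zpowers x) (K := R)
      (by rw [Subgroup.normalizer_eq_top]; exact le_top)
    rw [hdisj, Subgroup.card_bot, mul_one, Nat.card_zpowers, hk] at h1
    exact h1
  have hval : (Nat.card L).factorization p = k := by
    rw [hLcard, Nat.factorization_mul (pow_ne_zero _ hp.ne_zero) Nat.card_pos.ne', Finsupp.add_apply,
      hp.factorization_pow, Finsupp.single_eq_same, Nat.factorization_eq_zero_of_not_dvd hpR, add_zero]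
  have hxL : x ∈ L := Subgroup.mem_sup_left (Subgroup.mem_zpowers x)
  have hyo : orderOf y = p ^ k := by
    rw [hy, show g * x * g⁻¹ = MulAut.conj g x from rfl, MulEquiv.orderOf_eq, hk]
  let Sx : Sylow p L := Sylow.ofCard (Subgroup.zpowers (⟨x, hxL⟩ : L))
    (by rw [Nat.card_zpowers, Subgroup.orderOf_mk, hk, hval])
  let Sy : Sylow p L := Sylow.ofCard (Subgroup.zpowers (⟨y, hyL⟩ : L))
    (by rw [Nat.card_zpowers, Subgroup.orderOf_mk, hyo, hval])
  obtain ⟨⟨l, hl⟩, hlS⟩ := MulAction.exists_smul_eq L Sy Sx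
  have hly : l * y * l⁻¹ ∈ Subgroup.zpowers x := by
    have h1 : (⟨l, hl⟩ : L) * ⟨y, hyL⟩ * (⟨l, hl⟩ : L)⁻¹ ∈ (Sx : Subgroup L) := by
      rw [← hlS, Sylow.coe_subgroup_smul]
      exact ⟨⟨y, hyL⟩, Subgroup.mem_zpowers _, rfl⟩
    obtain ⟨i, hi⟩ := Subgroup.mem_zpowers_iff.mp (show _ ∈ Subgroup.zpowers (⟨x, hxL⟩ : L) from h1)
    exact Subgroup.mem_zpowers_iff.mpr ⟨i, congrArg Subtype.val hi⟩
  obtain ⟨u, hu, r, hr, hur⟩ := Subgroup.mem_sup_of_normal_right.mp hl
  have hry : r * y * r⁻¹ = x := by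
    have hmem : r * y * r⁻¹ ∈ Subgroup.zpowers x := by
      have h1 := mul_mem (mul_mem (inv_mem hu) hly) hu
      have e : u⁻¹ * (l * y * l⁻¹) * u = r * y * r⁻¹ := by rw [← hur]; group
      rwa [e] at h1
    have hR' : r * y * r⁻¹ * x⁻¹ ∈ R := by
      have e : r * y * r⁻¹ * x⁻¹ = r * (y * x⁻¹) * (x * r⁻¹ * x⁻¹) := by group
      rw [e]
      exact mul_mem (mul_mem hr hyx) ((inferInstance : R.Normal).conj_mem _ (inv_mem hr) x)
    have h2 : r * y * r⁻¹ * x⁻¹ ∈ Subgroup.zpowers x ⊓ R :=
      ⟨(Subgroup.zpowers x).mul_mem hmem ((Subgroup.zpowers x).inv_mem (Subgroup.mem_zpowers x)), hR'⟩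
    rw [hdisj, Subgroup.mem_bot, mul_inv_eq_one] at h2
    exact h2
  have hrg : r * g ∈ Subgroup.centralizer ({x} : Set G) := by
    rw [Subgroup.mem_centralizer_singleton_iff]
    calc r * g * x = r * y * r⁻¹ * (r * g) := by rw [hy]; group
      _ = x * (r * g) := by rw [hry]
  rw [h x hx hx1] at hrg
  rw [Subgroup.mem_centralizer_iff]
  rintro _ ⟨a, ha, rfl⟩
  have he : QuotientGroup.mk' R g = QuotientGroup.mk' R (r * g) := by
    rw [map_mul, QuotientGroup.mk'_apply R r, (QuotientGroup.eq_one_iff r).mpr hr, one_mul]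
  rw [he, ← map_mul, ← map_mul, Subgroup.mem_centralizer_iff.mp hrg a ha]

/-- An irreducible character of a group covered by its kernel and an abelian subgroup is linear. -/
theorem degree_one_of_sup [Finite G] {ξ : G → ℂ} (hξ : IsIrrCharacter G ξ) (P : Subgroup G)
    (hab : ∀ a ∈ P, ∀ b ∈ P, a * b = b * a) (h : charKer hξ.isCharacter' ⊔ P = ⊤) : ξ 1 = 1 := by
  haveI := Fintype.ofFinite G
  set R := charKer hξ.isCharacter'
  obtain ⟨χ', -, he, hirr⟩ := exists_deflate hξ.isCharacter' (QuotientGroup.mk' R)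
    (QuotientGroup.mk'_surjective R) fun k hk => by
      rw [QuotientGroup.ker_mk'] at hk; exact mem_charKer.mp hk
  haveI : Fintype (G ⧸ R) := Fintype.ofFinite _
  have hlift : ∀ b : G ⧸ R, ∃ a ∈ P, QuotientGroup.mk' R a = b := by
    intro b
    obtain ⟨g, rfl⟩ := QuotientGroup.mk'_surjective R b
    obtain ⟨r, hr, a, ha, rfl⟩ := Subgroup.mem_sup_of_normal_left.mp (h ▸ Subgroup.mem_top g : g ∈ R ⊔ P)
    exact ⟨a, ha, by rw [map_mul, QuotientGroup.mk'_apply R r, (QuotientGroup.eq_one_iff r).mpr hr, one_mul]⟩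
  have hcomm : ∀ b c : G ⧸ R, b * c = c * b := by
    intro b c
    obtain ⟨a, ha, rfl⟩ := hlift b
    obtain ⟨a', ha', rfl⟩ := hlift c
    rw [← map_mul, ← map_mul, hab a ha a' ha']
  have h1 := irr_degree_one_of_comm hcomm (hirr hξ)
  have h2 := congrFun he 1
  simp only [Function.comp_apply, map_one] at h2
  rw [← h2, h1]

/-- The join of the kernel and `P` is normal when the kernel meets `P`. -/
theorem sup_normal_of_meet [Finite G] [Fact p.Prime] {P : Sylow p G} (h : HStar P) (R : Subgroup G)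
    [R.Normal] (hR : (P : Subgroup G) ⊓ R ≠ ⊥) : (R ⊔ (P : Subgroup G)).Normal := by
  classical
  obtain ⟨x, ⟨hxP, hxR⟩, hx1⟩ := (Subgroup.bot_or_exists_ne_one _).resolve_left hR
  obtain ⟨S, hS⟩ := ((P.isPGroup'.to_le (inf_le_left : (P : Subgroup G) ⊓ R ≤ P)).comap_of_injective
    R.subtype R.subtype_injective).exists_le_sylow
  set K := (S : Subgroup R).map R.subtype with hK
  have hKp : IsPGroup p K := S.isPGroup'.map _
  have hxK : x ∈ K := ⟨⟨x, hxR⟩, hS (show (⟨x, hxR⟩ : R) ∈ ((P : Subgroup G) ⊓ R).comap R.subtype from ⟨hxP, hxR⟩), rfl⟩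
  have hKP : K ≤ (P : Subgroup G) := by
    obtain ⟨Q, hQ⟩ := hKp.exists_le_sylow
    obtain ⟨t, ht⟩ := MulAction.exists_smul_eq G P Q
    have habK : ∀ y ∈ K, y * x = x * y := by
      intro y hy
      have h1 := hQ hy
      have h2 := hQ hxK
      rw [← ht, Sylow.coe_subgroup_smul] at h1 h2
      obtain ⟨a, ha, rfl⟩ := h1
      obtain ⟨b, hb, hb'⟩ := h2
      rw [← hb']
      show t * a * t⁻¹ * (t * b * t⁻¹) = t * b * t⁻¹ * (t * a * t⁻¹)
      calc t * a * t⁻¹ * (t * b * t⁻¹) = t * (a * b) * t⁻¹ := by group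
        _ = t * (b * a) * t⁻¹ := by rw [h.comm a ha b hb]
        _ = t * b * t⁻¹ * (t * a * t⁻¹) := by group
    have hKN : K ≤ Subgroup.normalizer ((P : Subgroup G) : Set G) := by
      intro y hy
      refine h.mem_normalizer hxP hx1 ?_
      rw [habK y hy, mul_inv_cancel_right]
      exact hxP
    exact sup_eq_right.mp (P.is_maximal' (hKp.to_sup_of_normal_right' P.isPGroup' hKN) le_sup_right)
  have hfr : Subgroup.normalizer ((P : Subgroup G) : Set G) ⊔ R = ⊤ := by
    rw [eq_top_iff, ← Sylow.normalizer_sup_eq_top S]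
    refine sup_le_sup_right (fun g hg => h.mem_normalizer hxP hx1 ?_) R
    exact hKP ((Subgroup.mem_normalizer_iff.mp hg x).mp hxK)
  rw [← Subgroup.normalizer_eq_top_iff, eq_top_iff, ← hfr]
  refine sup_le (fun g hg => ?_) ((le_sup_left : R ≤ R ⊔ (P : Subgroup G)).trans Subgroup.le_normalizer)
  rw [Subgroup.mem_normalizer_iff_map_conj_eq] at hg ⊢
  rw [Subgroup.map_sup, hg]
  congr 1
  exact Subgroup.mem_normalizer_iff_map_conj_eq.mp
    (by rw [Subgroup.normalizer_eq_top]; exact Subgroup.mem_top g)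

/-- Blichfeldt. -/
theorem normal_of_uniform : ∀ (m : ℕ) (G : Type u) [Group G] [Finite G] (p : ℕ) [Fact p.Prime]
    (P : Sylow p G), HStar P → ∀ χ : G → ℂ, IsCharacter G χ → (∀ g : G, χ g = χ 1 → g = 1) →
      ∀ d : ℕ, χ 1 = d → d ^ 2 + 1 < Nat.card P → Nat.card G ≤ m → (P : Subgroup G).Normal := by
  classical
  intro m
  induction m with
  | zero => intro G _ _ p _ P _ χ _ _ d _ _ h; exact absurd h (Nat.not_le.mpr Nat.card_pos)
  | succ m ih =>
  intro G _ _ p _ P hstar χ hχ hfaith d hd hdeg hm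
  haveI : Fintype G := Fintype.ofFinite G
  haveI : Fintype (P : Subgroup G) := Fintype.ofFinite _
  by_contra hP
  have hsub : ∀ (D : Subgroup G) (hPD : (P : Subgroup G) ≤ D), D ≠ ⊤ →
      (P.subtype hPD : Subgroup D).Normal := by
    intro D hPD hD
    refine ih D p (P.subtype hPD) ?_ (fun y : D => χ y) (isCharacter_restrict hχ D)
      (fun y hy => Subtype.ext (hfaith y hy)) d hd ?_ ?_
    · intro y hy hy1
      rw [Sylow.coe_subtype, Subgroup.mem_subgroupOf] at hy
      ext c
      have hy1' : (y : G) ≠ 1 := fun e => hy1 (Subtype.ext e)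
      have h1 := hstar (y : G) hy hy1'
      rw [Subgroup.mem_centralizer_singleton_iff, Subgroup.mem_centralizer_iff]
      constructor
      · intro hc b hb
        rw [Sylow.coe_subtype] at hb
        have h2 : (c : G) ∈ Subgroup.centralizer ({(y : G)} : Set G) :=
          Subgroup.mem_centralizer_singleton_iff.mpr (congrArg Subtype.val hc)
        rw [h1] at h2
        exact Subtype.ext (Subgroup.mem_centralizer_iff.mp h2 b (Subgroup.mem_subgroupOf.mp hb))
      · intro hc
        exact (hc y (by rw [Sylow.coe_subtype]; exact Subgroup.mem_subgroupOf.mpr hy)).symm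
    · rwa [Sylow.coe_subtype, Nat.card_congr (Subgroup.subgroupOfEquivOfLe hPD).toEquiv]
    · have := Subgroup.card_le_card_group D
      have hne : Nat.card D ≠ Nat.card G := fun e => hD (Subgroup.eq_top_of_card_eq D e)
      omega
  have hgen : ∀ M : Subgroup G, M.Normal → (P : Subgroup G) ≤ M → M = ⊤ := by
    intro M hMn hPM
    by_contra hM
    refine hP ⟨fun a ha g => ?_⟩
    exact le_of_normal_in P hPM (hsub M hPM hM) (P.isPGroup'.map (MulAut.conj g).toMonoidHom)
      (by rintro _ ⟨b, hb, rfl⟩; exact hMn.conj_mem b (hPM hb) g) ⟨a, ha, rfl⟩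
  have hnc : (P : Subgroup G) ⊓ Subgroup.center G = ⊥ := by
    rw [eq_bot_iff]
    rintro x ⟨hx, hxc⟩
    rw [Subgroup.mem_bot]
    by_contra hx1
    refine hP ⟨fun a ha g => ?_⟩
    have h1 := sylow_le_centralizer hstar hx hx1 (Subgroup.mem_center_iff.mp hxc g) ha
    rw [Subgroup.mem_centralizer_singleton_iff] at h1
    rwa [← h1, mul_inv_cancel_right]
  have hone : ∀ g : G, g ∉ Subgroup.center G → ∀ a b : G,
      Subgroup.centralizer ({g} : Set G) ⊓ (P : Subgroup G).map (MulAut.conj a).toMonoidHom ≠ ⊥ →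
      Subgroup.centralizer ({g} : Set G) ⊓ (P : Subgroup G).map (MulAut.conj b).toMonoidHom ≠ ⊥ →
      (P : Subgroup G).map (MulAut.conj a).toMonoidHom = (P : Subgroup G).map (MulAut.conj b).toMonoidHom := by
    intro g hg a b ha hb
    have key : ∀ c : G, Subgroup.centralizer ({g} : Set G) ⊓ (P : Subgroup G).map (MulAut.conj c).toMonoidHom ≠ ⊥ →
        (P : Subgroup G) ≤ Subgroup.centralizer ({c⁻¹ * g * c} : Set G) := by
      intro c hc
      obtain ⟨v, ⟨hv1, ⟨x, hx, rfl⟩⟩, hvne⟩ := (Subgroup.bot_or_exists_ne_one _).resolve_left hc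
      refine sylow_le_centralizer hstar hx (fun e => hvne (by rw [e, map_one])) ?_
      have h1 : c * x * c⁻¹ * g = g * (c * x * c⁻¹) := Subgroup.mem_centralizer_singleton_iff.mp hv1
      calc c⁻¹ * g * c * x = c⁻¹ * (g * (c * x * c⁻¹)) * c := by group
        _ = c⁻¹ * (c * x * c⁻¹ * g) * c := by rw [h1]
        _ = x * (c⁻¹ * g * c) := by group
    set g' := a⁻¹ * g * a with hg'
    have hD : Subgroup.centralizer ({g'} : Set G) ≠ ⊤ := by
      rw [Ne, Subgroup.centralizer_eq_top_iff_subset, Set.singleton_subset_iff]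
      intro hc
      refine hg ?_
      have := Subgroup.Normal.conj_mem (inferInstance : (Subgroup.center G).Normal) _ hc a
      rwa [hg', show a * (a⁻¹ * g * a) * a⁻¹ = g by group] at this
    set t := a⁻¹ * b with ht
    have hle : (P : Subgroup G).map (MulAut.conj t).toMonoidHom ≤ Subgroup.centralizer ({g'} : Set G) := by
      rintro _ ⟨x, hx, rfl⟩
      have h1 := Subgroup.mem_centralizer_singleton_iff.mp (key b hb hx)
      rw [Subgroup.mem_centralizer_singleton_iff]
      show t * x * t⁻¹ * g' = g' * (t * x * t⁻¹)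
      have e : g' = t * (b⁻¹ * g * b) * t⁻¹ := by rw [hg', ht]; group
      rw [e]
      calc t * x * t⁻¹ * (t * (b⁻¹ * g * b) * t⁻¹) = t * (x * (b⁻¹ * g * b)) * t⁻¹ := by group
        _ = t * ((b⁻¹ * g * b) * x) * t⁻¹ := by rw [h1]
        _ = t * (b⁻¹ * g * b) * t⁻¹ * (t * x * t⁻¹) := by group
    have h2 := le_of_normal_in P (key a ha) (hsub _ (key a ha) hD) (P.isPGroup'.map _) hle
    have h3 : (P : Subgroup G).map (MulAut.conj t).toMonoidHom = (P : Subgroup G) :=
      Subgroup.eq_of_le_of_card_ge h2 (Subgroup.card_map_of_injective (MulEquiv.injective _)).ge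
    conv_lhs => rw [← h3, Subgroup.map_map]
    congr 1
    ext z
    simp [ht, mul_assoc]
  -- a nonlinear constituent
  choose k hk using fun θ : IrrCharacter G => inner_character_nat hχ θ.2.isCharacter'
  choose e he using fun θ : IrrCharacter G => exists_degree_pos θ.2
  have hexp := classFunction_eq_sum χ (isCharacter_classFunction hχ)
  have hsum : d = ∑ θ : IrrCharacter G, k θ * e θ := by
    have h1 := congrFun hexp 1
    simp only [Finset.sum_apply, Pi.smul_apply, smul_eq_mul, hk, fun θ => (he θ).2, hd] at h1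
    exact_mod_cast h1
  obtain ⟨θ, hθk, hθP, hθe⟩ : ∃ θ : IrrCharacter G, k θ ≠ 0 ∧
      ¬ (P : Subgroup G) ≤ charKer θ.2.isCharacter' ∧ e θ ≠ 1 := by
    by_contra hcon
    push Not at hcon
    refine hP ⟨fun a ha g => ?_⟩
    suffices g * a = a * g by rwa [this, mul_inv_cancel_right]
    have hker : χ (g * a * g⁻¹ * a⁻¹) = χ 1 := by
      rw [hexp]
      simp only [Finset.sum_apply, Pi.smul_apply, smul_eq_mul]
      refine Finset.sum_congr rfl fun θ _ => ?_
      by_cases h0 : k θ = 0
      · rw [hk, h0, Nat.cast_zero, zero_mul, zero_mul]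
      congr 1
      show g * a * g⁻¹ * a⁻¹ ∈ charKer θ.2.isCharacter'
      by_cases hle : (P : Subgroup G) ≤ charKer θ.2.isCharacter'
      · exact mul_mem ((charKer_normal θ.2.isCharacter').conj_mem a (hle ha) g) (inv_mem (hle ha))
      · obtain ⟨l, hl⟩ := exists_hom_of_degree_one θ.2.isCharacter'
          (by rw [(he θ).2, hcon θ h0 hle, Nat.cast_one])
        rw [mem_charKer]
        simp only [hl]
        rw [show l (g * a * g⁻¹ * a⁻¹) = 1 by
          rw [map_mul, map_mul, map_mul, map_inv, map_inv, mul_inv_cancel_comm, mul_inv_cancel], map_one]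
    have := hfaith _ hker
    rwa [mul_inv_eq_one, mul_inv_eq_iff_eq_mul] at this
  have he2 : 2 ≤ e θ := by
    have := (he θ).1
    omega
  have hed : e θ ≤ d := by
    rw [hsum]
    exact le_trans (Nat.le_mul_of_pos_left _ (Nat.pos_of_ne_zero hθk))
      (Finset.single_le_sum (f := fun η => k η * e η) (fun _ _ => Nat.zero_le _) (Finset.mem_univ θ))
  have hesmall : e θ ^ 2 + 1 < Nat.card (P : Subgroup G) :=
    lt_of_le_of_lt (Nat.add_le_add_right (Nat.pow_le_pow_left hed 2) 1) hdeg
  set R := charKer θ.2.isCharacter' with hR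
  haveI : R.Normal := charKer_normal θ.2.isCharacter'
  have hcover : R ⊔ (P : Subgroup G) = ⊤ → False := fun hM => by
    have h1 := degree_one_of_sup θ.2 (P : Subgroup G) hstar.comm hM
    rw [(he θ).2, Nat.cast_eq_one] at h1
    omega
  by_cases hRbot : R = ⊥
  · exact false_of_small (p := p) (P := (P : Subgroup G)) (ξ := (θ : G → ℂ)) (d := e θ)
      { setting :=
          { prime := Fact.out
            pgroup := P.isPGroup'
            max := fun Q hQ hle => P.is_maximal' hQ hle
            comm := hstar.comm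
            star := hstar
            noncentral := hnc
            hone := hone
            gen := hgen }
        irr := θ.2
        deg := (he θ).2
        two_le := he2
        small := hesmall
        faithful := fun g hg => by
          have : g ∈ R := hg
          rwa [hRbot, Subgroup.mem_bot] at this }
  by_cases hmeet : (P : Subgroup G) ⊓ R = ⊥
  · obtain ⟨χ', hχ', hcomp, -⟩ := exists_deflate θ.2.isCharacter' (QuotientGroup.mk' R)
      (QuotientGroup.mk'_surjective R) fun k hk => by
        rw [QuotientGroup.ker_mk'] at hk; exact mem_charKer.mp hk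
    have hfaith' : ∀ q : G ⧸ R, χ' q = χ' 1 → q = 1 := by
      intro q hq
      obtain ⟨g, rfl⟩ := QuotientGroup.mk'_surjective R q
      rw [QuotientGroup.mk'_apply, QuotientGroup.eq_one_iff]
      have h1 := congrFun hcomp g
      have h2 := congrFun hcomp 1
      simp only [Function.comp_apply, map_one] at h1 h2
      exact mem_charKer.mpr (h1.symm.trans (hq.trans h2))
    have hcardP : Nat.card (P.mapSurjective (QuotientGroup.mk'_surjective R) : Subgroup (G ⧸ R)) =
        Nat.card (P : Subgroup G) := by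
      rw [Sylow.coe_mapSurjective]
      let f : (P : Subgroup G) →* G ⧸ R := (QuotientGroup.mk' R).comp (P : Subgroup G).subtype
      have hinj : Function.Injective f := (injective_iff_map_eq_one f).mpr fun a ha => by
        have : (a : G) ∈ (P : Subgroup G) ⊓ R := ⟨a.2, (QuotientGroup.eq_one_iff (a : G)).mp ha⟩
        rw [hmeet, Subgroup.mem_bot] at this
        exact Subtype.ext this
      rw [Nat.card_congr (MonoidHom.ofInjective hinj).toEquiv, MonoidHom.range_comp,
        Subgroup.range_subtype]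
    have hlt : Nat.card (G ⧸ R) ≤ m := by
      have h1 := Subgroup.card_eq_card_quotient_mul_card_subgroup R
      have h2 := (Subgroup.one_lt_card_iff_ne_bot R).mpr hRbot
      have h3 : 0 < Nat.card (G ⧸ R) := Nat.card_pos
      have := Nat.mul_le_mul_left (Nat.card (G ⧸ R)) h2
      omega
    have hPb := ih (G ⧸ R) p (P.mapSurjective (QuotientGroup.mk'_surjective R)) (hstar.quotient R hmeet)
      χ' hχ' hfaith' (e θ) (by
        have h2 := congrFun hcomp 1
        simp only [Function.comp_apply, map_one] at h2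
        rw [h2, (he θ).2]) (hcardP.symm ▸ hesmall) hlt
    refine hcover (hgen _ ?_ le_sup_right)
    have hc := hPb.comap (QuotientGroup.mk' R)
    rwa [Sylow.coe_mapSurjective, Subgroup.comap_map_eq, QuotientGroup.ker_mk', sup_comm] at hc
  · exact hcover (hgen _ (sup_normal_of_meet hstar R hmeet) le_sup_right)

end CfsgLib.Uniform
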