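import Cfsg.Agent.Lib.CoreCoprime
import Mathlib.GroupTheory.SchurZassenhaus
import Mathlib.NumberTheory.Basic
import Mathlib.LinearAlgebra.Matrix.GeneralLinearGroup.Defs
import Mathlib.LinearAlgebra.Matrix.Basis
import Mathlib.LinearAlgebra.Projection
import Mathlib.FieldTheory.Finiteness
import Mathlib.Algebra.Module.ZMod

/-!
# The fixed point formula for a Frobenius group acting coprimely

Lifting a coprime representation over `ZMod p` to `ZMod (p ^ N)` turns an identity between
averaging idempotents into an identity between dimensions of fixed spaces.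
-/

set_option autoImplicit false
set_option linter.unusedSectionVars false
set_option linter.style.haveILetI false

namespace CfsgLib.Wielandt

open Matrix

universe u v w

variable {Γ : Type u} [Group Γ] [Finite Γ]

theorem mat_pow_eq_one {p N : ℕ} {n : Type w} [Fintype n] [DecidableEq n]
    (X : Matrix n n (ZMod (p ^ N))) :
    (1 + (p : ZMod (p ^ N)) • X) ^ p ^ N = 1 := by
  obtain ⟨Q, hQ⟩ := dvd_sub_pow_of_dvd_sub (R := Polynomial ℤ) (p := p)
    (a := 1 + (p : Polynomial ℤ) * Polynomial.X) (b := 1)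
    (by rw [add_sub_cancel_left]; exact dvd_mul_right _ _) N
  rw [one_pow] at hQ
  have h := congrArg (Polynomial.aeval (R := ℤ) X) hQ
  rw [map_sub, map_pow, map_add, map_one, map_mul, map_natCast, Polynomial.aeval_X,
    map_mul, map_pow, map_natCast] at h
  rw [show ((p : Matrix n n (ZMod (p ^ N)))) ^ (N + 1) = 0 by
    rw [← Nat.cast_pow, ← Matrix.diagonal_natCast, pow_succ]
    simp, zero_mul, sub_eq_zero] at h
  rwa [Matrix.smul_eq_diagonal_mul, Matrix.diagonal_natCast]

/-- A coprime representation over `ZMod p` lifts to `ZMod (p ^ N)`. -/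
theorem exists_lift {p N : ℕ} [hp : Fact p.Prime] (hN : N ≠ 0) {d : ℕ}
    (ρ : Γ →* GL (Fin d) (ZMod p)) (hcop : ¬ p ∣ Nat.card Γ) :
    ∃ σ : Γ →* GL (Fin d) (ZMod (p ^ N)), ∀ g : Γ,
      ((σ g : Matrix (Fin d) (Fin d) (ZMod (p ^ N)))).map (ZMod.castHom (dvd_pow_self p hN) (ZMod p)) =
        (ρ g : Matrix (Fin d) (Fin d) (ZMod p)) := by
  classical
  haveI : NeZero (p ^ N) := ⟨pow_ne_zero _ hp.out.ne_zero⟩
  set π := ZMod.castHom (dvd_pow_self p hN) (ZMod p) with hπ
  set red : GL (Fin d) (ZMod (p ^ N)) →* GL (Fin d) (ZMod p) :=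
    Units.map (π.mapMatrix (m := Fin d)).toMonoidHom with hred
  haveI : Finite (GL (Fin d) (ZMod (p ^ N))) := inferInstance
  let P : Subgroup (Γ × GL (Fin d) (ZMod (p ^ N))) :=
    { carrier := {x | red x.2 = ρ x.1}
      one_mem' := by simp
      mul_mem' := fun {x y} hx hy => by
        simp only [Set.mem_setOf_eq, Prod.fst_mul, Prod.snd_mul, map_mul] at hx hy ⊢
        rw [hx, hy]
      inv_mem' := fun {x} hx => by
        simp only [Set.mem_setOf_eq, Prod.fst_inv, Prod.snd_inv, map_inv] at hx ⊢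
        rw [hx] }
  let pr : P →* Γ := (MonoidHom.fst _ _).comp P.subtype
  have hsurj : Function.Surjective pr := by
    intro g
    let M : Matrix (Fin d) (Fin d) (ZMod (p ^ N)) :=
      ((ρ g : Matrix (Fin d) (Fin d) (ZMod p))).map fun x => (x.val : ZMod (p ^ N))
    have hM : M.map π = (ρ g : Matrix (Fin d) (Fin d) (ZMod p)) := by
      ext i j
      simp [M, π]
    have hdet : IsUnit M.det := by
      have h1 : π M.det = (ρ g : Matrix (Fin d) (Fin d) (ZMod p)).det := by
        rw [RingHom.map_det, RingHom.mapMatrix_apply, hM]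
      rw [← ZMod.natCast_zmod_val M.det, ZMod.isUnit_iff_coprime]
      refine Nat.Coprime.pow_right N ((Nat.Prime.coprime_iff_not_dvd hp.out).mpr fun h2 => ?_).symm
      have h3 : π M.det = 0 := by
        rw [← ZMod.natCast_zmod_val M.det, map_natCast, ZMod.natCast_eq_zero_iff]
        exact h2
      exact (((ρ g : GL (Fin d) (ZMod p)).isUnit).map Matrix.detMonoidHom).ne_zero
        (by rw [Matrix.coe_detMonoidHom, ← h1, h3])
    refine ⟨⟨(g, ((Matrix.isUnit_iff_isUnit_det M).mpr hdet).unit), ?_⟩, rfl⟩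
    exact Units.ext (by simpa [red, RingHom.mapMatrix_apply] using hM)
  have hker : IsPGroup p pr.ker := by
    rintro ⟨⟨⟨g, A⟩, hA⟩, hg⟩
    have hg1 : g = 1 := hg
    subst hg1
    have hA' : (A : Matrix (Fin d) (Fin d) (ZMod (p ^ N))).map π = 1 := by
      have := congrArg Units.val (show red A = ρ 1 from hA)
      rw [map_one, Units.val_one] at this
      simpa [red, RingHom.mapMatrix_apply] using this
    obtain ⟨X, hX⟩ : ∃ X : Matrix (Fin d) (Fin d) (ZMod (p ^ N)),
        (A : Matrix (Fin d) (Fin d) (ZMod (p ^ N))) = 1 + (p : ZMod (p ^ N)) • X := by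
      have h1 : ∀ i j, (p : ZMod (p ^ N)) ∣
          ((A : Matrix (Fin d) (Fin d) (ZMod (p ^ N))) - 1) i j := by
        intro i j
        have h2 : π (((A : Matrix (Fin d) (Fin d) (ZMod (p ^ N))) - 1) i j) = 0 := by
          have := congrFun (congrFun hA' i) j
          rw [Matrix.map_apply] at this
          rw [Matrix.sub_apply, map_sub, this, Matrix.one_apply, Matrix.one_apply]
          split_ifs <;> simp
        rw [← ZMod.natCast_zmod_val (((A : Matrix (Fin d) (Fin d) (ZMod (p ^ N))) - 1) i j),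
          map_natCast, ZMod.natCast_eq_zero_iff] at h2
        rw [← ZMod.natCast_zmod_val (((A : Matrix (Fin d) (Fin d) (ZMod (p ^ N))) - 1) i j)]
        exact (Nat.cast_dvd_cast h2)
      choose X hX using h1
      refine ⟨Matrix.of X, Matrix.ext fun i j => ?_⟩
      have h2 := hX i j
      rw [Matrix.sub_apply] at h2
      rw [Matrix.add_apply, Matrix.smul_apply, smul_eq_mul, Matrix.of_apply, ← h2]
      ring
    refine ⟨N, Subtype.ext (Subtype.ext (Prod.ext (one_pow _) (Units.ext ?_)))⟩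
    show ((A ^ p ^ N : GL (Fin d) (ZMod (p ^ N))) : Matrix (Fin d) (Fin d) (ZMod (p ^ N))) = 1
    rw [Units.val_pow_eq_pow_val, hX, mat_pow_eq_one]
  have hidx : pr.ker.index = Nat.card Γ := by
    rw [Subgroup.index_ker, MonoidHom.range_eq_top.mpr hsurj, Subgroup.card_top]
  obtain ⟨k, hk⟩ := IsPGroup.iff_card.mp hker
  obtain ⟨C, hC⟩ := Subgroup.exists_right_complement'_of_coprime (N := pr.ker)
    (by rw [hk, hidx]; exact ((Nat.Prime.coprime_iff_not_dvd hp.out).mpr hcop).pow_left k)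
  have hbij : Function.Bijective (pr.comp C.subtype) := by
    refine ⟨(injective_iff_map_eq_one _).mpr fun c hc => Subtype.ext ?_, fun g => ?_⟩
    · exact Subgroup.mem_bot.mp (hC.disjoint.eq_bot ▸ ⟨hc, c.2⟩)
    · obtain ⟨y, rfl⟩ := hsurj g
      obtain ⟨⟨⟨k', hk'⟩, ⟨c, hc⟩⟩, hkc⟩ := hC.2 y
      refine ⟨⟨c, hc⟩, ?_⟩
      rw [← hkc]
      show pr c = pr (k' * c)
      rw [map_mul, show pr k' = 1 from hk', one_mul]
  let e : C ≃* Γ := MulEquiv.ofBijective _ hbij
  refine ⟨((MonoidHom.snd _ _).comp (P.subtype.comp C.subtype)).comp e.symm.toMonoidHom, fun g => ?_⟩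
  have h1 : pr ((e.symm g : C) : P) = g := e.apply_symm_apply g
  have h2 : red ((e.symm g : C) : P).1.2 = ρ ((e.symm g : C) : P).1.1 := ((e.symm g : C) : P).2
  rw [show ((e.symm g : C) : P).1.1 = g from h1] at h2
  exact congrArg Units.val h2

/-- The trace of an idempotent over `ZMod (p ^ N)` is the rank of its reduction. -/
theorem trace_idem {p N : ℕ} [hp : Fact p.Prime] (hN : N ≠ 0) {d : ℕ}
    (P : Matrix (Fin d) (Fin d) (ZMod (p ^ N))) (hP : P * P = P) :
    P.trace = (Module.finrank (ZMod p)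
      (LinearMap.range (Matrix.toLin' (P.map (ZMod.castHom (dvd_pow_self p hN) (ZMod p))))) :
        ZMod (p ^ N)) := by
  classical
  haveI : NeZero (p ^ N) := ⟨pow_ne_zero _ hp.out.ne_zero⟩
  set π := ZMod.castHom (dvd_pow_self p hN) (ZMod p) with hπ
  set f := Matrix.toLin' (P.map π) with hf
  have hff : f * f = f := by
    rw [Module.End.mul_eq_comp, hf, ← Matrix.toLin'_mul]
    congr 1
    rw [← Matrix.map_mul, hP]
  have hproj : LinearMap.IsProj (LinearMap.range f) f :=
    ⟨fun x => LinearMap.mem_range_self f x, fun x hx => by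
      obtain ⟨y, rfl⟩ := hx
      exact LinearMap.congr_fun hff y⟩
  have hcompl := hproj.isCompl
  set m := Module.finrank (ZMod p) (LinearMap.range f)
  set k := Module.finrank (ZMod p) (LinearMap.ker f)
  let b0 := ((Module.finBasis (ZMod p) (LinearMap.range f)).prod
    (Module.finBasis (ZMod p) (LinearMap.ker f))).map (Submodule.prodEquivOfIsCompl _ _ hcompl)
  have hdim : d = m + k := by
    have := Module.finrank_eq_card_basis b0
    simpa using this
  let b : Module.Basis (Fin d) (ZMod p) (Fin d → ZMod p) :=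
    b0.reindex (finSumFinEquiv.trans (finCongr hdim.symm))
  let ι : Fin d ≃ Fin m ⊕ Fin k := (finSumFinEquiv.trans (finCongr hdim.symm)).symm
  let χ : Fin d → ℕ := fun i => Sum.elim (fun _ => 1) (fun _ => 0) (ι i)
  have hb : ∀ i, f (b i) = (χ i : ZMod p) • b i := by
    intro i
    simp only [b, b0, χ, Module.Basis.reindex_apply]
    rcases hι : ι i with j | j
    · simp only [ι] at hι
      simp only [Sum.elim_inl, Nat.cast_one, one_smul, Module.Basis.map_apply,
        Module.Basis.prod_apply, LinearMap.coe_inl, Sum.elim_inl, Function.comp_apply,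
        Submodule.coe_prodEquivOfIsCompl', ZeroMemClass.coe_zero, add_zero]
      exact hproj.map_id _ (Module.finBasis (ZMod p) (LinearMap.range f) j).2
    · simp only [ι] at hι
      simp only [Sum.elim_inr, Nat.cast_zero, zero_smul, Module.Basis.map_apply,
        Module.Basis.prod_apply, LinearMap.coe_inr, Function.comp_apply,
        Submodule.coe_prodEquivOfIsCompl', ZeroMemClass.coe_zero, zero_add]
      exact LinearMap.mem_ker.mp (Module.finBasis (ZMod p) (LinearMap.ker f) j).2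
  have hsum : ∑ i, χ i = m := by
    rw [← Equiv.sum_comp ι.symm, Fintype.sum_sum_type]
    simp [χ]
  let g : Matrix (Fin d) (Fin d) (ZMod (p ^ N)) := Matrix.of fun i j => ((b j i).val : ZMod (p ^ N))
  let D : Matrix (Fin d) (Fin d) (ZMod (p ^ N)) := Matrix.diagonal fun i => (χ i : ZMod (p ^ N))
  have hg : g.map π = (Pi.basisFun (ZMod p) (Fin d)).toMatrix b := by
    ext i j
    simp [g, π, Module.Basis.toMatrix_apply]
  have hDD : D * D = D := by
    rw [Matrix.diagonal_mul_diagonal]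
    congr 1
    funext i
    rcases hι : ι i with j | j <;> simp [χ, hι]
  set W : Matrix (Fin d) (Fin d) (ZMod (p ^ N)) := P * g * D + (1 - P) * g * (1 - D) with hW
  have hPW : P * W = W * D := by
    have e1 : P * (1 - P) = 0 := by rw [mul_sub, mul_one, hP, sub_self]
    have e2 : (1 - D) * D = 0 := by rw [sub_mul, one_mul, hDD, sub_self]
    rw [hW, mul_add, add_mul, ← mul_assoc, ← mul_assoc, hP, ← mul_assoc, ← mul_assoc, e1, zero_mul,
      zero_mul, add_zero, mul_assoc (P * g) D D, hDD, mul_assoc ((1 - P) * g) (1 - D) D, e2, mul_zero,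
      add_zero]
  have hWred : W.map π = g.map π := by
    have e3 : P.map π * g.map π = g.map π * D.map π := by
      rw [hg, Matrix.diagonal_map (map_zero π)]
      ext i j
      rw [Matrix.mul_diagonal, map_natCast]
      have := congrFun (hb j) i
      rw [hf, Matrix.toLin'_apply, Pi.smul_apply, smul_eq_mul] at this
      simp only [Matrix.mulVec, dotProduct] at this
      rw [Matrix.mul_apply]
      simp only [Module.Basis.toMatrix_apply, Pi.basisFun_repr]
      rw [this, mul_comm]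
    have e4 : (P * P).map π = P.map π := by rw [hP]
    have e5 : (D * D).map π = D.map π := by rw [hDD]
    rw [Matrix.map_mul] at e4 e5
    simp only [hW, Matrix.map_add π (map_add π), Matrix.map_mul, Matrix.map_sub π (map_sub π),
      Matrix.map_one π (map_zero π) (map_one π)]
    have e6 : g.map π * D.map π * D.map π = g.map π * D.map π := by rw [mul_assoc, e5]
    simp only [sub_mul, one_mul, mul_sub, mul_one, e3, e6]
    abel
  have hWunit : IsUnit W := by
    rw [Matrix.isUnit_iff_isUnit_det, ← ZMod.natCast_zmod_val W.det, ZMod.isUnit_iff_coprime]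
    refine Nat.Coprime.pow_right N ((Nat.Prime.coprime_iff_not_dvd hp.out).mpr fun h2 => ?_).symm
    have h3 : π W.det = 0 := by
      rw [← ZMod.natCast_zmod_val W.det, map_natCast, ZMod.natCast_eq_zero_iff]
      exact h2
    rw [RingHom.map_det, RingHom.mapMatrix_apply, hWred, hg] at h3
    refine one_ne_zero (α := ZMod p) ?_
    rw [← Matrix.det_one (n := Fin d), ← (Pi.basisFun (ZMod p) (Fin d)).toMatrix_mul_toMatrix_flip b,
      Matrix.det_mul, h3, zero_mul]
  obtain ⟨Wu, hWu⟩ := hWunit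
  have hPeq : P = (Wu : Matrix (Fin d) (Fin d) (ZMod (p ^ N))) * D * (Wu⁻¹ : GL (Fin d) _) := by
    rw [hWu, ← hPW, mul_assoc, ← hWu, Units.mul_inv, mul_one]
  rw [hPeq, Matrix.trace_units_conj, Matrix.trace_diagonal, ← Nat.cast_sum, hsum]

/-- The additive identity behind the formula. -/
theorem sum_identity [Fintype Γ] (U E : Subgroup Γ) [Fintype U] [Fintype E]
    (hcard : Nat.card U * Nat.card E = Nat.card Γ) (hUE : U ⊓ E = ⊥)
    (hUn : ∀ e ∈ E, ∀ u ∈ U, e * u * e⁻¹ ∈ U)
    (hfpf : ∀ e ∈ E, e ≠ 1 → ∀ u ∈ U, e * u = u * e → u = 1) {M : Type v} [AddCommMonoid M]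
    (φ : Γ → M) :
    ∑ g : Γ, φ g + Nat.card U • φ 1 =
      ∑ x : U, φ x + ∑ u : U, ∑ e : E, φ ((u : Γ) * e * (u : Γ)⁻¹) := by
  classical
  let T : Finset Γ := Finset.univ.filter fun g => g ∉ U
  let S : Finset (U × E) := (Finset.univ : Finset U) ×ˢ (Finset.univ : Finset E).erase 1
  have hmem : ∀ q ∈ S, (q.1 : Γ) * q.2 * (q.1 : Γ)⁻¹ ∈ T := by
    intro q hq
    refine Finset.mem_filter.mpr ⟨Finset.mem_univ _, fun h => ?_⟩
    have h1 : (q.2 : Γ) ∈ U := by
      have := mul_mem (mul_mem (inv_mem q.1.2) h) q.1.2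
      simpa [mul_assoc] using this
    exact Finset.ne_of_mem_erase (Finset.mem_product.mp hq).2
      (Subtype.ext (Subgroup.mem_bot.mp (hUE ▸ ⟨h1, q.2.2⟩)))
  have hinj : ∀ q ∈ S, ∀ q' ∈ S, (q.1 : Γ) * q.2 * (q.1 : Γ)⁻¹ = (q'.1 : Γ) * q'.2 * (q'.1 : Γ)⁻¹ →
      q = q' := by
    intro q hq q' _ he
    set v : Γ := (q'.1 : Γ)⁻¹ * q.1 with hv
    have hvU : v ∈ U := mul_mem (inv_mem q'.1.2) q.1.2
    have h1 : v * q.2 * v⁻¹ = q'.2 := by
      rw [hv, show (q'.1 : Γ)⁻¹ * q.1 * q.2 * ((q'.1 : Γ)⁻¹ * q.1)⁻¹ =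
        (q'.1 : Γ)⁻¹ * ((q.1 : Γ) * q.2 * (q.1 : Γ)⁻¹) * q'.1 by group, he]
      group
    have h2 : v * q.2 * v⁻¹ * (q.2 : Γ)⁻¹ = 1 := by
      refine Subgroup.mem_bot.mp (hUE ▸ Subgroup.mem_inf.mpr ⟨?_, ?_⟩)
      · rw [show v * q.2 * v⁻¹ * (q.2 : Γ)⁻¹ = v * (q.2 * v⁻¹ * (q.2 : Γ)⁻¹) by group]
        exact mul_mem hvU (hUn _ q.2.2 _ (inv_mem hvU))
      · rw [h1]
        exact mul_mem q'.2.2 (inv_mem q.2.2)
    have h3 : (q.2 : Γ) = q'.2 := by rw [← h1, mul_inv_eq_one.mp h2]
    have h4 : v = 1 := hfpf _ q.2.2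
      (fun e1 => Finset.ne_of_mem_erase (Finset.mem_product.mp hq).2 (Subtype.ext e1)) v hvU
      (mul_inv_eq_iff_eq_mul.mp (mul_inv_eq_one.mp h2)).symm
    exact Prod.ext (Subtype.ext (inv_mul_eq_one.mp h4).symm) (Subtype.ext h3)
  have hTU : (Finset.univ.filter fun g : Γ => g ∈ U).card = Nat.card U := by
    rw [Nat.card_eq_fintype_card]
    exact (Fintype.card_of_subtype _ fun g => by simp).symm
  have hTcard : T.card ≤ S.card := by
    have h1 := Finset.card_filter_add_card_filter_not (s := (Finset.univ : Finset Γ)) (fun g => g ∈ U)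
    rw [hTU, Finset.card_univ, ← Nat.card_eq_fintype_card, ← hcard] at h1
    simp only [S, Finset.card_product, Finset.card_erase_of_mem (Finset.mem_univ _), Finset.card_univ,
      ← Nat.card_eq_fintype_card, Nat.mul_sub_one]
    show (Finset.univ.filter fun g : Γ => g ∉ U).card ≤ _
    omega
  have himg : S.image (fun q : U × E => (q.1 : Γ) * q.2 * (q.1 : Γ)⁻¹) = T := by
    refine Finset.eq_of_subset_of_card_le ?_ ?_
    · intro g hg
      obtain ⟨q, hq, rfl⟩ := Finset.mem_image.mp hg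
      exact hmem q hq
    · rw [Finset.card_image_of_injOn fun q hq q' hq' => hinj q hq q' hq']
      exact hTcard
  have hT : ∑ g ∈ T, φ g = ∑ u : U, ∑ e ∈ (Finset.univ : Finset E).erase 1,
      φ ((u : Γ) * e * (u : Γ)⁻¹) := by
    rw [← himg, Finset.sum_image fun q hq q' hq' => hinj q hq q' hq', Finset.sum_product]
  have hU : ∑ g ∈ Finset.univ.filter (fun g : Γ => g ∈ U), φ g = ∑ x : U, φ x :=
    Finset.sum_subtype _ (fun g => by simp) φ
  rw [← Finset.sum_filter_add_sum_filter_not Finset.univ (fun g : Γ => g ∈ U) φ, hU, hT, add_assoc]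
  congr 1
  have h1 : ∀ u : U, ∑ e : E, φ ((u : Γ) * e * (u : Γ)⁻¹) =
      ∑ e ∈ (Finset.univ : Finset E).erase 1, φ ((u : Γ) * e * (u : Γ)⁻¹) + φ 1 := by
    intro u
    rw [← Finset.sum_erase_add _ _ (Finset.mem_univ (1 : E))]
    simp
  rw [Finset.sum_congr rfl fun u _ => h1 u, Finset.sum_add_distrib, Finset.sum_const, Finset.card_univ,
    ← Nat.card_eq_fintype_card]

/-- The formula for dimensions. -/
theorem dim_formula {p : ℕ} [hp : Fact p.Prime] {d : ℕ} (ρ : Γ →* GL (Fin d) (ZMod p))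
    (hcop : ¬ p ∣ Nat.card Γ) (U E : Subgroup Γ) (hcard : Nat.card U * Nat.card E = Nat.card Γ)
    (hUE : U ⊓ E = ⊥) (hUn : ∀ e ∈ E, ∀ u ∈ U, e * u * e⁻¹ ∈ U)
    (hfpf : ∀ e ∈ E, e ≠ 1 → ∀ u ∈ U, e * u = u * e → u = 1)
    (fix : Subgroup Γ → Submodule (ZMod p) (Fin d → ZMod p))
    (hfix : ∀ K : Subgroup Γ, ∀ v, v ∈ fix K ↔
      ∀ g ∈ K, (ρ g : Matrix (Fin d) (Fin d) (ZMod p)).mulVec v = v) :
    Nat.card E * Module.finrank (ZMod p) (fix ⊤) + d =
      Nat.card E * Module.finrank (ZMod p) (fix E) + Module.finrank (ZMod p) (fix U) := by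
  classical
  haveI : Fintype Γ := Fintype.ofFinite Γ
  set N := Nat.card Γ * (d + 1) + 1 with hNdef
  have hN : N ≠ 0 := Nat.succ_ne_zero _
  haveI : NeZero (p ^ N) := ⟨pow_ne_zero _ hp.out.ne_zero⟩
  obtain ⟨σ, hσ⟩ := exists_lift hN ρ hcop
  set π := ZMod.castHom (dvd_pow_self p hN) (ZMod p)
  have hunit : ∀ K : Subgroup Γ, IsUnit (Nat.card K : ZMod (p ^ N)) := fun K => by
    rw [ZMod.isUnit_iff_coprime]
    exact (((Nat.Prime.coprime_iff_not_dvd hp.out).mpr fun h =>
      hcop (h.trans (Subgroup.card_subgroup_dvd_card K))).symm).pow_right N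
  have hrank : ∀ K : Subgroup Γ, Module.finrank (ZMod p) (fix K) ≤ d := fun K =>
    le_trans (Submodule.finrank_le _) (by simp)
  have htr : ∀ K : Subgroup Γ, ∑ g : K, (σ g : Matrix (Fin d) (Fin d) (ZMod (p ^ N))).trace =
      ((Nat.card K * Module.finrank (ZMod p) (fix K) : ℕ) : ZMod (p ^ N)) := by
    intro K
    obtain ⟨c, hc⟩ := (hunit K).exists_left_inv
    set S : Matrix (Fin d) (Fin d) (ZMod (p ^ N)) := ∑ g : K, (σ g : Matrix _ _ _) with hS
    have hSS : S * S = (Nat.card K : ZMod (p ^ N)) • S := by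
      conv_lhs => rw [hS, Finset.sum_mul]
      have h1 : ∀ g : K, (σ g : Matrix (Fin d) (Fin d) (ZMod (p ^ N))) * S = S := by
        intro g
        rw [hS, Finset.mul_sum]
        refine Fintype.sum_equiv (Equiv.mulLeft g) _ _ fun k => ?_
        rw [Equiv.coe_mulLeft, Subgroup.coe_mul, map_mul, Units.val_mul]
      rw [Finset.sum_congr rfl fun g _ => h1 g, Finset.sum_const, Finset.card_univ,
        ← Nat.card_eq_fintype_card, Nat.cast_smul_eq_nsmul]
    have hidem : (c • S) * (c • S) = c • S := by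
      rw [smul_mul_smul_comm, hSS, smul_smul, mul_assoc, hc, mul_one]
    have hrange : LinearMap.range (Matrix.toLin' ((c • S).map π)) = fix K := by
      have hred : ∀ v, Matrix.toLin' ((c • S).map π) v =
          π c • ∑ g : K, (ρ g : Matrix (Fin d) (Fin d) (ZMod p)).mulVec v := by
        intro v
        rw [Matrix.toLin'_apply, Matrix.map_smul' _ _ _ (map_mul π), Matrix.smul_mulVec, hS,
          ← RingHom.mapMatrix_apply, map_sum, Matrix.sum_mulVec]
        congr 1
        refine Finset.sum_congr rfl fun g _ => ?_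
        rw [RingHom.mapMatrix_apply, hσ]
      apply le_antisymm
      · rintro _ ⟨v, rfl⟩
        rw [hfix]
        intro g hg
        rw [hred, Matrix.mulVec_smul, Matrix.mulVec_sum]
        congr 1
        refine Fintype.sum_equiv (Equiv.mulLeft (⟨g, hg⟩ : K)) _ _ fun k => ?_
        rw [Equiv.coe_mulLeft, Subgroup.coe_mul, map_mul, Units.val_mul, ← Matrix.mulVec_mulVec]
      · intro v hv
        refine ⟨v, ?_⟩
        rw [hred, Finset.sum_congr rfl fun (g : K) _ => (hfix K v).mp hv g.1 g.2, Finset.sum_const,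
          Finset.card_univ, ← Nat.card_eq_fintype_card, ← Nat.cast_smul_eq_nsmul (ZMod p), smul_smul,
          ← map_natCast π (Nat.card K), ← map_mul, hc, map_one, one_smul]
    have h2 := trace_idem hN (c • S) hidem
    rw [Matrix.trace_smul, hrange, smul_eq_mul] at h2
    rw [← Matrix.trace_sum, ← hS, Nat.cast_mul, ← h2, ← mul_assoc, mul_comm (Nat.card K : ZMod (p ^ N)),
      hc, one_mul]
  have hid := sum_identity U E hcard hUE hUn hfpf
    (fun g => (σ g : Matrix (Fin d) (Fin d) (ZMod (p ^ N))).trace)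
  have htop : ∑ g : Γ, (σ g : Matrix (Fin d) (Fin d) (ZMod (p ^ N))).trace =
      ((Nat.card Γ * Module.finrank (ZMod p) (fix ⊤) : ℕ) : ZMod (p ^ N)) := by
    rw [← Subgroup.card_top (G := Γ), ← htr ⊤]
    exact Fintype.sum_equiv Subgroup.topEquiv.symm.toEquiv _ _ fun g => rfl
  have hconj : ∀ u : U, (∑ e : E,
      (σ ((u : Γ) * e * (u : Γ)⁻¹) : Matrix (Fin d) (Fin d) (ZMod (p ^ N))).trace) =
      ∑ e : E, (σ e : Matrix (Fin d) (Fin d) (ZMod (p ^ N))).trace := fun u =>
    Finset.sum_congr rfl fun e _ => by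
      rw [map_mul, map_mul, map_inv, Units.val_mul, Units.val_mul, Matrix.trace_units_conj]
  rw [htop, map_one, Units.val_one, Matrix.trace_one, Fintype.card_fin, nsmul_eq_mul, htr U,
    Finset.sum_congr rfl fun u _ => hconj u, Finset.sum_const, Finset.card_univ,
    ← Nat.card_eq_fintype_card, htr E, nsmul_eq_mul] at hid
  rw [← Nat.cast_mul, ← Nat.cast_add, ← Nat.cast_mul, ← Nat.cast_add,
    ZMod.natCast_eq_natCast_iff] at hid
  have hlt : ∀ x, x ≤ Nat.card Γ * (d + 1) + Nat.card Γ * (d + 1) → x < p ^ N := by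
    intro x hx
    have h1 : N - 1 < 2 ^ (N - 1) := Nat.lt_two_pow_self
    have h2 : 2 ^ (N - 1) * 2 = 2 ^ N := by rw [← pow_succ, Nat.sub_add_cancel (Nat.pos_of_ne_zero hN)]
    have h3 : 2 ^ N ≤ p ^ N := Nat.pow_le_pow_left hp.out.two_le N
    omega
  have hUG : Nat.card U ≤ Nat.card Γ := Subgroup.card_le_card_group U
  have hE1 : 1 ≤ Nat.card E := Nat.card_pos
  have heq := hid.eq_of_lt_of_lt (hlt _ (add_le_add
      (Nat.mul_le_mul_left _ (le_trans (hrank ⊤) (Nat.le_succ _)))
      (Nat.mul_le_mul hUG (Nat.le_succ _))))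
    (hlt _ (add_le_add
      (Nat.mul_le_mul hUG (le_trans (hrank U) (Nat.le_succ _)))
      (by
        rw [← mul_assoc, hcard]
        exact Nat.mul_le_mul_left _ (le_trans (hrank E) (Nat.le_succ _)))))
  rw [← hcard] at heq
  have hU0 : 0 < Nat.card U := Nat.card_pos
  exact Nat.eq_of_mul_eq_mul_left hU0 (by rw [mul_add, mul_add, ← mul_assoc, heq, ← mul_assoc, add_comm])

end CfsgLib.Wielandt
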