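import Cfsg.Agent.Lib.CharWielandtFormula
import Mathlib.GroupTheory.Solvable
import Mathlib.GroupTheory.Abelianization.Defs
import Mathlib.LinearAlgebra.Dimension.Finite
import Mathlib.LinearAlgebra.Matrix.ToLin

/-!
# The fixed point formula for groups
-/

set_option autoImplicit false
set_option linter.unusedSectionVars false
set_option linter.style.haveILetI false

namespace CfsgLib.Wielandt

universe u

variable {X : Type u} [Group X] [Finite X]

/-- The formula for a module over `ZMod p`. -/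
theorem module_formula {p : ℕ} [hp : Fact p.Prime] {V : Type u} [AddCommGroup V] [Module (ZMod p) V]
    [Finite V] {Γ : Type u} [Group Γ] [Finite Γ] (τ : Γ →* Module.End (ZMod p) V)
    (hcop : ¬ p ∣ Nat.card Γ) (U E : Subgroup Γ) (hcard : Nat.card U * Nat.card E = Nat.card Γ)
    (hUE : U ⊓ E = ⊥) (hUn : ∀ e ∈ E, ∀ u ∈ U, e * u * e⁻¹ ∈ U)
    (hfpf : ∀ e ∈ E, e ≠ 1 → ∀ u ∈ U, e * u = u * e → u = 1) :
    ∃ (d : ℕ) (f : Subgroup Γ → ℕ), Nat.card V = p ^ d ∧
      (∀ K : Subgroup Γ, Nat.card {v : V // ∀ g ∈ K, τ g v = v} = p ^ f K) ∧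
      Nat.card E * f ⊤ + d = Nat.card E * f E + f U := by
  classical
  haveI : Module.Finite (ZMod p) V := Module.Finite.of_finite
  let b := Module.finBasis (ZMod p) V
  let mat : Γ →* Matrix (Fin (Module.finrank (ZMod p) V)) (Fin (Module.finrank (ZMod p) V)) (ZMod p) :=
    { toFun := fun g => LinearMap.toMatrix b b (τ g)
      map_one' := by rw [map_one]; exact LinearMap.toMatrix_one b
      map_mul' := fun g k => by rw [map_mul]; exact LinearMap.toMatrix_mul b _ _ }
  let ρ : Γ →* GL (Fin (Module.finrank (ZMod p) V)) (ZMod p) := mat.toHomUnits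
  let fix : Subgroup Γ → Submodule (ZMod p) (Fin (Module.finrank (ZMod p) V) → ZMod p) := fun K =>
    { carrier := {w | ∀ g ∈ K, ((ρ g : Matrix _ _ (ZMod p))).mulVec w = w}
      add_mem' := fun {v w} hv hw g hg => by rw [Matrix.mulVec_add, hv g hg, hw g hg]
      zero_mem' := fun g _ => Matrix.mulVec_zero _
      smul_mem' := fun c v hv g hg => by rw [Matrix.mulVec_smul, hv g hg] }
  have hρ : ∀ g v, ((ρ g : Matrix _ _ (ZMod p))).mulVec (b.equivFun v) = b.equivFun (τ g v) :=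
    fun g v => LinearMap.toMatrix_mulVec_repr b b (τ g) v
  refine ⟨Module.finrank (ZMod p) V, fun K => Module.finrank (ZMod p) (fix K),
    by rw [Module.natCard_eq_pow_finrank (K := ZMod p), Nat.card_zmod], fun K => ?_,
    dim_formula ρ hcop U E hcard hUE hUn hfpf fix fun K v => Iff.rfl⟩
  refine Eq.trans (Nat.card_congr (b.equivFun.toEquiv.subtypeEquiv fun v => ?_))
    ((Module.natCard_eq_pow_finrank (K := ZMod p) (V := fix K)).trans (by rw [Nat.card_zmod]))
  refine ⟨fun hv g hg => ?_, fun hv g hg => ?_⟩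
  · show ((ρ g : Matrix _ _ (ZMod p))).mulVec (b.equivFun v) = b.equivFun v
    rw [hρ, hv g hg]
  · have h1 := hv g hg
    change ((ρ g : Matrix _ _ (ZMod p))).mulVec (b.equivFun v) = b.equivFun v at h1
    rw [hρ] at h1
    exact b.equivFun.injective h1

/-- The formula for an additive action on a `ZMod p`-module. -/
theorem module_action_formula {p : ℕ} [hp : Fact p.Prime] {V : Type u} [AddCommGroup V] [Module (ZMod p) V]
    [Finite V] {Γ : Type u} [Group Γ] [Finite Γ] (φ : Γ → V →+ V)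
    (hone : ∀ v, φ 1 v = v) (hmul : ∀ g k v, φ (g * k) v = φ g (φ k v))
    (hcop : ¬ p ∣ Nat.card Γ) (U E : Subgroup Γ) (hcard : Nat.card U * Nat.card E = Nat.card Γ)
    (hUE : U ⊓ E = ⊥) (hUn : ∀ e ∈ E, ∀ u ∈ U, e * u * e⁻¹ ∈ U)
    (hfpf : ∀ e ∈ E, e ≠ 1 → ∀ u ∈ U, e * u = u * e → u = 1) :
    ∃ (d : ℕ) (f : Subgroup Γ → ℕ), Nat.card V = p ^ d ∧
      (∀ K : Subgroup Γ, Nat.card {v : V // ∀ g ∈ K, φ g v = v} = p ^ f K) ∧
      Nat.card E * f ⊤ + d = Nat.card E * f E + f U := by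
  let T : Γ → Module.End (ZMod p) V := fun g => (φ g).toZModLinearMap p
  have h1 : T 1 = 1 := LinearMap.ext fun v => hone v
  have h2 : ∀ g k, T (g * k) = T g * T k := fun g k => LinearMap.ext fun v => hmul g k v
  let τ : Γ →* Module.End (ZMod p) V :=
    { toFun := T
      map_one' := h1
      map_mul' := h2 }
  exact module_formula τ hcop U E hcard hUE hUn hfpf

/-- The formula on an additive group of exponent `p`. -/
theorem additive_formula {p : ℕ} [hp : Fact p.Prime] {V : Type u} [AddCommGroup V] [Finite V]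
    (hz : ∀ v : V, p • v = 0) {Γ : Type u} [Group Γ] [Finite Γ] (φ : Γ → V →+ V)
    (hone : ∀ v, φ 1 v = v) (hmul : ∀ g k v, φ (g * k) v = φ g (φ k v))
    (hcop : ¬ p ∣ Nat.card Γ) (U E : Subgroup Γ) (hcard : Nat.card U * Nat.card E = Nat.card Γ)
    (hUE : U ⊓ E = ⊥) (hUn : ∀ e ∈ E, ∀ u ∈ U, e * u * e⁻¹ ∈ U)
    (hfpf : ∀ e ∈ E, e ≠ 1 → ∀ u ∈ U, e * u = u * e → u = 1) :
    ∃ (d : ℕ) (f : Subgroup Γ → ℕ), Nat.card V = p ^ d ∧
      (∀ K : Subgroup Γ, Nat.card {v : V // ∀ g ∈ K, φ g v = v} = p ^ f K) ∧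
      Nat.card E * f ⊤ + d = Nat.card E * f E + f U := by
  letI : Module (ZMod p) V := AddCommGroup.zmodModule hz
  exact module_action_formula φ hone hmul hcop U E hcard hUE hUn hfpf

/-- The formula on an elementary abelian group. -/
theorem abelian_formula {p : ℕ} [hp : Fact p.Prime] {A : Type u} [CommGroup A] [Finite A]
    (hA : ∀ a : A, a ^ p = 1) {Γ : Type u} [Group Γ] [Finite Γ] (φ : Γ → A →* A)
    (hone : ∀ a, φ 1 a = a) (hmul : ∀ g k a, φ (g * k) a = φ g (φ k a))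
    (hcop : ¬ p ∣ Nat.card Γ) (U E : Subgroup Γ) (hcard : Nat.card U * Nat.card E = Nat.card Γ)
    (hUE : U ⊓ E = ⊥) (hUn : ∀ e ∈ E, ∀ u ∈ U, e * u * e⁻¹ ∈ U)
    (hfpf : ∀ e ∈ E, e ≠ 1 → ∀ u ∈ U, e * u = u * e → u = 1) :
    ∃ (d : ℕ) (f : Subgroup Γ → ℕ), Nat.card A = p ^ d ∧
      (∀ K : Subgroup Γ, Nat.card {a : A // ∀ g ∈ K, φ g a = a} = p ^ f K) ∧
      Nat.card E * f ⊤ + d = Nat.card E * f E + f U := by
  haveI : Finite (Additive A) := ‹Finite A›
  obtain ⟨d, f, h1, h2, h3⟩ := additive_formula (V := Additive A)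
    (fun v => Additive.toMul.injective (by rw [toMul_nsmul, hA, toMul_zero]))
    (fun g => MonoidHom.toAdditive (φ g)) (fun v => congrArg Additive.ofMul (hone v.toMul))
    (fun g k v => congrArg Additive.ofMul (hmul g k v.toMul)) hcop U E hcard hUE hUn hfpf
  exact ⟨d, f, h1, fun K => (h2 K).symm ▸ Nat.card_congr
    (Additive.ofMul.subtypeEquiv fun a => Iff.rfl), h3⟩

/-- The formula on an elementary abelian section. -/
theorem section_formula {p : ℕ} [hp : Fact p.Prime] (H M U E : Subgroup X) (hMH : M ≤ H)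
    (hHM : ∀ x ∈ H, ∀ y ∈ M, x * y * x⁻¹ ∈ M) (hcomm : ∀ a ∈ H, ∀ b ∈ H, a * b * a⁻¹ * b⁻¹ ∈ M)
    (hpow : ∀ a ∈ H, a ^ p ∈ M) (hG : ∀ x ∈ U ⊔ E, ∀ h ∈ H, x * h * x⁻¹ ∈ H)
    (hGM : ∀ x ∈ U ⊔ E, ∀ h ∈ M, x * h * x⁻¹ ∈ M) (hdisj : H ⊓ (U ⊔ E) = ⊥)
    (hsolv : Group.IsSolvable M) (hcopM : Nat.Coprime (Nat.card M) (Nat.card ↥(U ⊔ E)))
    (hcop : ¬ p ∣ Nat.card ↥(U ⊔ E)) (hUE : U ⊓ E = ⊥) (hUn : ∀ e ∈ E, ∀ u ∈ U, e * u * e⁻¹ ∈ U)
    (hfpf : ∀ e ∈ E, e ≠ 1 → ∀ u ∈ U, e * u = u * e → u = 1) :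
    ∃ (d fG fE fU : ℕ),
      Nat.card H = Nat.card M * p ^ d ∧
      Nat.card ↥(H ⊓ Subgroup.centralizer ((U ⊔ E : Subgroup X) : Set X)) =
        Nat.card ↥(M ⊓ Subgroup.centralizer ((U ⊔ E : Subgroup X) : Set X)) * p ^ fG ∧
      Nat.card ↥(H ⊓ Subgroup.centralizer (E : Set X)) =
        Nat.card ↥(M ⊓ Subgroup.centralizer (E : Set X)) * p ^ fE ∧
      Nat.card ↥(H ⊓ Subgroup.centralizer (U : Set X)) =
        Nat.card ↥(M ⊓ Subgroup.centralizer (U : Set X)) * p ^ fU ∧
      Nat.card E * fG + d = Nat.card E * fE + fU := by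
  classical
  set Γ : Subgroup X := U ⊔ E with hΓ
  haveI hMn : (M.subgroupOf H).Normal := ⟨fun y hy x => hHM x x.2 y hy⟩
  have hqc : ∀ a b : H ⧸ M.subgroupOf H, a * b = b * a := by
    intro a b
    induction a using QuotientGroup.induction_on with
    | H a =>
      induction b using QuotientGroup.induction_on with
      | H b =>
        rw [← QuotientGroup.mk_mul, ← QuotientGroup.mk_mul, QuotientGroup.eq, Subgroup.mem_subgroupOf]
        have h := hcomm _ (inv_mem b.2) _ (inv_mem a.2)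
        simpa [mul_assoc] using h
  letI : CommGroup (H ⧸ M.subgroupOf H) :=
    { (inferInstance : Group (H ⧸ M.subgroupOf H)) with mul_comm := hqc }
  let q : H →* H ⧸ M.subgroupOf H := QuotientGroup.mk' _
  let q' : H →* H ⧸ M.subgroupOf H := q
  let cj : Γ → (H →* H) := fun g =>
    { toFun := fun h => ⟨g * h * (g : X)⁻¹, hG g g.2 h h.2⟩
      map_one' := Subtype.ext (by show (g : X) * 1 * (g : X)⁻¹ = 1; group)
      map_mul' := fun a b => Subtype.ext (by
        show (g : X) * ((a : X) * b) * (g : X)⁻¹ = (g * a * (g : X)⁻¹) * (g * b * (g : X)⁻¹)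
        group) }
  let φ : Γ → H ⧸ M.subgroupOf H →* H ⧸ M.subgroupOf H := fun g =>
    QuotientGroup.map _ _ (cj g) (fun h hh => hGM g g.2 h hh)
  have hφ : ∀ g h, φ g (q h) = q (cj g h) := fun g h => rfl
  have hone : ∀ a, φ 1 a = a := fun a => by
    obtain ⟨h, rfl⟩ := QuotientGroup.mk'_surjective (M.subgroupOf H) a
    show q (cj 1 h) = q h
    congr 1
    exact Subtype.ext (by show (1 : X) * h * (1 : X)⁻¹ = h; group)
  have hmulφ : ∀ g k a, φ (g * k) a = φ g (φ k a) := fun g k a => by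
    obtain ⟨h, rfl⟩ := QuotientGroup.mk'_surjective (M.subgroupOf H) a
    show q (cj (g * k) h) = q (cj g (cj k h))
    congr 1
    exact Subtype.ext (by
      show (g : X) * k * h * ((g : X) * k)⁻¹ = g * (k * h * (k : X)⁻¹) * (g : X)⁻¹
      group)
  have hpowA : ∀ a : H ⧸ M.subgroupOf H, a ^ p = 1 := by
    intro a
    obtain ⟨a, rfl⟩ := QuotientGroup.mk'_surjective (M.subgroupOf H) a
    rw [← map_pow]
    exact (QuotientGroup.eq_one_iff _).mpr (hpow a a.2)
  have hUΓ : U ≤ Γ := le_sup_left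
  have hEΓ : E ≤ Γ := le_sup_right
  have hUne : (U.subgroupOf Γ).Normal := (Subgroup.normal_subgroupOf_iff_le_normalizer hUΓ).mpr
    (sup_le Subgroup.le_normalizer
      (CfsgLib.Core.le_normalizer_iff_forall.mpr fun x hx y hy => hUn x hx y hy))
  have hdisj' : U.subgroupOf Γ ⊓ E.subgroupOf Γ = ⊥ := by
    rw [Subgroup.subgroupOf, Subgroup.subgroupOf, ← Subgroup.comap_inf, hUE]
    exact (Subgroup.eq_bot_iff_forall _).mpr fun x hx => Subtype.ext (Subgroup.mem_bot.mp hx)
  have hsup : U.subgroupOf Γ ⊔ E.subgroupOf Γ = ⊤ := by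
    rw [← Subgroup.subgroupOf_sup hUΓ hEΓ, Subgroup.subgroupOf_self]
  have hcomp : Subgroup.IsComplement' (U.subgroupOf Γ) (E.subgroupOf Γ) :=
    Subgroup.isComplement'_of_disjoint_and_mul_eq_univ (disjoint_iff.mpr hdisj') (by
      rw [← Subgroup.normal_mul, hsup, Subgroup.coe_top])
  have hcardE : Nat.card (E.subgroupOf Γ) = Nat.card E :=
    Nat.card_congr (Subgroup.subgroupOfEquivOfLe hEΓ).toEquiv
  obtain ⟨d, f, hd, hfix, hdim⟩ := abelian_formula hpowA φ hone hmulφ hcop (U.subgroupOf Γ) (E.subgroupOf Γ)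
    hcomp.card_mul hdisj' (fun e he u hu => hUn _ he _ hu)
    (fun e he he1 u hu heu => Subtype.ext (hfpf _ he (fun e1 => he1 (Subtype.ext e1)) _ hu
      (congrArg Subtype.val heu)))
  -- cardinalities
  have key : ∀ K : Subgroup X, ∀ hK : K ≤ Γ,
      Nat.card ↥(H ⊓ Subgroup.centralizer (K : Set X)) =
        Nat.card ↥(M ⊓ Subgroup.centralizer (K : Set X)) *
          p ^ f (K.subgroupOf Γ) := by
    intro K hK
    let CH : Subgroup X := H ⊓ Subgroup.centralizer (K : Set X)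
    let ψ : CH →* H ⧸ M.subgroupOf H := q.comp (Subgroup.inclusion inf_le_left)
    have hker : Nat.card ψ.ker = Nat.card ↥(M ⊓ Subgroup.centralizer (K : Set X)) := by
      refine Nat.card_congr
        { toFun := fun x => ⟨(x.1 : X), ?_, x.1.2.2⟩
          invFun := fun x => ⟨⟨(x : X), hMH x.2.1, x.2.2⟩, ?_⟩
          left_inv := fun x => rfl
          right_inv := fun x => rfl }
      · exact (QuotientGroup.eq_one_iff (Subgroup.inclusion (inf_le_left : CH ≤ H) x.1)).mp x.2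
      · exact (QuotientGroup.eq_one_iff _).mpr x.2.1
    have hrange : Nat.card ψ.range =
        Nat.card {a : H ⧸ M.subgroupOf H // ∀ g ∈ K.subgroupOf Γ, φ g a = a} := by
      refine Nat.card_eq_of_bijective (fun a => ⟨a.1, ?_⟩) ⟨?_, ?_⟩
      · obtain ⟨x, hx⟩ := a.2
        intro g hg
        rw [← hx]
        show φ g (q (Subgroup.inclusion (inf_le_left : CH ≤ H) x)) =
          q (Subgroup.inclusion (inf_le_left : CH ≤ H) x)
        rw [hφ]
        congr 1
        refine Subtype.ext ?_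
        show (g : X) * (x : X) * (g : X)⁻¹ = x
        rw [mul_inv_eq_iff_eq_mul]
        exact Subgroup.mem_centralizer_iff.mp x.2.2 g hg
      · intro a a' e
        have e' := congrArg Subtype.val e
        exact Subtype.ext e'
      · rintro ⟨w, hw⟩
        obtain ⟨h, hh⟩ := QuotientGroup.mk'_surjective (M.subgroupOf H) w
        have hfixed : ∀ a ∈ K, a * (h : X) * a⁻¹ * (h : X)⁻¹ ∈ M := by
          intro a ha
          have h2 : φ ⟨a, hK ha⟩ w = w := hw ⟨a, hK ha⟩ ha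
          rw [← hh, hφ] at h2
          have h3 := QuotientGroup.eq.mp h2.symm
          rw [Subgroup.mem_subgroupOf] at h3
          have h4 := hHM _ h.2 _ h3
          have e1 : (h : X) * ((h : X)⁻¹ * (a * h * a⁻¹)) * (h : X)⁻¹ = a * h * a⁻¹ * (h : X)⁻¹ := by
            group
          rw [← e1]
          exact h4
        have hnK : K ≤ Subgroup.normalizer (H : Set X) :=
          CfsgLib.Core.le_normalizer_iff_forall.mpr fun x hx y hy => hG x (hK hx) y hy
        have hnKM : K ≤ Subgroup.normalizer (M : Set X) :=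
          CfsgLib.Core.le_normalizer_iff_forall.mpr fun x hx y hy => hGM x (hK hx) y hy
        have hnHM : H ≤ Subgroup.normalizer (M : Set X) :=
          CfsgLib.Core.le_normalizer_iff_forall.mpr fun x hx y hy => hHM x hx y hy
        have hd' : K ⊓ H = ⊥ := le_bot_iff.mp
          ((inf_le_inf_right H hK).trans (by rw [inf_comm, hdisj]))
        obtain ⟨c, hc, hcM⟩ := CfsgLib.Core.exists_fixed_of_fixed_mod hnK hd' hMH hnHM hnKM
          (hcopM.symm.coprime_dvd_left (Subgroup.card_dvd_of_le hK)) (Or.inr hsolv) h.2 hfixed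
        refine ⟨⟨_, ⟨⟨c, hc⟩, rfl⟩⟩, Subtype.ext ?_⟩
        show q ⟨c, hc.1⟩ = w
        rw [← hh]
        exact (QuotientGroup.eq.mpr (show h⁻¹ * (⟨c, hc.1⟩ : H) ∈ M.subgroupOf H from hcM)).symm
    rw [hfix] at hrange
    rw [← hker, ← hrange, ← Subgroup.index_ker, Subgroup.card_mul_index]
  have hcardd : Nat.card H = Nat.card M * p ^ d := by
    rw [← Subgroup.card_mul_index (M.subgroupOf H),
      Nat.card_congr (Subgroup.subgroupOfEquivOfLe hMH).toEquiv, ← hd, Subgroup.index_eq_card]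
  refine ⟨d, f (Γ.subgroupOf Γ), f (E.subgroupOf Γ), f (U.subgroupOf Γ),
    hcardd, key Γ le_rfl, key E hEΓ, key U hUΓ, ?_⟩
  rw [hcardE] at hdim
  rw [Subgroup.subgroupOf_self]
  exact hdim

theorem formula_aux (U E : Subgroup X) (hUE : U ⊓ E = ⊥) (hUn : ∀ e ∈ E, ∀ u ∈ U, e * u * e⁻¹ ∈ U)
    (hfpf : ∀ e ∈ E, e ≠ 1 → ∀ u ∈ U, e * u = u * e → u = 1) :
    ∀ (n : ℕ) (H : Subgroup X), Nat.card H ≤ n → (∀ x ∈ U ⊔ E, ∀ h ∈ H, x * h * x⁻¹ ∈ H) →
      H ⊓ (U ⊔ E) = ⊥ → Group.IsSolvable H → Nat.Coprime (Nat.card H) (Nat.card ↥(U ⊔ E)) →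
      Nat.card ↥(H ⊓ Subgroup.centralizer ((U ⊔ E : Subgroup X) : Set X)) ^ Nat.card E * Nat.card H =
        Nat.card ↥(H ⊓ Subgroup.centralizer (E : Set X)) ^ Nat.card E *
          Nat.card ↥(H ⊓ Subgroup.centralizer (U : Set X)) := by
  classical
  intro n
  induction n with
  | zero => intro H h; exact absurd h (Nat.not_le.mpr Nat.card_pos)
  | succ n ih =>
    intro H hHn hG hdisj hsolv hcop
    by_cases hH : H = ⊥
    · subst hH
      simp
    haveI := hsolv
    haveI : Nontrivial H := (Subgroup.nontrivial_iff_ne_bot H).mpr hH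
    haveI : Finite (Abelianization H) := inferInstanceAs (Finite (H ⧸ commutator H))
    have hA : 1 < Nat.card (Abelianization H) := by
      rw [Finite.one_lt_card_iff_nontrivial]
      refine QuotientGroup.nontrivial_iff.mpr ?_
      exact ne_of_lt (Group.IsSolvable.commutator_lt_top_of_nontrivial (G := H))
    obtain ⟨p, hp, hpd⟩ := Nat.exists_prime_and_dvd hA.ne'
    haveI := Fact.mk hp
    let gens : Set X := {z | ∃ a ∈ H, z = a ^ p ∨ ∃ c ∈ H, z = a * c * a⁻¹ * c⁻¹}
    set M := Subgroup.closure gens with hM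
    have hMH : M ≤ H := (Subgroup.closure_le H).mpr (by
      rintro z ⟨a, ha, rfl | ⟨c, hc, rfl⟩⟩
      · exact pow_mem ha p
      · exact mul_mem (mul_mem (mul_mem ha hc) (inv_mem ha)) (inv_mem hc))
    have hinv : ∀ x : X, (∀ h ∈ H, x * h * x⁻¹ ∈ H) → ∀ y ∈ M, x * y * x⁻¹ ∈ M := by
      intro x hx y hy
      have h1 : M ≤ M.comap (MulAut.conj x).toMonoidHom := by
        rw [hM, Subgroup.closure_le]
        rintro z ⟨a, ha, rfl | ⟨c, hc, rfl⟩⟩
        · refine Subgroup.subset_closure ⟨x * a * x⁻¹, hx a ha, Or.inl ?_⟩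
          simp [conj_pow]
        · refine Subgroup.subset_closure ⟨x * a * x⁻¹, hx a ha, Or.inr ⟨x * c * x⁻¹, hx c hc, ?_⟩⟩
          simp [mul_assoc]
      exact h1 hy
    have hHM : ∀ x ∈ H, ∀ y ∈ M, x * y * x⁻¹ ∈ M := fun x hx =>
      hinv x fun h hh => mul_mem (mul_mem hx hh) (inv_mem hx)
    have hne : M ≠ H := by
      intro e
      let r : Subgroup (Abelianization H) := (powMonoidHom p).range
      have hr : r ≠ ⊤ := by
        intro er
        obtain ⟨z, hz⟩ := exists_prime_orderOf_dvd_card' (G := Abelianization H) p hpd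
        have hs : Function.Surjective (powMonoidHom p : Abelianization H →* Abelianization H) :=
          MonoidHom.range_eq_top.mp er
        have := (Finite.injective_iff_surjective.mpr hs)
          (show powMonoidHom p z = powMonoidHom p 1 by
            rw [powMonoidHom_apply, powMonoidHom_apply, one_pow, ← hz, pow_orderOf_eq_one])
        rw [this, orderOf_one] at hz
        exact hp.ne_one hz.symm
      apply hr
      have h2 : M.subgroupOf H ≤ r.comap Abelianization.of := by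
        suffices key : M ≤ (r.comap Abelianization.of).map H.subtype by
          intro z hz
          obtain ⟨w, hw, ew⟩ := key hz
          rwa [← Subtype.ext ew]
        rw [hM, Subgroup.closure_le]
        rintro z ⟨a, ha, rfl | ⟨c, hc, rfl⟩⟩
        · exact ⟨⟨a, ha⟩ ^ p, ⟨Abelianization.of ⟨a, ha⟩, by rw [map_pow]; rfl⟩, rfl⟩
        · refine ⟨⟨a, ha⟩ * ⟨c, hc⟩ * (⟨a, ha⟩ : H)⁻¹ * (⟨c, hc⟩ : H)⁻¹, ⟨1, ?_⟩, rfl⟩
          rw [map_one, map_mul, map_mul, map_mul, map_inv, map_inv, mul_inv_cancel_comm, mul_inv_cancel]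
      rw [e, Subgroup.subgroupOf_self, top_le_iff] at h2
      rw [← Subgroup.map_comap_eq_self_of_surjective (QuotientGroup.mk'_surjective _) r]
      rw [show r.comap (QuotientGroup.mk' _) = ⊤ from h2, Subgroup.map_top_of_surjective _
        (QuotientGroup.mk'_surjective _)]
      rfl
    have hlt : Nat.card M < Nat.card H :=
      lt_of_le_of_ne (Subgroup.card_le_of_le hMH) fun e => hne (Subgroup.eq_of_le_of_card_ge hMH e.ge)
    have hsM : Group.IsSolvable M := Group.isSolvable_of_isSolvable_injective (Subgroup.inclusion_injective hMH)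
    have hGM : ∀ x ∈ U ⊔ E, ∀ h ∈ M, x * h * x⁻¹ ∈ M := fun x hx => hinv x (hG x hx)
    have hcopM : Nat.Coprime (Nat.card M) (Nat.card ↥(U ⊔ E)) :=
      hcop.coprime_dvd_left (Subgroup.card_dvd_of_le hMH)
    have hpΓ : ¬ p ∣ Nat.card ↥(U ⊔ E) := fun h =>
      hp.not_dvd_one (hcop.gcd_eq_one ▸ Nat.dvd_gcd
        (hpd.trans (Subgroup.card_quotient_dvd_card _)) h)
    obtain ⟨d, fG, fE, fU, h1, h2, h3, h4, h5⟩ := section_formula (p := p) H M U E hMH hHM
      (fun a ha c hc => Subgroup.subset_closure ⟨a, ha, Or.inr ⟨c, hc, rfl⟩⟩)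
      (fun a ha => Subgroup.subset_closure ⟨a, ha, Or.inl rfl⟩) hG hGM hdisj hsM hcopM hpΓ hUE hUn hfpf
    have hIH := ih M (by omega) hGM (le_bot_iff.mp ((inf_le_inf_right _ hMH).trans hdisj.le)) hsM hcopM
    rw [h1, h2, h3, h4, mul_pow, mul_pow, ← pow_mul, ← pow_mul]
    calc Nat.card ↥(M ⊓ Subgroup.centralizer ((U ⊔ E : Subgroup X) : Set X)) ^ Nat.card E *
          p ^ (fG * Nat.card E) * (Nat.card M * p ^ d)
        = (Nat.card ↥(M ⊓ Subgroup.centralizer ((U ⊔ E : Subgroup X) : Set X)) ^ Nat.card E * Nat.card M) *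
          p ^ (Nat.card E * fG + d) := by ring
      _ = _ := by rw [hIH, h5]; ring

end CfsgLib.Wielandt
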