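import Cfsg.Agent.Lib.ClassicalQuadStd2

/-! Quadratic functions over the field with two elements with given polar form. -/

set_option autoImplicit false

namespace CfsgLib.Arf

variable {m : ℕ}

/-- The polar form of the hyperbolic form. -/
def bp (u v : Fin m ⊕ Fin m → ZMod 2) : ZMod 2 := QuadraticMap.polar (Cfsg.quadFormPlus m (ZMod 2)) u v

/-- `±1` from an element of the field with two elements. -/
def sgn (a : ZMod 2) : ℤ := if a = 0 then 1 else -1

theorem sgn_add : ∀ a b : ZMod 2, sgn (a + b) = sgn a * sgn b := by decide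

theorem bp_add_left (u v w : Fin m ⊕ Fin m → ZMod 2) : bp (u + v) w = bp u w + bp v w :=
  (CfsgLib.Classical.isNondegenerate_quadFormPlus m).polar_bilinear.add_left u v w

theorem bp_add_right (u v w : Fin m ⊕ Fin m → ZMod 2) : bp u (v + w) = bp u v + bp u w :=
  (CfsgLib.Classical.isNondegenerate_quadFormPlus m).polar_bilinear.add_right u v w

theorem bp_smul_right (c : ZMod 2) (u v : Fin m ⊕ Fin m → ZMod 2) : bp u (c • v) = c * bp u v :=
  (CfsgLib.Classical.isNondegenerate_quadFormPlus m).polar_bilinear.smul_right c u v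

theorem bp_smul_left (c : ZMod 2) (u v : Fin m ⊕ Fin m → ZMod 2) : bp (c • u) v = c * bp u v :=
  (CfsgLib.Classical.isNondegenerate_quadFormPlus m).polar_bilinear.smul_left c u v

theorem bp_comm (u v : Fin m ⊕ Fin m → ZMod 2) : bp u v = bp v u := QuadraticMap.polar_comm _ u v

theorem bp_self (u : Fin m ⊕ Fin m → ZMod 2) : bp u u = 0 := by
  have h := CfsgLib.Classical.pf_self (CfsgLib.Classical.isNondegenerate_quadFormPlus (F := ZMod 2) m) u
  rw [show (2 : ZMod 2) = 0 from rfl, zero_mul] at h
  exact h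

/-- The Gauss sum squares to the size of the space. -/
theorem gauss_sq (q : (Fin m ⊕ Fin m → ZMod 2) → ZMod 2) (hq : ∀ u v, q (u + v) = q u + q v + bp u v) :
    (∑ v, sgn (q v)) ^ 2 = 2 ^ (2 * m) := by
  classical
  have h1 : (∑ v, sgn (q v)) ^ 2 = ∑ u, ∑ v, sgn (q v) * sgn (bp u v) := by
    rw [sq, Finset.sum_mul]
    refine Finset.sum_congr rfl fun u _ => ?_
    rw [Finset.mul_sum]
    refine Fintype.sum_equiv (Equiv.addLeft u) _ _ fun v => ?_
    show sgn (q u) * sgn (q v) = sgn (q (u + v)) * sgn (bp u (u + v))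
    rw [← sgn_add, ← sgn_add, hq, bp_add_right, bp_self, zero_add]
    congr 1
    have h2 : ∀ a b c : ZMod 2, a + b = a + b + c + c := by decide
    exact h2 _ _ _
  rw [h1, Finset.sum_comm]
  have h2 : ∀ v, (∑ u : Fin m ⊕ Fin m → ZMod 2, sgn (bp u v)) = if v = 0 then (2 : ℤ) ^ (2 * m) else 0 := by
    intro v
    by_cases hv : v = 0
    · subst hv
      have h0 : ∀ u, bp u (0 : Fin m ⊕ Fin m → ZMod 2) = 0 := fun u => by
        have := bp_smul_right 0 u (0 : Fin m ⊕ Fin m → ZMod 2)
        simpa using this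
      simp [h0, sgn, two_mul]
    · rw [if_neg hv]
      obtain ⟨x, hx⟩ := ((CfsgLib.Classical.isNondegenerate_quadFormPlus (F := ZMod 2) m).nondegenerate v hv).1
      have hx1 : bp x v = 1 := by
        have hcases : ∀ a : ZMod 2, a ≠ 0 → a = 1 := by decide
        exact hcases _ hx
      have h3 : (∑ u : Fin m ⊕ Fin m → ZMod 2, sgn (bp u v)) = ∑ u : Fin m ⊕ Fin m → ZMod 2, - sgn (bp u v) := by
        refine Fintype.sum_equiv (Equiv.addLeft x) _ _ fun u => ?_
        show sgn (bp u v) = - sgn (bp (x + u) v)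
        rw [bp_add_left, sgn_add, hx1]
        have hs : ∀ a : ZMod 2, sgn a = - (sgn 1 * sgn a) := by decide
        exact hs _
      rw [Finset.sum_neg_distrib] at h3
      omega
  have h0 : q 0 = 0 := by
    have := hq 0 0
    rw [add_zero, bp_self, add_zero] at this
    simpa using this
  simp only [← Finset.mul_sum, h2, mul_ite, mul_zero, Finset.sum_ite_eq', Finset.mem_univ, if_true, h0]
  simp [sgn]

end CfsgLib.Arf
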