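import Cfsg.Agent.Lib.ClassicalHerm

/-! Orthonormal and almost orthonormal bases of hermitian and symmetric forms over finite fields. -/

set_option autoImplicit false

namespace CfsgLib.Classical.Diag

variable {F V : Type*} [Field F] [AddCommGroup V] [Module F V] {σ : F →+* F}

/-- non-degeneracy on a subspace -/
def NdOn (B : V →ₛₗ[σ] V →ₗ[F] F) (W : Submodule F V) : Prop :=
  ∀ w ∈ W, (∀ v ∈ W, B w v = 0) → w = 0

variable {B : V →ₛₗ[σ] V →ₗ[F] F} (hrefl : ∀ u v, B u v = 0 → B v u = 0)
include hrefl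

omit hrefl in
lemma ndOn_top (h : ∀ w, (∀ v, B w v = 0) → w = 0) : NdOn B ⊤ :=
  fun w _ hw => h w fun v => hw v trivial

lemma ndOn_perp {W : Submodule F V} (hW : NdOn B W) {v : V} (hv : v ∈ W) (hvv : B v v ≠ 0) :
    NdOn B (W ⊓ LinearMap.ker (B v)) := by
  intro w hw h
  refine hW w hw.1 fun u hu => ?_
  have hu' : u - (B v u / B v v) • v ∈ W ⊓ LinearMap.ker (B v) :=
    ⟨W.sub_mem hu (W.smul_mem _ hv), by
      rw [SetLike.mem_coe, LinearMap.mem_ker, map_sub, map_smul, smul_eq_mul, div_mul_cancel₀ _ hvv,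
        sub_self]⟩
  have := h _ hu'
  rwa [map_sub, map_smul, hrefl v w hw.2, smul_zero, sub_zero] at this

omit hrefl in
lemma finrank_perp [FiniteDimensional F V] {W : Submodule F V} {v : V} (hv : v ∈ W)
    (hvv : B v v ≠ 0) :
    Module.finrank F ↥(W ⊓ LinearMap.ker (B v)) + 1 = Module.finrank F W := by
  have h1 := Submodule.finrank_sup_add_finrank_inf_eq W (LinearMap.ker (B v))
  have h2 := LinearMap.finrank_range_add_finrank_ker (B v)
  have htop : LinearMap.range (B v) = ⊤ :=
    LinearMap.range_eq_top.mpr fun t => ⟨(t / B v v) • v, by simp [div_mul_cancel₀ _ hvv]⟩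
  have hsup : W ⊔ LinearMap.ker (B v) = ⊤ := by
    refine eq_top_iff.mpr fun u _ => ?_
    rw [← add_sub_cancel ((B v u / B v v) • v) u]
    refine Submodule.add_mem_sup (W.smul_mem _ hv) ?_
    rw [LinearMap.mem_ker, map_sub, map_smul, smul_eq_mul, div_mul_cancel₀ _ hvv, sub_self]
  rw [hsup, finrank_top] at h1
  rw [htop, finrank_top, Module.finrank_self] at h2
  omega

/-- If every non-degenerate subspace of dimension above `k` has a vector of value one, orthogonal
families exist, with all but the last `k` values equal to one. -/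
theorem exists_family [FiniteDimensional F V] (k : ℕ) (hk : k ≤ 1)
    (hne : ∀ W : Submodule F V, NdOn B W → 0 < Module.finrank F W → ∃ v ∈ W, B v v ≠ 0)
    (hone : ∀ W : Submodule F V, NdOn B W → k < Module.finrank F W → ∃ v ∈ W, B v v = 1) :
    ∀ (d : ℕ) (W : Submodule F V), NdOn B W → Module.finrank F W = d →
      ∃ v : Fin d → V, (∀ i, v i ∈ W) ∧ (∀ i j, i ≠ j → B (v i) (v j) = 0) ∧
        (∀ i, B (v i) (v i) ≠ 0) ∧ ∀ i : Fin d, (i : ℕ) + k < d → B (v i) (v i) = 1
  | 0, W, _, _ => ⟨fun i => i.elim0, fun i => i.elim0, fun i => i.elim0, fun i => i.elim0,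
      fun i => i.elim0⟩
  | d + 1, W, hW, hd => by
    obtain ⟨v₀, hv₀, hne₀, hone₀⟩ : ∃ v ∈ W, B v v ≠ 0 ∧ (k < d + 1 → B v v = 1) := by
      by_cases hkd : k < d + 1
      · obtain ⟨v, hv, h1⟩ := hone W hW (hd ▸ hkd)
        exact ⟨v, hv, by rw [h1]; exact one_ne_zero, fun _ => h1⟩
      · obtain ⟨v, hv, h1⟩ := hne W hW (by omega)
        exact ⟨v, hv, h1, fun h => absurd h hkd⟩
    obtain ⟨v, hvW, hvo, hvn, hv1⟩ := exists_family k hk hne hone d (W ⊓ LinearMap.ker (B v₀))
      (ndOn_perp hrefl hW hv₀ hne₀) (by have := finrank_perp hv₀ hne₀; omega)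
    refine ⟨Fin.cons v₀ v, fun i => ?_, fun i j hij => ?_, fun i => ?_, fun i hi => ?_⟩
    · induction i using Fin.cases with
      | zero => exact hv₀
      | succ i => exact (hvW i).1
    · induction i using Fin.cases with
      | zero =>
        induction j using Fin.cases with
        | zero => exact absurd rfl hij
        | succ j => simpa using (hvW j).2
      | succ i =>
        induction j using Fin.cases with
        | zero => simpa using hrefl _ _ (hvW i).2
        | succ j => simpa using hvo i j (fun h => hij (h ▸ rfl))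
    · induction i using Fin.cases with
      | zero => simpa using hne₀
      | succ i => simpa using hvn i
    · induction i using Fin.cases with
      | zero => simpa using hone₀ (by simp at hi; omega)
      | succ i => simpa using hv1 i (by simp at hi; omega)

omit hrefl in
lemma linearIndependent_of_orth {d : ℕ} {v : Fin d → V}
    (ho : ∀ i j, i ≠ j → B (v i) (v j) = 0) (hn : ∀ i, B (v i) (v i) ≠ 0) :
    LinearIndependent F v := by
  rw [Fintype.linearIndependent_iff]
  intro g hg i
  have h := congrArg (B (v i)) hg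
  rw [map_sum, map_zero, Finset.sum_eq_single i
    (fun j _ hj => by rw [map_smul, ho i j hj.symm, smul_zero]) (by simp), map_smul, smul_eq_mul] at h
  exact (mul_eq_zero.mp h).resolve_right (hn i)

end CfsgLib.Classical.Diag

namespace CfsgLib.Classical.Diag

variable {F V : Type*} [Field F] [Finite F] [AddCommGroup V] [Module F V] [FiniteDimensional F V]

theorem exists_orthonormal_basis {σ : F →+* F} (hσ : σ ≠ RingHom.id F)
    (hσ2 : ∀ a, σ (σ a) = a) (B : V →ₛₗ[σ] V →ₗ[F] F) (hs : ∀ u v, σ (B u v) = B v u)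
    (W : Submodule F V) (hW : NdOn B W) :
    ∃ b : Module.Basis (Fin (Module.finrank F W)) F W,
      ∀ i j, B (b i : V) (b j : V) = if i = j then 1 else 0 := by
  have hne : ∀ W : Submodule F V, NdOn B W → 0 < Module.finrank F W → ∃ v ∈ W, B v v ≠ 0 := by
    intro W hW hpos
    by_contra! h
    obtain ⟨w, hw, hw0⟩ : ∃ w ∈ W, w ≠ 0 := by
      obtain ⟨⟨w, hw⟩, hne⟩ := Module.finrank_pos_iff_exists_ne_zero.mp hpos
      exact ⟨w, hw, fun e => hne (Subtype.ext e)⟩
    refine hw0 (hW w hw fun v hv => ?_)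
    by_contra hne
    obtain ⟨b, hb⟩ : ∃ b : F, b + σ b ≠ 0 := by
      by_contra! hall
      refine hσ (RingHom.ext fun b => ?_)
      have h1 : (1 : F) + 1 = 0 := by simpa using hall 1
      rw [RingHom.id_apply]
      linear_combination hall b - b * h1
    have := h (w + (b / B w v) • v) (W.add_mem hw (W.smul_mem _ hv))
    simp only [map_add, LinearMap.add_apply, map_smulₛₗ, RingHom.id_apply, LinearMap.smul_apply,
      smul_eq_mul, h w hw, h v hv, mul_zero, add_zero, zero_add, map_div₀] at this
    rw [← hs w v, div_mul_cancel₀ _ (by simpa using hne), div_mul_cancel₀ _ hne] at this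
    exact hb (by linear_combination this)
  have hone : ∀ W : Submodule F V, NdOn B W → 0 < Module.finrank F W →
      ∃ v ∈ W, B v v = 1 := by
    intro W hW hpos
    obtain ⟨v, hv, hvv⟩ := hne W hW hpos
    let τ : F ≃+* F := RingEquiv.ofBijective σ (Function.Involutive.bijective hσ2)
    obtain ⟨x, hx⟩ := CfsgLib.Classical.exists_norm_eq (σ := τ)
      (by intro h; exact hσ (RingHom.ext fun a => RingEquiv.congr_fun h a)) hσ2
      (t := (B v v)⁻¹) (by show σ (B v v)⁻¹ = _; rw [map_inv₀, hs])
    refine ⟨x • v, W.smul_mem x hv, ?_⟩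
    simp only [map_smulₛₗ, RingHom.id_apply, LinearMap.smul_apply, smul_eq_mul]
    have hx' : x * σ x = (B v v)⁻¹ := hx
    linear_combination B v v * hx' + inv_mul_cancel₀ hvv
  obtain ⟨v, hvW, hvo, hvn, hv1⟩ := exists_family
    (fun u v h => by rw [← hs u v, h, map_zero]) 0 zero_le_one hne hone _ W hW rfl
  have hli : LinearIndependent F (fun i => (⟨v i, hvW i⟩ : W)) :=
    LinearIndependent.of_comp W.subtype (linearIndependent_of_orth hvo hvn)
  refine ⟨basisOfLinearIndependentOfCardEqFinrank' _ hli (Fintype.card_fin _), fun i j => ?_⟩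
  simp only [basisOfLinearIndependentOfCardEqFinrank', Module.Basis.coe_mk]
  split_ifs with h
  · subst h; exact hv1 i (by simp)
  · exact hvo i j h

theorem exists_diag_basis (h2 : (2 : F) ≠ 0) (B : LinearMap.BilinForm F V)
    (hs : ∀ u v, B u v = B v u) {α : F} (hα : ¬ IsSquare α) (W : Submodule F V) (hW : NdOn B W)
    {n : ℕ} (hn : Module.finrank F W = n + 1) :
    ∃ b : Module.Basis (Fin (n + 1)) F W, (∀ i j, i ≠ j → B (b i : V) (b j : V) = 0) ∧
      (∀ i, i ≠ Fin.last n → B (b i : V) (b i : V) = 1) ∧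
      (B (b (Fin.last n) : V) (b (Fin.last n) : V) = 1 ∨
        B (b (Fin.last n) : V) (b (Fin.last n) : V) = α) := by
  classical
  have hne : ∀ W : Submodule F V, NdOn B W → 0 < Module.finrank F W → ∃ v ∈ W, B v v ≠ 0 := by
    intro W hW hpos
    by_contra! h
    obtain ⟨w, hw, hw0⟩ : ∃ w ∈ W, w ≠ 0 := by
      obtain ⟨⟨w, hw⟩, hne⟩ := Module.finrank_pos_iff_exists_ne_zero.mp hpos
      exact ⟨w, hw, fun e => hne (Subtype.ext e)⟩
    refine hw0 (hW w hw fun v hv => ?_)
    have := h (w + v) (W.add_mem hw hv)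
    simp only [map_add, LinearMap.add_apply, h w hw, h v hv, hs v w] at this
    exact (mul_eq_zero.mp (show (2 : F) * B w v = 0 by linear_combination this)).resolve_left h2
  have hone : ∀ W : Submodule F V, NdOn B W → 1 < Module.finrank F W →
      ∃ v ∈ W, B v v = 1 := by
    intro W hW h1
    obtain ⟨v, hv, hvv⟩ := hne W hW (by omega)
    obtain ⟨u, hu, huu⟩ := hne _ (ndOn_perp (B := B) (fun a b h => by rw [hs]; exact h) hW hv hvv)
      (by have := finrank_perp (B := B) hv hvv; omega)
    have hch : ringChar F ≠ 2 := fun h => h2 (by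
      have := ringChar.Nat.cast_ringChar (R := F); rw [h] at this; exact_mod_cast this)
    have := Fintype.ofFinite F
    obtain ⟨x, y, hxy⟩ := FiniteField.exists_root_sum_quadratic
      (f := Polynomial.C (B v v) * Polynomial.X ^ 2 - 1) (g := Polynomial.C (B u u) * Polynomial.X ^ 2)
      (by compute_degree!) (by compute_degree!) (FiniteField.odd_card_of_char_ne_two hch)
    simp at hxy
    refine ⟨x • v + y • u, W.add_mem (W.smul_mem x hv) (W.smul_mem y hu.1), ?_⟩
    have hvu : B v u = 0 := hu.2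
    simp only [map_add, LinearMap.add_apply, map_smul, LinearMap.smul_apply, smul_eq_mul, hvu,
      hs u v]
    linear_combination hxy
  obtain ⟨v, hvW, hvo, hvn, hv1⟩ := exists_family (B := B)
    (fun u v h => by rw [hs]; exact h) 1 le_rfl hne hone _ W hW hn
  set c := B (v (Fin.last n)) (v (Fin.last n)) with hc
  obtain ⟨t, ht0, ht⟩ : ∃ t : F, t ≠ 0 ∧ (t * t * c = 1 ∨ t * t * c = α) := by
    have hc0 : c ≠ 0 := hvn _
    by_cases hsq : IsSquare c
    · obtain ⟨r, hr⟩ := hsq
      have hr0 : r ≠ 0 := fun h => hc0 (by rw [hr, h, zero_mul])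
      exact ⟨r⁻¹, inv_ne_zero hr0, Or.inl (by rw [hr]; field_simp)⟩
    · have hα0 : α ≠ 0 := fun h => hα ⟨0, by simp [h]⟩
      have := Fintype.ofFinite F
      have hch : ringChar F ≠ 2 := fun h => h2 (by
        have := ringChar.Nat.cast_ringChar (R := F); rw [h] at this; exact_mod_cast this)
      have h1 := (quadraticChar_neg_one_iff_not_isSquare).mpr hsq
      have h3 := (quadraticChar_neg_one_iff_not_isSquare).mpr hα
      obtain ⟨r, hr⟩ : IsSquare (α * c) := by
        rw [← quadraticChar_one_iff_isSquare (mul_ne_zero hα0 hc0), map_mul, h1, h3]; norm_num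
      have hr0 : r ≠ 0 := fun h => mul_ne_zero hα0 hc0 (by rw [hr, h, zero_mul])
      exact ⟨r / c, div_ne_zero hr0 hc0, Or.inr (by field_simp; linear_combination -hr)⟩
  set w : Fin (n + 1) → V := fun i => (if i = Fin.last n then t else 1) • v i with hw
  have hwW : ∀ i, w i ∈ W := fun i => W.smul_mem _ (hvW i)
  have hww : ∀ i j, B (w i) (w j) = (if i = Fin.last n then t else 1) *
      ((if j = Fin.last n then t else 1) * B (v i) (v j)) := fun i j => by
    simp only [hw, map_smul, LinearMap.smul_apply, smul_eq_mul]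
    ring
  have hwo : ∀ i j, i ≠ j → B (w i) (w j) = 0 := fun i j h => by rw [hww, hvo i j h]; ring
  have hwn : ∀ i, B (w i) (w i) ≠ 0 := fun i => by
    rw [hww]
    refine mul_ne_zero ?_ (mul_ne_zero ?_ (hvn i)) <;> split_ifs <;> simp [ht0]
  have hli : LinearIndependent F (fun i => (⟨w i, hwW i⟩ : W)) :=
    LinearIndependent.of_comp W.subtype (linearIndependent_of_orth hwo hwn)
  refine ⟨basisOfLinearIndependentOfCardEqFinrank hli (by simp [hn]), ?_⟩
  simp only [coe_basisOfLinearIndependentOfCardEqFinrank]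
  refine ⟨hwo, fun i hi => ?_, ?_⟩
  · have : (i : ℕ) + 1 < n + 1 := by
      have := Fin.val_lt_last hi
      omega
    rw [hww, if_neg hi, hv1 i this]; ring
  · rw [hww, if_pos rfl, ← hc, ← mul_assoc]
    exact ht

end CfsgLib.Classical.Diag
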