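import Cfsg.Agent.Lib.ClassicalQuadStd2
import Mathlib.LinearAlgebra.Matrix.SchurComplement
import Mathlib.LinearAlgebra.Matrix.Basis
import Mathlib.NumberTheory.LegendreSymbol.QuadraticChar.Basic
import Mathlib.NumberTheory.LegendreSymbol.QuadraticChar.GaussSum

/-! Discriminants of the standard quadratic forms. -/

set_option autoImplicit false

namespace CfsgLib.Classical

open Matrix

variable {F : Type*} [Field F]

theorem gram_det_square {κ ι : Type*} [Fintype κ] [DecidableEq κ] [Fintype ι] [DecidableEq ι]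
    (G : Matrix κ κ F) (b : Module.Basis ι F (κ → F)) :
    ∃ d : F, d ≠ 0 ∧ (Matrix.of fun i j : ι => b i ⬝ᵥ G *ᵥ b j).det = d ^ 2 * G.det := by
  let e : ι ≃ κ := b.indexEquiv (Pi.basisFun F κ)
  let b' := b.reindex e
  let P : Matrix κ κ F := Matrix.of fun i j => b' j i
  have hP : P = (Pi.basisFun F κ).toMatrix b' := by
    ext i j; simp [P, Module.Basis.toMatrix_apply]
  haveI : Invertible ((Pi.basisFun F κ).toMatrix b') := (Pi.basisFun F κ).invertibleToMatrix b'
  refine ⟨P.det, ?_, ?_⟩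
  · rw [hP]; exact (Matrix.isUnit_det_of_invertible _).ne_zero
  · have h : (Matrix.of fun i j : ι => b i ⬝ᵥ G *ᵥ b j).submatrix e.symm e.symm = Pᵀ * G * P := by
      ext i j
      rw [Matrix.mul_assoc, Matrix.mul_apply]
      simp [P, b', dotProduct, Matrix.mulVec, Matrix.mul_apply]
    rw [← Matrix.det_submatrix_equiv_self e.symm, h, Matrix.det_mul, Matrix.det_mul, Matrix.det_transpose]
    ring

theorem det_hyperbolic (κ : Type*) [Fintype κ] [DecidableEq κ] :
    (fromBlocks (0 : Matrix κ κ F) (1 : Matrix κ κ F) (1 : Matrix κ κ F) (0 : Matrix κ κ F)).det = (-1) ^ Fintype.card κ := by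
  have h := Matrix.det_mul (fromBlocks (0 : Matrix κ κ F) (1 : Matrix κ κ F) (1 : Matrix κ κ F) (0 : Matrix κ κ F))
    (fromBlocks (1 : Matrix κ κ F) (0 : Matrix κ κ F) (1 : Matrix κ κ F) (1 : Matrix κ κ F))
  rw [fromBlocks_multiply, det_fromBlocks_zero₁₂ (1 : Matrix κ κ F) 1 1] at h
  simp only [zero_mul, one_mul, mul_zero, mul_one, zero_add, add_zero, det_one] at h
  rw [← h, det_fromBlocks_one₁₁]
  simp [Matrix.det_neg]

theorem isSquare_mul_iff [Fintype F] (h2 : (2 : F) ≠ 0) {x y : F} (hx : x ≠ 0) (hy : ¬ IsSquare y) :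
    IsSquare (x * y) ↔ ¬ IsSquare x := by
  classical
  have hc : ringChar F ≠ 2 := fun h => h2 (by rw [← Nat.cast_two, ← h, ringChar.Nat.cast_ringChar])
  have hy0 : y ≠ 0 := fun e => hy (e ▸ IsSquare.zero)
  rw [← quadraticChar_one_iff_isSquare (mul_ne_zero hx hy0), map_mul,
    quadraticChar_neg_one_iff_not_isSquare.2 hy, ← quadraticChar_neg_one_iff_not_isSquare]
  omega

theorem isSquare_neg_one_pow_iff_even [Fintype F] {q : ℕ} (hF : Fintype.card F = q) (hq : Odd q) (m : ℕ) :
    IsSquare ((-1 : F) ^ m) ↔ Even (m * (q - 1) / 2) := by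
  obtain ⟨k, rfl⟩ := hq
  rw [show m * (2 * k + 1 - 1) / 2 = m * k by rw [Nat.add_sub_cancel, mul_left_comm, Nat.mul_div_cancel_left _ two_pos]]
  rcases Nat.even_or_odd m with hm | hm
  · rw [hm.neg_one_pow]; exact iff_of_true IsSquare.one (hm.mul_right k)
  · rw [hm.neg_one_pow, FiniteField.isSquare_neg_one_iff, hF, Nat.even_mul, Nat.even_iff, Nat.even_iff]
    rw [Nat.odd_iff] at hm
    omega

end CfsgLib.Classical
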