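import Cfsg.Agent.Lib.ClassicalHalfTS
import Cfsg.Agent.Lib.ClassicalSpinorFacts

/-! The Dickson invariant as parity on maximal singular subspaces. -/

set_option autoImplicit false

namespace CfsgLib.Classical

open Matrix

variable {F : Type*} [Field F] {ι : Type} [Fintype ι] [DecidableEq ι] {Q : (ι → F) → F}
  (hQ : Cfsg.Geo.IsNondegenerateQuadraticForm Q)
include hQ

local notation:max "act" g:max => Matrix.toLin' ((g : GL ι F) : Matrix ι ι F)

theorem dickson_parity [Finite F] (h : Nat.card F ≠ 2 ∨ Fintype.card ι ≠ 4)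
    {D : ↥(Cfsg.isometryGroup F Q) →* ℤˣ} (hD : ∀ d (hd : Q d ≠ 0), D (rI hQ d hd) = -1)
    (g : ↥(Cfsg.isometryGroup F Q)) :
    ∀ U U' : Submodule F (ι → F), IsHalfTS (Q := Q) U → IsHalfTS (Q := Q) U' →
      ((Module.finrank F (U ⊓ U'.map (act (g : GL ι F)) : Submodule F (ι → F)) + Module.finrank F (U ⊓ U' : Submodule F (ι → F))) % 2 = 0 ↔ D g = 1) := by
  have hg : g ∈ Subgroup.closure (reflSet hQ) := closure_reflSet hQ h ▸ Subgroup.mem_top g
  have hid : ∀ U : Submodule F (ι → F), U.map (act (1 : GL ι F)) = U := fun U => by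
    ext x
    simp [Matrix.toLin'_one]
  have hcomp : ∀ (a b : GL ι F) (U : Submodule F (ι → F)), U.map (act (a * b)) = (U.map (act b)).map (act a) := fun a b U => by
    rw [← Submodule.map_comp]
    congr 1
    show Matrix.toLin' ((a : Matrix ι ι F) * (b : Matrix ι ι F)) = _
    exact Matrix.toLin'_mul _ _
  induction hg using Subgroup.closure_induction with
  | mem y hy =>
    obtain ⟨d, hd, rfl⟩ := hy
    intro U U' hU hU'
    rw [hD d hd]
    refine iff_of_false ?_ (by decide)
    have := parity_qR hQ hd hU hU'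
    show ¬ ((Module.finrank F (U ⊓ U'.map (act (qR hQ d)) : Submodule F (ι → F)) + _) % 2 = 0)
    omega
  | one =>
    intro U U' _ _
    rw [map_one, Subgroup.coe_one, hid]
    simp
    omega
  | mul a b _ _ iha ihb =>
    intro U U' hU hU'
    have h1 := ihb U U' hU hU'
    have h2 := iha U (U'.map (act (b : GL ι F))) hU (halfTS_map hQ b.2 hU')
    rw [← hcomp, ← Subgroup.coe_mul] at h2
    rw [map_mul]
    rcases Int.units_eq_one_or (D a) with ea | ea <;> rcases Int.units_eq_one_or (D b) with eb | eb <;>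
      rw [ea] at h2 ⊢ <;> rw [eb] at h1 ⊢ <;> simp at h1 h2 ⊢ <;> omega
  | inv a _ iha =>
    intro U U' hU hU'
    have h2 := iha U (U'.map (act ((a⁻¹ : ↥(Cfsg.isometryGroup F Q)) : GL ι F))) hU (halfTS_map hQ (a⁻¹).2 hU')
    rw [← hcomp, ← Subgroup.coe_mul, mul_inv_cancel, Subgroup.coe_one, hid, add_comm] at h2
    rw [h2, map_inv, inv_eq_one]

end CfsgLib.Classical
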