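import Cfsg.Agent.Lib.ClassicalSympSim
import Cfsg.Prelude.Def_GeometricClasses

/-!
Elements of order `n` in `SL_n(q)`, `n` prime, and the normaliser of a field subalgebra of degree `n`.
-/

set_option autoImplicit false

namespace CfsgLib.FieldPrime

attribute [local instance] _root_.Classical.propDecidable

open Matrix

variable {F : Type*} [Field F] [Fintype F] {n : ℕ}

/-- Multiplicative order of `q` modulo `n` divides the dimension of a space with a fixed-point-free map
of order `n`. -/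
theorem orderOf_dvd_finrank {W : Type*} [AddCommGroup W] [Module F W] [Finite W] (hn : n.Prime)
    (T : W →ₗ[F] W) (hT : T ^ n = 1) (hfix : ∀ w, T w = w → w = 0) :
    orderOf (Fintype.card F : ZMod n) ∣ Module.finrank F W := by
  classical
  haveI := Fact.mk hn
  haveI : Fintype W := Fintype.ofFinite W
  haveI : Module.Finite F W := Module.Finite.of_finite
  have h := Equiv.Perm.card_fixedPoints_modEq (p := n) (n := 1) (f := (⇑T : Function.End W)) (by
    rw [pow_one]
    funext w
    let T' : Function.End W := ⇑T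
    show (T' ^ n) w = _
    have key : ∀ k : ℕ, (T' ^ k) w = (T ^ k) w := by
      intro k
      induction k with
      | zero => rfl
      | succ k ih => rw [pow_succ', pow_succ', Module.End.mul_apply, ← ih]; rfl
    rw [key, hT]; rfl)
  have h1 : Fintype.card (Function.fixedPoints (⇑T : Function.End W)) = 1 := by
    rw [Fintype.card_eq_one_iff]
    exact ⟨⟨0, map_zero T⟩, fun ⟨w, hw⟩ => Subtype.ext (hfix w hw)⟩
  rw [h1, Module.card_eq_pow_finrank (K := F) (V := W), ← ZMod.natCast_eq_natCast_iff] at h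
  push_cast at h
  exact orderOf_dvd_of_pow_eq_one h

/-- A map of order `n` on an `n`-space, `n` prime with `q` a primitive root mod `n`, permutes a basis
cyclically. -/
theorem exists_cyclic_basis (hn : n.Prime) (hn3 : 2 < n) (hn0 : (n : F) ≠ 0) (hord : orderOf (Fintype.card F : ZMod n) = n - 1)
    (T : (Fin n → F) →ₗ[F] Fin n → F) (hT : T ^ n = 1) (hT1 : T ≠ 1) :
    ∃ b : Module.Basis (Fin n) F (Fin n → F), ∀ j, T (b j) = b (finRotate n j) := by
  classical
  set W := LinearMap.range (T - 1)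
  have hWinv : ∀ w ∈ W, T w ∈ W := by
    rintro _ ⟨v, rfl⟩
    exact ⟨T v, by simp⟩
  have hfix : ∀ w ∈ W, T w = w → w = 0 := by
    rintro _ ⟨v, rfl⟩ h
    set w := (T - 1) v with hw
    have hk : ∀ k : ℕ, (T ^ k) v = v + (k : F) • w := by
      intro k
      induction k with
      | zero => simp
      | succ k ih =>
        rw [pow_succ', Module.End.mul_apply, ih, map_add, map_smul, h,
          show T v = v + w by rw [hw]; simp, Nat.cast_succ, add_smul, one_smul]
        abel
    have h' := hk n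
    rw [hT, Module.End.one_apply, left_eq_add, smul_eq_zero] at h'
    exact h'.resolve_left hn0
  have hdvd : ∀ S : Submodule F (Fin n → F), S ≤ W → (∀ w ∈ S, T w ∈ S) → n - 1 ∣ Module.finrank F S := by
    intro S hS hinv
    rw [← hord]
    refine orderOf_dvd_finrank hn (T.restrict hinv) ?_ fun w hw => ?_
    · refine LinearMap.ext fun w => Subtype.ext ?_
      have key : ∀ k : ℕ, (((T.restrict hinv) ^ k) w : Fin n → F) = (T ^ k) w := by
        intro k
        induction k with
        | zero => rfl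
        | succ k ih => rw [pow_succ', pow_succ', Module.End.mul_apply, Module.End.mul_apply, ← ih]; rfl
      rw [key, hT]; rfl
    · exact Subtype.ext (hfix w (hS w.2) (congrArg Subtype.val hw))
  have hWne : W ≠ ⊥ := fun h => hT1 (sub_eq_zero.mp (LinearMap.range_eq_bot.mp h))
  have hker : LinearMap.ker (T - 1) ≠ ⊥ := by
    intro h
    have h1 := LinearMap.finrank_range_add_finrank_ker (T - 1)
    rw [h, finrank_bot, Module.finrank_fintype_fun_eq_card, Fintype.card_fin, add_zero] at h1
    have h2 := hdvd W le_rfl hWinv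
    rw [h1] at h2
    have h3 : n - 1 ∣ 1 := by
      have := Nat.dvd_sub h2 (dvd_refl (n - 1))
      rwa [show n - (n - 1) = 1 by omega] at this
    have := Nat.le_of_dvd one_pos h3
    omega
  obtain ⟨v1, hv1, hv10⟩ := Submodule.exists_mem_ne_zero_of_ne_bot hker
  have hWdim : Module.finrank F W = n - 1 := by
    have h1 := LinearMap.finrank_range_add_finrank_ker (T - 1)
    rw [Module.finrank_fintype_fun_eq_card, Fintype.card_fin] at h1
    have hpos : 0 < Module.finrank F (LinearMap.ker (T - 1)) :=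
      Nat.pos_of_ne_zero fun h => hker (Submodule.finrank_eq_zero.mp h)
    have h0 : 0 < Module.finrank F W :=
      Nat.pos_of_ne_zero fun h => hWne (Submodule.finrank_eq_zero.mp h)
    have h2 := Nat.le_of_dvd h0 (hdvd W le_rfl hWinv)
    change Module.finrank F W + _ = n at h1
    omega
  obtain ⟨w0, hw0, hw00⟩ := Submodule.exists_mem_ne_zero_of_ne_bot hWne
  rw [LinearMap.mem_ker, LinearMap.sub_apply, Module.End.one_apply, sub_eq_zero] at hv1
  set v := v1 + w0
  let f : Fin n → (Fin n → F) := fun j => (T ^ (j : ℕ)) v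
  have hrot : ∀ j, T (f j) = f (finRotate n j) := by
    intro j
    obtain ⟨m, rfl⟩ : ∃ m, n = m + 1 := ⟨n - 1, by omega⟩
    show T ((T ^ (j : ℕ)) v) = (T ^ (finRotate (m + 1) j : ℕ)) v
    rw [← Module.End.mul_apply, ← pow_succ', coe_finRotate]
    split_ifs with h
    · subst h; rw [Fin.val_last, hT, pow_zero]
    · rfl
  let S := Submodule.span F (Set.range f)
  have hSinv : ∀ s ∈ S, T s ∈ S := by
    intro s hs
    induction hs using Submodule.span_induction with
    | mem x hx => obtain ⟨j, rfl⟩ := hx; rw [hrot]; exact Submodule.subset_span ⟨_, rfl⟩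
    | zero => simp
    | add a b _ _ ha hb => rw [map_add]; exact add_mem ha hb
    | smul c a _ ha => rw [map_smul]; exact S.smul_mem c ha
  have hvS : v ∈ S := Submodule.subset_span ⟨⟨0, by omega⟩, rfl⟩
  have hdiff : T v - v ∈ S ⊓ W := ⟨S.sub_mem (hSinv v hvS) hvS, ⟨v, rfl⟩⟩
  have hdiff0 : T v - v ≠ 0 := by
    intro h
    apply hw00
    refine hfix w0 hw0 ?_
    rw [sub_eq_zero, map_add, hv1] at h
    exact add_left_cancel h
  have hSW : W ≤ S := by
    have h2 := hdvd (S ⊓ W) inf_le_right fun w hw => ⟨hSinv w hw.1, hWinv w hw.2⟩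
    have hpos : 0 < Module.finrank F ↥(S ⊓ W) := Nat.pos_of_ne_zero fun h => by
      rw [Submodule.finrank_eq_zero] at h
      exact hdiff0 ((Submodule.mem_bot F).mp (h ▸ hdiff))
    have h3 := Nat.le_of_dvd hpos h2
    have h4 : S ⊓ W = W := Submodule.eq_of_le_of_finrank_le inf_le_right (by omega)
    exact h4 ▸ inf_le_left
  have hv1S : v1 ∈ S := by
    have := S.sub_mem hvS (hSW hw0)
    simpa [v] using this
  have htop : ⊤ ≤ S := by
    have hlt : W < S := lt_of_le_of_ne hSW fun h => hv10 (hfix v1 (h ▸ hv1S) hv1)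
    have := Submodule.finrank_lt_finrank_of_lt hlt
    have hle := Submodule.finrank_le S
    rw [Module.finrank_fintype_fun_eq_card, Fintype.card_fin] at hle
    exact (Submodule.eq_top_of_finrank_eq (by rw [Module.finrank_fintype_fun_eq_card, Fintype.card_fin]; omega)).ge
  refine ⟨basisOfTopLeSpanOfCardEqFinrank f htop (by simp), fun j => ?_⟩
  rw [coe_basisOfTopLeSpanOfCardEqFinrank]
  exact hrot j

variable (K : Subalgebra F (Matrix (Fin n) (Fin n) F)) (hK : Cfsg.Geo.IsFieldSubalgebra n K)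

lemma mem_normalizer_of_map {y : GL (Fin n) F}
    (h : ∀ a ∈ K, (y : Matrix (Fin n) (Fin n) F) * a * ((y⁻¹ : GL (Fin n) F) : Matrix (Fin n) (Fin n) F) ∈ K) :
    y ∈ Cfsg.Geo.subalgebraNormalizer K := by
  classical
  intro a
  refine ⟨h a, fun ha => ?_⟩
  let f : K →ₗ[F] K :=
    { toFun := fun k => ⟨(y : Matrix (Fin n) (Fin n) F) * k * ((y⁻¹ : GL (Fin n) F) : Matrix (Fin n) (Fin n) F), h k k.2⟩
      map_add' := fun u v => Subtype.ext (by simp [Matrix.mul_add, Matrix.add_mul])
      map_smul' := fun t u => Subtype.ext (by simp) }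
  have hcan : ∀ (u w : Matrix (Fin n) (Fin n) F), (y : Matrix (Fin n) (Fin n) F) * u * ((y⁻¹ : GL (Fin n) F) : Matrix _ _ F) =
      (y : Matrix (Fin n) (Fin n) F) * w * ((y⁻¹ : GL (Fin n) F) : Matrix _ _ F) → u = w := fun u w h =>
    (Units.mul_right_inj y).mp ((Units.mul_left_inj y⁻¹).mp h)
  have hf : Function.Injective f := fun u w h => Subtype.ext (hcan _ _ (congrArg Subtype.val h))
  obtain ⟨k, hk⟩ := (LinearMap.injective_iff_surjective (f := f)).mp hf ⟨_, ha⟩
  rw [← hcan _ _ (congrArg Subtype.val hk)]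
  exact k.2

include hK

lemma mulVec_inj (hn0 : 0 < n) {u : Fin n → F} (hu : u ≠ 0) {a b : K}
    (h : (a : Matrix (Fin n) (Fin n) F) *ᵥ u = (b : Matrix (Fin n) (Fin n) F) *ᵥ u) : a = b := by
  by_contra hne
  obtain ⟨c, hc, hc'⟩ := hK.inv ((a - b : K) : Matrix (Fin n) (Fin n) F) (a - b).2
    (fun h0 => hne (sub_eq_zero.mp (Subtype.ext h0)))
  apply hu
  rw [← one_mulVec u, ← hc', hK.comm _ (a - b).2 _ hc, ← mulVec_mulVec, Subalgebra.coe_sub, sub_mulVec, h,
    sub_self, mulVec_zero]

lemma exists_mulVec (hn0 : 0 < n) {u : Fin n → F} (hu : u ≠ 0) (w : Fin n → F) :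
    ∃ a : K, (a : Matrix (Fin n) (Fin n) F) *ᵥ u = w := by
  let φ : K →ₗ[F] (Fin n → F) :=
    { toFun := fun a => (a : Matrix (Fin n) (Fin n) F) *ᵥ u
      map_add' := fun a b => by simp [add_mulVec]
      map_smul' := fun t a => by simp [smul_mulVec] }
  have hφ : Function.Injective φ := fun a b h => mulVec_inj K hK hn0 hu h
  exact (LinearMap.injective_iff_surjective_of_finrank_eq_finrank
    (by rw [hK.finrank_eq, Module.finrank_fintype_fun_eq_card, Fintype.card_fin])).mp hφ w

theorem not_two_fixed (hn : n.Prime) (y : GL (Fin n) F) (hy : y ∈ Cfsg.Geo.subalgebraNormalizer K)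
    (hy1 : y ≠ 1) (u w : Fin n → F) (hu : (y : Matrix (Fin n) (Fin n) F) *ᵥ u = u)
    (hw : (y : Matrix (Fin n) (Fin n) F) *ᵥ w = w) (hli : LinearIndependent F ![u, w]) : False := by
  classical
  have hn0 := hn.pos
  have hu0 : u ≠ 0 := by simpa using hli.ne_zero 0
  haveI : Nontrivial K := by
    refine ⟨⟨0, 1, fun h => hu0 ?_⟩⟩
    rw [← one_mulVec u]
    have := congrArg (fun a : K => (a : Matrix (Fin n) (Fin n) F)) h
    simp only [ZeroMemClass.coe_zero, OneMemClass.coe_one] at this
    rw [← this, zero_mulVec]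
  haveI : IsDomain K := by
    haveI : NoZeroDivisors K := ⟨fun {a b} hab => by
      by_contra hne
      push Not at hne
      obtain ⟨c, hc, hc'⟩ := hK.inv a a.2 (fun h => hne.1 (Subtype.ext h))
      apply hne.2
      apply Subtype.ext
      have hz : (a : Matrix (Fin n) (Fin n) F) * b = 0 := congrArg Subtype.val hab
      rw [← one_mul (b : Matrix (Fin n) (Fin n) F), ← hc', hK.comm _ a.2 _ hc, mul_assoc, hz, mul_zero]
      rfl⟩
    exact NoZeroDivisors.to_isDomain K
  obtain ⟨a, ha⟩ := exists_mulVec K hK hn0 hu0 w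
  let E : Subalgebra F K := (Subalgebra.centralizer F {(y : Matrix (Fin n) (Fin n) F)}).comap K.val
  haveI : IsSimpleOrder (Subalgebra F K) := Subalgebra.isSimpleOrder_of_finrank_prime F K (by rw [hK.finrank_eq]; exact hn)
  have haE : a ∈ E := by
    show (a : Matrix (Fin n) (Fin n) F) ∈ Subalgebra.centralizer F _
    rw [Subalgebra.mem_centralizer_iff]
    rintro g rfl
    have h1 : (⟨_, (hy a).mp a.2⟩ : K) = a := by
      refine mulVec_inj K hK hn0 hu0 ?_
      have hyi : ((y⁻¹ : GL (Fin n) F) : Matrix (Fin n) (Fin n) F) *ᵥ u = u := by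
        conv_lhs => rw [← hu, mulVec_mulVec, ← Units.val_mul, inv_mul_cancel, Units.val_one, one_mulVec]
      rw [← mulVec_mulVec, hyi, ← mulVec_mulVec, ha, hw]
    have := congrArg Subtype.val h1
    simp only at this
    calc (y : Matrix (Fin n) (Fin n) F) * (a : Matrix (Fin n) (Fin n) F)
        = ((y : Matrix (Fin n) (Fin n) F) * (a : Matrix (Fin n) (Fin n) F) * ((y⁻¹ : GL (Fin n) F) : Matrix _ _ F)) * (y : Matrix (Fin n) (Fin n) F) := by
          simp [mul_assoc]
      _ = (a : Matrix (Fin n) (Fin n) F) * (y : Matrix (Fin n) (Fin n) F) := by rw [this]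
  rcases eq_bot_or_eq_top E with hE | hE
  · rw [hE, Algebra.mem_bot] at haE
    obtain ⟨c, hc⟩ := haE
    have hwc : w = c • u := by
      rw [← ha, ← hc]
      show (algebraMap F (Matrix (Fin n) (Fin n) F) c) *ᵥ u = _
      rw [Algebra.algebraMap_eq_smul_one, smul_mulVec, one_mulVec]
    have := LinearIndependent.pair_iff.mp hli c (-1) (by rw [hwc, neg_one_smul, add_neg_cancel])
    simp at this
  · apply hy1
    refine Units.ext ?_
    refine Matrix.ext_iff_mulVec.mpr fun z => ?_
    obtain ⟨b, rfl⟩ := exists_mulVec K hK hn0 hu0 z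
    have hb : b ∈ E := hE ▸ Algebra.mem_top
    have hb' : (b : Matrix (Fin n) (Fin n) F) ∈ Subalgebra.centralizer F {(y : Matrix (Fin n) (Fin n) F)} := hb
    rw [Subalgebra.mem_centralizer_iff] at hb'
    rw [mulVec_mulVec, hb' _ rfl, ← mulVec_mulVec, hu, Units.val_one, one_mulVec]

theorem exists_frob (hn : n.Prime) :
    (∃ y : GL (Fin n) F, y ∈ Cfsg.Geo.subalgebraNormalizer K ∧
      ((y : Matrix (Fin n) (Fin n) F)) ^ n = 1 ∧ y ≠ 1 ∧ ∀ l : F, (y : Matrix (Fin n) (Fin n) F) ≠ l • 1) ∧
    (∀ c : F, c ≠ 0 → ∃ k : GL (Fin n) F, k ∈ Cfsg.Geo.subalgebraNormalizer K ∧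
      (k : Matrix (Fin n) (Fin n) F).det = c) := by
  classical
  have hn0 := hn.pos
  let u0 : Fin n → F := Pi.single ⟨0, hn0⟩ 1
  have hu0 : u0 ≠ 0 := fun h => one_ne_zero (α := F) (by simpa [u0] using congrFun h ⟨0, hn0⟩)
  have hfield : IsField K :=
    { exists_pair_ne := ⟨0, 1, fun h => hu0 (by
        rw [← one_mulVec u0]
        have := congrArg (fun a : K => (a : Matrix (Fin n) (Fin n) F)) h
        simp only [ZeroMemClass.coe_zero, OneMemClass.coe_one] at this
        rw [← this, zero_mulVec])⟩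
      mul_comm := fun a b => Subtype.ext (hK.comm _ a.2 _ b.2)
      mul_inv_cancel := fun {a} ha => by
        obtain ⟨c, hc, hc'⟩ := hK.inv a a.2 (fun h => ha (Subtype.ext h))
        exact ⟨⟨c, hc⟩, Subtype.ext hc'⟩ }
  letI : Field K := hfield.toField
  haveI : Finite K := Module.finite_of_finite F
  haveI : Fintype K := Fintype.ofFinite K
  let φ : K ≃ₗ[F] (Fin n → F) := LinearEquiv.ofBijective
    { toFun := fun a : K => (a : Matrix (Fin n) (Fin n) F) *ᵥ u0
      map_add' := fun a b => by simp [add_mulVec]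
      map_smul' := fun t a => by simp [smul_mulVec] }
    ⟨fun a b h => mulVec_inj K hK hn0 hu0 h, fun w => exists_mulVec K hK hn0 hu0 w⟩
  have hφ : ∀ a : K, φ a = (a : Matrix (Fin n) (Fin n) F) *ᵥ u0 := fun a => rfl
  have hφmul : ∀ a b : K, φ (a * b) = (a : Matrix (Fin n) (Fin n) F) *ᵥ φ b := fun a b => by
    rw [hφ, hφ, mulVec_mulVec]; rfl
  refine ⟨?_, fun c hc => ?_⟩
  · let σ : K ≃ₐ[F] K := FiniteField.frobeniusAlgEquivOfAlgebraic F K
    have hσord : orderOf σ = n := (FiniteField.orderOf_frobeniusAlgEquivOfAlgebraic F K).trans hK.finrank_eq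
    let L : (Fin n → F) ≃ₗ[F] (Fin n → F) := (φ.symm.trans σ.toLinearEquiv).trans φ
    let y : GL (Fin n) F :=
      Matrix.GeneralLinearGroup.toLin.symm ((LinearMap.GeneralLinearGroup.generalLinearEquiv F _).symm L)
    have hy : ∀ v, (y : Matrix (Fin n) (Fin n) F) *ᵥ v = L v := fun v => by
      show LinearMap.toMatrix' (L : (Fin n → F) →ₗ[F] Fin n → F) *ᵥ v = _
      exact LinearMap.toMatrix'_mulVec _ _
    have hyφ : ∀ a : K, (y : Matrix (Fin n) (Fin n) F) *ᵥ φ a = φ (σ a) := fun a => by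
      rw [hy]; simp [L]
    refine ⟨y, mem_normalizer_of_map K fun a ha => ?_, ?_, ?_, fun l hl => ?_⟩
    · have h1 : (y : Matrix (Fin n) (Fin n) F) * a = (σ ⟨a, ha⟩ : K).1 * (y : Matrix (Fin n) (Fin n) F) := by
        refine Matrix.ext_iff_mulVec.mpr fun v => ?_
        obtain ⟨b, rfl⟩ := φ.surjective v
        rw [← mulVec_mulVec, ← mulVec_mulVec, ← hφmul ⟨a, ha⟩, hyφ, hyφ, map_mul, hφmul]
      rw [h1, mul_assoc, ← Units.val_mul, mul_inv_cancel, Units.val_one, mul_one]
      exact (σ ⟨a, ha⟩).2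
    · have key : ∀ (k : ℕ) (a : K), ((y : Matrix (Fin n) (Fin n) F) ^ k) *ᵥ φ a = φ ((σ ^ k) a) := by
        intro k
        induction k with
        | zero => intro a; simp
        | succ k ih => intro a; rw [pow_succ, ← mulVec_mulVec, hyφ, ih, pow_succ, AlgEquiv.mul_apply]
      refine Matrix.ext_iff_mulVec.mpr fun v => ?_
      obtain ⟨b, rfl⟩ := φ.surjective v
      rw [key, show σ ^ n = 1 by simpa [hσord] using pow_orderOf_eq_one σ, one_mulVec]; rfl
    · intro h
      have : σ = 1 := AlgEquiv.ext fun a => φ.injective (by rw [← hyφ, h, Units.val_one, one_mulVec]; rfl)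
      rw [this, orderOf_one] at hσord
      exact hn.ne_one hσord.symm
    · have h1 := hyφ 1
      rw [hl, smul_mulVec, one_mulVec, show σ (1 : K) = 1 from map_one σ] at h1
      have hl1 : l = 1 := by
        by_contra hne
        have hφ1 : φ 1 ≠ 0 := fun h => one_ne_zero (φ.injective (h.trans (map_zero φ).symm))
        exact hφ1 ((smul_eq_zero.mp (show (l - 1) • φ 1 = 0 by rw [sub_smul, one_smul, h1, sub_self])).resolve_left
          (sub_ne_zero.mpr hne))
      have : σ = 1 := AlgEquiv.ext fun a => φ.injective (by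
        rw [← hyφ, hl, hl1, one_smul, one_mulVec]; rfl)
      rw [this, orderOf_one] at hσord
      exact hn.ne_one hσord.symm
  · obtain ⟨a, ha⟩ := FiniteField.unitsMap_norm_surjective F K (Units.mk0 c hc)
    have ha' : Algebra.norm F (a : K) = c := congrArg Units.val ha
    let k : GL (Fin n) F := Units.map (K.val : K →* Matrix (Fin n) (Fin n) F) a
    refine ⟨k, mem_normalizer_of_map K fun b hb => ?_, ?_⟩
    · exact K.mul_mem (K.mul_mem (a : K).2 hb) ((a⁻¹ : Kˣ) : K).2
    · have hconj : Matrix.toLin' ((a : K) : Matrix (Fin n) (Fin n) F) =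
          φ.toLinearMap ∘ₗ (Algebra.lmul F K (a : K)) ∘ₗ φ.symm.toLinearMap := by
        refine LinearMap.ext fun v => ?_
        obtain ⟨b, rfl⟩ := φ.surjective v
        simp only [LinearMap.comp_apply, LinearEquiv.coe_coe, LinearEquiv.symm_apply_apply,
          Matrix.toLin'_apply]
        exact (hφmul _ _).symm
      show ((a : K) : Matrix (Fin n) (Fin n) F).det = c
      rw [← LinearMap.det_toLin', hconj, LinearMap.det_conj, ← Algebra.norm_apply, ha']

theorem exists_cube_root (hn : n = 3) (hq : Fintype.card F % 3 = 1) (z : F) (hz : z ≠ 0) :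
    ∃ k : GL (Fin n) F, k ∈ Cfsg.Geo.subalgebraNormalizer K ∧ (k : Matrix (Fin n) (Fin n) F) ^ 3 = z • 1 := by
  classical
  have hn0 : 0 < n := by omega
  have hfield : IsField K :=
    { exists_pair_ne := ⟨0, 1, fun h => by
        haveI : Nonempty (Fin n) := ⟨⟨0, hn0⟩⟩
        exact zero_ne_one (α := Matrix (Fin n) (Fin n) F) (congrArg Subtype.val h)⟩
      mul_comm := fun a b => Subtype.ext (hK.comm _ a.2 _ b.2)
      mul_inv_cancel := fun {a} ha => by
        obtain ⟨c, hc, hc'⟩ := hK.inv a a.2 (fun h => ha (Subtype.ext h))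
        exact ⟨⟨c, hc⟩, Subtype.ext hc'⟩ }
  letI : Field K := hfield.toField
  haveI : Finite K := Module.finite_of_finite F
  haveI : Fintype K := Fintype.ofFinite K
  set q := Fintype.card F
  have hcK : Fintype.card Kˣ = q ^ 3 - 1 := by
    rw [Fintype.card_units, Module.card_eq_pow_finrank (K := F) (V := K), hK.finrank_eq, hn]
  have hq1 : 1 < q := Fintype.one_lt_card
  obtain ⟨t, ht⟩ : 3 * (q - 1) ∣ q ^ 3 - 1 := by
    have h : (q ^ 3 - 1) = (q ^ 2 + q + 1) * (q - 1) := by
      obtain ⟨u, hu⟩ : ∃ u, q = u + 1 := ⟨q - 1, by omega⟩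
      rw [hu, show u + 1 - 1 = u by omega]
      ring_nf
      omega
    have h3 : 3 ∣ q ^ 2 + q + 1 := by
      rw [Nat.dvd_iff_mod_eq_zero, Nat.add_mod, Nat.add_mod (q ^ 2), Nat.pow_mod, hq]
    rw [h]
    exact mul_dvd_mul_right h3 _
  obtain ⟨g, hg⟩ := IsCyclic.exists_generator (α := Kˣ)
  let zu : Kˣ := Units.map (algebraMap F K : F →* K) (Units.mk0 z hz)
  obtain ⟨j, hj⟩ := mem_powers_iff_mem_zpowers.mpr (hg zu)
  simp only at hj
  have hzq : zu ^ (q - 1) = 1 := by
    rw [← map_pow, show (Units.mk0 z hz) ^ (q - 1) = 1 from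
      Units.ext (by simpa using FiniteField.pow_card_sub_one_eq_one z hz), map_one]
  have ho : orderOf g = 3 * (q - 1) * t := by
    rw [orderOf_eq_card_of_forall_mem_zpowers hg, Nat.card_eq_fintype_card, hcK, ht]
  have h3j : 3 ∣ j := by
    have h1 : g ^ (j * ((q - 1) * t)) = 1 := by rw [pow_mul, hj, pow_mul, hzq, one_pow]
    have h2 := orderOf_dvd_of_pow_eq_one h1
    rw [ho, mul_assoc] at h2
    refine Nat.dvd_of_mul_dvd_mul_right (Nat.pos_of_ne_zero fun h => ?_) h2
    have : orderOf g = 0 := by rw [ho, mul_assoc, h, mul_zero]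
    exact (orderOf_pos g).ne' this
  obtain ⟨i, rfl⟩ := h3j
  refine ⟨Units.map (K.val : K →* Matrix (Fin n) (Fin n) F) (g ^ i), mem_normalizer_of_map K fun b hb => ?_, ?_⟩
  · exact K.mul_mem (K.mul_mem ((g ^ i : Kˣ) : K).2 hb) (((g ^ i : Kˣ)⁻¹ : Kˣ) : K).2
  · rw [← Units.val_pow_eq_pow_val, ← map_pow, ← pow_mul, mul_comm, hj]
    show algebraMap F (Matrix (Fin n) (Fin n) F) z = _
    rw [Algebra.algebraMap_eq_smul_one]

theorem elusive_of_orderOf (hn : n.Prime) (hn3 : 2 < n) (hn0 : (n : F) ≠ 0)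
    (hord : orderOf (Fintype.card F : ZMod n) = n - 1) :
    ∀ x : Matrix.SpecialLinearGroup (Fin n) F,
      (∃ z : F, ((x ^ n : Matrix.SpecialLinearGroup (Fin n) F) : Matrix (Fin n) (Fin n) F) = z • (1 : Matrix (Fin n) (Fin n) F)) →
      (∀ z : F, (x : Matrix (Fin n) (Fin n) F) ≠ z • (1 : Matrix (Fin n) (Fin n) F)) →
      ∃ P : Matrix.SpecialLinearGroup (Fin n) F, P⁻¹ * x * P ∈ ((Cfsg.Geo.subalgebraNormalizer K).comap (Matrix.SpecialLinearGroup.toGL : Matrix.SpecialLinearGroup (Fin n) F →* GL (Fin n) F)) := by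
  classical
  haveI := Fact.mk hn
  have e : ∀ (A : Matrix (Fin n) (Fin n) F) (k : ℕ), Matrix.toLin' (A ^ k) = Matrix.toLin' A ^ k :=
    fun A k => map_pow Matrix.toLinAlgEquiv' A k
  intro x ⟨z, hz⟩ hns
  have h1 : ¬ n ∣ Fintype.card F - 1 := by
    intro h
    rw [← ZMod.natCast_eq_zero_iff, Nat.cast_sub Fintype.card_pos, sub_eq_zero, Nat.cast_one] at h
    rw [h, orderOf_one] at hord
    omega
  have hz0 : z ≠ 0 := by
    rintro rfl
    have := (x ^ n).2
    haveI hne : Nonempty (Fin n) := ⟨⟨0, hn.pos⟩⟩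
    rw [hz, zero_smul, Matrix.det_zero] at this
    exact zero_ne_one this
  have hcop : (Nat.card Fˣ).Coprime n := by
    rw [Nat.card_units, Nat.card_eq_fintype_card, Nat.coprime_comm, hn.coprime_iff_not_dvd]
    exact h1
  obtain ⟨w, hw⟩ := (powCoprime hcop).surjective (Units.mk0 z hz0)
  have hw' : (w : F) ^ n = z := congrArg Units.val hw
  let T : (Fin n → F) →ₗ[F] Fin n → F := ((w⁻¹ : Fˣ) : F) • Matrix.toLin' (x : Matrix (Fin n) (Fin n) F)
  have hT : T ^ n = 1 := by
    have hxz : (x : Matrix (Fin n) (Fin n) F) ^ n = z • 1 := hz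
    show (((w⁻¹ : Fˣ) : F) • Matrix.toLin' (x : Matrix (Fin n) (Fin n) F)) ^ n = 1
    rw [smul_pow, ← e, hxz, map_smul, Matrix.toLin'_one, smul_smul, ← hw', ← mul_pow, ← Units.val_mul,
      inv_mul_cancel, Units.val_one, one_pow, one_smul]
    rfl
  have hxT : Matrix.toLin' (x : Matrix (Fin n) (Fin n) F) = (w : F) • T := by
    show _ = (w : F) • ((w⁻¹ : Fˣ) : F) • _
    rw [smul_smul, ← Units.val_mul, mul_inv_cancel, Units.val_one, one_smul]
  have hT1 : T ≠ 1 := fun h => hns (w : F) (Matrix.toLin'.injective (by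
    rw [hxT, h, map_smul, Matrix.toLin'_one]; rfl))
  obtain ⟨⟨y, hyN, hyn, hy1, -⟩, hdet⟩ := exists_frob K hK hn
  obtain ⟨b, hb⟩ := exists_cyclic_basis hn (by omega) hn0 hord T hT hT1
  obtain ⟨c, hc⟩ := exists_cyclic_basis hn (by omega) hn0 hord
    (Matrix.toLin' (y : Matrix (Fin n) (Fin n) F)) (by rw [← e, hyn, Matrix.toLin'_one]; rfl)
    (fun h => hy1 (Units.ext (Matrix.toLin'.injective (by rw [Units.val_one, Matrix.toLin'_one]; exact h))))
  -- `L` intertwines `y` with `T`
  let L : (Fin n → F) ≃ₗ[F] (Fin n → F) := c.equiv b (Equiv.refl _)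
  let Q : GL (Fin n) F :=
    Matrix.GeneralLinearGroup.toLin.symm ((LinearMap.GeneralLinearGroup.generalLinearEquiv F _).symm L)
  have hQ : ∀ v, (Q : Matrix (Fin n) (Fin n) F) *ᵥ v = L v := fun v => by
    show LinearMap.toMatrix' (L : (Fin n → F) →ₗ[F] Fin n → F) *ᵥ v = _
    exact LinearMap.toMatrix'_mulVec _ _
  have hLT : T ∘ₗ L.toLinearMap = L.toLinearMap ∘ₗ Matrix.toLin' (y : Matrix (Fin n) (Fin n) F) := by
    refine c.ext fun j => ?_
    simp only [LinearMap.comp_apply, LinearEquiv.coe_coe, hc, L, Module.Basis.equiv_apply,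
      Equiv.refl_apply, hb]
  have hxQ : (x : Matrix (Fin n) (Fin n) F) * (Q : Matrix (Fin n) (Fin n) F) =
      (w : F) • ((Q : Matrix (Fin n) (Fin n) F) * (y : Matrix (Fin n) (Fin n) F)) := by
    refine Matrix.ext_iff_mulVec.mpr fun v => ?_
    rw [smul_mulVec, ← mulVec_mulVec, ← mulVec_mulVec, hQ, hQ, ← Matrix.toLin'_apply, hxT,
      LinearMap.smul_apply]
    congr 1
    exact LinearMap.congr_fun hLT v
  obtain ⟨k, hkN, hkdet⟩ := hdet ((Q : Matrix (Fin n) (Fin n) F).det)⁻¹
    (inv_ne_zero (Matrix.GeneralLinearGroup.det Q).ne_zero)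
  let P : Matrix.SpecialLinearGroup (Fin n) F := ⟨((Q * k : GL (Fin n) F) : Matrix (Fin n) (Fin n) F), by
    rw [Units.val_mul, Matrix.det_mul, hkdet]
    exact mul_inv_cancel₀ (Matrix.GeneralLinearGroup.det Q).ne_zero⟩
  refine ⟨P, ?_⟩
  let sc : GL (Fin n) F := Units.map (Matrix.scalar (Fin n) : F →+* Matrix (Fin n) (Fin n) F).toMonoidHom w
  have hsc : (sc : Matrix (Fin n) (Fin n) F) = (w : F) • 1 := by
    simp [sc, Matrix.smul_one_eq_diagonal]
  have hscN : sc ∈ Cfsg.Geo.subalgebraNormalizer K := by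
    refine mem_normalizer_of_map K fun a ha => ?_
    have : ((sc : GL (Fin n) F) : Matrix (Fin n) (Fin n) F) * a * ((sc⁻¹ : GL (Fin n) F) : Matrix _ _ F) = a := by
      rw [hsc, Matrix.smul_mul, Matrix.one_mul]
      have h' : (w : F) • a = a * (sc : Matrix (Fin n) (Fin n) F) := by
        rw [hsc, Matrix.mul_smul, Matrix.mul_one]
      rw [h', mul_assoc, ← Units.val_mul, mul_inv_cancel, Units.val_one, mul_one]
    rwa [this]
  show Matrix.SpecialLinearGroup.toGL (P⁻¹ * x * P) ∈ Cfsg.Geo.subalgebraNormalizer K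
  have hPgl : Matrix.SpecialLinearGroup.toGL P = Q * k := Units.ext rfl
  have hxgl : Matrix.SpecialLinearGroup.toGL x * Q = sc * (Q * y) := Units.ext (by
    rw [Units.val_mul, Units.val_mul, Units.val_mul, hsc, Matrix.smul_mul, Matrix.one_mul]
    exact hxQ)
  have hcomm : sc * Q = Q * sc := Units.ext (by
    rw [Units.val_mul, Units.val_mul, hsc, Matrix.smul_mul, Matrix.one_mul, Matrix.mul_smul, Matrix.mul_one])
  have heq : Matrix.SpecialLinearGroup.toGL (P⁻¹ * x * P) = k⁻¹ * (sc * y) * k := by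
    rw [map_mul, map_mul, map_inv, hPgl, mul_assoc (Q * k)⁻¹, ← mul_assoc _ Q k, hxgl, ← mul_assoc sc, hcomm]
    group
  rw [heq]
  exact mul_mem (mul_mem (inv_mem hkN) (mul_mem hscN hyN)) hkN


theorem elusive_iff (p : ℕ) [Fact p.Prime] [CharP F p] (hn : n.Prime) (hn3 : 3 < n) (hnp : n ≠ p) :
    (∀ x : Matrix.SpecialLinearGroup (Fin n) F,
      (∃ z : F, ((x ^ n : Matrix.SpecialLinearGroup (Fin n) F) : Matrix (Fin n) (Fin n) F) = z • (1 : Matrix (Fin n) (Fin n) F)) →
      (∀ z : F, (x : Matrix (Fin n) (Fin n) F) ≠ z • (1 : Matrix (Fin n) (Fin n) F)) →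
      ∃ P : Matrix.SpecialLinearGroup (Fin n) F, P⁻¹ * x * P ∈ ((Cfsg.Geo.subalgebraNormalizer K).comap (Matrix.SpecialLinearGroup.toGL : Matrix.SpecialLinearGroup (Fin n) F →* GL (Fin n) F))) ↔
    orderOf (Fintype.card F : ZMod n) = n - 1 := by
  classical
  haveI := Fact.mk hn
  have hn0 : (n : F) ≠ 0 := fun h =>
    hnp ((Nat.prime_dvd_prime_iff_eq Fact.out hn).mp ((CharP.cast_eq_zero_iff F p n).mp h)).symm
  have hq0 : (Fintype.card F : ZMod n) ≠ 0 := by
    rw [ne_eq, ZMod.natCast_eq_zero_iff]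
    obtain ⟨k, hp, hk⟩ := FiniteField.card F p
    rw [hk]
    exact fun h => hnp ((Nat.prime_dvd_prime_iff_eq hn hp).mp (hn.dvd_of_dvd_pow h))
  set o := orderOf (Fintype.card F : ZMod n) with hodef
  have hod : o ∣ n - 1 := orderOf_dvd_of_pow_eq_one (ZMod.pow_card_sub_one_eq_one hq0)
  have hopos : 0 < o := Nat.pos_of_dvd_of_pos hod (by omega)
  have hcast : n ∣ Fintype.card F ^ o - 1 := by
    rw [← ZMod.natCast_eq_zero_iff, Nat.cast_sub (Nat.one_le_pow _ _ Fintype.card_pos)]
    push_cast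
    rw [hodef, pow_orderOf_eq_one, sub_self]
  have e : ∀ (A : Matrix (Fin n) (Fin n) F) (k : ℕ), Matrix.toLin' (A ^ k) = Matrix.toLin' A ^ k :=
    fun A k => map_pow Matrix.toLinAlgEquiv' A k
  have hdet1 : ∀ X : Matrix (Fin n) (Fin n) F, ¬ n ∣ Fintype.card F - 1 → X ^ n = 1 → X.det = 1 := by
    intro X hq hX
    by_contra h
    have hz : X.det ^ n = 1 := by rw [← Matrix.det_pow, hX, Matrix.det_one]
    have h' : X.det ≠ 0 := fun h0 => by rw [h0, zero_pow hn.ne_zero] at hz; exact zero_ne_one hz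
    exact hq (orderOf_eq_prime hz h ▸ orderOf_dvd_of_pow_eq_one (FiniteField.pow_card_sub_one_eq_one _ h'))
  constructor
  · intro hall
    by_contra hne
    have ho2 : 2 * o ≤ n - 1 := by
      obtain ⟨c, hc⟩ := hod
      rcases Nat.lt_or_ge c 2 with h | h
      · interval_cases c
        · omega
        · exact absurd (by omega : o = n - 1) hne
      · calc 2 * o = o * 2 := mul_comm _ _
          _ ≤ o * c := Nat.mul_le_mul_left _ h
          _ = n - 1 := hc.symm
    -- an element with two-dimensional fixed space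
    obtain ⟨X, hXdet, hXn, hX1, u, w, hu, hw, hli⟩ : ∃ X : Matrix (Fin n) (Fin n) F, X.det = 1 ∧
        X ^ n = 1 ∧ X ≠ 1 ∧ ∃ u w, X *ᵥ u = u ∧ X *ᵥ w = w ∧ LinearIndependent F ![u, w] := by
      by_cases h1 : n ∣ Fintype.card F - 1
      · obtain ⟨ζ, hζ⟩ := exists_prime_orderOf_dvd_card n
          (show n ∣ Fintype.card Fˣ by rwa [Fintype.card_units])
        let d : Fin n → F := fun i => if (i : ℕ) = 0 then (ζ : F) else if (i : ℕ) = 1 then ((ζ⁻¹ : Fˣ) : F) else 1
        have hd : ∀ i : Fin n, 2 ≤ (i : ℕ) → Matrix.diagonal d *ᵥ Pi.single i 1 = Pi.single i 1 := by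
          intro i hi
          ext j
          rw [Matrix.mulVec_diagonal]
          rcases eq_or_ne j i with rfl | hji
          · simp only [d]; rw [if_neg (by omega), if_neg (by omega), one_mul]
          · rw [Pi.single_eq_of_ne hji, mul_zero]
        refine ⟨Matrix.diagonal d, ?_, ?_, ?_, _, _, hd ⟨2, by omega⟩ le_rfl, hd ⟨3, by omega⟩ (by simp), ?_⟩
        · rw [Matrix.det_diagonal, ← Finset.prod_subset (s₁ := ({⟨0, by omega⟩, ⟨1, by omega⟩} : Finset (Fin n))) (Finset.subset_univ _)]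
          · rw [Finset.prod_pair (by simp)]
            have d0 : d ⟨0, by omega⟩ = (ζ : F) := if_pos rfl
            have d1 : d ⟨1, by omega⟩ = ((ζ⁻¹ : Fˣ) : F) := (if_neg one_ne_zero).trans (if_pos rfl)
            rw [d0, d1, ← Units.val_mul, mul_inv_cancel, Units.val_one]
          · intro i _ hi
            rw [Finset.mem_insert, Finset.mem_singleton, not_or, ← ne_eq, ← ne_eq, ← Fin.val_ne_iff,
              ← Fin.val_ne_iff] at hi
            exact (if_neg hi.1).trans (if_neg hi.2)
        · rw [Matrix.diagonal_pow, ← Matrix.diagonal_one]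
          congr 1
          funext i
          have hz : (ζ : F) ^ n = 1 := by rw [← Units.val_pow_eq_pow_val, ← hζ, pow_orderOf_eq_one, Units.val_one]
          simp only [Pi.pow_apply, d]
          split_ifs
          · exact hz
          · rw [← Units.val_pow_eq_pow_val, inv_pow, ← hζ, pow_orderOf_eq_one, inv_one, Units.val_one]
          · exact one_pow _
        · intro h
          have := congrFun (congrFun h ⟨0, by omega⟩) ⟨0, by omega⟩
          simp [d] at this
          rw [this, orderOf_one] at hζ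
          exact hn.ne_one hζ.symm
        · rw [LinearIndependent.pair_iff]
          intro s t hst
          have a := congrFun hst ⟨2, by omega⟩
          have b := congrFun hst ⟨3, by omega⟩
          simp [Fin.ext_iff] at a b
          exact ⟨a, b⟩
      · obtain ⟨X, hXn, hXd⟩ := CfsgLib.SympSim.exists_odd_range (F := F) (n := n) o hopos (by omega) p n hn hcast
        have hker : 2 ≤ Module.finrank F (LinearMap.ker (Matrix.toLin' X - 1)) := by
          have h := LinearMap.finrank_range_add_finrank_ker (Matrix.toLin' X - 1)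
          rw [hXd, Module.finrank_fintype_fun_eq_card, Fintype.card_fin] at h
          omega
        let b := Module.finBasis F (LinearMap.ker (Matrix.toLin' X - 1))
        have hfix : ∀ i, X *ᵥ (b i : Fin n → F) = b i := fun i => by
          have h := LinearMap.mem_ker.mp (b i).2
          rwa [LinearMap.sub_apply, Module.End.one_apply, sub_eq_zero, Matrix.toLin'_apply] at h
        refine ⟨X, hdet1 X h1 hXn, hXn, ?_, _, _, hfix ⟨0, by omega⟩, hfix ⟨1, by omega⟩, ?_⟩
        · intro h
          rw [h, Matrix.toLin'_one, show (LinearMap.id : (Fin n → F) →ₗ[F] Fin n → F) = 1 from rfl, sub_self,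
            LinearMap.range_zero, finrank_bot] at hXd
          omega
        · have h := (b.linearIndependent.comp ![⟨0, by omega⟩, ⟨1, by omega⟩] (by
            intro i j hij; fin_cases i <;> fin_cases j <;> simp_all)).map' (Submodule.subtype _) (Submodule.ker_subtype _)
          have e2 : ((Submodule.subtype _) ∘ ⇑b ∘ ![(⟨0, by omega⟩ : Fin _), ⟨1, by omega⟩] : Fin 2 → Fin n → F) =
              ![(b ⟨0, by omega⟩ : Fin n → F), (b ⟨1, by omega⟩ : Fin n → F)] := by
            funext i; fin_cases i <;> rfl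
          exact e2 ▸ h
    obtain ⟨P, hP⟩ := hall ⟨X, hXdet⟩ ⟨1, by rw [one_smul]; exact hXn⟩ (fun z hz => by
      have hzu : z • u = u := by
        conv_rhs => rw [← hu]
        rw [show X = z • (1 : Matrix (Fin n) (Fin n) F) from hz, smul_mulVec, one_mulVec]
      have hu0 : u ≠ 0 := by simpa using hli.ne_zero 0
      have hz1 : z = 1 := by
        by_contra hne'
        exact hu0 ((smul_eq_zero.mp (show (z - 1) • u = 0 by rw [sub_smul, one_smul, hzu, sub_self])).resolve_left
          (sub_ne_zero.mpr hne'))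
      exact hX1 (by rw [show X = z • (1 : Matrix (Fin n) (Fin n) F) from hz, hz1, one_smul]))
    set y : GL (Fin n) F := Matrix.SpecialLinearGroup.toGL (P⁻¹ * ⟨X, hXdet⟩ * P) with hy
    let Q : Matrix (Fin n) (Fin n) F := ((P⁻¹ : Matrix.SpecialLinearGroup (Fin n) F) : Matrix (Fin n) (Fin n) F)
    have hQP : (P : Matrix (Fin n) (Fin n) F) * Q = 1 := congrArg Subtype.val (mul_inv_cancel P)
    have hval : (y : Matrix (Fin n) (Fin n) F) = Q * X * (P : Matrix (Fin n) (Fin n) F) := rfl
    have hyv : ∀ v, X *ᵥ v = v → (y : Matrix (Fin n) (Fin n) F) *ᵥ (Q *ᵥ v) = Q *ᵥ v := fun v hv => by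
      rw [hval, mulVec_mulVec, mul_assoc, hQP, mul_one, ← mulVec_mulVec, hv]
    refine not_two_fixed K hK hn y hP ?_ _ _ (hyv u hu) (hyv w hw) ?_
    · intro h
      apply hX1
      have h1 : Q * X * (P : Matrix (Fin n) (Fin n) F) = 1 := by rw [← hval, h]; rfl
      calc X = (P : Matrix (Fin n) (Fin n) F) * Q * X * ((P : Matrix (Fin n) (Fin n) F) * Q) := by
            rw [hQP, one_mul, mul_one]
        _ = (P : Matrix (Fin n) (Fin n) F) * (Q * X * (P : Matrix (Fin n) (Fin n) F)) * Q := by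
            simp only [mul_assoc]
        _ = 1 := by rw [h1, mul_one, hQP]
    · rw [LinearIndependent.pair_iff] at hli ⊢
      intro s t hst
      apply hli
      have := congrArg (fun v => (P : Matrix (Fin n) (Fin n) F) *ᵥ v) hst
      simpa [mulVec_add, mulVec_smul, mulVec_mulVec, hQP] using this
  · exact fun hord => elusive_of_orderOf K hK hn (by omega) hn0 hord

end CfsgLib.FieldPrime
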