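import Cfsg.Agent.Lib.ClassicalFieldExtPrime
import Cfsg.Agent.Lib.ClassicalCardLinear
import Mathlib.LinearAlgebra.Matrix.SchurComplement

/-!
Elements of order three of `L_3(q)` and the normaliser of a field subalgebra of degree three.
-/

set_option autoImplicit false

namespace CfsgLib.FieldThree

attribute [local instance] _root_.Classical.propDecidable

open Matrix CfsgLib.FieldPrime

variable {F : Type*} [Field F] [Fintype F]

local notation "M3" => Matrix (Fin 3) (Fin 3) F
local notation "V3" => Fin 3 → F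

variable (K : Subalgebra F (Matrix (Fin 3) (Fin 3) F)) (hK : Cfsg.Geo.IsFieldSubalgebra 3 K)

omit [Fintype F] in
lemma scalar_mul_val (c : Fˣ) (y : GL (Fin 3) F) :
    ((Units.map (Matrix.scalar (Fin 3) : F →+* M3).toMonoidHom c * y : GL (Fin 3) F) : M3) =
      (c : F) • (y : M3) := by
  rw [Units.val_mul, ← Matrix.one_mul (y : M3), ← Matrix.smul_mul, Matrix.one_mul]
  simp [Matrix.smul_one_eq_diagonal]

lemma scalar_mem (c : Fˣ) :
    (Units.map (Matrix.scalar (Fin 3) : F →+* M3).toMonoidHom c : GL (Fin 3) F) ∈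
      Cfsg.Geo.subalgebraNormalizer K := by
  refine mem_normalizer_of_map K fun a ha => ?_
  have h : ((Units.map (Matrix.scalar (Fin 3) : F →+* M3).toMonoidHom c : GL (Fin 3) F) : M3) * a =
      a * ((Units.map (Matrix.scalar (Fin 3) : F →+* M3).toMonoidHom c : GL (Fin 3) F) : M3) :=
    (Matrix.scalar_commute (c : F) (fun r => mul_comm _ _) a).eq
  rw [h, mul_assoc, ← Units.val_mul, mul_inv_cancel, Units.val_one, mul_one]
  exact ha

include hK

/-- conjugacy into the normaliser from an intertwining map -/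
theorem conj_of_intertwine (x : Matrix.SpecialLinearGroup (Fin 3) F) (y : GL (Fin 3) F)
    (hy : y ∈ Cfsg.Geo.subalgebraNormalizer K) (L : V3 ≃ₗ[F] V3)
    (hL : ∀ v, (x : M3) *ᵥ (L v) = L ((y : M3) *ᵥ v)) :
    ∃ P : Matrix.SpecialLinearGroup (Fin 3) F,
      Matrix.SpecialLinearGroup.toGL (P⁻¹ * x * P) ∈ Cfsg.Geo.subalgebraNormalizer K := by
  obtain ⟨-, hdet⟩ := exists_frob K hK Nat.prime_three
  let Q : GL (Fin 3) F :=
    Matrix.GeneralLinearGroup.toLin.symm ((LinearMap.GeneralLinearGroup.generalLinearEquiv F _).symm L)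
  have hQ : ∀ v, (Q : M3) *ᵥ v = L v := fun v => by
    show LinearMap.toMatrix' (L : V3 →ₗ[F] V3) *ᵥ v = _
    exact LinearMap.toMatrix'_mulVec _ _
  obtain ⟨k, hkN, hkdet⟩ := hdet ((Q : M3).det)⁻¹
    (inv_ne_zero (Matrix.GeneralLinearGroup.det Q).ne_zero)
  let P : Matrix.SpecialLinearGroup (Fin 3) F := ⟨((Q * k : GL (Fin 3) F) : M3), by
    rw [Units.val_mul, Matrix.det_mul, hkdet]
    exact mul_inv_cancel₀ (Matrix.GeneralLinearGroup.det Q).ne_zero⟩
  refine ⟨P, ?_⟩
  have hxQ : Matrix.SpecialLinearGroup.toGL x * Q = Q * y := Units.ext (Matrix.ext_iff_mulVec.mpr fun v => by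
    rw [Units.val_mul, Units.val_mul, ← mulVec_mulVec, ← mulVec_mulVec, hQ, hQ]
    exact hL v)
  have hPgl : Matrix.SpecialLinearGroup.toGL P = Q * k := Units.ext rfl
  have heq : Matrix.SpecialLinearGroup.toGL (P⁻¹ * x * P) = k⁻¹ * y * k := by
    rw [map_mul, map_mul, map_inv, hPgl, mul_assoc (Q * k)⁻¹, ← mul_assoc _ Q k, hxQ]
    group
  rw [heq]
  exact mul_mem (mul_mem (inv_mem hkN) hy) hkN

omit hK

omit [Fintype F] in
/-- a map of the 3-space whose cube is a non-cube scalar permutes a basis -/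
theorem exists_basis_noncube (A : M3) (z : F) (hz : A ^ 3 = z • 1) (hnc : ∀ w : F, w ^ 3 ≠ z)
    {v : V3} (hv : v ≠ 0) : LinearIndependent F ![v, A *ᵥ v, A *ᵥ (A *ᵥ v)] := by
  have hA3 : ∀ w, A *ᵥ (A *ᵥ (A *ᵥ w)) = z • w := fun w => by
    rw [mulVec_mulVec, mulVec_mulVec, ← pow_two, ← pow_succ, hz, smul_mulVec, one_mulVec]
  have h1 : ∀ (w : V3) (l : F), w ≠ 0 → A *ᵥ w ≠ l • w := by
    intro w l hw h
    have := hA3 w
    rw [h, mulVec_smul, h, mulVec_smul, mulVec_smul, h, smul_smul, smul_smul] at this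
    exact hnc l (by
      have h' := smul_left_injective F hw this
      linear_combination h')
  rw [Fintype.linearIndependent_iff]
  intro g hg
  simp only [Fin.sum_univ_three, Matrix.cons_val_zero, Matrix.cons_val_one, Matrix.cons_val_two,
    Matrix.head_cons, Matrix.tail_cons] at hg
  have hg' : g 0 • v + g 1 • (A *ᵥ v) + g 2 • (A *ᵥ (A *ᵥ v)) = 0 := hg
  have h20 : g 2 = 0 := by
    by_contra h2
    -- then `A²v = a v + b (Av)`, and the invariant plane yields a cube root of `z`
    set a := -(g 0) / g 2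
    set b := -(g 1) / g 2
    have hA2 : A *ᵥ (A *ᵥ v) = a • v + b • (A *ᵥ v) := by
      funext i
      have hi := congrFun hg' i
      simp only [Pi.add_apply, Pi.smul_apply, smul_eq_mul, Pi.zero_apply] at hi
      simp only [Pi.add_apply, Pi.smul_apply, smul_eq_mul, a, b]
      field_simp
      linear_combination hi
    have h3 := hA3 v
    rw [hA2, mulVec_add, mulVec_smul, mulVec_smul, hA2] at h3
    have h4 : (a * b - z) • v + (a + b * b) • (A *ᵥ v) = 0 := by
      rw [sub_smul, ← h3]; module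
    have hco : a + b * b = 0 := by
      by_contra h
      refine h1 v (-(a * b - z) / (a + b * b)) hv ?_
      funext i
      have hi := congrFun h4 i
      simp only [Pi.add_apply, Pi.smul_apply, smul_eq_mul, Pi.zero_apply] at hi
      simp only [Pi.smul_apply, smul_eq_mul]
      rw [div_mul_eq_mul_div, eq_div_iff h]
      linear_combination hi
    rw [hco, zero_smul, add_zero, smul_eq_zero] at h4
    exact hnc (-b) (by linear_combination (h4.resolve_right hv) - b * hco)
    
  rw [h20, zero_smul, add_zero] at hg'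
  have h10 : g 1 = 0 := by
    by_contra h
    refine h1 v (-(g 0) / g 1) hv ?_
    funext i
    have hi := congrFun hg' i
    simp only [Pi.add_apply, Pi.smul_apply, smul_eq_mul, Pi.zero_apply] at hi
    simp only [Pi.smul_apply, smul_eq_mul]
    field_simp
    linear_combination hi
  rw [h10, zero_smul, add_zero, smul_eq_zero] at hg'
  intro i
  fin_cases i
  · exact hg'.resolve_right hv
  · exact h10
  · exact h20

omit [Fintype F] in
theorem intertwine_noncube (A B : M3) (z : F) (hA : A ^ 3 = z • 1) (hB : B ^ 3 = z • 1)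
    (hnc : ∀ w : F, w ^ 3 ≠ z) :
    ∃ L : V3 ≃ₗ[F] V3, ∀ v, A *ᵥ (L v) = L (B *ᵥ v) := by
  let e : V3 := Pi.single 0 1
  have he : e ≠ 0 := fun h => one_ne_zero (α := F) (by simpa [e] using congrFun h 0)
  have hb : ∀ C : M3, C ^ 3 = z • 1 → ∃ b : Module.Basis (Fin 3) F V3,
      C *ᵥ b 0 = b 1 ∧ C *ᵥ b 1 = b 2 ∧ C *ᵥ b 2 = z • b 0 := by
    intro C hC
    have hli := exists_basis_noncube C z hC hnc he
    refine ⟨basisOfLinearIndependentOfCardEqFinrank hli (by simp), ?_, ?_, ?_⟩ <;>
      rw [coe_basisOfLinearIndependentOfCardEqFinrank]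
    · rfl
    · rfl
    · show C *ᵥ (C *ᵥ (C *ᵥ e)) = z • e
      rw [mulVec_mulVec, mulVec_mulVec, ← pow_two, ← pow_succ, hC, smul_mulVec, one_mulVec]
  obtain ⟨a, a0, a1, a2⟩ := hb A hA
  obtain ⟨b, b0, b1, b2⟩ := hb B hB
  refine ⟨b.equiv a (Equiv.refl _), fun v => ?_⟩
  have h : (Matrix.toLin' A) ∘ₗ (b.equiv a (Equiv.refl _)).toLinearMap =
      (b.equiv a (Equiv.refl _)).toLinearMap ∘ₗ Matrix.toLin' B := by
    refine b.ext fun j => ?_
    simp only [LinearMap.comp_apply, LinearEquiv.coe_coe, Matrix.toLin'_apply, Module.Basis.equiv_apply,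
      Equiv.refl_apply]
    fin_cases j
    · show A *ᵥ a 0 = (b.equiv a (Equiv.refl _)) (B *ᵥ b 0)
      rw [b0, a0, Module.Basis.equiv_apply]; rfl
    · show A *ᵥ a 1 = (b.equiv a (Equiv.refl _)) (B *ᵥ b 1)
      rw [b1, a1, Module.Basis.equiv_apply]; rfl
    · show A *ᵥ a 2 = (b.equiv a (Equiv.refl _)) (B *ᵥ b 2)
      rw [b2, a2, map_smul, Module.Basis.equiv_apply]; rfl
  exact LinearMap.congr_fun h v

omit [Fintype F] in
/-- semisimple maps with cube one and eigenspaces of dimension at most one are similar -/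
theorem intertwine_split (A B : M3) (ζ : F) (hζ : ζ ^ 2 + ζ + 1 = 0) (h3 : (3 : F) ≠ 0)
    (hA : A ^ 3 = 1) (hB : B ^ 3 = 1)
    (hA' : ∀ (l : F), l ^ 3 = 1 → ∀ u w : V3, A *ᵥ u = l • u → A *ᵥ w = l • w → ¬ LinearIndependent F ![u, w])
    (hB' : ∀ (l : F), l ^ 3 = 1 → ∀ u w : V3, B *ᵥ u = l • u → B *ᵥ w = l • w → ¬ LinearIndependent F ![u, w]) :
    ∃ L : V3 ≃ₗ[F] V3, ∀ v, A *ᵥ (L v) = L (B *ᵥ v) := by
  have hζ3 : ζ ^ 3 = 1 := by linear_combination (ζ - 1) * hζ
  let μ : Fin 3 → F := ![1, ζ, ζ ^ 2]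
  have hμ3 : ∀ k, μ k ^ 3 = 1 := by
    intro k; fin_cases k
    · exact one_pow 3
    · exact hζ3
    · show (ζ ^ 2) ^ 3 = 1; linear_combination (ζ ^ 3 + 1) * hζ3
  have hμinj : Function.Injective μ := by
    have e1 : ζ ≠ 1 := fun h => h3 (by rw [h] at hζ; linear_combination hζ)
    have e2 : ζ ^ 2 ≠ 1 := fun h => e1 (by linear_combination hζ3 - ζ * h)
    have hζ0 : ζ ≠ 0 := fun h => by rw [h] at hζ; simp at hζ
    have e3 : ζ ^ 2 ≠ ζ := fun h => e1 (mul_left_cancel₀ hζ0 (by rw [← pow_two, h, mul_one]))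
    intro i j h
    fin_cases i <;> fin_cases j <;> first | rfl | (simp [μ, e1, e2, e3, e1.symm, e2.symm, e3.symm] at h)
  have hb : ∀ C : M3, C ^ 3 = 1 →
      (∀ (l : F), l ^ 3 = 1 → ∀ u w : V3, C *ᵥ u = l • u → C *ᵥ w = l • w → ¬ LinearIndependent F ![u, w]) →
      ∃ b : Module.Basis (Fin 3) F V3, ∀ k, C *ᵥ b k = μ k • b k := by
    intro C hC hC'
    let T := Matrix.toLin' C
    let E : Fin 3 → Submodule F V3 := fun k => Module.End.eigenspace T (μ k)
    have hC3 : ∀ w, C *ᵥ (C *ᵥ (C *ᵥ w)) = w := fun w => by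
      rw [mulVec_mulVec, mulVec_mulVec, ← pow_two, ← pow_succ, hC, one_mulVec]
    let P : Fin 3 → V3 → V3 := fun k v =>
      (3 : F)⁻¹ • (v + (μ k) ^ 2 • (C *ᵥ v) + (μ k) • (C *ᵥ (C *ᵥ v)))
    have hP : ∀ k v, P k v ∈ E k := by
      intro k v
      rw [Module.End.mem_eigenspace_iff, Matrix.toLin'_apply]
      simp only [P, mulVec_smul, mulVec_add, hC3]
      funext i
      simp only [Pi.smul_apply, Pi.add_apply, smul_eq_mul]
      linear_combination -(3 : F)⁻¹ * (C *ᵥ v) i * hμ3 k
    have hsum : ∀ v, P 0 v + P 1 v + P 2 v = v := by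
      intro v
      funext i
      simp only [P, μ, Pi.add_apply, Pi.smul_apply, smul_eq_mul, Matrix.cons_val_zero, Matrix.cons_val_one,
        Matrix.cons_val_two, Matrix.head_cons, Matrix.tail_cons]
      field_simp
      linear_combination ((C *ᵥ v) i * (ζ * ζ - ζ + 1) + (C *ᵥ (C *ᵥ v)) i) * hζ
    have hle : ∀ k, Module.finrank F (E k) ≤ 1 := by
      intro k
      by_contra h
      push Not at h
      let b := Module.finBasis F (E k)
      have hm : ∀ i, C *ᵥ (b i : V3) = μ k • (b i : V3) := fun i => by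
        have := Module.End.mem_eigenspace_iff.mp (b i).2
        rwa [Matrix.toLin'_apply] at this
      refine hC' (μ k) (hμ3 k) _ _ (hm ⟨0, by omega⟩) (hm ⟨1, by omega⟩) ?_
      have h' := (b.linearIndependent.comp ![⟨0, by omega⟩, ⟨1, by omega⟩] (by
        intro i j hij; fin_cases i <;> fin_cases j <;> simp_all)).map' (Submodule.subtype _) (Submodule.ker_subtype _)
      have e2 : ((Submodule.subtype _) ∘ ⇑b ∘ ![(⟨0, by omega⟩ : Fin _), ⟨1, by omega⟩] : Fin 2 → V3) =
          ![(b ⟨0, by omega⟩ : V3), (b ⟨1, by omega⟩ : V3)] := by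
        funext i; fin_cases i <;> rfl
      exact e2 ▸ h'
    have htop : E 0 ⊔ E 1 ⊔ E 2 = ⊤ := eq_top_iff.mpr fun v _ => hsum v ▸
      Submodule.add_mem_sup (Submodule.add_mem_sup (hP 0 v) (hP 1 v)) (hP 2 v)
    have hne : ∀ k, E k ≠ ⊥ := by
      intro k hk
      have h := Submodule.finrank_add_le_finrank_add_finrank (E 0 ⊔ E 1) (E 2)
      have h' := Submodule.finrank_add_le_finrank_add_finrank (E 0) (E 1)
      rw [htop, finrank_top, Module.finrank_fintype_fun_eq_card, Fintype.card_fin] at h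
      have hk0 : Module.finrank F (E k) = 0 := by rw [hk]; exact finrank_bot F V3
      have := hle 0; have := hle 1; have := hle 2
      revert hk0
      fin_cases k <;> intro hk0 <;> simp only [Fin.zero_eta, Fin.mk_one, Fin.reduceFinMk] at hk0 <;> omega
    have hex : ∀ k, ∃ u ∈ E k, u ≠ 0 := fun k => Submodule.exists_mem_ne_zero_of_ne_bot (hne k)
    choose u hu hu0 using hex
    have hli : LinearIndependent F u :=
      Module.End.eigenvectors_linearIndependent' T μ hμinj u fun k => ⟨hu k, hu0 k⟩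
    refine ⟨basisOfLinearIndependentOfCardEqFinrank hli (by simp), fun k => ?_⟩
    rw [coe_basisOfLinearIndependentOfCardEqFinrank]
    have := Module.End.mem_eigenspace_iff.mp (hu k)
    rwa [Matrix.toLin'_apply] at this
  obtain ⟨a, ha⟩ := hb A hA hA'
  obtain ⟨b, hb'⟩ := hb B hB hB'
  refine ⟨b.equiv a (Equiv.refl _), fun v => ?_⟩
  have h : (Matrix.toLin' A) ∘ₗ (b.equiv a (Equiv.refl _)).toLinearMap =
      (b.equiv a (Equiv.refl _)).toLinearMap ∘ₗ Matrix.toLin' B := by
    refine b.ext fun j => ?_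
    simp only [LinearMap.comp_apply, LinearEquiv.coe_coe, Matrix.toLin'_apply, Module.Basis.equiv_apply,
      Equiv.refl_apply, hb', ha, map_smul]
  exact LinearMap.congr_fun h v

omit [Fintype F] in
/-- a determinant-one map of cube one has no eigenspace of dimension two -/
theorem no_two_eigen (A : M3) (hA : A ^ 3 = 1) (hdet : A.det = 1) (h3 : (3 : F) ≠ 0) (hns : ∀ z : F, A ≠ z • 1)
    (l : F) (hl : l ^ 3 = 1) (u w : V3) (hu : A *ᵥ u = l • u) (hw : A *ᵥ w = l • w) :
    ¬ LinearIndependent F ![u, w] := by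
  intro hli
  let B : M3 := (l ^ 2) • A
  have hB1 : B ^ 3 = 1 := by
    rw [smul_pow, hA, show (l ^ 2) ^ 3 = 1 by linear_combination (l ^ 3 + 1) * hl, one_smul]
  have hBdet : B.det = 1 := by
    rw [Matrix.det_smul, Fintype.card_fin, hdet, mul_one]
    linear_combination (l ^ 3 + 1) * hl
  have hfixv : ∀ x, A *ᵥ x = l • x → B *ᵥ x = x := fun x hx => by
    rw [smul_mulVec, hx, smul_smul, show l ^ 2 * l = 1 by linear_combination hl, one_smul]
  -- `B - 1` has rank at most one
  let T : V3 →ₗ[F] V3 := Matrix.toLin' (B - 1)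
  have hr : Module.finrank F (LinearMap.range T) ≤ 1 := by
    have h := LinearMap.finrank_range_add_finrank_ker T
    have hk : 2 ≤ Module.finrank F (LinearMap.ker T) := by
      have hsub : Submodule.span F (Set.range ![u, w]) ≤ LinearMap.ker T := by
        rw [Submodule.span_le]
        rintro _ ⟨i, rfl⟩
        rw [SetLike.mem_coe, LinearMap.mem_ker, Matrix.toLin'_apply, sub_mulVec, one_mulVec, sub_eq_zero]
        fin_cases i
        · exact hfixv u hu
        · exact hfixv w hw
      have := Submodule.finrank_mono hsub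
      rw [finrank_span_eq_card hli, Fintype.card_fin] at this
      exact this
    rw [Module.finrank_fintype_fun_eq_card, Fintype.card_fin] at h
    omega
  obtain ⟨c, hc⟩ := (finrank_le_one_iff (K := F)).mp hr
  set e : V3 := (c : V3) with he
  have hcoef : ∀ j, ∃ a : F, (B - 1) *ᵥ Pi.single j 1 = a • e := fun j => by
    obtain ⟨a, ha⟩ := hc ⟨_, ⟨Pi.single j 1, rfl⟩⟩
    exact ⟨a, ((congrArg Subtype.val ha).trans (Matrix.toLin'_apply _ _)).symm⟩
  choose f hf using hcoef
  have hBeq : B = 1 + Matrix.replicateCol (Fin 1) e * Matrix.replicateRow (Fin 1) f := by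
    rw [← sub_eq_iff_eq_add']
    ext i j
    have := congrFun (hf j) i
    rw [Matrix.mulVec_single_one] at this
    simpa [Matrix.mul_apply, Matrix.replicateCol, Matrix.replicateRow, mul_comm] using this
  have hdot : f ⬝ᵥ e = 0 := by
    have h := hBdet
    rw [hBeq] at h
    replace h := (Matrix.det_one_add_replicateCol_mul_replicateRow (ι := Fin 1) e f).symm.trans h
    linear_combination h
  have hN : (B - 1) * (B - 1) = 0 := by
    rw [hBeq, add_sub_cancel_left]
    ext i j
    simp only [Matrix.mul_apply, Matrix.replicateCol, Matrix.replicateRow, Fin.sum_univ_one, Matrix.of_apply,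
      Matrix.zero_apply]
    rw [dotProduct] at hdot
    calc _ = e i * f j * ∑ k, f k * e k := by
          rw [Finset.mul_sum]; exact Finset.sum_congr rfl fun k _ => by ring
      _ = 0 := by rw [hdot, mul_zero]
  have hB' : B = 1 := by
    have h := hB1
    rw [show B = 1 + (B - 1) by abel, pow_succ, pow_two] at h
    have e3 : (1 + (B - 1)) * (1 + (B - 1)) * (1 + (B - 1)) = 1 + (3 : F) • (B - 1) := by
      rw [show (3 : F) = 1 + 1 + 1 by norm_num, add_smul, add_smul, one_smul]
      simp only [add_mul, mul_add, one_mul, mul_one, hN, zero_mul, add_zero, zero_add]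
      abel
    rw [e3, add_eq_left, smul_eq_zero] at h
    exact sub_eq_zero.mp (h.resolve_left h3)
  refine hns l ?_
  rw [← hB', smul_smul, show l * l ^ 2 = 1 by linear_combination hl, one_smul]

include hK

theorem elusive_three_iff (p : ℕ) [Fact p.Prime] [CharP F p]
    (hΩ : 3 ∣ ((Cfsg.Geo.subalgebraNormalizer K).comap
      (Matrix.SpecialLinearGroup.toGL : Matrix.SpecialLinearGroup (Fin 3) F →* GL (Fin 3) F)).index) :
    (∀ x : Matrix.SpecialLinearGroup (Fin 3) F,
      (∃ z : F, ((x ^ 3 : Matrix.SpecialLinearGroup (Fin 3) F) : M3) = z • (1 : M3)) →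
      (∀ z : F, (x : M3) ≠ z • (1 : M3)) →
      ∃ P : Matrix.SpecialLinearGroup (Fin 3) F, P⁻¹ * x * P ∈ ((Cfsg.Geo.subalgebraNormalizer K).comap
        (Matrix.SpecialLinearGroup.toGL : Matrix.SpecialLinearGroup (Fin 3) F →* GL (Fin 3) F))) ↔
    (Fintype.card F % 9 = 4 ∨ Fintype.card F % 9 = 7 ∨ Fintype.card F % 9 = 8) := by
  classical
  haveI : Fact (Nat.Prime 3) := ⟨Nat.prime_three⟩
  obtain ⟨⟨y, hyN, hy3, hy1, hyns⟩, hdet⟩ := exists_frob K hK Nat.prime_three
  set q := Fintype.card F with hq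
  obtain ⟨e, hpp, hqe⟩ := FiniteField.card F p
  -- an element with an eigenspace of dimension two is not conjugate into the normaliser
  have hbad : ∀ (X : M3) (hX : X.det = 1) (c : Fˣ), X ^ 3 = ((c : F) ^ 3) • 1 → (∀ z : F, X ≠ z • 1) →
      (∃ u w, X *ᵥ u = (c : F) • u ∧ X *ᵥ w = (c : F) • w ∧ LinearIndependent F ![u, w]) →
      ∀ P : Matrix.SpecialLinearGroup (Fin 3) F,
        Matrix.SpecialLinearGroup.toGL (P⁻¹ * ⟨X, hX⟩ * P) ∉ Cfsg.Geo.subalgebraNormalizer K := by
    intro X hX c hX3 hns ⟨u, w, hu, hw, hli⟩ P hP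
    let Q : M3 := ((P⁻¹ : Matrix.SpecialLinearGroup (Fin 3) F) : M3)
    have hQP : (P : M3) * Q = 1 := congrArg Subtype.val (mul_inv_cancel P)
    set y₀ : GL (Fin 3) F := Units.map (Matrix.scalar (Fin 3) : F →+* M3).toMonoidHom c⁻¹ *
      Matrix.SpecialLinearGroup.toGL (P⁻¹ * ⟨X, hX⟩ * P) with hy₀
    have hval : (y₀ : M3) = ((c⁻¹ : Fˣ) : F) • (Q * X * (P : M3)) := scalar_mul_val _ _
    refine not_two_fixed K hK Nat.prime_three y₀ (mul_mem (scalar_mem K c⁻¹) hP) ?_ (Q *ᵥ u) (Q *ᵥ w) ?_ ?_ ?_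
    · intro h
      apply hns (c : F)
      rw [h, Units.val_one] at hval
      calc X = (c : F) • ((P : M3) * (((c⁻¹ : Fˣ) : F) • (Q * X * (P : M3))) * Q) := by
            rw [Matrix.mul_smul, Matrix.smul_mul, smul_smul, ← Units.val_mul, mul_inv_cancel, Units.val_one,
              one_smul, ← mul_assoc, ← mul_assoc, hQP, one_mul, mul_assoc, hQP, mul_one]
        _ = (c : F) • 1 := by rw [← hval, mul_one, hQP]
    · rw [hval, smul_mulVec, mulVec_mulVec, mul_assoc, hQP, mul_one, ← mulVec_mulVec, hu, mulVec_smul,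
        smul_smul, ← Units.val_mul, inv_mul_cancel, Units.val_one, one_smul]
    · rw [hval, smul_mulVec, mulVec_mulVec, mul_assoc, hQP, mul_one, ← mulVec_mulVec, hw, mulVec_smul,
        smul_smul, ← Units.val_mul, inv_mul_cancel, Units.val_one, one_smul]
    · rw [LinearIndependent.pair_iff] at hli ⊢
      intro s t hst
      apply hli
      have := congrArg (fun v => (P : M3) *ᵥ v) hst
      simpa [mulVec_add, mulVec_smul, mulVec_mulVec, hQP] using this
  by_cases hp3 : p = 3
  · subst hp3
    have h0 : q % 9 = 0 ∨ q % 9 = 3 := by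
      have hqe' : q = 3 ^ (e : ℕ) := hqe
      have h3 : 3 ∣ q := by rw [hqe']; exact dvd_pow_self 3 e.ne_zero
      rcases Nat.lt_or_ge (e : ℕ) 2 with h | h
      · right; rw [hqe', show (e : ℕ) = 1 by have := e.pos; omega]; norm_num
      · left
        apply Nat.mod_eq_zero_of_dvd
        rw [hqe', show 9 = 3 ^ 2 by norm_num]
        exact pow_dvd_pow 3 h
    refine iff_of_false (fun hall => ?_) (by omega)
    let N : M3 := Matrix.single 0 1 1
    have hX : (1 + N : M3).det = 1 := by rw [Matrix.det_fin_three]; simp [N, Matrix.single_apply]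
    have hX3 : (1 + N) ^ 3 = ((1 : F) ^ 3) • (1 : M3) := by
      rw [add_pow_char_of_commute 3 (Commute.one_left N), one_pow, one_pow, one_smul, add_eq_left,
        pow_succ, pow_two]
      simp [N, Matrix.single_mul_single_of_ne]
    have hns : ∀ z : F, (1 + N : M3) ≠ z • 1 := fun z hz => by
      have := congrFun (congrFun hz 0) 1
      simp [N, Matrix.single_apply] at this
    obtain ⟨P, hP⟩ := hall ⟨1 + N, hX⟩ ⟨(1 : F) ^ 3, hX3⟩ hns
    refine hbad (1 + N) hX 1 hX3 hns ⟨Pi.single 0 1, Pi.single 2 1, ?_, ?_, ?_⟩ P hP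
    · funext i; fin_cases i <;> simp [N, Matrix.single_apply]
    · funext i; fin_cases i <;> simp [N, Matrix.single_apply]
    · rw [LinearIndependent.pair_iff]
      intro s t hst
      have a := congrFun hst 0
      have b := congrFun hst 2
      simp at a b
      exact ⟨a, b⟩
  have h3 : (3 : F) ≠ 0 := by
    intro h
    have h' : ((3 : ℕ) : F) = 0 := by exact_mod_cast h
    exact hp3 ((Nat.prime_dvd_prime_iff_eq hpp Nat.prime_three).mp ((CharP.cast_eq_zero_iff F p 3).mp h'))
  have hq3 : q % 3 ≠ 0 := fun h => hp3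
    ((Nat.prime_dvd_prime_iff_eq Nat.prime_three hpp).mp
      (Nat.prime_three.dvd_of_dvd_pow (by rw [← hqe]; exact Nat.dvd_of_mod_eq_zero h))).symm
  by_cases hq1 : q % 3 = 1
  · -- cube roots of unity are present
    have h3q : 3 ∣ Fintype.card Fˣ := by rw [Fintype.card_units, ← hq]; omega
    by_cases h9 : q % 9 = 1
    · refine iff_of_false (fun hall => ?_) (by omega)
      have h9' : 9 ∣ Nat.card Fˣ := by rw [Nat.card_units, Nat.card_eq_fintype_card, ← hq]; omega
      obtain ⟨η, hη⟩ := IsCyclic.exists_generator (α := Fˣ)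
      have hord : orderOf η = Nat.card Fˣ := orderOf_eq_card_of_forall_mem_zpowers hη
      let θ : Fˣ := η ^ (Nat.card Fˣ / 9)
      have hθ : orderOf θ = 9 := by
        rw [orderOf_pow' _ (by
          have := Nat.le_of_dvd Nat.card_pos h9'
          omega), hord, Nat.gcd_eq_right (Nat.div_dvd_of_dvd h9'), Nat.div_div_self h9' Nat.card_pos.ne']
      let d : Fin 3 → F := ![(θ : F), (θ : F), ((θ⁻¹ : Fˣ) : F) ^ 2]
      have hX : (Matrix.diagonal d).det = 1 := by
        rw [Matrix.det_diagonal, Fin.prod_univ_three]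
        show (θ : F) * θ * ((θ⁻¹ : Fˣ) : F) ^ 2 = 1
        rw [Units.val_inv_eq_inv_val]
        field_simp
      have hθ9 : (θ : F) ^ 9 = 1 := by
        rw [← Units.val_pow_eq_pow_val, ← hθ, pow_orderOf_eq_one, Units.val_one]
      have hX3 : Matrix.diagonal d ^ 3 = ((θ : F) ^ 3) • (1 : M3) := by
        rw [Matrix.diagonal_pow, Matrix.smul_one_eq_diagonal]
        congr 1
        funext i
        fin_cases i
        · rfl
        · rfl
        · show ((((θ⁻¹ : Fˣ) : F)) ^ 2) ^ 3 = _
          rw [Units.val_inv_eq_inv_val]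
          field_simp
          linear_combination -hθ9
      have hns : ∀ z : F, (Matrix.diagonal d : M3) ≠ z • 1 := fun z hz => by
        have a := congrFun (congrFun hz 0) 0
        have b := congrFun (congrFun hz 2) 2
        simp [d] at a b
        rw [← a] at b
        have : (θ : F) ^ 3 = 1 := by field_simp at b; linear_combination -b
        have h' : θ ^ 3 = 1 := Units.ext (by simpa using this)
        have := Nat.le_of_dvd (by norm_num) (hθ ▸ orderOf_dvd_of_pow_eq_one h')
        omega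
      obtain ⟨P, hP⟩ := hall ⟨Matrix.diagonal d, hX⟩ ⟨(θ : F) ^ 3, hX3⟩ hns
      refine hbad _ hX θ hX3 hns ⟨Pi.single 0 1, Pi.single 1 1, ?_, ?_, ?_⟩ P hP
      · funext i; fin_cases i <;> simp [d, Matrix.mulVec_diagonal]
      · funext i; fin_cases i <;> simp [d, Matrix.mulVec_diagonal]
      · rw [LinearIndependent.pair_iff]
        intro s t hst
        have a := congrFun hst 0
        have b := congrFun hst 1
        simp at a b
        exact ⟨a, b⟩
    · refine iff_of_true (fun x ⟨z, hz⟩ hns => ?_) (by omega)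
      have hz' : (x : M3) ^ 3 = z • 1 := hz
      have hz3 : z ^ 3 = 1 := by
        have := congrArg Matrix.det hz'
        rw [Matrix.det_pow, x.2, one_pow, Matrix.det_smul, Fintype.card_fin, Matrix.det_one, mul_one] at this
        exact this.symm
      have hz0 : z ≠ 0 := fun h => by rw [h, zero_pow three_ne_zero] at hz3; exact zero_ne_one hz3
      obtain ⟨ζ', hζ'⟩ := exists_prime_orderOf_dvd_card 3 h3q
      have hζ : (ζ' : F) ^ 2 + ζ' + 1 = 0 := by
        have h1 : (ζ' : F) ^ 3 = 1 := by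
          rw [← Units.val_pow_eq_pow_val, ← hζ', pow_orderOf_eq_one, Units.val_one]
        have hne : (ζ' : F) - 1 ≠ 0 := fun h => by
          rw [sub_eq_zero, Units.val_eq_one] at h
          rw [h, orderOf_one] at hζ'; omega
        exact (mul_eq_zero.mp (show ((ζ' : F) - 1) * ((ζ' : F) ^ 2 + ζ' + 1) = 0 by
          linear_combination h1)).resolve_left hne
      by_cases hcube : ∃ w : F, w ^ 3 = z
      · obtain ⟨w, rfl⟩ := hcube
        have hw0 : w ≠ 0 := fun h => hz0 (by rw [h, zero_pow three_ne_zero])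
        have hw1 : w ^ 3 = 1 := by
          by_contra h
          have h9 : orderOf w = 9 := by
            have : orderOf w = 3 ^ (1 + 1) := orderOf_eq_prime_pow (p := 3) (n := 1)
              (by simpa using h) (by rw [show (3 : ℕ) ^ (1 + 1) = 3 * 3 by norm_num, pow_mul]; exact hz3)
            simpa using this
          have := orderOf_dvd_of_pow_eq_one (FiniteField.pow_card_sub_one_eq_one w hw0)
          rw [h9, ← hq] at this
          omega
        rw [hw1, one_smul] at hz'
        obtain ⟨L, hL⟩ := intertwine_split (x : M3) (y : M3) (ζ' : F) hζ h3 hz' hy3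
          (no_two_eigen _ hz' x.2 h3 hns) (fun l hl u w hu hw hli => by
            have hl0 : l ≠ 0 := fun h => by rw [h, zero_pow three_ne_zero] at hl; exact zero_ne_one hl
            let lu : Fˣ := Units.mk0 l hl0
            have hsc : ∀ v, (y : M3) *ᵥ v = l • v →
                ((Units.map (Matrix.scalar (Fin 3) : F →+* M3).toMonoidHom lu⁻¹ * y : GL (Fin 3) F) : M3) *ᵥ v = v :=
              fun v hv => by
                rw [scalar_mul_val, smul_mulVec, hv, smul_smul]
                show (((lu⁻¹ : Fˣ) : F) * (lu : F)) • v = v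
                rw [← Units.val_mul, inv_mul_cancel, Units.val_one, one_smul]
            refine not_two_fixed K hK Nat.prime_three _ (mul_mem (scalar_mem K lu⁻¹) hyN) ?_ u w
              (hsc u hu) (hsc w hw) hli
            intro h1
            -- then `y` is a scalar, fixing a two-dimensional space after scaling
            have hy : (y : M3) = l • 1 := by
              have h2 := congrArg (fun g : GL (Fin 3) F => l • (g : M3)) h1
              simp only [scalar_mul_val, Units.val_one, smul_smul] at h2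
              rw [show l * ((lu⁻¹ : Fˣ) : F) = 1 from mul_inv_cancel₀ hl0, one_smul] at h2
              exact h2
            exact hyns l hy)
        exact conj_of_intertwine K hK x y hyN L hL
      · push Not at hcube
        obtain ⟨k, hkN, hk3⟩ := exists_cube_root K hK rfl hq1 z hz0
        obtain ⟨L, hL⟩ := intertwine_noncube (x : M3) (k : M3) z hz' hk3 hcube
        exact conj_of_intertwine K hK x k hkN L hL
  · have hq2 : q % 3 = 2 := by omega
    have hord : orderOf (q : ZMod 3) = 3 - 1 := by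
      have : ((q : ℕ) : ZMod 3) = 2 := by rw [← ZMod.natCast_mod, hq2]; rfl
      rw [this]
      show orderOf (2 : ZMod 3) = 2
      exact orderOf_eq_prime rfl (fun h => absurd (congrArg ZMod.val h) (show (2 : ℕ) ≠ 1 by omega))
    have h8 : q % 9 = 8 := by
      by_contra h
      apply (show ¬ 3 ∣ ((Cfsg.Geo.subalgebraNormalizer K).comap
        (Matrix.SpecialLinearGroup.toGL : Matrix.SpecialLinearGroup (Fin 3) F →* GL (Fin 3) F)).index from ?_) hΩ
      intro hd
      have hdy : (y : M3).det = 1 := by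
        have h' : (y : M3).det ^ 3 = 1 := by rw [← Matrix.det_pow, hy3, Matrix.det_one]
        by_contra hne
        have h0 : (y : M3).det ≠ 0 := fun h0 => by rw [h0, zero_pow three_ne_zero] at h'; exact zero_ne_one h'
        have := orderOf_dvd_of_pow_eq_one (FiniteField.pow_card_sub_one_eq_one _ h0)
        rw [orderOf_eq_prime h' hne, ← hq] at this
        omega
      let H := (Cfsg.Geo.subalgebraNormalizer K).comap
        (Matrix.SpecialLinearGroup.toGL : Matrix.SpecialLinearGroup (Fin 3) F →* GL (Fin 3) F)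
      let y' : H := ⟨⟨(y : M3), hdy⟩, Subgroup.mem_comap.mpr (by
        convert hyN using 1
        exact Units.ext rfl)⟩
      have hy' : orderOf y' = 3 := orderOf_eq_prime (Subtype.ext (Subtype.ext hy3)) fun h1 => hy1 (Units.ext
        (congrArg (fun g : H => ((g : Matrix.SpecialLinearGroup (Fin 3) F) : M3)) h1))
      have h9 : 9 ∣ Nat.card (Matrix.SpecialLinearGroup (Fin 3) F) := by
        rw [← Subgroup.card_mul_index H]
        exact mul_dvd_mul (hy' ▸ orderOf_dvd_natCard y') hd
      have hgl := CfsgLib.Classical.card_units_mul_card_sl (ι := Fin 3) (F := F)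
      rw [Matrix.card_GL_field, Fin.prod_univ_three, ← hq] at hgl
      simp only [Fin.val_zero, Fin.val_one, Fin.val_two, pow_zero, pow_one] at hgl
      have hdvd : 9 ∣ (q ^ 3 - 1) * (q ^ 3 - q) * (q ^ 3 - q ^ 2) := hgl ▸ h9.mul_left _
      have hq2' : 2 ≤ q := Fintype.one_lt_card
      have hcast : (((q ^ 3 - 1) * (q ^ 3 - q) * (q ^ 3 - q ^ 2) : ℕ) : ZMod 9) = 0 :=
        (ZMod.natCast_eq_zero_iff _ _).mpr hdvd
      rw [Nat.cast_mul, Nat.cast_mul, Nat.cast_sub (Nat.one_le_pow _ _ (by omega)),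
        Nat.cast_sub (Nat.le_self_pow three_ne_zero q),
        Nat.cast_sub (Nat.pow_le_pow_right (by omega) (by norm_num))] at hcast
      push_cast at hcast
      rw [← ZMod.natCast_mod q 9] at hcast
      have hcases : q % 9 = 2 ∨ q % 9 = 5 := by omega
      rcases hcases with hh | hh <;> rw [hh] at hcast <;> exact absurd hcast (by decide)
    refine iff_of_true ?_ (Or.inr (Or.inr h8))
    exact (elusive_of_orderOf K hK Nat.prime_three (by norm_num) (by exact_mod_cast h3) hord)

end CfsgLib.FieldThree
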