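import Cfsg.Agent.Lib.ClassicalSympInvol
import Cfsg.Agent.Lib.ClassicalFieldExtPrime

/-!
Elements of `SL_n(q)` squaring to scalars and the normaliser of a field subalgebra of degree two.
-/

set_option autoImplicit false

namespace CfsgLib.FieldTwo

open Matrix Module CfsgLib.SympInvol

attribute [local instance] _root_.Classical.propDecidable

variable {F : Type*} [Field F] {n : ℕ}

local notation "VV" => Fin n → F

/-- conjugacy into a subgroup from a common model -/
theorem conj_of_model (H : Subgroup (GL (Fin n) F)) (x : Matrix.SpecialLinearGroup (Fin n) F) (y : GL (Fin n) F)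
    (hy : y ∈ H) {ι : Type*} [Fintype ι] [DecidableEq ι] (bB bY : (ι → F) ≃ₗ[F] VV) (G : Matrix ι ι F)
    (hB : ∀ a, (x : Matrix (Fin n) (Fin n) F) *ᵥ bB a = bB (G *ᵥ a))
    (hY : ∀ a, (y : Matrix (Fin n) (Fin n) F) *ᵥ bY a = bY (G *ᵥ a))
    (hc : ∀ D : F, D ≠ 0 → ∃ C : Matrix ι ι F, C * G = G * C ∧ C.det = D) :
    ∃ P : Matrix.SpecialLinearGroup (Fin n) F, P⁻¹ * x * P ∈ H.comap
      (Matrix.SpecialLinearGroup.toGL : Matrix.SpecialLinearGroup (Fin n) F →* GL (Fin n) F) := by
  let S : VV ≃ₗ[F] VV := bY.symm.trans bB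
  have hS0 : LinearMap.det (S : VV →ₗ[F] VV) ≠ 0 := S.isUnit_det'.ne_zero
  obtain ⟨C, hC, hCD⟩ := hc (LinearMap.det (S : VV →ₗ[F] VV))⁻¹ (inv_ne_zero hS0)
  let T : VV →ₗ[F] VV := bY.toLinearMap ∘ₗ (Matrix.toLin' C ∘ₗ bY.symm.toLinearMap)
  let L : VV →ₗ[F] VV := S.toLinearMap ∘ₗ T
  have hL : LinearMap.det L = 1 := by
    have hT : LinearMap.det T = C.det := by
      rw [← LinearMap.det_toLin']; exact LinearMap.det_conj _ bY
    rw [show L = S.toLinearMap ∘ₗ T from rfl, LinearMap.det_comp, hT, hCD, mul_inv_cancel₀ hS0]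
  let P : Matrix.SpecialLinearGroup (Fin n) F := ⟨LinearMap.toMatrix' L, by rw [LinearMap.det_toMatrix', hL]⟩
  refine ⟨P, ?_⟩
  have hP : ∀ w, (P : Matrix (Fin n) (Fin n) F) *ᵥ w = L w := fun w => LinearMap.toMatrix'_mulVec _ _
  have heq : Matrix.SpecialLinearGroup.toGL (P⁻¹ * x * P) = y := by
    refine Units.ext (Matrix.ext_iff_mulVec.mpr fun w => ?_)
    show ((P⁻¹ * x * P : Matrix.SpecialLinearGroup (Fin n) F) : Matrix (Fin n) (Fin n) F) *ᵥ w = _
    have hyw : (y : Matrix (Fin n) (Fin n) F) *ᵥ w = bY (G *ᵥ bY.symm w) := by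
      rw [← hY, LinearEquiv.apply_symm_apply]
    have hxL : (x : Matrix (Fin n) (Fin n) F) *ᵥ L w = L (bY (G *ᵥ bY.symm w)) := by
      simp only [L, T, S, LinearMap.comp_apply, LinearEquiv.coe_coe, LinearEquiv.trans_apply,
        LinearEquiv.symm_apply_apply, Matrix.toLin'_apply, hB, Matrix.mulVec_mulVec, hC]
    rw [Matrix.SpecialLinearGroup.coe_mul, Matrix.SpecialLinearGroup.coe_mul, ← mulVec_mulVec, ← mulVec_mulVec,
      hP, hxL, ← hP, mulVec_mulVec, ← Matrix.SpecialLinearGroup.coe_mul, inv_mul_cancel,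
      Matrix.SpecialLinearGroup.coe_one, one_mulVec, hyw]
  rw [Subgroup.mem_comap, heq]
  exact hy

/-- companion blocks have centralisers of arbitrary determinant -/
lemma exists_centralizer [Fintype F] {κ : Type*} [Fintype κ] [DecidableEq κ] (k₀ : κ) (z : F) (hz : z ≠ 0)
    (D : F) : ∃ C : Matrix (Fin 2 × κ) (Fin 2 × κ) F,
      C * Matrix.blockDiagonal (fun _ => !![0, z; 1, 0]) = Matrix.blockDiagonal (fun _ => !![0, z; 1, 0]) * C ∧
      C.det = D := by
  obtain ⟨s, t, hst⟩ : ∃ s t : F, s * s - z * (t * t) = D := by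
    by_cases h2 : ringChar F = 2
    · haveI := ringChar.of_eq h2
      obtain ⟨s, hs⟩ := (isSquare_of_charTwo' D : IsSquare D)
      exact ⟨s, 0, by rw [hs]; ring⟩
    · obtain ⟨s, t, hst⟩ := FiniteField.exists_root_sum_quadratic
        (f := Polynomial.X ^ 2) (g := Polynomial.C (-z) * Polynomial.X ^ 2 + Polynomial.C (-D))
        (Polynomial.degree_X_pow 2) (by
          rw [Polynomial.degree_add_C (by rw [Polynomial.degree_C_mul_X_pow 2 (neg_ne_zero.mpr hz)]; norm_num),
            Polynomial.degree_C_mul_X_pow 2 (neg_ne_zero.mpr hz)]; rfl) (FiniteField.odd_card_of_char_ne_two h2)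
      simp at hst
      exact ⟨s, t, by linear_combination hst⟩
  refine ⟨Matrix.blockDiagonal (Function.update 1 k₀ !![s, z * t; t, s]), ?_, ?_⟩
  · rw [← Matrix.blockDiagonal_mul, ← Matrix.blockDiagonal_mul]
    congr 1
    funext k
    by_cases h : k = k₀
    · subst h
      ext i j
      fin_cases i <;> fin_cases j <;> simp [Matrix.mul_apply, Fin.sum_univ_two] <;> ring
    · simp [Function.update_of_ne h]
  · rw [Matrix.det_blockDiagonal, Finset.prod_eq_single k₀ (fun k _ h => by simp [Function.update_of_ne h]) (by simp),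
      Function.update_self, Matrix.det_fin_two_of]
    linear_combination hst

variable [Fintype F] (K : Subalgebra F (Matrix (Fin n) (Fin n) F))

lemma mem_of_commute (y : GL (Fin n) F)
    (h : ∀ a ∈ K, (y : Matrix (Fin n) (Fin n) F) * a = a * (y : Matrix (Fin n) (Fin n) F)) :
    y ∈ Cfsg.Geo.subalgebraNormalizer K := by
  refine FieldPrime.mem_normalizer_of_map K fun a ha => ?_
  rw [h a ha, mul_assoc, ← Units.val_mul, mul_inv_cancel, Units.val_one, mul_one]
  exact ha

variable (hK : Cfsg.Geo.IsFieldSubalgebra 2 K)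
include hK

lemma exists_nonscalar (hn : 0 < n) : ∃ k₀ ∈ K, ∀ t : F, k₀ ≠ t • 1 := by
  haveI : Nonempty (Fin n) := ⟨⟨0, hn⟩⟩
  by_contra h
  push Not at h
  have hle : K ≤ ⊥ := fun a ha => by
    obtain ⟨t, rfl⟩ := h a ha
    exact Algebra.mem_bot.mpr ⟨t, Algebra.algebraMap_eq_smul_one t⟩
  have h2 := hK.finrank_eq
  rw [le_bot_iff.mp hle, Subalgebra.finrank_bot] at h2
  omega

lemma eq_zero_of_mulVec {a : Matrix (Fin n) (Fin n) F} (ha : a ∈ K) {u : VV} (hu : u ≠ 0)
    (h : a *ᵥ u = 0) : a = 0 := by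
  by_contra hne
  obtain ⟨c, hc, hc'⟩ := hK.inv a ha hne
  apply hu
  rw [← one_mulVec u, ← hc', hK.comm _ ha _ hc, ← mulVec_mulVec, h, mulVec_zero]

lemma exists_decomp {k₀ : Matrix (Fin n) (Fin n) F} (hk : k₀ ∈ K) (hns : ∀ t : F, k₀ ≠ t • 1) (hn : 0 < n)
    {a : Matrix (Fin n) (Fin n) F} (ha : a ∈ K) : ∃ s t : F, a = s • 1 + t • k₀ := by
  haveI : Nonempty (Fin n) := ⟨⟨0, hn⟩⟩
  have hli : LinearIndependent F ![(1 : K), ⟨k₀, hk⟩] := by
    rw [LinearIndependent.pair_iff]
    intro s t hst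
    have h' : s • (1 : Matrix (Fin n) (Fin n) F) + t • k₀ = 0 := congrArg Subtype.val hst
    have ht : t = 0 := by
      by_contra ht
      refine hns (-s / t) ?_
      rw [eq_neg_of_add_eq_zero_right h' |> (fun h => show t • k₀ = (-s) • 1 by rw [h, neg_smul]) |>
        (fun h => show k₀ = t⁻¹ • ((-s) • 1) by rw [← h, smul_smul, inv_mul_cancel₀ ht, one_smul]), smul_smul]
      ring_nf
    refine ⟨?_, ht⟩
    rw [ht, zero_smul, add_zero, smul_eq_zero] at h'
    exact h'.resolve_right one_ne_zero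
  have hsp := hli.span_eq_top_of_card_eq_finrank' (by rw [hK.finrank_eq, Fintype.card_fin])
  obtain ⟨c, hc⟩ := (Submodule.mem_span_range_iff_exists_fun F).mp (hsp ▸ Submodule.mem_top (x := (⟨a, ha⟩ : K)))
  refine ⟨c 0, c 1, ?_⟩
  have := congrArg Subtype.val hc
  simp [Fin.sum_univ_two] at this
  exact this.symm

/-- an element of the normaliser which is scalar on a hyperplane is scalar -/
theorem no_hyperplane (hn : 3 ≤ n) (y : GL (Fin n) F) (hy : y ∈ Cfsg.Geo.subalgebraNormalizer K) (c : F)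
    (H : Submodule F VV) (hH : n ≤ finrank F H + 1)
    (hfix : ∀ v ∈ H, (y : Matrix (Fin n) (Fin n) F) *ᵥ v = c • v) :
    (y : Matrix (Fin n) (Fin n) F) = c • 1 := by
  obtain ⟨k₀, hk, hns⟩ := exists_nonscalar K hK (by omega)
  have hk0 : k₀ ≠ 0 := fun h => hns 0 (by rw [h, zero_smul])
  let φ := Matrix.toLin' k₀
  have hφ : Function.Injective φ := (injective_iff_map_eq_zero φ).mpr fun v hv => by
    by_contra h
    exact hk0 (eq_zero_of_mulVec K hK hk h (by simpa [φ] using hv))
  obtain ⟨u, huH, hu0, hku⟩ : ∃ u ∈ H, u ≠ 0 ∧ k₀ *ᵥ u ∈ H := by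
    have h := Submodule.finrank_sup_add_finrank_inf_eq H (H.map φ)
    have h1 : finrank F (H.map φ) = finrank F H := (Submodule.equivMapOfInjective φ hφ H).finrank_eq.symm
    have h2 : finrank F ↥(H ⊔ H.map φ) ≤ n := (Submodule.finrank_le _).trans_eq (by simp)
    have hne : H ⊓ H.map φ ≠ ⊥ := fun h0 => by rw [h0, finrank_bot] at h; omega
    obtain ⟨w, hw, hw0⟩ := Submodule.exists_mem_ne_zero_of_ne_bot hne
    obtain ⟨u, hu, rfl⟩ := hw.2
    exact ⟨u, hu, fun h => hw0 (by rw [h, map_zero]), by simpa [φ] using hw.1⟩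
  let Y := (y : Matrix (Fin n) (Fin n) F)
  let Yi := ((y⁻¹ : GL (Fin n) F) : Matrix (Fin n) (Fin n) F)
  have hYi : Yi * Y = 1 := by rw [← Units.val_mul, inv_mul_cancel, Units.val_one]
  have hcomm : Y * k₀ = k₀ * Y := by
    have hmem := (hy k₀).mp hk
    have hfu : Y *ᵥ u = c • u := hfix u huH
    have heq : Y * k₀ * Yi - k₀ = 0 := by
      refine eq_zero_of_mulVec K hK (K.sub_mem hmem hk) (u := Y *ᵥ u) (fun h => hu0 ?_) ?_
      · rw [← one_mulVec u, ← hYi, ← mulVec_mulVec, h, mulVec_zero]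
      · rw [sub_mulVec, mulVec_mulVec, mul_assoc, hYi, mul_one, ← mulVec_mulVec, hfix _ hku, hfu, mulVec_smul,
          sub_self]
    rw [sub_eq_zero] at heq
    calc Y * k₀ = Y * k₀ * Yi * Y := by rw [mul_assoc (Y * k₀), hYi, mul_one]
      _ = k₀ * Y := by rw [heq]
  let D : VV →ₗ[F] VV := Matrix.toLin' (Y - c • 1)
  have hHker : H ≤ LinearMap.ker D := fun v hv => by
    simp [D, sub_mulVec, smul_mulVec, Y, hfix v hv]
  have hrange : finrank F (LinearMap.range D) ≤ 1 := by
    have h := LinearMap.finrank_range_add_finrank_ker D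
    have := Submodule.finrank_mono hHker
    rw [Module.finrank_fintype_fun_eq_card, Fintype.card_fin] at h
    omega
  refine Matrix.ext_iff_mulVec.mpr fun v => ?_
  by_contra hne
  have hw0 : D v ≠ 0 := by
    intro h
    apply hne
    rw [smul_mulVec, one_mulVec]
    simpa [D, sub_mulVec, smul_mulVec, Y, sub_eq_zero] using h
  obtain ⟨⟨e, he⟩, hgen⟩ := (finrank_le_one_iff (K := F)).mp hrange
  have hkw : k₀ *ᵥ D v = D (k₀ *ᵥ v) := by
    simp only [D, Matrix.toLin'_apply, mulVec_mulVec, Matrix.mul_sub, Matrix.sub_mul, Matrix.mul_smul,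
      Matrix.smul_mul, Matrix.mul_one, Matrix.one_mul, hcomm]
  obtain ⟨s, hs⟩ := hgen ⟨D v, LinearMap.mem_range_self D v⟩
  obtain ⟨t, ht⟩ := hgen ⟨D (k₀ *ᵥ v), LinearMap.mem_range_self D _⟩
  have hs' : s • e = D v := congrArg Subtype.val hs
  have ht' : t • e = D (k₀ *ᵥ v) := congrArg Subtype.val ht
  have hs0 : s ≠ 0 := fun h => hw0 (by rw [← hs', h, zero_smul])
  refine hns (t / s) (sub_eq_zero.mp (eq_zero_of_mulVec K hK (K.sub_mem hk (K.smul_mem K.one_mem _)) hw0 ?_))
  rw [sub_mulVec, smul_mulVec, one_mulVec, hkw, ← ht', ← hs', smul_smul, div_mul_cancel₀ _ hs0, sub_self]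

section finite

lemma exists_sqrt (hn : 0 < n) (h2 : (2 : F) ≠ 0) (z : F) (hz : z ≠ 0) :
    ∃ k ∈ K, k * k = z • (1 : Matrix (Fin n) (Fin n) F) := by
  haveI : Nonempty (Fin n) := ⟨⟨0, hn⟩⟩
  have hfield : IsField K :=
    { exists_pair_ne := ⟨0, 1, fun h => zero_ne_one (α := Matrix (Fin n) (Fin n) F) (congrArg Subtype.val h)⟩
      mul_comm := fun a b => Subtype.ext (hK.comm _ a.2 _ b.2)
      mul_inv_cancel := fun {a} ha => by
        obtain ⟨c, hc, hc'⟩ := hK.inv a a.2 (fun h => ha (Subtype.ext h))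
        exact ⟨⟨c, hc⟩, Subtype.ext hc'⟩ }
  letI : Field K := hfield.toField
  haveI : Finite K := Module.finite_of_finite F
  haveI : Fintype K := Fintype.ofFinite K
  have hcard : Fintype.card K = Fintype.card F ^ 2 := by
    rw [Module.card_eq_pow_finrank (K := F) (V := K), hK.finrank_eq]
  have hr : ringChar K ≠ 2 := fun h => by
    have h' := FiniteField.even_card_iff_char_two.mp h
    have hr' : ringChar F ≠ 2 := fun h => h2 (by
      haveI := ringChar.of_eq h
      exact CharTwo.two_eq_zero)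
    have := FiniteField.odd_card_of_char_ne_two hr'
    rw [hcard, Nat.pow_mod, this] at h'
    simp at h'
  have hz0 : algebraMap F K z ≠ 0 := fun h => hz (FaithfulSMul.algebraMap_injective F K (by rw [h, map_zero]))
  obtain ⟨r, hr'⟩ := (FiniteField.isSquare_iff hr hz0).mpr (by
    have h1 : z ^ (Fintype.card F - 1) = 1 := FiniteField.pow_card_sub_one_eq_one z hz
    have hodd := FiniteField.odd_card_of_char_ne_two (F := F) (fun h => h2 (by
      haveI := ringChar.of_eq h
      exact CharTwo.two_eq_zero))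
    obtain ⟨t, ht⟩ : Odd (Fintype.card F) := Nat.odd_iff.mpr hodd
    rw [← map_pow, hcard, ht, show (2 * t + 1) ^ 2 = 1 + 2 * (2 * t * (t + 1)) by ring,
      Nat.add_mul_div_left _ _ two_pos]
    rw [ht, Nat.add_sub_cancel] at h1
    simp only [Nat.reduceDiv, zero_add]
    rw [pow_mul, h1, one_pow, map_one])
  refine ⟨(r : Matrix (Fin n) (Fin n) F), r.2, ?_⟩
  have := congrArg (fun a : K => (a : Matrix (Fin n) (Fin n) F)) hr'
  rw [← Algebra.algebraMap_eq_smul_one]
  exact this.symm

/-- an element whose square is a scalar and a nonscalar element of the normaliser with the same square -/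
theorem conj_pairs {m : ℕ} (hm : n = 2 * m) (hm0 : 0 < m) (x : Matrix.SpecialLinearGroup (Fin n) F) (z : F) (hz : z ≠ 0)
    (y : GL (Fin n) F) (hy : y ∈ Cfsg.Geo.subalgebraNormalizer K)
    (hX : (x : Matrix (Fin n) (Fin n) F) * (x : Matrix (Fin n) (Fin n) F) = z • 1)
    (hY : (y : Matrix (Fin n) (Fin n) F) * (y : Matrix (Fin n) (Fin n) F) = z • 1)
    (v w : Fin m → VV)
    (hv : LinearIndependent F fun p : Fin 2 × Fin m => if p.1 = 0 then v p.2 else (x : Matrix (Fin n) (Fin n) F) *ᵥ v p.2)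
    (hw : LinearIndependent F fun p : Fin 2 × Fin m => if p.1 = 0 then w p.2 else (y : Matrix (Fin n) (Fin n) F) *ᵥ w p.2) :
    ∃ P : Matrix.SpecialLinearGroup (Fin n) F, P⁻¹ * x * P ∈ (Cfsg.Geo.subalgebraNormalizer K).comap
      (Matrix.SpecialLinearGroup.toGL : Matrix.SpecialLinearGroup (Fin n) F →* GL (Fin n) F) := by
  let b := basisOfLinearIndependentOfCardEqFinrank' _ hv (by simp; omega)
  let b' := basisOfLinearIndependentOfCardEqFinrank' _ hw (by simp; omega)
  refine conj_of_model _ x y hy b.equivFun.symm b'.equivFun.symm (Matrix.blockDiagonal fun _ => !![0, z; 1, 0])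
    (coords_of_basis _ b _ fun i k => ?_) (coords_of_basis _ b' _ fun i k => ?_)
    fun D _ => exists_centralizer (⟨0, hm0⟩ : Fin m) z hz D
  · simp only [b, coe_basisOfLinearIndependentOfCardEqFinrank']
    fin_cases i
    · simp
    · simp [mulVec_mulVec, hX, smul_mulVec]
  · simp only [b', coe_basisOfLinearIndependentOfCardEqFinrank']
    fin_cases i
    · simp
    · simp [mulVec_mulVec, hY, smul_mulVec]

theorem elusive_nonsquare (hn : 2 ≤ n) (he : Even n) (h2 : (2 : F) ≠ 0) (x : Matrix.SpecialLinearGroup (Fin n) F) (z : F)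
    (hz : z ≠ 0) (hX : (x : Matrix (Fin n) (Fin n) F) * (x : Matrix (Fin n) (Fin n) F) = z • 1)
    (hns : ∀ t : F, t * t ≠ z) :
    ∃ P : Matrix.SpecialLinearGroup (Fin n) F, P⁻¹ * x * P ∈ (Cfsg.Geo.subalgebraNormalizer K).comap
      (Matrix.SpecialLinearGroup.toGL : Matrix.SpecialLinearGroup (Fin n) F →* GL (Fin n) F) := by
  obtain ⟨m, hm⟩ := he
  obtain ⟨k, hk, hkk⟩ := exists_sqrt K hK (by omega) h2 z hz
  let y : GL (Fin n) F := ⟨k, z⁻¹ • k,
    by rw [Matrix.mul_smul, hkk, smul_smul, inv_mul_cancel₀ hz, one_smul],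
    by rw [Matrix.smul_mul, hkk, smul_smul, inv_mul_cancel₀ hz, one_smul]⟩
  obtain ⟨v, hv⟩ := pair_basis_nonsquare (x : Matrix (Fin n) (Fin n) F) z hX hns m (by omega)
  obtain ⟨w, hw⟩ := pair_basis_nonsquare k z hkk hns m (by omega)
  exact conj_pairs K hK (by omega) (by omega) x z hz y (mem_of_commute K y fun a ha => hK.comm _ hk _ ha) hX hkk v w hv hw

theorem elusive_square_odd (hn : 4 ≤ n) (he : Even n) (h2 : (2 : F) ≠ 0) (x : Matrix.SpecialLinearGroup (Fin n) F)
    (a : F) (ha0 : a ≠ 0)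
    (hX : (x : Matrix (Fin n) (Fin n) F) * (x : Matrix (Fin n) (Fin n) F) = (a * a) • 1) (hna : a ^ n ≠ -1) :
    ∃ P : Matrix.SpecialLinearGroup (Fin n) F, P⁻¹ * x * P ∈ (Cfsg.Geo.subalgebraNormalizer K).comap
      (Matrix.SpecialLinearGroup.toGL : Matrix.SpecialLinearGroup (Fin n) F →* GL (Fin n) F) := by
  let T := Matrix.toLin' (x : Matrix (Fin n) (Fin n) F)
  let U := Module.End.eigenspace T a
  let W := Module.End.eigenspace T (-a)
  have hT : ∀ v, T (T v) = (a * a) • v := fun v => by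
    simp [T, mulVec_mulVec, hX, smul_mulVec]
  have hUW : IsCompl U W := by
    constructor
    · rw [Submodule.disjoint_def]
      intro v hu hw
      rw [Module.End.mem_eigenspace_iff] at hu hw
      rw [hu, ← sub_eq_zero, ← sub_smul, smul_eq_zero] at hw
      exact hw.resolve_left (by rw [sub_neg_eq_add, ← two_mul]; exact mul_ne_zero h2 ha0)
    · rw [codisjoint_iff, eq_top_iff]
      intro v _
      have hv : v = (2 * a)⁻¹ • (a • v + T v) + (2 * a)⁻¹ • (a • v - T v) := by
        rw [← smul_add, show a • v + T v + (a • v - T v) = (2 * a) • v by module, smul_smul,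
          inv_mul_cancel₀ (mul_ne_zero h2 ha0), one_smul]
      rw [hv]
      refine Submodule.add_mem_sup (Submodule.smul_mem _ _ ?_) (Submodule.smul_mem _ _ ?_) <;>
        rw [Module.End.mem_eigenspace_iff]
      · rw [map_add, map_smul, hT]; module
      · rw [map_sub, map_smul, hT]; module
  let r := finrank F U
  let s := finrank F W
  let b0 : Basis (Fin r ⊕ Fin s) F VV :=
    ((Module.finBasis F U).prod (Module.finBasis F W)).map (Submodule.prodEquivOfIsCompl U W hUW)
  have hrs : r + s = n := by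
    have := Module.finrank_eq_card_basis b0
    simp at this; omega
  have hbl : ∀ i, T (b0 (.inl i)) = a • b0 (.inl i) := fun i => by
    have : b0 (.inl i) = ((Module.finBasis F U) i : VV) := by simp [b0]
    rw [this]; exact Module.End.mem_eigenspace_iff.mp (Module.finBasis F U i).2
  have hbr : ∀ i, T (b0 (.inr i)) = (-a) • b0 (.inr i) := fun i => by
    have : b0 (.inr i) = ((Module.finBasis F W) i : VV) := by simp [b0]
    rw [this]; exact Module.End.mem_eigenspace_iff.mp (Module.finBasis F W i).2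
  have hmat : LinearMap.toMatrix b0 b0 T = Matrix.diagonal (Sum.elim (fun _ => a) (fun _ => -a)) := by
    ext i j
    rcases j with j | j
    · rw [LinearMap.toMatrix_apply, hbl, map_smul, b0.repr_self, Finsupp.smul_single, smul_eq_mul, mul_one,
        Finsupp.single_apply, Matrix.diagonal_apply]
      by_cases h : i = Sum.inl j
      · subst h; simp
      · rw [if_neg (Ne.symm h), if_neg h]
    · rw [LinearMap.toMatrix_apply, hbr, map_smul, b0.repr_self, Finsupp.smul_single, smul_eq_mul, mul_one,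
        Finsupp.single_apply, Matrix.diagonal_apply]
      by_cases h : i = Sum.inr j
      · subst h; simp
      · rw [if_neg (Ne.symm h), if_neg h]
  have hdet : a ^ r * (-a) ^ s = 1 := by
    have h1 : LinearMap.det T = 1 := by rw [LinearMap.det_toLin']; exact x.2
    rw [← LinearMap.det_toMatrix b0, hmat, Matrix.det_diagonal, Fintype.prod_sum_type] at h1
    simpa using h1
  have hs : Even s := by
    rw [← Nat.not_odd_iff_even]
    intro hodd
    rw [hodd.neg_pow, mul_neg, ← pow_add, hrs] at hdet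
    exact hna (by rw [← hdet, neg_neg])
  have hr : Even r := by
    rw [Nat.even_iff] at he hs ⊢; omega
  obtain ⟨r', hr'⟩ := hr
  obtain ⟨s', hs'⟩ := hs
  let σ : Fin 2 × (Fin r' ⊕ Fin s') ≃ Fin r ⊕ Fin s :=
    (Equiv.prodSumDistrib _ _ _).trans (Equiv.sumCongr (finProdFinEquiv.trans (finCongr (by omega)))
      (finProdFinEquiv.trans (finCongr (by omega))))
  let b := b0.reindex σ.symm
  let g : Fin r' ⊕ Fin s' → Matrix (Fin 2) (Fin 2) F := Sum.elim (fun _ => a • 1) (fun _ => (-a) • 1)
  have hgb : ∀ i k, (x : Matrix (Fin n) (Fin n) F) *ᵥ b (i, k) = g k 0 i • b (0, k) + g k 1 i • b (1, k) := by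
    intro i k
    rw [← Matrix.toLin'_apply]
    rcases k with k | k
    · rw [show b (i, .inl k) = b0 (.inl (finCongr (by omega) (finProdFinEquiv (i, k)))) by simp [b, σ], hbl]
      fin_cases i <;> simp [g, b, σ]
    · rw [show b (i, .inr k) = b0 (.inr (finCongr (by omega) (finProdFinEquiv (i, k)))) by simp [b, σ], hbr]
      fin_cases i <;> simp [g, b, σ]
  obtain ⟨k₁⟩ : Nonempty (Fin r' ⊕ Fin s') := Fintype.card_pos_iff.mp (by simp; omega)
  -- a basis adapted to the field
  obtain ⟨ν, hν⟩ := FiniteField.exists_nonsquare (F := F) fun h => h2 (by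
    haveI := ringChar.of_eq h
    exact CharTwo.two_eq_zero)
  have hν0 : ν ≠ 0 := fun h => hν ⟨0, by simp [h]⟩
  obtain ⟨k₀, hk₀, hkk⟩ := exists_sqrt K hK (by omega) h2 ν hν0
  have hk₀ns : ∀ t : F, k₀ ≠ t • 1 := fun t ht => by
    haveI : Nonempty (Fin n) := ⟨⟨0, by omega⟩⟩
    rw [ht, Matrix.smul_mul, one_mul, smul_smul] at hkk
    exact hν ⟨t, (smul_left_injective F (one_ne_zero (α := Matrix (Fin n) (Fin n) F)) hkk).symm⟩
  obtain ⟨w, hw⟩ := pair_basis_nonsquare k₀ ν hkk (fun t ht => hν ⟨t, ht.symm⟩) (r' + s') (by omega)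
  let bk := (basisOfLinearIndependentOfCardEqFinrank' _ hw (by simp; omega)).reindex
    (Equiv.prodCongr (Equiv.refl (Fin 2)) finSumFinEquiv.symm)
  have hkb := coords_of_basis k₀ bk (fun _ => !![0, ν; 1, 0]) fun i k => by
    simp only [bk, Basis.coe_reindex, Function.comp_apply, coe_basisOfLinearIndependentOfCardEqFinrank']
    fin_cases i
    · simp
    · simp [mulVec_mulVec, hkk, smul_mulVec]
  let G := Matrix.blockDiagonal g
  have hGG : G * G = (a * a) • 1 := by
    rw [← Matrix.blockDiagonal_mul, show (fun k => g k * g k) = (a * a) • (1 : (Fin r' ⊕ Fin s') → Matrix (Fin 2) (Fin 2) F) by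
      funext k; rcases k with k | k <;> simp [g, smul_smul], Matrix.blockDiagonal_smul, Matrix.blockDiagonal_one]
  let YL : VV →ₗ[F] VV := bk.equivFun.symm.toLinearMap ∘ₗ Matrix.toLin' G ∘ₗ bk.equivFun.toLinearMap
  let Ym := LinearMap.toMatrix' YL
  have hYm : ∀ v, Ym *ᵥ v = bk.equivFun.symm (G *ᵥ bk.equivFun v) := fun v => LinearMap.toMatrix'_mulVec _ _
  have hYY : Ym * Ym = (a * a) • 1 := by
    refine Matrix.ext_iff_mulVec.mpr fun v => ?_
    rw [← mulVec_mulVec, hYm, hYm, LinearEquiv.apply_symm_apply, mulVec_mulVec, hGG, smul_mulVec, one_mulVec,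
      map_smul, LinearEquiv.symm_apply_apply, smul_mulVec, one_mulVec]
  have ha2 : a * a ≠ 0 := mul_ne_zero ha0 ha0
  let y : GL (Fin n) F := ⟨Ym, (a * a)⁻¹ • Ym,
    by rw [Matrix.mul_smul, hYY, smul_smul, inv_mul_cancel₀ ha2, one_smul],
    by rw [Matrix.smul_mul, hYY, smul_smul, inv_mul_cancel₀ ha2, one_smul]⟩
  have hyk : Ym * k₀ = k₀ * Ym := by
    refine Matrix.ext_iff_mulVec.mpr fun v => ?_
    obtain ⟨c, rfl⟩ := bk.equivFun.symm.surjective v
    have hGk : G * Matrix.blockDiagonal (fun _ => !![0, ν; 1, 0]) = Matrix.blockDiagonal (fun _ => !![0, ν; 1, 0]) * G := by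
      rw [← Matrix.blockDiagonal_mul, ← Matrix.blockDiagonal_mul]
      congr 1; funext k; rcases k with k | k <;> simp [g]
    rw [← mulVec_mulVec, ← mulVec_mulVec, hkb, hYm, hYm, LinearEquiv.apply_symm_apply, LinearEquiv.apply_symm_apply,
      hkb, mulVec_mulVec, hGk, mulVec_mulVec]
  have hyN : y ∈ Cfsg.Geo.subalgebraNormalizer K := mem_of_commute K y fun c hc => by
    obtain ⟨u, t, rfl⟩ := exists_decomp K hK hk₀ hk₀ns (by omega) hc
    show Ym * _ = _ * Ym
    rw [Matrix.mul_add, Matrix.add_mul, Matrix.mul_smul, Matrix.mul_smul, Matrix.smul_mul, Matrix.smul_mul,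
      Matrix.mul_one, Matrix.one_mul, hyk]
  refine conj_of_model _ x y hyN b.equivFun.symm bk.equivFun.symm G (coords_of_basis _ b g hgb)
    (fun c => by show Ym *ᵥ _ = _; rw [hYm, LinearEquiv.apply_symm_apply]) fun D hD => ?_
  refine ⟨Matrix.blockDiagonal (Function.update 1 k₁ !![D, 0; 0, 1]), ?_, ?_⟩
  · rw [← Matrix.blockDiagonal_mul, ← Matrix.blockDiagonal_mul]
    congr 1; funext k; rcases k with k | k <;> simp [g]
  · rw [Matrix.det_blockDiagonal, Finset.prod_eq_single k₁ (fun k _ h => by simp [Function.update_of_ne h]) (by simp),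
      Function.update_self, Matrix.det_fin_two_of]
    ring

omit [Fintype F] hK in
lemma exists_cyclic_vector (x : Matrix (Fin n) (Fin n) F) (hns : ∀ t : F, x ≠ t • 1) (hn : n = 2) :
    ∃ v : Fin 1 → VV, LinearIndependent F fun p : Fin 2 × Fin 1 => if p.1 = 0 then v p.2 else x *ᵥ v p.2 := by
  obtain ⟨v, hv⟩ : ∃ v : VV, LinearIndependent F ![v, x *ᵥ v] := by
    by_contra h
    push Not at h
    have hall : ∀ v : VV, v ≠ 0 → ∃ l : F, x *ᵥ v = l • v := fun v hv => by
      by_contra hl
      push Not at hl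
      refine h v (LinearIndependent.pair_iff.mpr fun s t hst => ?_)
      have ht : t = 0 := by
        by_contra ht
        refine hl (-s / t) ?_
        rw [div_eq_inv_mul, mul_smul, neg_smul, ← eq_neg_of_add_eq_zero_right hst, smul_smul, inv_mul_cancel₀ ht,
          one_smul]
      rw [ht, zero_smul, add_zero, smul_eq_zero] at hst
      exact ⟨hst.resolve_right hv, ht⟩
    subst hn
    obtain ⟨l0, h0⟩ := hall (Pi.single 0 1) (by intro h; simpa using congrFun h 0)
    obtain ⟨l1, h1⟩ := hall (Pi.single 1 1) (by intro h; simpa using congrFun h 1)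
    obtain ⟨l, hl⟩ := hall (fun _ => 1) (by intro h; simpa using congrFun h 0)
    have e00 := congrFun h0 0; have e10 := congrFun h0 1
    have e01 := congrFun h1 0; have e11 := congrFun h1 1
    have f0 := congrFun hl 0; have f1 := congrFun hl 1
    simp [Matrix.mulVec, dotProduct, Fin.sum_univ_two] at e00 e10 e01 e11 f0 f1
    apply hns l
    ext i j
    fin_cases i <;> fin_cases j <;> simp [e10, e01]
    · rw [e01, add_zero] at f0; exact f0
    · rw [e10, zero_add] at f1; exact f1
  refine ⟨fun _ => v, ?_⟩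
  have : (fun p : Fin 2 × Fin 1 => if p.1 = 0 then v else x *ᵥ v) = ![v, x *ᵥ v] ∘ fun p => p.1 := by
    funext ⟨i, k⟩; fin_cases i <;> rfl
  rw [this]
  exact hv.comp _ fun p p' h => Prod.ext h (Subsingleton.elim _ _)

end finite

theorem main (hn : 2 ≤ n) (h2n : 2 ∣ n) :
    (∀ x : Matrix.SpecialLinearGroup (Fin n) F,
      (∃ z : F, ((x ^ 2 : Matrix.SpecialLinearGroup (Fin n) F) : Matrix (Fin n) (Fin n) F) = z • (1 : Matrix (Fin n) (Fin n) F)) →
      (∀ z : F, (x : Matrix (Fin n) (Fin n) F) ≠ z • (1 : Matrix (Fin n) (Fin n) F)) →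
      ∃ P : Matrix.SpecialLinearGroup (Fin n) F, P⁻¹ * x * P ∈ ((Cfsg.Geo.subalgebraNormalizer K).comap (Matrix.SpecialLinearGroup.toGL : Matrix.SpecialLinearGroup (Fin n) F →* GL (Fin n) F))) ↔
    (n = 2 ∨ (Odd (Fintype.card F) ∧ padicValNat 2 (Fintype.card F - 1) ≤ padicValNat 2 n)) := by
  haveI := Fact.mk Nat.prime_two
  haveI : Nonempty (Fin n) := ⟨⟨0, by omega⟩⟩
  have he : Even n := even_iff_two_dvd.mpr h2n
  constructor
  · intro h
    by_contra hne
    push Not at hne
    obtain ⟨hn2, hcond⟩ := hne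
    have hn4 : 4 ≤ n := by rcases he with ⟨m, rfl⟩; omega
    -- a derangement: scalar on a hyperplane
    obtain ⟨x, z, c, hx2, hns, H, hH, hfix⟩ : ∃ (x : Matrix.SpecialLinearGroup (Fin n) F) (z c : F),
        (x : Matrix (Fin n) (Fin n) F) * (x : Matrix (Fin n) (Fin n) F) = z • 1 ∧
        (∀ t : F, (x : Matrix (Fin n) (Fin n) F) ≠ t • 1) ∧
        ∃ H : Submodule F VV, n ≤ finrank F H + 1 ∧ ∀ v ∈ H, (x : Matrix (Fin n) (Fin n) F) *ᵥ v = c • v := by
      let i0 : Fin n := ⟨0, by omega⟩
      let i1 : Fin n := ⟨1, by omega⟩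
      have h10 : i1 ≠ i0 := by simp [i1, i0]
      have hker : ∀ φ : VV →ₗ[F] F, n ≤ finrank F (LinearMap.ker φ) + 1 := fun φ => by
        have hr := LinearMap.finrank_range_add_finrank_ker φ
        have hle := Submodule.finrank_le (LinearMap.range φ)
        rw [Module.finrank_self] at hle
        rw [Module.finrank_fintype_fun_eq_card, Fintype.card_fin] at hr
        omega
      by_cases h2 : (2 : F) = 0
      · refine ⟨⟨Matrix.transvection i0 i1 1, Matrix.det_transvection_of_ne _ _ h10.symm 1⟩, 1, 1, ?_,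
          fun t ht => ?_, LinearMap.ker (LinearMap.proj i1), hker _, fun v hv => ?_⟩
        · show Matrix.transvection i0 i1 1 * Matrix.transvection i0 i1 1 = _
          rw [Matrix.transvection_mul_transvection_same _ _ h10.symm, one_add_one_eq_two, h2,
            Matrix.transvection_zero, one_smul]
        · have := congrFun (congrFun ht i0) i1
          simp [Matrix.transvection, h10.symm] at this
        · have hv1 : v i1 = 0 := hv
          show Matrix.transvection i0 i1 1 *ᵥ v = _
          funext i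
          simp [Matrix.transvection, add_mulVec, Matrix.single_mulVec, hv1]
      · have hodd : Odd (Fintype.card F) := by
          rw [Nat.odd_iff]
          exact FiniteField.odd_card_of_char_ne_two fun hr => h2 (by
            haveI := ringChar.of_eq hr
            exact CharTwo.two_eq_zero)
        obtain ⟨a, ha⟩ := (exists_pow_neg_one_iff (by omega) h2).mpr (hcond hodd)
        have ha0 : a ≠ 0 := fun h => by
          rw [h, zero_pow (by omega)] at ha; exact one_ne_zero (neg_eq_zero.mp ha.symm)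
        let d : Fin n → F := fun i => if i = i0 then -a else a
        have hd : (Matrix.diagonal d).det = 1 := by
          rw [Matrix.det_diagonal, ← Finset.mul_prod_erase _ d (Finset.mem_univ i0),
            Finset.prod_congr rfl (fun i hi => show d i = a from if_neg (Finset.ne_of_mem_erase hi)),
            Finset.prod_const, Finset.card_erase_of_mem (Finset.mem_univ _), Finset.card_univ, Fintype.card_fin,
            show d i0 = -a from if_pos rfl, neg_mul, ← pow_succ', Nat.sub_add_cancel (by omega), ha, neg_neg]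
        refine ⟨⟨Matrix.diagonal d, hd⟩, a * a, a, ?_, fun t ht => ?_, LinearMap.ker (LinearMap.proj i0), hker _,
          fun v hv => ?_⟩
        · rw [Matrix.diagonal_mul_diagonal, Matrix.smul_one_eq_diagonal]
          congr 1; funext i; simp only [d]; split <;> ring
        · have e0 := congrFun (congrFun ht i0) i0
          have e1 := congrFun (congrFun ht i1) i1
          simp [d, h10] at e0 e1
          exact h2 ((mul_eq_zero.mp (show (2 : F) * a = 0 by linear_combination e1 - e0)).resolve_right ha0)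
        · have hv0 : v i0 = 0 := hv
          funext i
          show (Matrix.diagonal d *ᵥ v) i = _
          rw [mulVec_diagonal]
          by_cases hi : i = i0
          · subst hi; simp [hv0]
          · simp [d, hi]
    obtain ⟨P, hP⟩ := h x ⟨z, by rw [pow_two, Matrix.SpecialLinearGroup.coe_mul, hx2]⟩ hns
    let Q : Matrix (Fin n) (Fin n) F := ((P⁻¹ : Matrix.SpecialLinearGroup (Fin n) F) : Matrix (Fin n) (Fin n) F)
    have hQP : (P : Matrix (Fin n) (Fin n) F) * Q = 1 := congrArg Subtype.val (mul_inv_cancel P)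
    have hPQ : Q * (P : Matrix (Fin n) (Fin n) F) = 1 := congrArg Subtype.val (inv_mul_cancel P)
    have hQinj : Function.Injective (Matrix.toLin' Q) := fun u v huv => by
      have := congrArg (fun w => (P : Matrix (Fin n) (Fin n) F) *ᵥ w) huv
      simpa [mulVec_mulVec, hQP] using this
    have hy := no_hyperplane K hK (by omega) _ hP c (H.map (Matrix.toLin' Q))
      (by rw [← (Submodule.equivMapOfInjective _ hQinj H).finrank_eq]; exact hH) (by
        rintro _ ⟨v, hv, rfl⟩
        show (Q * (x : Matrix (Fin n) (Fin n) F) * (P : Matrix (Fin n) (Fin n) F)) *ᵥ _ = _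
        rw [Matrix.toLin'_apply, mulVec_mulVec, mul_assoc, hQP, mul_one, ← mulVec_mulVec, hfix v hv, mulVec_smul])
    have hy' : Q * (x : Matrix (Fin n) (Fin n) F) * (P : Matrix (Fin n) (Fin n) F) = c • 1 := hy
    refine hns c ?_
    calc (x : Matrix (Fin n) (Fin n) F)
        = (P : Matrix (Fin n) (Fin n) F) * (Q * (x : Matrix (Fin n) (Fin n) F) * (P : Matrix (Fin n) (Fin n) F)) * Q := by
          rw [← mul_assoc, ← mul_assoc, hQP, one_mul, mul_assoc, hQP, mul_one]
      _ = c • 1 := by rw [hy', Matrix.mul_smul, mul_one, Matrix.smul_mul, hQP]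
  · intro h x ⟨z, hz⟩ hns
    rw [pow_two, Matrix.SpecialLinearGroup.coe_mul] at hz
    have hz0 : z ≠ 0 := by
      intro h0
      have := congrArg Matrix.det hz
      rw [h0, zero_smul, Matrix.det_mul, x.2, mul_one, Matrix.det_zero] at this
      exact one_ne_zero this
    by_cases hsq : ∃ t : F, t * t = z
    · obtain ⟨a, rfl⟩ := hsq
      have ha0 := left_ne_zero_of_mul hz0
      by_cases hn2 : n = 2
      · subst hn2
        obtain ⟨⟨y, hyN, hy2, -, hyns⟩, -⟩ := FieldPrime.exists_frob K hK Nat.prime_two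
        let sc : GL (Fin 2) F := Units.map (Matrix.scalar (Fin 2) : F →+* Matrix (Fin 2) (Fin 2) F).toMonoidHom (Units.mk0 a ha0)
        have hsc : sc ∈ Cfsg.Geo.subalgebraNormalizer K := mem_of_commute K sc fun c _ =>
          (Matrix.scalar_commute a (fun r => mul_comm _ _) c).eq
        have hval : ((sc * y : GL (Fin 2) F) : Matrix (Fin 2) (Fin 2) F) = a • (y : Matrix (Fin 2) (Fin 2) F) := by
          rw [Units.val_mul]
          ext i j
          simp [sc, Matrix.scalar, Matrix.diagonal_mul]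
        have hY : ((sc * y : GL (Fin 2) F) : Matrix (Fin 2) (Fin 2) F) * ((sc * y : GL (Fin 2) F) : Matrix (Fin 2) (Fin 2) F) = (a * a) • 1 := by
          rw [hval, Matrix.smul_mul, Matrix.mul_smul, smul_smul, ← pow_two, ← hy2]
          simp [pow_two]
        obtain ⟨v, hv⟩ := exists_cyclic_vector (x : Matrix (Fin 2) (Fin 2) F) hns rfl
        obtain ⟨w, hw⟩ := exists_cyclic_vector ((sc * y : GL (Fin 2) F) : Matrix (Fin 2) (Fin 2) F) (fun t ht => by
          refine hyns (t / a) ?_
          rw [hval] at ht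
          rw [div_eq_inv_mul, mul_smul, ← ht, smul_smul, inv_mul_cancel₀ ha0, one_smul]) rfl
        exact conj_pairs K hK (m := 1) rfl one_pos x (a * a) hz0 _ (mul_mem hsc hyN) hz hY v w hv hw
      · obtain ⟨hodd, hle⟩ := h.resolve_left hn2
        have h2 : (2 : F) ≠ 0 := fun h2 => by
          haveI : CharP F 2 := CharTwo.of_one_ne_zero_of_two_eq_zero one_ne_zero h2
          have := FiniteField.even_card_iff_char_two.mp (ringChar.eq F 2)
          rw [Nat.odd_iff] at hodd; omega
        exact elusive_square_odd K hK (by rcases he with ⟨m, rfl⟩; omega) he h2 x a ha0 hz fun hna =>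
          absurd ((exists_pow_neg_one_iff (by omega) h2).mp ⟨a, hna⟩) (by omega)
    · push Not at hsq
      have h2 : (2 : F) ≠ 0 := fun h2 => by
        haveI : CharP F 2 := CharTwo.of_one_ne_zero_of_two_eq_zero one_ne_zero h2
        obtain ⟨t, ht⟩ := (isSquare_of_charTwo' z : IsSquare z)
        exact hsq t ht.symm
      exact elusive_nonsquare K hK hn he h2 x z hz0 hz hsq

end CfsgLib.FieldTwo
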