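import Cfsg.Agent.Lib.ClassicalSpStd
import Cfsg.Agent.Lib.ClassicalIwasawa
import Mathlib.GroupTheory.SpecificGroups.Cyclic
import Mathlib.RingTheory.IntegralDomain

/-! The symplectic group on the points of projective space: primitivity, perfectness, simplicity
of the central quotient, the centre. -/

set_option autoImplicit false

namespace CfsgLib.Classical

open Matrix MulAction
open scoped LinearAlgebra.Projectivization Pointwise commutatorElement

variable {ι : Type} [Fintype ι] [DecidableEq ι] {F : Type*} [Field F]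
  {f : (ι → F) → (ι → F) → F} (hf : Cfsg.Geo.IsSymplecticForm f)

include hf

lemma stv_zero (v : ι → F) : stv f v 0 = 1 :=
  gl_ext_mulVec fun x => by simp [stv_mulVec hf]

/-- the group of transvections with a given centre -/
noncomputable def stvHom (v : ι → F) : Multiplicative F →* isoGL f where
  toFun c := ⟨stv f v c.toAdd, stv_mem_isoGL hf v _⟩
  map_one' := Subtype.ext (stv_zero hf v)
  map_mul' a b := Subtype.ext (stv_mul hf v _ _).symm

lemma exists_partner_top {v : ι → F} (hv : v ≠ 0) : ∃ h, f v h = 1 := by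
  obtain ⟨h, _, hh⟩ := exists_pair (toBil_isAlt hf) (nondegOn_top hf) (W := ⊤) trivial hv
  exact ⟨h, hh⟩

omit hf in
lemma smul_mk_line {H : Subgroup (GL ι F)} (g : H) {v : ι → F} (hv : v ≠ 0) :
    g • Projectivization.mk F v hv = Projectivization.mk F (((g : GL ι F) : Matrix ι ι F) *ᵥ v)
      (fun e => hv (mulVec_injective (g : GL ι F) (by simpa using e))) :=
  Projectivization.smul_mk g hv

lemma f_comm_zero {x y : ι → F} (h : f x y = 0) : f y x = 0 := by rw [hf.skew, h, neg_zero]

theorem exists_iso_fix_orth {v w w' : ι → F} (hv : v ≠ 0) (hw : f v w = 0) (hw' : f v w' = 0)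
    (hw0 : ∀ a : F, a • v ≠ w) (hw0' : ∀ a : F, a • v ≠ w') :
    ∃ g ∈ isoGL f, (g : Matrix ι ι F) *ᵥ v = v ∧ (g : Matrix ι ι F) *ᵥ w = w' := by
  obtain ⟨h, hh⟩ := exists_partner_top hf hv
  have hA := toBil_isAlt hf
  set P := pairPerp (toBil hf.bilinear) ⊤ v h with hPdef
  have hP : NondegOn (toBil hf.bilinear) P :=
    nondegOn_pairPerp hA (nondegOn_top hf) trivial trivial hh
  have hproj : ∀ z, f v z = 0 → z + f h z • v ∈ P := fun z hz => by
    have := pairProj_mem hA (W := ⊤) (e := v) (h := h) (x := z) trivial trivial hh trivial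
    simpa [toBil_apply, hz] using this
  have hne : ∀ z, (∀ a : F, a • v ≠ z) → z + f h z • v ≠ 0 := fun z hz e =>
    hz (- f h z) (by rw [neg_smul]; exact (eq_neg_of_add_eq_zero_left e).symm)
  obtain ⟨g₁, hg₁, hg₁w⟩ := exists_sympGen_map hf hP (hproj w hw) (hne w hw0) (hproj w' hw')
    (hne w' hw0')
  have hPv : ∀ u ∈ P, f v u = 0 := fun u hu => (mem_pairPerp.mp hu).2.1
  have hg₁v : (g₁ : Matrix ι ι F) *ᵥ v = v := sympGen_fix hf hPv hg₁
  set w₁ := w' + f h w' • v with hw₁
  obtain ⟨k, hk, hwk⟩ := exists_pair hA hP (hproj w' hw') (hne w' hw0')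
  rw [← hw₁, toBil_apply] at hwk
  set a : F := f h w - f h w' + (f h w' - f h w) * 2 with ha
  have hvk : f v k = 0 := hPv k hk
  have hw₁v : f w₁ v = 0 := f_comm_zero hf (hPv _ (hproj w' hw'))
  let g₂ := stv f k (-1) * stv f (k + (f h w - f h w') • v) 1
  have hg₂ : g₂ ∈ isoGL f := mul_mem (stv_mem_isoGL hf _ _) (stv_mem_isoGL hf _ _)
  have hg₂v : (g₂ : Matrix ι ι F) *ᵥ v = v := by
    rw [Units.val_mul, ← mulVec_mulVec, stv_fix hf (k + (f h w - f h w') • v) 1
      (by simp [hf.bilinear.add_right, hf.bilinear.smul_right, hvk, hf.alternating]),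
      stv_fix hf _ _ hvk]
  have hg₂w : (g₂ : Matrix ι ι F) *ᵥ w₁ = w₁ + (f h w - f h w') • v := by
    rw [Units.val_mul, ← mulVec_mulVec, stv_mulVec hf (k + _), stv_mulVec hf]
    simp only [hf.bilinear.add_right, hf.bilinear.smul_right, hf.bilinear.add_left,
      hf.bilinear.smul_left, hwk, hw₁v, hvk, hf.alternating, mul_zero, add_zero, one_mul, one_smul]
    module
  refine ⟨g₂ * g₁, mul_mem hg₂ (sympGen_le_isoGL hf _ hg₁), ?_, ?_⟩
  · rw [Units.val_mul, ← mulVec_mulVec, hg₁v, hg₂v]
  · rw [Units.val_mul, ← mulVec_mulVec]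
    conv_lhs => rw [show w = (w + f h w • v) - f h w • v by abel]
    rw [mulVec_sub, mulVec_smul, hg₁w, hg₁v, mulVec_sub, mulVec_smul, hg₂w, hg₂v, hw₁]
    module

theorem isPreprimitive_isoGL :
    IsPreprimitive (isoGL f) (ℙ F (ι → F)) := by
  classical
  haveI : IsPretransitive (isoGL f) (ℙ F (ι → F)) := ⟨fun x y => by
    induction x using Projectivization.ind with | _ v hv => ?_
    induction y using Projectivization.ind with | _ w hw => ?_
    obtain ⟨g, hg, hgv⟩ := exists_sympGen_map hf (nondegOn_top hf) (W := ⊤) trivial hv trivial hw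
    refine ⟨⟨g, sympGen_le_isoGL hf _ hg⟩, ?_⟩
    rw [smul_mk_line, Projectivization.mk_eq_mk_iff']
    exact ⟨1, by rw [one_smul]; exact hgv.symm⟩⟩
  refine IsPreprimitive.mk fun {B} hB => ?_
  refine or_iff_not_imp_left.mpr fun hsub => ?_
  obtain ⟨p, hp, r, hr, hpr⟩ := Set.not_subsingleton_iff.mp hsub
  rw [Set.eq_univ_iff_forall]
  have stab : ∀ {v w w' : ι → F} (hv : v ≠ 0) (hw : w ≠ 0) (hw' : w' ≠ 0),
      Projectivization.mk F v hv ∈ B → Projectivization.mk F w hw ∈ B →
      (∃ g ∈ isoGL f, (g : Matrix ι ι F) *ᵥ v = v ∧ ∃ a : F, a • w' = (g : Matrix ι ι F) *ᵥ w) →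
      Projectivization.mk F w' hw' ∈ B := by
    rintro v w w' hv hw hw' hvB hwB ⟨g, hg, hgv, a, ha⟩
    have hfix : (⟨g, hg⟩ : isoGL f) • Projectivization.mk F v hv = Projectivization.mk F v hv := by
      rw [smul_mk_line, Projectivization.mk_eq_mk_iff']
      exact ⟨1, by rw [one_smul]; exact hgv.symm⟩
    have hgB : (⟨g, hg⟩ : isoGL f) • B = B := hB.smul_eq_of_mem hvB (by rw [hfix]; exact hvB)
    rw [← hgB]
    refine ⟨_, hwB, ?_⟩
    change (⟨g, hg⟩ : isoGL f) • Projectivization.mk F w hw = _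
    rw [smul_mk_line, Projectivization.mk_eq_mk_iff']
    exact ⟨a, ha⟩
  have C1 : ∀ {v w w' : ι → F} (hv : v ≠ 0) (hw : w ≠ 0) (hw' : w' ≠ 0),
      Projectivization.mk F v hv ∈ B → Projectivization.mk F w hw ∈ B → f v w ≠ 0 → f v w' ≠ 0 →
      Projectivization.mk F w' hw' ∈ B := by
    intro v w w' hv hw hw' hvB hwB h1 h2
    obtain ⟨g, hg, hgv, hgw⟩ := exists_sympGen_map_pair hf (nondegOn_top hf) (W := ⊤) (v := v)
      (w := (f v w)⁻¹ • w) (v' := v) (w' := (f v w')⁻¹ • w') trivial trivial trivial trivial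
      (by rw [hf.bilinear.smul_right, inv_mul_cancel₀ h1])
      (by rw [hf.bilinear.smul_right, inv_mul_cancel₀ h2])
    refine stab hv hw hw' hvB hwB ⟨g, sympGen_le_isoGL hf _ hg, hgv, f v w * (f v w')⁻¹, ?_⟩
    rw [mulVec_smul] at hgw
    rw [mul_smul, ← hgw, smul_smul, mul_inv_cancel₀ h1, one_smul]
  have C2 : ∀ {v w w' : ι → F} (hv : v ≠ 0) (hw : w ≠ 0) (hw' : w' ≠ 0),
      Projectivization.mk F v hv ∈ B → Projectivization.mk F w hw ∈ B → f v w = 0 →
      (∀ a : F, a • v ≠ w) → f v w' = 0 → Projectivization.mk F w' hw' ∈ B := by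
    intro v w w' hv hw hw' hvB hwB h1 h1' h2
    by_cases hd : ∃ a : F, a • v = w'
    · rwa [(Projectivization.mk_eq_mk_iff' F w' v hw' hv).mpr hd]
    · push Not at hd
      obtain ⟨g, hg, hgv, hgw⟩ := exists_iso_fix_orth hf hv h1 h2 h1' hd
      exact stab hv hw hw' hvB hwB ⟨g, hg, hgv, 1, by rw [one_smul, hgw]⟩
  intro x
  induction p using Projectivization.ind with | _ v hv => ?_
  induction r using Projectivization.ind with | _ w hw => ?_
  induction x using Projectivization.ind with | _ c hc => ?_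
  have hdist : ∀ a : F, a • v ≠ w := fun a e => by
    refine hpr ((Projectivization.mk_eq_mk_iff' F v w hv hw).mpr ⟨a⁻¹, ?_⟩)
    have ha : a ≠ 0 := fun h0 => hw (by rw [← e, h0, zero_smul])
    rw [← e, smul_smul, inv_mul_cancel₀ ha, one_smul]
  by_cases hvw : f v w = 0
  · by_cases hvc : f v c = 0
    · exact C2 hv hw hc hp hr hvw hdist hvc
    · set c' := (f v c)⁻¹ • c with hc'
      have hvc' : f v c' = 1 := by rw [hc', hf.bilinear.smul_right, inv_mul_cancel₀ hvc]
      set z := w + f c' w • v with hz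
      have hz0 : z ≠ 0 := fun e => hdist (- f c' w) (by
        rw [neg_smul]; exact (eq_neg_of_add_eq_zero_left e).symm)
      have hvz : f v z = 0 := by
        simp [hz, hf.bilinear.add_right, hf.bilinear.smul_right, hvw, hf.alternating]
      have hcz : f c z = 0 := by
        have : f c' z = 0 := by
          rw [hz, hf.bilinear.add_right, hf.bilinear.smul_right, hf.skew c' v, hvc']; ring
        rw [hc', hf.bilinear.smul_left] at this
        exact (mul_eq_zero.mp this).resolve_left (inv_ne_zero hvc)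
      have hzB := C2 hv hw hz0 hp hr hvw hdist hvz
      refine C2 hz0 hv hc hzB hp (f_comm_zero hf hvz) (fun a e => ?_) (f_comm_zero hf hcz)
      apply hvc
      rw [← e, hf.bilinear.smul_left, f_comm_zero hf hcz, mul_zero]
  · obtain ⟨z, -, hvz, hcz⟩ := exists_common_nonorth hf (nondegOn_top hf) (W := ⊤) trivial hv trivial hc
    have hz0 : z ≠ 0 := fun e => hvz (by rw [e, f_zero_right hf.bilinear])
    refine C1 hz0 hv hc (C1 hv hw hz0 hp hr hvw hvz) hp (fun e => hvz (f_comm_zero hf e))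
      (fun e => hcz (f_comm_zero hf e))

omit hf in
lemma stv_smul' (hf : Cfsg.Geo.IsSymplecticForm f) {a : F} (ha : a ≠ 0) (u : ι → F) :
    (stvHom hf (a • u)).range = (stvHom hf u).range := by
  ext g
  constructor
  · rintro ⟨c, rfl⟩
    exact ⟨Multiplicative.ofAdd (c.toAdd * a * a), Subtype.ext (stv_smul hf u a _).symm⟩
  · rintro ⟨c, rfl⟩
    refine ⟨Multiplicative.ofAdd (c.toAdd * a⁻¹ * a⁻¹), Subtype.ext ?_⟩
    change stv f (a • u) (c.toAdd * a⁻¹ * a⁻¹) = stv f u c.toAdd
    rw [stv_smul hf]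
    congr 1
    field_simp

lemma stvHom_conj (g : isoGL f) (u : ι → F) :
    MulAut.conj g • (stvHom hf u).range =
      (stvHom hf (((g : GL ι F) : Matrix ι ι F) *ᵥ u)).range := by
  ext x
  constructor
  · rintro ⟨y, ⟨c, rfl⟩, rfl⟩
    exact ⟨c, Subtype.ext (stv_conj hf g.2 u c.toAdd).symm⟩
  · rintro ⟨c, rfl⟩
    exact ⟨_, ⟨c, rfl⟩, Subtype.ext (stv_conj hf g.2 u c.toAdd)⟩

/-- transvection groups as an Iwasawa structure -/
noncomputable abbrev spIwasawa : IwasawaStructure (isoGL f) (ℙ F (ι → F)) where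
  T p := (stvHom hf p.rep).range
  is_comm p := ⟨⟨fun a b => Subtype.ext (by
    obtain ⟨c, hc⟩ := a.2
    obtain ⟨d, hd⟩ := b.2
    change a.1 * b.1 = b.1 * a.1
    rw [← hc, ← hd, ← map_mul, ← map_mul, mul_comm])⟩⟩
  is_conj g p := by
    rw [stvHom_conj hf]
    have hne : ((g : GL ι F) : Matrix ι ι F) *ᵥ p.rep ≠ 0 := fun e =>
      p.rep_nonzero (mulVec_injective (g : GL ι F) (by simpa using e))
    have : g • p = Projectivization.mk F (((g : GL ι F) : Matrix ι ι F) *ᵥ p.rep) hne := by
      conv_lhs => rw [← Projectivization.mk_rep p]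
      exact smul_mk_line g p.rep_nonzero
    rw [this]
    obtain ⟨a, ha⟩ := Projectivization.exists_smul_eq_mk_rep F
      (((g : GL ι F) : Matrix ι ι F) *ᵥ p.rep) hne
    rw [← ha, Units.smul_def, stv_smul' hf (Units.ne_zero a)]
  is_generator := by
    rw [eq_top_iff]
    rintro ⟨g, hg⟩ -
    have : g ∈ Subgroup.map (isoGL f).subtype (⨆ p : ℙ F (ι → F), (stvHom hf p.rep).range) := by
      refine isoGL_le_of_stv hf (fun u hu c => ?_) hg
      obtain ⟨a, ha⟩ := Projectivization.exists_smul_eq_mk_rep F u hu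
      refine ⟨stvHom hf u (Multiplicative.ofAdd c), ?_, rfl⟩
      refine Subgroup.mem_iSup_of_mem (Projectivization.mk F u hu) ?_
      rw [← ha, Units.smul_def, stv_smul' hf (Units.ne_zero a)]
      exact ⟨_, rfl⟩
    obtain ⟨k, hk, hkg⟩ := this
    rwa [show (⟨g, hg⟩ : isoGL f) = k from Subtype.ext hkg.symm]

/-- a family of orthogonal vectors with all sums non-zero -/
def PerfectWitness (f : (ι → F) → (ι → F) → F) : Prop :=
  (∃ a : F, a ≠ 0 ∧ a ^ 2 ≠ 1) ∨
  ((2 : F) ≠ 0 ∧ ∃ v w : ι → F, f v w = 0 ∧ v ≠ 0 ∧ w ≠ 0 ∧ v + w ≠ 0 ∧ v - w ≠ 0) ∨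
  ((2 : F) = 0 ∧ ∃ u v w : ι → F, f u v = 0 ∧ f u w = 0 ∧ f v w = 0 ∧ u ≠ 0 ∧ v ≠ 0 ∧ w ≠ 0 ∧
    u + v ≠ 0 ∧ u + w ≠ 0 ∧ v + w ≠ 0 ∧ u + v + w ≠ 0)

theorem commutator_isoGL (hw : PerfectWitness f) : commutator (isoGL f) = ⊤ := by
  let φ : (ι → F) → F → Abelianization (isoGL f) := fun v c =>
    Abelianization.of (stvHom hf v (Multiplicative.ofAdd c))
  have hadd : ∀ v c d, φ v (c + d) = φ v c * φ v d := fun v c d => by
    simp only [φ, ofAdd_add, map_mul]
  have hzero : ∀ v, φ v 0 = 1 := fun v => by simp [φ]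
  have hinv : ∀ (g : GL ι F) (hg : g ∈ isoGL f) v c, φ ((g : Matrix ι ι F) *ᵥ v) c = φ v c := by
    intro g hg v c
    have : stvHom hf ((g : Matrix ι ι F) *ᵥ v) (Multiplicative.ofAdd c) =
        ⟨g, hg⟩ * stvHom hf v (Multiplicative.ofAdd c) * (⟨g, hg⟩ : isoGL f)⁻¹ :=
      Subtype.ext (stv_conj hf hg v c).symm
    simp only [φ, this, map_mul, map_inv]
    rw [mul_comm (Abelianization.of _) (Abelianization.of _), mul_assoc, mul_inv_cancel, mul_one]
  have hsame : ∀ v w, v ≠ 0 → w ≠ 0 → ∀ c, φ v c = φ w c := fun v w hv hw' c => by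
    obtain ⟨g, hg, hgv⟩ := exists_sympGen_map hf (nondegOn_top hf) (W := ⊤) trivial hv trivial hw'
    rw [← hgv, hinv g (sympGen_le_isoGL hf _ hg)]
  have key : ∀ v, v ≠ 0 → ∀ c, φ v c = 1 := by
    intro v hv c
    rcases hw with ⟨a, ha, ha2⟩ | ⟨h2, u, w, huw, hu, hw', hp, hm⟩ |
        ⟨h2, x, y, z, hxy, hxz, hyz, hx, hy, hz, h1, h2', h3, h4⟩
    · have e1 : ∀ d, φ v (d * a * a) = φ v d := fun d => by
        rw [← hsame (a • v) v (smul_ne_zero ha hv) hv d]
        simp only [φ]
        exact congrArg _ (Subtype.ext (stv_smul hf v a d).symm)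
      have e2 := e1 (c / (a ^ 2 - 1))
      rw [show c / (a ^ 2 - 1) * a * a = c / (a ^ 2 - 1) + c by
        have := sub_ne_zero_of_ne ha2; field_simp; ring, hadd] at e2
      exact mul_left_cancel (e2.trans (mul_one _).symm)
    · have e : φ (u + w) (c / 2) * φ (u - w) (c / 2) = φ u c * φ w c := by
        have h2c : c = c / 2 * 2 := by field_simp
        simp only [φ, ← map_mul]
        refine congrArg _ (Subtype.ext (gl_ext_mulVec fun t => ?_))
        change ((stv f (u + w) (c / 2) * stv f (u - w) (c / 2) : GL ι F) : Matrix ι ι F) *ᵥ t =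
          ((stv f u c * stv f w c : GL ι F) : Matrix ι ι F) *ᵥ t
        simp only [Units.val_mul, ← mulVec_mulVec, stv_mulVec hf, hf.bilinear.add_left,
          hf.bilinear.smul_left, f_sub_left hf.bilinear, hf.bilinear.add_right,
          f_sub_right hf.bilinear, huw, f_comm_zero hf huw, hf.alternating]
        generalize f t u = A
        generalize f t w = B
        match_scalars <;> (first | ring1 | (field_simp; ring1))
      rw [hsame _ v hp hv, hsame _ v hm hv, ← hadd, hsame u v hu hv, hsame w v hw' hv,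
        show c / 2 + c / 2 = c by field_simp; ring] at e
      exact mul_left_cancel (e.symm.trans (mul_one _).symm)
    · have hneg : ∀ s : F, s + s = 0 := fun s => by rw [← two_mul, h2, zero_mul]
      have e : φ x c * φ y c * φ z c * φ (x + y) c * φ (x + z) c * φ (y + z) c *
          φ (x + y + z) c = 1 := by
        simp only [φ, ← map_mul]
        rw [← map_one (Abelianization.of (G := isoGL f))]
        refine congrArg _ (Subtype.ext (gl_ext_mulVec fun t => ?_))
        change ((stv f x c * stv f y c * stv f z c * stv f (x + y) c * stv f (x + z) c *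
          stv f (y + z) c * stv f (x + y + z) c : GL ι F) : Matrix ι ι F) *ᵥ t =
          ((1 : GL ι F) : Matrix ι ι F) *ᵥ t
        simp only [Units.val_mul, Units.val_one, one_mulVec, ← mulVec_mulVec, stv_mulVec hf,
          hf.bilinear.add_left, hf.bilinear.smul_left, hf.bilinear.add_right, hxy, hxz, hyz,
          f_comm_zero hf hxy, f_comm_zero hf hxz, f_comm_zero hf hyz, hf.alternating]
        generalize f t x = A
        generalize f t y = B
        generalize f t z = C
        match_scalars <;> (first | ring1 | linear_combination (2 * c * A + c * B + c * C) * h2 |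
          linear_combination (c * A + 2 * c * B + c * C) * h2 |
          linear_combination (c * A + c * B + 2 * c * C) * h2)
      have hsq : φ v c * φ v c = 1 := by rw [← hadd, hneg, hzero]
      rw [hsame x v hx hv, hsame y v hy hv, hsame z v hz hv, hsame _ v h1 hv, hsame _ v h2' hv,
        hsame _ v h3 hv, hsame _ v h4 hv] at e
      simpa [hsq, mul_assoc] using e
  rw [eq_top_iff]
  rintro ⟨g, hg⟩ -
  have : g ∈ (commutator (isoGL f)).map (isoGL f).subtype := by
    refine isoGL_le_of_stv hf (fun u hu c => ?_) hg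
    refine ⟨stvHom hf u (Multiplicative.ofAdd c), ?_, rfl⟩
    change _ ∈ commutator (isoGL f)
    rw [← Abelianization.ker_of]
    exact MonoidHom.mem_ker.mpr (key u hu c)
  obtain ⟨k, hk, hkg⟩ := this
  rwa [show (⟨g, hg⟩ : isoGL f) = k from Subtype.ext hkg.symm]

theorem isSimpleGroup_quot_isoGL (hw : PerfectWitness f) {v : ι → F} (hv : v ≠ 0) :
    IsSimpleGroup (isoGL f ⧸ Subgroup.center (isoGL f)) := by
  haveI := isPreprimitive_isoGL hf
  obtain ⟨h, hh⟩ := exists_partner_top hf hv
  haveI : Nontrivial (isoGL f) := by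
    refine ⟨⟨stvHom hf v (Multiplicative.ofAdd 1), 1, fun e => ?_⟩⟩
    have e' := congrArg (fun g : isoGL f => ((g : GL ι F) : Matrix ι ι F) *ᵥ h) e
    change ((stv f v (1 : F)) : Matrix ι ι F) *ᵥ h = ((1 : GL ι F) : Matrix ι ι F) *ᵥ h at e'
    rw [stv_mulVec hf, Units.val_one, one_mulVec, hf.skew, hh] at e'
    exact hv (by simpa using e')
  exact isSimpleGroup_quot_center (spIwasawa hf) (fun g hg => mem_center_of_fix_lines hg)
    (commutator_isoGL hf hw)

theorem card_center_isoGL [Fintype F] [Nonempty ι] :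
    Nat.card (Subgroup.center (isoGL f)) = Nat.gcd 2 (Fintype.card F - 1) := by
  classical
  obtain ⟨i⟩ := ‹Nonempty ι›
  have key : ∀ g : Subgroup.center (isoGL f), ∃ a : Fˣ, a ^ 2 = 1 ∧
      ∀ v : ι → F, ((g : GL ι F) : Matrix ι ι F) *ᵥ v = (a : F) • v := by
    rintro ⟨g, hg⟩
    have hlines : ∀ v : ι → F, ∃ c : F, ((g : GL ι F) : Matrix ι ι F) *ᵥ v = c • v := by
      intro v
      by_cases hv : v = 0
      · exact ⟨0, by simp [hv]⟩
      have hc := Subgroup.mem_center_iff.mp hg (stvHom hf v (Multiplicative.ofAdd 1))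
      obtain ⟨h, hh⟩ := exists_partner_top hf hv
      obtain ⟨x, hx⟩ : ∃ x, ((g : GL ι F) : Matrix ι ι F) *ᵥ x = h :=
        ⟨_, mulVec_inv_mulVec (g : GL ι F) h⟩
      have e := congrArg (fun k : isoGL f => ((k : GL ι F) : Matrix ι ι F) *ᵥ x) hc
      change ((stv f v (1 : F) * (g : GL ι F) : GL ι F) : Matrix ι ι F) *ᵥ x =
        (((g : GL ι F) * stv f v (1 : F) : GL ι F) : Matrix ι ι F) *ᵥ x at e
      simp only [Units.val_mul, ← mulVec_mulVec, stv_mulVec hf, mulVec_add, mulVec_smul, hx,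
        one_mul, add_right_inj] at e
      rw [hf.skew h v, hh] at e
      refine ⟨-(f x v)⁻¹, ?_⟩
      have hne : f x v ≠ 0 := fun h0 => hv (by simpa [h0] using e)
      rw [neg_smul, ← smul_neg, show -v = f x v • (((g : GL ι F) : Matrix ι ι F) *ᵥ v) by
        rw [← e]; simp, smul_smul, inv_mul_cancel₀ hne, one_smul]
    obtain ⟨a, ha⟩ := exists_eq_smul_of_forall_smul (Matrix.toLin' ((g : GL ι F) : Matrix ι ι F))
      (by simpa [Matrix.toLin'_apply] using hlines)
    simp only [Matrix.toLin'_apply] at ha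
    have hv : (Pi.single i (1 : F) : ι → F) ≠ 0 := by simp
    obtain ⟨h, hh⟩ := exists_partner_top hf hv
    have haa : a * a = 1 := by
      have := mem_isoGL.mp g.2 (Pi.single i 1) h
      rw [ha, ha, hf.bilinear.smul_left, hf.bilinear.smul_right, hh, mul_one] at this
      exact this
    exact ⟨Units.mk0 a (fun h0 => by simp [h0] at haa), Units.ext (by simp [sq, haa]), ha⟩
  choose a ha hga using key
  have e : Subgroup.center (isoGL f) ≃ (powMonoidHom 2 : Fˣ →* Fˣ).ker := by
    refine Equiv.ofBijective (fun g => ⟨a g, by simpa [MonoidHom.mem_ker] using ha g⟩) ⟨?_, ?_⟩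
    · intro g g' hgg
      have := congrArg (fun u : (powMonoidHom 2 : Fˣ →* Fˣ).ker => (u : Fˣ)) hgg
      refine Subtype.ext (Subtype.ext (gl_ext_mulVec fun v => ?_))
      rw [hga g, hga g', show a g = a g' from this]
    · rintro ⟨u, hu⟩
      have hu2 : (u : F) * (u : F) = 1 := by
        have h' := congrArg Units.val (MonoidHom.mem_ker.mp hu)
        simpa [sq] using h'
      have hmul : ∀ v, ((GeneralLinearGroup.scalar ι u : GL ι F) : Matrix ι ι F) *ᵥ v =
          (u : F) • v := fun v => by simp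
      have hm : GeneralLinearGroup.scalar ι u ∈ isoGL f := mem_isoGL.mpr fun v w => by
        rw [hmul, hmul, hf.bilinear.smul_left, hf.bilinear.smul_right, ← mul_assoc, hu2, one_mul]
      have hc : (⟨_, hm⟩ : isoGL f) ∈ Subgroup.center (isoGL f) :=
        Subgroup.mem_center_iff.mpr fun k => Subtype.ext (gl_ext_mulVec fun v => by
          simp only [Subgroup.coe_mul, Units.val_mul, ← mulVec_mulVec, hmul, mulVec_smul])
      refine ⟨⟨_, hc⟩, Subtype.ext (Units.ext ?_)⟩
      have := congrFun ((hga ⟨_, hc⟩ (Pi.single i 1)).symm.trans (hmul _)) i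
      simpa using this
  rw [Nat.card_congr e, IsCyclic.card_powMonoidHom_ker, Nat.card_units,
    Nat.card_eq_fintype_card (α := F), Nat.gcd_comm]

end CfsgLib.Classical

namespace CfsgLib.Classical

open Matrix

lemma exists_sq_ne_one {F : Type*} [Field F] [Fintype F] (h : 4 ≤ Fintype.card F) :
    ∃ a : F, a ≠ 0 ∧ a ^ 2 ≠ 1 := by
  classical
  by_contra! hc
  have hsub : (Finset.univ : Finset F) ⊆ {0, 1, -1} := fun a _ => by
    by_cases ha : a = 0
    · simp [ha]
    · have := hc a ha
      rw [sq_eq_one_iff] at this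
      rcases this with e | e <;> simp [e]
  have h1 := Finset.card_le_card hsub
  have h2 : ({0, 1, -1} : Finset F).card ≤ 3 := Finset.card_le_three
  rw [Finset.card_univ] at h1
  omega

variable {F : Type*} [Field F] {m : ℕ}

lemma perfectWitness_sympForm [Fintype F]
    (h : 3 ≤ m ∨ (m = 2 ∧ 3 ≤ Fintype.card F) ∨ 4 ≤ Fintype.card F) :
    PerfectWitness (Cfsg.sympForm m F) := by
  classical
  by_cases h4 : 4 ≤ Fintype.card F
  · exact Or.inl (exists_sq_ne_one h4)
  refine Or.inr ?_
  have hs : ∀ i j : Fin m, Cfsg.sympForm m F (Pi.single (.inl i) 1) (Pi.single (.inl j) 1) = 0 :=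
    fun i j => by simp [sympForm_apply]
  have hne : ∀ {x : Fin m ⊕ Fin m → F} (k : Fin m), x (.inl k) ≠ 0 → x ≠ 0 := fun k hk e =>
    hk (by rw [e]; rfl)
  by_cases h2 : (2 : F) = 0
  · have h3 : 3 ≤ m := by
      rcases h with h | ⟨_, hq⟩ | h
      · exact h
      · exfalso
        obtain ⟨p, hp, hpc⟩ := FiniteField.card' F
        haveI : CharP F 2 := CharTwo.of_one_ne_zero_of_two_eq_zero one_ne_zero h2
        obtain ⟨k, _, hk⟩ := FiniteField.card F 2
        have hk' : Fintype.card F = 3 := by omega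
        rw [hk'] at hk
        have := congrArg (· % 2) hk
        simp [Nat.pow_mod] at this
      · omega
    refine Or.inr ⟨h2, Pi.single (.inl ⟨0, by omega⟩) 1, Pi.single (.inl ⟨1, by omega⟩) 1,
      Pi.single (.inl ⟨2, by omega⟩) 1, hs _ _, hs _ _, hs _ _, by simp, by simp, by simp,
      hne ⟨0, by omega⟩ (by simp), hne ⟨0, by omega⟩ (by simp), hne ⟨1, by omega⟩ (by simp),
      hne ⟨0, by omega⟩ (by simp)⟩
  · have hm : 2 ≤ m := by rcases h with h | h | h <;> omega
    refine Or.inl ⟨h2, Pi.single (.inl ⟨0, by omega⟩) 1, Pi.single (.inl ⟨1, by omega⟩) 1,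
      hs _ _, by simp, by simp, hne ⟨0, by omega⟩ (by simp), hne ⟨0, by omega⟩ (by simp)⟩

lemma commutator_congr_top {G H : Type*} [Group G] [Group H] (e : G ≃* H)
    (h : commutator H = ⊤) : commutator G = ⊤ := by
  haveI : Group.IsPerfect H := ⟨h⟩
  exact (Group.IsPerfect.ofSurjective (f := e.symm.toMonoidHom) e.symm.surjective).commutator_eq_top

lemma card_center_congr {G H : Type*} [Group G] [Group H] (e : G ≃* H) :
    Nat.card (Subgroup.center G) = Nat.card (Subgroup.center H) :=
  Nat.card_congr (Equiv.subtypeEquiv e.toEquiv fun x => by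
    constructor
    · intro hx
      refine Subgroup.mem_center_iff.mpr fun g => ?_
      obtain ⟨g, rfl⟩ := e.surjective g
      simp only [MulEquiv.toEquiv_eq_coe, EquivLike.coe_coe, ← map_mul,
        Subgroup.mem_center_iff.mp hx g]
    · intro hx
      refine Subgroup.mem_center_iff.mpr fun g => e.injective ?_
      rw [map_mul, map_mul]
      exact Subgroup.mem_center_iff.mp hx (e g))

end CfsgLib.Classical
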