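import Cfsg.Agent.Lib.ClassicalSL
import Cfsg.Agent.Lib.ClassicalCardLinear
import Cfsg.Agent.Lib.ClassicalPSp
import Cfsg.Agent.Lib.ClassicalPOmegaOrders

/-! PΩ⁻_4(q) is PSL_2(q²). -/

set_option autoImplicit false

namespace CfsgLib.FourMinus

open Matrix CfsgLib.Classical.Orders

variable {F : Type*} [Field F] {a b : F}

local notation "VV" => (Fin 1 ⊕ Fin 1) ⊕ Fin 2 → F

/-- the Hermitian matrix of a vector -/
def toH (a b : F) : ((Fin 1 ⊕ Fin 1) ⊕ Fin 2 → F) →ₗ[F] Matrix (Fin 2) (Fin 2) (QK a b) where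
  toFun x := !![⟨x (.inl (.inl 0)), 0⟩, ⟨x (.inr 0), x (.inr 1)⟩;
    star (⟨x (.inr 0), x (.inr 1)⟩ : QK a b), ⟨-x (.inl (.inr 0)), 0⟩]
  map_add' x y := by
    ext i j <;> fin_cases i <;> fin_cases j <;> simp <;> ring
  map_smul' c x := by
    ext i j <;> fin_cases i <;> fin_cases j <;> simp <;> ring

/-- the vector of a matrix -/
def ofH (a b : F) : Matrix (Fin 2) (Fin 2) (QK a b) →ₗ[F] ((Fin 1 ⊕ Fin 1) ⊕ Fin 2 → F) where
  toFun M := Sum.elim (Sum.elim ![(M 0 0).re] ![-(M 1 1).re]) ![(M 0 1).re, (M 0 1).im]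
  map_add' x y := by
    funext i; rcases i with (i | i) | i <;> fin_cases i <;> simp <;> ring
  map_smul' c x := by
    funext i; rcases i with (i | i) | i <;> fin_cases i <;> simp

lemma ofH_toH (x : VV) : ofH a b (toH a b x) = x := by
  funext i; rcases i with (i | i) | i <;> fin_cases i <;> simp [ofH, toH]

lemma isHermitian_toH (x : VV) : (toH a b x).IsHermitian := by
  ext i j <;> fin_cases i <;> fin_cases j <;> simp [toH, Matrix.conjTranspose_apply]

variable [Fintype F]

section

variable (hab : Aniso a b)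
include hab

lemma coeff_ne_zero (h2 : (2 : F) = 0) : a ≠ 0 := fun ha => by
  haveI : CharP F 2 := CharTwo.of_one_ne_zero_of_two_eq_zero one_ne_zero h2
  obtain ⟨c, hc⟩ := FiniteField.isSquare_of_char_two (ringChar.eq F 2) b
  exact one_ne_zero (α := F) (hab c 1 (by rw [ha, hc]; linear_combination (c * c) * h2)).2

lemma im_zero_of_star {z : QK a b} (h : star z = z) : z.im = 0 := by
  have e1 := congrArg QuadraticAlgebra.re h
  have e2 := congrArg QuadraticAlgebra.im h
  simp only [QuadraticAlgebra.re_star, QuadraticAlgebra.im_star] at e1 e2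
  by_cases h2 : (2 : F) = 0
  · exact (mul_eq_zero.mp (show a * z.im = 0 by linear_combination e1)).resolve_left (coeff_ne_zero hab h2)
  · exact (mul_eq_zero.mp (show (2 : F) * z.im = 0 by linear_combination -e2)).resolve_left h2

lemma toH_ofH {M : Matrix (Fin 2) (Fin 2) (QK a b)} (h : M.IsHermitian) : toH a b (ofH a b M) = M := by
  have h0 : ∀ i, (M i i).im = 0 := fun i => im_zero_of_star hab (h.apply i i)
  have h10 : M 1 0 = star (M 0 1) := (h.apply 1 0).symm
  ext i j <;> fin_cases i <;> fin_cases j <;>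
    simp [ofH, toH, h0, h10, QuadraticAlgebra.re_star, QuadraticAlgebra.im_star]

end

lemma quad_eq_det (x : VV) :
    (⟨-Cfsg.quadFormMinus 1 F a b x, 0⟩ : QK a b) = (toH a b x).det := by
  rw [Matrix.det_fin_two]
  ext <;> simp [toH, Cfsg.quadFormMinus, QuadraticAlgebra.re_star, QuadraticAlgebra.im_star] <;> ring

/-- the action -/
def act (A : Matrix (Fin 2) (Fin 2) (QK a b)) : ((Fin 1 ⊕ Fin 1) ⊕ Fin 2 → F) →ₗ[F] ((Fin 1 ⊕ Fin 1) ⊕ Fin 2 → F) :=
  (ofH a b).comp ((LinearMap.mulRight F Aᴴ).comp ((LinearMap.mulLeft F A).comp (toH a b)))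

lemma act_apply (A : Matrix (Fin 2) (Fin 2) (QK a b)) (x : VV) : act A x = ofH a b (A * toH a b x * Aᴴ) := rfl

section

variable (hab : Aniso a b)
include hab

lemma toH_act (A : Matrix (Fin 2) (Fin 2) (QK a b)) (x : VV) : toH a b (act A x) = A * toH a b x * Aᴴ := by
  rw [act_apply, toH_ofH hab (Matrix.isHermitian_mul_mul_conjTranspose A (isHermitian_toH x))]

end

theorem exists_hom (hab : Aniso a b) [Fact (∀ r : F, r ^ 2 ≠ -b + a * r)] :
    ∃ r : Matrix.SpecialLinearGroup (Fin 2) (QK a b) →* ↥(Cfsg.isometryGroup F (Cfsg.quadFormMinus 1 F a b)),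
      ∀ g x, ((r g : GL ((Fin 1 ⊕ Fin 1) ⊕ Fin 2) F) : Matrix ((Fin 1 ⊕ Fin 1) ⊕ Fin 2) ((Fin 1 ⊕ Fin 1) ⊕ Fin 2) F) *ᵥ x =
        act (g : Matrix (Fin 2) (Fin 2) (QK a b)) x := by
  classical
  let R : Matrix.SpecialLinearGroup (Fin 2) (QK a b) →*
      Matrix ((Fin 1 ⊕ Fin 1) ⊕ Fin 2) ((Fin 1 ⊕ Fin 1) ⊕ Fin 2) F :=
    { toFun := fun g => LinearMap.toMatrix' (act (g : Matrix (Fin 2) (Fin 2) (QK a b)))
      map_one' := by
        rw [← LinearMap.toMatrix'_id]
        congr 1
        refine LinearMap.ext fun x => ?_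
        simp [act_apply, ofH_toH]
      map_mul' := fun g h => by
        rw [← LinearMap.toMatrix'_comp]
        congr 1
        refine LinearMap.ext fun x => ?_
        rw [LinearMap.comp_apply, act_apply (g : Matrix (Fin 2) (Fin 2) (QK a b)), toH_act hab, act_apply]
        simp only [Matrix.SpecialLinearGroup.coe_mul, Matrix.conjTranspose_mul, Matrix.mul_assoc] }
  have hR : ∀ g x, (R.toHomUnits g : Matrix ((Fin 1 ⊕ Fin 1) ⊕ Fin 2) ((Fin 1 ⊕ Fin 1) ⊕ Fin 2) F) *ᵥ x =
      act (g : Matrix (Fin 2) (Fin 2) (QK a b)) x := fun g x => LinearMap.toMatrix'_mulVec _ _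
  have hmem : ∀ g, R.toHomUnits g ∈ Cfsg.isometryGroup F (Cfsg.quadFormMinus 1 F a b) := fun g x _ => by
    show Cfsg.quadFormMinus 1 F a b
      ((R.toHomUnits g : Matrix ((Fin 1 ⊕ Fin 1) ⊕ Fin 2) ((Fin 1 ⊕ Fin 1) ⊕ Fin 2) F) *ᵥ x) =
        Cfsg.quadFormMinus 1 F a b x
    rw [hR]
    have h := quad_eq_det (a := a) (b := b) (act (g : Matrix (Fin 2) (Fin 2) (QK a b)) x)
    rw [toH_act hab, Matrix.det_mul, Matrix.det_mul, Matrix.det_conjTranspose, g.2, star_one, one_mul, mul_one,
      ← quad_eq_det] at h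
    exact neg_inj.mp (congrArg QuadraticAlgebra.re h)
  exact ⟨R.toHomUnits.codRestrict _ hmem, hR⟩

set_option maxHeartbeats 800000 in
theorem nonempty_pomega_minus_four_equiv {K : Type*} [Field K] [Fintype K]
    (hK : Fintype.card K = Fintype.card F ^ 2) (hab : Aniso a b) :
    Nonempty (Cfsg.POmega F (Cfsg.quadFormMinus 1 F a b) ≃* Matrix.ProjectiveSpecialLinearGroup (Fin 2) K) := by
  classical
  haveI := fact_of_aniso hab
  haveI : Finite (QK a b) := Module.finite_of_finite F
  haveI := Fintype.ofFinite (QK a b)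
  have hcardQK : Fintype.card (QK a b) = Fintype.card F ^ 2 := by
    rw [← Nat.card_eq_fintype_card, Nat.card_congr (QuadraticAlgebra.equivProd (-b) a), Nat.card_prod,
      Nat.card_eq_fintype_card, sq]
  obtain ⟨q, hq⟩ : ∃ q, q = Fintype.card F := ⟨_, rfl⟩
  have hq2 : 2 ≤ q := hq ▸ Fintype.one_lt_card
  have h4 : 4 ≤ Fintype.card (QK a b) := by rw [hcardQK, ← hq]; nlinarith
  obtain ⟨r, hr⟩ := exists_hom hab
  let S := Matrix.SpecialLinearGroup (Fin 2) (QK a b)
  let O := Cfsg.isometryGroup F (Cfsg.quadFormMinus 1 F a b)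
  have hQ := CfsgLib.Classical.isNondegenerate_quadFormMinus 1 hab
  have hperf : ∀ g : S, r g ∈ Cfsg.Omega F (Cfsg.quadFormMinus 1 F a b) := fun g => by
    have hK' : (Cfsg.Omega F (Cfsg.quadFormMinus 1 F a b)).comap r = ⊤ :=
      CfsgLib.Classical.sl_eq_top_of_transvection fun i j hij c => by
        rw [Subgroup.mem_comap]
        obtain ⟨u, hu0, hu⟩ : ∃ u : QK a b, u ≠ 0 ∧ u ^ 2 ≠ 1 := CfsgLib.Classical.exists_sq_ne_one h4
        have e := CfsgLib.Classical.transvection_eq_commutator_diag hij hu0 (c / (u ^ 2 - 1))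
        rw [div_mul_cancel₀ c (sub_ne_zero.mpr hu)] at e
        rw [e, map_commutatorElement]
        exact Subgroup.commutator_mem_commutator (Subgroup.mem_top _) (Subgroup.mem_top _)
    exact (hK' ▸ Subgroup.mem_top g : g ∈ (Cfsg.Omega F (Cfsg.quadFormMinus 1 F a b)).comap r)
  have hker : ∀ g ∈ r.ker, ∃ c : QK a b, c * c = 1 ∧ (g : Matrix (Fin 2) (Fin 2) (QK a b)) = c • 1 := by
    intro g hg
    obtain ⟨A, hA⟩ : ∃ A, A = (g : Matrix (Fin 2) (Fin 2) (QK a b)) := ⟨_, rfl⟩
    have hx : ∀ x : VV, A * toH a b x * Aᴴ = toH a b x := fun x => by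
      have h2 := congrArg (fun u : ↥O => ((u : GL ((Fin 1 ⊕ Fin 1) ⊕ Fin 2) F) :
        Matrix ((Fin 1 ⊕ Fin 1) ⊕ Fin 2) ((Fin 1 ⊕ Fin 1) ⊕ Fin 2) F) *ᵥ x) (MonoidHom.mem_ker.mp hg)
      simp only [OneMemClass.coe_one, Units.val_one, one_mulVec, hr, ← hA] at h2
      rw [← toH_act hab, h2]
    have hone : toH a b (Sum.elim (Sum.elim ![1] ![-1]) ![0, 0]) = 1 := by
      ext i j <;> fin_cases i <;> fin_cases j <;>
        simp [toH, QuadraticAlgebra.re_star, QuadraticAlgebra.im_star] <;> (first | rfl | (symm; rfl) | simp [QuadraticAlgebra.re_one, QuadraticAlgebra.im_one])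
    have hAA : A * Aᴴ = 1 := by have := hx (Sum.elim (Sum.elim ![1] ![-1]) ![0, 0]); rwa [hone, mul_one] at this
    have hAA' : Aᴴ * A = 1 := mul_eq_one_comm.mp hAA
    have hcomm : ∀ x : VV, A * toH a b x = toH a b x * A := fun x => by
      calc A * toH a b x = A * toH a b x * (Aᴴ * A) := by rw [hAA', mul_one]
        _ = toH a b x * A := by rw [← mul_assoc, hx]
    have hE : toH a b (Sum.elim (Sum.elim ![1] ![0]) ![0, 0]) = !![1, 0; 0, 0] := by
      ext i j <;> fin_cases i <;> fin_cases j <;>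
        simp [toH, QuadraticAlgebra.re_star, QuadraticAlgebra.im_star] <;> (first | rfl | (symm; rfl) | simp [QuadraticAlgebra.re_one, QuadraticAlgebra.im_one])
    have hW : toH a b (Sum.elim (Sum.elim ![0] ![0]) ![1, 0]) = !![0, 1; 1, 0] := by
      ext i j <;> fin_cases i <;> fin_cases j <;>
        simp [toH, QuadraticAlgebra.re_star, QuadraticAlgebra.im_star] <;> (first | rfl | (symm; rfl) | simp [QuadraticAlgebra.re_one, QuadraticAlgebra.im_one])
    have c1 := hcomm (Sum.elim (Sum.elim ![1] ![0]) ![0, 0])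
    have c2 := hcomm (Sum.elim (Sum.elim ![0] ![0]) ![1, 0])
    rw [hE] at c1
    rw [hW] at c2
    have e1 := congrFun (congrFun c1 0) 1
    have e2 := congrFun (congrFun c1 1) 0
    have e3 := congrFun (congrFun c2 0) 1
    simp [Matrix.mul_apply, Matrix.vecMul, dotProduct, Fin.sum_univ_two] at e1 e2 e3
    have hc : A = A 0 0 • 1 := by
      ext i j : 1
      fin_cases i <;> fin_cases j <;> simp [e2, e3, show A 0 1 = 0 from e1.symm]
    refine ⟨A 0 0, ?_, hA ▸ hc⟩
    have := g.2
    rw [← hA, hc, Matrix.det_smul, Matrix.det_one, mul_one, Fintype.card_fin, pow_two] at this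
    simpa using this
  have hk2 : Nat.card r.ker ≤ (if (2 : F) = 0 then 1 else 2) := by
    let κ : r.ker → QK a b := fun g => ((g : S) : Matrix (Fin 2) (Fin 2) (QK a b)) 0 0
    have hinj : Function.Injective κ := fun g g' h => by
      obtain ⟨c, -, hc⟩ := hker g g.2
      obtain ⟨c', -, hc'⟩ := hker g' g'.2
      have e : c = c' := by simpa [κ, hc, hc'] using h
      exact Subtype.ext (Subtype.ext (by rw [hc, hc', e]))
    have himg : ∀ g, κ g = 1 ∨ κ g = -1 := fun g => by
      obtain ⟨c, hcc, hc⟩ := hker g g.2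
      simpa [κ, hc] using mul_self_eq_one_iff.mp hcc
    split_ifs with h2
    · haveI : Subsingleton r.ker := ⟨fun g g' => hinj <| by
        have hm : (-1 : QK a b) = 1 := by
          have h2' : (2 : QK a b) = 0 := by
            rw [← map_ofNat (algebraMap F (QK a b)) 2, h2, map_zero]
          linear_combination -h2'
        rcases himg g with e | e <;> rcases himg g' with e' | e' <;> rw [e, e'] <;> simp [hm]⟩
      exact Nat.card_unique.le
    · calc Nat.card r.ker ≤ Nat.card ({1, -1} : Set (QK a b)) :=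
            Nat.card_le_card_of_injective (fun g => ⟨κ g, by simpa using himg g⟩)
              fun g g' h => hinj (congrArg Subtype.val h)
        _ ≤ 2 := by
            rw [Nat.card_coe_set_eq]
            exact (Set.ncard_insert_le _ _).trans (by simp)
  have hrange : r.range ≤ Cfsg.Omega F (Cfsg.quadFormMinus 1 F a b) := by
    rintro _ ⟨g, rfl⟩; exact hperf g
  have hS : Nat.card r.ker * Nat.card r.range = Nat.card S := by
    rw [← Subgroup.index_ker, Subgroup.card_mul_index]
  have hO : Nat.card ↥O = 2 * Nat.card S := by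
    have hG := CfsgLib.Classical.card_units_mul_card_sl (F := QK a b) (ι := Fin 2)
    rw [Matrix.card_GL_field, Fin.prod_univ_two, hcardQK, ← hq] at hG
    simp only [Fin.val_zero, Fin.val_one, pow_zero, pow_one] at hG
    have e1 : (q ^ 2) ^ 2 - q ^ 2 = q ^ 2 * (q ^ 2 - 1) := by rw [Nat.mul_sub, mul_one, pow_two (q ^ 2)]
    rw [e1] at hG
    have hSL : Nat.card S = q ^ 2 * ((q ^ 2) ^ 2 - 1) := by
      refine Nat.eq_of_mul_eq_mul_left (show 0 < q ^ 2 - 1 by
        have : 4 ≤ q ^ 2 := by nlinarith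
        omega) ?_
      rw [hG]; ring
    rw [CfsgLib.Classical.Orders.card_O_minus hab 1, hSL, ← hq]
    simp only [Finset.prod_range_succ, Finset.prod_range_zero, one_mul, show (1 + 1) * 1 = 2 from rfl,
      show 2 * (0 + 1) = 2 from rfl, show (1 + 1 : ℕ) = 2 from rfl]
    have e2 : (q ^ 2) ^ 2 - 1 = (q ^ 2 + 1) * (q ^ 2 - 1) := by
      rw [← Nat.sq_sub_sq (q ^ 2) 1, one_pow]
    rw [e2]; ring
  have hOmega : r.range = Cfsg.Omega F (Cfsg.quadFormMinus 1 F a b) := by
    have hpos : 0 < Nat.card r.range := Nat.card_pos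
    by_cases h2 : (2 : F) = 0
    · rw [if_pos h2] at hk2
      have hk : Nat.card r.ker = 1 := le_antisymm hk2 Nat.card_pos
      have hidx : r.range.index = 2 := by
        have e := Subgroup.card_mul_index r.range
        rw [hk, one_mul] at hS
        have e' : Nat.card r.range * r.range.index = 2 * Nat.card r.range :=
          e.trans (hO.trans (congrArg (2 * ·) hS.symm))
        nlinarith
      refine le_antisymm hrange ?_
      show commutator ↥O ≤ r.range
      rw [commutator_def, Subgroup.commutator_le]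
      intro g _ h _
      rw [commutatorElement_def, Subgroup.mul_mem_iff_of_index_two hidx, Subgroup.mul_mem_iff_of_index_two hidx,
        Subgroup.mul_mem_iff_of_index_two hidx, inv_mem_iff, inv_mem_iff]
      tauto
    · rw [if_neg h2] at hk2
      refine Subgroup.eq_of_le_of_card_ge hrange ?_
      have e := Subgroup.card_mul_index (Cfsg.Omega F (Cfsg.quadFormMinus 1 F a b))
      rw [CfsgLib.Classical.index_omega_odd hQ h2 (by simp)] at e
      have e' : Nat.card ↥(Cfsg.Omega F (Cfsg.quadFormMinus 1 F a b)) * 4 =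
          2 * (Nat.card r.ker * Nat.card r.range) := e.trans (hO.trans (congrArg (2 * ·) hS.symm))
      have := Nat.mul_le_mul_right (Nat.card r.range) hk2
      nlinarith
  let φ : S →* ↥(Cfsg.Omega F (Cfsg.quadFormMinus 1 F a b)) := r.codRestrict _ hperf
  have hφ : Function.Surjective φ := fun w => by
    obtain ⟨g, hg⟩ : (w : ↥O) ∈ r.range := by rw [hOmega]; exact w.2
    exact ⟨g, Subtype.ext hg⟩
  let σ : QK a b ≃+* K := FiniteField.ringEquivOfCardEq (hcardQK.trans hK.symm)
  let ρ : S →* Matrix.ProjectiveSpecialLinearGroup (Fin 2) K :=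
    (QuotientGroup.mk' _).comp (Matrix.SpecialLinearGroup.map σ.toRingHom)
  have hmap : Function.Surjective (Matrix.SpecialLinearGroup.map (n := Fin 2) σ.toRingHom) := fun g =>
    ⟨Matrix.SpecialLinearGroup.map σ.symm.toRingHom g, Subtype.ext (by ext i j : 1; simp)⟩
  have hmapinj : Function.Injective (Matrix.SpecialLinearGroup.map (n := Fin 2) σ.toRingHom) := fun g h e => by
    refine Subtype.ext ?_
    ext i j : 1
    have := congrFun (congrFun (congrArg (fun u : Matrix.SpecialLinearGroup (Fin 2) K =>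
      (u : Matrix (Fin 2) (Fin 2) K)) e) i) j
    simpa using this
  have hρ : Function.Surjective ρ := (QuotientGroup.mk'_surjective _).comp hmap
  let ψ : S →* Cfsg.POmega F (Cfsg.quadFormMinus 1 F a b) := (QuotientGroup.mk' _).comp φ
  have hψ : Function.Surjective ψ := (QuotientGroup.mk'_surjective _).comp hφ
  have hρk : ρ.ker = Subgroup.center S := by
    ext g
    rw [MonoidHom.mem_ker]
    refine (QuotientGroup.eq_one_iff _).trans ⟨fun h => Subgroup.mem_center_iff.mpr fun c => hmapinj ?_,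
      fun h => Subgroup.mem_center_iff.mpr fun c => ?_⟩
    · rw [map_mul, map_mul]; exact Subgroup.mem_center_iff.mp h _
    · obtain ⟨c, rfl⟩ := hmap c
      rw [← map_mul, ← map_mul, Subgroup.mem_center_iff.mp h c]
  have hψk : ψ.ker = Subgroup.center S := by
    refine le_antisymm (fun g hg => ?_) fun g hg => ?_
    · have hc : ∀ c : S, ∃ e : QK a b, e * e = 1 ∧
          ((g * c : S) : Matrix (Fin 2) (Fin 2) (QK a b)) = e • ((c * g : S) : Matrix (Fin 2) (Fin 2) (QK a b)) := by
        intro c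
        have h1 := Subgroup.mem_center_iff.mp ((QuotientGroup.eq_one_iff _).mp (MonoidHom.mem_ker.mp hg)) (φ c)
        have h2 : r c * r g = r g * r c := congrArg Subtype.val h1
        have hk : (g * c) * (c * g)⁻¹ ∈ r.ker := by
          rw [MonoidHom.mem_ker, r.map_mul, r.map_inv, r.map_mul, r.map_mul, h2]; exact mul_inv_cancel _
        obtain ⟨e, he, hek⟩ := hker _ hk
        refine ⟨e, he, ?_⟩
        calc ((g * c : S) : Matrix (Fin 2) (Fin 2) (QK a b))
            = (((g * c) * (c * g)⁻¹ * (c * g) : S) : Matrix (Fin 2) (Fin 2) (QK a b)) := by rw [inv_mul_cancel_right]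
          _ = _ := by rw [Matrix.SpecialLinearGroup.coe_mul ((g * c) * (c * g)⁻¹) (c * g), hek, smul_mul_assoc, one_mul]
      obtain ⟨e, hee, he⟩ := hc (Matrix.SpecialLinearGroup.transvection (show (0 : Fin 2) ≠ 1 by decide) 1)
      obtain ⟨d, hdd, hd⟩ := hc (Matrix.SpecialLinearGroup.transvection (show (1 : Fin 2) ≠ 0 by decide) 1)
      rw [Matrix.SpecialLinearGroup.coe_mul, Matrix.SpecialLinearGroup.coe_mul,
        Matrix.SpecialLinearGroup.transvection_coe] at he hd
      obtain ⟨A, hA⟩ : ∃ A, A = (g : Matrix (Fin 2) (Fin 2) (QK a b)) := ⟨_, rfl⟩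
      rw [← hA] at he hd
      have p00 := congrFun (congrFun he 0) 0
      have p01 := congrFun (congrFun he 0) 1
      have p10 := congrFun (congrFun he 1) 0
      have p11 := congrFun (congrFun he 1) 1
      have m00 := congrFun (congrFun hd 0) 0
      have m01 := congrFun (congrFun hd 0) 1
      simp [Matrix.mul_apply, Fin.sum_univ_two, Matrix.transvection, Matrix.single, Matrix.one_apply]
        at p00 p01 p10 p11 m00 m01
      have hdet : A 0 0 * A 1 1 - A 0 1 * A 1 0 = 1 := by rw [← Matrix.det_fin_two, hA]; exact g.2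
      have h10 : A 1 0 = 0 := by
        rcases mul_self_eq_one_iff.mp hee with rfl | rfl
        · linear_combination -p00
        · by_cases h : (2 : QK a b) = 0
          · linear_combination p00 + (-(A 0 0)) * h
          · exact (mul_eq_zero.mp (show (2 : QK a b) * A 1 0 = 0 by linear_combination p10)).resolve_left h
      have he1 : e = 1 := by
        rw [h10, mul_zero, sub_zero] at hdet
        have h00 : A 0 0 ≠ 0 := fun h0 => by rw [h0, zero_mul] at hdet; exact zero_ne_one hdet
        rw [h10, add_zero] at p00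
        exact mul_right_cancel₀ h00 (by rw [← p00, one_mul])
      subst he1
      have h0011 : A 0 0 = A 1 1 := by linear_combination p01
      have hd1 : d = 1 ∨ d = -1 := mul_self_eq_one_iff.mp hdd
      have h01 : A 0 1 = 0 := by
        rcases hd1 with rfl | rfl
        · linear_combination m00
        · by_cases h : (2 : QK a b) = 0
          · linear_combination m00 + (-(A 0 0)) * h
          · exact (mul_eq_zero.mp (show (2 : QK a b) * A 0 1 = 0 by linear_combination m01)).resolve_left h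
      refine Subgroup.mem_center_iff.mpr fun c => Subtype.ext ?_
      rw [Matrix.SpecialLinearGroup.coe_mul, Matrix.SpecialLinearGroup.coe_mul, ← hA]
      have hAs : A = A 0 0 • 1 := by
        ext i j : 1
        fin_cases i <;> fin_cases j <;> simp [h10, h01, ← h0011]
      rw [hAs, mul_smul_comm, smul_mul_assoc, mul_one, one_mul]
    · rw [MonoidHom.mem_ker]
      refine (QuotientGroup.eq_one_iff _).mpr (Subgroup.mem_center_iff.mpr fun w => ?_)
      obtain ⟨c, rfl⟩ := hφ w
      rw [← map_mul, ← map_mul, Subgroup.mem_center_iff.mp hg c]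
  exact ⟨(QuotientGroup.quotientKerEquivOfSurjective ψ hψ).symm.trans
    ((QuotientGroup.quotientMulEquivOfEq (hψk.trans hρk.symm)).trans
      (QuotientGroup.quotientKerEquivOfSurjective ρ hρ))⟩

end CfsgLib.FourMinus
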