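import Cfsg.Agent.Lib.ClassicalSL
import Cfsg.Agent.Lib.ClassicalCardLinear
import Cfsg.Agent.Lib.ClassicalPSp
import Cfsg.Agent.Lib.ClassicalPOmegaOrders

/-! PΩ⁺_4(q) is PSL_2(q) × PSL_2(q). -/

set_option autoImplicit false

namespace CfsgLib.FourPlus

open Matrix

variable {F : Type*} [Field F]

/-- the 2 × 2 matrix of a vector -/
def toTwo : (Fin 2 ⊕ Fin 2 → F) →ₗ[F] Matrix (Fin 2) (Fin 2) F where
  toFun x := !![x (.inl 0), x (.inl 1); -x (.inr 1), x (.inr 0)]
  map_add' x y := by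
    ext i j; fin_cases i <;> fin_cases j <;> simp <;> ring
  map_smul' c x := by
    ext i j; fin_cases i <;> fin_cases j <;> simp

/-- the vector of a 2 × 2 matrix -/
def ofTwo : Matrix (Fin 2) (Fin 2) F →ₗ[F] (Fin 2 ⊕ Fin 2 → F) where
  toFun M := Sum.elim ![M 0 0, M 0 1] ![M 1 1, -M 1 0]
  map_add' x y := by
    funext i; rcases i with i | i <;> fin_cases i <;> simp <;> ring
  map_smul' c x := by
    funext i; rcases i with i | i <;> fin_cases i <;> simp

lemma ofTwo_toTwo (x : Fin 2 ⊕ Fin 2 → F) : ofTwo (toTwo x) = x := by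
  funext i; rcases i with i | i <;> fin_cases i <;> simp [ofTwo, toTwo]

lemma toTwo_ofTwo (M : Matrix (Fin 2) (Fin 2) F) : toTwo (ofTwo M) = M := by
  ext i j; fin_cases i <;> fin_cases j <;> simp [ofTwo, toTwo]

lemma quad_eq_det (x : Fin 2 ⊕ Fin 2 → F) : Cfsg.quadFormPlus 2 F x = (toTwo x).det := by
  simp [Cfsg.quadFormPlus, Fin.sum_univ_two, toTwo, Matrix.det_fin_two]

/-- the action -/
def act (a b : Matrix (Fin 2) (Fin 2) F) : (Fin 2 ⊕ Fin 2 → F) →ₗ[F] (Fin 2 ⊕ Fin 2 → F) :=
  ofTwo.comp ((LinearMap.mulRight F bᵀ).comp ((LinearMap.mulLeft F a).comp toTwo))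

lemma act_apply (a b : Matrix (Fin 2) (Fin 2) F) (x : Fin 2 ⊕ Fin 2 → F) :
    act a b x = ofTwo (a * toTwo x * bᵀ) := rfl

/-- the representation by matrices -/
noncomputable def repMat :
    Matrix.SpecialLinearGroup (Fin 2) F × Matrix.SpecialLinearGroup (Fin 2) F →*
      Matrix (Fin 2 ⊕ Fin 2) (Fin 2 ⊕ Fin 2) F where
  toFun g := LinearMap.toMatrix' (act (g.1 : Matrix (Fin 2) (Fin 2) F) (g.2 : Matrix (Fin 2) (Fin 2) F))
  map_one' := by
    rw [← LinearMap.toMatrix'_id]
    congr 1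
    refine LinearMap.ext fun x => ?_
    simp [act_apply, ofTwo_toTwo]
  map_mul' g h := by
    rw [← LinearMap.toMatrix'_comp]
    congr 1
    refine LinearMap.ext fun x => ?_
    simp only [LinearMap.comp_apply, act_apply, toTwo_ofTwo, Prod.fst_mul, Prod.snd_mul,
      Matrix.SpecialLinearGroup.coe_mul, Matrix.transpose_mul, Matrix.mul_assoc]

/-- the representation -/
noncomputable def rep :
    Matrix.SpecialLinearGroup (Fin 2) F × Matrix.SpecialLinearGroup (Fin 2) F →* GL (Fin 2 ⊕ Fin 2) F :=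
  repMat.toHomUnits

lemma rep_mulVec (g : Matrix.SpecialLinearGroup (Fin 2) F × Matrix.SpecialLinearGroup (Fin 2) F)
    (x : Fin 2 ⊕ Fin 2 → F) :
    (rep g : Matrix (Fin 2 ⊕ Fin 2) (Fin 2 ⊕ Fin 2) F) *ᵥ x =
      act (g.1 : Matrix (Fin 2) (Fin 2) F) (g.2 : Matrix (Fin 2) (Fin 2) F) x := by
  show LinearMap.toMatrix' _ *ᵥ x = _
  exact LinearMap.toMatrix'_mulVec _ _

lemma rep_mem (g : Matrix.SpecialLinearGroup (Fin 2) F × Matrix.SpecialLinearGroup (Fin 2) F) :
    rep g ∈ Cfsg.isometryGroup F (Cfsg.quadFormPlus 2 F) := fun x _ => by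
  show Cfsg.quadFormPlus 2 F ((rep g : Matrix (Fin 2 ⊕ Fin 2) (Fin 2 ⊕ Fin 2) F) *ᵥ x) = Cfsg.quadFormPlus 2 F x
  rw [rep_mulVec, quad_eq_det, quad_eq_det, act_apply, toTwo_ofTwo, Matrix.det_mul, Matrix.det_mul,
    Matrix.det_transpose, g.1.2, g.2.2, one_mul, mul_one]

lemma smul_one_of_comm {a : Matrix (Fin 2) (Fin 2) F} (h : ∀ X, a * X = X * a) : a = a 0 0 • 1 := by
  have e1 := congrFun (congrFun (h !![1, 0; 0, 0]) 0) 1
  have e2 := congrFun (congrFun (h !![1, 0; 0, 0]) 1) 0
  have e3 := congrFun (congrFun (h !![0, 1; 0, 0]) 0) 1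
  simp [Matrix.mul_apply, Matrix.vecMul, dotProduct, Fin.sum_univ_two] at e1 e2 e3
  ext i j; fin_cases i <;> fin_cases j <;>
    simp [e2, e3, show a 0 1 = 0 from e1.symm]

set_option maxHeartbeats 800000 in
theorem nonempty_pomega_plus_four_equiv [Fintype F] (hq : 3 ≤ Fintype.card F) :
    Nonempty (Cfsg.POmega F (Cfsg.quadFormPlus 2 F) ≃*
      Matrix.ProjectiveSpecialLinearGroup (Fin 2) F × Matrix.ProjectiveSpecialLinearGroup (Fin 2) F) := by
  classical
  let S := Matrix.SpecialLinearGroup (Fin 2) F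
  let O := Cfsg.isometryGroup F (Cfsg.quadFormPlus 2 F)
  have hQ := CfsgLib.Classical.isNondegenerate_quadFormPlus (F := F) 2
  have hn : 2 ≤ Fintype.card (Fin 2 ⊕ Fin 2) := by simp
  have hidx : (Cfsg.Omega F (Cfsg.quadFormPlus 2 F)).index = if (2 : F) = 0 then 2 else 4 := by
    split_ifs with h2
    · haveI : CharP F 2 := CharTwo.of_one_ne_zero_of_two_eq_zero one_ne_zero h2
      exact CfsgLib.Classical.index_omega_even hQ hn (Or.inl (by rw [Nat.card_eq_fintype_card]; omega))
    · exact CfsgLib.Classical.index_omega_odd hQ h2 hn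
  let r : S × S →* ↥O := rep.codRestrict _ rep_mem
  -- the image lies in Ω
  have hmem : ∀ a b : S, r (a, b) ∈ Cfsg.Omega F (Cfsg.quadFormPlus 2 F) := by
    have key : ∀ ι : S →* ↥O, ∀ a : S, ι a ∈ Cfsg.Omega F (Cfsg.quadFormPlus 2 F) := fun ι a => by
      have hK : (Cfsg.Omega F (Cfsg.quadFormPlus 2 F)).comap ι = ⊤ :=
        CfsgLib.Classical.sl_eq_top_of_transvection fun i j hij c => by
          rw [Subgroup.mem_comap]
          by_cases h4 : 4 ≤ Fintype.card F
          · obtain ⟨u, hu0, hu⟩ : ∃ u : F, u ≠ 0 ∧ u ^ 2 ≠ 1 := CfsgLib.Classical.exists_sq_ne_one h4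
            have e := CfsgLib.Classical.transvection_eq_commutator_diag hij hu0 (c / (u ^ 2 - 1))
            rw [div_mul_cancel₀ c (sub_ne_zero.mpr hu)] at e
            rw [e, map_commutatorElement]
            exact Subgroup.commutator_mem_commutator (Subgroup.mem_top _) (Subgroup.mem_top _)
          · have h3 : Fintype.card F = 3 := by omega
            have h2 : (2 : F) ≠ 0 := CfsgLib.Classical.two_ne_zero_of_odd_card (by rw [h3]; decide)
            have hp : (Matrix.SpecialLinearGroup.transvection hij c : S) ^ 3 = 1 := by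
              apply Subtype.ext
              have h30 : (3 : F) = 0 := by
                have := Nat.cast_card_eq_zero F; rw [h3] at this; exact_mod_cast this
              rw [Matrix.SpecialLinearGroup.coe_pow, Matrix.SpecialLinearGroup.transvection_coe, pow_succ, pow_two]
              show Matrix.transvection i j c * Matrix.transvection i j c * Matrix.transvection i j c = 1
              rw [Matrix.transvection_mul_transvection_same _ _ hij, Matrix.transvection_mul_transvection_same _ _ hij,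
                show c + c + c = 0 by linear_combination c * h30, Matrix.transvection_zero]
            have h4' := Subgroup.pow_index_mem (Cfsg.Omega F (Cfsg.quadFormPlus 2 F))
              (ι (Matrix.SpecialLinearGroup.transvection hij c))
            rwa [hidx, if_neg h2, ← map_pow, show (4 : ℕ) = 3 + 1 from rfl, pow_succ, hp, one_mul] at h4'
      exact (hK ▸ Subgroup.mem_top a : a ∈ (Cfsg.Omega F (Cfsg.quadFormPlus 2 F)).comap ι)
    intro a b
    rw [show ((a, b) : S × S) = (a, 1) * (1, b) by simp, map_mul]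
    exact mul_mem (key (r.comp (MonoidHom.inl S S)) a) (key (r.comp (MonoidHom.inr S S)) b)
  -- the kernel
  have hker : ∀ g ∈ r.ker, ∃ c : F, c * c = 1 ∧ (g.1 : Matrix (Fin 2) (Fin 2) F) = c • 1 ∧
      (g.2 : Matrix (Fin 2) (Fin 2) F) = c • 1 := by
    intro g hg
    have hx : ∀ X : Matrix (Fin 2) (Fin 2) F,
        (g.1 : Matrix (Fin 2) (Fin 2) F) * X * (g.2 : Matrix (Fin 2) (Fin 2) F)ᵀ = X := fun X => by
      have h2 := congrArg (fun u : ↥O =>
        ((u : GL (Fin 2 ⊕ Fin 2) F) : Matrix (Fin 2 ⊕ Fin 2) (Fin 2 ⊕ Fin 2) F) *ᵥ ofTwo X) (MonoidHom.mem_ker.mp hg)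
      simp only [OneMemClass.coe_one, Units.val_one, one_mulVec] at h2
      change ((rep g : GL (Fin 2 ⊕ Fin 2) F) : Matrix (Fin 2 ⊕ Fin 2) (Fin 2 ⊕ Fin 2) F) *ᵥ _ = _ at h2
      rw [rep_mulVec, act_apply, toTwo_ofTwo] at h2
      simpa [toTwo_ofTwo] using congrArg toTwo h2
    obtain ⟨A, hA⟩ : ∃ A, A = (g.1 : Matrix (Fin 2) (Fin 2) F) := ⟨_, rfl⟩
    obtain ⟨B, hB⟩ : ∃ B, B = (g.2 : Matrix (Fin 2) (Fin 2) F)ᵀ := ⟨_, rfl⟩
    rw [← hA, ← hB] at hx
    have hAB : A * B = 1 := by simpa using hx 1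
    have hBA : B * A = 1 := mul_eq_one_comm.mp hAB
    have hc := smul_one_of_comm (a := A) fun X => by
      calc A * X = A * X * (B * A) := by rw [hBA, mul_one]
        _ = X * A := by rw [← mul_assoc, hx]
    obtain ⟨c, hcd⟩ : ∃ c, c = A 0 0 := ⟨_, rfl⟩
    rw [← hcd] at hc
    have hdet : c * c = 1 := by
      have := g.1.2
      rw [← hA, hc, Matrix.det_smul, Matrix.det_one, mul_one, Fintype.card_fin, pow_two] at this
      exact this
    refine ⟨c, hdet, hA ▸ hc, ?_⟩
    have hBc : B = c • 1 := by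
      calc B = (c * c) • B := by rw [hdet, one_smul]
        _ = c • (A * B) := by rw [hc, smul_mul_assoc, one_mul, smul_smul]
        _ = c • 1 := by rw [hAB]
    rw [← Matrix.transpose_transpose (g.2 : Matrix (Fin 2) (Fin 2) F), ← hB, hBc, Matrix.transpose_smul,
      Matrix.transpose_one]
  have hk2 : Nat.card r.ker ≤ (if (2 : F) = 0 then 1 else 2) := by
    let κ : r.ker → F := fun g => (((g : S × S).1 : S) : Matrix (Fin 2) (Fin 2) F) 0 0
    have hinj : Function.Injective κ := fun g g' h => by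
      obtain ⟨c, -, hc1, hc2⟩ := hker g g.2
      obtain ⟨c', -, hc1', hc2'⟩ := hker g' g'.2
      have e : c = c' := by simpa [κ, hc1, hc1'] using h
      exact Subtype.ext (Prod.ext (Subtype.ext (by rw [hc1, hc1', e])) (Subtype.ext (by rw [hc2, hc2', e])))
    have himg : ∀ g, κ g = 1 ∨ κ g = -1 := fun g => by
      obtain ⟨c, hcc, hc, -⟩ := hker g g.2
      simpa [κ, hc] using mul_self_eq_one_iff.mp hcc
    split_ifs with h2
    · haveI : Subsingleton r.ker := ⟨fun g g' => hinj <| by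
        have hm : (-1 : F) = 1 := by linear_combination -h2
        rcases himg g with e | e <;> rcases himg g' with e' | e' <;> rw [e, e'] <;> simp [hm]⟩
      exact Nat.card_unique.le
    · calc Nat.card r.ker ≤ Nat.card ({1, -1} : Set F) :=
            Nat.card_le_card_of_injective (fun g => ⟨κ g, by simpa using himg g⟩)
              fun g g' h => hinj (congrArg Subtype.val h)
        _ ≤ 2 := by
            rw [Nat.card_coe_set_eq]
            exact (Set.ncard_insert_le _ _).trans (by simp)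
  have hrange : r.range ≤ Cfsg.Omega F (Cfsg.quadFormPlus 2 F) := by
    rintro _ ⟨⟨a, b⟩, rfl⟩; exact hmem a b
  have hOmega : r.range = Cfsg.Omega F (Cfsg.quadFormPlus 2 F) := by
    refine Subgroup.eq_of_le_of_card_ge hrange ?_
    have hO := CfsgLib.Classical.Orders.card_O_plus (F := F) (show 1 ≤ 2 by norm_num)
    rw [← Subgroup.card_mul_index (Cfsg.Omega F (Cfsg.quadFormPlus 2 F)), hidx] at hO
    have hS : Nat.card r.ker * Nat.card r.range = Nat.card S * Nat.card S := by
      rw [← Subgroup.index_ker, Subgroup.card_mul_index, Nat.card_prod]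
    have hG := CfsgLib.Classical.card_units_mul_card_sl (F := F) (ι := Fin 2)
    rw [Matrix.card_GL_field, Fin.prod_univ_two] at hG
    obtain ⟨q, hq'⟩ : ∃ q, q = Fintype.card F := ⟨_, rfl⟩
    rw [← hq'] at hO hG
    simp only [Finset.prod_range_succ, Finset.prod_range_zero, one_mul, Fin.val_zero, Fin.val_one, pow_zero,
      pow_one, show (2 - 1 : ℕ) = 1 from rfl, show 2 * 1 = 2 from rfl, show 2 * (0 + 1) = 2 from rfl] at hO hG
    have e1 : q ^ 2 - q = q * (q - 1) := by rw [Nat.mul_sub, mul_one, pow_two]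
    rw [e1] at hG
    have hSL : Nat.card S = q * (q ^ 2 - 1) := by
      refine Nat.eq_of_mul_eq_mul_left (show 0 < q - 1 by omega) ?_
      rw [hG]; ring
    have hS' : Nat.card r.ker * Nat.card r.range = q ^ 2 * (q ^ 2 - 1) * (q ^ 2 - 1) := by
      rw [hS, hSL]; ring
    have := Nat.mul_le_mul_right (Nat.card r.range) hk2
    by_cases h2 : (2 : F) = 0
    · rw [if_pos h2] at hO this
      nlinarith [hO, hS', this]
    · rw [if_neg h2] at hO this
      nlinarith [hO, hS', this]
  let φ : S × S →* ↥(Cfsg.Omega F (Cfsg.quadFormPlus 2 F)) := r.codRestrict _ fun g => hrange ⟨g, rfl⟩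
  have hφ : Function.Surjective φ := fun w => by
    obtain ⟨g, hg⟩ : (w : ↥O) ∈ r.range := by rw [hOmega]; exact w.2
    exact ⟨g, Subtype.ext hg⟩
  let ψ : S × S →* Cfsg.POmega F (Cfsg.quadFormPlus 2 F) := (QuotientGroup.mk' _).comp φ
  have hψ : Function.Surjective ψ := (QuotientGroup.mk'_surjective _).comp hφ
  let ρ : S × S →* Matrix.ProjectiveSpecialLinearGroup (Fin 2) F × Matrix.ProjectiveSpecialLinearGroup (Fin 2) F :=
    MonoidHom.prodMap (QuotientGroup.mk' _) (QuotientGroup.mk' _)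
  have hρ : Function.Surjective ρ := fun ⟨x, y⟩ => by
    obtain ⟨a, rfl⟩ := QuotientGroup.mk'_surjective _ x
    obtain ⟨b, rfl⟩ := QuotientGroup.mk'_surjective _ y
    exact ⟨(a, b), rfl⟩
  have hk : ψ.ker = ρ.ker := by
    ext ⟨a, b⟩
    have hl : (a, b) ∈ ψ.ker ↔ ∀ g, r (g * (a, b)) = r ((a, b) * g) := by
      rw [MonoidHom.mem_ker]
      constructor
      · intro h g
        have hc := Subgroup.mem_center_iff.mp ((QuotientGroup.eq_one_iff _).mp h) (φ g)
        rw [map_mul, map_mul]; exact congrArg Subtype.val hc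
      · intro h
        refine (QuotientGroup.eq_one_iff _).mpr (Subgroup.mem_center_iff.mpr fun w => ?_)
        obtain ⟨g, rfl⟩ := hφ w
        refine Subtype.ext ?_
        have := h g
        rwa [map_mul, map_mul] at this
    have hρk : (a, b) ∈ ρ.ker ↔ a ∈ Subgroup.center S ∧ b ∈ Subgroup.center S := by
      rw [MonoidHom.mem_ker, Prod.ext_iff]
      exact and_congr (QuotientGroup.eq_one_iff a) (QuotientGroup.eq_one_iff b)
    rw [hl, hρk]
    have hkz : ∀ k ∈ r.ker, (k.2 = 1 → k.1 = 1) ∧ (k.1 = 1 → k.2 = 1) := fun k hk => by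
      obtain ⟨c, -, h1, h2⟩ := hker k hk
      exact ⟨fun e => Subtype.ext (h1.trans (h2.symm.trans (congrArg Subtype.val e))),
        fun e => Subtype.ext (h2.trans (h1.symm.trans (congrArg Subtype.val e)))⟩
    have hmk : ∀ g h : S × S, r g = r h → h⁻¹ * g ∈ r.ker := fun g h e => by
      rw [MonoidHom.mem_ker, r.map_mul, r.map_inv, e]; exact inv_mul_cancel _
    have hone : ∀ g h : S × S, r g = r h → g.2 = h.2 → g.1 = h.1 := fun g h e e2 =>
      (inv_mul_eq_one.mp ((hkz _ (hmk g h e)).1 (by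
        show h.2⁻¹ * g.2 = 1
        rw [e2]; exact inv_mul_cancel _))).symm
    have htwo : ∀ g h : S × S, r g = r h → g.1 = h.1 → g.2 = h.2 := fun g h e e2 =>
      (inv_mul_eq_one.mp ((hkz _ (hmk g h e)).2 (by
        show h.1⁻¹ * g.1 = 1
        rw [e2]; exact inv_mul_cancel _))).symm
    constructor
    · intro h
      refine ⟨Subgroup.mem_center_iff.mpr fun c => ?_, Subgroup.mem_center_iff.mpr fun c => ?_⟩
      · simpa using hone _ _ (h (c, 1)) (by simp)
      · simpa using htwo _ _ (h (1, c)) (by simp)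
    · rintro ⟨ha, hb⟩ ⟨c, d⟩
      rw [Prod.mk_mul_mk, Prod.mk_mul_mk, Subgroup.mem_center_iff.mp ha c, Subgroup.mem_center_iff.mp hb d]
  exact ⟨(QuotientGroup.quotientKerEquivOfSurjective ψ hψ).symm.trans
    ((QuotientGroup.quotientMulEquivOfEq hk).trans (QuotientGroup.quotientKerEquivOfSurjective ρ hρ))⟩

end CfsgLib.FourPlus
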