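import Cfsg.Prelude.Def_ParabolicCharacters
import Mathlib

/-! Centralisers and Borel fixed points in `GL₂`. -/

set_option autoImplicit false

namespace CfsgLib.GLTwoCent

open Matrix

variable {F : Type*} [Field F]

local notation "M₂" => Matrix (Fin 2) (Fin 2) F

theorem card_centralizer_diag [Fintype F] (g : GL (Fin 2) F) (h01 : (g : M₂) 0 1 = 0) (h10 : (g : M₂) 1 0 = 0)
    (hne : (g : M₂) 0 0 ≠ (g : M₂) 1 1) :
    Nat.card (Subgroup.centralizer ({g} : Set (GL (Fin 2) F))) = (Fintype.card F - 1) ^ 2 := by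
  classical
  have hoff : ∀ h : GL (Fin 2) F, g * h = h * g → (h : M₂) 0 1 = 0 ∧ (h : M₂) 1 0 = 0 := by
    intro h hh
    have h1 := congrArg (fun y : GL (Fin 2) F => (y : M₂) 0 1) hh
    have h2 := congrArg (fun y : GL (Fin 2) F => (y : M₂) 1 0) hh
    simp only [Units.val_mul, Matrix.mul_apply, Fin.sum_univ_two, h01, h10] at h1 h2
    constructor
    · exact (mul_eq_zero.1 (show ((g : M₂) 0 0 - (g : M₂) 1 1) * (h : M₂) 0 1 = 0 by linear_combination h1)).resolve_left (sub_ne_zero.2 hne)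
    · exact (mul_eq_zero.1 (show ((g : M₂) 1 1 - (g : M₂) 0 0) * (h : M₂) 1 0 = 0 by linear_combination h2)).resolve_left (sub_ne_zero.2 hne.symm)
  have hdet : ∀ h : GL (Fin 2) F, (h : M₂) 0 1 = 0 → (h : M₂) 0 0 ≠ 0 ∧ (h : M₂) 1 1 ≠ 0 := by
    intro h e
    have := (Matrix.isUnits_det_units h).ne_zero
    rw [Matrix.det_fin_two, e, zero_mul, sub_zero] at this
    exact mul_ne_zero_iff.1 this
  let f : Subgroup.centralizer ({g} : Set (GL (Fin 2) F)) → Fˣ × Fˣ := fun h =>
    (Units.mk0 _ (hdet h.1 (hoff h.1 (Subgroup.mem_centralizer_iff.1 h.2 g rfl)).1).1,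
      Units.mk0 _ (hdet h.1 (hoff h.1 (Subgroup.mem_centralizer_iff.1 h.2 g rfl)).1).2)
  have hf : Function.Bijective f := by
    constructor
    · intro a b hab
      have ha := hoff a.1 (Subgroup.mem_centralizer_iff.1 a.2 g rfl)
      have hb := hoff b.1 (Subgroup.mem_centralizer_iff.1 b.2 g rfl)
      have h1 : (a.1 : M₂) 0 0 = (b.1 : M₂) 0 0 := congrArg (fun p => ((p.1 : Fˣ) : F)) hab
      have h2 : (a.1 : M₂) 1 1 = (b.1 : M₂) 1 1 := congrArg (fun p => ((p.2 : Fˣ) : F)) hab
      refine Subtype.ext (Units.ext ?_)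
      ext i j
      fin_cases i <;> fin_cases j <;> simp [ha.1, ha.2, hb.1, hb.2, h1, h2]
    · rintro ⟨u, v⟩
      refine ⟨⟨GeneralLinearGroup.mkOfDetNeZero !![(u : F), 0; 0, (v : F)] (by simp [Matrix.det_fin_two]), ?_⟩, ?_⟩
      · rw [Subgroup.mem_centralizer_iff]
        intro y hy
        rw [Set.mem_singleton_iff] at hy
        subst hy
        refine Units.ext ?_
        show (y : M₂) * !![(u : F), 0; 0, (v : F)] = !![(u : F), 0; 0, (v : F)] * (y : M₂)
        rw [Matrix.eta_fin_two (y : M₂), h01, h10, Matrix.mul_fin_two, Matrix.mul_fin_two]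
        simp [mul_comm]
      · exact Prod.ext (Units.ext (by simp [f, GeneralLinearGroup.mkOfDetNeZero])) (Units.ext (by simp [f, GeneralLinearGroup.mkOfDetNeZero]))
  rw [Nat.card_congr (Equiv.ofBijective f hf), Nat.card_prod, Nat.card_units, Nat.card_eq_fintype_card, pow_two]

set_option maxHeartbeats 1000000 in
theorem card_centralizer_elliptic [Fintype F] (g : GL (Fin 2) F)
    (hell : ∀ (c : F) (v : Fin 2 → F), v ≠ 0 → (g : M₂) *ᵥ v ≠ c • v) :
    Nat.card (Subgroup.centralizer ({g} : Set (GL (Fin 2) F))) = Fintype.card F ^ 2 - 1 := by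
  classical
  have h10 : (g : M₂) 1 0 ≠ 0 := by
    intro e
    refine hell ((g : M₂) 0 0) ![1, 0] (by simp) ?_
    ext i; fin_cases i <;> simp [Matrix.mulVec, dotProduct, Fin.sum_univ_two, e]
  have hnz : ∀ p : F × F, p ≠ 0 → (p.1 • (1 : M₂) + p.2 • (g : M₂)).det ≠ 0 := by
    rintro ⟨a, b⟩ hp h
    obtain ⟨v, hv0, hv⟩ := Matrix.exists_mulVec_eq_zero_iff.2 h
    simp only [Matrix.add_mulVec, Matrix.smul_mulVec, Matrix.one_mulVec] at hv
    by_cases hb : b = 0
    · subst hb
      simp only [zero_smul, add_zero, smul_eq_zero] at hv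
      exact hp (Prod.ext (hv.resolve_right hv0) rfl)
    · refine hell (-a / b) v hv0 ?_
      have h1 : b • ((g : M₂) *ᵥ v) = -(a • v) := eq_neg_of_add_eq_zero_right hv
      rw [← one_smul F ((g : M₂) *ᵥ v), ← inv_mul_cancel₀ hb, ← smul_smul, h1, smul_neg, smul_smul, ← neg_smul]
      congr 1; ring
  let e : Subgroup.centralizer ({g} : Set (GL (Fin 2) F)) → {p : F × F // p ≠ 0} := fun h =>
    ⟨((h.1 : M₂) 0 0 - (h.1 : M₂) 1 0 / (g : M₂) 1 0 * (g : M₂) 0 0, (h.1 : M₂) 1 0 / (g : M₂) 1 0), fun hz => by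
      have h1 := congrArg Prod.fst hz
      have h2 := congrArg Prod.snd hz
      simp only [Prod.fst_zero, Prod.snd_zero] at h1 h2
      rw [h2, zero_mul, sub_zero] at h1
      have h3 : (h.1 : M₂) 1 0 = 0 := by rwa [div_eq_zero_iff, or_iff_left h10] at h2
      have := (Matrix.isUnits_det_units h.1).ne_zero
      rw [Matrix.det_fin_two, h1, h3] at this
      simp at this⟩
  have hform : ∀ h : Subgroup.centralizer ({g} : Set (GL (Fin 2) F)), (h.1 : M₂) = (e h).1.1 • (1 : M₂) + (e h).1.2 • (g : M₂) := by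
    intro h
    have hh := Subgroup.mem_centralizer_iff.1 h.2 g rfl
    have h1 := congrArg (fun y : GL (Fin 2) F => (y : M₂) 0 0) hh
    have h2 := congrArg (fun y : GL (Fin 2) F => (y : M₂) 1 0) hh
    simp only [Units.val_mul, Matrix.mul_apply, Fin.sum_univ_two] at h1 h2
    ext i j
    fin_cases i <;> fin_cases j <;> simp [e] <;> field_simp
    · linear_combination -h1
    · linear_combination -h2
  have he : Function.Bijective e := by
    constructor
    · intro a b hab
      exact Subtype.ext (Units.ext (by rw [hform a, hform b, hab]))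
    · rintro ⟨⟨a, b⟩, hp⟩
      have hd : (a • (1 : M₂) + b • (g : M₂)).det ≠ 0 := hnz (a, b) hp
      refine ⟨⟨GeneralLinearGroup.mkOfDetNeZero (a • (1 : M₂) + b • (g : M₂)) hd, ?_⟩, ?_⟩
      · rw [Subgroup.mem_centralizer_iff]
        intro y hy
        rw [Set.mem_singleton_iff] at hy
        subst hy
        refine Units.ext ?_
        show (y : M₂) * _ = _ * (y : M₂)
        simp [mul_add, add_mul]
      · refine Subtype.ext (Prod.ext ?_ ?_) <;> simp [e, GeneralLinearGroup.mkOfDetNeZero, h10]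
  rw [Nat.card_congr (Equiv.ofBijective e he), Nat.card_eq_fintype_card, Fintype.card_subtype_compl, Fintype.card_subtype_eq, Fintype.card_prod, pow_two]

/-- Coset representatives of the Borel subgroup. -/
def brep : Option F → GL (Fin 2) F
  | none => 1
  | some c => ⟨!![c, 1; 1, 0], !![0, 1; 1, -c], by ext i j; fin_cases i <;> fin_cases j <;> simp, by ext i j; fin_cases i <;> fin_cases j <;> simp⟩

theorem mem_borel (g : GL (Fin 2) F) : g ∈ Cfsg.upperTriangularGL 2 F ↔ (g : M₂) 1 0 = 0 := by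
  refine ⟨fun h => h (show id (0 : Fin 2) < id 1 by simp), fun h i j hij => ?_⟩
  fin_cases i <;> fin_cases j
  all_goals first | exact h | exact absurd hij (by simp)

theorem fixed_card (g : GL (Fin 2) F) :
    Nat.card (MulAction.fixedBy (GL (Fin 2) F ⧸ Cfsg.upperTriangularGL 2 F) g) =
      Nat.card {o : Option F // o.elim ((g : M₂) 1 0 = 0)
        (fun c => (g : M₂) 0 0 * c + (g : M₂) 0 1 = c * ((g : M₂) 1 0 * c + (g : M₂) 1 1))} := by
  have hb : ∀ a b : GL (Fin 2) F, (QuotientGroup.mk a : GL (Fin 2) F ⧸ Cfsg.upperTriangularGL 2 F) = QuotientGroup.mk b ↔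
      ((a⁻¹ * b : GL (Fin 2) F) : M₂) 1 0 = 0 := fun a b => by rw [QuotientGroup.eq, mem_borel]
  have hfix : ∀ o : Option F, (g • (QuotientGroup.mk (brep o) : GL (Fin 2) F ⧸ Cfsg.upperTriangularGL 2 F) = QuotientGroup.mk (brep o)) ↔
      o.elim ((g : M₂) 1 0 = 0) (fun c => (g : M₂) 0 0 * c + (g : M₂) 0 1 = c * ((g : M₂) 1 0 * c + (g : M₂) 1 1)) := by
    intro o
    rw [MulAction.Quotient.smul_mk, eq_comm, hb]
    cases o with
    | none => simp [brep]
    | some c =>
      simp only [Option.elim, smul_eq_mul, Units.val_mul]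
      show (!![(0 : F), 1; 1, -c] * ((g : M₂) * !![c, 1; 1, 0])) 1 0 = 0 ↔ _
      simp [Matrix.mul_apply, Fin.sum_univ_two]
      constructor <;> intro h <;> linear_combination h
  symm
  refine Nat.card_congr (Equiv.ofBijective (fun o => ⟨QuotientGroup.mk (brep o.1), (hfix o.1).2 o.2⟩) ⟨?_, ?_⟩)
  · rintro ⟨o, ho⟩ ⟨o', ho'⟩ h
    have h1 := (hb _ _).1 (congrArg Subtype.val h)
    refine Subtype.ext ?_
    cases o with
    | none =>
      cases o' with
      | none => rfl
      | some c' => simp [brep] at h1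
    | some c =>
      cases o' with
      | none =>
        change (!![(0 : F), 1; 1, -c] * (1 : M₂)) 1 0 = 0 at h1
        simp at h1
      | some c' =>
        change (!![(0 : F), 1; 1, -c] * !![c', 1; 1, 0]) 1 0 = 0 at h1
        simp [Matrix.mul_apply, Fin.sum_univ_two] at h1
        exact congrArg some (by linear_combination -h1)
  · rintro ⟨x, hx⟩
    obtain ⟨a, rfl⟩ := QuotientGroup.mk_surjective x
    obtain ⟨o, ho⟩ : ∃ o, (QuotientGroup.mk (brep o) : GL (Fin 2) F ⧸ Cfsg.upperTriangularGL 2 F) = QuotientGroup.mk a := by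
      by_cases h : (a : M₂) 1 0 = 0
      · exact ⟨none, (hb _ _).2 (by simpa [brep] using h)⟩
      · refine ⟨some ((a : M₂) 0 0 / (a : M₂) 1 0), (hb _ _).2 ?_⟩
        show (!![(0 : F), 1; 1, -((a : M₂) 0 0 / (a : M₂) 1 0)] * (a : M₂)) 1 0 = 0
        simp [Matrix.mul_apply, Fin.sum_univ_two]
        field_simp
        ring
    exact ⟨⟨o, (hfix o).1 (ho ▸ hx)⟩, Subtype.ext ho⟩

end CfsgLib.GLTwoCent
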