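import Cfsg.Agent.Lib.ClassicalUnitary
import Cfsg.Agent.Lib.ClassicalWitt
import Cfsg.Agent.Lib.ClassicalCounts

/-! Counting totally isotropic lines (2-dimensional subspaces) by incidences. -/

set_option autoImplicit false

namespace CfsgLib.LineCount

attribute [local instance] _root_.Classical.propDecidable

open Matrix

variable {F V : Type*} [Field F] [Fintype F] [AddCommGroup V] [Module F V] [Fintype V]
  {R : V → V → Prop}

lemma card_span_singleton {v : V} (hv : v ≠ 0) :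
    Nat.card (Submodule.span F {v}) = Fintype.card F := by
  rw [Module.natCard_eq_pow_finrank (K := F), finrank_span_singleton hv, pow_one,
    Nat.card_eq_fintype_card]

lemma card_sdiff {W L : Submodule F V} (h : L ≤ W) :
    Nat.card {w : V // w ∈ W ∧ w ∉ L} = Nat.card W - Nat.card L := by
  simp only [← SetLike.coe_sort_coe]
  rw [Nat.card_coe_set_eq, Nat.card_coe_set_eq, ← Set.ncard_sdiff (show (L : Set V) ⊆ W from h)]
  exact Nat.card_coe_set_eq ((W : Set V) \ L)

variable (hR : ∀ v w : V, R v v → R v w → R w v → R w w →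
  ∀ a ∈ Submodule.span F {v, w}, ∀ b ∈ Submodule.span F {v, w}, R a b)
include hR

theorem card_through {v : V} (hv : v ≠ 0) (hvv : R v v) :
    Nat.card {W : Submodule F V // Module.finrank F W = 2 ∧ v ∈ W ∧ ∀ a ∈ W, ∀ b ∈ W, R a b} *
        (Fintype.card F ^ 2 - Fintype.card F) =
      Nat.card {w : V // w ∉ Submodule.span F {v} ∧ R v w ∧ R w v ∧ R w w} := by
  classical
  haveI : Fintype (Submodule F V) := Fintype.ofFinite _
  have hfib : ∀ W : {W : Submodule F V //
      Module.finrank F W = 2 ∧ v ∈ W ∧ ∀ a ∈ W, ∀ b ∈ W, R a b},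
      Nat.card {w : V // w ∈ W.1 ∧ w ∉ Submodule.span F {v}} =
        Fintype.card F ^ 2 - Fintype.card F := fun W => by
    rw [card_sdiff ((Submodule.span_singleton_le_iff_mem _ _).mpr W.2.2.1), card_span_singleton hv,
      Module.natCard_eq_pow_finrank (K := F), W.2.1, Nat.card_eq_fintype_card]
  let e : (Σ W : {W : Submodule F V //
      Module.finrank F W = 2 ∧ v ∈ W ∧ ∀ a ∈ W, ∀ b ∈ W, R a b},
      {w : V // w ∈ W.1 ∧ w ∉ Submodule.span F {v}}) →
      {w : V // w ∉ Submodule.span F {v} ∧ R v w ∧ R w v ∧ R w w} := fun p =>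
    ⟨p.2.1, p.2.2.2, p.1.2.2.2 v p.1.2.2.1 _ p.2.2.1, p.1.2.2.2 _ p.2.2.1 v p.1.2.2.1,
      p.1.2.2.2 _ p.2.2.1 _ p.2.2.1⟩
  have hspan : ∀ w, w ∉ Submodule.span F {v} →
      Module.finrank F (Submodule.span F ({v, w} : Set V)) = 2 := fun w hw => by
    have hli : LinearIndependent F ![v, w] :=
      (LinearIndependent.pair_iff' hv).mpr fun a ha => hw (Submodule.mem_span_singleton.mpr ⟨a, ha⟩)
    have h := finrank_span_eq_card hli
    rw [Fintype.card_fin] at h
    rw [← Matrix.range_cons_cons_empty v w ![]]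
    exact h
  have heq : ∀ p, p.1.1 = Submodule.span F ({v, (e p).1} : Set V) := fun p => by
    refine (Submodule.eq_of_le_of_finrank_eq (Submodule.span_le.mpr ?_) ?_).symm
    · rintro x (rfl | rfl)
      · exact p.1.2.2.1
      · exact p.2.2.1
    · rw [hspan _ (e p).2.1, p.1.2.1]
  have he : Function.Bijective e := by
    refine ⟨fun p p' h => ?_, fun w => ?_⟩
    · have h1 : p.1 = p'.1 := Subtype.ext (by rw [heq p, heq p', h])
      have h2 : p.2.1 = p'.2.1 := congrArg Subtype.val h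
      obtain ⟨W, w, hw⟩ := p
      obtain ⟨W', w', hw'⟩ := p'
      simp only at h1 h2
      subst h1; subst h2; rfl
    · exact ⟨⟨⟨_, hspan w.1 w.2.1, Submodule.subset_span (by simp),
        hR v w.1 hvv w.2.2.1 w.2.2.2.1 w.2.2.2.2⟩,
        w.1, Submodule.subset_span (by simp), w.2.1⟩, rfl⟩
  rw [← Nat.card_congr (Equiv.ofBijective e he), Nat.card_sigma, Finset.sum_congr rfl
    (fun W _ => hfib W), Finset.sum_const, Finset.card_univ, smul_eq_mul, Nat.card_eq_fintype_card]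

omit hR in
theorem card_incidence {k : ℕ} (hk : ∀ v : V, v ≠ 0 → R v v →
    Nat.card {W : Submodule F V // Module.finrank F W = 2 ∧ v ∈ W ∧ ∀ a ∈ W, ∀ b ∈ W, R a b} = k) :
    Nat.card {W : Submodule F V // Module.finrank F W = 2 ∧ ∀ a ∈ W, ∀ b ∈ W, R a b} *
        (Fintype.card F ^ 2 - 1) =
      Nat.card {v : V // v ≠ 0 ∧ R v v} * k := by
  classical
  haveI : Fintype (Submodule F V) := Fintype.ofFinite _
  have h1 : Nat.card (Σ W : {W : Submodule F V //
      Module.finrank F W = 2 ∧ ∀ a ∈ W, ∀ b ∈ W, R a b}, {w : V // w ∈ W.1 ∧ w ∉ (⊥ : Submodule F V)}) =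
      Nat.card {W : Submodule F V // Module.finrank F W = 2 ∧ ∀ a ∈ W, ∀ b ∈ W, R a b} *
        (Fintype.card F ^ 2 - 1) := by
    rw [Nat.card_sigma, Finset.sum_congr rfl fun W _ => (by
      rw [card_sdiff bot_le, Module.natCard_eq_pow_finrank (K := F), W.2.1,
        Nat.card_eq_fintype_card, Nat.card_unique] :
      Nat.card {w : V // w ∈ W.1 ∧ w ∉ (⊥ : Submodule F V)} = Fintype.card F ^ 2 - 1),
      Finset.sum_const, Finset.card_univ, smul_eq_mul, Nat.card_eq_fintype_card]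
  rw [← h1]
  refine (Nat.card_congr (?_ : _ ≃ Σ v : {v : V // v ≠ 0 ∧ R v v}, {W : Submodule F V //
      Module.finrank F W = 2 ∧ v.1 ∈ W ∧ ∀ a ∈ W, ∀ b ∈ W, R a b})).trans ?_
  · exact
    { toFun := fun p => ⟨⟨p.2.1, fun h => p.2.2.2 ((Submodule.mem_bot F).mpr h),
          p.1.2.2 _ p.2.2.1 _ p.2.2.1⟩, p.1.1, p.1.2.1, p.2.2.1, p.1.2.2⟩
      invFun := fun p => ⟨⟨p.2.1, p.2.2.1, p.2.2.2.2⟩, p.1.1, p.2.2.2.1,
          fun h => p.1.2.1 ((Submodule.mem_bot F).mp h)⟩
      left_inv := fun p => rfl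
      right_inv := fun p => rfl }
  · rw [Nat.card_sigma, Finset.sum_congr rfl fun v _ => hk v.1 v.2.1 v.2.2, Finset.sum_const,
      Finset.card_univ, smul_eq_mul, Nat.card_eq_fintype_card]

end CfsgLib.LineCount

namespace CfsgLib.LineCount

open Matrix

variable {F : Type*} [Field F] [Fintype F] {q : ℕ}

/-- isotropic vectors orthogonal to a given isotropic vector of the standard hermitian form -/
theorem card_perp_iso (hF : Fintype.card F = q ^ 2) {n : ℕ} {v : Fin (n + 2) → F} (hv : v ≠ 0)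
    (hv0 : Cfsg.hermForm (n + 2) F q v v = 0) :
    Nat.card {w : Fin (n + 2) → F //
        Cfsg.hermForm (n + 2) F q v w = 0 ∧ Cfsg.hermForm (n + 2) F q w w = 0} =
      q ^ 2 * Nat.card {u : Fin n → F // Cfsg.hermForm n F q u u = 0} := by
  classical
  obtain ⟨σ, hσ, hf⟩ := CfsgLib.Classical.exists_isUnitaryForm_hermForm (F := F) (n + 2) q hF
  have hσ2 : ∀ a : F, σ (σ a) = a := hf.involutive
  have hne : (σ : F →+* F) ≠ RingHom.id F := fun h =>
    hf.ne_refl (RingEquiv.ext fun x => RingHom.congr_fun h x)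
  set f := Cfsg.hermForm (n + 2) F q with hfdef
  let B : (Fin (n + 2) → F) →ₛₗ[(σ : F →+* F)] (Fin (n + 2) → F) →ₗ[F] F :=
    LinearMap.mk₂'ₛₗ (σ : F →+* F) (RingHom.id F) (fun u v => f v u)
      (fun a b c => CfsgLib.Classical.herm_add_right hf c a b)
      (fun c a b => CfsgLib.Classical.herm_smul_right hf b c a)
      (fun a b c => hf.add_left b c a)
      (fun c a b => hf.smul_left c b a)
  have hBv : ∀ u w, B u w = f w u := fun u w => rfl
  have hS : B.IsSymm := ⟨fun u w => by rw [hBv, hBv]; exact (hf.herm u w).symm⟩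
  have hB : B.Nondegenerate := by
    have h0 : ∀ u, (∀ w, f w u = 0) → u = 0 := fun u h => by
      by_contra hu
      obtain ⟨w, hw⟩ := (hf.nondegenerate u hu).1
      exact hw (h w)
    refine ⟨fun u h => h0 u h, fun w h => h0 w fun u => ?_⟩
    have := h u
    rw [hBv] at this
    rw [hf.herm, this, map_zero]
  have hfv : ∀ {w₁ w₂ : Fin (n + 2) → F}, f w₁ w₂ = 0 → f w₂ w₁ = 0 := fun h => by
    rw [hf.herm, h, map_zero]
  obtain ⟨a, ha⟩ : ∃ a : F, a ^ (q + 1) = -1 := by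
    obtain ⟨x, -, hx⟩ := CfsgLib.Classical.Count.exists_norm hF (c := (-1 : F))
      (neg_ne_zero.mpr one_ne_zero) (by rw [← hσ, map_neg, map_one])
    exact ⟨x, hx⟩
  let v0 : Fin (n + 2) → F := Fin.cons 1 (Fin.cons a 0)
  have h0q : (0 : F) ^ q = 0 := by rw [← hσ, map_zero]
  have hform : ∀ x : Fin (n + 2) → F, f v0 x = x 0 ^ q + a * x 1 ^ q := fun x => by
    simp only [hfdef, Cfsg.hermForm, Fin.sum_univ_succ, v0]
    simp
  have hv00 : f v0 v0 = 0 := by
    rw [hform, show v0 0 = 1 from rfl, show v0 1 = a from rfl, one_pow, ← pow_succ', ha,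
      add_neg_cancel]
  have hv0ne : v0 ≠ 0 := fun h => one_ne_zero (congrFun h 0 : (1 : F) = 0)
  let φ : Submodule.span F {v0} ≃ₗ[F] Submodule.span F {v} :=
    (LinearEquiv.toSpanNonzeroSingleton F _ v0 hv0ne).symm.trans
      (LinearEquiv.toSpanNonzeroSingleton F _ v hv)
  have hiso : ∀ {z : Fin (n + 2) → F}, f z z = 0 → ∀ x ∈ Submodule.span F {z},
      ∀ y ∈ Submodule.span F {z}, f x y = 0 := fun {z} hz x hx y hy => by
    obtain ⟨c, rfl⟩ := Submodule.mem_span_singleton.mp hx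
    obtain ⟨d, rfl⟩ := Submodule.mem_span_singleton.mp hy
    rw [hf.smul_left, CfsgLib.Classical.herm_smul_right hf, hz, mul_zero, mul_zero]
  obtain ⟨g, hg, hgX⟩ := CfsgLib.Classical.Witt.witt_herm (σ : F →+* F) hne hσ2 B hS hB _ _ φ
    (fun x x' => by
      rw [hBv, hBv, hiso hv00 _ x'.2 _ x.2, hiso hv0 _ (φ x').2 _ (φ x).2])
  have hgv : g v0 = v := by
    rw [hgX ⟨v0, Submodule.mem_span_singleton_self v0⟩]
    show ((LinearEquiv.toSpanNonzeroSingleton F _ v hv)
      ((LinearEquiv.toSpanNonzeroSingleton F _ v0 hv0ne).symm ⟨v0, _⟩) : Fin (n + 2) → F) = v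
    rw [show (⟨v0, Submodule.mem_span_singleton_self v0⟩ : Submodule.span F {v0}) =
      LinearEquiv.toSpanNonzeroSingleton F _ v0 hv0ne 1 from Subtype.ext (one_smul F v0).symm,
      LinearEquiv.symm_apply_apply]
    exact one_smul F v
  have hgf : ∀ x y, f (g x) (g y) = f x y := fun x y => hg y x
  have e1 : {w : Fin (n + 2) → F // f v w = 0 ∧ f w w = 0} ≃
      {w : Fin (n + 2) → F // f v0 w = 0 ∧ f w w = 0} :=
    (Equiv.subtypeEquiv g.toEquiv (fun w => by
      show _ ↔ f v (g w) = 0 ∧ f (g w) (g w) = 0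
      rw [← hgv, hgf, hgf])).symm
  have hsplit : ∀ x : Fin (n + 2) → F, f v0 x = 0 →
      (f x x = 0 ↔ Cfsg.hermForm n F q (fun i => x i.succ.succ) (fun i => x i.succ.succ) = 0) := by
    intro x hx
    rw [hform] at hx
    have h1 : (x 0 ^ q) ^ q = x 0 := by rw [← hσ, ← hσ, hσ2]
    have h2 : (x 1 ^ q) ^ q = x 1 := by rw [← hσ, ← hσ, hσ2]
    have h3 : x 0 = -(a ^ q * x 1) := by
      have := congrArg σ hx
      rw [map_add, map_mul, map_zero, hσ, hσ, hσ, h1, h2] at this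
      exact eq_neg_of_add_eq_zero_left this
    have hs : f x x = x 0 * x 0 ^ q + x 1 * x 1 ^ q +
        Cfsg.hermForm n F q (fun i => x i.succ.succ) (fun i => x i.succ.succ) := by
      simp only [hfdef, Cfsg.hermForm, Fin.sum_univ_succ, Fin.succ_zero_eq_one]
      ring
    have hz : x 0 * x 0 ^ q + x 1 * x 1 ^ q = 0 := by
      have : x 0 ^ q = -(a * x 1 ^ q) := eq_neg_of_add_eq_zero_left hx
      rw [this, h3]
      linear_combination (x 1 * x 1 ^ q) * ha
    rw [hs, hz, zero_add]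
  have e2 : {w : Fin (n + 2) → F // f v0 w = 0 ∧ f w w = 0} ≃
      F × {u : Fin n → F // Cfsg.hermForm n F q u u = 0} :=
    { toFun := fun w => (w.1 1, ⟨fun i => w.1 i.succ.succ, (hsplit w.1 w.2.1).mp w.2.2⟩)
      invFun := fun p => ⟨Fin.cons (-(a ^ q * p.1)) (Fin.cons p.1 p.2.1), by
        have h0 : f v0 (Fin.cons (-(a ^ q * p.1)) (Fin.cons p.1 p.2.1)) = 0 := by
          rw [hform]
          show (-(a ^ q * p.1)) ^ q + a * p.1 ^ q = 0
          rw [← hσ, ← hσ, map_neg, map_mul, hσ2, ← hσ p.1, neg_add_cancel]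
        exact ⟨h0, (hsplit _ h0).mpr (by simpa using p.2.2)⟩⟩
      left_inv := fun w => by
        have hx := w.2.1
        rw [hform] at hx
        refine Subtype.ext (funext fun i => Fin.cases ?_ (fun i => Fin.cases ?_ ?_ i) i)
        · show -(a ^ q * w.1 1) = w.1 0
          have := congrArg σ hx
          rw [map_add, map_mul, map_zero] at this
          rw [← hσ, ← hσ, hσ2, hσ2] at this
          rw [← hσ a]
          exact (eq_neg_of_add_eq_zero_left this).symm
        · rfl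
        · intro i; rfl
      right_inv := fun p => rfl }
  rw [Nat.card_congr (e1.trans e2), Nat.card_prod, Nat.card_eq_fintype_card, hF]

theorem herm_spanR (hF : Fintype.card F = q ^ 2) (n : ℕ) (v w : Fin n → F)
    (h1 : Cfsg.hermForm n F q v v = 0) (h2 : Cfsg.hermForm n F q v w = 0)
    (h3 : Cfsg.hermForm n F q w v = 0) (h4 : Cfsg.hermForm n F q w w = 0) :
    ∀ a ∈ Submodule.span F {v, w}, ∀ b ∈ Submodule.span F {v, w},
      Cfsg.hermForm n F q a b = 0 := by
  obtain ⟨σ, hσ, hf⟩ := CfsgLib.Classical.exists_isUnitaryForm_hermForm (F := F) n q hF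
  intro a ha b hb
  obtain ⟨s, t, rfl⟩ := Submodule.mem_span_pair.mp ha
  obtain ⟨u, z, rfl⟩ := Submodule.mem_span_pair.mp hb
  simp [hf.add_left, hf.smul_left, CfsgLib.Classical.herm_add_right hf,
    CfsgLib.Classical.herm_smul_right hf, h1, h2, h3, h4]

/-- the number of totally isotropic lines, times normalising factors -/
theorem card_herm_lines (hF : Fintype.card F = q ^ 2) (n : ℕ) :
    Nat.card {W : Submodule F (Fin (n + 2) → F) // Module.finrank F W = 2 ∧
        ∀ u ∈ W, ∀ v ∈ W, Cfsg.hermForm (n + 2) F q u v = 0} * (q ^ 4 - 1) * (q ^ 4 - q ^ 2) =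
      (Nat.card {v : Fin (n + 2) → F // Cfsg.hermForm (n + 2) F q v v = 0} - 1) *
        (q ^ 2 * Nat.card {u : Fin n → F // Cfsg.hermForm n F q u u = 0} - q ^ 2) := by
  classical
  let R := fun u v : Fin (n + 2) → F => Cfsg.hermForm (n + 2) F q u v = 0
  obtain ⟨σ, hσ, hf⟩ := CfsgLib.Classical.exists_isUnitaryForm_hermForm (F := F) (n + 2) q hF
  have hR := herm_spanR hF (n + 2)
  have hzero : Cfsg.hermForm (n + 2) F q 0 0 = 0 := by
    simp [Cfsg.hermForm]
  have hq4 : q ^ 4 = Fintype.card F ^ 2 := by rw [hF]; ring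
  have hk : ∀ v : Fin (n + 2) → F, v ≠ 0 → R v v →
      Nat.card {W : Submodule F (Fin (n + 2) → F) // Module.finrank F W = 2 ∧ v ∈ W ∧
        ∀ a ∈ W, ∀ b ∈ W, R a b} * (q ^ 4 - q ^ 2) =
      q ^ 2 * Nat.card {u : Fin n → F // Cfsg.hermForm n F q u u = 0} - q ^ 2 := by
    intro v hv hvv
    rw [hq4]
    conv_lhs => arg 2; arg 2; rw [← hF]
    rw [card_through hR hv hvv, ← card_perp_iso hF hv hvv]
    conv_rhs => arg 2; rw [← hF, ← card_span_singleton (F := F) hv]
    have hsub : ((Submodule.span F {v} : Submodule F (Fin (n + 2) → F)) : Set (Fin (n + 2) → F)) ⊆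
        {w | Cfsg.hermForm (n + 2) F q v w = 0 ∧ Cfsg.hermForm (n + 2) F q w w = 0} :=
      fun w hw => by
        obtain ⟨c, rfl⟩ := Submodule.mem_span_singleton.mp hw
        have hvv' : Cfsg.hermForm (n + 2) F q v v = 0 := hvv
        exact ⟨by simp [CfsgLib.Classical.herm_smul_right hf, hvv'],
          by simp [CfsgLib.Classical.herm_smul_right hf, hf.smul_left, hvv']⟩
    simp only [← SetLike.coe_sort_coe]
    rw [← Set.coe_setOf, ← Set.coe_setOf, Nat.card_coe_set_eq, Nat.card_coe_set_eq,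
      Nat.card_coe_set_eq, ← Set.ncard_sdiff hsub]
    congr 1
    ext w
    refine ⟨fun ⟨h1, h2, _, h4⟩ => ⟨⟨h2, h4⟩, h1⟩, fun ⟨⟨h2, h4⟩, h1⟩ => ⟨h1, h2, ?_, h4⟩⟩
    show Cfsg.hermForm (n + 2) F q w v = 0
    rw [hf.herm, h2, map_zero]
  have hZ : Nat.card {v : Fin (n + 2) → F // v ≠ 0 ∧ R v v} =
      Nat.card {v : Fin (n + 2) → F // Cfsg.hermForm (n + 2) F q v v = 0} - 1 := by
    rw [← Set.coe_setOf, ← Set.coe_setOf, Nat.card_coe_set_eq, Nat.card_coe_set_eq,
      ← Set.ncard_sdiff_singleton_of_mem (show (0 : Fin (n + 2) → F) ∈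
        {v | Cfsg.hermForm (n + 2) F q v v = 0} from hzero)]
    congr 1
    ext w
    exact ⟨fun ⟨h1, h2⟩ => ⟨h2, h1⟩, fun ⟨h1, h2⟩ => ⟨h2, h1⟩⟩
  have hpos : 0 < q ^ 4 - q ^ 2 := by
    have hq : 2 ≤ q := by
      have := Fintype.one_lt_card (α := F); rw [hF] at this; nlinarith
    exact Nat.sub_pos_of_lt (Nat.pow_lt_pow_right hq (by norm_num))
  set c := q ^ 2 * Nat.card {u : Fin n → F // Cfsg.hermForm n F q u u = 0} - q ^ 2
  have hdiv : ∀ v : Fin (n + 2) → F, v ≠ 0 → R v v →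
      Nat.card {W : Submodule F (Fin (n + 2) → F) // Module.finrank F W = 2 ∧ v ∈ W ∧
        ∀ a ∈ W, ∀ b ∈ W, R a b} = c / (q ^ 4 - q ^ 2) := fun v hv hvv =>
    (Nat.div_eq_of_eq_mul_left hpos (hk v hv hvv).symm).symm
  have h := card_incidence hdiv
  rw [← hq4, hZ] at h
  rw [h]
  rcases Nat.eq_zero_or_pos (Nat.card {v : Fin (n + 2) → F // v ≠ 0 ∧ R v v}) with h0 | h0
  · rw [← hZ, h0, zero_mul, zero_mul, zero_mul]
  · haveI := (Nat.card_pos_iff.mp h0).1
    obtain ⟨⟨v, hv, hvv⟩⟩ := ‹Nonempty {v : Fin (n + 2) → F // v ≠ 0 ∧ R v v}›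
    rw [mul_assoc, ← hdiv v hv hvv, hk v hv hvv]

end CfsgLib.LineCount
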