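import Cfsg.Agent.Lib.ClassicalOrdersGU
import Cfsg.Agent.Lib.ClassicalWitt
import Cfsg.Agent.Lib.ClassicalLineCount
import Cfsg.Prelude.Def_ClassicalGeometry

/-! Totally isotropic frames of the standard unitary space and parabolic orders. -/

set_option autoImplicit false

namespace CfsgLib.GUPar

attribute [local instance] _root_.Classical.propDecidable

open Matrix CfsgLib.Classical

variable {F : Type*} [Field F] {q n k : ℕ}

/-- linearly independent tuples spanning a totally isotropic subspace -/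
abbrev Frame (F : Type*) [Field F] (q n k : ℕ) :=
  {v : Fin k → Fin n → F // LinearIndependent F v ∧ ∀ i j, Cfsg.hermForm n F q (v i) (v j) = 0}

/-- the isometries fixing every member of a frame -/
def fixer (e : Frame F q n k) : Subgroup (Cfsg.GU n F q) where
  carrier := {g | ∀ i, ((g : GL (Fin n) F) : Matrix (Fin n) (Fin n) F) *ᵥ e.1 i = e.1 i}
  one_mem' i := by simp
  mul_mem' {a b} ha hb i := by
    show (((a : GL (Fin n) F) : Matrix (Fin n) (Fin n) F) * ((b : GL (Fin n) F) : Matrix (Fin n) (Fin n) F)) *ᵥ e.1 i = _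
    rw [← mulVec_mulVec, hb, ha]
  inv_mem' {a} ha i := by
    show ((a : GL (Fin n) F)⁻¹ : GL (Fin n) F).1 *ᵥ e.1 i = _
    conv_lhs => rw [← ha i, mulVec_mulVec, Units.inv_mul, one_mulVec]

lemma mulVec_injective (g : GL (Fin n) F) :
    Function.Injective ((g : Matrix (Fin n) (Fin n) F) *ᵥ · : (Fin n → F) → Fin n → F) := fun u v h => by
  have h' := congrArg ((↑g⁻¹ : Matrix (Fin n) (Fin n) F) *ᵥ ·) h
  simpa [mulVec_mulVec] using h'

/-- the action on frames -/
def move (g : Cfsg.GU n F q) (e : Frame F q n k) : Frame F q n k :=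
  ⟨fun i => ((g : GL (Fin n) F) : Matrix (Fin n) (Fin n) F) *ᵥ e.1 i,
    e.2.1.map' (Matrix.mulVecLin ((g : GL (Fin n) F) : Matrix (Fin n) (Fin n) F))
      (LinearMap.ker_eq_bot.mpr (mulVec_injective _)),
    fun i j => (g.2 (e.1 i) (e.1 j)).trans (e.2.2 i j)⟩

variable [Fintype F]

/-- the sesquilinear map behind the standard form -/
theorem exists_sesq (hF : Fintype.card F = q ^ 2) (n : ℕ) :
    ∃ (σ : F →+* F) (B : (Fin n → F) →ₛₗ[σ] (Fin n → F) →ₗ[F] F), (∀ x, σ x = x ^ q) ∧
      σ ≠ RingHom.id F ∧ (∀ a, σ (σ a) = a) ∧ B.IsSymm ∧ B.Nondegenerate ∧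
      ∀ u v, B u v = Cfsg.hermForm n F q v u := by
  obtain ⟨σ, hσ, hf⟩ := exists_isUnitaryForm_hermForm (F := F) n q hF
  let B : (Fin n → F) →ₛₗ[(σ : F →+* F)] (Fin n → F) →ₗ[F] F :=
    LinearMap.mk₂'ₛₗ (σ : F →+* F) (RingHom.id F) (fun u v => Cfsg.hermForm n F q v u)
      (fun a b c => herm_add_right hf c a b) (fun c a b => herm_smul_right hf b c a)
      (fun a b c => hf.add_left b c a) (fun c a b => hf.smul_left c b a)
  have hBv : ∀ u w, B u w = Cfsg.hermForm n F q w u := fun u w => rfl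
  refine ⟨σ, B, hσ, fun h => hf.ne_refl (RingEquiv.ext fun x => RingHom.congr_fun h x), hf.involutive,
    ⟨fun u w => by rw [hBv, hBv]; exact (hf.herm u w).symm⟩, ?_, hBv⟩
  have h0 : ∀ u, (∀ w, Cfsg.hermForm n F q w u = 0) → u = 0 := fun u h => by
    by_contra hu
    obtain ⟨w, hw⟩ := (hf.nondegenerate u hu).1
    exact hw (h w)
  refine ⟨fun u h => h0 u h, fun w h => h0 w fun u => ?_⟩
  have := h u
  rw [hBv] at this
  rw [hf.herm, this, map_zero]

theorem exists_move (hF : Fintype.card F = q ^ 2) (e v : Frame F q n k) : ∃ g, move g e = v := by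
  classical
  obtain ⟨σ, B, hσ, hne, hσ2, hS, hB, hBv⟩ := exists_sesq hF n
  let φ : Submodule.span F (Set.range e.1) ≃ₗ[F] Submodule.span F (Set.range v.1) :=
    (Module.Basis.span e.2.1).equiv (Module.Basis.span v.2.1) (Equiv.refl _)
  have hzero : ∀ (w : Frame F q n k), ∀ x ∈ Submodule.span F (Set.range w.1),
      ∀ y ∈ Submodule.span F (Set.range w.1), B x y = 0 := by
    intro w x hx y hy
    induction hx using Submodule.span_induction with
    | mem x hx =>
      obtain ⟨i, rfl⟩ := hx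
      induction hy using Submodule.span_induction with
      | mem y hy => obtain ⟨j, rfl⟩ := hy; rw [hBv]; exact w.2.2 j i
      | zero => simp
      | add a b _ _ ha hb => simp only [map_add, ha, hb, add_zero]
      | smul c a _ ha => simp only [map_smul, ha, smul_zero]
    | zero => simp
    | add a b _ _ ha hb => simp only [map_add, LinearMap.add_apply, ha, hb, add_zero]
    | smul c a _ ha => simp only [map_smulₛₗ, LinearMap.smul_apply, ha, smul_zero]
  obtain ⟨g, hg, hgX⟩ := Witt.witt_herm σ hne hσ2 B hS hB _ _ φ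
    (fun x x' => by rw [hzero v _ (φ x).2 _ (φ x').2, hzero e _ x.2 _ x'.2])
  let M : GL (Fin n) F :=
    ⟨LinearMap.toMatrix' (g : (Fin n → F) →ₗ[F] Fin n → F),
      LinearMap.toMatrix' (g.symm : (Fin n → F) →ₗ[F] Fin n → F),
      by rw [← LinearMap.toMatrix'_comp, LinearEquiv.comp_symm, LinearMap.toMatrix'_id],
      by rw [← LinearMap.toMatrix'_comp, LinearEquiv.symm_comp, LinearMap.toMatrix'_id]⟩
  have hM : ∀ x, (M : Matrix (Fin n) (Fin n) F) *ᵥ x = g x := fun x => LinearMap.toMatrix'_mulVec _ _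
  have hgm : M ∈ Cfsg.GU n F q := Orders.mem_GU.mpr fun a b => by
    rw [hM, hM, ← hBv, ← hBv, hg]
  refine ⟨⟨M, hgm⟩, Subtype.ext (funext fun i => ?_)⟩
  show (M : Matrix (Fin n) (Fin n) F) *ᵥ e.1 i = v.1 i
  rw [hM]
  have h := hgX (Module.Basis.span e.2.1 i)
  rw [Module.Basis.equiv_apply] at h
  simpa [Module.Basis.span_apply] using h

theorem card_move_mem (hF : Fintype.card F = q ^ 2) (e : Frame F q n k) (A : Frame F q n k → Prop) :
    Nat.card {g : Cfsg.GU n F q // A (move g e)} =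
      Nat.card {v : Frame F q n k // A v} * Nat.card (fixer e) := by
  classical
  choose σ hσ using exists_move hF e
  have hmv : ∀ (v : Frame F q n k) (h : fixer e), move (σ v * h.1) e = v := fun v h => by
    refine Subtype.ext (funext fun i => ?_)
    show (((σ v : GL (Fin n) F) : Matrix (Fin n) (Fin n) F) *
      ((h.1 : GL (Fin n) F) : Matrix (Fin n) (Fin n) F)) *ᵥ e.1 i = _
    rw [← mulVec_mulVec, h.2 i]
    exact congrFun (congrArg Subtype.val (hσ v)) i
  rw [← Nat.card_prod]
  refine Nat.card_congr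
    { toFun := fun g => (⟨move g.1 e, g.2⟩, ⟨(σ (move g.1 e))⁻¹ * g.1, fun i => ?_⟩)
      invFun := fun p => ⟨σ p.1.1 * p.2.1, by rw [hmv]; exact p.1.2⟩
      left_inv := fun g => Subtype.ext (mul_inv_cancel_left _ _)
      right_inv := fun p => ?_ }
  · have h1 : ((σ (move g.1 e) : GL (Fin n) F) : Matrix (Fin n) (Fin n) F) *ᵥ e.1 i =
        ((g.1 : GL (Fin n) F) : Matrix (Fin n) (Fin n) F) *ᵥ e.1 i :=
      congrFun (congrArg Subtype.val (hσ (move g.1 e))) i
    show (((σ (move g.1 e) : GL (Fin n) F)⁻¹ : GL (Fin n) F).1 *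
      ((g.1 : GL (Fin n) F) : Matrix (Fin n) (Fin n) F)) *ᵥ e.1 i = _
    rw [← mulVec_mulVec, ← h1, mulVec_mulVec, Units.inv_mul, one_mulVec]
  · refine Prod.ext (Subtype.ext (hmv _ _)) (Subtype.ext ?_)
    show (σ (move (σ p.1.1 * p.2.1) e))⁻¹ * (σ p.1.1 * p.2.1) = p.2.1
    rw [hmv, inv_mul_cancel_left]

theorem frame_mul_fixer (hF : Fintype.card F = q ^ 2) (e : Frame F q n k) :
    Nat.card (Frame F q n k) * Nat.card (fixer e) = Nat.card (Cfsg.GU n F q) := by
  have h := card_move_mem hF e (fun _ => True)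
  rw [Nat.card_congr (Equiv.subtypeUnivEquiv fun _ => trivial),
    Nat.card_congr (Equiv.subtypeUnivEquiv fun _ => trivial)] at h
  exact h.symm

theorem card_frame_succ (hF : Fintype.card F = q ^ 2) (n k : ℕ) :
    Nat.card (Frame F q (n + 2) (k + 1)) =
      (Nat.card {v : Fin (n + 2) → F // Cfsg.hermForm (n + 2) F q v v = 0} - 1) *
        ((q ^ 2) ^ k * Nat.card (Frame F q n k)) := by
  classical
  obtain ⟨σ, hσ, hf⟩ := exists_isUnitaryForm_hermForm (F := F) (n + 2) q hF
  have hσ2 : ∀ a : F, σ (σ a) = a := hf.involutive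
  obtain ⟨a, ha⟩ : ∃ a : F, a ^ (q + 1) = -1 := by
    obtain ⟨x, -, hx⟩ := Count.exists_norm hF (c := (-1 : F))
      (neg_ne_zero.mpr one_ne_zero) (by rw [← hσ, map_neg, map_one])
    exact ⟨x, hx⟩
  let v0 : Fin (n + 2) → F := Fin.cons 1 (Fin.cons a 0)
  have haσ : a * σ a = -1 := by rw [hσ, ← pow_succ', ha]
  let Z := {v : Fin (n + 2) → F // v ≠ 0 ∧ Cfsg.hermForm (n + 2) F q v v = 0}
  have hform : ∀ x : Fin (n + 2) → F,
      Cfsg.hermForm (n + 2) F q x v0 = x 0 + σ a * x 1 := fun x => by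
    have h0q : (0 : F) ^ q = 0 := by rw [← hσ, map_zero]
    simp only [Cfsg.hermForm, Fin.sum_univ_succ, v0]
    simp [hσ, mul_comm]
    simp [h0q]
  have hv00 : Cfsg.hermForm (n + 2) F q v0 v0 = 0 := by
    rw [hform, show v0 0 = 1 from rfl, show v0 1 = a from rfl, mul_comm, haσ, add_neg_cancel]
  have hv0ne : v0 ≠ 0 := fun h => one_ne_zero (congrFun h 0 : (1 : F) = 0)
  let P : (Fin (n + 2) → F) → Type _ := fun v =>
    {f : Frame F q (n + 2) (k + 1) // f.1 0 = v}
  have hmove : ∀ v : Z, Nat.card (P v.1) = Nat.card (P v0) := by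
    intro v
    let e1 : Frame F q (n + 2) 1 := ⟨fun _ => v0, linearIndependent_unique_iff.mpr hv0ne, fun _ _ => hv00⟩
    let v1 : Frame F q (n + 2) 1 :=
      ⟨fun _ => v.1, linearIndependent_unique_iff.mpr v.2.1, fun _ _ => v.2.2⟩
    obtain ⟨g, hg⟩ := exists_move hF e1 v1
    have hgv : ((g : GL (Fin (n + 2)) F) : Matrix (Fin (n + 2)) (Fin (n + 2)) F) *ᵥ v0 = v.1 :=
      congrFun (congrArg Subtype.val hg) 0
    refine (Nat.card_congr
      { toFun := fun f => ⟨move g f.1, by
          show ((g : GL (Fin (n + 2)) F) : Matrix (Fin (n + 2)) (Fin (n + 2)) F) *ᵥ f.1.1 0 = v.1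
          rw [f.2, hgv]⟩
        invFun := fun f => ⟨move g⁻¹ f.1, by
          show ((g : GL (Fin (n + 2)) F)⁻¹ : GL (Fin (n + 2)) F).1 *ᵥ f.1.1 0 = v0
          rw [f.2, ← hgv, mulVec_mulVec, Units.inv_mul, one_mulVec]⟩
        left_inv := fun f => Subtype.ext (Subtype.ext (funext fun i => ?_))
        right_inv := fun f => Subtype.ext (Subtype.ext (funext fun i => ?_)) }).symm
    · show ((g : GL (Fin (n + 2)) F)⁻¹ : GL (Fin (n + 2)) F).1 *ᵥ (_ *ᵥ f.1.1 i) = f.1.1 i
      rw [mulVec_mulVec, Units.inv_mul, one_mulVec]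
    · show ((g : GL (Fin (n + 2)) F) : Matrix (Fin (n + 2)) (Fin (n + 2)) F) *ᵥ (_ *ᵥ f.1.1 i) = f.1.1 i
      rw [mulVec_mulVec]
      show (((g : GL (Fin (n + 2)) F) * (g : GL (Fin (n + 2)) F)⁻¹ : GL (Fin (n + 2)) F).1) *ᵥ _ = _
      rw [mul_inv_cancel, Units.val_one, one_mulVec]
  -- coordinates on the hyperplane orthogonal to `v0`
  let mk : F → (Fin n → F) → Fin (n + 2) → F := fun t u => Fin.cons (-(σ a * t)) (Fin.cons t u)
  have hmk0 : ∀ t u, Cfsg.hermForm (n + 2) F q (mk t u) v0 = 0 := fun t u => by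
    rw [hform, show mk t u 0 = -(σ a * t) from rfl, show mk t u 1 = t from rfl, neg_add_cancel]
  have hmk : ∀ t u s w, Cfsg.hermForm (n + 2) F q (mk t u) (mk s w) = Cfsg.hermForm n F q u w :=
    fun t u s w => by
      simp only [Cfsg.hermForm, Fin.sum_univ_succ, mk, Fin.cons_zero, Fin.cons_succ]
      rw [← hσ (-(σ a * s)), ← hσ s, map_neg, map_mul, hσ2]
      linear_combination (t * σ s) * haσ
  have hmkex : ∀ x, Cfsg.hermForm (n + 2) F q x v0 = 0 →
      mk (x 1) (fun i => x i.succ.succ) = x := fun x hx => by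
    rw [hform] at hx
    funext i
    refine Fin.cases ?_ (fun i => Fin.cases ?_ ?_ i) i
    · show -(σ a * x 1) = x 0
      exact (eq_neg_of_add_eq_zero_left hx).symm
    · rfl
    · intro i; rfl
  let pr : (Fin (n + 2) → F) →ₗ[F] (Fin n → F) := LinearMap.funLeft F F fun i => i.succ.succ
  have hpr : ∀ t u, pr (mk t u) = u := fun t u => rfl
  have hLI : ∀ (u : Fin k → Fin n → F) (t : Fin k → F),
      LinearIndependent F (Fin.cons v0 (fun i => mk (t i) (u i)) : Fin (k + 1) → Fin (n + 2) → F) ↔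
        LinearIndependent F u := by
    intro u t
    constructor
    · intro h
      rw [Fintype.linearIndependent_iff] at h ⊢
      intro c hc i
      have hkey : ∑ i, c i • mk (t i) (u i) = mk (∑ i, c i * t i) 0 := by
        rw [← hc]
        funext j
        refine Fin.cases ?_ (fun j => Fin.cases ?_ ?_ j) j
        · simp [mk, Finset.sum_apply, Finset.mul_sum, mul_left_comm]
        · simp [mk, Finset.sum_apply]
        · intro j; simp [mk, Finset.sum_apply]
      have hmk' : mk (∑ i, c i * t i) 0 = (-(σ a * ∑ i, c i * t i)) • v0 := by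
        funext j
        refine Fin.cases ?_ (fun j => Fin.cases ?_ ?_ j) j
        · simp [mk, v0]
        · show ∑ i, c i * t i = -(σ a * ∑ i, c i * t i) * a
          linear_combination (∑ i, c i * t i) * haσ
        · intro j; simp [mk, v0]
      have h' := h (Fin.cons (-(-(σ a * ∑ i, c i * t i))) c) (by
        rw [Fin.sum_univ_succ]
        simp only [Fin.cons_zero, Fin.cons_succ]
        rw [hkey, hmk', neg_smul, neg_add_cancel]) i.succ
      simpa using h'
    · intro h
      rw [linearIndependent_finCons]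
      refine ⟨LinearIndependent.of_comp pr (by simpa [Function.comp_def, hpr] using h), fun hv => ?_⟩
      obtain ⟨c, hc⟩ := (Submodule.mem_span_range_iff_exists_fun F).mp hv
      have h0 : ∀ i, c i = 0 := fun i => by
        refine Fintype.linearIndependent_iff.mp h c ?_ i
        have := congrArg pr hc
        simp only [map_sum, map_smul, hpr] at this
        rw [this]
        rfl
      simp [h0] at hc
      exact hv0ne hc.symm
  have hP0 : Nat.card (P v0) = (q ^ 2) ^ k * Nat.card (Frame F q n k) := by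
    rw [show (q ^ 2) ^ k = Nat.card (Fin k → F) by simp [Nat.card_eq_fintype_card, hF],
      ← Nat.card_prod]
    refine Nat.card_congr
      { toFun := fun f => (fun i => f.1.1 i.succ 1,
          ⟨fun i => pr (f.1.1 i.succ), ?_, ?_⟩)
        invFun := fun p => ⟨⟨Fin.cons v0 fun i => mk (p.1 i) (p.2.1 i), (hLI _ _).mpr p.2.2.1, ?_⟩, rfl⟩
        left_inv := fun f => ?_
        right_inv := fun p => rfl }
    · have hfix : ∀ i : Fin k, mk (f.1.1 i.succ 1) (pr (f.1.1 i.succ)) = f.1.1 i.succ := fun i =>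
        hmkex _ (by have h := f.1.2.2 i.succ 0; rwa [f.2] at h)
      refine (hLI _ (fun i => f.1.1 i.succ 1)).mp ?_
      have : (Fin.cons v0 fun i => mk (f.1.1 i.succ 1) (pr (f.1.1 i.succ)) :
          Fin (k + 1) → Fin (n + 2) → F) = f.1.1 := by
        funext i
        refine Fin.cases ?_ (fun i => ?_) i
        · exact f.2.symm
        · exact hfix i
      rw [this]; exact f.1.2.1
    · intro i j
      have hfix : ∀ i : Fin k, mk (f.1.1 i.succ 1) (pr (f.1.1 i.succ)) = f.1.1 i.succ := fun i =>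
        hmkex _ (by have h := f.1.2.2 i.succ 0; rwa [f.2] at h)
      rw [← hmk (f.1.1 i.succ 1) _ (f.1.1 j.succ 1), hfix, hfix]
      exact f.1.2.2 _ _
    · intro i j
      induction i using Fin.cases <;> induction j using Fin.cases
      · simpa using hv00
      · simp only [Fin.cons_zero, Fin.cons_succ]
        rw [hf.herm, hmk0, map_zero]
      · simp only [Fin.cons_zero, Fin.cons_succ]
        exact hmk0 _ _
      · simp only [Fin.cons_succ]
        rw [hmk]; exact p.2.2.2 _ _
    · refine Subtype.ext (Subtype.ext (funext fun i => Fin.cases ?_ (fun i => ?_) i))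
      · exact f.2.symm
      · exact hmkex _ (by have h := f.1.2.2 i.succ 0; rwa [f.2] at h)
  let e : Frame F q (n + 2) (k + 1) ≃ Σ v : Z, P v.1 :=
    { toFun := fun f => ⟨⟨f.1 0, f.2.1.ne_zero 0, f.2.2 0 0⟩, f, rfl⟩
      invFun := fun p => p.2.1
      left_inv := fun f => rfl
      right_inv := fun p => Sigma.subtype_ext (Subtype.ext p.2.2) rfl }
  rw [Nat.card_congr e, Nat.card_sigma, Finset.sum_congr rfl (fun v _ => (hmove v).trans hP0),
    Finset.sum_const, Finset.card_univ, smul_eq_mul, ← Nat.card_eq_fintype_card]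
  congr 1
  show Nat.card {v : Fin (n + 2) → F // v ≠ 0 ∧ Cfsg.hermForm (n + 2) F q v v = 0} = _
  have hzero : Cfsg.hermForm (n + 2) F q (0 : Fin (n + 2) → F) 0 = 0 := by simp [Cfsg.hermForm]
  rw [← Set.coe_setOf, ← Set.coe_setOf, Nat.card_coe_set_eq, Nat.card_coe_set_eq,
    ← Set.ncard_sdiff_singleton_of_mem (show (0 : Fin (n + 2) → F) ∈
      {v | Cfsg.hermForm (n + 2) F q v v = 0} from hzero)]
  congr 1
  ext w
  exact ⟨fun ⟨h1, h2⟩ => ⟨h2, h1⟩, fun ⟨h1, h2⟩ => ⟨h2, h1⟩⟩

theorem card_frame (hF : Fintype.card F = q ^ 2) : ∀ (k d : ℕ),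
    Nat.card (Frame F q (d + 2 * k) k) *
        (q ^ (k * (2 * d + k)) * Nat.card (Cfsg.GU d F q)) =
      Nat.card (Cfsg.GU (d + 2 * k) F q)
  | 0, d => by
    haveI : Subsingleton (Fin 0 → Fin (d + 2 * 0) → F) := inferInstance
    have h1 : Nat.card (Frame F q (d + 2 * 0) 0) = 1 := Nat.card_eq_one_iff_unique.mpr
      ⟨⟨fun a b => Subtype.ext (funext fun i => i.elim0)⟩,
        ⟨⟨fun i => i.elim0, linearIndependent_empty_type, fun i => i.elim0⟩⟩⟩
    rw [h1, one_mul, zero_mul, pow_zero, one_mul]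
    rfl
  | k + 1, d => by
    have hq : 2 ≤ q := two_le_q hF
    have ih := card_frame hF k d
    rw [show d + 2 * (k + 1) = d + 2 * k + 2 by ring, card_frame_succ hF,
      Orders.card_GU hF (d + 2 * k + 2)]
    rw [Orders.card_GU hF (d + 2 * k)] at ih
    obtain ⟨m, hm⟩ : ∃ m, m = d + 2 * k := ⟨_, rfl⟩
    rw [← hm] at ih ⊢
    rw [Finset.prod_range_succ, Finset.prod_range_succ,
      show (m + 2) * (m + 2 - 1) / 2 = m * (m - 1) / 2 + (2 * m + 1) from by
        rcases m with _ | j
        · rfl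
        · rw [show (j + 1 + 2) * (j + 1 + 2 - 1) = (j + 1) * j + (2 * (j + 1) + 1) * 2 by
            rw [show j + 1 + 2 - 1 = j + 2 by omega]; ring, Nat.add_mul_div_right _ _ two_pos,
            Nat.add_sub_cancel],
      pow_add,
      show (k + 1) * (2 * d + (k + 1)) = k * (2 * d + k) + (2 * d + 2 * k + 1) by ring, pow_add]
    have hZ := (Count.card_herm hF (m + 2)).1
    generalize Nat.card {v : Fin (m + 2) → F // Cfsg.hermForm (m + 2) F q v v = 0} = Z at hZ ⊢
    generalize Nat.card (Frame F q m k) = Fr at ih ⊢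
    generalize Nat.card (Cfsg.GU d F q) = G at ih ⊢
    generalize hPr : (∏ i ∈ Finset.range m, (if Even i then q ^ (i + 1) + 1 else q ^ (i + 1) - 1)) = Pr at ih
    have hfac : Z - 1 = (if Even m then q ^ (m + 1) + 1 else q ^ (m + 1) - 1) *
        (if Even (m + 1) then q ^ (m + 1 + 1) + 1 else q ^ (m + 1 + 1) - 1) := by
      have hqz : (q : ℤ) ≠ 0 := by exact_mod_cast (by omega : q ≠ 0)
      have h1 : 1 ≤ q ^ (m + 1) := Nat.one_le_pow _ _ (by omega)
      have h2 : 1 ≤ q ^ (m + 1 + 1) := Nat.one_le_pow _ _ (by omega)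
      by_cases he : Even m
      · rw [if_pos he, if_neg (by rw [Nat.even_add_one]; exact not_not.mpr he)]
        have : (Z : ℤ) = ((q ^ (m + 1) + 1) * (q ^ (m + 1 + 1) - 1) + 1 : ℕ) := by
          push_cast [Nat.cast_sub h2]
          apply mul_left_cancel₀ hqz
          rw [hZ, pow_add (-1 : ℤ), he.neg_one_pow]
          ring
        norm_cast at this
        rw [this, Nat.add_sub_cancel]
      · rw [if_neg he, if_pos (by rw [Nat.even_add_one]; exact he)]
        have : (Z : ℤ) = ((q ^ (m + 1) - 1) * (q ^ (m + 1 + 1) + 1) + 1 : ℕ) := by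
          push_cast [Nat.cast_sub h1]
          apply mul_left_cancel₀ hqz
          rw [hZ, pow_add (-1 : ℤ), (Nat.not_even_iff_odd.mp he).neg_one_pow]
          ring
        norm_cast at this
        rw [this, Nat.add_sub_cancel]
    rw [hfac, ← pow_mul]
    calc _ = (Fr * (q ^ (k * (2 * d + k)) * G)) * (q ^ (2 * k) * q ^ (2 * d + 2 * k + 1)) *
          ((if Even m then q ^ (m + 1) + 1 else q ^ (m + 1) - 1) *
            (if Even (m + 1) then q ^ (m + 1 + 1) + 1 else q ^ (m + 1 + 1) - 1)) := by ring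
      _ = _ := by
        rw [ih, ← pow_add, show 2 * k + (2 * d + 2 * k + 1) = 2 * m + 1 by omega]
        ring

theorem card_fixer (hF : Fintype.card F = q ^ 2) (hk : 2 * k ≤ n) (e : Frame F q n k) :
    Nat.card (fixer e) = q ^ (k * (2 * n - 3 * k)) *
      (q ^ ((n - 2 * k) * ((n - 2 * k) - 1) / 2) *
        ∏ i ∈ Finset.range (n - 2 * k), (if Even i then q ^ (i + 1) + 1 else q ^ (i + 1) - 1)) := by
  obtain ⟨d, rfl⟩ : ∃ d, n = d + 2 * k := ⟨n - 2 * k, by omega⟩
  have h := (frame_mul_fixer hF e).trans (card_frame hF k d).symm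
  haveI : Nonempty (Frame F q (d + 2 * k) k) := ⟨e⟩
  rw [Nat.eq_of_mul_eq_mul_left Nat.card_pos h, Orders.card_GU hF, Nat.add_sub_cancel,
    show 2 * (d + 2 * k) - 3 * k = 2 * d + k by omega]

/-- a torus element on an isotropic pair -/
theorem exists_det_element (hF : Fintype.card F = q ^ 2) (W : Submodule F (Fin n → F)) (hn : 1 ≤ n)
    (hW : ∀ u ∈ W, ∀ v ∈ W, Cfsg.hermForm n F q u v = 0) {lam : F} (hlam : lam ^ (q + 1) = 1) :
    ∃ g ∈ Cfsg.GU n F q, (∀ x ∈ W, (g : Matrix (Fin n) (Fin n) F) *ᵥ x ∈ W) ∧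
      (g : Matrix (Fin n) (Fin n) F).det = lam := by
  classical
  obtain ⟨σ, hσ, hf⟩ := exists_isUnitaryForm_hermForm (F := F) n q hF
  have hlam' : lam * σ lam = 1 := by rw [hσ, ← pow_succ', hlam]
  by_cases hbot : W = ⊥
  · subst hbot
    obtain ⟨i⟩ : Nonempty (Fin n) := ⟨⟨0, hn⟩⟩
    have hd : Cfsg.hermForm n F q (Pi.single i 1) (Pi.single i 1) ≠ 0 := by
      simp [Cfsg.hermForm, Pi.single_apply, zero_pow (by have := two_le_q hF; omega : q ≠ 0)]
    obtain ⟨r, hr, -, hdet⟩ := exists_href hf hd hlam'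
    refine ⟨r, hr, fun x hx => ?_, hdet⟩
    rw [Submodule.mem_bot] at hx ⊢
    rw [hx, mulVec_zero]
  · obtain ⟨v, hv, hv0⟩ := Submodule.exists_mem_ne_zero_of_ne_bot hbot
    have hvv := hW v hv v hv
    obtain ⟨w₀, hw₀⟩ := (hf.nondegenerate v hv0).2
    set f := Cfsg.hermForm n F q with hfdef
    change f v w₀ ≠ 0 at hw₀
    obtain ⟨w₁, hw₁⟩ : ∃ w₁, f v w₁ = 1 := ⟨σ (f v w₀)⁻¹ • w₀, by
      show f v (σ (f v w₀)⁻¹ • w₀) = 1
      rw [herm_smul_right hf, hf.involutive, inv_mul_cancel₀ hw₀]⟩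
    obtain ⟨δ, hδ⟩ : ∃ δ : F, δ + σ δ = 1 := by
      obtain ⟨b, hb⟩ : ∃ b, b + σ b ≠ 0 := by
        by_contra! hall
        refine hf.ne_refl (RingEquiv.ext fun b => ?_)
        have h1 : (1 : F) + 1 = 0 := by simpa using hall 1
        rw [RingEquiv.refl_apply]
        linear_combination hall b - b * h1
      exact ⟨b / (b + σ b), by rw [map_div₀, map_add, hf.involutive, add_comm (σ b) b, ← add_div, div_self hb]⟩
    have hw₁' : f w₁ v = 1 := by
      show f w₁ v = 1
      rw [hf.herm]; show σ (f v w₁) = 1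
      rw [hw₁, map_one]
    obtain ⟨w, hvw, hwv, hww⟩ : ∃ w, f v w = 1 ∧ f w v = 1 ∧ f w w = 0 := by
      refine ⟨w₁ + (-(δ * f w₁ w₁)) • v, ?_, ?_, ?_⟩
      · show f v _ = 1
        rw [herm_add_right hf, herm_smul_right hf, hvv, mul_zero, add_zero]; exact hw₁
      · show f _ v = 1
        rw [hf.add_left, hf.smul_left, hvv, mul_zero, add_zero]; exact hw₁'
      · show f _ _ = 0
        rw [hf.add_left, herm_add_right hf, herm_add_right hf, hf.smul_left, hf.smul_left,
          herm_smul_right hf, herm_smul_right hf, hvv]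
        show f w₁ w₁ + σ (-(δ * f w₁ w₁)) * f w₁ v +
          (-(δ * f w₁ w₁) * f v w₁ + -(δ * f w₁ w₁) * (σ (-(δ * f w₁ w₁)) * 0)) = 0
        rw [hw₁, hw₁', map_neg, map_mul, show σ (f w₁ w₁) = f w₁ w₁ from (hf.herm w₁ w₁).symm]
        linear_combination (-(f w₁ w₁)) * hδ
    obtain ⟨c, hc0, hc⟩ : ∃ c : F, c ≠ 0 ∧ c = lam * σ c := by
      obtain ⟨b, hb⟩ : ∃ b, b + lam * σ b ≠ 0 := by
        by_contra! hall
        refine hf.ne_refl (RingEquiv.ext fun b => ?_)
        have h1 : (1 : F) + lam = 0 := by simpa using hall 1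
        rw [RingEquiv.refl_apply]
        linear_combination (-1 : F) * hall b + σ b * h1
      refine ⟨b + lam * σ b, hb, ?_⟩
      rw [map_add, map_mul, hf.involutive]
      linear_combination -b * hlam'
    have hσc : σ c ≠ 0 := fun h => hc0 (by rw [hc, h, mul_zero])
    obtain ⟨c', hcc⟩ : ∃ c', σ c * c' = 1 := ⟨(σ c)⁻¹, mul_inv_cancel₀ hσc⟩
    have hcc' : c * σ c' = 1 := by
      have := congrArg σ hcc; rwa [map_mul, hf.involutive, map_one] at this
    let U : Matrix (Fin n) (Fin 2) F := Matrix.of fun t j => ![v t, w t] j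
    let V : Matrix (Fin 2) (Fin n) F :=
      Matrix.of ![(c - 1) • hfun₂ f w, (c' - 1) • hfun₂ f v]
    let M : Matrix (Fin n) (Fin n) F := 1 + U * V
    have hM : ∀ x, M *ᵥ x = x + (((c - 1) * f x w) • v + ((c' - 1) * f x v) • w) := by
      intro x
      rw [add_mulVec, one_mulVec, ← mulVec_mulVec]
      congr 1
      funext t
      simp only [U, V, mulVec, dotProduct, Fin.sum_univ_two, Pi.add_apply, Pi.smul_apply,
        smul_eq_mul, Matrix.of_apply, Matrix.cons_val_zero, Matrix.cons_val_one]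
      have e1 : ∀ d, ∑ i, (c - 1) * hfun₂ f d i * x i = (c - 1) * f x d := fun d => by
        rw [← hfun₂_dotProduct hf, dotProduct, Finset.mul_sum]
        exact Finset.sum_congr rfl fun i _ => by ring
      have e2 : ∀ d, ∑ i, (c' - 1) * hfun₂ f d i * x i = (c' - 1) * f x d := fun d => by
        rw [← hfun₂_dotProduct hf, dotProduct, Finset.mul_sum]
        exact Finset.sum_congr rfl fun i _ => by ring
      rw [e1, e2]
      ring
    have hdet : M.det = c * c' := by
      show (1 + U * V).det = _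
      rw [Matrix.det_one_add_mul_comm, Matrix.det_fin_two]
      have e : ∀ (i j : Fin 2), (1 + V * U : Matrix (Fin 2) (Fin 2) F) i j = (1 : Matrix (Fin 2) (Fin 2) F) i j +
          ![(c - 1), (c' - 1)] i * f (![v, w] j) (![w, v] i) := by
        intro i j
        rw [Matrix.add_apply]
        congr 1
        simp only [mul_apply, U, V, Matrix.of_apply]
        rw [← hfun₂_dotProduct hf, dotProduct, Finset.mul_sum]
        fin_cases i <;> fin_cases j <;> simp [mul_assoc]
      rw [e, e, e, e]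
      simp [hvw, hwv, show f v v = 0 from hvv, hww]
    have hcl : c * c' = lam := by
      conv_lhs => rw [hc]
      rw [mul_assoc, hcc, mul_one]
    refine ⟨GeneralLinearGroup.mkOfDetNeZero M (by
      rw [hdet, hcl]; intro h; simp [h] at hlam), Orders.mem_GU.mpr fun x y => ?_, fun x hx => ?_, ?_⟩
    · rw [GeneralLinearGroup.val_mkOfDetNeZero, hM, hM]
      have hh : ∀ a b, f a b = σ (f b a) := hf.herm
      show f _ _ = f x y
      simp only [hf.add_left, herm_add_right hf, hf.smul_left, herm_smul_right hf]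
      simp only [hvv, hww, hvw, hwv,
        map_mul, map_sub, map_one, ← hf.herm]
      linear_combination (f x w * f v y) * hcc' +
        (f x v * f w y) * hcc
    · rw [GeneralLinearGroup.val_mkOfDetNeZero, hM, show f x v = 0 from hW x hx v hv, mul_zero,
        zero_smul, add_zero]
      exact W.add_mem hx (W.smul_mem _ hv)
    · rw [GeneralLinearGroup.val_mkOfDetNeZero, hdet, hcl]

end CfsgLib.GUPar
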