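import Cfsg.Agent.Lib.ClassicalOrthParity
import Cfsg.Agent.Lib.ClassicalQuadStd2

/-! The two families of maximal totally singular subspaces. -/

set_option autoImplicit false

namespace CfsgLib.Classical

open Matrix

variable {ι : Type} [Fintype ι] [DecidableEq ι] {F : Type*} [Field F] {Q : (ι → F) → F}

local notation "pf" => QuadraticMap.polar Q

variable (hQ : Cfsg.Geo.IsNondegenerateQuadraticForm Q)
include hQ

theorem halfTS_parity {U W X : Submodule F (ι → F)} (hU : IsHalfTS (Q := Q) U)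
    (hW : IsHalfTS (Q := Q) W) (hX : IsHalfTS (Q := Q) X) :
    (Module.finrank F (U ⊓ W : Submodule F (ι → F)) + Module.finrank F (W ⊓ X : Submodule F (ι → F)) +
      Module.finrank F (U ⊓ X : Submodule F (ι → F)) + Module.finrank F X) % 2 = 0 := by
  suffices h : ∀ N : ℕ, ∀ U : Submodule F (ι → F), IsHalfTS (Q := Q) U →
      Module.finrank F W ≤ N + Module.finrank F (U ⊓ W : Submodule F (ι → F)) →
      (Module.finrank F (U ⊓ W : Submodule F (ι → F)) + Module.finrank F (W ⊓ X : Submodule F (ι → F)) +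
        Module.finrank F (U ⊓ X : Submodule F (ι → F)) + Module.finrank F X) % 2 = 0 from
    h _ U hU (Nat.le_add_right _ _)
  have hdim : ∀ {V : Submodule F (ι → F)}, IsHalfTS (Q := Q) V →
      Module.finrank F V = Module.finrank F W := fun hV => by
    have := hV.2; have := hW.2; omega
  intro N
  induction N with
  | zero =>
    intro U hU hN
    have h1 : U ⊓ W = W := Submodule.eq_of_le_of_finrank_le inf_le_right (by omega)
    have h2 : W = U := Submodule.eq_of_le_of_finrank_eq (h1 ▸ inf_le_left) (hdim hU).symm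
    subst h2
    have := hdim hX
    rw [inf_idem]
    omega
  | succ N ih =>
    intro U hU hN
    by_cases hUW : U = W
    · subst hUW
      have := hdim hX
      rw [inf_idem]
      omega
    obtain ⟨u, huU, w, hwW, huw⟩ : ∃ u ∈ U, ∃ w ∈ W, pf u w ≠ 0 := by
      by_contra! hno
      refine hUW (Submodule.eq_of_le_of_finrank_eq ?_ (hdim hU))
      intro u hu
      rw [← qorth_halfTS hQ hW]
      exact (mem_qorth hQ).mpr fun w hw => hno u hu w hw
    obtain ⟨d, hd⟩ : ∃ d, d = u + w := ⟨_, rfl⟩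
    have hQd : Q d = pf u w := by rw [hd, q_add hQ, hU.1 u huU, hW.1 w hwW]; ring
    have hd0 : Q d ≠ 0 := hQd ▸ huw
    obtain ⟨U', hU'⟩ : ∃ U', U' = U.map (Matrix.toLin' (qR hQ d : Matrix ι ι F)) := ⟨_, rfl⟩
    have hU'h : IsHalfTS (Q := Q) U' := hU' ▸ halfTS_map hQ (qR_mem_isometry hQ hd0) hU
    have hgt : Module.finrank F (U ⊓ W : Submodule F (ι → F)) <
        Module.finrank F (U' ⊓ W : Submodule F (ι → F)) := by
      refine Submodule.finrank_lt_finrank_of_lt (SetLike.lt_iff_le_and_exists.mpr ⟨fun x hx => ?_, w, ?_, fun hwU => huw ?_⟩)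
      · refine Submodule.mem_inf.mpr ⟨?_, hx.2⟩
        rw [hU']
        refine ⟨x, hx.1, ?_⟩
        rw [Matrix.toLin'_apply, qR_mulVec hQ hd0, hd, hQ.polar_bilinear.add_right,
          ts_pf hQ hU.1 hx.1 huU, ts_pf hQ hW.1 hx.2 hwW]
        simp
      · refine Submodule.mem_inf.mpr ⟨?_, hwW⟩
        rw [hU']
        refine ⟨-u, U.neg_mem huU, ?_⟩
        rw [Matrix.toLin'_apply, qR_mulVec hQ hd0, pf_neg_left hQ,
          show pf u d = Q d by
            rw [hQd, hd, hQ.polar_bilinear.add_right, ts_pf hQ hU.1 huU huU, zero_add],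
          mul_neg, inv_mul_cancel₀ hd0, hd]
        module
      · exact ts_pf hQ hU.1 huU hwU.1
    have h1 := parity_qR hQ hd0 hW hU
    have h2 := parity_qR hQ hd0 hX hU
    have h3 := ih U' hU'h (by omega)
    rw [← hU'] at h1 h2
    rw [inf_comm W U', inf_comm W U] at h1
    rw [inf_comm X U', inf_comm X U] at h2
    omega

theorem card_halfTS_containing {W₀ U : Submodule F (ι → F)} (hW₀ : IsHalfTS (Q := Q) W₀)
    (hU : Cfsg.Geo.IsTotallySingularQuad Q U) (hdim : 2 * Module.finrank F U + 2 = Fintype.card ι) :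
    Nat.card {W : Submodule F (ι → F) // IsHalfTS (Q := Q) W ∧ U ≤ W} = 2 := by
  obtain ⟨W₁, hW₁⟩ : ∃ W₁, W₁ = U ⊔ (qorth hQ U ⊓ W₀) := ⟨_, rfl⟩
  have h1 : IsHalfTS (Q := Q) W₁ := by
    refine ⟨?_, ?_⟩
    · intro x hx
      obtain ⟨p, hp, r, hr, rfl⟩ := Submodule.mem_sup.mp (hW₁ ▸ hx)
      rw [q_add hQ, hU p hp, hW₀.1 r hr.2, pf_comm hQ, (mem_qorth hQ).mp hr.1 p hp]
      ring
    · have e1 : qorth hQ (U ⊔ W₀) = qorth hQ U ⊓ W₀ := by
        ext x
        rw [mem_qorth hQ]
        constructor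
        · intro h
          refine ⟨(mem_qorth hQ).mpr fun s hs => h s (Submodule.mem_sup_left hs), ?_⟩
          have : x ∈ qorth hQ W₀ := (mem_qorth hQ).mpr fun s hs => h s (Submodule.mem_sup_right hs)
          rwa [qorth_halfTS hQ hW₀] at this
        · rintro ⟨hxU, hxW⟩ s hs
          obtain ⟨p, hp, r, hr, rfl⟩ := Submodule.mem_sup.mp hs
          rw [hQ.polar_bilinear.add_right, (mem_qorth hQ).mp hxU p hp, ts_pf hQ hW₀.1 hxW hr, add_zero]
      have e2 : U ⊓ (qorth hQ U ⊓ W₀) = U ⊓ W₀ := by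
        rw [← inf_assoc, inf_eq_left.mpr (ts_le_qorth hQ hU)]
      have h2 := finrank_qorth hQ (U ⊔ W₀)
      rw [e1] at h2
      have h3 := Submodule.finrank_sup_add_finrank_inf_eq U W₀
      have h4 := Submodule.finrank_sup_add_finrank_inf_eq U (qorth hQ U ⊓ W₀)
      rw [← hW₁, e2] at h4
      have := hW₀.2
      omega
  have hUW₁ : U ≤ W₁ := hW₁ ▸ le_sup_left
  obtain ⟨w, hw, hwU⟩ := SetLike.exists_of_lt (lt_of_le_of_ne hUW₁ fun h => by
    have := h1.2; rw [← h] at this; omega)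
  have hQU := finrank_qorth hQ U
  have hW₁le : W₁ ≤ qorth hQ U := fun x hx => (mem_qorth hQ).mpr fun s hs => ts_pf hQ h1.1 hx (hUW₁ hs)
  obtain ⟨z₀, hz₀, hz₀n⟩ := SetLike.exists_of_lt (lt_of_le_of_ne hW₁le fun h => by
    have := h1.2; rw [h] at this; omega)
  have hspan : W₁ = U ⊔ Submodule.span F {w} := by
    refine (Submodule.eq_of_le_of_finrank_le (sup_le hUW₁ ((Submodule.span_singleton_le_iff_mem _ _).mpr hw)) ?_).symm
    have := finrank_sup_span (W := U) hwU
    have := h1.2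
    omega
  have hpw : pf z₀ w ≠ 0 := fun h => hz₀n (by
    rw [← qorth_halfTS hQ h1, mem_qorth hQ]
    intro s hs
    obtain ⟨p, hp, r, hr, rfl⟩ := Submodule.mem_sup.mp (hspan ▸ hs)
    obtain ⟨t, rfl⟩ := Submodule.mem_span_singleton.mp hr
    rw [hQ.polar_bilinear.add_right, (mem_qorth hQ).mp hz₀ p hp, hQ.polar_bilinear.smul_right, h]
    ring)
  obtain ⟨z, hz⟩ : ∃ z, z = z₀ - (Q z₀ / pf z₀ w) • w := ⟨_, rfl⟩
  have hzQ : Q z = 0 := by
    rw [hz, q_sub hQ, hQ.smul, h1.1 w hw, hQ.polar_bilinear.smul_right, div_mul_cancel₀ _ hpw]; ring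
  have hzU : ∀ p ∈ U, pf z p = 0 := fun p hp => by
    rw [hz, pf_sub_left hQ, (mem_qorth hQ).mp hz₀ p hp, hQ.polar_bilinear.smul_left,
      ts_pf hQ h1.1 hw (hUW₁ hp)]
    ring
  have hzn : z ∉ W₁ := fun h => hz₀n (by
    rw [show z₀ = z + (Q z₀ / pf z₀ w) • w by rw [hz]; abel]
    exact W₁.add_mem h (W₁.smul_mem _ hw))
  have hzw : pf z w ≠ 0 := by
    rw [hz, pf_sub_left hQ, hQ.polar_bilinear.smul_left, pf_self hQ w, h1.1 w hw]
    simpa using hpw
  obtain ⟨W₂, hW₂⟩ : ∃ W₂, W₂ = U ⊔ Submodule.span F {z} := ⟨_, rfl⟩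
  have h2 : IsHalfTS (Q := Q) W₂ := by
    refine ⟨?_, ?_⟩
    · intro x hx
      obtain ⟨p, hp, r, hr, rfl⟩ := Submodule.mem_sup.mp (hW₂ ▸ hx)
      obtain ⟨t, rfl⟩ := Submodule.mem_span_singleton.mp hr
      rw [q_add hQ, hU p hp, hQ.smul, hzQ, hQ.polar_bilinear.smul_right, pf_comm hQ, hzU p hp]
      ring
    · rw [hW₂, finrank_sup_span (W := U) (fun h => hzn (hUW₁ h))]
      omega
  have hne : W₁ ≠ W₂ := fun h => hzn (h.symm ▸ hW₂ ▸ Submodule.mem_sup_right (Submodule.mem_span_singleton_self z))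
  rw [Nat.card_eq_two_iff]
  refine ⟨⟨W₁, h1, hUW₁⟩, ⟨W₂, h2, hW₂ ▸ le_sup_left⟩, fun h => hne (congrArg Subtype.val h),
    Set.eq_univ_of_forall ?_⟩
  rintro ⟨W, hW, hUW⟩
  have hWle : W ≤ qorth hQ U := fun x hx => (mem_qorth hQ).mpr fun s hs => ts_pf hQ hW.1 hx (hUW hs)
  have hall : qorth hQ U = W₁ ⊔ Submodule.span F {z} := by
    refine (Submodule.eq_of_le_of_finrank_le (sup_le hW₁le ((Submodule.span_singleton_le_iff_mem _ _).mpr
      ((mem_qorth hQ).mpr hzU))) ?_).symm
    rw [finrank_sup_span (W := W₁) hzn]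
    have := h1.2
    omega
  obtain ⟨x, hx, hxU⟩ := SetLike.exists_of_lt (lt_of_le_of_ne hUW fun h => by
    have := hW.2; rw [← h] at this; omega)
  obtain ⟨y, hy, r, hr, hxe⟩ := Submodule.mem_sup.mp (hall ▸ hWle hx)
  obtain ⟨b, rfl⟩ := Submodule.mem_span_singleton.mp hr
  obtain ⟨p, hp, r', hr', hye⟩ := Submodule.mem_sup.mp (hspan ▸ hy)
  obtain ⟨a, rfl⟩ := Submodule.mem_span_singleton.mp hr'
  have hWspan : W = U ⊔ Submodule.span F {x} := by
    refine (Submodule.eq_of_le_of_finrank_le (sup_le hUW ((Submodule.span_singleton_le_iff_mem _ _).mpr hx)) ?_).symm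
    rw [finrank_sup_span (W := U) hxU]
    have := hW.2
    omega
  have hQx : a * b * pf z w = 0 := by
    have h := hW.1 x hx
    rw [← hxe, ← hye] at h
    simp only [q_add hQ, hQ.smul, hU p hp, h1.1 w hw, hzQ, hQ.polar_bilinear.add_left,
      hQ.polar_bilinear.smul_left, hQ.polar_bilinear.smul_right,
      ts_pf hQ h1.1 (hUW₁ hp) hw, pf_comm hQ p z, hzU p hp, pf_comm hQ w z] at h
    linear_combination h
  have key : ∀ (v : ι → F) (c : F), x = p + c • v → W = U ⊔ Submodule.span F {v} := fun v c hxv => by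
    have hc : c ≠ 0 := fun hc => hxU (by rw [hxv, hc, zero_smul, add_zero]; exact hp)
    rw [hWspan]
    refine le_antisymm (sup_le le_sup_left ((Submodule.span_singleton_le_iff_mem _ _).mpr ?_))
      (sup_le le_sup_left ((Submodule.span_singleton_le_iff_mem _ _).mpr ?_))
    · rw [hxv]
      exact Submodule.add_mem _ (Submodule.mem_sup_left hp)
        (Submodule.mem_sup_right (Submodule.smul_mem _ _ (Submodule.mem_span_singleton_self v)))
    · rw [show v = c⁻¹ • (x - p) by rw [hxv, add_sub_cancel_left, inv_smul_smul₀ hc]]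
      exact Submodule.smul_mem _ _ (Submodule.sub_mem _
        (Submodule.mem_sup_right (Submodule.mem_span_singleton_self x)) (Submodule.mem_sup_left hp))
  rcases mul_eq_zero.mp hQx with h | h
  · rcases mul_eq_zero.mp h with ha | hb
    · exact Or.inr (Subtype.ext (hW₂ ▸ key z b (by rw [← hxe, ← hye, ha]; simp)))
    · exact Or.inl (Subtype.ext (hspan ▸ key w a (by rw [← hxe, ← hye, hb]; simp)))
  · exact absurd h hzw

omit hQ in
/-- the coordinate maximal totally singular subspace -/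
def coordHalf (F : Type*) [Field F] (m : ℕ) (s : Finset (Fin m)) :
    Submodule F (Fin m ⊕ Fin m → F) where
  carrier := {v | ∀ i, (i ∈ s → v (.inl i) = 0) ∧ (i ∉ s → v (.inr i) = 0)}
  add_mem' := fun {v w} hv hw i => ⟨fun h => by simp [(hv i).1 h, (hw i).1 h],
    fun h => by simp [(hv i).2 h, (hw i).2 h]⟩
  zero_mem' := fun i => ⟨fun _ => rfl, fun _ => rfl⟩
  smul_mem' := fun c v hv i => ⟨fun h => by simp [(hv i).1 h], fun h => by simp [(hv i).2 h]⟩

omit hQ in
lemma coordHalf_ts (m : ℕ) (s : Finset (Fin m)) :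
    Cfsg.Geo.IsTotallySingularQuad (Cfsg.quadFormPlus m F) (coordHalf F m s) := fun v hv => by
  refine Finset.sum_eq_zero fun i _ => ?_
  by_cases h : i ∈ s
  · rw [(hv i).1 h, zero_mul]
  · rw [(hv i).2 h, mul_zero]

omit hQ in
lemma finrank_coordHalf (m : ℕ) (s : Finset (Fin m)) :
    Module.finrank F (coordHalf F m s) = m := by
  let e : coordHalf F m s ≃ₗ[F] (Fin m → F) :=
    { toFun := fun v i => if i ∈ s then v.1 (.inr i) else v.1 (.inl i)
      map_add' := fun v w => funext fun i => by by_cases h : i ∈ s <;> simp [h]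
      map_smul' := fun c v => funext fun i => by by_cases h : i ∈ s <;> simp [h]
      invFun := fun x => ⟨Sum.elim (fun i => if i ∈ s then 0 else x i)
          (fun i => if i ∈ s then x i else 0),
        fun i => ⟨fun h => by simp [h], fun h => by simp [h]⟩⟩
      left_inv := fun v => Subtype.ext (funext fun j => by
        rcases j with i | i <;> by_cases h : i ∈ s <;> simp [h]
        · exact ((v.2 i).1 h).symm
        · exact ((v.2 i).2 h).symm)
      right_inv := fun x => funext fun i => by by_cases h : i ∈ s <;> simp [h] }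
  rw [e.finrank_eq, Module.finrank_fin_fun]

end CfsgLib.Classical
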