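import Cfsg.Agent.Lib.ClassicalAlt
import Cfsg.Agent.Lib.ClassicalSymm
import Cfsg.Agent.Lib.ClassicalPSp
import Cfsg.Agent.Lib.ClassicalOmegaCenter
import Cfsg.Agent.Lib.ClassicalQuadStd

/-! Involutions of the projective symplectic groups in odd characteristic: there are at most `m/2 + 1` classes.
Eigenspace dimensions of involutive matrices. -/

set_option autoImplicit false

namespace CfsgLib.Classical.Invol

open Module

variable {F V : Type*} [Field F] [AddCommGroup V] [Module F V]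

/-- fixed vectors -/
def fixP (T : V →ₗ[F] V) : Submodule F V := LinearMap.ker (T - LinearMap.id)

/-- negated vectors -/
def negN (T : V →ₗ[F] V) : Submodule F V := LinearMap.ker (T + LinearMap.id)

lemma mem_fixP {T : V →ₗ[F] V} {x : V} : x ∈ fixP T ↔ T x = x := by
  simp [fixP, sub_eq_zero]

lemma mem_negN {T : V →ₗ[F] V} {x : V} : x ∈ negN T ↔ T x = -x := by
  simp [negN, add_eq_zero_iff_eq_neg]

lemma isCompl_eigen (h2 : (2 : F) ≠ 0) {T : V →ₗ[F] V} (hT : ∀ x, T (T x) = x) : IsCompl (fixP T) (negN T) := by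
  refine ⟨?_, ?_⟩
  · rw [Submodule.disjoint_def]
    intro x hx hx'
    rw [mem_fixP] at hx
    rw [mem_negN, hx] at hx'
    have : (2 : F) • x = 0 := by rw [two_smul]; exact add_eq_zero_iff_eq_neg.2 hx'
    exact (smul_eq_zero.1 this).resolve_left h2
  · rw [codisjoint_iff, eq_top_iff]
    intro x _
    refine Submodule.mem_sup.2 ⟨(2 : F)⁻¹ • (x + T x), mem_fixP.2 (by rw [map_smul, map_add, hT, add_comm]),
      (2 : F)⁻¹ • (x - T x), mem_negN.2 (by rw [map_smul, map_sub, hT, ← smul_neg, neg_sub]), ?_⟩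
    rw [← smul_add, show x + T x + (x - T x) = (2 : F) • x by rw [two_smul]; abel, inv_smul_smul₀ h2]

lemma finrank_eigen [FiniteDimensional F V] (h2 : (2 : F) ≠ 0) {T : V →ₗ[F] V} (hT : ∀ x, T (T x) = x) :
    finrank F (fixP T) + finrank F (negN T) = finrank F V :=
  Submodule.finrank_add_eq_of_isCompl (isCompl_eigen h2 hT)

lemma negN_neg (T : V →ₗ[F] V) : negN (-T) = fixP T := by
  ext x; rw [mem_negN, mem_fixP, LinearMap.neg_apply, neg_inj]

variable {B : LinearMap.BilinForm F V}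

lemma nondegOn_negN (hA : B.IsAlt) (hB : NondegOn B ⊤) (h2 : (2 : F) ≠ 0) {T : V →ₗ[F] V}
    (hT : ∀ x, T (T x) = x) (hiso : ∀ u v, B (T u) (T v) = B u v) : NondegOn B (negN T) := by
  intro w hw hw0
  obtain ⟨x, -, hx⟩ := hB w trivial hw0
  obtain ⟨p, hp, n, hn, rfl⟩ := Submodule.mem_sup.1
    ((isCompl_eigen h2 hT).sup_eq_top ▸ Submodule.mem_top : x ∈ fixP T ⊔ negN T)
  refine ⟨n, hn, fun h0 => hx ?_⟩
  have h := hiso p w
  rw [mem_fixP.1 hp, mem_negN.1 hw, map_neg] at h
  have : (2 : F) * B p w = 0 := by linear_combination -h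
  rw [map_add, LinearMap.add_apply, h0, (mul_eq_zero.1 this).resolve_left h2, add_zero]

lemma even_negN [FiniteDimensional F V] (hA : B.IsAlt) (hB : NondegOn B ⊤) (h2 : (2 : F) ≠ 0) {T : V →ₗ[F] V}
    (hT : ∀ x, T (T x) = x) (hiso : ∀ u v, B (T u) (T v) = B u v) : Even (finrank F (negN T)) := by
  obtain ⟨k, -, -, -, -, -, hk⟩ := exists_hypFamily hA _ (nondegOn_negN hA hB h2 hT hiso)
  exact ⟨k, by omega⟩

/-- involutive isometries with eigenspaces of the same dimension are conjugate -/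
theorem conj_involutive [FiniteDimensional F V] (hA : B.IsAlt) (hB : NondegOn B ⊤) (h2 : (2 : F) ≠ 0)
    {T T' : V →ₗ[F] V} (hT : ∀ x, T (T x) = x) (hiso : ∀ u v, B (T u) (T v) = B u v)
    (hT' : ∀ x, T' (T' x) = x) (hiso' : ∀ u v, B (T' u) (T' v) = B u v)
    (hd : finrank F (negN T) = finrank F (negN T')) :
    ∃ h : V ≃ₗ[F] V, (∀ u v, B (h u) (h v) = B u v) ∧ ∀ x, h (T x) = T' (h x) := by
  have hP : ∀ {S : V →ₗ[F] V}, (∀ x, S (S x) = x) → (∀ u v, B (S u) (S v) = B u v) → NondegOn B (fixP S) := by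
    intro S hS hSi
    have := nondegOn_negN (T := -S) hA hB h2 (fun x => by simp [hS]) (fun u v => by simp [hSi])
    rwa [negN_neg] at this
  have d1 := finrank_eigen h2 hT
  have d2 := finrank_eigen h2 hT'
  obtain ⟨ep, hep⟩ := exists_isometry hA (hP hT hiso) (hP hT' hiso') (by omega)
  obtain ⟨en, hen⟩ := exists_isometry hA (nondegOn_negN hA hB h2 hT hiso) (nondegOn_negN hA hB h2 hT' hiso') hd
  let h : V ≃ₗ[F] V := (Submodule.prodEquivOfIsCompl _ _ (isCompl_eigen h2 hT)).symm.trans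
    ((ep.prodCongr en).trans (Submodule.prodEquivOfIsCompl _ _ (isCompl_eigen h2 hT')))
  have hh : ∀ (p : fixP T) (n : negN T), h ((p : V) + n) = (ep p : V) + (en n : V) := by
    intro p n
    have e : (Submodule.prodEquivOfIsCompl _ _ (isCompl_eigen h2 hT)).symm ((p : V) + n) = (p, n) := by
      rw [LinearEquiv.symm_apply_eq]; rfl
    show (Submodule.prodEquivOfIsCompl _ _ (isCompl_eigen h2 hT'))
      ((ep.prodCongr en) ((Submodule.prodEquivOfIsCompl _ _ (isCompl_eigen h2 hT)).symm ((p : V) + n))) = _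
    rw [e]; rfl
  have hdec : ∀ x : V, ∃ (p : fixP T) (n : negN T), x = (p : V) + n := fun x => by
    obtain ⟨p, hp, n, hn, e⟩ := Submodule.mem_sup.1
      ((isCompl_eigen h2 hT).sup_eq_top ▸ Submodule.mem_top : x ∈ fixP T ⊔ negN T)
    exact ⟨⟨p, hp⟩, ⟨n, hn⟩, e.symm⟩
  have orth : ∀ {S : V →ₗ[F] V}, (∀ u v, B (S u) (S v) = B u v) → ∀ p ∈ fixP S, ∀ n ∈ negN S,
      B p n = 0 ∧ B n p = 0 := by
    intro S hS p hp n hn
    have h1 := hS p n
    rw [mem_fixP.1 hp, mem_negN.1 hn, map_neg] at h1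
    have e : B p n = 0 := (mul_eq_zero.1 (show (2 : F) * B p n = 0 by linear_combination -h1)).resolve_left h2
    exact ⟨e, by rw [← alt_neg hA p n, e, neg_zero]⟩
  refine ⟨h, fun u v => ?_, fun x => ?_⟩
  · obtain ⟨p, n, rfl⟩ := hdec u
    obtain ⟨p', n', rfl⟩ := hdec v
    simp only [hh, map_add, LinearMap.add_apply, hep, hen, (orth hiso _ p.2 _ n'.2).1,
      (orth hiso _ p'.2 _ n.2).2, (orth hiso' _ (ep p).2 _ (en n').2).1, (orth hiso' _ (ep p').2 _ (en n).2).2]
  · obtain ⟨p, n, rfl⟩ := hdec x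
    rw [map_add T, mem_fixP.1 p.2, mem_negN.1 n.2, show -(n : V) = ((-n : negN T) : V) from rfl, hh, hh,
      map_add T', mem_fixP.1 (ep p).2, mem_negN.1 (en n).2, map_neg]
    rfl

section J

variable [Finite F] [FiniteDimensional F V] (hA : B.IsAlt) (h2 : (2 : F) ≠ 0)
  {J : V →ₗ[F] V} (hJ : ∀ x, J (J x) = -x) (hiso : ∀ u v, B (J u) (J v) = B u v)

include hA h2 hJ hiso

lemma exists_J_family (W : Submodule F V) (hW : NondegOn B W) (hWJ : ∀ x ∈ W, J x ∈ W) :
    ∃ (k : ℕ) (v : Fin k → V), IsHypFamily B v (J ∘ v) ∧ (∀ i, v i ∈ W) ∧ 2 * k = finrank F W := by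
  induction hd : finrank F W using Nat.strong_induction_on generalizing W with
  | _ d ih =>
  subst hd
  by_cases h0 : W = ⊥
  · subst h0
    exact ⟨0, Fin.elim0, ⟨fun i => i.elim0, fun i => i.elim0, fun i => i.elim0⟩, fun i => i.elim0, by simp⟩
  have hsym : ∀ x y, B.compl₂ J x y = B.compl₂ J y x := fun x y => by
    rw [LinearMap.compl₂_apply, LinearMap.compl₂_apply, ← hiso y (J x), hJ, map_neg, alt_neg hA]
  have hS : SNondeg (B.compl₂ J) W := fun w hw hw0 => by
    obtain ⟨y, hy, hwy⟩ := exists_pair hA hW hw hw0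
    refine ⟨-(J y), W.neg_mem (hWJ y hy), ?_⟩
    rw [LinearMap.compl₂_apply, map_neg, hJ, neg_neg, hwy]
    exact one_ne_zero
  have h2d : 2 ≤ finrank F W := by
    obtain ⟨m, e, h, -, -, -, hm⟩ := exists_hypFamily hA W hW
    have : finrank F W ≠ 0 := fun hz => h0 (Submodule.finrank_eq_zero.1 hz)
    omega
  obtain ⟨u, hu, huu⟩ := exists_svalue (B := B.compl₂ J) hsym h2 hS h2d 1
  rw [LinearMap.compl₂_apply] at huu
  set w := J u with hw'
  have hw : w ∈ W := hWJ u hu
  have hr := finrank_pairPerp hA hu hw huu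
  have hPJ : ∀ x ∈ pairPerp B W u w, J x ∈ pairPerp B W u w := by
    intro x hx
    obtain ⟨hxW, h1, h2'⟩ := mem_pairPerp.1 hx
    refine mem_pairPerp.2 ⟨hWJ x hxW, ?_, ?_⟩
    · rw [← hiso, hJ, map_neg, ← hw', h2', neg_zero]
    · rw [hw', hiso, h1]
  obtain ⟨k, v, hf, hv, hk⟩ := ih _ (by omega) _ (nondegOn_pairPerp hA hW hu hw huu) hPJ rfl
  have he' := fun i => mem_pairPerp.mp (hv i)
  have hh' := fun i => mem_pairPerp.mp (hPJ _ (hv i))
  have hwu : ∀ x y : V, B x y = 0 → B y x = 0 := fun x y hxy => by rw [← alt_neg hA x y, hxy, neg_zero]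
  refine ⟨k + 1, Fin.cons u v, ?_, fun i => Fin.cases (by simpa using hu) (fun i => by simpa using (he' i).1) i, by omega⟩
  have hee : ∀ i j, B (v i) (v j) = 0 := hf.ee
  have hhh : ∀ i j, B (J (v i)) (J (v j)) = 0 := hf.hh
  have heh : ∀ i j, B (v i) (J (v j)) = if i = j then 1 else 0 := hf.eh
  refine ⟨?_, ?_, ?_⟩
  · intro i j
    refine Fin.cases ?_ (fun i => ?_) i <;> refine Fin.cases ?_ (fun j => ?_) j <;>
      simp [hA u, hee, (he' _).2.1, hwu _ _ (he' _).2.1]
  · intro i j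
    refine Fin.cases ?_ (fun i => ?_) i <;> refine Fin.cases ?_ (fun j => ?_) j <;>
      simp [← hw', hA w, hhh, (hh' _).2.2, hwu _ _ (hh' _).2.2]
  · intro i j
    refine Fin.cases ?_ (fun i => ?_) i <;> refine Fin.cases ?_ (fun j => ?_) j <;>
      simp [← hw', huu, heh, (hh' _).2.1, hwu _ _ (he' _).2.2, Fin.succ_ne_zero, (Fin.succ_ne_zero _).symm]

/-- a basis adapted to `J` -/
lemma exists_J_basis (hB : NondegOn B ⊤) :
    ∃ (k : ℕ) (b : Basis (Fin k ⊕ Fin k) F V), IsHypFamily B (fun i => b (.inl i)) (fun i => b (.inr i)) ∧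
      (∀ i, J (b (.inl i)) = b (.inr i)) ∧ 2 * k = finrank F V := by
  obtain ⟨k, v, hf, -, hk⟩ := exists_J_family hA h2 hJ hiso ⊤ hB (fun _ _ => trivial)
  rw [finrank_top] at hk
  have hli := hf.linearIndependent hA
  have hsp : ⊤ ≤ Submodule.span F (Set.range (hypVec v (J ∘ v))) :=
    (hli.span_eq_top_of_card_eq_finrank' (by simp; omega)).ge
  refine ⟨k, Basis.mk hli hsp, ?_, fun i => ?_, hk⟩
  · simpa [hypVec] using (show IsHypFamily B (fun i => v i) (fun i => J (v i)) from hf)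
  · simp [hypVec]

end J

/-- isometries with square `-1` are conjugate -/
theorem conj_sq_neg [Finite F] [FiniteDimensional F V] (hA : B.IsAlt) (hB : NondegOn B ⊤) (h2 : (2 : F) ≠ 0)
    {J J' : V →ₗ[F] V} (hJ : ∀ x, J (J x) = -x) (hiso : ∀ u v, B (J u) (J v) = B u v)
    (hJ' : ∀ x, J' (J' x) = -x) (hiso' : ∀ u v, B (J' u) (J' v) = B u v) :
    ∃ h : V ≃ₗ[F] V, (∀ u v, B (h u) (h v) = B u v) ∧ ∀ x, h (J x) = J' (h x) := by
  obtain ⟨k, b, hb, hbJ, hk⟩ := exists_J_basis hA h2 hJ hiso hB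
  obtain ⟨k', b', hb', hbJ', hk'⟩ := exists_J_basis hA h2 hJ' hiso' hB
  obtain rfl : k = k' := by omega
  let h : V ≃ₗ[F] V := b.equiv b' (Equiv.refl _)
  have hbb : ∀ i, h (b i) = b' i := fun i => by simp [h]
  have hn : ∀ x y : V, B y x = -B x y := fun x y => (alt_neg hA x y).symm
  refine ⟨h, fun u v => ?_, fun x => ?_⟩
  · have e : LinearMap.compl₁₂ B h.toLinearMap h.toLinearMap = B := by
      refine LinearMap.ext_basis b b fun i j => ?_
      rcases i with i | i <;> rcases j with j | j <;>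
        simp [hbb, hb.ee, hb'.ee, hb.hh, hb'.hh, hb.eh, hb'.eh, hn (b (.inl _)) (b (.inr _)),
          hn (b' (.inl _)) (b' (.inr _))]
    exact LinearMap.congr_fun₂ e u v
  · have e : h.toLinearMap ∘ₗ J = J' ∘ₗ h.toLinearMap := by
      refine b.ext fun i => ?_
      rcases i with i | i
      · simp [hbb, hbJ, hbJ']
      · rw [LinearMap.comp_apply, LinearMap.comp_apply, LinearEquiv.coe_coe, hbb, ← hbJ', hJ', ← hbJ, hJ, map_neg, hbb]
    exact LinearMap.congr_fun e x

section PSp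

open Matrix

variable {K : Type*} [Field K] [Fintype K] {m : ℕ}

local notation "Sp" => Matrix.symplecticGroup (Fin m) K

lemma conj_of_equiv (a a' : Sp) (h : (Fin m ⊕ Fin m → K) ≃ₗ[K] (Fin m ⊕ Fin m → K))
    (hh : ∀ u v, Cfsg.sympForm m K (h u) (h v) = Cfsg.sympForm m K u v)
    (hc : ∀ x, h (a.1 *ᵥ x) = a'.1 *ᵥ h x) : IsConj a a' := by
  set M := LinearMap.toMatrix' h.toLinearMap with hM
  have hMv : ∀ x, M *ᵥ x = h x := fun x => by
    rw [hM, ← Matrix.toLin'_apply, Matrix.toLin'_toMatrix']; rfl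
  have hmem : M ∈ Sp := mem_symplecticGroup_iff.2 fun u v => by rw [hMv, hMv, hh]
  rw [isConj_iff]
  refine ⟨⟨M, hmem⟩, ?_⟩
  rw [mul_inv_eq_iff_eq_mul]
  refine Subtype.ext (Matrix.ext_of_mulVec_single fun i => ?_)
  show (M * a.1) *ᵥ _ = (a'.1 * M) *ᵥ _
  rw [← mulVec_mulVec, ← mulVec_mulVec, hMv, hMv, hc]

lemma center_sp (h2 : (2 : K) ≠ 0) (hm : 1 ≤ m) {z : Sp} (hz : z ∈ Subgroup.center Sp) :
    z.1 = 1 ∨ z.1 = -1 := by
  classical
  haveI : Nonempty (Fin m ⊕ Fin m) := ⟨.inl ⟨0, hm⟩⟩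
  have hodd : Nat.gcd 2 (Fintype.card K - 1) = 2 := by
    have h0 := FiniteField.cast_card_eq_zero K
    rcases Nat.even_or_odd (Fintype.card K) with ⟨r, hr⟩ | ⟨r, hr⟩
    · exfalso
      obtain ⟨p, hp⟩ := CharP.exists K
      obtain ⟨e, hp', he⟩ := FiniteField.card K p
      have hd : (2 : ℕ) ∣ p ^ (e : ℕ) := ⟨r, by omega⟩
      have := (Nat.prime_dvd_prime_iff_eq Nat.prime_two hp').1 (Nat.prime_two.dvd_of_dvd_pow hd)
      subst this
      exact h2 (CharP.cast_eq_zero K 2)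
    · rw [hr, Nat.add_sub_cancel]; exact Nat.gcd_eq_left ⟨r, rfl⟩
  have hcard : Nat.card (Subgroup.center Sp) = 2 := by
    rw [card_center_congr (spToGL m K), spGL_eq_isoGL, card_center_isoGL isSymplecticForm_sympForm, hodd]
  set n : Sp := ⟨-1, SymplecticGroup.neg_mem (one_mem _)⟩
  have hnc : n ∈ Subgroup.center Sp := Subgroup.mem_center_iff.2 fun g => Subtype.ext (by simp [n])
  have hn1 : (⟨n, hnc⟩ : Subgroup.center Sp) ≠ 1 := fun e => by
    have := congrFun (congrFun (congrArg (fun x : Subgroup.center Sp => x.1.1) e) (.inl ⟨0, hm⟩)) (.inl ⟨0, hm⟩)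
    simp [n] at this
    exact h2 (by linear_combination -this)
  obtain ⟨y, -, hy⟩ := (Nat.card_eq_two_iff' (1 : Subgroup.center Sp)).1 hcard
  by_cases h1 : (⟨z, hz⟩ : Subgroup.center Sp) = 1
  · exact Or.inl (congrArg (fun x : Subgroup.center Sp => x.1.1) h1)
  · have := (hy _ h1).trans (hy _ hn1).symm
    exact Or.inr (congrArg (fun x : Subgroup.center Sp => x.1.1) this)

lemma negN_dim_even (h2 : (2 : K) ≠ 0) {a : Sp} (ha : a.1 * a.1 = 1) :
    Even (finrank K (negN (Matrix.toLin' a.1))) := by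
  refine even_negN (toBil_isAlt isSymplecticForm_sympForm) (nondegOn_top isSymplecticForm_sympForm) h2 (fun x => ?_)
    (fun u v => ?_)
  · rw [Matrix.toLin'_apply, Matrix.toLin'_apply, mulVec_mulVec, ha, one_mulVec]
  · rw [toBil_apply, toBil_apply, Matrix.toLin'_apply, Matrix.toLin'_apply]
    exact mem_symplecticGroup_iff.1 a.2 u v

lemma isConj_involutive (h2 : (2 : K) ≠ 0) {a a' : Sp} (ha : a.1 * a.1 = 1) (ha' : a'.1 * a'.1 = 1)
    (hd : finrank K (negN (Matrix.toLin' a.1)) = finrank K (negN (Matrix.toLin' a'.1))) : IsConj a a' := by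
  have hi : ∀ (b : Sp) u v, toBil (isSymplecticForm_sympForm (F := K) (m := m)).bilinear (Matrix.toLin' b.1 u) (Matrix.toLin' b.1 v) =
      toBil isSymplecticForm_sympForm.bilinear u v := fun b u v => by
    rw [toBil_apply, toBil_apply, Matrix.toLin'_apply, Matrix.toLin'_apply]
    exact mem_symplecticGroup_iff.1 b.2 u v
  obtain ⟨h, hh, hc⟩ := conj_involutive (toBil_isAlt isSymplecticForm_sympForm) (nondegOn_top isSymplecticForm_sympForm) h2
    (fun x => by rw [Matrix.toLin'_apply, Matrix.toLin'_apply, mulVec_mulVec, ha, one_mulVec]) (hi a)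
    (fun x => by rw [Matrix.toLin'_apply, Matrix.toLin'_apply, mulVec_mulVec, ha', one_mulVec]) (hi a') hd
  exact conj_of_equiv a a' h hh (fun x => by simpa [Matrix.toLin'_apply] using hc x)

lemma isConj_sq_neg (h2 : (2 : K) ≠ 0) {a a' : Sp} (ha : a.1 * a.1 = -1) (ha' : a'.1 * a'.1 = -1) : IsConj a a' := by
  have hi : ∀ (b : Sp) u v, toBil (isSymplecticForm_sympForm (F := K) (m := m)).bilinear (Matrix.toLin' b.1 u) (Matrix.toLin' b.1 v) =
      toBil isSymplecticForm_sympForm.bilinear u v := fun b u v => by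
    rw [toBil_apply, toBil_apply, Matrix.toLin'_apply, Matrix.toLin'_apply]
    exact mem_symplecticGroup_iff.1 b.2 u v
  obtain ⟨h, hh, hc⟩ := conj_sq_neg (toBil_isAlt isSymplecticForm_sympForm) (nondegOn_top isSymplecticForm_sympForm) h2
    (fun x => by rw [Matrix.toLin'_apply, Matrix.toLin'_apply, mulVec_mulVec, ha, neg_mulVec, one_mulVec]) (hi a)
    (fun x => by rw [Matrix.toLin'_apply, Matrix.toLin'_apply, mulVec_mulVec, ha', neg_mulVec, one_mulVec]) (hi a')
  exact conj_of_equiv a a' h hh (fun x => by simpa [Matrix.toLin'_apply] using hc x)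

/-- at most `m/2 + 1` classes of involutions in `PSp` -/
theorem card_le_of_nonconj (h2 : (2 : K) ≠ 0) (hm : 1 ≤ m) {κ : Type*} [Fintype κ] (y : κ → Cfsg.PSp m K)
    (hy1 : ∀ k, y k ≠ 1) (hy2 : ∀ k, y k * y k = 1) (hne : ∀ i j, IsConj (y i) (y j) → i = j) :
    Fintype.card κ ≤ m / 2 + 1 := by
  classical
  let Rel : κ → Option (Fin (m / 2)) → Prop := fun k o => ∃ a : Sp, (a : Cfsg.PSp m K) = y k ∧
    ((o = none ∧ a.1 * a.1 = -1) ∨
      ∃ j, o = some j ∧ a.1 * a.1 = 1 ∧ finrank K (negN (Matrix.toLin' a.1)) = 2 * (j.val + 1))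
  have hex : ∀ k, ∃ o, Rel k o := by
    intro k
    obtain ⟨a, ha⟩ := QuotientGroup.mk_surjective (y k)
    have hsq : a * a ∈ Subgroup.center Sp := by
      rw [← QuotientGroup.eq_one_iff, QuotientGroup.mk_mul, ha, hy2]
    rcases center_sp h2 hm hsq with h | h
    · have hT : ∀ x, Matrix.toLin' a.1 (Matrix.toLin' a.1 x) = x := fun x => by
        rw [Matrix.toLin'_apply, Matrix.toLin'_apply, mulVec_mulVec, show a.1 * a.1 = 1 from h, one_mulVec]
      have hsum := finrank_eigen h2 hT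
      have hV : finrank K (Fin m ⊕ Fin m → K) = 2 * m := by simp; omega
      have hev := negN_dim_even h2 (a := a) h
      have hd0 : finrank K (negN (Matrix.toLin' a.1)) ≠ 0 := by
        intro h0
        apply hy1 k
        rw [← ha, QuotientGroup.eq_one_iff]
        have : a = 1 := by
          refine Subtype.ext (Matrix.toLin'.injective (LinearMap.ext fun x => ?_))
          have htop : fixP (Matrix.toLin' a.1) = ⊤ := Submodule.eq_top_of_finrank_eq (by omega)
          rw [OneMemClass.coe_one, Matrix.toLin'_one]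
          exact mem_fixP.1 (htop ▸ Submodule.mem_top)
        rw [this]; exact one_mem _
      set n : Sp := ⟨-1, SymplecticGroup.neg_mem (one_mem _)⟩
      have hnc : n ∈ Subgroup.center Sp := Subgroup.mem_center_iff.2 fun g => Subtype.ext (by simp [n])
      have hdN : finrank K (negN (Matrix.toLin' a.1)) ≠ 2 * m := by
        intro h0
        apply hy1 k
        rw [← ha, QuotientGroup.eq_one_iff]
        have : a = n := by
          refine Subtype.ext (Matrix.toLin'.injective (LinearMap.ext fun x => ?_))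
          have htop : negN (Matrix.toLin' a.1) = ⊤ := Submodule.eq_top_of_finrank_eq (by omega)
          rw [show n.1 = -1 from rfl, map_neg, Matrix.toLin'_one]
          exact mem_negN.1 (htop ▸ Submodule.mem_top)
        rw [this]; exact hnc
      have hna : (n * a).1 = -a.1 := by rw [Submonoid.coe_mul]; exact neg_one_mul a.1
      obtain ⟨t, ht⟩ := hev
      rcases le_total (finrank K (negN (Matrix.toLin' a.1))) m with hle | hle
      · exact ⟨some ⟨t - 1, by omega⟩, a, ha, Or.inr ⟨⟨t - 1, by omega⟩, rfl, h, by simp only; omega⟩⟩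
      · refine ⟨some ⟨m - t - 1, by omega⟩, n * a, ?_, Or.inr ⟨⟨m - t - 1, by omega⟩, rfl, ?_, ?_⟩⟩
        · rw [QuotientGroup.mk_mul, (QuotientGroup.eq_one_iff n).2 hnc, one_mul, ha]
        · rw [hna, neg_mul_neg]; exact h
        · rw [hna, map_neg, negN_neg]
          simp only
          omega
    · exact ⟨none, a, ha, Or.inl ⟨rfl, h⟩⟩
  choose τ hτ using hex
  have hinj : Function.Injective τ := by
    intro i j hij
    apply hne
    obtain ⟨a, ha, ha'⟩ := hτ i
    obtain ⟨b, hb, hb'⟩ := hτ j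
    rw [← hij] at hb'
    have : IsConj a b := by
      rcases ha' with ⟨hi, ha'⟩ | ⟨u, hi, ha', hda⟩ <;> rcases hb' with ⟨hj, hb'⟩ | ⟨v, hj, hb', hdb⟩
      · exact isConj_sq_neg h2 ha' hb'
      · exact absurd (hi.symm.trans hj) (by simp)
      · exact absurd (hi.symm.trans hj) (by simp)
      · obtain rfl : u = v := Option.some.inj (hi.symm.trans hj)
        exact isConj_involutive h2 ha' hb' (hda.trans hdb.symm)
    rw [← ha, ← hb]
    exact MonoidHom.map_isConj (QuotientGroup.mk' _) this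
  simpa using Fintype.card_le_of_injective τ hinj

end PSp

end CfsgLib.Classical.Invol
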