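import Mathlib

set_option autoImplicit false

/-! A linear map whose square is a scalar permutes the lines of some basis, and, if it preserves an alternating form,
the members of an orthogonal decomposition into planes; grouping these gives invariant decompositions. -/

namespace CfsgLib.InvolUnits

open Module

section comb

variable {κ : Type*} [DecidableEq κ]

theorem exists_invariant_subset (τ : κ → κ) (hτ : ∀ i, τ (τ i) = i) (a : ℕ) :
    ∀ S : Finset κ, (∀ i ∈ S, τ i ∈ S) → a ≤ S.card → (Even a ∨ ∃ i ∈ S, τ i = i) →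
      ∃ T ⊆ S, T.card = a ∧ ∀ i ∈ T, τ i ∈ T := by
  induction a using Nat.strong_induction_on with
  | _ a ih =>
    intro S hS ha hpar
    rcases Nat.eq_zero_or_pos a with rfl | hpos
    · exact ⟨∅, Finset.empty_subset _, rfl, by simp⟩
    by_cases hmov : ∃ i ∈ S, τ i ≠ i
    · obtain ⟨i, hi, hti⟩ := hmov
      rcases Nat.lt_or_ge a 2 with h1 | h2
      · obtain ⟨j, hj, hjf⟩ := hpar.resolve_left (by rintro ⟨r, hr⟩; omega)
        exact ⟨{j}, by simpa using hj, by rw [Finset.card_singleton]; omega, by simp [hjf]⟩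
      have hsub : ({i, τ i} : Finset κ) ⊆ S := by simp [Finset.insert_subset_iff, hi, hS i hi]
      have hc2 : ({i, τ i} : Finset κ).card = 2 := Finset.card_pair (Ne.symm hti)
      obtain ⟨T, hTS, hT, hTinv⟩ := ih (a - 2) (by omega) (S \ {i, τ i})
        (fun j hj => by
          simp only [Finset.mem_sdiff, Finset.mem_insert, Finset.mem_singleton, not_or] at hj ⊢
          exact ⟨hS j hj.1, fun e => hj.2.2 (by rw [← e, hτ]), fun e => hj.2.1 (by rw [← hτ j, e, hτ])⟩)
        (by rw [Finset.card_sdiff_of_subset hsub]; omega)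
        (hpar.imp (fun ⟨r, hr⟩ => ⟨r - 1, by omega⟩) (fun ⟨j, hj, hjf⟩ => ⟨j, by
          simp only [Finset.mem_sdiff, Finset.mem_insert, Finset.mem_singleton, not_or]
          exact ⟨hj, fun e => hti (e ▸ hjf), fun e => hti (by rw [e, hτ] at hjf; exact hjf.symm)⟩, hjf⟩))
      refine ⟨T ∪ {i, τ i}, Finset.union_subset (hTS.trans Finset.sdiff_subset) hsub, ?_, ?_⟩
      · rw [Finset.card_union_of_disjoint (Finset.disjoint_left.2 fun j hj hj' => (Finset.mem_sdiff.1 (hTS hj)).2 hj'), hT, hc2]
        omega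
      · intro j hj
        rw [Finset.mem_union] at hj ⊢
        rcases hj with hj | hj
        · exact Or.inl (hTinv j hj)
        · right
          simp only [Finset.mem_insert, Finset.mem_singleton] at hj ⊢
          rcases hj with rfl | rfl <;> simp [hτ]
    · push_neg at hmov
      obtain ⟨T, hTS, hT⟩ := Finset.exists_subset_card_eq ha
      exact ⟨T, hTS, hT, fun i hi => by rwa [hmov i (hTS hi)]⟩

theorem exists_semi_transversal (τ : κ → κ) (hτ : ∀ i, τ (τ i) = i) (a : ℕ) :
    ∀ S : Finset κ, (∀ i ∈ S, τ i ∈ S ∧ τ i ≠ i) → 2 * a ≤ S.card →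
      ∃ B ⊆ S, B.card = a ∧ ∀ i ∈ B, τ i ∉ B := by
  induction a with
  | zero => exact fun S _ _ => ⟨∅, Finset.empty_subset _, rfl, by simp⟩
  | succ a ih =>
    intro S hS ha
    obtain ⟨i, hi⟩ := Finset.card_pos.1 (show 0 < S.card by omega)
    have hsub : ({i, τ i} : Finset κ) ⊆ S := by simp [Finset.insert_subset_iff, hi, (hS i hi).1]
    have hc2 : ({i, τ i} : Finset κ).card = 2 := Finset.card_pair (Ne.symm (hS i hi).2)
    obtain ⟨B, hBS, hB, hBd⟩ := ih (S \ {i, τ i})
      (fun j hj => by
        simp only [Finset.mem_sdiff, Finset.mem_insert, Finset.mem_singleton, not_or] at hj ⊢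
        exact ⟨⟨(hS j hj.1).1, fun e => hj.2.2 (by rw [← e, hτ]), fun e => hj.2.1 (by rw [← hτ j, e, hτ])⟩, (hS j hj.1).2⟩)
      (by rw [Finset.card_sdiff_of_subset hsub]; omega)
    have hiB : i ∉ B := fun h => (Finset.mem_sdiff.1 (hBS h)).2 (by simp)
    have htB : τ i ∉ B := fun h => (Finset.mem_sdiff.1 (hBS h)).2 (by simp)
    refine ⟨insert i B, Finset.insert_subset hi (hBS.trans Finset.sdiff_subset), by rw [Finset.card_insert_of_notMem hiB, hB], ?_⟩
    intro j hj
    rw [Finset.mem_insert] at hj ⊢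
    rcases hj with rfl | hj
    · rintro (h | h)
      exacts [(hS _ hi).2 h, htB h]
    · rintro (h | h)
      · exact (Finset.mem_sdiff.1 (hBS hj)).2 (by rw [show j = τ i by rw [← h, hτ]]; simp)
      · exact hBd j hj h

theorem exists_blocks (τ : κ → κ) (hτ : ∀ i, τ (τ i) = i) {a : ℕ} (ha : 1 ≤ a) (t : ℕ) :
    ∀ S : Finset κ, (∀ i ∈ S, τ i ∈ S) → S.card = a * t → ∃ L : Fin t → Finset κ, (∀ j, (L j).card = a) ∧
      (∀ j, L j ⊆ S) ∧ (∀ i ∈ S, ∃ j, i ∈ L j) ∧ (∀ j j', j ≠ j' → Disjoint (L j) (L j')) ∧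
      (∀ j, ∃ j', (L j).image τ = L j') := by
  induction t using Nat.strong_induction_on with
  | _ t ih =>
    intro S hS hcard
    have hinvol : Function.Injective τ := fun x y h => by rw [← hτ x, h, hτ]
    rcases Nat.eq_zero_or_pos t with rfl | hpos
    · refine ⟨Fin.elim0, fun j => j.elim0, fun j => j.elim0, fun i hi => ?_, fun j => j.elim0, fun j => j.elim0⟩
      rw [mul_zero, Finset.card_eq_zero] at hcard
      simp [hcard] at hi
    obtain ⟨t, rfl⟩ : ∃ t', t = t' + 1 := ⟨t - 1, by omega⟩
    by_cases hpar : Even a ∨ ∃ i ∈ S, τ i = i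
    · obtain ⟨T, hTS, hT, hTinv⟩ := exists_invariant_subset τ hτ a S hS (by rw [hcard]; exact Nat.le_mul_of_pos_right _ (by omega)) hpar
      obtain ⟨L, h1, h2, h3, h4, h5⟩ := ih t (by omega) (S \ T)
        (fun i hi => by
          rw [Finset.mem_sdiff] at hi ⊢
          exact ⟨hS i hi.1, fun h => hi.2 (by have := hTinv _ h; rwa [hτ] at this)⟩)
        (by rw [Finset.card_sdiff_of_subset hTS, hcard, hT, Nat.mul_succ, Nat.add_sub_cancel])
      have hdis : ∀ j, Disjoint T (L j) := fun j => Finset.disjoint_left.2 fun i hi hj => (Finset.mem_sdiff.1 (h2 j hj)).2 hi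
      refine ⟨Fin.cons T L, Fin.cases hT h1, Fin.cases hTS (fun j => (h2 j).trans Finset.sdiff_subset), ?_, ?_, ?_⟩
      · intro i hi
        by_cases hiT : i ∈ T
        · exact ⟨0, hiT⟩
        · obtain ⟨j, hj⟩ := h3 i (Finset.mem_sdiff.2 ⟨hi, hiT⟩)
          exact ⟨j.succ, hj⟩
      · intro j j' hne
        induction j using Fin.cases with
        | zero =>
          induction j' using Fin.cases with
          | zero => exact absurd rfl hne
          | succ j' => exact hdis j'
        | succ j =>
          induction j' using Fin.cases with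
          | zero => exact (hdis j).symm
          | succ j' => exact h4 j j' (fun e => hne (by rw [e]))
      · intro j
        induction j using Fin.cases with
        | zero => exact ⟨0, Finset.eq_of_subset_of_card_le (Finset.image_subset_iff.2 hTinv)
            (by rw [Finset.card_image_of_injective _ hinvol])⟩
        | succ j =>
          obtain ⟨j', hj'⟩ := h5 j
          exact ⟨j'.succ, by simpa using hj'⟩
    · push_neg at hpar
      obtain ⟨hodd, hmov⟩ := hpar
      -- all points are moved, so the number of blocks is even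
      have hev : Even S.card := by
        have h0 : ∑ _i ∈ S, (1 : ZMod 2) = 0 := Finset.sum_involution (fun i _ => τ i) (fun _ _ => by decide)
          (fun i hi _ => hmov i hi) (fun i hi => hS i hi) (fun i _ => hτ i)
        rw [Finset.sum_const, nsmul_eq_mul, mul_one] at h0
        exact even_iff_two_dvd.2 ((ZMod.natCast_eq_zero_iff _ _).1 h0)
      have ht2 : 1 ≤ t := by
        rcases Nat.eq_zero_or_pos t with rfl | h
        · simp [hcard] at hev; exact absurd hev hodd
        · exact h
      obtain ⟨s, rfl⟩ : ∃ s, t = s + 1 := ⟨t - 1, by omega⟩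
      obtain ⟨B, hBS, hB, hBd⟩ := exists_semi_transversal τ hτ a S (fun i hi => ⟨hS i hi, hmov i hi⟩)
        (by rw [hcard, mul_comm]; exact Nat.mul_le_mul_left a (by omega))
      have hB' : B.image τ ⊆ S := Finset.image_subset_iff.2 fun i hi => hS i (hBS hi)
      have hdisB : Disjoint B (B.image τ) := Finset.disjoint_left.2 fun i hi hi' => by
        obtain ⟨k, hk, rfl⟩ := Finset.mem_image.1 hi'
        exact hBd k hk hi
      have himim : (B.image τ).image τ = B := by
        rw [Finset.image_image]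
        exact (Finset.image_congr fun i _ => hτ i).trans Finset.image_id
      obtain ⟨L, h1, h2, h3, h4, h5⟩ := ih s (by omega) (S \ (B ∪ B.image τ))
        (fun i hi => by
          rw [Finset.mem_sdiff, Finset.mem_union, not_or] at hi ⊢
          refine ⟨hS i hi.1, fun h => hi.2.2 ?_, fun h => hi.2.1 ?_⟩
          · exact Finset.mem_image.2 ⟨τ i, h, hτ i⟩
          · obtain ⟨k, hk, hki⟩ := Finset.mem_image.1 h
            rw [← hinvol hki]; exact hk)
        (by rw [Finset.card_sdiff_of_subset (Finset.union_subset hBS hB'), Finset.card_union_of_disjoint hdisB,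
              Finset.card_image_of_injective _ hinvol, hcard, hB, show a * (s + 1 + 1) = a * s + (a + a) by ring,
              Nat.add_sub_cancel])
      have hdis : ∀ j, Disjoint B (L j) ∧ Disjoint (B.image τ) (L j) := fun j =>
        ⟨Finset.disjoint_left.2 fun i hi hj => (Finset.mem_sdiff.1 (h2 j hj)).2 (Finset.mem_union_left _ hi),
         Finset.disjoint_left.2 fun i hi hj => (Finset.mem_sdiff.1 (h2 j hj)).2 (Finset.mem_union_right _ hi)⟩
      refine ⟨Fin.cons B (Fin.cons (B.image τ) L), ?_, ?_, ?_, ?_, ?_⟩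
      · refine Fin.cases hB (Fin.cases ?_ h1)
        show (B.image τ).card = a
        rw [Finset.card_image_of_injective _ hinvol, hB]
      · exact Fin.cases hBS (Fin.cases hB' (fun j => (h2 j).trans Finset.sdiff_subset))
      · intro i hi
        by_cases hiB : i ∈ B
        · exact ⟨0, hiB⟩
        by_cases hiB' : i ∈ B.image τ
        · exact ⟨(0 : Fin (s + 1)).succ, hiB'⟩
        obtain ⟨j, hj⟩ := h3 i (Finset.mem_sdiff.2 ⟨hi, by simp only [Finset.mem_union, not_or]; exact ⟨hiB, hiB'⟩⟩)
        exact ⟨j.succ.succ, hj⟩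
      · intro j j' hne
        induction j using Fin.cases with
        | zero =>
          induction j' using Fin.cases with
          | zero => exact absurd rfl hne
          | succ j' =>
            induction j' using Fin.cases with
            | zero => exact hdisB
            | succ j' => exact (hdis j').1
        | succ j =>
          induction j using Fin.cases with
          | zero =>
            induction j' using Fin.cases with
            | zero => exact hdisB.symm
            | succ j' =>
              induction j' using Fin.cases with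
              | zero => exact absurd rfl hne
              | succ j' => exact (hdis j').2
          | succ j =>
            induction j' using Fin.cases with
            | zero => exact (hdis j).1.symm
            | succ j' =>
              induction j' using Fin.cases with
              | zero => exact (hdis j).2.symm
              | succ j' => exact h4 j j' (fun e => hne (by rw [e]))
      · intro j
        induction j using Fin.cases with
        | zero => exact ⟨(0 : Fin (s + 1)).succ, rfl⟩
        | succ j =>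
          induction j using Fin.cases with
          | zero => exact ⟨0, himim⟩
          | succ j =>
            obtain ⟨j', hj'⟩ := h5 j
            exact ⟨j'.succ.succ, by simpa using hj'⟩

end comb

variable {F : Type*} [Field F] {V : Type*} [AddCommGroup V] [Module F V]

theorem finrank_finset_sup_le [FiniteDimensional F V] {κ : Type*} [DecidableEq κ] (Q : κ → Submodule F V) (s : Finset κ) :
    finrank F ↥(⨆ i ∈ s, Q i) ≤ ∑ i ∈ s, finrank F (Q i) := by
  induction s using Finset.induction_on with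
  | empty => simp
  | @insert a s ha ih =>
    rw [Finset.iSup_insert, Finset.sum_insert ha]
    exact (Submodule.finrank_add_le_finrank_add_finrank _ _).trans (by omega)

theorem indep_of_finrank [FiniteDimensional F V] {κ : Type*} [Fintype κ] (Q : κ → Submodule F V)
    (h : finrank F ↥(iSup Q) = ∑ i, finrank F (Q i)) : iSupIndep Q := by
  classical
  rw [iSupIndep_def]
  intro i
  have hle : (⨆ (j) (_ : j ≠ i), Q j) = ⨆ j ∈ Finset.univ.erase i, Q j := by
    refine le_antisymm (iSup₂_le fun j hj => ?_) (iSup₂_le fun j hj => ?_)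
    · exact le_iSup₂_of_le j (Finset.mem_erase.2 ⟨hj, Finset.mem_univ _⟩) le_rfl
    · exact le_iSup₂_of_le j (Finset.mem_erase.1 hj).1 le_rfl
  rw [hle, disjoint_iff]
  have h1 : iSup Q ≤ Q i ⊔ ⨆ j ∈ Finset.univ.erase i, Q j := iSup_le fun j => by
    by_cases hj : j = i
    · subst hj; exact le_sup_left
    · exact le_sup_of_le_right (le_iSup₂_of_le j (Finset.mem_erase.2 ⟨hj, Finset.mem_univ _⟩) le_rfl)
  have h2 := Submodule.finrank_mono h1
  have h3 := Submodule.finrank_sup_add_finrank_inf_eq (Q i) (⨆ j ∈ Finset.univ.erase i, Q j)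
  have h4 := finrank_finset_sup_le Q (Finset.univ.erase i)
  have h5 := Finset.add_sum_erase Finset.univ (fun j => finrank F (Q j)) (Finset.mem_univ i)
  exact Submodule.finrank_eq_zero.1 (by omega)

/-- grouping an invariant decomposition into `d` pieces of dimension `c` into `t` blocks of `a` pieces -/
theorem exists_grouping [FiniteDimensional F V] (x : V →ₗ[F] V) {c a t d : ℕ} (ha : 1 ≤ a) (hc : 0 < c) (hd : d = a * t)
    (hV : finrank F V = d * c) (Q : Fin d → Submodule F V) (hQ : ∀ i, finrank F (Q i) = c) (htop : iSup Q = ⊤)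
    (τ : Fin d → Fin d) (hτ : ∀ i, (Q i).map x = Q (τ i)) (hinv : ∀ W : Submodule F V, (W.map x).map x = W) :
    ∃ (L : Fin t → Finset (Fin d)) (σ : Equiv.Perm (Fin t)),
      (∀ j, finrank F ↥(⨆ i ∈ L j, Q i) = a * c) ∧ iSupIndep (fun j => ⨆ i ∈ L j, Q i) ∧
      (⨆ j, ⨆ i ∈ L j, Q i) = ⊤ ∧ (∀ j j', j ≠ j' → Disjoint (L j) (L j')) ∧
      ∀ j, (⨆ i ∈ L j, Q i).map x = ⨆ i ∈ L (σ j), Q i := by
  classical
  have hindQ : iSupIndep Q := indep_of_finrank Q (by
    rw [htop, finrank_top, hV, Finset.sum_congr rfl (fun i _ => hQ i), Finset.sum_const, Finset.card_univ,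
      Fintype.card_fin, smul_eq_mul])
  have hinjQ : Function.Injective Q := hindQ.injective fun i h => by have := hQ i; rw [h, finrank_bot] at this; omega
  have hττ : ∀ i, τ (τ i) = i := fun i => hinjQ (by rw [← hτ, ← hτ, hinv])
  obtain ⟨L, h1, -, h3, h4, h5⟩ := exists_blocks τ hττ ha t Finset.univ (fun _ _ => Finset.mem_univ _)
    (by rw [Finset.card_univ, Fintype.card_fin, hd])
  choose π hπ using h5
  have hLinj : Function.Injective L := fun j j' e => by
    by_contra hne
    have := h4 j j' hne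
    rw [e, disjoint_self] at this
    have hcardj := h1 j'
    rw [this, Finset.bot_eq_empty, Finset.card_empty] at hcardj
    omega
  have hπinj : Function.Injective π := fun j j' e => hLinj (by
    have hi : Function.Injective τ := fun u w h => by rw [← hττ u, h, hττ]
    exact Finset.image_injective hi (by rw [hπ, hπ, e]))
  have htopL : (⨆ j, ⨆ i ∈ L j, Q i) = ⊤ := by
    rw [eq_top_iff, ← htop]
    refine iSup_le fun i => ?_
    obtain ⟨j, hj⟩ := h3 i (Finset.mem_univ i)
    exact le_iSup_of_le j (le_iSup₂_of_le i hj le_rfl)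
  have hle : ∀ j, finrank F ↥(⨆ i ∈ L j, Q i) ≤ a * c := fun j =>
    (finrank_finset_sup_le Q (L j)).trans (by rw [Finset.sum_congr rfl (fun i _ => hQ i), Finset.sum_const, h1, smul_eq_mul])
  have htot := finrank_finset_sup_le (fun j => ⨆ i ∈ L j, Q i) Finset.univ
  rw [show (⨆ j ∈ (Finset.univ : Finset (Fin t)), ⨆ i ∈ L j, Q i) = ⊤ by simpa using htopL, finrank_top, hV] at htot
  have heq : ∀ j, finrank F ↥(⨆ i ∈ L j, Q i) = a * c := by
    intro j
    by_contra hne
    have hlt := Finset.sum_lt_sum (s := Finset.univ) (fun k _ => hle k) ⟨j, Finset.mem_univ _, lt_of_le_of_ne (hle j) hne⟩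
    rw [Finset.sum_const, Finset.card_univ, Fintype.card_fin, smul_eq_mul, show t * (a * c) = d * c by rw [hd]; ring] at hlt
    omega
  refine ⟨L, Equiv.ofBijective π (Finite.injective_iff_bijective.1 hπinj), heq, indep_of_finrank _ ?_, htopL, h4, fun j => ?_⟩
  · rw [htopL, finrank_top, hV, Finset.sum_congr rfl (fun j _ => heq j), Finset.sum_const, Finset.card_univ,
      Fintype.card_fin, smul_eq_mul, hd]
    ring
  · show _ = ⨆ i ∈ L (π j), Q i
    rw [← hπ, Finset.iSup_finset_image, Submodule.map_iSup]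
    simp_rw [Submodule.map_iSup, hτ]

theorem map_map_eq (x : V →ₗ[F] V) {z : F} (hz : z ≠ 0) (hx : ∀ u, x (x u) = z • u) (W : Submodule F V) :
    (W.map x).map x = W := by
  ext u
  constructor
  · rintro ⟨_, ⟨w, hw, rfl⟩, rfl⟩
    rw [hx]; exact W.smul_mem _ hw
  · intro hu
    exact ⟨x (z⁻¹ • u), ⟨z⁻¹ • u, W.smul_mem _ hu, rfl⟩, by rw [hx, smul_smul, mul_inv_cancel₀ hz, one_smul]⟩

/-- a map with scalar square permutes the lines of some basis -/
theorem exists_line_units [FiniteDimensional F V] (x : V →ₗ[F] V) {z : F} (hz : z ≠ 0) (hx : ∀ u, x (x u) = z • u) :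
    ∀ (k : ℕ) (S : Submodule F V), finrank F S = k → S.map x ≤ S →
      ∃ Q : Fin k → Submodule F V, (∀ i, finrank F (Q i) = 1) ∧ iSup Q = S ∧ ∀ i, ∃ j, (Q i).map x = Q j := by
  intro k
  induction k using Nat.strong_induction_on with
  | _ k ih =>
    intro S hk hS
    rcases Nat.eq_zero_or_pos k with rfl | hpos
    · exact ⟨Fin.elim0, fun i => i.elim0, by rw [iSup_of_empty, Submodule.finrank_eq_zero.1 hk], fun i => i.elim0⟩
    have hxS : ∀ u ∈ S, x u ∈ S := fun u hu => hS ⟨u, hu, rfl⟩
    by_cases hall : ∀ u ∈ S, x u ∈ Submodule.span F ({u} : Set V)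
    · obtain ⟨v, hv, hv0⟩ := Submodule.exists_mem_ne_zero_of_ne_bot (p := S) (fun h => by rw [h, finrank_bot] at hk; omega)
      obtain ⟨φ, hφ, -⟩ := Submodule.exists_dual_map_eq_bot_of_notMem (p := (⊥ : Submodule F V)) (x := v)
        (by simpa using hv0) inferInstance
      have hsup : Submodule.span F {v} ⊔ (S ⊓ LinearMap.ker φ) = S := by
        refine le_antisymm (sup_le ((Submodule.span_singleton_le_iff_mem _ _).2 hv) inf_le_left) fun u hu => ?_
        rw [← add_sub_cancel ((φ u / φ v) • v) u]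
        refine Submodule.add_mem_sup (Submodule.smul_mem _ _ (Submodule.mem_span_singleton_self v))
          ⟨S.sub_mem hu (S.smul_mem _ hv), ?_⟩
        rw [SetLike.mem_coe, LinearMap.mem_ker, map_sub, map_smul, smul_eq_mul, div_mul_cancel₀ _ hφ, sub_self]
      have hinf : Submodule.span F {v} ⊓ (S ⊓ LinearMap.ker φ) = ⊥ := by
        rw [eq_bot_iff]
        rintro u ⟨hu, -, hu'⟩
        obtain ⟨c, rfl⟩ := Submodule.mem_span_singleton.1 hu
        rw [SetLike.mem_coe, LinearMap.mem_ker, map_smul, smul_eq_mul, mul_eq_zero] at hu'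
        simp [hu'.resolve_right hφ]
      have hdim := Submodule.finrank_sup_add_finrank_inf_eq (Submodule.span F {v}) (S ⊓ LinearMap.ker φ)
      rw [hsup, hinf, finrank_bot, finrank_span_singleton hv0, hk] at hdim
      obtain ⟨k, rfl⟩ : ∃ k', k = k' + 1 := ⟨k - 1, by omega⟩
      obtain ⟨Q, h1, h2, h3⟩ := ih k (by omega) (S ⊓ LinearMap.ker φ) (by omega) (by
        rintro _ ⟨u, hu, rfl⟩
        obtain ⟨c, hc⟩ := Submodule.mem_span_singleton.1 (hall u hu.1)
        rw [← hc]; exact Submodule.smul_mem _ _ hu)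
      obtain ⟨c, hc⟩ := Submodule.mem_span_singleton.1 (hall v hv)
      have hc0 : c ≠ 0 := fun h => hv0 (by
        have := hx v
        rw [← hc, h, zero_smul, map_zero] at this
        exact (smul_eq_zero.1 this.symm).resolve_left hz)
      refine ⟨Fin.cons (Submodule.span F {v}) Q, Fin.cases (finrank_span_singleton hv0) h1, ?_, ?_⟩
      · rw [← hsup, ← h2]
        refine le_antisymm (iSup_le (Fin.cases le_sup_left fun i => le_sup_of_le_right (le_iSup Q i)))
          (sup_le (le_iSup_of_le 0 le_rfl) (iSup_le fun i => le_iSup_of_le i.succ le_rfl))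
      · intro i
        induction i using Fin.cases with
        | zero =>
          refine ⟨0, ?_⟩
          simp only [Fin.cons_zero]
          rw [Submodule.map_span, Set.image_singleton, ← hc, Submodule.span_singleton_smul_eq (Ne.isUnit hc0)]
        | succ i => obtain ⟨j, hj⟩ := h3 i; exact ⟨j.succ, by simpa using hj⟩
    · push_neg at hall
      obtain ⟨v, hv, hxv⟩ := hall
      have hv0 : v ≠ 0 := fun h => hxv (by rw [h, map_zero]; exact Submodule.zero_mem _)
      have hnv : v ∉ Submodule.span F ({x v} : Set V) := fun h => by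
        obtain ⟨c, hc⟩ := Submodule.mem_span_singleton.1 h
        have hc0 : c ≠ 0 := fun e => hv0 (by rw [← hc, e, zero_smul])
        exact hxv (Submodule.mem_span_singleton.2 ⟨c⁻¹, by
          conv_lhs => rw [← hc]
          rw [smul_smul, inv_mul_cancel₀ hc0, one_smul]⟩)
      obtain ⟨φ, hφ, hφ'⟩ := Submodule.exists_dual_map_eq_bot_of_notMem hnv inferInstance
      have hφx : φ (x v) = 0 := by
        have : φ (x v) ∈ (Submodule.span F ({x v} : Set V)).map φ := ⟨x v, Submodule.mem_span_singleton_self _, rfl⟩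
        rw [hφ'] at this; exact this
      let T : Submodule F V := S ⊓ LinearMap.ker φ ⊓ LinearMap.ker (φ.comp x)
      have hTmem : ∀ u, u ∈ T ↔ u ∈ S ∧ φ u = 0 ∧ φ (x u) = 0 := fun u => by simp [T, and_assoc]
      let P : Submodule F V := Submodule.span F {v} ⊔ Submodule.span F {x v}
      have hxv0 : x v ≠ 0 := fun h => hxv (by rw [h]; exact Submodule.zero_mem _)
      have hzv : φ (x (x v)) = z * φ v := by rw [hx, map_smul, smul_eq_mul]
      have hsup : P ⊔ T = S := by
        refine le_antisymm (sup_le (sup_le ((Submodule.span_singleton_le_iff_mem _ _).2 hv)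
          ((Submodule.span_singleton_le_iff_mem _ _).2 (hxS v hv))) fun u hu => ((hTmem u).1 hu).1) fun u hu => ?_
        rw [show u = ((φ u / φ v) • v + (φ (x u) / (z * φ v)) • x v) + (u - (φ u / φ v) • v - (φ (x u) / (z * φ v)) • x v) by abel]
        refine Submodule.add_mem_sup (Submodule.add_mem_sup (Submodule.smul_mem _ _ (Submodule.mem_span_singleton_self v))
          (Submodule.smul_mem _ _ (Submodule.mem_span_singleton_self _))) ((hTmem _).2 ⟨?_, ?_, ?_⟩)
        · exact S.sub_mem (S.sub_mem hu (S.smul_mem _ hv)) (S.smul_mem _ (hxS v hv))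
        · simp only [map_sub, map_smul, smul_eq_mul, hφx, mul_zero, sub_zero, div_mul_cancel₀ _ hφ, sub_self]
        · simp only [map_sub, map_smul, smul_eq_mul, hφx, mul_zero, sub_zero, hzv, div_mul_cancel₀ _ (mul_ne_zero hz hφ), sub_self]
      have hinf : P ⊓ T = ⊥ := by
        rw [eq_bot_iff]
        intro u hu
        obtain ⟨p, hp, r, hr, hpr⟩ := Submodule.mem_sup.1 hu.1
        obtain ⟨c, rfl⟩ := Submodule.mem_span_singleton.1 hp
        obtain ⟨e, rfl⟩ := Submodule.mem_span_singleton.1 hr
        obtain ⟨-, h1, h2⟩ := (hTmem u).1 hu.2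
        rw [← hpr] at h1 h2 ⊢
        simp only [map_add, map_smul, smul_eq_mul, hφx, hzv, mul_zero, add_zero, zero_add] at h1 h2
        rw [(mul_eq_zero.1 h1).resolve_right hφ, (mul_eq_zero.1 h2).resolve_right (mul_ne_zero hz hφ)]
        simp
      have hP2 : finrank F P = 2 := by
        have h := Submodule.finrank_sup_add_finrank_inf_eq (Submodule.span F {v}) (Submodule.span F {x v})
        have h0 : Submodule.span F {v} ⊓ Submodule.span F {x v} = ⊥ := by
          rw [eq_bot_iff]
          rintro u ⟨h1, h2⟩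
          obtain ⟨c, rfl⟩ := Submodule.mem_span_singleton.1 h1
          by_cases hc : c = 0
          · simp [hc]
          · exact absurd (by simpa [smul_smul, inv_mul_cancel₀ hc] using Submodule.smul_mem _ c⁻¹ h2) hnv
        rw [h0, finrank_bot, finrank_span_singleton hv0, finrank_span_singleton hxv0] at h
        exact h
      have hdim := Submodule.finrank_sup_add_finrank_inf_eq P T
      rw [hsup, hinf, finrank_bot, hP2, hk] at hdim
      obtain ⟨k, rfl⟩ : ∃ k', k = k' + 2 := ⟨k - 2, by omega⟩
      obtain ⟨Q, h1, h2, h3⟩ := ih k (by omega) T (by omega) (by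
        rintro _ ⟨u, hu, rfl⟩
        obtain ⟨a1, a2, a3⟩ := (hTmem u).1 hu
        exact (hTmem _).2 ⟨hxS u a1, a3, by rw [hx, map_smul, a2, smul_zero]⟩)
      refine ⟨Fin.cons (Submodule.span F {v}) (Fin.cons (Submodule.span F {x v}) Q),
        Fin.cases (finrank_span_singleton hv0) (Fin.cases (finrank_span_singleton hxv0) h1), ?_, ?_⟩
      · rw [← hsup, ← h2]
        refine le_antisymm (iSup_le (Fin.cases (le_sup_of_le_left le_sup_left)
            (Fin.cases (le_sup_of_le_left le_sup_right) fun i => le_sup_of_le_right (le_iSup Q i))))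
          (sup_le (sup_le (le_iSup_of_le 0 le_rfl) (le_iSup_of_le (0 : Fin (k + 1)).succ le_rfl))
            (iSup_le fun i => le_iSup_of_le i.succ.succ le_rfl))
      · intro i
        induction i using Fin.cases with
        | zero =>
          refine ⟨(0 : Fin (k + 1)).succ, ?_⟩
          simp only [Fin.cons_zero, Fin.cons_succ]
          rw [Submodule.map_span, Set.image_singleton]
        | succ i =>
          induction i using Fin.cases with
          | zero =>
            refine ⟨0, ?_⟩
            simp only [Fin.cons_zero, Fin.cons_succ]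
            rw [Submodule.map_span, Set.image_singleton, hx, Submodule.span_singleton_smul_eq (Ne.isUnit hz)]
          | succ i => obtain ⟨j, hj⟩ := h3 i; exact ⟨j.succ.succ, by simpa using hj⟩

section symp

variable (B : V →ₗ[F] V →ₗ[F] F)

/-- orthogonal complement of a hyperbolic pair inside a subspace -/
def perpIn (S : Submodule F V) (v w : V) : Submodule F V := S ⊓ LinearMap.ker (B.flip v) ⊓ LinearMap.ker (B.flip w)

theorem mem_perpIn {S : Submodule F V} {v w u : V} : u ∈ perpIn B S v w ↔ u ∈ S ∧ B u v = 0 ∧ B u w = 0 := by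
  simp [perpIn, and_assoc]

variable {B}

theorem skew (hB : ∀ u, B u u = 0) (u w : V) : B w u = - B u w := by
  have := hB (u + w)
  simp only [map_add, LinearMap.add_apply, hB, zero_add, add_zero] at this
  linear_combination this

theorem proj_mem (hB : ∀ u, B u u = 0) {S : Submodule F V} {v w : V} (hvw : B v w = 1) (hv : v ∈ S) (hw : w ∈ S)
    {u : V} (hu : u ∈ S) : u - B u w • v + B u v • w ∈ perpIn B S v w := by
  rw [mem_perpIn]
  refine ⟨S.add_mem (S.sub_mem hu (S.smul_mem _ hv)) (S.smul_mem _ hw), ?_, ?_⟩ <;>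
  · simp only [map_add, map_sub, map_smul, LinearMap.add_apply, LinearMap.sub_apply, LinearMap.smul_apply, smul_eq_mul, hB,
      hvw, skew hB v w]
    ring

theorem nondeg_perpIn (hB : ∀ u, B u u = 0) {S : Submodule F V} {v w : V} (hvw : B v w = 1) (hv : v ∈ S) (hw : w ∈ S)
    (hS : ∀ u ∈ S, u ≠ 0 → ∃ y ∈ S, B u y ≠ 0) : ∀ u ∈ perpIn B S v w, u ≠ 0 → ∃ y ∈ perpIn B S v w, B u y ≠ 0 := by
  intro u hu hu0
  obtain ⟨hu1, hu2, hu3⟩ := (mem_perpIn B).1 hu
  obtain ⟨y, hy, huy⟩ := hS u hu1 hu0
  exact ⟨_, proj_mem hB hvw hv hw hy, by simp [hu2, hu3, huy]⟩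

theorem nondeg_plane (hB : ∀ u, B u u = 0) {v w : V} (hvw : B v w = 1) :
    ∀ u ∈ Submodule.span F ({v, w} : Set V), u ≠ 0 → ∃ y ∈ Submodule.span F ({v, w} : Set V), B u y ≠ 0 := by
  intro u hu hu0
  obtain ⟨a, b, rfl⟩ := Submodule.mem_span_pair.1 hu
  by_cases ha : a = 0
  · refine ⟨v, Submodule.subset_span (Set.mem_insert v _), ?_⟩
    have hb : b ≠ 0 := fun h => hu0 (by simp [ha, h])
    simp [ha, skew hB v w, hvw, hb]
  · refine ⟨w, Submodule.subset_span (Set.mem_insert_of_mem _ rfl), ?_⟩
    simp [hB, hvw, ha]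

theorem finrank_plane (hB : ∀ u, B u u = 0) {v w : V} (hvw : B v w = 1) :
    finrank F ↥(Submodule.span F ({v, w} : Set V)) = 2 := by
  have hli : LinearIndependent F ![v, w] := LinearIndependent.pair_iff.2 fun a b h => by
    have h1 := congrArg (fun u => B u w) h
    have h2 := congrArg (fun u => B v u) h
    simp [hB, hvw] at h1 h2
    exact ⟨h1, h2⟩
  have := finrank_span_eq_card hli
  rw [Matrix.range_cons, Matrix.range_cons, Matrix.range_empty, Set.union_empty, ← Set.insert_eq] at this
  rw [this, Fintype.card_fin]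

theorem sup_perpIn (hB : ∀ u, B u u = 0) {S : Submodule F V} {v w : V} (hvw : B v w = 1) (hv : v ∈ S) (hw : w ∈ S) :
    Submodule.span F ({v, w} : Set V) ⊔ perpIn B S v w = S := by
  refine le_antisymm (sup_le ?_ fun u hu => ((mem_perpIn B).1 hu).1) fun u hu => ?_
  · rw [Submodule.span_le, Set.insert_subset_iff, Set.singleton_subset_iff]; exact ⟨hv, hw⟩
  · rw [show u = (B u w • v - B u v • w) + (u - B u w • v + B u v • w) by abel]
    exact Submodule.add_mem_sup (sub_mem (Submodule.smul_mem _ _ (Submodule.subset_span (Set.mem_insert v _)))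
      (Submodule.smul_mem _ _ (Submodule.subset_span (Set.mem_insert_of_mem _ rfl)))) (proj_mem hB hvw hv hw hu)

theorem orth_span {s t : Set V} (h : ∀ a ∈ s, ∀ b ∈ t, B a b = 0) :
    ∀ a ∈ Submodule.span F s, ∀ b ∈ Submodule.span F t, B a b = 0 := fun a ha b hb => by
  have h1 : ∀ a ∈ s, Submodule.span F t ≤ LinearMap.ker (B a) := fun a ha => Submodule.span_le.2 fun b hb => h a ha b hb
  have h2 : Submodule.span F s ≤ LinearMap.ker (B.flip b) := Submodule.span_le.2 fun a ha => by
    simpa using h1 a ha hb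
  simpa using h2 ha

theorem finrank_perpIn [FiniteDimensional F V] (hB : ∀ u, B u u = 0) {S : Submodule F V} {v w : V} (hvw : B v w = 1)
    (hv : v ∈ S) (hw : w ∈ S) : finrank F S = 2 + finrank F (perpIn B S v w) := by
  have h := Submodule.finrank_sup_add_finrank_inf_eq (Submodule.span F ({v, w} : Set V)) (perpIn B S v w)
  have h0 : Submodule.span F ({v, w} : Set V) ⊓ perpIn B S v w = ⊥ := by
    rw [eq_bot_iff]
    rintro u ⟨h1, h2⟩
    by_contra hu0
    obtain ⟨y, hy, hy'⟩ := nondeg_plane hB hvw u h1 hu0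
    obtain ⟨a, b, rfl⟩ := Submodule.mem_span_pair.1 hy
    obtain ⟨-, h3, h4⟩ := (mem_perpIn B).1 h2
    exact hy' (by simp [h3, h4])
  rw [sup_perpIn hB hvw hv hw, h0, finrank_bot, finrank_plane hB hvw] at h
  omega

theorem orth_plane_perpIn {S : Submodule F V} {v w : V} :
    ∀ a ∈ perpIn B S v w, ∀ b ∈ Submodule.span F ({v, w} : Set V), B a b = 0 := by
  intro a ha b hb
  obtain ⟨-, h1, h2⟩ := (mem_perpIn B).1 ha
  obtain ⟨c, e, rfl⟩ := Submodule.mem_span_pair.1 hb
  simp [h1, h2]

theorem pairwise_cons (hB : ∀ u, B u u = 0) {n : ℕ} {P : Submodule F V} {Q : Fin n → Submodule F V}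
    (h1 : ∀ i, ∀ a ∈ Q i, ∀ b ∈ P, B a b = 0)
    (h2 : ∀ i j, i ≠ j → ∀ a ∈ Q i, ∀ b ∈ Q j, B a b = 0) :
    ∀ i j, i ≠ j → ∀ a ∈ (Fin.cons P Q : Fin (n + 1) → Submodule F V) i,
      ∀ b ∈ (Fin.cons P Q : Fin (n + 1) → Submodule F V) j, B a b = 0 := by
  intro i j hne
  induction i using Fin.cases with
  | zero =>
    induction j using Fin.cases with
    | zero => exact absurd rfl hne
    | succ j => intro a ha b hb; rw [skew hB b a, h1 j b hb a ha, neg_zero]
  | succ i =>
    induction j using Fin.cases with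
    | zero => exact h1 i
    | succ j => exact h2 i j fun e => hne (by rw [e])

variable [FiniteDimensional F V]

/-- an isometry with scalar square permutes an orthogonal family of non-degenerate planes -/
theorem exists_plane_units (hB : ∀ u, B u u = 0) (x : V →ₗ[F] V) (hxB : ∀ u w, B (x u) (x w) = B u w) {z : F} (hz : z ≠ 0)
    (hx : ∀ u, x (x u) = z • u) :
    ∀ (d : ℕ) (S : Submodule F V), finrank F S = 2 * d → (∀ u ∈ S, x u ∈ S) → (∀ u ∈ S, u ≠ 0 → ∃ y ∈ S, B u y ≠ 0) →
      ∃ Q : Fin d → Submodule F V, (∀ i, finrank F (Q i) = 2) ∧ iSup Q = S ∧ (∀ i j, i ≠ j → ∀ a ∈ Q i, ∀ b ∈ Q j, B a b = 0) ∧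
        ∀ i, ∃ j, (Q i).map x = Q j := by
  intro d
  induction d using Nat.strong_induction_on with
  | _ d ih =>
    intro S hk hxS hnd
    rcases Nat.eq_zero_or_pos d with rfl | hpos
    · exact ⟨Fin.elim0, fun i => i.elim0, by rw [iSup_of_empty, Submodule.finrank_eq_zero.1 (by omega : finrank F S = 0)],
        fun i => i.elim0, fun i => i.elim0⟩
    have hswap : ∀ u w, B (x u) w = 0 ↔ B u (x w) = 0 := fun u w => by
      have h := hxB u (x w)
      rw [hx, map_smul, smul_eq_mul] at h
      rw [← h, mul_eq_zero, or_iff_right hz]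
    -- one invariant plane
    have one : ∀ v w : V, v ∈ S → w ∈ S → B v w = 1 → (Submodule.span F ({v, w} : Set V)).map x = Submodule.span F {v, w} →
        ∃ Q : Fin d → Submodule F V, (∀ i, finrank F (Q i) = 2) ∧ iSup Q = S ∧
          (∀ i j, i ≠ j → ∀ a ∈ Q i, ∀ b ∈ Q j, B a b = 0) ∧ ∀ i, ∃ j, (Q i).map x = Q j := by
      intro v w hv hw hvw hP
      obtain ⟨d, rfl⟩ : ∃ d', d = d' + 1 := ⟨d - 1, by omega⟩
      have hdim := finrank_perpIn hB hvw hv hw
      obtain ⟨Q, h1, h2, h3, h4⟩ := ih d (by omega) (perpIn B S v w) (by omega) (fun u hu => by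
        have e : ∀ b ∈ Submodule.span F ({v, w} : Set V), B (x u) b = 0 := fun b hb => (hswap u b).2
          (orth_plane_perpIn u hu _ (hP ▸ ⟨b, hb, rfl⟩))
        exact (mem_perpIn B).2 ⟨hxS u ((mem_perpIn B).1 hu).1, e v (Submodule.subset_span (Set.mem_insert v _)),
          e w (Submodule.subset_span (Set.mem_insert_of_mem _ rfl))⟩) (nondeg_perpIn hB hvw hv hw hnd)
      refine ⟨Fin.cons (Submodule.span F {v, w}) Q, Fin.cases (finrank_plane hB hvw) h1, ?_, ?_, ?_⟩
      · rw [← sup_perpIn hB hvw hv hw, ← h2]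
        exact le_antisymm (iSup_le (Fin.cases le_sup_left fun i => le_sup_of_le_right (le_iSup Q i)))
          (sup_le (le_iSup_of_le 0 le_rfl) (iSup_le fun i => le_iSup_of_le i.succ le_rfl))
      · exact pairwise_cons hB (fun i a ha => orth_plane_perpIn a (h2 ▸ le_iSup Q i ha)) h3
      · intro i
        induction i using Fin.cases with
        | zero => exact ⟨0, hP⟩
        | succ i => obtain ⟨j, hj⟩ := h4 i; exact ⟨j.succ, by simpa using hj⟩
    by_cases hA : ∃ v ∈ S, B v (x v) ≠ 0
    · obtain ⟨v, hv, hc⟩ := hA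
      set c := B v (x v) with hcdef
      refine one v (c⁻¹ • x v) hv (S.smul_mem _ (hxS v hv)) (by rw [map_smul, smul_eq_mul, ← hcdef, inv_mul_cancel₀ hc]) ?_
      rw [Submodule.map_span, Set.image_pair, map_smul, hx, smul_smul]
      have h1 : Submodule.span F ({v, c⁻¹ • x v} : Set V) = Submodule.span F {v} ⊔ Submodule.span F {x v} := by
        rw [Submodule.span_insert, Submodule.span_singleton_smul_eq (Ne.isUnit (inv_ne_zero hc))]
      rw [h1, Submodule.span_insert, Submodule.span_singleton_smul_eq (Ne.isUnit (mul_ne_zero (inv_ne_zero hc) hz)), sup_comm]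
    push_neg at hA
    by_cases hall : ∀ u ∈ S, x u ∈ Submodule.span F ({u} : Set V)
    · obtain ⟨v, hv, hv0⟩ := Submodule.exists_mem_ne_zero_of_ne_bot (p := S) (fun h => by rw [h, finrank_bot] at hk; omega)
      obtain ⟨w, hw, hvw⟩ := hnd v hv hv0
      refine one v ((B v w)⁻¹ • w) hv (S.smul_mem _ hw) (by rw [map_smul, smul_eq_mul, inv_mul_cancel₀ hvw]) ?_
      have hle : Submodule.span F ({v, (B v w)⁻¹ • w} : Set V) ≤ S := by
        rw [Submodule.span_le, Set.insert_subset_iff, Set.singleton_subset_iff]; exact ⟨hv, S.smul_mem _ hw⟩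
      refine le_antisymm ?_ fun u hu => ?_
      · rintro _ ⟨u, hu, rfl⟩
        exact (Submodule.span_singleton_le_iff_mem _ _).2 hu (hall u (hle hu))
      · obtain ⟨e, he⟩ := Submodule.mem_span_singleton.1 (hall u (hle hu))
        refine ⟨x (z⁻¹ • u), ?_, by rw [hx, smul_smul, mul_inv_cancel₀ hz, one_smul]⟩
        rw [SetLike.mem_coe, map_smul, ← he]
        exact Submodule.smul_mem _ _ (Submodule.smul_mem _ _ hu)
    · push_neg at hall
      obtain ⟨v, hv, hxv⟩ := hall
      -- a vector w with B v w = 1 and B (x v) w = 0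
      obtain ⟨y1, hy1, hy1'⟩ := hnd v hv (fun h => hxv (by rw [h, map_zero]; exact Submodule.zero_mem _))
      obtain ⟨y, hy, hvy⟩ : ∃ y ∈ S, B v y = 1 :=
        ⟨(B v y1)⁻¹ • y1, S.smul_mem _ hy1, by rw [map_smul, smul_eq_mul, inv_mul_cancel₀ hy1']⟩
      obtain ⟨y2, hy2, hy2'⟩ := hnd (x v - B (x v) y • v) (S.sub_mem (hxS v hv) (S.smul_mem _ hv))
        (fun h => hxv (by rw [sub_eq_zero.1 h]; exact Submodule.smul_mem _ _ (Submodule.mem_span_singleton_self v)))
      obtain ⟨y3, hy3, hv3, hk3⟩ : ∃ y3 ∈ S, B v y3 = 0 ∧ B (x v) y3 ≠ 0 := by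
        refine ⟨y2 - B v y2 • y, S.sub_mem hy2 (S.smul_mem _ hy), ?_, ?_⟩
        · rw [map_sub, map_smul, hvy, smul_eq_mul, mul_one, sub_self]
        · intro h
          apply hy2'
          simp only [map_sub, map_smul, LinearMap.sub_apply, LinearMap.smul_apply, smul_eq_mul] at h ⊢
          linear_combination h
      obtain ⟨w, hw, hvw, hxvw⟩ : ∃ w ∈ S, B v w = 1 ∧ B (x v) w = 0 := by
        refine ⟨y - (B (x v) y / B (x v) y3) • y3, S.sub_mem hy (S.smul_mem _ hy3), ?_, ?_⟩
        · rw [map_sub, map_smul, hv3, smul_zero, sub_zero, hvy]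
        · rw [map_sub, map_smul, smul_eq_mul, div_mul_cancel₀ _ hk3, sub_self]
      have hvxw : B v (x w) = 0 := (hswap v w).1 hxvw
      have hxvw' : B (x v) (x w) = 1 := by rw [hxB, hvw]
      have hpair : ∀ a ∈ ({x v, x w} : Set V), ∀ b ∈ ({v, w} : Set V), B a b = 0 := by
        simp only [Set.mem_insert_iff, Set.mem_singleton_iff]
        rintro a (ha | ha) b (hb | hb) <;> rw [ha, hb]
        · rw [skew hB v, hA v hv, neg_zero]
        · exact hxvw
        · rw [skew hB v, hvxw, neg_zero]
        · rw [skew hB w, hA w hw, neg_zero]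
      have hd1 := finrank_perpIn hB hvw hv hw
      have hxv' : x v ∈ perpIn B S v w := (mem_perpIn B).2 ⟨hxS v hv, hpair _ (Or.inl rfl) _ (Or.inl rfl), hxvw⟩
      have hxw' : x w ∈ perpIn B S v w :=
        (mem_perpIn B).2 ⟨hxS w hw, hpair _ (Or.inr rfl) _ (Or.inl rfl), hpair _ (Or.inr rfl) _ (Or.inr rfl)⟩
      have hd2 := finrank_perpIn hB hxvw' hxv' hxw'
      obtain ⟨d, rfl⟩ : ∃ d', d = d' + 2 := ⟨d - 2, by omega⟩
      let S'' : Submodule F V := perpIn B (perpIn B S v w) (x v) (x w)
      have hmem : ∀ u, u ∈ S'' ↔ u ∈ S ∧ B u v = 0 ∧ B u w = 0 ∧ B u (x v) = 0 ∧ B u (x w) = 0 := fun u => by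
        simp [S'', mem_perpIn, and_assoc]
      have hS2 : perpIn B (perpIn B S v w) (x v) (x w) = S'' := rfl
      rw [hS2] at hd2
      obtain ⟨Q, h1, h2, h3, h4⟩ := ih d (by omega) S'' (by omega) (fun u hu => by
        obtain ⟨b1, b2, b3, b4, b5⟩ := (hmem u).1 hu
        exact (hmem _).2 ⟨hxS u b1, (hswap u v).2 b4, (hswap u w).2 b5, by rw [hxB]; exact b2, by rw [hxB]; exact b3⟩)
        (nondeg_perpIn hB hxvw' hxv' hxw' (nondeg_perpIn hB hvw hv hw hnd))
      refine ⟨Fin.cons (Submodule.span F {v, w}) (Fin.cons (Submodule.span F {x v, x w}) Q),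
        Fin.cases (finrank_plane hB hvw) (Fin.cases (finrank_plane hB hxvw') h1), ?_, ?_, ?_⟩
      · rw [← sup_perpIn hB hvw hv hw, ← sup_perpIn hB hxvw' hxv' hxw', hS2, ← h2]
        exact le_antisymm (iSup_le (Fin.cases le_sup_left
            (Fin.cases (le_sup_of_le_right le_sup_left) fun i => le_sup_of_le_right (le_sup_of_le_right (le_iSup Q i)))))
          (sup_le (le_iSup_of_le 0 le_rfl) (sup_le (le_iSup_of_le (0 : Fin (d + 1)).succ le_rfl)
            (iSup_le fun i => le_iSup_of_le i.succ.succ le_rfl)))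
      · refine pairwise_cons hB ?_ (pairwise_cons hB (fun i a ha => orth_plane_perpIn a (h2 ▸ le_iSup Q i ha)) h3)
        intro i
        induction i using Fin.cases with
        | zero => exact orth_span hpair
        | succ i => exact fun a ha => orth_plane_perpIn a ((mem_perpIn B).1 (h2 ▸ le_iSup Q i ha : a ∈ S'')).1
      · intro i
        induction i using Fin.cases with
        | zero => exact ⟨(0 : Fin (d + 1)).succ, by simp [Submodule.map_span, Set.image_pair]⟩
        | succ i =>
          induction i using Fin.cases with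
          | zero =>
            refine ⟨0, ?_⟩
            simp only [Fin.cons_zero, Fin.cons_succ]
            rw [show ({x v, x w} : Set V) = x '' {v, w} by rw [Set.image_pair], ← Submodule.map_span, map_map_eq x hz hx]
          | succ i => obtain ⟨j, hj⟩ := h4 i; exact ⟨j.succ.succ, by simpa using hj⟩

/-- an isometric involution modulo scalars fixes or swaps two complementary totally isotropic subspaces -/
theorem exists_lagrangian_pair (hB : ∀ u, B u u = 0) (x : V →ₗ[F] V) (hxB : ∀ u w, B (x u) (x w) = B u w) (h2 : (2 : F) ≠ 0)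
    {z : F} (hz : z = 1 ∨ z = -1) (hx : ∀ u, x (x u) = z • u) :
    ∀ (k : ℕ) (S : Submodule F V), finrank F S = k → (∀ u ∈ S, x u ∈ S) → (∀ u ∈ S, u ≠ 0 → ∃ y ∈ S, B u y ≠ 0) →
      ∃ U W : Submodule F V, U ⊔ W = S ∧ (∀ a ∈ U, ∀ b ∈ U, B a b = 0) ∧ (∀ a ∈ W, ∀ b ∈ W, B a b = 0) ∧
        (z = 1 → U.map x = U ∧ W.map x = W) ∧ (z = -1 → U.map x = W ∧ W.map x = U) := by
  intro k
  induction k using Nat.strong_induction_on with
  | _ k ih =>
    intro S hk hxS hnd
    rcases Nat.eq_zero_or_pos k with rfl | hpos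
    · exact ⟨⊥, ⊥, by rw [sup_bot_eq, Submodule.finrank_eq_zero.1 hk], by simp, by simp, by simp, by simp⟩
    have hz0 : z ≠ 0 := by rcases hz with rfl | rfl <;> simp
    have hswap : ∀ u w, B (x u) w = z * B u (x w) := fun u w => by
      have h := hxB u (x w)
      rw [hx, map_smul, smul_eq_mul] at h
      have hzz : z * z = 1 := by rcases hz with rfl | rfl <;> simp
      linear_combination z * h - B (x u) w * hzz
    have h12 : (1 : F) ≠ -1 := fun h => h2 (by linear_combination h)
    -- a hyperbolic pair which is fixed or swapped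
    obtain ⟨v, w, hv, hw, hvw, hfix, hsw⟩ : ∃ v w, v ∈ S ∧ w ∈ S ∧ B v w = 1 ∧
        (z = 1 → (Submodule.span F {v}).map x = Submodule.span F {v} ∧ (Submodule.span F {w}).map x = Submodule.span F {w}) ∧
        (z = -1 → (Submodule.span F {v}).map x = Submodule.span F {w} ∧ (Submodule.span F {w}).map x = Submodule.span F {v}) := by
      obtain ⟨v0, hv0, hv00⟩ := Submodule.exists_mem_ne_zero_of_ne_bot (p := S) (fun h => by rw [h, finrank_bot] at hk; omega)
      rcases hz with rfl | rfl
      · obtain ⟨e, he, v, hv, hvne, hxv⟩ : ∃ e : F, e * e = 1 ∧ ∃ v ∈ S, v ≠ 0 ∧ x v = e • v := by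
          by_cases h : x v0 + v0 = 0
          · exact ⟨-1, by ring, v0, hv0, hv00, by rw [neg_smul, one_smul]; exact eq_neg_of_add_eq_zero_left h⟩
          · exact ⟨1, one_mul 1, x v0 + v0, S.add_mem (hxS _ hv0) hv0, h, by rw [map_add, hx, one_smul, one_smul]; abel⟩
        obtain ⟨y, hy, hvy⟩ := hnd v hv hvne
        have hyy : B v (x y) = e * B v y := by
          have h := hswap v y
          rw [one_mul, hxv, map_smul, LinearMap.smul_apply, smul_eq_mul] at h
          exact h.symm
        refine ⟨v, (2 * B v y)⁻¹ • (y + e • x y), hv, S.smul_mem _ (S.add_mem hy (S.smul_mem _ (hxS _ hy))), ?_, fun _ => ?_,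
          fun h => absurd h h12⟩
        · rw [map_smul, map_add, map_smul, hyy, smul_eq_mul, smul_eq_mul, ← mul_assoc e e, he, one_mul, ← two_mul,
            inv_mul_cancel₀ (mul_ne_zero h2 hvy)]
        · have hxw : x ((2 * B v y)⁻¹ • (y + e • x y)) = e • ((2 * B v y)⁻¹ • (y + e • x y)) := by
            rw [map_smul, map_add, map_smul, hx, one_smul, smul_comm e, smul_add e, smul_smul e e, he, one_smul, add_comm]
          have he0 : e ≠ 0 := fun h => by rw [h, mul_zero] at he; exact zero_ne_one he
          constructor <;> rw [Submodule.map_span, Set.image_singleton]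
          · rw [hxv, Submodule.span_singleton_smul_eq (Ne.isUnit he0)]
          · rw [hxw, Submodule.span_singleton_smul_eq (Ne.isUnit he0)]
      · obtain ⟨v, hv, hc⟩ : ∃ v ∈ S, B v (x v) ≠ 0 := by
          by_contra hcon
          push_neg at hcon
          obtain ⟨y, hy, hvy⟩ := hnd (x v0) (hxS _ hv0) (fun h => hv00 (by
            have := hx v0; rw [h, map_zero] at this; exact (smul_eq_zero.1 this.symm).resolve_left (by simp)))
          have h1 := hcon (v0 + y) (S.add_mem hv0 hy)
          simp only [map_add, LinearMap.add_apply, hcon v0 hv0, hcon y hy, zero_add, add_zero] at h1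
          have h3 := hswap v0 y
          have h4 := skew hB y (x v0)
          refine hvy (mul_left_cancel₀ h2 ?_)
          linear_combination h3 + h4 - h1
        refine ⟨v, (B v (x v))⁻¹ • x v, hv, S.smul_mem _ (hxS _ hv), by rw [map_smul, smul_eq_mul, inv_mul_cancel₀ hc],
          fun h => absurd h.symm h12, fun _ => ?_⟩
        constructor <;> rw [Submodule.map_span, Set.image_singleton]
        · rw [Submodule.span_singleton_smul_eq (Ne.isUnit (inv_ne_zero hc))]
        · rw [map_smul, hx, smul_smul, Submodule.span_singleton_smul_eq (Ne.isUnit (mul_ne_zero (inv_ne_zero hc) hz0))]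
    have hdim := finrank_perpIn hB hvw hv hw
    have hP : (Submodule.span F ({v, w} : Set V)).map x = Submodule.span F {v, w} := by
      rw [Submodule.span_insert, Submodule.map_sup]
      rcases hz with h | h
      · rw [(hfix h).1, (hfix h).2]
      · rw [(hsw h).1, (hsw h).2, sup_comm]
    obtain ⟨U, W, h1, h2', h3, h4, h5⟩ := ih (finrank F (perpIn B S v w)) (by omega) (perpIn B S v w) rfl (fun u hu => by
      have e : ∀ b ∈ Submodule.span F ({v, w} : Set V), B (x u) b = 0 := fun b hb => by
        rw [hswap, orth_plane_perpIn u hu _ (hP ▸ ⟨b, hb, rfl⟩), mul_zero]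
      exact (mem_perpIn B).2 ⟨hxS u ((mem_perpIn B).1 hu).1, e v (Submodule.subset_span (Set.mem_insert v _)),
        e w (Submodule.subset_span (Set.mem_insert_of_mem _ rfl))⟩) (nondeg_perpIn hB hvw hv hw hnd)
    have iso : ∀ (p : V) (hp : p ∈ ({v, w} : Set V)) (T : Submodule F V), T ≤ perpIn B S v w →
        (∀ a ∈ T, ∀ b ∈ T, B a b = 0) → ∀ a ∈ Submodule.span F {p} ⊔ T, ∀ b ∈ Submodule.span F {p} ⊔ T, B a b = 0 := by
      intro p hp T hT hTT a ha b hb
      obtain ⟨a1, ha1, a2, ha2, rfl⟩ := Submodule.mem_sup.1 ha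
      obtain ⟨b1, hb1, b2, hb2, rfl⟩ := Submodule.mem_sup.1 hb
      obtain ⟨c1, rfl⟩ := Submodule.mem_span_singleton.1 ha1
      obtain ⟨c2, rfl⟩ := Submodule.mem_span_singleton.1 hb1
      have hpa := orth_plane_perpIn a2 (hT ha2) p (Submodule.subset_span hp)
      have hpb := orth_plane_perpIn b2 (hT hb2) p (Submodule.subset_span hp)
      simp [hB, hpa, skew hB b2 p, hpb, hTT a2 ha2 b2 hb2]
    refine ⟨Submodule.span F {v} ⊔ U, Submodule.span F {w} ⊔ W, ?_,
      iso v (Set.mem_insert v _) U (h1 ▸ le_sup_left) h2', iso w (Set.mem_insert_of_mem _ rfl) W (h1 ▸ le_sup_right) h3,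
      fun h => ?_, fun h => ?_⟩
    · rw [sup_sup_sup_comm, ← Submodule.span_insert, h1, sup_perpIn hB hvw hv hw]
    · rw [Submodule.map_sup, Submodule.map_sup, (hfix h).1, (hfix h).2, (h4 h).1, (h4 h).2]; exact ⟨rfl, rfl⟩
    · rw [Submodule.map_sup, Submodule.map_sup, (hsw h).1, (hsw h).2, (h5 h).1, (h5 h).2]; exact ⟨rfl, rfl⟩

end symp

end CfsgLib.InvolUnits
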