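import Cfsg.Agent.Lib.ClassicalKleinPlus
import Cfsg.Agent.Lib.ClassicalPSU
import Cfsg.Agent.Lib.ClassicalOrdersGU
import Cfsg.Agent.Lib.ClassicalPOmegaOrders

/-! The Klein correspondence twisted by a field automorphism: PΩ⁻_6(q) is PSU_4(q). -/

set_option autoImplicit false

namespace CfsgLib.KleinMinus

open Matrix CfsgLib.KleinPlus CfsgLib.Classical.Orders

section Twist

variable {K : Type*} [Field K]

/-- exchange the two halves -/
def sw : (Fin 3 ⊕ Fin 3 → K) →ₗ[K] (Fin 3 ⊕ Fin 3 → K) := LinearMap.funLeft K K Sum.swap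

lemma toAlt_mul_sw (x : Fin 3 ⊕ Fin 3 → K) :
    toAlt x * toAlt (sw x) = (-Cfsg.quadFormPlus 3 K x) • (1 : Matrix (Fin 4) (Fin 4) K) := by
  ext i j
  fin_cases i <;> fin_cases j <;>
    simp [toAlt, sw, LinearMap.funLeft, Matrix.mul_apply, Matrix.vecMul, dotProduct, Fin.sum_univ_four,
      Cfsg.quadFormPlus, Fin.sum_univ_three] <;> ring

lemma toAlt_act (g : Matrix (Fin 4) (Fin 4) K) (x : Fin 3 ⊕ Fin 3 → K) :
    toAlt (actLin g x) = g * toAlt x * gᵀ := by
  rw [actLin_apply, toAlt_ofAlt (congr_diag g x) (congr_transpose g x)]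

variable [Fintype K]

lemma quad_act (g : Matrix.SpecialLinearGroup (Fin 4) K) (x : Fin 3 ⊕ Fin 3 → K) :
    Cfsg.quadFormPlus 3 K (actLin (g : Matrix (Fin 4) (Fin 4) K) x) = Cfsg.quadFormPlus 3 K x := by
  rw [← rep_mulVec]; exact rep_mem_isometry g x x

lemma sw_act (g : Matrix.SpecialLinearGroup (Fin 4) K) {gs : Matrix (Fin 4) (Fin 4) K}
    (h1 : (g : Matrix (Fin 4) (Fin 4) K)ᵀ * gs = 1) (h2 : (g : Matrix (Fin 4) (Fin 4) K) * gsᵀ = 1)
    (x : Fin 3 ⊕ Fin 3 → K) :
    sw (actLin (g : Matrix (Fin 4) (Fin 4) K) x) = actLin gs (sw x) := by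
  let D : (Fin 3 ⊕ Fin 3 → K) →ₗ[K] (Fin 3 ⊕ Fin 3 → K) :=
    sw.comp (actLin (g : Matrix (Fin 4) (Fin 4) K)) - (actLin gs).comp sw
  have hns : ∀ x, Cfsg.quadFormPlus 3 K x ≠ 0 → D x = 0 := fun x hx => by
    show sw _ - actLin gs _ = 0
    rw [sub_eq_zero]
    obtain ⟨q, hq⟩ : ∃ q, q = -Cfsg.quadFormPlus 3 K x := ⟨_, rfl⟩
    obtain ⟨N, hN⟩ : ∃ N, N = toAlt (actLin (g : Matrix (Fin 4) (Fin 4) K) x) := ⟨_, rfl⟩
    obtain ⟨A, hA⟩ : ∃ A, A = toAlt (sw (actLin (g : Matrix (Fin 4) (Fin 4) K) x)) := ⟨_, rfl⟩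
    obtain ⟨B, hB⟩ : ∃ B, B = toAlt (actLin gs (sw x)) := ⟨_, rfl⟩
    have hNA : N * A = q • 1 := by rw [hN, hA, toAlt_mul_sw, quad_act, hq]
    have hNB : N * B = q • 1 := by
      rw [hN, hB, toAlt_act, toAlt_act]
      calc (g : Matrix (Fin 4) (Fin 4) K) * toAlt x * (g : Matrix (Fin 4) (Fin 4) K)ᵀ * (gs * toAlt (sw x) * gsᵀ)
          = (g : Matrix (Fin 4) (Fin 4) K) * (toAlt x * (((g : Matrix (Fin 4) (Fin 4) K)ᵀ * gs) * toAlt (sw x))) *
              gsᵀ := by simp only [Matrix.mul_assoc]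
        _ = q • ((g : Matrix (Fin 4) (Fin 4) K) * gsᵀ) := by
            rw [h1, one_mul, toAlt_mul_sw, hq, mul_smul_comm, mul_one, smul_mul_assoc]
        _ = q • 1 := by rw [h2]
    have hq0 : q ≠ 0 := hq ▸ neg_ne_zero.mpr hx
    have hL : (q⁻¹ • A) * N = 1 := mul_eq_one_comm.mp (by rw [mul_smul_comm, hNA, smul_smul, inv_mul_cancel₀ hq0, one_smul])
    have : A = B := by
      calc A = (q⁻¹ • A) * (N * A) := by rw [← mul_assoc, hL, one_mul]
        _ = (q⁻¹ • A) * (N * B) := by rw [hNA, hNB]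
        _ = B := by rw [← mul_assoc, hL, one_mul]
    have e3 := congrArg ofAlt (hA.symm.trans (this.trans hB))
    rwa [ofAlt_toAlt, ofAlt_toAlt] at e3
  have hj : ∀ j, D (Pi.single j 1) = 0 := fun j => by
    obtain ⟨i, hi⟩ : ∃ i : Fin 3, j ≠ Sum.inl i ∧ j ≠ Sum.inr i := by revert j; decide
    have e1 : Cfsg.quadFormPlus 3 K (Pi.single (Sum.inl i) 1 + Pi.single (Sum.inr i) 1) = 1 := by
      simp [Cfsg.quadFormPlus, Pi.single_apply]
    have e2 : Cfsg.quadFormPlus 3 K (Pi.single (Sum.inl i) 1 + Pi.single (Sum.inr i) 1 + Pi.single j 1) = 1 := by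
      rcases j with j | j
      · have hij : i ≠ j := fun e => hi.1 (by rw [e])
        simp [Cfsg.quadFormPlus, Pi.single_apply, hij, hij.symm, add_mul, Finset.sum_add_distrib]
      · have hij : i ≠ j := fun e => hi.2 (by rw [e])
        simp [Cfsg.quadFormPlus, Pi.single_apply, hij, hij.symm, mul_add, add_mul, Finset.sum_add_distrib]
    have h := hns _ (by rw [e2]; exact one_ne_zero)
    rw [map_add, hns _ (by rw [e1]; exact one_ne_zero), zero_add] at h
    exact h
  have hD : D = 0 := LinearMap.pi_ext fun j c => by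
    have : (Pi.single j c : Fin 3 ⊕ Fin 3 → K) = c • Pi.single j 1 := by simp [← Pi.single_smul]
    rw [this, map_smul, hj, smul_zero, LinearMap.zero_apply]
  have := LinearMap.congr_fun hD x
  exact sub_eq_zero.mp this

variable [StarRing K]

set_option maxHeartbeats 1000000 in
lemma star_act (g : Matrix (Fin 4) (Fin 4) K) (x : Fin 3 ⊕ Fin 3 → K) :
    (fun i => star (actLin g x i)) = actLin (g.map star) (fun i => star (x i)) := by
  have h1 : toAlt (fun i => star (x i)) = (toAlt x).map star := by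
    ext i j; fin_cases i <;> fin_cases j <;> simp [toAlt]
  have h2 : ∀ M : Matrix (Fin 4) (Fin 4) K, ofAlt (M.map star) = fun i => star (ofAlt M i) := fun M => by
    funext i; rcases i with i | i <;> fin_cases i <;> simp [ofAlt]
  rw [actLin_apply, actLin_apply, h1, ← Matrix.transpose_map]
  have h3 : ∀ A B : Matrix (Fin 4) (Fin 4) K, (A * B).map star = A.map star * B.map star := fun A B => by
    show (A * B).map (starRingEnd K) = A.map (starRingEnd K) * B.map (starRingEnd K)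
    exact Matrix.map_mul
  rw [← h3, ← h3, h2]

/-- fixed vectors of the twist -/
def fixVec (l : Fin 3 → K) : Fin 3 ⊕ Fin 3 → K := Sum.elim l (fun i => star (l i))

lemma act_fixVec (g : Matrix.SpecialLinearGroup (Fin 4) K)
    (hg : (g : Matrix (Fin 4) (Fin 4) K)ᴴ * (g : Matrix (Fin 4) (Fin 4) K) = 1) (l : Fin 3 → K) :
    fixVec (fun i => actLin (g : Matrix (Fin 4) (Fin 4) K) (fixVec l) (Sum.inl i)) =
      actLin (g : Matrix (Fin 4) (Fin 4) K) (fixVec l) := by
  obtain ⟨G, hG⟩ : ∃ G, G = (g : Matrix (Fin 4) (Fin 4) K) := ⟨_, rfl⟩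
  have hg' : G * Gᴴ = 1 := mul_eq_one_comm.mp (hG ▸ hg)
  have h1 : Gᵀ * G.map star = 1 := by
    have := congrArg Matrix.transpose (hG ▸ hg : Gᴴ * G = 1)
    rw [Matrix.transpose_mul, Matrix.transpose_one] at this
    exact this
  have h2 : G * (G.map star)ᵀ = 1 := hg'
  have key : sw (fun i => star (actLin G (fixVec l) i)) = actLin G (fixVec l) := by
    have e1 : sw (fun i => star (actLin G (fixVec l) i)) = fun i => star (sw (actLin G (fixVec l)) i) := rfl
    rw [e1, hG, sw_act g (hG ▸ h1) (hG ▸ h2), star_act]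
    congr 1
    · congr 1
      ext i j; simp
    · funext i; rcases i with i | i <;> simp [sw, LinearMap.funLeft, fixVec]
  rw [← hG]
  funext i
  rcases i with i | i
  · rfl
  · exact congrFun key (Sum.inr i)

end Twist

variable {F : Type*} [Field F] [Fintype F] {a b : F}

lemma norm_split {R : Type*} [CommRing R] [StarRing R] {ε ζ : R} (Z w y : R) (hεε : ε * star ε = -1)
    (hζζ : ζ * star ζ = 1) (hy : star w * (1 - star ζ) = y) :
    (Z + w) * star (Z + w) + ε * (Z + ζ * w) * star (ε * (Z + ζ * w)) = Z * y + star (Z * y) := by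
  rw [← hy]
  simp only [star_add, star_mul', star_sub, star_one, star_star]
  linear_combination (Z + ζ * w) * (star Z + star ζ * star w) * hεε - (w * star w) * hζζ

theorem exists_coords (hab : Aniso a b) :
    ∃ L : ((Fin 2 ⊕ Fin 2) ⊕ Fin 2 → F) →ₗ[F] (Fin 3 → QK a b), ∀ v,
      algebraMap F (QK a b) (Cfsg.quadFormMinus 2 F a b v) = ∑ i, L v i * star (L v i) := by
  haveI := fact_of_aniso hab
  obtain ⟨ε, hε⟩ := exists_norm_QK hab (-1 : F)
  have hεε : ε * star ε = -1 := by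
    rw [← QuadraticAlgebra.algebraMap_norm_eq_mul_star, hε, map_neg, map_one]
  obtain ⟨ω, hω⟩ : ∃ ω : QK a b, ω = ⟨0, 1⟩ := ⟨_, rfl⟩
  have hd : ω - star ω ≠ 0 := by
    rw [hω, sub_ne_zero]
    intro e
    have e1 := congrArg QuadraticAlgebra.re e
    have e2 := congrArg QuadraticAlgebra.im e
    simp [QuadraticAlgebra.re_star, QuadraticAlgebra.im_star] at e1 e2
    have h2 : (2 : F) = 0 := by linear_combination e2
    haveI : CharP F 2 := CharTwo.of_one_ne_zero_of_two_eq_zero one_ne_zero h2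
    obtain ⟨c, hc⟩ := FiniteField.isSquare_of_char_two (ringChar.eq F 2) b
    exact one_ne_zero (α := F) (hab c 1 (by rw [← e1, hc]; linear_combination (c * c) * h2)).2
  have hω0 : ω ≠ 0 := fun e => hd (by rw [e, star_zero, sub_zero])
  have hω0' : star ω ≠ 0 := fun e => hω0 (by rw [← star_star ω, e, star_zero])
  obtain ⟨ζ, hζ⟩ : ∃ ζ, ζ = ω / star ω := ⟨_, rfl⟩
  have hζζ : ζ * star ζ = 1 := by rw [hζ, star_div₀, star_star]; field_simp
  obtain ⟨c, hc⟩ : ∃ c, c = 1 - star ζ := ⟨_, rfl⟩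
  have hc0 : c ≠ 0 := by
    rw [hc, sub_ne_zero, hζ, star_div₀, star_star]
    intro e
    rw [eq_div_iff hω0, one_mul] at e
    exact hd (sub_eq_zero.mpr e)
  let i := algebraMap F (QK a b)
  let Zf : ((Fin 2 ⊕ Fin 2) ⊕ Fin 2 → F) → QK a b := fun v => i (v (.inl (.inl 0))) + i (v (.inl (.inl 1))) * ω
  let Yf : ((Fin 2 ⊕ Fin 2) ⊕ Fin 2 → F) → QK a b := fun v =>
    (i (v (.inl (.inr 1))) - star ω * i (v (.inl (.inr 0)))) / (ω - star ω)
  let W : ((Fin 2 ⊕ Fin 2) ⊕ Fin 2 → F) → QK a b := fun v => star (Yf v / c)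
  have hsi : ∀ r : F, star (i r) = i r := fun r => by
    ext <;> simp [i, QuadraticAlgebra.algebraMap_eq, QuadraticAlgebra.re_star, QuadraticAlgebra.im_star]
  have hsmul : ∀ (r : F) (z : QK a b), r • z = i r * z := fun r z => Algebra.smul_def r z
  let L : ((Fin 2 ⊕ Fin 2) ⊕ Fin 2 → F) →ₗ[F] (Fin 3 → QK a b) :=
    { toFun := fun v => ![Zf v + W v, ε * (Zf v + ζ * W v), i (v (.inr 0)) + i (v (.inr 1)) * ω]
      map_add' := fun x y => by
        funext k
        fin_cases k <;> simp [Zf, W, Yf, map_add, star_add, add_div, star_div₀, sub_div, mul_add, add_mul] <;> ring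
      map_smul' := fun r x => by
        funext k
        fin_cases k <;> simp [Zf, W, Yf, hsmul, map_mul, star_mul', star_div₀, hsi] <;> ring }
  refine ⟨L, fun v => ?_⟩
  have hz : algebraMap F (QK a b) (v (.inr 0) ^ 2 + a * v (.inr 0) * v (.inr 1) + b * v (.inr 1) ^ 2) =
      (i (v (.inr 0)) + i (v (.inr 1)) * ω) * star (i (v (.inr 0)) + i (v (.inr 1)) * ω) := by
    rw [← QuadraticAlgebra.algebraMap_norm_eq_mul_star, norm_QK]
    congr 1
    simp [i, hω, QuadraticAlgebra.algebraMap_eq]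
  have hY : star (Yf v) = (i (v (.inl (.inr 1))) - ω * i (v (.inl (.inr 0)))) / (star ω - ω) := by
    simp [Yf, star_div₀, star_sub, star_mul', hsi]
  have hd' : star ω - ω ≠ 0 := sub_ne_zero.mpr (Ne.symm (sub_ne_zero.mp hd))
  have hT : Zf v * Yf v + star (Zf v * Yf v) =
      i (v (.inl (.inl 0))) * i (v (.inl (.inr 0))) + i (v (.inl (.inl 1))) * i (v (.inl (.inr 1))) := by
    rw [star_mul', hY]
    simp only [Zf, Yf, star_add, star_mul', hsi]
    rw [show star ω - ω = -(ω - star ω) by ring, div_neg]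
    field_simp
    ring
  have hW : star (W v) * c = Yf v := by
    simp only [W, star_star]
    field_simp
  have hmain : (Zf v + W v) * star (Zf v + W v) + ε * (Zf v + ζ * W v) * star (ε * (Zf v + ζ * W v)) =
      Zf v * Yf v + star (Zf v * Yf v) :=
    norm_split (Zf v) (W v) (Yf v) hεε hζζ (hc ▸ hW)
  have hQ : Cfsg.quadFormMinus 2 F a b v =
      v (.inl (.inl 0)) * v (.inl (.inr 0)) + v (.inl (.inl 1)) * v (.inl (.inr 1)) +
        (v (.inr 0) ^ 2 + a * v (.inr 0) * v (.inr 1) + b * v (.inr 1) ^ 2) := by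
    simp [Cfsg.quadFormMinus, Fin.sum_univ_two]
  rw [hQ, Fin.sum_univ_three, map_add, map_add, map_mul, map_mul, hz]
  show _ = (Zf v + W v) * star (Zf v + W v) + ε * (Zf v + ζ * W v) * star (ε * (Zf v + ζ * W v)) +
    (i (v (.inr 0)) + i (v (.inr 1)) * ω) * star (i (v (.inr 0)) + i (v (.inr 1)) * ω)
  rw [hmain, hT]

set_option maxHeartbeats 1600000 in
lemma scalar_of_act_id {K : Type*} [Field K] [StarRing K] {g : Matrix (Fin 4) (Fin 4) K} (hg : gᴴ * g = 1)
    (h : ∀ x, actLin g x = x) : ∃ c : K, c * c = 1 ∧ g = c • 1 := by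
  have h1 : gᵀ * g.map star = 1 := by
    have := congrArg Matrix.transpose hg
    rw [Matrix.transpose_mul, Matrix.transpose_one] at this
    exact this
  have hM : ∀ x, g * toAlt x = toAlt x * g.map star := fun x => by
    calc g * toAlt x = g * toAlt x * (gᵀ * g.map star) := by rw [h1, mul_one]
      _ = toAlt (actLin g x) * g.map star := by rw [toAlt_act, Matrix.mul_assoc, Matrix.mul_assoc, Matrix.mul_assoc]
      _ = _ := by rw [h]
  have H : ∀ (x : Fin 3 ⊕ Fin 3 → K) (r s : Fin 4), (g * toAlt x) r s = (toAlt x * g.map star) r s := fun x r s => by rw [hM]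
  have a20 := H (Pi.single (Sum.inl 0) 1) 2 1
  have a30 := H (Pi.single (Sum.inl 0) 1) 3 1
  have a21 := H (Pi.single (Sum.inl 0) 1) 2 0
  have a31 := H (Pi.single (Sum.inl 0) 1) 3 0
  have a00 := H (Pi.single (Sum.inl 0) 1) 0 1
  have a02 := H (Pi.single (Sum.inr 0) 1) 0 3
  have a12 := H (Pi.single (Sum.inr 0) 1) 1 3
  have a03 := H (Pi.single (Sum.inr 0) 1) 0 2
  have a13 := H (Pi.single (Sum.inr 0) 1) 1 2
  have a10 := H (Pi.single (Sum.inl 1) 1) 1 2
  have a32 := H (Pi.single (Sum.inl 1) 1) 3 0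
  have b00 := H (Pi.single (Sum.inl 1) 1) 0 2
  have a01 := H (Pi.single (Sum.inr 1) 1) 0 3
  have a23 := H (Pi.single (Sum.inr 1) 1) 2 1
  have b11 := H (Pi.single (Sum.inr 1) 1) 1 3
  have c00 := H (Pi.single (Sum.inl 2) 1) 0 3
  simp [Matrix.mul_apply, Fin.sum_univ_four, toAlt, Pi.single_apply]
    at a20 a30 a21 a31 a00 a02 a12 a03 a13 a10 a32 b00 a01 a23 b11 c00
  have s11 : g 1 1 = star (g 0 0) := by rw [a00, star_star]
  have s22 : g 2 2 = star (g 0 0) := by rw [b00, star_star]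
  have s33 : g 3 3 = g 0 0 := by rw [← star_star (g 3 3), ← b11, s11, star_star]
  have hreal : star (g 0 0) = g 0 0 := by
    conv_lhs => rw [c00, star_star]
    exact s33
  rw [hreal] at s11 s22
  have hgc : g = g 0 0 • 1 := by
    ext i j
    fin_cases i <;> fin_cases j <;>
      simp [a20, a30, a21, a31, a02, a12, a03, a13, a10, a32, a01, a23, s11, s22, s33]
  refine ⟨g 0 0, ?_, hgc⟩
  have e := congrFun (congrFun hg 0) 0
  rw [hgc] at e
  simpa [Matrix.conjTranspose_smul, hreal] using e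

end CfsgLib.KleinMinus

namespace CfsgLib.KleinMinus

lemma im_zero' {F : Type*} [Field F] [Fintype F] {a b : F} (hab : CfsgLib.Classical.Orders.Aniso a b)
    {z : CfsgLib.Classical.Orders.QK a b} (h : star z = z) : z.im = 0 := by
  have e1 := congrArg QuadraticAlgebra.re h
  have e2 := congrArg QuadraticAlgebra.im h
  simp only [QuadraticAlgebra.re_star, QuadraticAlgebra.im_star] at e1 e2
  by_cases h2 : (2 : F) = 0
  · have ha : a ≠ 0 := fun ha => by
      haveI : CharP F 2 := CharTwo.of_one_ne_zero_of_two_eq_zero one_ne_zero h2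
      obtain ⟨c, hc⟩ := FiniteField.isSquare_of_char_two (ringChar.eq F 2) b
      exact one_ne_zero (α := F) (hab c 1 (by rw [ha, hc]; linear_combination (c * c) * h2)).2
    exact (mul_eq_zero.mp (show a * z.im = 0 by linear_combination e1)).resolve_left ha
  · exact (mul_eq_zero.mp (show (2 : F) * z.im = 0 by linear_combination -e2)).resolve_left h2

end CfsgLib.KleinMinus
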