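import Cfsg.Agent.Lib.ClassicalKleinMinus
import Cfsg.Agent.Lib.ClassicalPSp

/-! PΩ⁻_6(q) is PSU_4(q). -/

set_option autoImplicit false

namespace CfsgLib.KleinMinus

open Matrix CfsgLib.KleinPlus CfsgLib.Classical.Orders CfsgLib.Classical

lemma comm_hom_aux {G : Type*} [Group G] (g x y : G)
    (h : x * (g * y * g⁻¹ * y⁻¹) = (g * y * g⁻¹ * y⁻¹) * x) :
    g * (x * y) * g⁻¹ * (x * y)⁻¹ = g * x * g⁻¹ * x⁻¹ * (g * y * g⁻¹ * y⁻¹) := by
  calc g * (x * y) * g⁻¹ * (x * y)⁻¹ = g * x * g⁻¹ * x⁻¹ * (x * (g * y * g⁻¹ * y⁻¹)) * x⁻¹ := by group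
    _ = g * x * g⁻¹ * x⁻¹ * ((g * y * g⁻¹ * y⁻¹) * x) * x⁻¹ := by rw [h]
    _ = _ := by group

lemma comm_aux {G : Type*} [Group G] (g h : G) (h4 : g * h * g⁻¹ * h⁻¹ = 1) : h * g = g * h := by
  calc h * g = (g * h * g⁻¹ * h⁻¹) * (h * g) := by rw [h4, one_mul]
    _ = g * h := by group

lemma center_map_eq {G H : Type*} [Group G] [Group H] (e : G ≃* H) :
    (Subgroup.center G).map (e : G →* H) = Subgroup.center H := by
  ext x
  constructor
  · rintro ⟨y, hy, rfl⟩
    refine Subgroup.mem_center_iff.mpr fun z => ?_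
    obtain ⟨w, rfl⟩ := e.surjective z
    exact ((map_mul e w y).symm.trans (congrArg e (Subgroup.mem_center_iff.mp hy w))).trans (map_mul e y w)
  · intro hx
    refine ⟨e.symm x, Subgroup.mem_center_iff.mpr fun w => e.injective ?_, e.apply_symm_apply x⟩
    rw [map_mul, map_mul, e.apply_symm_apply]
    exact Subgroup.mem_center_iff.mp hx (e w)

variable {F : Type*} [Field F] [Fintype F] {a b : F}

set_option maxHeartbeats 1600000 in
theorem nonempty_pomega_minus_six_equiv_qk (hab : Aniso a b) [Fact (∀ r : F, r ^ 2 ≠ -b + a * r)]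
    [Fintype (QK a b)] :
    Nonempty (Cfsg.POmega F (Cfsg.quadFormMinus 2 F a b) ≃* Cfsg.PSU 4 (QK a b) (Fintype.card F)) := by
  classical
  obtain ⟨q, hq⟩ : ∃ q, q = Fintype.card F := ⟨_, rfl⟩
  rw [← hq]
  have hq2 : 2 ≤ q := hq ▸ Fintype.one_lt_card
  have hcard : Fintype.card (QK a b) = q ^ 2 := by
    rw [hq, ← Nat.card_eq_fintype_card, Nat.card_congr (QuadraticAlgebra.equivProd (-b) a), Nat.card_prod,
      Nat.card_eq_fintype_card, sq]
  obtain ⟨σ, hσ, hf⟩ := exists_isUnitaryForm_hermForm (F := QK a b) 4 q hcard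
  have hstar : ∀ z : QK a b, z ^ q = star z := by
    have hfix : ∀ r : F, σ (algebraMap F (QK a b) r) = algebraMap F (QK a b) r := fun r => by
      rw [hσ, ← map_pow, hq, FiniteField.pow_card]
    have hdec : ∀ z : QK a b, z = algebraMap F (QK a b) z.re + algebraMap F (QK a b) z.im * ⟨0, 1⟩ := fun z => by
      ext <;> simp [QuadraticAlgebra.algebraMap_eq]
    obtain ⟨ω, hω⟩ : ∃ ω : QK a b, ω = ⟨0, 1⟩ := ⟨_, rfl⟩
    have hroot : ω * ω - algebraMap F (QK a b) a * ω + algebraMap F (QK a b) b = 0 := by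
      rw [hω]; ext <;> simp [QuadraticAlgebra.algebraMap_eq]
    have hroot' := congrArg σ hroot
    rw [map_add, map_sub, map_mul, map_mul, hfix, hfix, map_zero] at hroot'
    have hne : σ ω ≠ ω := fun e => hf.ne_refl (RingEquiv.ext fun z => by
      show σ z = z
      conv_lhs => rw [hdec z, ← hω, map_add, map_mul, hfix, hfix, e]
      rw [hω, ← hdec z])
    have hso : σ ω = star ω := by
      have h : (σ ω - ω) * (σ ω - (algebraMap F (QK a b) a - ω)) = 0 := by linear_combination hroot' - hroot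
      rw [sub_eq_zero.mp ((mul_eq_zero.mp h).resolve_left (sub_ne_zero.mpr hne)), hω]
      ext <;> simp [QuadraticAlgebra.algebraMap_eq, QuadraticAlgebra.re_star, QuadraticAlgebra.im_star]
    intro z
    rw [← hσ]
    conv_lhs => rw [hdec z, ← hω, map_add, map_mul, hfix, hfix, hso, hω]
    ext <;> simp [QuadraticAlgebra.algebraMap_eq, QuadraticAlgebra.re_star, QuadraticAlgebra.im_star] <;> ring
  let S := ↥(Cfsg.SU 4 (QK a b) q)
  have hunit : ∀ g : S, (((g : Matrix.SpecialLinearGroup (Fin 4) (QK a b)) : Matrix (Fin 4) (Fin 4) (QK a b)))ᴴ *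
      ((g : Matrix.SpecialLinearGroup (Fin 4) (QK a b)) : Matrix (Fin 4) (Fin 4) (QK a b)) = 1 := fun g => by
    ext i j : 1
    have h := g.2 (Pi.single j 1) (Pi.single i 1)
    simp only [Cfsg.hermForm, mulVec_single_one, col_apply, hstar] at h
    rw [Matrix.mul_apply]
    simp only [Matrix.conjTranspose_apply]
    calc ∑ k, star (((g : Matrix.SpecialLinearGroup (Fin 4) (QK a b)) : Matrix (Fin 4) (Fin 4) (QK a b)) k i) *
          ((g : Matrix.SpecialLinearGroup (Fin 4) (QK a b)) : Matrix (Fin 4) (Fin 4) (QK a b)) k j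
        = ∑ k, ((g : Matrix.SpecialLinearGroup (Fin 4) (QK a b)) : Matrix (Fin 4) (Fin 4) (QK a b)) k j *
          star (((g : Matrix.SpecialLinearGroup (Fin 4) (QK a b)) : Matrix (Fin 4) (Fin 4) (QK a b)) k i) :=
        Finset.sum_congr rfl fun k _ => mul_comm _ _
      _ = ∑ k, (Pi.single j 1 : Fin 4 → QK a b) k * star ((Pi.single i 1 : Fin 4 → QK a b) k) := h
      _ = (1 : Matrix (Fin 4) (Fin 4) (QK a b)) i j := by
        rw [Finset.sum_eq_single j (fun k _ hk => by simp [Pi.single_eq_of_ne hk]) (by simp), Matrix.one_apply]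
        by_cases e : i = j
        · subst e; simp
        · simp [Pi.single_eq_of_ne (Ne.symm e), e]
  obtain ⟨L, hL⟩ := exists_coords hab
  have hLinj : Function.Injective L := by
    rw [injective_iff_map_eq_zero]
    intro v hv
    by_contra h0
    obtain ⟨x, hx⟩ := ((isNondegenerate_quadFormMinus 2 hab).nondegenerate v h0).2
    apply hx
    refine (algebraMap F (QK a b)).injective ?_
    rw [QuadraticMap.polar, map_sub, map_sub, hL, hL, hL, map_add L, hv, map_zero]
    simp
  have hrank : Module.finrank F (QK a b) = 2 := by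
    rw [(QuadraticAlgebra.linearEquivTuple (-b) a).finrank_eq]; simp
  have hsurj : Function.Surjective L :=
    (LinearMap.injective_iff_surjective_of_finrank_eq_finrank (by
      simp [Module.finrank_pi_fintype, hrank])).mp hLinj
  let Le : ((Fin 2 ⊕ Fin 2) ⊕ Fin 2 → F) ≃ₗ[F] (Fin 3 → QK a b) := LinearEquiv.ofBijective L ⟨hLinj, hsurj⟩
  let fixL : (Fin 3 → QK a b) →ₗ[F] (Fin 3 ⊕ Fin 3 → QK a b) :=
    { toFun := fixVec
      map_add' := fun x y => by funext i; rcases i with i | i <;> simp [fixVec]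
      map_smul' := fun r x => by
        funext i; rcases i with i | i
        · simp [fixVec]
        · show star (r • x i) = r • star (x i)
          ext <;> simp [QuadraticAlgebra.re_star, QuadraticAlgebra.im_star] <;> ring }
  let topL : (Fin 3 ⊕ Fin 3 → QK a b) →ₗ[F] (Fin 3 → QK a b) := LinearMap.funLeft F (QK a b) Sum.inl
  let T : S → ((Fin 2 ⊕ Fin 2) ⊕ Fin 2 → F) →ₗ[F] ((Fin 2 ⊕ Fin 2) ⊕ Fin 2 → F) := fun g =>
    Le.symm.toLinearMap.comp (topL.comp
      (((actLin (((g : Matrix.SpecialLinearGroup (Fin 4) (QK a b)) : Matrix (Fin 4) (Fin 4) (QK a b)))).restrictScalars F).comp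
        (fixL.comp Le.toLinearMap)))
  have hT : ∀ g v, fixVec (Le (T g v)) =
      actLin ((g : Matrix.SpecialLinearGroup (Fin 4) (QK a b)) : Matrix (Fin 4) (Fin 4) (QK a b)) (fixVec (Le v)) :=
    fun g v => by
      show fixVec (Le (Le.symm _)) = _
      rw [LinearEquiv.apply_symm_apply]
      exact act_fixVec (g : Matrix.SpecialLinearGroup (Fin 4) (QK a b)) (hunit g) (Le v)
  have hfixinj : Function.Injective (fixVec : (Fin 3 → QK a b) → _) := fun x y h =>
    funext fun i => congrFun h (Sum.inl i)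
  let R : S →* Matrix ((Fin 2 ⊕ Fin 2) ⊕ Fin 2) ((Fin 2 ⊕ Fin 2) ⊕ Fin 2) F :=
    { toFun := fun g => LinearMap.toMatrix' (T g)
      map_one' := by
        rw [← LinearMap.toMatrix'_id]
        congr 1
        refine LinearMap.ext fun x => Le.injective (hfixinj ?_)
        rw [hT, LinearMap.id_apply, Subgroup.coe_one, Matrix.SpecialLinearGroup.coe_one, actLin_apply, one_mul,
          Matrix.transpose_one, mul_one, ofAlt_toAlt]
      map_mul' := fun g h => by
        rw [← LinearMap.toMatrix'_comp]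
        congr 1
        refine LinearMap.ext fun x => Le.injective (hfixinj ?_)
        show fixVec (Le (T (g * h) x)) = fixVec (Le (T g (T h x)))
        rw [hT, hT, hT, Subgroup.coe_mul, Matrix.SpecialLinearGroup.coe_mul, actLin_mul] }
  have hR : ∀ g x, (R.toHomUnits g : Matrix ((Fin 2 ⊕ Fin 2) ⊕ Fin 2) ((Fin 2 ⊕ Fin 2) ⊕ Fin 2) F) *ᵥ x = T g x :=
    fun g x => LinearMap.toMatrix'_mulVec _ _
  have hQ6 : ∀ l : Fin 3 → QK a b, ∑ i, l i * star (l i) = Cfsg.quadFormPlus 3 (QK a b) (fixVec l) := fun l => rfl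
  let O := Cfsg.isometryGroup F (Cfsg.quadFormMinus 2 F a b)
  let r : S →* ↥O := R.toHomUnits.codRestrict _ fun g x _ => by
    show Cfsg.quadFormMinus 2 F a b
      ((R.toHomUnits g : Matrix ((Fin 2 ⊕ Fin 2) ⊕ Fin 2) ((Fin 2 ⊕ Fin 2) ⊕ Fin 2) F) *ᵥ x) =
        Cfsg.quadFormMinus 2 F a b x
    rw [hR]
    refine (algebraMap F (QK a b)).injective ?_
    rw [hL, hL, hQ6, hQ6]
    show Cfsg.quadFormPlus 3 (QK a b) (fixVec (Le (T g x))) = _
    rw [hT]
    exact quad_act (g : Matrix.SpecialLinearGroup (Fin 4) (QK a b)) _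
  have hperf : commutator S = ⊤ := by
    refine commutator_congr_top (suEquiv 4 (QK a b) q) ?_
    exact commutator_hSU hf (by simp) (Or.inl (by simp))
  have hker : ∀ g ∈ r.ker, ∃ c : QK a b, c * c = 1 ∧
      ((g : Matrix.SpecialLinearGroup (Fin 4) (QK a b)) : Matrix (Fin 4) (Fin 4) (QK a b)) = c • 1 := by
    intro g hg
    obtain ⟨G, hG⟩ : ∃ G, G = ((g : Matrix.SpecialLinearGroup (Fin 4) (QK a b)) : Matrix (Fin 4) (Fin 4) (QK a b)) :=
      ⟨_, rfl⟩
    have hid : ∀ l, actLin G (fixVec l) = fixVec l := fun l => by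
      obtain ⟨v, rfl⟩ := Le.surjective l
      rw [hG, ← hT]
      congr 2
      have h2 := congrArg (fun u : ↥O => ((u : GL ((Fin 2 ⊕ Fin 2) ⊕ Fin 2) F) :
        Matrix ((Fin 2 ⊕ Fin 2) ⊕ Fin 2) ((Fin 2 ⊕ Fin 2) ⊕ Fin 2) F) *ᵥ v) (MonoidHom.mem_ker.mp hg)
      simp only [OneMemClass.coe_one, Units.val_one, one_mulVec] at h2
      rw [← hR]; exact h2
    obtain ⟨ω, hω⟩ : ∃ ω : QK a b, ω = ⟨0, 1⟩ := ⟨_, rfl⟩
    have hd : ω - star ω ≠ 0 := by
      rw [hω, sub_ne_zero]
      intro e
      have := im_zero' hab e.symm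
      exact one_ne_zero (α := F) this
    have hbasis : ∀ j, actLin G (Pi.single j 1) = Pi.single j 1 := by
      have hl : ∀ i : Fin 3, actLin G (Pi.single (Sum.inl i) 1) = Pi.single (Sum.inl i) 1 := fun i => by
        have e : (Pi.single (Sum.inl i) 1 : Fin 3 ⊕ Fin 3 → QK a b) =
            (ω - star ω)⁻¹ • (fixVec (Pi.single i ω) - star ω • fixVec (Pi.single i 1)) := by
          rw [eq_inv_smul_iff₀ hd]
          funext k; rcases k with k | k
          · by_cases hk : k = i
            · subst hk; simp [fixVec]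
            · simp [fixVec, hk]
          · by_cases hk : k = i
            · subst hk; simp [fixVec]
            · simp [fixVec, hk]
        rw [e, map_smul, map_sub, map_smul, hid, hid]
      intro j
      rcases j with i | i
      · exact hl i
      · have e : (Pi.single (Sum.inr i) 1 : Fin 3 ⊕ Fin 3 → QK a b) =
            fixVec (Pi.single i 1) - Pi.single (Sum.inl i) 1 := by
          funext k; rcases k with k | k <;> by_cases hk : k = i <;> simp [fixVec, hk]
        rw [e, map_sub, hid, hl]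
    refine scalar_of_act_id (g := G) (hG ▸ hunit g) (fun x => ?_) |>.imp fun c hc => ⟨hc.1, hG ▸ hc.2⟩
    have hlin : actLin G = LinearMap.id := LinearMap.pi_ext fun j c => by
      have : (Pi.single j c : Fin 3 ⊕ Fin 3 → QK a b) = c • Pi.single j 1 := by simp [← Pi.single_smul]
      rw [this, map_smul, hbasis, map_smul]; rfl
    rw [hlin]; rfl
  have hk2 : Nat.card r.ker ≤ (if (2 : F) = 0 then 1 else 2) := by
    let κ : r.ker → QK a b := fun g =>
      (((g : S) : Matrix.SpecialLinearGroup (Fin 4) (QK a b)) : Matrix (Fin 4) (Fin 4) (QK a b)) 0 0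
    have hinj : Function.Injective κ := fun g g' h => by
      obtain ⟨c, -, hc⟩ := hker g g.2
      obtain ⟨c', -, hc'⟩ := hker g' g'.2
      have e : c = c' := by simpa [κ, hc, hc'] using h
      exact Subtype.ext (Subtype.ext (Subtype.ext (by rw [hc, hc', e])))
    have himg : ∀ g, κ g = 1 ∨ κ g = -1 := fun g => by
      obtain ⟨c, hcc, hc⟩ := hker g g.2
      simpa [κ, hc] using mul_self_eq_one_iff.mp hcc
    split_ifs with h2
    · haveI : Subsingleton r.ker := ⟨fun g g' => hinj <| by
        have hm : (-1 : QK a b) = 1 := by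
          have h2' : (2 : QK a b) = 0 := by
            rw [← map_ofNat (algebraMap F (QK a b)) 2, h2, map_zero]
          linear_combination -h2'
        rcases himg g with e | e <;> rcases himg g' with e' | e' <;> rw [e, e'] <;> simp [hm]⟩
      exact Nat.card_unique.le
    · calc Nat.card r.ker ≤ Nat.card ({1, -1} : Set (QK a b)) :=
            Nat.card_le_card_of_injective (fun g => ⟨κ g, by simpa using himg g⟩)
              fun g g' h => hinj (congrArg Subtype.val h)
        _ ≤ 2 := by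
            rw [Nat.card_coe_set_eq]
            exact (Set.ncard_insert_le _ _).trans (by simp)
  have hrange : r.range ≤ Cfsg.Omega F (Cfsg.quadFormMinus 2 F a b) := by
    rw [MonoidHom.range_eq_map, ← hperf, commutator_def, Subgroup.map_commutator]
    exact Subgroup.commutator_mono le_top le_top
  have hOmega : r.range = Cfsg.Omega F (Cfsg.quadFormMinus 2 F a b) := by
    refine Subgroup.eq_of_le_of_card_ge hrange ?_
    have hQ := isNondegenerate_quadFormMinus 2 hab
    have hS : Nat.card r.ker * Nat.card r.range = Nat.card S := by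
      rw [← Subgroup.index_ker, Subgroup.card_mul_index]
    have hO : Nat.card ↥O = 2 * Nat.card S := by
      have hG : (q + 1) * Nat.card S = Nat.card (Cfsg.GU 4 (QK a b) q) := card_SU_mul hcard (by norm_num)
      rw [card_GU hcard 4, Finset.prod_range_succ, Finset.prod_range_succ, Finset.prod_range_succ,
        Finset.prod_range_one, if_pos (by decide), if_neg (by decide), if_pos (by decide), if_neg (by decide)] at hG
      have hSU : Nat.card S = q ^ 6 * ((q ^ 2 - 1) * (q ^ 3 + 1) * (q ^ 4 - 1)) := by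
        refine Nat.eq_of_mul_eq_mul_left (show 0 < q + 1 by omega) ?_
        rw [hG]; norm_num; ring
      rw [CfsgLib.Classical.Orders.card_O_minus hab 2, hSU, ← hq]
      simp only [Finset.prod_range_succ, Finset.prod_range_zero, one_mul]
      norm_num; ring
    have e := Subgroup.card_mul_index (Cfsg.Omega F (Cfsg.quadFormMinus 2 F a b))
    have e' : Nat.card ↥(Cfsg.Omega F (Cfsg.quadFormMinus 2 F a b)) *
        (Cfsg.Omega F (Cfsg.quadFormMinus 2 F a b)).index =
          2 * (Nat.card r.ker * Nat.card r.range) := e.trans (hO.trans (congrArg (2 * ·) hS.symm))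
    have := Nat.mul_le_mul_right (Nat.card r.range) hk2
    by_cases h2 : (2 : F) = 0
    · haveI hchar : CharP F 2 := CharTwo.of_one_ne_zero_of_two_eq_zero one_ne_zero h2
      have hi : (Cfsg.Omega F (Cfsg.quadFormMinus 2 F a b)).index = 2 :=
        index_omega_even hQ (by simp) (Or.inr (by simp))
      rw [hi] at e'
      rw [if_pos h2] at this
      nlinarith
    · rw [index_omega_odd hQ h2 (by simp)] at e'
      rw [if_neg h2] at this
      nlinarith
  let φ : S →* ↥(Cfsg.Omega F (Cfsg.quadFormMinus 2 F a b)) := r.codRestrict _ fun g => hrange ⟨g, rfl⟩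
  have hφ : Function.Surjective φ := fun w => by
    obtain ⟨g, hg⟩ : (w : ↥O) ∈ r.range := by rw [hOmega]; exact w.2
    exact ⟨g, Subtype.ext hg⟩
  let ψ : S →* Cfsg.POmega F (Cfsg.quadFormMinus 2 F a b) := (QuotientGroup.mk' _).comp φ
  have hψ : Function.Surjective ψ := (QuotientGroup.mk'_surjective _).comp hφ
  have hψk : ψ.ker = Subgroup.center S := by
    refine le_antisymm (fun g hg => ?_) fun g hg => ?_
    · have hkc : ∀ k ∈ r.ker, k ∈ Subgroup.center S := fun k hk => by
        obtain ⟨c, -, hc⟩ := hker k hk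
        refine Subgroup.mem_center_iff.mpr fun h => Subtype.ext (Subtype.ext ?_)
        rw [Subgroup.coe_mul, Subgroup.coe_mul, Matrix.SpecialLinearGroup.coe_mul, Matrix.SpecialLinearGroup.coe_mul,
          hc, mul_smul_comm, smul_mul_assoc, mul_one, one_mul]
      have hc1 : ∀ h : S, g * h * g⁻¹ * h⁻¹ ∈ Subgroup.center S := fun h => hkc _ <| by
        have h1 := Subgroup.mem_center_iff.mp ((QuotientGroup.eq_one_iff _).mp (MonoidHom.mem_ker.mp hg)) (φ h)
        have h2 : r h * r g = r g * r h := congrArg Subtype.val h1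
        rw [MonoidHom.mem_ker, r.map_mul, r.map_mul, r.map_mul, r.map_inv, r.map_inv, ← h2, mul_inv_cancel_right,
          mul_inv_cancel]
      let c : S →* ↥(Subgroup.center S) := MonoidHom.mk' (fun h => ⟨_, hc1 h⟩) fun x y => Subtype.ext <| by
        show g * (x * y) * g⁻¹ * (x * y)⁻¹ = g * x * g⁻¹ * x⁻¹ * (g * y * g⁻¹ * y⁻¹)
        exact comm_hom_aux g x y (Subgroup.mem_center_iff.mp (hc1 y) x)
      refine Subgroup.mem_center_iff.mpr fun h => ?_
      letI : CommGroup ↥(Subgroup.center S) :=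
        { (inferInstance : Group ↥(Subgroup.center S)) with
          mul_comm := fun x y => Subtype.ext (Subgroup.mem_center_iff.mp y.2 x.1) }
      have hle : commutator S ≤ c.ker := Abelianization.commutator_subset_ker c
      have h3 := congrArg Subtype.val (MonoidHom.mem_ker.mp (hle (hperf ▸ Subgroup.mem_top h)))
      have h4 : g * h * g⁻¹ * h⁻¹ = 1 := h3
      exact comm_aux g h h4
    · rw [MonoidHom.mem_ker]
      refine (QuotientGroup.eq_one_iff _).mpr (Subgroup.mem_center_iff.mpr fun w => ?_)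
      obtain ⟨c, rfl⟩ := hφ w
      rw [← map_mul, ← map_mul, Subgroup.mem_center_iff.mp hg c]
  exact ⟨(QuotientGroup.quotientKerEquivOfSurjective ψ hψ).symm.trans (QuotientGroup.quotientMulEquivOfEq hψk)⟩

theorem nonempty_pomega_minus_six_equiv {K : Type*} [Field K] [Fintype K] {q : ℕ} (hF : Fintype.card F = q)
    (hK : Fintype.card K = q ^ 2) (hab : Aniso a b) :
    Nonempty (Cfsg.POmega F (Cfsg.quadFormMinus 2 F a b) ≃* Cfsg.PSU 4 K q) := by
  classical
  haveI := fact_of_aniso hab
  haveI : Finite (QK a b) := Module.finite_of_finite F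
  haveI := Fintype.ofFinite (QK a b)
  subst hF
  obtain ⟨e⟩ := nonempty_pomega_minus_six_equiv_qk hab
  have hcardQK : Fintype.card (QK a b) = Fintype.card F ^ 2 := by
    rw [← Nat.card_eq_fintype_card, Nat.card_congr (QuadraticAlgebra.equivProd (-b) a), Nat.card_prod,
      Nat.card_eq_fintype_card, sq]
  let σ : QK a b ≃+* K := FiniteField.ringEquivOfCardEq (hcardQK.trans hK.symm)
  let μ : Matrix.SpecialLinearGroup (Fin 4) (QK a b) ≃* Matrix.SpecialLinearGroup (Fin 4) K :=
    MulEquiv.ofBijective (Matrix.SpecialLinearGroup.map σ.toRingHom)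
      ⟨fun g h e => by
        refine Subtype.ext ?_
        ext i j : 1
        have := congrFun (congrFun (congrArg (fun u : Matrix.SpecialLinearGroup (Fin 4) K =>
          (u : Matrix (Fin 4) (Fin 4) K)) e) i) j
        simpa using this,
      fun g => ⟨Matrix.SpecialLinearGroup.map σ.symm.toRingHom g, Subtype.ext (by ext i j : 1; simp)⟩⟩
  have hform : ∀ (g : Matrix.SpecialLinearGroup (Fin 4) (QK a b)) (u v : Fin 4 → QK a b),
      Cfsg.hermForm 4 K (Fintype.card F)
        ((μ g : Matrix (Fin 4) (Fin 4) K) *ᵥ fun i => σ (u i))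
        ((μ g : Matrix (Fin 4) (Fin 4) K) *ᵥ fun i => σ (v i)) =
      σ (Cfsg.hermForm 4 (QK a b) (Fintype.card F) ((g : Matrix (Fin 4) (Fin 4) (QK a b)) *ᵥ u)
        ((g : Matrix (Fin 4) (Fin 4) (QK a b)) *ᵥ v)) := fun g u v => by
    simp only [Cfsg.hermForm, map_sum, map_mul, map_pow, Matrix.mulVec, dotProduct]
    rfl
  have hmap : (Cfsg.SU 4 (QK a b) (Fintype.card F)).map μ.toMonoidHom = Cfsg.SU 4 K (Fintype.card F) := by
    ext g
    obtain ⟨g, rfl⟩ := μ.surjective g
    constructor
    · rintro ⟨h, hh, hhg⟩ u v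
      obtain rfl := μ.injective hhg
      obtain ⟨u, rfl⟩ : ∃ u' : Fin 4 → QK a b, (fun i => σ (u' i)) = u := ⟨fun i => σ.symm (u i), by simp⟩
      obtain ⟨v, rfl⟩ : ∃ v' : Fin 4 → QK a b, (fun i => σ (v' i)) = v := ⟨fun i => σ.symm (v i), by simp⟩
      refine (hform h u v).trans ((congrArg σ (hh u v)).trans ?_)
      simp [Cfsg.hermForm]
    · intro hg
      refine ⟨g, fun u v => σ.injective ?_, rfl⟩
      refine (hform g u v).symm.trans ((hg _ _).trans ?_)
      simp [Cfsg.hermForm]
  let ν : ↥(Cfsg.SU 4 (QK a b) (Fintype.card F)) ≃* ↥(Cfsg.SU 4 K (Fintype.card F)) :=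
    (Subgroup.equivMapOfInjective _ μ.toMonoidHom μ.injective).trans (MulEquiv.subgroupCongr hmap)
  exact ⟨e.trans (QuotientGroup.congr _ _ ν (center_map_eq ν))⟩

end CfsgLib.KleinMinus
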