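import Cfsg.Agent.Lib.ClassicalKleinPlus
import Cfsg.Agent.Lib.ClassicalPSp
import Cfsg.Agent.Lib.ClassicalOrders

/-! The Klein correspondence restricted to Sp_4: PΩ_5(q) is PSp_4(q). -/

set_option autoImplicit false

namespace CfsgLib.KleinOdd

open Matrix CfsgLib.KleinPlus

variable {F : Type*} [Field F]

/-- the index bijection -/
def sig : Fin 4 ≃ Fin 2 ⊕ Fin 2 where
  toFun := ![Sum.inl 0, Sum.inr 0, Sum.inl 1, Sum.inr 1]
  invFun := Sum.elim ![0, 2] ![1, 3]
  left_inv := by decide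
  right_inv := by decide

/-- symplectic matrices inside SL_4 -/
def toSL : Matrix.symplecticGroup (Fin 2) F →* Matrix.SpecialLinearGroup (Fin 4) F where
  toFun A := ⟨(A : Matrix (Fin 2 ⊕ Fin 2) (Fin 2 ⊕ Fin 2) F).submatrix sig sig, by
    rw [Matrix.det_submatrix_equiv_self]; exact SymplecticGroup.det_eq_one A.2⟩
  map_one' := Subtype.ext (by simp)
  map_mul' A B := Subtype.ext (by
    show ((A : Matrix (Fin 2 ⊕ Fin 2) (Fin 2 ⊕ Fin 2) F) * (B : Matrix (Fin 2 ⊕ Fin 2) (Fin 2 ⊕ Fin 2) F)).submatrix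
      sig sig = _
    rw [← Matrix.submatrix_mul_equiv _ _ sig sig sig]; rfl)

lemma toSL_coe (A : Matrix.symplecticGroup (Fin 2) F) :
    (toSL A : Matrix (Fin 4) (Fin 4) F) = (A : Matrix (Fin 2 ⊕ Fin 2) (Fin 2 ⊕ Fin 2) F).submatrix sig sig := rfl

/-- the coordinates of the alternating form -/
def vJ (F : Type*) [Field F] : Fin 3 ⊕ Fin 3 → F := Sum.elim ![-1, 0, 0] ![-1, 0, 0]

lemma toAlt_vJ : toAlt (vJ F) = (Matrix.J (Fin 2) F).submatrix sig sig := by
  ext i j
  fin_cases i <;> fin_cases j <;> simp [toAlt, vJ, sig, Matrix.J, Matrix.fromBlocks, Matrix.one_apply]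

/-- the embedding of the five-dimensional space -/
def emb : (Unit ⊕ (Fin 2 ⊕ Fin 2) → F) →ₗ[F] (Fin 3 ⊕ Fin 3 → F) where
  toFun v := Sum.elim ![v (.inl ()), v (.inr (.inl 0)), v (.inr (.inl 1))]
    ![-v (.inl ()), -v (.inr (.inr 0)), -v (.inr (.inr 1))]
  map_add' x y := by
    funext i; rcases i with i | i <;> fin_cases i <;> simp <;> ring
  map_smul' c x := by
    funext i; rcases i with i | i <;> fin_cases i <;> simp

/-- the projection back -/
def prj : (Fin 3 ⊕ Fin 3 → F) →ₗ[F] (Unit ⊕ (Fin 2 ⊕ Fin 2) → F) where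
  toFun x := Sum.elim (fun _ => x (.inl 0)) (Sum.elim ![x (.inl 1), x (.inl 2)] ![-x (.inr 1), -x (.inr 2)])
  map_add' x y := by
    funext i; rcases i with i | i | i
    · simp
    · fin_cases i <;> simp
    · fin_cases i <;> simp <;> ring
  map_smul' c x := by
    funext i; rcases i with i | i | i
    · simp
    · fin_cases i <;> simp
    · fin_cases i <;> simp

lemma prj_emb (v : Unit ⊕ (Fin 2 ⊕ Fin 2) → F) : prj (emb v) = v := by
  funext i; rcases i with i | i | i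
  · simp [prj, emb]
  · fin_cases i <;> simp [prj, emb]
  · fin_cases i <;> simp [prj, emb]

lemma emb_prj {x : Fin 3 ⊕ Fin 3 → F} (h : x (.inl 0) + x (.inr 0) = 0) : emb (prj x) = x := by
  funext i; rcases i with i | i <;> fin_cases i <;> simp [prj, emb]
  linear_combination -h

lemma quad_emb (v : Unit ⊕ (Fin 2 ⊕ Fin 2) → F) :
    Cfsg.quadFormPlus 3 F (emb v) = -Cfsg.quadFormOdd 2 F v := by
  simp [Cfsg.quadFormPlus, Cfsg.quadFormOdd, Fin.sum_univ_three, emb]; ring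

lemma polar_vJ (x : Fin 3 ⊕ Fin 3 → F) :
    Cfsg.quadFormPlus 3 F (x + vJ F) - Cfsg.quadFormPlus 3 F x - Cfsg.quadFormPlus 3 F (vJ F) =
      -(x (.inl 0) + x (.inr 0)) := by
  simp [Cfsg.quadFormPlus, Fin.sum_univ_three, vJ]; ring

variable [Fintype F]

lemma quad_act (g : Matrix.SpecialLinearGroup (Fin 4) F) (x : Fin 3 ⊕ Fin 3 → F) :
    Cfsg.quadFormPlus 3 F (actLin (g : Matrix (Fin 4) (Fin 4) F) x) = Cfsg.quadFormPlus 3 F x := by
  rw [← rep_mulVec]; exact rep_mem_isometry g x x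

lemma act_vJ (A : Matrix.symplecticGroup (Fin 2) F) :
    actLin (toSL A : Matrix (Fin 4) (Fin 4) F) (vJ F) = vJ F := by
  rw [actLin_apply, toAlt_vJ]
  show ofAlt ((A : Matrix (Fin 2 ⊕ Fin 2) (Fin 2 ⊕ Fin 2) F).submatrix sig sig * _ *
    ((A : Matrix (Fin 2 ⊕ Fin 2) (Fin 2 ⊕ Fin 2) F).submatrix sig sig)ᵀ) = _
  rw [Matrix.transpose_submatrix, Matrix.submatrix_mul_equiv _ _ sig sig sig,
    Matrix.submatrix_mul_equiv _ _ sig sig sig, SymplecticGroup.mem_iff.mp A.2, ← toAlt_vJ, ofAlt_toAlt]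

lemma act_mem (A : Matrix.symplecticGroup (Fin 2) F) (v : Unit ⊕ (Fin 2 ⊕ Fin 2) → F) :
    actLin (toSL A : Matrix (Fin 4) (Fin 4) F) (emb v) (.inl 0) +
      actLin (toSL A : Matrix (Fin 4) (Fin 4) F) (emb v) (.inr 0) = 0 := by
  have h := polar_vJ (actLin (toSL A : Matrix (Fin 4) (Fin 4) F) (emb v))
  conv_lhs at h => rw [← act_vJ A, ← map_add, quad_act, quad_act, quad_act, polar_vJ]
  have : emb v (.inl 0) + emb v (.inr 0) = 0 := by simp [emb]
  rw [this, neg_zero, eq_comm, neg_eq_zero] at h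
  exact h

/-- the representation by matrices -/
noncomputable def repMat5 : Matrix.symplecticGroup (Fin 2) F →*
    Matrix (Unit ⊕ (Fin 2 ⊕ Fin 2)) (Unit ⊕ (Fin 2 ⊕ Fin 2)) F where
  toFun A := LinearMap.toMatrix' (prj.comp ((actLin (toSL A : Matrix (Fin 4) (Fin 4) F)).comp emb))
  map_one' := by
    rw [← LinearMap.toMatrix'_id]
    congr 1
    refine LinearMap.ext fun x => ?_
    simp [actLin_apply, ofAlt_toAlt, prj_emb]
  map_mul' A B := by
    rw [← LinearMap.toMatrix'_comp]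
    congr 1
    refine LinearMap.ext fun x => ?_
    simp only [LinearMap.comp_apply]
    rw [emb_prj (act_mem B x), map_mul, Matrix.SpecialLinearGroup.coe_mul, actLin_mul]

/-- the representation -/
noncomputable def rep5 : Matrix.symplecticGroup (Fin 2) F →* GL (Unit ⊕ (Fin 2 ⊕ Fin 2)) F := repMat5.toHomUnits

lemma rep5_mulVec (A : Matrix.symplecticGroup (Fin 2) F) (x : Unit ⊕ (Fin 2 ⊕ Fin 2) → F) :
    (rep5 A : Matrix (Unit ⊕ (Fin 2 ⊕ Fin 2)) (Unit ⊕ (Fin 2 ⊕ Fin 2)) F) *ᵥ x =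
      prj (actLin (toSL A : Matrix (Fin 4) (Fin 4) F) (emb x)) := by
  show LinearMap.toMatrix' _ *ᵥ x = _
  exact LinearMap.toMatrix'_mulVec _ _

lemma rep5_mem (A : Matrix.symplecticGroup (Fin 2) F) :
    rep5 A ∈ Cfsg.isometryGroup F (Cfsg.quadFormOdd 2 F) := fun x _ => by
  show Cfsg.quadFormOdd 2 F
    ((rep5 A : Matrix (Unit ⊕ (Fin 2 ⊕ Fin 2)) (Unit ⊕ (Fin 2 ⊕ Fin 2)) F) *ᵥ x) = _
  rw [rep5_mulVec, ← neg_inj, ← quad_emb, emb_prj (act_mem A x), quad_act, quad_emb]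

theorem nonempty_pomega_five_equiv (hodd : Odd (Fintype.card F)) :
    Nonempty (Cfsg.POmega F (Cfsg.quadFormOdd 2 F) ≃* Cfsg.PSp 2 F) := by
  classical
  have h2 : (2 : F) ≠ 0 := CfsgLib.Classical.two_ne_zero_of_odd_card hodd
  have hq3 : 3 ≤ Fintype.card F := by
    have := Fintype.one_lt_card (α := F)
    have := Nat.odd_iff.mp hodd
    omega
  let Sp := Matrix.symplecticGroup (Fin 2) F
  let O := Cfsg.isometryGroup F (Cfsg.quadFormOdd 2 F)
  have hperf : commutator ↥Sp = ⊤ := CfsgLib.Classical.commutator_congr_top (CfsgLib.Classical.spToGL 2 F)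
    (CfsgLib.Classical.commutator_isoGL CfsgLib.Classical.isSymplecticForm_sympForm
      (CfsgLib.Classical.perfectWitness_sympForm (Or.inr (Or.inl ⟨rfl, hq3⟩))))
  haveI hsimple : IsSimpleGroup (Cfsg.PSp 2 F) := by
    refine CfsgLib.Classical.isSimpleGroup_quot_center_congr (CfsgLib.Classical.spToGL 2 F) ?_
    exact CfsgLib.Classical.isSimpleGroup_quot_isoGL CfsgLib.Classical.isSymplecticForm_sympForm
      (CfsgLib.Classical.perfectWitness_sympForm (Or.inr (Or.inl ⟨rfl, hq3⟩)))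
      (v := Pi.single (Sum.inl 0) 1) (by simp)
  let r : ↥Sp →* ↥O := rep5.codRestrict _ rep5_mem
  -- non-triviality
  have hne : r.ker ≠ ⊤ := fun h => by
    have hA : Cfsg.sympTransvection 2 (Pi.single (Sum.inl 0) 1 : Fin 2 ⊕ Fin 2 → F) 1 ∈ Sp :=
      CfsgLib.Classical.sympTransvection_mem _ _
    have h1 : (⟨_, hA⟩ : ↥Sp) ∈ r.ker := h ▸ Subgroup.mem_top _
    have h2' := congrArg (fun u : ↥O =>
      ((u : GL (Unit ⊕ (Fin 2 ⊕ Fin 2)) F) : Matrix (Unit ⊕ (Fin 2 ⊕ Fin 2)) (Unit ⊕ (Fin 2 ⊕ Fin 2)) F) *ᵥ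
        ((Pi.single (Sum.inr (Sum.inr 1)) 1 + Pi.single (Sum.inl ()) 1 + Pi.single (Sum.inr (Sum.inl 1)) 1 +
          Pi.single (Sum.inr (Sum.inl 0)) 1 + Pi.single (Sum.inr (Sum.inr 0)) 1) :
            Unit ⊕ (Fin 2 ⊕ Fin 2) → F))
      (MonoidHom.mem_ker.mp h1)
    simp only [OneMemClass.coe_one, Units.val_one, one_mulVec] at h2'
    change ((rep5 _ : GL (Unit ⊕ (Fin 2 ⊕ Fin 2)) F) : Matrix (Unit ⊕ (Fin 2 ⊕ Fin 2)) (Unit ⊕ (Fin 2 ⊕ Fin 2)) F) *ᵥ _ = _ at h2'
    rw [rep5_mulVec, actLin_apply, toSL_coe] at h2'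
    have hT : (Cfsg.sympTransvection 2 (Pi.single (Sum.inl 0) 1 : Fin 2 ⊕ Fin 2 → F) 1).submatrix sig sig =
        !![1, 1, 0, 0; 0, 1, 0, 0; 0, 0, 1, 0; 0, 0, 0, 1] := by
      ext i j
      fin_cases i <;> fin_cases j <;>
        simp [sig, Cfsg.sympTransvection, Matrix.one_apply, Matrix.J, Matrix.fromBlocks, Matrix.vecMulVec_apply,
          Matrix.mulVec, dotProduct, Matrix.vecMul, Fintype.sum_sum_type, Fin.sum_univ_two, Pi.single_apply]
    change prj (ofAlt ((Cfsg.sympTransvection 2 (Pi.single (Sum.inl 0) 1 : Fin 2 ⊕ Fin 2 → F) 1).submatrix sig sig *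
      _ * ((Cfsg.sympTransvection 2 (Pi.single (Sum.inl 0) 1 : Fin 2 ⊕ Fin 2 → F) 1).submatrix sig sig)ᵀ)) = _ at h2'
    rw [hT] at h2'
    have e2 := congrFun h2' (Sum.inr (Sum.inl 0))
    simp [Matrix.mul_apply, Matrix.vecMul, dotProduct, Fin.sum_univ_four, toAlt, ofAlt, emb, prj] at e2
  have hcomm : ¬ ∀ g h : ↥Sp, r g * r h = r h * r g := fun hc => hne <| by
    rw [eq_top_iff, ← hperf, commutator_def, Subgroup.commutator_le]
    intro g _ h _
    rw [MonoidHom.mem_ker, map_commutatorElement, commutatorElement_eq_one_iff_mul_comm]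
    exact hc g h
  have habs : ∀ (K : Subgroup ↥Sp) [K.Normal], (∀ g ∈ K, ∀ h, r g * r h = r h * r g) →
      K ≤ Subgroup.center ↥Sp := fun K _ hK => by
    rcases hsimple.eq_bot_or_eq_top_of_normal _
      (Subgroup.Normal.map (inferInstance : K.Normal) (QuotientGroup.mk' (Subgroup.center ↥Sp))
        (QuotientGroup.mk'_surjective _)) with h | h
    · rwa [Subgroup.map_eq_bot_iff, QuotientGroup.ker_mk'] at h
    · exfalso
      apply hcomm
      intro g g'
      obtain ⟨k, hk, hkg⟩ : (QuotientGroup.mk' (Subgroup.center ↥Sp) g) ∈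
          K.map (QuotientGroup.mk' (Subgroup.center ↥Sp)) := h ▸ Subgroup.mem_top _
      have hz := QuotientGroup.eq.mp hkg
      have hgz : g = k * (k⁻¹ * g) := (mul_inv_cancel_left k g).symm
      rw [hgz, map_mul]
      have e := congrArg r (Subgroup.mem_center_iff.mp hz g')
      rw [map_mul r g', map_mul r (k⁻¹ * g) g'] at e
      rw [mul_assoc, ← e, ← mul_assoc, hK k hk g', mul_assoc]
  have hker : r.ker ≤ Subgroup.center ↥Sp := habs _ fun g hg h => by
    rw [MonoidHom.mem_ker.mp hg, one_mul, mul_one]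
  have hk2 : Nat.card r.ker ≤ 2 := by
    refine (Subgroup.card_le_of_le hker).trans ?_
    rw [CfsgLib.Classical.card_center_congr (CfsgLib.Classical.spToGL 2 F), CfsgLib.Classical.spGL_eq_isoGL,
      CfsgLib.Classical.card_center_isoGL CfsgLib.Classical.isSymplecticForm_sympForm]
    exact Nat.le_of_dvd two_pos (Nat.gcd_dvd_left _ _)
  have hrange : r.range ≤ Cfsg.Omega F (Cfsg.quadFormOdd 2 F) := by
    rw [MonoidHom.range_eq_map, ← hperf, commutator_def, Subgroup.map_commutator]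
    exact Subgroup.commutator_mono le_top le_top
  have hOmega : r.range = Cfsg.Omega F (Cfsg.quadFormOdd 2 F) := by
    refine Subgroup.eq_of_le_of_card_ge hrange ?_
    have hO := CfsgLib.Classical.Orders.card_O_odd (F := F) h2 2
    rw [← Subgroup.card_mul_index (Cfsg.Omega F (Cfsg.quadFormOdd 2 F)),
      CfsgLib.Classical.index_omega_odd (CfsgLib.Classical.isNondegenerate_quadFormOdd h2 2) h2 (by simp)] at hO
    have hS : Nat.card r.ker * Nat.card r.range = Nat.card ↥Sp := by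
      rw [← Subgroup.index_ker, Subgroup.card_mul_index]
    have hSp : Nat.card ↥Sp = Fintype.card F ^ (2 ^ 2) *
        ∏ i ∈ Finset.range 2, (Fintype.card F ^ (2 * (i + 1)) - 1) := by
      rw [Nat.card_congr (CfsgLib.Classical.spToGL 2 F).toEquiv]
      exact (CfsgLib.Classical.IsoCard.card_preserving _).trans (CfsgLib.Classical.Orders.card_sp 2)
    rw [mul_assoc 2, ← hSp] at hO
    have := Nat.mul_le_mul_right (Nat.card r.range) hk2
    have e : Nat.card ↥(Cfsg.Omega F (Cfsg.quadFormOdd 2 F)) * 4 = 2 * (Nat.card ↥r.ker * Nat.card ↥r.range) :=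
      hO.trans (congrArg (2 * ·) hS.symm)
    nlinarith [e, this]
  let φ : ↥Sp →* ↥(Cfsg.Omega F (Cfsg.quadFormOdd 2 F)) := r.codRestrict _ fun g => hrange ⟨g, rfl⟩
  have hφ : Function.Surjective φ := fun w => by
    obtain ⟨g, hg⟩ : (w : ↥O) ∈ r.range := by rw [hOmega]; exact w.2
    exact ⟨g, Subtype.ext hg⟩
  let ψ : ↥Sp →* Cfsg.POmega F (Cfsg.quadFormOdd 2 F) := (QuotientGroup.mk' _).comp φ
  have hψ : Function.Surjective ψ := (QuotientGroup.mk'_surjective _).comp hφ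
  have hψk : ψ.ker = Subgroup.center ↥Sp := by
    refine le_antisymm (habs _ fun g hg g' => ?_) fun z hz => ?_
    · have hc := Subgroup.mem_center_iff.mp ((QuotientGroup.eq_one_iff _).mp (MonoidHom.mem_ker.mp hg)) (φ g')
      exact (congrArg Subtype.val hc).symm
    · rw [MonoidHom.mem_ker]
      refine (QuotientGroup.eq_one_iff _).mpr (Subgroup.mem_center_iff.mpr fun w => ?_)
      obtain ⟨g, rfl⟩ := hφ w
      rw [← map_mul, ← map_mul, Subgroup.mem_center_iff.mp hz g]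
  exact ⟨(QuotientGroup.quotientKerEquivOfSurjective ψ hψ).symm.trans (QuotientGroup.quotientMulEquivOfEq hψk)⟩

end CfsgLib.KleinOdd
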