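import Cfsg.Agent.Lib.ClassicalSL
import Cfsg.Agent.Lib.ClassicalCardLinear
import Cfsg.Agent.Lib.ClassicalPOmegaOrders

/-! The Klein correspondence: PΩ⁺_6(q) is PSL_4(q). -/

set_option autoImplicit false

namespace CfsgLib.KleinPlus

open Matrix

variable {F : Type*} [Field F]

local notation "V6" => Fin 3 ⊕ Fin 3 → F
local notation "M4" => Matrix (Fin 4) (Fin 4) F
local notation "SL4" => Matrix.SpecialLinearGroup (Fin 4) F

/-- the alternating matrix of a vector -/
def toAlt : (Fin 3 ⊕ Fin 3 → F) →ₗ[F] Matrix (Fin 4) (Fin 4) F where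
  toFun x :=
    !![0, x (.inl 0), x (.inl 1), x (.inl 2);
       -x (.inl 0), 0, x (.inr 2), -x (.inr 1);
       -x (.inl 1), -x (.inr 2), 0, x (.inr 0);
       -x (.inl 2), x (.inr 1), -x (.inr 0), 0]
  map_add' x y := by
    ext i j; fin_cases i <;> fin_cases j <;> simp <;> ring
  map_smul' c x := by
    ext i j; fin_cases i <;> fin_cases j <;> simp <;> ring

/-- the vector of an alternating matrix -/
def ofAlt : Matrix (Fin 4) (Fin 4) F →ₗ[F] (Fin 3 ⊕ Fin 3 → F) where
  toFun M := Sum.elim ![M 0 1, M 0 2, M 0 3] ![M 2 3, -M 1 3, M 1 2]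
  map_add' x y := by
    funext i; rcases i with i | i <;> fin_cases i <;> simp <;> ring
  map_smul' c x := by
    funext i; rcases i with i | i <;> fin_cases i <;> simp

lemma ofAlt_toAlt (x : V6) : ofAlt (toAlt x) = x := by
  funext i; rcases i with i | i <;> fin_cases i <;> simp [ofAlt, toAlt]

lemma toAlt_ofAlt {N : M4} (h0 : ∀ i, N i i = 0) (hT : Nᵀ = -N) : toAlt (ofAlt N) = N := by
  have h : ∀ i j, N j i = -N i j := fun i j => congrFun (congrFun hT i) j
  ext i j
  fin_cases i <;> fin_cases j <;>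
    simp [ofAlt, toAlt, h0, h 0 1, h 0 2, h 0 3, h 1 2, h 1 3, h 2 3]

lemma congr_diag (g : M4) (x : V6) (i : Fin 4) : (g * toAlt x * gᵀ) i i = 0 := by
  simp [Matrix.mul_apply, Fin.sum_univ_four, toAlt]
  ring

lemma congr_transpose (g : M4) (x : V6) : (g * toAlt x * gᵀ)ᵀ = -(g * toAlt x * gᵀ) := by
  have : (toAlt x)ᵀ = -toAlt x := by
    ext i j; fin_cases i <;> fin_cases j <;> simp [toAlt]
  rw [Matrix.transpose_mul, Matrix.transpose_mul, Matrix.transpose_transpose, this, Matrix.neg_mul,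
    Matrix.mul_neg, ← Matrix.mul_assoc]

/-- the congruence action -/
def actLin (g : M4) : (Fin 3 ⊕ Fin 3 → F) →ₗ[F] (Fin 3 ⊕ Fin 3 → F) :=
  ofAlt.comp ((LinearMap.mulRight F gᵀ).comp ((LinearMap.mulLeft F g).comp toAlt))

lemma actLin_apply (g : M4) (x : V6) : actLin g x = ofAlt (g * toAlt x * gᵀ) := rfl

lemma actLin_mul (g h : M4) (x : V6) : actLin (g * h) x = actLin g (actLin h x) := by
  rw [actLin_apply, actLin_apply, actLin_apply, toAlt_ofAlt (congr_diag h x) (congr_transpose h x),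
    Matrix.transpose_mul]
  simp only [Matrix.mul_assoc]

/-- the representation by matrices -/
noncomputable def repMat : Matrix.SpecialLinearGroup (Fin 4) F →* Matrix (Fin 3 ⊕ Fin 3) (Fin 3 ⊕ Fin 3) F where
  toFun g := LinearMap.toMatrix' (actLin (g : Matrix (Fin 4) (Fin 4) F))
  map_one' := by
    rw [← LinearMap.toMatrix'_id]
    congr 1
    refine LinearMap.ext fun x => ?_
    simp [actLin_apply, ofAlt_toAlt]
  map_mul' g h := by
    rw [← LinearMap.toMatrix'_comp]
    congr 1
    refine LinearMap.ext fun x => ?_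
    rw [Matrix.SpecialLinearGroup.coe_mul]
    exact actLin_mul _ _ x

/-- the representation -/
noncomputable def rep : Matrix.SpecialLinearGroup (Fin 4) F →* GL (Fin 3 ⊕ Fin 3) F := repMat.toHomUnits

lemma rep_mulVec (g : SL4) (x : V6) :
    (rep g : Matrix (Fin 3 ⊕ Fin 3) (Fin 3 ⊕ Fin 3) F) *ᵥ x = actLin (g : M4) x := by
  show LinearMap.toMatrix' (actLin (g : M4)) *ᵥ x = _
  exact LinearMap.toMatrix'_mulVec _ _

variable [Fintype F]

lemma rep_mem_isometry (g : SL4) : rep g ∈ Cfsg.isometryGroup F (Cfsg.quadFormPlus 3 F) := by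
  have hK : (Cfsg.isometryGroup F (Cfsg.quadFormPlus 3 F)).comap rep = ⊤ :=
    CfsgLib.Classical.sl_eq_top_of_transvection fun a b hab c x _ => by
      show Cfsg.quadFormPlus 3 F ((rep (Matrix.SpecialLinearGroup.transvection hab c) :
        Matrix (Fin 3 ⊕ Fin 3) (Fin 3 ⊕ Fin 3) F) *ᵥ x) = Cfsg.quadFormPlus 3 F x
      rw [rep_mulVec, actLin_apply, Matrix.SpecialLinearGroup.transvection_coe]
      fin_cases a <;> fin_cases b <;> first
        | exact absurd rfl hab
        | (simp [Cfsg.quadFormPlus, Matrix.mul_apply, Fin.sum_univ_four, Fin.sum_univ_three, toAlt, ofAlt,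
            Matrix.transvection, Matrix.single, Matrix.one_apply] <;> ring)
  exact (hK ▸ Subgroup.mem_top g : g ∈ (Cfsg.isometryGroup F (Cfsg.quadFormPlus 3 F)).comap rep)

/-- the representation inside the isometry group -/
noncomputable def repO : Matrix.SpecialLinearGroup (Fin 4) F →* ↥(Cfsg.isometryGroup F (Cfsg.quadFormPlus 3 F)) :=
  rep.codRestrict _ rep_mem_isometry

theorem nonempty_pomega_plus_six_equiv :
    Nonempty (Cfsg.POmega F (Cfsg.quadFormPlus 3 F) ≃* Matrix.ProjectiveSpecialLinearGroup (Fin 4) F) := by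
  classical
  have h3 : 3 ≤ Fintype.card (Fin 4) := by simp
  have hperf := CfsgLib.Classical.commutator_sl_eq_top (F := F) h3
  have hsimple := CfsgLib.Classical.isSimpleGroup_psl (F := F) h3
  have hne : (repO : SL4 →* _).ker ≠ ⊤ := fun h => by
    have h1 : Matrix.SpecialLinearGroup.transvection (show (0 : Fin 4) ≠ 2 by decide) (1 : F) ∈ (repO : SL4 →* _).ker :=
      h ▸ Subgroup.mem_top _
    have h2 := congrArg (fun u : ↥(Cfsg.isometryGroup F (Cfsg.quadFormPlus 3 F)) =>
      ((u : GL (Fin 3 ⊕ Fin 3) F) : Matrix (Fin 3 ⊕ Fin 3) (Fin 3 ⊕ Fin 3) F) *ᵥ (Pi.single (Sum.inr 2) 1 : V6))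
      (MonoidHom.mem_ker.mp h1)
    simp only [OneMemClass.coe_one, Units.val_one, one_mulVec] at h2
    change ((rep _ : GL (Fin 3 ⊕ Fin 3) F) : Matrix (Fin 3 ⊕ Fin 3) (Fin 3 ⊕ Fin 3) F) *ᵥ _ = _ at h2
    rw [rep_mulVec, actLin_apply, Matrix.SpecialLinearGroup.transvection_coe] at h2
    have h4 := congrFun h2 (Sum.inl 0)
    simp [Matrix.mul_apply, Fin.sum_univ_four, toAlt, ofAlt, Matrix.transvection, Matrix.single,
      Matrix.one_apply] at h4
  -- anything commutative modulo the centre is trivial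
  have hcomm : ¬ ∀ g h : SL4, repO g * repO h = repO h * repO g := fun hc => hne <| by
    rw [eq_top_iff, ← hperf, commutator_def, Subgroup.commutator_le]
    intro g _ h _
    rw [MonoidHom.mem_ker, map_commutatorElement, commutatorElement_eq_one_iff_mul_comm]
    exact hc g h
  have hker : (repO : SL4 →* _).ker ≤ Subgroup.center SL4 := by
    rcases hsimple.eq_bot_or_eq_top_of_normal _
      (Subgroup.Normal.map (inferInstance : (repO : SL4 →* _).ker.Normal) (QuotientGroup.mk' (Subgroup.center SL4))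
        (QuotientGroup.mk'_surjective _)) with h | h
    · rwa [Subgroup.map_eq_bot_iff, QuotientGroup.ker_mk'] at h
    · exfalso
      apply hcomm
      intro g g'
      have key : ∀ g : SL4, ∃ z ∈ Subgroup.center SL4, repO g = repO z := fun g => by
        obtain ⟨k, hk, hkg⟩ : (QuotientGroup.mk' (Subgroup.center SL4) g) ∈
            (repO : SL4 →* _).ker.map (QuotientGroup.mk' (Subgroup.center SL4)) := h ▸ Subgroup.mem_top _
        refine ⟨k⁻¹ * g, ?_, by rw [map_mul, map_inv, MonoidHom.mem_ker.mp hk]; simp⟩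
        exact QuotientGroup.eq.mp hkg
      obtain ⟨z, hz, ez⟩ := key g
      obtain ⟨z', -, ez'⟩ := key g'
      rw [ez, ez', ← map_mul, ← map_mul, Subgroup.mem_center_iff.mp hz z']
  -- the kernel has at most two elements
  have hsq : ∀ g ∈ (repO : SL4 →* _).ker, ∃ c : F, c * c = 1 ∧ (g : M4) = c • 1 := fun g hg => by
    obtain ⟨c, -, hc⟩ := Matrix.SpecialLinearGroup.mem_center_iff.mp (hker hg)
    refine ⟨c, ?_, by rw [← hc]; simp [Matrix.smul_one_eq_diagonal]⟩
    have h2 := congrArg (fun u : ↥(Cfsg.isometryGroup F (Cfsg.quadFormPlus 3 F)) =>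
      ((u : GL (Fin 3 ⊕ Fin 3) F) : Matrix (Fin 3 ⊕ Fin 3) (Fin 3 ⊕ Fin 3) F) *ᵥ (Pi.single (Sum.inl 0) 1 : V6))
      (MonoidHom.mem_ker.mp hg)
    simp only [OneMemClass.coe_one, Units.val_one, one_mulVec] at h2
    change (rep g : Matrix (Fin 3 ⊕ Fin 3) (Fin 3 ⊕ Fin 3) F) *ᵥ _ = _ at h2
    rw [rep_mulVec, actLin_apply, ← hc] at h2
    have h4 := congrFun h2 (Sum.inl 0)
    simpa [Matrix.mul_apply, Fin.sum_univ_four, toAlt, ofAlt, Matrix.diagonal, Matrix.scalar_apply] using h4
  have hk2 : Nat.card (repO : SL4 →* _).ker ≤ (if (2 : F) = 0 then 1 else 2) := by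
    let ι0 : (repO : SL4 →* _).ker → F := fun g => ((g : SL4) : M4) 0 0
    have hinj : Function.Injective ι0 := fun g g' h => by
      obtain ⟨c, -, hc⟩ := hsq g g.2
      obtain ⟨c', -, hc'⟩ := hsq g' g'.2
      have : c = c' := by simpa [ι0, hc, hc'] using h
      exact Subtype.ext (Subtype.ext (by rw [hc, hc', this]))
    have himg : ∀ g, ι0 g = 1 ∨ ι0 g = -1 := fun g => by
      obtain ⟨c, hcc, hc⟩ := hsq g g.2
      simpa [ι0, hc] using mul_self_eq_one_iff.mp hcc
    split_ifs with h2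
    · haveI : Subsingleton (repO : SL4 →* _).ker := ⟨fun g g' => hinj <| by
        have hm : (-1 : F) = 1 := by linear_combination -h2
        rcases himg g with e | e <;> rcases himg g' with e' | e' <;> rw [e, e'] <;> simp [hm]⟩
      exact Nat.card_unique.le
    · calc Nat.card (repO : SL4 →* _).ker ≤ Nat.card ({1, -1} : Set F) :=
            Nat.card_le_card_of_injective (fun g => ⟨ι0 g, by simpa using himg g⟩)
              fun g g' h => hinj (congrArg Subtype.val h)
        _ ≤ 2 := by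
            rw [Nat.card_coe_set_eq]
            exact (Set.ncard_insert_le _ _).trans (by simp)
  have hrange : (repO : SL4 →* _).range ≤ Cfsg.Omega F (Cfsg.quadFormPlus 3 F) := by
    rw [MonoidHom.range_eq_map, ← hperf, commutator_def, Subgroup.map_commutator]
    exact Subgroup.commutator_mono le_top le_top
  -- orders
  have hOmega : (repO : SL4 →* _).range = Cfsg.Omega F (Cfsg.quadFormPlus 3 F) := by
    refine Subgroup.eq_of_le_of_card_ge hrange ?_
    have hQ := CfsgLib.Classical.isNondegenerate_quadFormPlus (F := F) 3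
    have hn : 2 ≤ Fintype.card (Fin 3 ⊕ Fin 3) := by simp
    have hO := CfsgLib.Classical.Orders.card_O_plus (F := F) (show 1 ≤ 3 by norm_num)
    rw [← Subgroup.card_mul_index (Cfsg.Omega F (Cfsg.quadFormPlus 3 F))] at hO
    have hS : Nat.card (repO : SL4 →* _).ker * Nat.card (repO : SL4 →* _).range = Nat.card SL4 := by
      rw [← Subgroup.index_ker, Subgroup.card_mul_index]
    have hG := CfsgLib.Classical.card_units_mul_card_sl (F := F) (ι := Fin 4)
    rw [Matrix.card_GL_field, Fin.prod_univ_four] at hG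
    obtain ⟨q, hq⟩ : ∃ q, q = Fintype.card F := ⟨_, rfl⟩
    have hq2 : 2 ≤ q := hq ▸ Fintype.one_lt_card
    rw [← hq] at hO hG
    simp only [Finset.prod_range_succ, Finset.prod_range_zero, one_mul, Fin.val_zero, Fin.val_one, Fin.val_two,
      show ((3 : Fin 4) : ℕ) = 3 from rfl, pow_zero, pow_one, show (3 - 1 : ℕ) = 2 from rfl,
      show 3 * 2 = 6 from rfl, show 2 * (0 + 1) = 2 from rfl, show 2 * (1 + 1) = 4 from rfl] at hO hG
    have e1 : q ^ 4 - q = q * (q ^ 3 - 1) := by rw [Nat.mul_sub, mul_one, ← pow_succ']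
    have e2 : q ^ 4 - q ^ 2 = q ^ 2 * (q ^ 2 - 1) := by rw [Nat.mul_sub, mul_one, ← pow_add]
    have e3 : q ^ 4 - q ^ 3 = q ^ 3 * (q - 1) := by rw [Nat.mul_sub, mul_one, ← pow_succ]
    rw [e1, e2, e3] at hG
    have hSL : Nat.card SL4 = q ^ 6 * (q ^ 4 - 1) * (q ^ 3 - 1) * (q ^ 2 - 1) := by
      refine Nat.eq_of_mul_eq_mul_left (show 0 < q - 1 by omega) ?_
      rw [hG]; ring
    have hO' : Nat.card ↥(Cfsg.Omega F (Cfsg.quadFormPlus 3 F)) * (Cfsg.Omega F (Cfsg.quadFormPlus 3 F)).index =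
        2 * Nat.card SL4 := by rw [hO, hSL]; ring
    by_cases h2 : (2 : F) = 0
    · haveI : CharP F 2 := CharTwo.of_one_ne_zero_of_two_eq_zero one_ne_zero h2
      rw [CfsgLib.Classical.index_omega_even hQ hn (Or.inr (by simp))] at hO'
      rw [if_pos h2] at hk2
      have := Nat.mul_le_mul_right (Nat.card (repO : SL4 →* _).range) hk2
      omega
    · rw [CfsgLib.Classical.index_omega_odd hQ h2 hn] at hO'
      rw [if_neg h2] at hk2
      have := Nat.mul_le_mul_right (Nat.card (repO : SL4 →* _).range) hk2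
      omega
  let φ : SL4 →* ↥(Cfsg.Omega F (Cfsg.quadFormPlus 3 F)) :=
    (repO : SL4 →* _).codRestrict _ fun g => hrange ⟨g, rfl⟩
  have hφ : Function.Surjective φ := fun w => by
    obtain ⟨g, hg⟩ : (w : ↥(Cfsg.isometryGroup F (Cfsg.quadFormPlus 3 F))) ∈ (repO : SL4 →* _).range :=
      by rw [hOmega]; exact w.2
    exact ⟨g, Subtype.ext hg⟩
  let ψ : SL4 →* Cfsg.POmega F (Cfsg.quadFormPlus 3 F) := (QuotientGroup.mk' _).comp φ
  have hψ : Function.Surjective ψ := (QuotientGroup.mk'_surjective _).comp hφ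
  have hZ : Subgroup.center SL4 ≤ ψ.ker := fun z hz => by
    rw [MonoidHom.mem_ker]
    refine (QuotientGroup.eq_one_iff _).mpr (Subgroup.mem_center_iff.mpr fun w => ?_)
    obtain ⟨g, rfl⟩ := hφ w
    rw [← map_mul, ← map_mul, Subgroup.mem_center_iff.mp hz g]
  have hψk : ψ.ker = Subgroup.center SL4 := by
    refine le_antisymm ?_ hZ
    rcases hsimple.eq_bot_or_eq_top_of_normal _
      (Subgroup.Normal.map (inferInstance : ψ.ker.Normal) (QuotientGroup.mk' (Subgroup.center SL4))
        (QuotientGroup.mk'_surjective _)) with h | h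
    · rwa [Subgroup.map_eq_bot_iff, QuotientGroup.ker_mk'] at h
    · exfalso
      apply hcomm
      intro g g'
      have hg : g ∈ ψ.ker := by
        obtain ⟨k, hk, hkg⟩ : (QuotientGroup.mk' (Subgroup.center SL4) g) ∈
            ψ.ker.map (QuotientGroup.mk' (Subgroup.center SL4)) := h ▸ Subgroup.mem_top _
        have := hZ (QuotientGroup.eq.mp hkg)
        simpa using mul_mem hk this
      have hc := Subgroup.mem_center_iff.mp ((QuotientGroup.eq_one_iff _).mp (MonoidHom.mem_ker.mp hg)) (φ g')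
      exact (congrArg Subtype.val hc).symm
  exact ⟨((QuotientGroup.quotientKerEquivOfSurjective ψ hψ).symm.trans (QuotientGroup.quotientMulEquivOfEq hψk))⟩

end CfsgLib.KleinPlus
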