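import Cfsg.Agent.Lib.ClassicalSL
import Cfsg.Agent.Lib.ClassicalCardLinear
import Mathlib.GroupTheory.SpecificGroups.Alternating

/-! The group PSL_4(2) acting on eight heptads of symplectic forms. -/

set_option autoImplicit false

namespace CfsgLib.LFourTwo

open Matrix

/-- codes of the 28 non-degenerate alternating forms, labelled by pairs of heptads -/
def pairCode : Fin 8 → Fin 8 → ℕ :=
  ![![0, 12, 22, 27, 39, 41, 53, 58], ![12, 0, 26, 23, 43, 37, 57, 54], ![22, 26, 0, 13, 49, 63, 35, 44], ![27, 23, 13, 0, 60, 50, 46, 33], ![39, 43, 49, 60, 0, 14, 18, 29], ![41, 37, 63, 50, 14, 0, 28, 19], ![53, 57, 35, 46, 18, 28, 0, 15], ![58, 54, 44, 33, 29, 19, 15, 0]]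

/-- the alternating matrix of a code -/
def codeMat (c : ℕ) : Matrix (Fin 4) (Fin 4) (ZMod 2) := fun i j =>
  if ((![![64, 1, 2, 4], ![1, 64, 8, 16], ![2, 8, 64, 32], ![4, 16, 32, 64]] : Fin 4 → Fin 4 → ℕ) i j).land c = 0
  then 0 else 1

/-- the permutations of the heptads belonging to the elementary transvections -/
def transPerm : Fin 4 → Fin 4 → Fin 8 → Fin 8 :=
  ![![![0, 1, 2, 3, 4, 5, 6, 7], ![4, 5, 6, 7, 0, 1, 2, 3], ![2, 3, 0, 1, 6, 7, 4, 5], ![1, 0, 3, 2, 5, 4, 7, 6]], ![![5, 6, 4, 7, 2, 0, 1, 3], ![0, 1, 2, 3, 4, 5, 6, 7], ![1, 0, 3, 2, 7, 6, 5, 4], ![3, 2, 1, 0, 6, 7, 4, 5]], ![![7, 2, 1, 5, 6, 3, 4, 0], ![1, 0, 7, 6, 5, 4, 3, 2], ![0, 1, 2, 3, 4, 5, 6, 7], ![5, 4, 6, 7, 1, 0, 2, 3]], ![![1, 0, 7, 4, 3, 6, 5, 2], ![2, 7, 0, 5, 6, 3, 4, 1], ![6, 5, 4, 7, 2, 1, 0, 3], ![0, 1, 2, 3, 4, 5, 6, 7]]]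

lemma pairCode_inj : ∀ a b c d : Fin 8, a ≠ b → c ≠ d → pairCode a b = pairCode c d →
    (a = c ∧ b = d) ∨ (a = d ∧ b = c) := by decide +kernel

lemma codeMat_inj : ∀ c : Fin 64, ∀ d : Fin 64, codeMat c = codeMat d → c = d := by decide +kernel

lemma pairCode_lt : ∀ a b : Fin 8, pairCode a b < 64 := by decide +kernel

lemma transPerm_inj : ∀ (a b : Fin 4), Function.Injective (transPerm a b) := by decide +kernel

lemma transPerm_spec : ∀ (a b : Fin 4), a ≠ b → ∀ i j : Fin 8,
    Matrix.transvection a b (1 : ZMod 2) * codeMat (pairCode i j) * (Matrix.transvection a b (1 : ZMod 2))ᵀ =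
      codeMat (pairCode (transPerm a b i) (transPerm a b j)) := by decide +kernel

/-- the congruence action relabels the pairs by `π` -/
def Relabels (g : Matrix.SpecialLinearGroup (Fin 4) (ZMod 2)) (π : Equiv.Perm (Fin 8)) : Prop :=
  ∀ i j, (g : Matrix (Fin 4) (Fin 4) (ZMod 2)) * codeMat (pairCode i j) *
    (g : Matrix (Fin 4) (Fin 4) (ZMod 2))ᵀ = codeMat (pairCode (π i) (π j))

lemma relabels_mul {g h : Matrix.SpecialLinearGroup (Fin 4) (ZMod 2)} {π τ : Equiv.Perm (Fin 8)}
    (hg : Relabels g π) (hh : Relabels h τ) : Relabels (g * h) (π * τ) := fun i j => by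
  simp only [Matrix.SpecialLinearGroup.coe_mul, Matrix.transpose_mul, Equiv.Perm.mul_apply]
  rw [← hg, ← hh]
  simp only [Matrix.mul_assoc]

lemma relabels_one : Relabels 1 1 := fun i j => by simp

lemma relabels_unique {g : Matrix.SpecialLinearGroup (Fin 4) (ZMod 2)} {π τ : Equiv.Perm (Fin 8)}
    (hπ : Relabels g π) (hτ : Relabels g τ) : π = τ := by
  ext i
  by_contra hne
  have hne' : π i ≠ τ i := fun h => hne (congrArg Fin.val h)
  have key : ∀ j, i ≠ j → π j = τ i := fun j hj => by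
    have h := (hπ i j).symm.trans (hτ i j)
    have hc := congrArg Fin.val
      (codeMat_inj ⟨_, pairCode_lt (π i) (π j)⟩ ⟨_, pairCode_lt (τ i) (τ j)⟩ h)
    rcases pairCode_inj _ _ _ _ (π.injective.ne hj) (τ.injective.ne hj) hc with ⟨h1, -⟩ | ⟨-, h2⟩
    · exact absurd h1 hne'
    · exact h2
  obtain ⟨j, hj, k, hk, hjk⟩ := (show ∀ i : Fin 8, ∃ j, i ≠ j ∧ ∃ k, i ≠ k ∧ j ≠ k by decide) i
  exact hjk (π.injective ((key j hj).trans (key k hk).symm))

lemma exists_relabels (g : Matrix.SpecialLinearGroup (Fin 4) (ZMod 2)) : ∃ π, Relabels g π := by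
  let M : Submonoid (Matrix.SpecialLinearGroup (Fin 4) (ZMod 2)) :=
    { carrier := {g | ∃ π, Relabels g π}
      one_mem' := ⟨1, relabels_one⟩
      mul_mem' := fun ⟨π, hπ⟩ ⟨τ, hτ⟩ => ⟨π * τ, relabels_mul hπ hτ⟩ }
  let K : Subgroup (Matrix.SpecialLinearGroup (Fin 4) (ZMod 2)) :=
    { M with
      inv_mem' := fun {x} hx => by
        have h1 := mul_left_cancel (a := x) (show x * x⁻¹ = x * x ^ (orderOf x - 1) by
          rw [mul_inv_cancel, ← pow_succ', Nat.sub_add_cancel (orderOf_pos x), pow_orderOf_eq_one])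
        show x⁻¹ ∈ M
        rw [h1]; exact pow_mem hx _ }
  have hK : K = ⊤ := CfsgLib.Classical.sl_eq_top_of_transvection fun a b hab c => by
    rcases (show c = 0 ∨ c = 1 by revert c; decide) with rfl | rfl
    · rw [show Matrix.SpecialLinearGroup.transvection hab (0 : ZMod 2) = 1 from
        Subtype.ext (by rw [Matrix.SpecialLinearGroup.transvection_coe]; simp [Matrix.transvection])]
      exact K.one_mem
    · exact ⟨Equiv.ofBijective _ (Finite.injective_iff_bijective.mp (transPerm_inj a b)), fun i j => by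
        rw [Matrix.SpecialLinearGroup.transvection_coe]; exact transPerm_spec a b hab i j⟩
  have : g ∈ K := hK ▸ Subgroup.mem_top g
  exact this

/-- the action on the eight heptads -/
noncomputable def heptadHom : Matrix.SpecialLinearGroup (Fin 4) (ZMod 2) →* Equiv.Perm (Fin 8) :=
  MonoidHom.mk' (fun g => (exists_relabels g).choose) fun g h => relabels_unique
    (exists_relabels (g * h)).choose_spec
    (relabels_mul (exists_relabels g).choose_spec (exists_relabels h).choose_spec)

theorem nonempty_psl_four_two_equiv {F : Type*} [Field F] [Fintype F] (hF : Fintype.card F = 2) :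
    Nonempty (Matrix.ProjectiveSpecialLinearGroup (Fin 4) F ≃* alternatingGroup (Fin 8)) := by
  classical
  let σ : ZMod 2 ≃+* F := ZMod.ringEquivOfPrime F Nat.prime_two hF
  let φ : Matrix.SpecialLinearGroup (Fin 4) F →* Equiv.Perm (Fin 8) :=
    heptadHom.comp (Matrix.SpecialLinearGroup.map σ.symm.toRingHom)
  have h3 : 3 ≤ Fintype.card (Fin 4) := by simp
  have hA : ∀ g, φ g ∈ alternatingGroup (Fin 8) := fun g => by
    have h : commutator (Matrix.SpecialLinearGroup (Fin 4) F) ≤ (Equiv.Perm.sign.comp φ).ker :=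
      Abelianization.commutator_subset_ker _
    rw [CfsgLib.Classical.commutator_sl_eq_top h3] at h
    exact Equiv.Perm.mem_alternatingGroup.mpr (MonoidHom.mem_ker.mp (h (Subgroup.mem_top g)))
  haveI hsub : Subsingleton Fˣ := Fintype.card_le_one_iff_subsingleton.mp (by rw [Fintype.card_units, hF])
  have hZ : Subgroup.center (Matrix.SpecialLinearGroup (Fin 4) F) = ⊥ := by
    rw [eq_bot_iff]
    intro g hg
    obtain ⟨c, hc, hcg⟩ := Matrix.SpecialLinearGroup.mem_center_iff.mp hg
    have hc0 : c ≠ 0 := fun h => by rw [h, zero_pow (by simp)] at hc; exact zero_ne_one hc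
    have : c = 1 := congrArg Units.val (Subsingleton.elim (Units.mk0 c hc0) 1)
    rw [Subgroup.mem_bot]
    exact Subtype.ext (by rw [← hcg, this]; simp)
  let e : Matrix.ProjectiveSpecialLinearGroup (Fin 4) F ≃* Matrix.SpecialLinearGroup (Fin 4) F :=
    (QuotientGroup.quotientMulEquivOfEq hZ).trans QuotientGroup.quotientBot
  let ψ : Matrix.ProjectiveSpecialLinearGroup (Fin 4) F →* alternatingGroup (Fin 8) :=
    (φ.codRestrict _ hA).comp e.toMonoidHom
  haveI := CfsgLib.Classical.isSimpleGroup_psl (F := F) h3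
  have hinj : Function.Injective ψ := by
    rw [← MonoidHom.ker_eq_bot_iff]
    refine (IsSimpleGroup.eq_bot_or_eq_top_of_normal ψ.ker inferInstance).resolve_right fun htop => ?_
    have hone : ∀ g, φ g = 1 := fun g => by
      have : e.symm g ∈ ψ.ker := htop ▸ Subgroup.mem_top _
      have h := congrArg Subtype.val (MonoidHom.mem_ker.mp this)
      simpa [ψ] using h
    let t : Matrix.SpecialLinearGroup (Fin 4) (ZMod 2) := Matrix.SpecialLinearGroup.transvection (show (0 : Fin 4) ≠ 1 by decide) 1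
    have h1 : Relabels t 1 := by
      have h := hone (Matrix.SpecialLinearGroup.map σ.toRingHom t)
      have hmap : Matrix.SpecialLinearGroup.map σ.symm.toRingHom (Matrix.SpecialLinearGroup.map σ.toRingHom t) = t :=
        Subtype.ext (by ext i j; simp)
      simp only [φ, MonoidHom.comp_apply, hmap] at h
      rw [← h]
      exact (exists_relabels t).choose_spec
    have h2 : Relabels t (Equiv.ofBijective _ (Finite.injective_iff_bijective.mp (transPerm_inj 0 1))) :=
      fun i j => transPerm_spec 0 1 (by decide) i j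
    have := congrArg (fun π : Equiv.Perm (Fin 8) => π 0) (relabels_unique h1 h2)
    revert this; simp [transPerm]
  have hcard : Nat.card (Matrix.ProjectiveSpecialLinearGroup (Fin 4) F) = Nat.card (alternatingGroup (Fin 8)) := by
    rw [Nat.card_congr e.toEquiv, nat_card_alternatingGroup, Nat.card_eq_fintype_card (α := Fin 8), Fintype.card_fin]
    have h := CfsgLib.Classical.card_units_mul_card_sl (F := F) (ι := Fin 4)
    rw [Matrix.card_GL_field, Fin.prod_univ_four, hF] at h
    simp [Nat.factorial] at h ⊢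
    omega
  exact ⟨MulEquiv.ofBijective ψ ((Nat.bijective_iff_injective_and_card ψ).mpr ⟨hinj, hcard⟩)⟩

end CfsgLib.LFourTwo
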