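import Cfsg.Agent.Lib.ClassicalLatticeESix

/-! PSU_4(2) is isomorphic to PSp_4(3) through the automorphism group of the E6 lattice. -/

set_option autoImplicit false

namespace CfsgLib.LatticeE6

open Matrix CfsgLib.Classical

local notation "IX" => (Fin 2 ⊕ Fin 2) ⊕ Fin 2
local notation "I5" => Unit ⊕ (Fin 2 ⊕ Fin 2)

/-- the reflection as an element of the automorphism group -/
def sR (i : Fin 36) : ↥aut :=
  ⟨⟨refl i, refl i, (refl_spec i).1, (refl_spec i).1⟩, fun u v => by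
    show (refl i *ᵥ u) ⬝ᵥ (cart *ᵥ (refl i *ᵥ v)) = u ⬝ᵥ (cart *ᵥ v)
    conv_rhs => rw [← (refl_spec i).2]
    rw [← mulVec_mulVec, ← mulVec_mulVec, dotProduct_mulVec u (refl i)ᵀ, vecMul_transpose]⟩

lemma sR_coe (i : Fin 36) : ((sR i : GL (Fin 6) ℤ) : Matrix (Fin 6) (Fin 6) ℤ) = refl i := rfl

lemma aniso_one_one : ∀ z₁ z₂ : ZMod 2, z₁ ^ 2 + 1 * z₁ * z₂ + 1 * z₂ ^ 2 = 0 → z₁ = 0 ∧ z₂ = 0 := by decide

/-- the reduction modulo two into the orthogonal group -/
def oTwo : ↥aut →* ↥(Cfsg.isometryGroup (ZMod 2) (Cfsg.quadFormMinus 2 (ZMod 2) 1 1)) :=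
  redTwo.toHomUnits.codRestrict _ redTwo_mem

/-- the reduction modulo three into the orthogonal group -/
def oThree : ↥aut →* ↥(Cfsg.isometryGroup (ZMod 3) (Cfsg.quadFormOdd 2 (ZMod 3))) :=
  redThree.toHomUnits.codRestrict _ redThree_mem

lemma oTwo_surjective : Function.Surjective oTwo := by
  have hQ := isNondegenerate_quadFormMinus (F := ZMod 2) 2 aniso_one_one
  rw [← MonoidHom.range_eq_top, eq_top_iff, ← closure_reflSet hQ (Or.inr (by simp)), Subgroup.closure_le]
  rintro _ ⟨d, hd, rfl⟩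
  obtain ⟨i, hi⟩ := root_surj d hd
  have hdd : (tInv *ᵥ fun k => (root i k : ZMod 2)) = d := by
    rw [show (fun k => (root i k : ZMod 2)) = tMat *ᵥ d from funext fun k => (hi k).symm, mulVec_mulVec, tt.2,
      one_mulVec]
  refine ⟨sR i, Subtype.ext (Units.ext ?_)⟩
  show redTwo (sR i) = (qR hQ d : Matrix IX IX (ZMod 2))
  refine Matrix.ext_of_mulVec_single fun j => ?_
  rw [redTwo_apply, sR_coe, refl_two, hdd, qR_mulVec hQ hd,
    show Cfsg.quadFormMinus 2 (ZMod 2) 1 1 d = 1 from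
      (show ∀ z : ZMod 2, z ≠ 0 → z = 1 by decide) _ hd, inv_one, one_mul]

lemma commutator_map_eq {G H : Type*} [Group G] [Group H] {f : G →* H} (hf : Function.Surjective f) :
    (commutator G).map f = commutator H := by
  rw [commutator_def, Subgroup.map_commutator, Subgroup.map_top_of_surjective f hf, ← commutator_def]

lemma oTwo_inj_aux {g : ↥aut} (hg : g ∈ commutator ↥aut) (h : oTwo g = 1) : g = 1 := by
  have h' : redTwo g = 1 := congrArg (fun u : ↥(Cfsg.isometryGroup (ZMod 2) (Cfsg.quadFormMinus 2 (ZMod 2) 1 1)) =>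
    ((u : GL IX (ZMod 2)) : Matrix IX IX (ZMod 2))) h
  rcases kernel_two h' with e | e
  · exact Subtype.ext (Units.ext e)
  · exfalso
    have hk := Abelianization.commutator_subset_ker
      ((Units.map (Matrix.detMonoidHom : Matrix I5 I5 (ZMod 3) →* ZMod 3)).comp redThree.toHomUnits) hg
    have hd := congrArg Units.val (MonoidHom.mem_ker.mp hk)
    simp only [MonoidHom.comp_apply, Units.coe_map, MonoidHom.coe_toHomUnits, Matrix.coe_detMonoidHom,
      Units.val_one] at hd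
    rw [redThree_apply, e] at hd
    exact (show (pMat * ((-1 : Matrix (Fin 6) (Fin 6) ℤ).map (Int.cast : ℤ → ZMod 3)) * sMat).det ≠ 1 by
      rw [show pMat * ((-1 : Matrix (Fin 6) (Fin 6) ℤ).map (Int.cast : ℤ → ZMod 3)) * sMat = -1 by decide +kernel,
        Matrix.det_neg, Matrix.det_one]
      decide) hd

lemma card_omega_two :
    Nat.card ↥(Cfsg.Omega (ZMod 2) (Cfsg.quadFormMinus 2 (ZMod 2) 1 1)) = 25920 := by
  have h := Subgroup.card_mul_index (Cfsg.Omega (ZMod 2) (Cfsg.quadFormMinus 2 (ZMod 2) 1 1))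
  rw [index_omega_even (isNondegenerate_quadFormMinus (F := ZMod 2) 2 aniso_one_one) (by simp) (Or.inr (by simp)),
    Orders.card_O_minus aniso_one_one 2, ZMod.card] at h
  norm_num [Finset.prod_range_succ] at h
  omega

lemma card_psu {F : Type*} [Field F] [Fintype F] (hF : Fintype.card F = 4) :
    Nat.card (Cfsg.PSU 4 F 2) = 25920 := by
  have h := Orders.card_PSU (F := F) (q := 2) hF (n := 4) (by norm_num)
  rw [Orders.card_GU (F := F) (q := 2) hF] at h
  norm_num [Finset.prod_range_succ] at h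
  omega

/-- the commutator subgroup of the automorphism group is PSU_4(2) -/
lemma nonempty_commutator_equiv {F : Type*} [Field F] [Fintype F] (hF : Fintype.card F = 4) :
    Nonempty (↥(commutator ↥aut) ≃* Cfsg.PSU 4 F 2) := by
  obtain ⟨O2, hO2⟩ : ∃ O2, O2 = Cfsg.Omega (ZMod 2) (Cfsg.quadFormMinus 2 (ZMod 2) 1 1) := ⟨_, rfl⟩
  have hmap : (commutator ↥aut).map oTwo = O2 := hO2 ▸ commutator_map_eq oTwo_surjective
  let φ : ↥(commutator ↥aut) →* ↥O2 :=
    (oTwo.comp (commutator ↥aut).subtype).codRestrict O2 fun g => hmap ▸ ⟨g, g.2, rfl⟩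
  have hφ : Function.Bijective φ := by
    refine ⟨(injective_iff_map_eq_one φ).mpr fun g hg => Subtype.ext (oTwo_inj_aux g.2 (congrArg Subtype.val hg)), ?_⟩
    rintro ⟨w, hw⟩
    rw [← hmap] at hw
    obtain ⟨g, hg, rfl⟩ := hw
    exact ⟨⟨g, hg⟩, rfl⟩
  obtain ⟨e⟩ := CfsgLib.KleinMinus.nonempty_pomega_minus_six_equiv (F := ZMod 2) (K := F) (q := 2) (ZMod.card 2) hF
    aniso_one_one
  subst hO2
  have hc : Subgroup.center ↥(Cfsg.Omega (ZMod 2) (Cfsg.quadFormMinus 2 (ZMod 2) 1 1)) = ⊥ := by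
    refine Subgroup.card_eq_one.mp ?_
    have h := Subgroup.card_eq_card_quotient_mul_card_subgroup
      (Subgroup.center ↥(Cfsg.Omega (ZMod 2) (Cfsg.quadFormMinus 2 (ZMod 2) 1 1)))
    rw [card_omega_two, Nat.card_congr e.toEquiv, card_psu hF] at h
    omega
  exact ⟨((MulEquiv.ofBijective φ hφ).trans
    ((QuotientGroup.quotientMulEquivOfEq hc).trans QuotientGroup.quotientBot).symm).trans e⟩

lemma noncomm_three :
    pMat * (refl 0 * refl 4 * refl 0 * refl 4).map (Int.cast : ℤ → ZMod 3) * sMat *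
      (pMat * (refl 2 * refl 4 * refl 2 * refl 4).map (Int.cast : ℤ → ZMod 3) * sMat) ≠
    pMat * (refl 2 * refl 4 * refl 2 * refl 4).map (Int.cast : ℤ → ZMod 3) * sMat *
      (pMat * (refl 0 * refl 4 * refl 0 * refl 4).map (Int.cast : ℤ → ZMod 3) * sMat) := by
  decide +kernel

lemma card_psp_three : Nat.card (Cfsg.PSp 2 (ZMod 3)) = 25920 := by
  have h := Subgroup.card_eq_card_quotient_mul_card_subgroup
    (Subgroup.center (Matrix.symplecticGroup (Fin 2) (ZMod 3)))
  have hSp : Nat.card ↥(Matrix.symplecticGroup (Fin 2) (ZMod 3)) = Fintype.card (ZMod 3) ^ (2 ^ 2) *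
      ∏ i ∈ Finset.range 2, (Fintype.card (ZMod 3) ^ (2 * (i + 1)) - 1) := by
    rw [Nat.card_congr (spToGL 2 (ZMod 3)).toEquiv]
    exact (IsoCard.card_preserving _).trans (Orders.card_sp 2)
  rw [card_center_congr (spToGL 2 (ZMod 3)), spGL_eq_isoGL, card_center_isoGL isSymplecticForm_sympForm,
    hSp] at h
  simp only [← Nat.card_eq_fintype_card, Nat.card_zmod] at h
  norm_num [Finset.prod_range_succ] at h
  show Nat.card (↥(Matrix.symplecticGroup (Fin 2) (ZMod 3)) ⧸
    Subgroup.center ↥(Matrix.symplecticGroup (Fin 2) (ZMod 3))) = 25920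
  omega

lemma nonempty_commutator_equiv_three (hs : IsSimpleGroup ↥(commutator ↥aut))
    (hc : Nat.card ↥(commutator ↥aut) = 25920) :
    Nonempty (↥(commutator ↥aut) ≃* Cfsg.PSp 2 (ZMod 3)) := by
  obtain ⟨e⟩ := CfsgLib.KleinOdd.nonempty_pomega_five_equiv (F := ZMod 3) (by rw [ZMod.card]; decide)
  obtain ⟨O3, hO3⟩ : ∃ O3, O3 = Cfsg.Omega (ZMod 3) (Cfsg.quadFormOdd 2 (ZMod 3)) := ⟨_, rfl⟩
  have hmap : (commutator ↥aut).map oThree ≤ O3 := by
    rw [hO3, commutator_def, Subgroup.map_commutator]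
    exact Subgroup.commutator_mono le_top le_top
  let φ : ↥(commutator ↥aut) →* ↥O3 :=
    (oThree.comp (commutator ↥aut).subtype).codRestrict O3 fun g => hmap ⟨g, g.2, rfl⟩
  let ψ : ↥(commutator ↥aut) →* ↥O3 ⧸ Subgroup.center ↥O3 := (QuotientGroup.mk' _).comp φ
  have hne : ψ.ker ≠ ⊤ := fun h => by
    have hA : ∀ i j, sR i * sR j * (sR i)⁻¹ * (sR j)⁻¹ ∈ commutator ↥aut := fun i j =>
      Subgroup.commutator_mem_commutator (Subgroup.mem_top _) (Subgroup.mem_top _)
    have h1 : φ ⟨_, hA 0 4⟩ ∈ Subgroup.center ↥O3 :=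
      (QuotientGroup.eq_one_iff _).mp (MonoidHom.mem_ker.mp (show (⟨_, hA 0 4⟩ : ↥(commutator ↥aut)) ∈ ψ.ker from
        h ▸ Subgroup.mem_top _))
    have h2 := congrArg (fun u : ↥O3 => (((u : ↥(Cfsg.isometryGroup (ZMod 3) (Cfsg.quadFormOdd 2 (ZMod 3)))) :
      GL I5 (ZMod 3)) : Matrix I5 I5 (ZMod 3))) (Subgroup.mem_center_iff.mp h1 (φ ⟨_, hA 2 4⟩))
    change redThree (sR 2 * sR 4 * sR 2 * sR 4) * redThree (sR 0 * sR 4 * sR 0 * sR 4) =
      redThree (sR 0 * sR 4 * sR 0 * sR 4) * redThree (sR 2 * sR 4 * sR 2 * sR 4) at h2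
    rw [redThree_apply, redThree_apply] at h2
    exact noncomm_three h2.symm
  have hinj : Function.Injective ψ :=
    (MonoidHom.ker_eq_bot_iff ψ).mp ((hs.eq_bot_or_eq_top_of_normal _ ψ.normal_ker).resolve_right hne)
  subst hO3
  have hcard : Nat.card (Cfsg.POmega (ZMod 3) (Cfsg.quadFormOdd 2 (ZMod 3))) = 25920 := by
    rw [Nat.card_congr e.toEquiv, card_psp_three]
  exact ⟨(MulEquiv.ofBijective ψ (hinj.bijective_of_nat_card_le (by rw [hc]; exact hcard.le))).trans e⟩

lemma J_map {F K : Type*} [Field F] [Field K] (τ : F →+* K) (m : ℕ) :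
    (Matrix.J (Fin m) F).map τ = Matrix.J (Fin m) K := by
  ext i j
  rcases i with i | i <;> rcases j with j | j <;>
    simp [Matrix.J, Matrix.one_apply] <;> split_ifs <;> simp

/-- the symplectic group along a ring isomorphism -/
lemma nonempty_psp_congr {F K : Type*} [Field F] [Field K] (σ : F ≃+* K) (m : ℕ) :
    Nonempty (Cfsg.PSp m F ≃* Cfsg.PSp m K) := by
  have hmem : ∀ A ∈ Matrix.symplecticGroup (Fin m) F, A.map σ.toRingHom ∈ Matrix.symplecticGroup (Fin m) K :=
    fun A hA => by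
      rw [SymplecticGroup.mem_iff] at hA ⊢
      rw [← J_map σ.toRingHom m, ← Matrix.transpose_map, ← Matrix.map_mul, ← Matrix.map_mul, hA]
  have hmem' : ∀ A ∈ Matrix.symplecticGroup (Fin m) K, A.map σ.symm.toRingHom ∈ Matrix.symplecticGroup (Fin m) F :=
    fun A hA => by
      rw [SymplecticGroup.mem_iff] at hA ⊢
      rw [← J_map σ.symm.toRingHom m, ← Matrix.transpose_map, ← Matrix.map_mul, ← Matrix.map_mul, hA]
  let μ : ↥(Matrix.symplecticGroup (Fin m) F) ≃* ↥(Matrix.symplecticGroup (Fin m) K) :=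
    { toFun := fun A => ⟨_, hmem A A.2⟩
      invFun := fun A => ⟨_, hmem' A A.2⟩
      left_inv := fun A => Subtype.ext (Matrix.ext fun i j => σ.symm_apply_apply _)
      right_inv := fun A => Subtype.ext (Matrix.ext fun i j => σ.apply_symm_apply _)
      map_mul' := fun A B => Subtype.ext Matrix.map_mul }
  exact ⟨QuotientGroup.congr _ _ μ (CfsgLib.KleinMinus.center_map_eq μ)⟩

theorem nonempty_psu_four_two_equiv_psp_four_three {F K : Type*} [Field F] [Fintype F] [Field K] [Fintype K]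
    (hF : Fintype.card F = 4) (hK : Fintype.card K = 3) : Nonempty (Cfsg.PSU 4 F 2 ≃* Cfsg.PSp 2 K) := by
  obtain ⟨e⟩ := nonempty_commutator_equiv hF
  obtain ⟨σ, hσ, hf⟩ := exists_isUnitaryForm_hermForm 4 2 (F := F) (by rw [hF]; norm_num)
  haveI : IsSimpleGroup (Cfsg.PSU 4 F 2) := isSimpleGroup_quot_center_congr (suEquiv 4 F 2)
    (isSimpleGroup_quot_hSU hf (by simp) (Or.inl (by simp)))
  have hs : IsSimpleGroup ↥(commutator ↥aut) := by
    haveI := e.toEquiv.nontrivial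
    exact IsSimpleGroup.isSimpleGroup_of_surjective e.symm.toMonoidHom e.symm.surjective
  obtain ⟨e'⟩ := nonempty_commutator_equiv_three hs ((Nat.card_congr e.toEquiv).trans (card_psu hF))
  obtain ⟨e''⟩ := nonempty_psp_congr (FiniteField.ringEquivOfCardEq ((ZMod.card 3).trans hK.symm)) 2
  exact ⟨(e.symm.trans e').trans e''⟩

end CfsgLib.LatticeE6
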