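import Cfsg.Agent.Lib.ClassicalSpinorEval

/-! The Levi subgroup `GL_m` of the hyperbolic orthogonal group and `Ω`. -/

set_option autoImplicit false

namespace CfsgLib.LeviOmega

open Matrix CfsgLib.Classical

variable {F : Type*} [Field F] {m : ℕ}

local notation "QP" => Cfsg.quadFormPlus m F

/-- The transvection as a unit. -/
def tu (i j : Fin m) (hij : i ≠ j) (c : F) : GL (Fin m) F where
  val := transvection i j c
  inv := transvection i j (-c)
  val_inv := by rw [transvection_mul_transvection_same i j hij, add_neg_cancel, transvection_zero]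
  inv_val := by rw [transvection_mul_transvection_same i j hij, neg_add_cancel, transvection_zero]

/-- Invertible diagonal matrices. -/
def diagHom : (Fin m → Fˣ) →* GL (Fin m) F where
  toFun d :=
    { val := diagonal fun i => (d i : F)
      inv := diagonal fun i => ((d i)⁻¹ : Fˣ)
      val_inv := by simp [diagonal_mul_diagonal]
      inv_val := by simp [diagonal_mul_diagonal] }
  map_one' := Units.ext (by simp)
  map_mul' d d' := Units.ext (by simp [diagonal_mul_diagonal])

theorem hom_tu {A : Type*} [CommGroup A] [Fintype F] (h : Fintype.card F ≠ 2 ∨ m ≠ 2) (f : GL (Fin m) F →* A)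
    (i j : Fin m) (hij : i ≠ j) (c : F) : f (tu i j hij c) = 1 := by
  classical
  have hadd : ∀ x y, f (tu i j hij (x + y)) = f (tu i j hij x) * f (tu i j hij y) := fun x y => by
    rw [← map_mul]; congr 1; exact Units.ext (transvection_mul_transvection_same i j hij x y).symm
  by_cases hl : ∃ l : F, l ≠ 0 ∧ l ≠ 1
  · obtain ⟨l, hl0, hl1⟩ := hl
    have hconj : ∀ x, f (tu i j hij (l * x)) = f (tu i j hij x) := by
      intro x
      let d : Fin m → Fˣ := Pi.mulSingle i (Units.mk0 l hl0)
      have e : diagHom d * tu i j hij x = tu i j hij (l * x) * diagHom d := by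
        refine Units.ext ?_
        show diagonal (fun k => (d k : F)) * transvection i j x = transvection i j (l * x) * diagonal (fun k => (d k : F))
        ext a b
        rw [diagonal_mul, mul_diagonal]
        simp only [transvection, Matrix.add_apply, Matrix.one_apply, Matrix.single_apply]
        by_cases hab : a = b
        · subst hab
          have : ¬(i = a ∧ j = a) := fun ⟨e, e'⟩ => hij (e.trans e'.symm)
          simp [this, mul_comm]
        · by_cases hh : i = a ∧ j = b
          · obtain ⟨rfl, rfl⟩ := hh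
            simp [d, hij, hij.symm]
          · simp [hab, hh]
      have e' := congrArg f e
      rw [map_mul, map_mul, mul_comm] at e'
      exact (mul_right_cancel e').symm
    have h0 : ∀ x, f (tu i j hij ((l - 1) * x)) = 1 := fun x => by
      have := hadd ((l - 1) * x) x
      rw [show (l - 1) * x + x = l * x by ring, hconj] at this
      exact mul_eq_right.1 this.symm
    have := h0 (c / (l - 1))
    rwa [mul_div_cancel₀ _ (sub_ne_zero.2 hl1)] at this
  · push Not at hl
    have hall : ∀ x : F, x = 0 ∨ x = 1 := fun x => or_iff_not_imp_left.2 (hl x)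
    have hcard : Fintype.card F = 2 := by
      rw [← Finset.card_univ, show (Finset.univ : Finset F) = {0, 1} from (Finset.eq_univ_of_forall fun x => by simpa using hall x).symm, Finset.card_pair zero_ne_one]
    have hm : 3 ≤ m := by
      have h1 := i.2
      have h2 := j.2
      have h3 : (i : ℕ) ≠ j := fun e => hij (Fin.ext e)
      have := h.resolve_left (fun e => e hcard)
      omega
    have hone : f (tu i j hij 1) = 1 := by
      obtain ⟨k, hk⟩ : ∃ k : Fin m, k ≠ i ∧ k ≠ j := by
        by_contra! hk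
        have : (Finset.univ : Finset (Fin m)) ⊆ {i, j} := fun k _ => by
          by_cases hki : k = i
          · simp [hki]
          · simp [hk k hki]
        have := (Finset.card_le_card this).trans Finset.card_le_two
        rw [Finset.card_univ, Fintype.card_fin] at this
        omega
      have e : tu i k hk.1.symm (1 : F) * tu k j hk.2 1 = tu k j hk.2 1 * tu i k hk.1.symm 1 * tu i j hij 1 := by
        refine Units.ext ?_
        show transvection i k (1 : F) * transvection k j 1 = transvection k j 1 * transvection i k 1 * transvection i j 1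
        have z1 : Matrix.single k j (1 : F) * Matrix.single i k (1 : F) = 0 := single_mul_single_of_ne _ _ _ _ hij.symm _
        have z2 : Matrix.single k j (1 : F) * Matrix.single i j (1 : F) = 0 := single_mul_single_of_ne _ _ _ _ hij.symm _
        have z3 : Matrix.single i k (1 : F) * Matrix.single i j (1 : F) = 0 := single_mul_single_of_ne _ _ _ _ hk.1 _
        simp only [transvection, add_mul, mul_add, one_mul, mul_one, single_mul_single_same, z1, z2, z3, zero_mul, add_zero, zero_add]
        abel
      have e' := congrArg f e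
      rw [map_mul, map_mul, map_mul, mul_comm (f (tu k j hk.2 1)) (f (tu i k hk.1.symm 1))] at e'
      exact left_eq_mul.1 e'
    rcases hall c with rfl | rfl
    · have := hadd 0 0; rw [add_zero] at this; exact left_eq_mul.1 this
    · exact hone

theorem hom_eq_of_diag {A : Type*} [CommGroup A] [Fintype F] (h : Fintype.card F ≠ 2 ∨ m ≠ 2) (f : GL (Fin m) F →* A)
    (χ : Fˣ →* A) (hs : ∀ j d, f (diagHom (Pi.mulSingle j d)) = χ d) (g : GL (Fin m) F) :
    f g = χ (Matrix.GeneralLinearGroup.det g) := by
  classical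
  have hdiag : f.comp diagHom = (χ.comp Matrix.GeneralLinearGroup.det).comp (diagHom : (Fin m → Fˣ) →* GL (Fin m) F) := by
    refine MonoidHom.pi_ext fun j d => ?_
    simp only [MonoidHom.comp_apply]
    rw [hs]
    congr 1
    refine Units.ext ?_
    show (d : F) = (diagonal fun i => ((Pi.mulSingle j d : Fin m → Fˣ) i : F)).det
    rw [det_diagonal, Finset.prod_eq_single j]
    · simp
    · intro b _ hb; simp [hb]
    · simp
  have key : ∀ (M : Matrix (Fin m) (Fin m) F) (hM : M.det ≠ 0),
      f (GeneralLinearGroup.mkOfDetNeZero M hM) = χ (Matrix.GeneralLinearGroup.det (GeneralLinearGroup.mkOfDetNeZero M hM)) := by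
    intro M hM
    refine Matrix.diagonal_transvection_induction_of_det_ne_zero
      (fun M => ∀ hM : M.det ≠ 0, f (GeneralLinearGroup.mkOfDetNeZero M hM) = χ (Matrix.GeneralLinearGroup.det (GeneralLinearGroup.mkOfDetNeZero M hM)))
      M hM ?_ ?_ ?_ hM
    · intro D hD hM'
      rw [det_diagonal] at hD
      have hne : ∀ i, D i ≠ 0 := fun i => (Finset.prod_ne_zero_iff.1 hD) i (Finset.mem_univ i)
      have e : GeneralLinearGroup.mkOfDetNeZero (diagonal D) hM' = diagHom (fun i => Units.mk0 (D i) (hne i)) := Units.ext rfl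
      rw [e]
      exact DFunLike.congr_fun hdiag _
    · intro t hM'
      have e : GeneralLinearGroup.mkOfDetNeZero t.toMatrix hM' = tu t.i t.j t.hij t.c := Units.ext rfl
      rw [e, hom_tu h f]
      have e2 : Matrix.GeneralLinearGroup.det (tu t.i t.j t.hij t.c) = 1 := Units.ext (det_transvection_of_ne _ _ t.hij _)
      rw [e2, map_one]
    · intro M N hM' hN' ihM ihN hMN
      have e : GeneralLinearGroup.mkOfDetNeZero (M * N) hMN = GeneralLinearGroup.mkOfDetNeZero M hM' * GeneralLinearGroup.mkOfDetNeZero N hN' := Units.ext rfl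
      rw [e, map_mul, map_mul, map_mul, ihM hM', ihN hN']
  have := key (g : Matrix (Fin m) (Fin m) F) (Matrix.isUnits_det_units g).ne_zero
  rwa [show GeneralLinearGroup.mkOfDetNeZero (g : Matrix (Fin m) (Fin m) F) (Matrix.isUnits_det_units g).ne_zero = g from Units.ext rfl] at this

/-- The Levi embedding. -/
def levi : GL (Fin m) F →* ↥(Cfsg.isometryGroup F QP) where
  toFun A := ⟨⟨fromBlocks (A : Matrix (Fin m) (Fin m) F) 0 0 ((A⁻¹ : GL (Fin m) F) : Matrix (Fin m) (Fin m) F)ᵀ,
      fromBlocks ((A⁻¹ : GL (Fin m) F) : Matrix (Fin m) (Fin m) F) 0 0 (A : Matrix (Fin m) (Fin m) F)ᵀ,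
      by rw [fromBlocks_multiply]; simp [← transpose_mul],
      by rw [fromBlocks_multiply]; simp [← transpose_mul]⟩, fun u v => by
    have hQ : ∀ w : Fin m ⊕ Fin m → F, QP w = (w ∘ Sum.inl) ⬝ᵥ (w ∘ Sum.inr) := fun w => rfl
    show QP (fromBlocks (A : Matrix (Fin m) (Fin m) F) 0 0 ((A⁻¹ : GL (Fin m) F) : Matrix (Fin m) (Fin m) F)ᵀ *ᵥ u) = QP u
    rw [hQ, hQ, fromBlocks_mulVec, Sum.elim_comp_inl, Sum.elim_comp_inr]
    simp only [zero_mulVec, add_zero, zero_add]
    rw [mulVec_transpose, ← vecMul_transpose (A : Matrix (Fin m) (Fin m) F), dotProduct_comm, ← dotProduct_mulVec, vecMul_transpose, mulVec_mulVec, Units.inv_mul, one_mulVec, dotProduct_comm]⟩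
  map_one' := Subtype.ext (Units.ext (by simp [fromBlocks_one]))
  map_mul' A B := Subtype.ext (Units.ext (by
    show fromBlocks _ 0 0 _ = fromBlocks _ 0 0 _ * fromBlocks _ 0 0 _
    rw [fromBlocks_multiply]; simp [_root_.mul_inv_rev, transpose_mul]))

set_option maxHeartbeats 1000000 in
theorem levi_single (j : Fin m) (d : Fˣ) :
    ∃ (h1 : QP (Pi.single (Sum.inl j) 1 - Pi.single (Sum.inr j) 1) ≠ 0)
      (h2 : QP (Pi.single (Sum.inl j) 1 - Pi.single (Sum.inr j) (d : F)) ≠ 0),
      QP (Pi.single (Sum.inl j) 1 - Pi.single (Sum.inr j) 1) = -1 ∧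
      QP (Pi.single (Sum.inl j) 1 - Pi.single (Sum.inr j) (d : F)) = -(d : F) ∧
      levi (diagHom (Pi.mulSingle j d)) =
        rI (isNondegenerate_quadFormPlus m) _ h1 * rI (isNondegenerate_quadFormPlus m) _ h2 := by
  classical
  have hQe : ∀ c : F, QP (Pi.single (Sum.inl j) 1 - Pi.single (Sum.inr j) c) = -c := fun c => by
    simp only [Cfsg.quadFormPlus]
    rw [Finset.sum_eq_single j]
    · simp [Pi.single_apply]
    · intro k _ hk; simp [Pi.single_apply, hk]
    · simp
  have h1 : QP (Pi.single (Sum.inl j) 1 - Pi.single (Sum.inr j) 1) ≠ 0 := by rw [hQe]; exact neg_ne_zero.2 one_ne_zero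
  have h2 : QP (Pi.single (Sum.inl j) 1 - Pi.single (Sum.inr j) (d : F)) ≠ 0 := by rw [hQe]; exact neg_ne_zero.2 d.ne_zero
  refine ⟨h1, h2, hQe 1, hQe d, Subtype.ext (gl_ext_mulVec fun x => ?_)⟩
  show fromBlocks (diagonal fun i => ((Pi.mulSingle j d : Fin m → Fˣ) i : F)) 0 0 (diagonal fun i => (((Pi.mulSingle j d : Fin m → Fˣ) i)⁻¹ : Fˣ))ᵀ *ᵥ x =
    ((qR (isNondegenerate_quadFormPlus m) (Pi.single (Sum.inl j) 1 - Pi.single (Sum.inr j) 1) * qR (isNondegenerate_quadFormPlus m) (Pi.single (Sum.inl j) 1 - Pi.single (Sum.inr j) (d : F)) : GL (Fin m ⊕ Fin m) F) : Matrix (Fin m ⊕ Fin m) (Fin m ⊕ Fin m) F) *ᵥ x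
  rw [Units.val_mul, ← mulVec_mulVec, qR_mulVec _ h2, qR_mulVec _ h1, hQe, hQe, fromBlocks_mulVec, diagonal_transpose]
  funext k
  have hpf : ∀ (y : Fin m ⊕ Fin m → F) (c : F), QuadraticMap.polar QP y (Pi.single (Sum.inl j) 1 - Pi.single (Sum.inr j) c) = y (Sum.inr j) - c * y (Sum.inl j) := by
    intro y c
    rw [polar_quadFormPlus, Finset.sum_eq_single j]
    · simp [Pi.single_apply]; ring
    · intro b _ hb; simp [Pi.single_apply, hb]
    · simp
  simp only [hpf]
  have hd : (d : F) ≠ 0 := d.ne_zero
  rcases k with k | k <;> by_cases hk : k = j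
  · subst hk; simp [mulVec_diagonal, Pi.single_apply]; field_simp; ring
  · simp [mulVec_diagonal, Pi.single_apply, hk]
  · subst hk; simp [mulVec_diagonal, Pi.single_apply]; field_simp; ring
  · simp [mulVec_diagonal, Pi.single_apply, hk]

theorem levi_omega_iff [Fintype F] (hm : 1 ≤ m) (h : Fintype.card F ≠ 2 ∨ m ≠ 2) (A : GL (Fin m) F) :
    levi A ∈ Cfsg.Omega F QP ↔ IsSquare (A : Matrix (Fin m) (Fin m) F).det := by
  classical
  have hQ := isNondegenerate_quadFormPlus (F := F) m
  have hcase : Nat.card F ≠ 2 ∨ Fintype.card (Fin m ⊕ Fin m) ≠ 4 := by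
    rcases h with h | h
    · exact Or.inl (by rwa [Nat.card_eq_fintype_card])
    · exact Or.inr (by simp; omega)
  have hn : 2 ≤ Fintype.card (Fin m ⊕ Fin m) := by simp; omega
  obtain ⟨D, hD⟩ := exists_dickson hQ hcase
  have hDA : D (levi A) = 1 := by
    have := hom_eq_of_diag h (D.comp levi) 1 (fun j d => by
      obtain ⟨h1, h2, -, -, e⟩ := levi_single j d
      rw [MonoidHom.comp_apply, e, map_mul, hD, hD]; simp) A
    simpa using this
  by_cases h20 : (2 : F) = 0
  · haveI : CharP F 2 := CharTwo.of_one_ne_zero_of_two_eq_zero one_ne_zero h20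
    rw [omega_eq_ker hQ hcase hD, MonoidHom.mem_ker]
    exact iff_of_true hDA (FiniteField.isSquare_of_char_two (ringChar.eq F 2) _)
  · obtain ⟨θ, hθ⟩ := exists_spinor hQ h20 hn
    rw [omega_eq_inf hQ h20 hn hD hθ, Subgroup.mem_inf, MonoidHom.mem_ker, MonoidHom.mem_ker]
    have hθ' : ∀ v (hv : QP v ≠ 0), θ (rI hQ v hv) = (quadraticChar F).toUnitHom (Units.mk0 _ hv) := by
      intro v hv
      refine Units.ext ?_
      rw [MulChar.coe_toUnitHom, Units.val_mk0]
      by_cases hs : IsSquare (QP v)
      · rw [(quadraticChar_one_iff_isSquare hv).2 hs]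
        have : θ (rI hQ v hv) = 1 := (Int.units_eq_one_or _).resolve_right fun e => (hθ v hv).1 e hs
        rw [this]; rfl
      · rw [quadraticChar_neg_one_iff_not_isSquare.2 hs, (hθ v hv).2 hs]; rfl
    have hA := hom_eq_of_diag h (θ.comp levi) (quadraticChar F).toUnitHom (fun j d => by
      obtain ⟨h1, h2, q1, q2, e⟩ := levi_single j d
      rw [MonoidHom.comp_apply, e, map_mul, hθ' _ h1, hθ' _ h2, ← map_mul]
      congr 1
      refine Units.ext ?_
      rw [Units.val_mul, Units.val_mk0, Units.val_mk0, q1, q2, neg_mul_neg, one_mul]) A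
    rw [MonoidHom.comp_apply] at hA
    simp only [hDA, hA, true_and]
    rw [Units.ext_iff, MulChar.coe_toUnitHom, Units.val_one]
    exact quadraticChar_one_iff_isSquare (Matrix.isUnits_det_units A).ne_zero

end CfsgLib.LeviOmega
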