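import Cfsg.Agent.Lib.ClassicalHerm

/-! Maximality of the unitary similarity group in SL. -/

set_option autoImplicit false

namespace CfsgLib.Classical

open Matrix

variable {ι : Type} [Fintype ι] [DecidableEq ι] {F : Type*} [Field F]
  {σ : F ≃+* F} {f : (ι → F) → (ι → F) → F}

lemma li_pair {a b : ι → F} (ha : a ≠ 0) (hb : ∀ c : F, b ≠ c • a) :
    LinearIndependent F ![a, b] := by
  rw [LinearIndependent.pair_iff]
  intro s t h
  have ht : t = 0 := by
    by_contra ht
    apply hb (-(s / t))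
    have h2 : t⁻¹ • (s • a + t • b) = 0 := by rw [h, smul_zero]
    rw [smul_add, smul_smul, smul_smul, inv_mul_cancel₀ ht, one_smul] at h2
    rw [eq_neg_of_add_eq_zero_right h2, ← neg_smul, div_eq_inv_mul]
  subst ht
  rw [zero_smul, add_zero] at h
  exact ⟨(smul_eq_zero.mp h).resolve_right ha, rfl⟩

variable (hf : Cfsg.Geo.IsUnitaryForm σ f)
include hf

/-- every proper subspace misses a vector detected by a functional `f(·,b)` -/
lemma eq_top_of_no_perp (U : Submodule F (ι → F))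
    (h : ∀ b : ι → F, b ≠ 0 → ∃ u ∈ U, f u b ≠ 0) : U = ⊤ := by
  by_contra hU
  obtain ⟨z, -, hz⟩ := SetLike.exists_of_lt (lt_top_iff_ne_top.mpr hU)
  obtain ⟨l, hl, hlU⟩ := Submodule.exists_dual_map_eq_bot_of_notMem hz inferInstance
  obtain ⟨b, hb⟩ := hfun₂_surjective hf (fun i => l (Pi.single i 1))
  have hrep : ∀ x, f x b = l x := fun x => by
    rw [← hfun₂_dotProduct hf, hb]
    conv_rhs => rw [pi_eq_sum_univ' x, map_sum]
    exact Finset.sum_congr rfl fun i _ => by simp [mul_comm]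
  have hb0 : b ≠ 0 := fun h0 => hl (by rw [← hrep, h0, herm_zero_right hf])
  obtain ⟨u, hu, hub⟩ := h b hb0
  apply hub
  have : l u ∈ U.map l := ⟨u, hu, rfl⟩
  rw [hlU, Submodule.mem_bot] at this
  rw [hrep, this]

variable [Finite F]

theorem isMaximalIn_hermSimilarity (h9 : 9 ≤ Fintype.card ι) :
    Cfsg.Geo.IsMaximalIn (Cfsg.Geo.specialLinear ι F)
      (Cfsg.Geo.similarityGroup f ⊓ Cfsg.Geo.specialLinear ι F) := by
  classical
  obtain ⟨j⟩ : Nonempty ι := Fintype.card_pos_iff.mp (by omega)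
  obtain ⟨μ, hμ0, hμ⟩ := exists_skew hf.ne_refl hf.involutive
  have hutvH : ∀ u, f u u = 0 → utv f u μ ∈
      Cfsg.Geo.similarityGroup f ⊓ Cfsg.Geo.specialLinear ι F :=
    fun u hu => ⟨⟨1, fun x y => by rw [Units.val_one, one_mul]; exact utv_preserves hf hu hμ x y⟩,
      tv_mem_specialLinear _ _⟩
  have hiso0 : ∀ b : ι → F, b ≠ 0 → ∃ u, f u u = 0 ∧ f u b = 1 := fun b hb => by
    obtain ⟨u, hu, hub⟩ := exists_isotropic_values hf
      (v := ![b]) (by simp [linearIndependent_unique_iff, hb]) (by omega) ![1]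
    exact ⟨u, hu, hub 0⟩
  have hiso2 : ∀ a b : ι → F, a ≠ 0 → (∀ c : F, b ≠ c • a) → ∀ s t : F,
      ∃ u, f u u = 0 ∧ f u a = s ∧ f u b = t := fun a b ha hb s t => by
    obtain ⟨u, hu, hv⟩ := exists_isotropic_values hf (v := ![a, b]) (li_pair ha hb) (by omega) ![s, t]
    exact ⟨u, hu, hv 0, hv 1⟩
  refine isMaximalIn_of inf_le_right ?_ ?_
  · intro hle
    set a : ι → F := Pi.single j 1
    have ha : a ≠ 0 := by simp [a]
    obtain ⟨b, hb, hba⟩ : ∃ b, f b a = 0 ∧ ∀ c : F, b ≠ c • a := by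
      by_contra! h
      have hker : LinearMap.ker (leftLin hf a) ≤ Submodule.span F {a} := fun b hb => by
        obtain ⟨c, hc⟩ := h b hb
        exact Submodule.mem_span_singleton.mpr ⟨c, hc.symm⟩
      have h1 := Submodule.finrank_mono hker
      rw [finrank_span_singleton ha] at h1
      have h2 := LinearMap.finrank_range_add_finrank_ker (leftLin hf a)
      have h3 : Module.finrank F (LinearMap.range (leftLin hf a)) ≤ 1 := by
        simpa using Submodule.finrank_le (LinearMap.range (leftLin hf a))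
      rw [Module.finrank_pi] at h2
      omega
    have hok : hfun₂ f b ⬝ᵥ a = 0 := by rw [hfun₂_dotProduct hf, herm_eq_zero_comm hf hb]
    obtain ⟨⟨c, hc⟩, -⟩ := hle (tv_mem_specialLinear a (hfun₂ f b))
    obtain ⟨x₀, hx₀⟩ := exists_values hf (li_pair ha hba) ![1, 0]
    obtain ⟨x, hx⟩ := exists_values hf (li_pair ha hba) ![0, 1]
    have h0 := hc x₀ a
    rw [tv_mulVec hok, tv_mulVec hok, hfun₂_dotProduct hf, hfun₂_dotProduct hf,
      show f x₀ b = 0 from hx₀ 1, herm_eq_zero_comm hf hb, zero_smul, add_zero, add_zero,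
      show f x₀ a = 1 from hx₀ 0, mul_one] at h0
    have h1 := hc x x₀
    rw [tv_mulVec hok, tv_mulVec hok, hfun₂_dotProduct hf, hfun₂_dotProduct hf,
      show f x₀ b = 0 from hx₀ 1, show f x b = 1 from hx 1, zero_smul, add_zero, one_smul,
      hf.add_left, ← h0, one_mul, hf.herm a x₀, show f x₀ a = 1 from hx₀ 0, map_one] at h1
    simp at h1
  intro M hHM hMS g hgM hgH
  obtain ⟨v, hvv, hv⟩ : ∃ v, f v v = 0 ∧
      ∀ c : F, pushFun g (hfun₂ f v) ≠ c • hfun₂ f ((g : Matrix ι ι F) *ᵥ v) := by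
    by_contra! h
    have hd : ∀ v, f v v = 0 → v ≠ 0 → ∃ d : F, ∀ x,
        f ((g : Matrix ι ι F) *ᵥ x) ((g : Matrix ι ι F) *ᵥ v) = d * f x v := by
      intro v hvv hv0
      obtain ⟨c, hc⟩ := h v hvv
      have hrel : ∀ x, f x v = c * f ((g : Matrix ι ι F) *ᵥ x) ((g : Matrix ι ι F) *ᵥ v) := by
        intro x
        have := pushFun_apply g (hfun₂ f v) x
        rw [hc, smul_dotProduct, hfun₂_dotProduct hf, hfun₂_dotProduct hf, smul_eq_mul] at this
        exact this.symm
      have hc0 : c ≠ 0 := fun h0 => by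
        obtain ⟨x, hx⟩ := (hf.nondegenerate v hv0).1
        exact hx (by rw [hrel, h0, zero_mul])
      exact ⟨c⁻¹, fun x => by rw [hrel x, inv_mul_cancel_left₀ hc0]⟩
    choose! d hd using hd
    have hadj : ∀ u v, f u u = 0 → u ≠ 0 → f v v = 0 → v ≠ 0 → f u v ≠ 0 → d v = σ (d u) := by
      intro u v hu hu0 hv hv0 huv
      have h1 := hd v hv hv0 u
      rw [hf.herm, hd u hu hu0 v, map_mul, ← hf.herm u v] at h1
      exact (mul_right_cancel₀ huv h1).symm
    have hne : ∀ {u b : ι → F}, f u b = 1 → u ≠ 0 := fun h h0 => by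
      rw [h0, herm_zero_left hf] at h; exact zero_ne_one h
    have hfix : ∀ u, f u u = 0 → u ≠ 0 → σ (d u) = d u := by
      intro u hu hu0
      obtain ⟨w, hw, hwu⟩ := hiso0 u hu0
      have hw0 := hne hwu
      have hwu' : ∀ c : F, w ≠ c • u := fun c hc => by
        rw [hc, hf.smul_left, hu, mul_zero] at hwu; exact zero_ne_one hwu
      obtain ⟨z, hz, hzu, hzw⟩ := hiso2 u w hu0 hwu' 1 1
      have hz0 := hne hzu
      have e1 := hadj u w hu hu0 hw hw0 (by rw [hf.herm, hwu]; simp)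
      have e2 := hadj u z hu hu0 hz hz0 (by rw [hf.herm, hzu]; simp)
      have e3 := hadj w z hw hw0 hz hz0 (by rw [hf.herm, hzw]; simp)
      rw [e2, e1, hf.involutive] at e3
      exact e3
    have hconst : ∀ u v, f u u = 0 → u ≠ 0 → f v v = 0 → v ≠ 0 → d v = d u := by
      intro u v hu hu0 hv hv0
      by_cases hdep : ∃ c : F, v = c • u
      · obtain ⟨c, rfl⟩ := hdep
        obtain ⟨w, -, hwu⟩ := hiso0 u hu0
        have h1 := hd _ hv hv0 w
        rw [mulVec_smul, herm_smul_right hf, herm_smul_right hf, hd u hu hu0 w, hwu] at h1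
        have hc : σ c ≠ 0 := by
          simp only [ne_eq, map_eq_zero]; intro hc; exact hv0 (by rw [hc, zero_smul])
        simp only [mul_one] at h1
        rw [mul_comm (d (c • u))] at h1
        exact (mul_left_cancel₀ hc h1).symm
      · push Not at hdep
        obtain ⟨w, hw, hwu, hwv⟩ := hiso2 u v hu0 hdep 1 1
        have hw0 := hne hwu
        rw [hadj w v hw hw0 hv hv0 (by rw [hwv]; simp),
          hadj u w hu hu0 hw hw0 (by rw [hf.herm, hwu]; simp), hf.involutive]
    obtain ⟨u₀, hu₀, hu₀j⟩ := hiso0 (Pi.single j 1) (by simp)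
    have hu₀0 := hne hu₀j
    set D := d u₀
    have hall : ∀ v x, f ((g : Matrix ι ι F) *ᵥ x) ((g : Matrix ι ι F) *ᵥ v) = D * f x v := by
      let U : Submodule F (ι → F) :=
        { carrier := {v | ∀ x, f ((g : Matrix ι ι F) *ᵥ x) ((g : Matrix ι ι F) *ᵥ v) = D * f x v}
          add_mem' := fun {a b} ha hb x => by
            rw [mulVec_add, herm_add_right hf, ha x, hb x, herm_add_right hf, mul_add]
          zero_mem' := fun x => by simp [herm_zero_right hf]
          smul_mem' := fun c a ha x => by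
            rw [mulVec_smul, herm_smul_right hf, ha x, herm_smul_right hf]; ring }
      have hU : U = ⊤ := eq_top_of_no_perp hf U fun b hb => by
        obtain ⟨u, hu, hub⟩ := hiso0 b hb
        refine ⟨u, fun x => ?_, by rw [hub]; exact one_ne_zero⟩
        rw [hd u hu (hne hub) x, hconst u₀ u hu₀ hu₀0 hu (hne hub)]
      exact fun v => (hU ▸ Submodule.mem_top : v ∈ U)
    have hD0 : D ≠ 0 := fun h0 => by
      obtain ⟨x, hx⟩ := (hf.nondegenerate ((g : Matrix ι ι F) *ᵥ u₀) (fun h1 =>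
        hu₀0 (mulVec_injective g (by simpa using h1)))).1
      apply hx
      rw [← mulVec_inv_mulVec g x, hall, h0, zero_mul]
    exact hgH ⟨⟨Units.mk0 D hD0, fun u v => hall v u⟩, hMS hgM⟩
  set a := (g : Matrix ι ι F) *ᵥ v
  obtain ⟨x, hx⟩ := hfun₂_surjective hf (pushFun g (μ • hfun₂ f v))
  have hax : f a x = 0 := by
    rw [← hfun₂_dotProduct hf, hx, pushFun_apply, utv_ok hf hvv]
  have hxM : tv a (hfun₂ f x) ∈ M := by
    rw [hx]; exact tv_conj_mem hgM (utv_ok hf hvv μ) (hHM (hutvH v hvv))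
  have hxa : ∀ c : F, x ≠ c • a := fun c hc => hv (μ⁻¹ * σ c) (by
    have h1 : pushFun g (μ • hfun₂ f v) = σ c • hfun₂ f a := by
      rw [← hx, hc]; funext i; simp [hfun₂, herm_smul_right hf]
    have h2 : pushFun g (μ • hfun₂ f v) = μ • pushFun g (hfun₂ f v) := smul_vecMul ..
    rw [h2] at h1
    have := congrArg (μ⁻¹ • ·) h1
    simpa [smul_smul, inv_mul_cancel₀ hμ0] using this)
  have hv0 : v ≠ 0 := fun h0 => hv 0 (by
    subst h0; funext i; simp [pushFun, hfun₂, herm_zero_right hf, vecMul, dotProduct])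
  have ha : a ≠ 0 := fun h0 => hv0 (mulVec_injective g (by simpa [a] using h0))
  have hok : ∀ {p y : ι → F}, f p y = 0 → hfun₂ f y ⬝ᵥ p = 0 := fun h => by
    rw [hfun₂_dotProduct hf, h]
  let U : AddSubgroup (ι → F) :=
    { carrier := {y | f a y = 0 ∧ tv a (hfun₂ f y) ∈ M}
      add_mem' := fun {y z} hy hz => ⟨by rw [herm_add_right hf, hy.1, hz.1, add_zero], by
        rw [show hfun₂ f (y + z) = hfun₂ f y + hfun₂ f z from funext fun i => herm_add_right hf _ _ _,
          ← tv_mul_right (hok hy.1) (hok hz.1)]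
        exact M.mul_mem hy.2 hz.2⟩
      zero_mem' := ⟨herm_zero_right hf a, by
        rw [show hfun₂ f (0 : ι → F) = 0 from funext fun i => herm_zero_right hf _, tv_zero_right]
        exact M.one_mem⟩
      neg_mem' := fun {y} hy => ⟨by
        rw [← neg_one_smul F y, herm_smul_right hf, hy.1, mul_zero], by
        rw [show hfun₂ f (-y) = -hfun₂ f y from funext fun i => by
          show f _ (-y) = -f _ y
          rw [← neg_one_smul F y, herm_smul_right hf, map_neg, map_one, neg_one_mul],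
          ← tv_inv (hok hy.1)]
        exact M.inv_mem hy.2⟩ }
  have hmove : ∀ y ∈ U, ∀ w, f w w = 0 → f w a = 0 → (μ * f y w) • w ∈ U := by
    intro y hy w hw hwa
    have hk := hHM (hutvH w hw)
    have h1 : y + (μ * f y w) • w ∈ U := by
      refine ⟨by rw [herm_add_right hf, herm_smul_right hf, hy.1, herm_eq_zero_comm hf hwa,
        mul_zero, add_zero], ?_⟩
      have hconj : utv f w μ * tv a (hfun₂ f y) * (utv f w μ)⁻¹ =
          tv a (hfun₂ f (y + (μ * f y w) • w)) := by
        have := conj_tv (utv f w μ) (hok hy.1) (ψ := hfun₂ f (y + (μ * f y w) • w)) fun z => by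
          rw [← utv_mulVec hf hw, hfun₂_dotProduct hf, hfun₂_dotProduct hf,
            utv_preserves hf hw hμ]
        rwa [utv_mulVec hf hw μ a, herm_eq_zero_comm hf hwa, mul_zero, zero_smul, add_zero] at this
      rw [← hconj]
      exact M.mul_mem (M.mul_mem hk hy.2) (M.inv_mem hk)
    simpa using U.sub_mem h1 hy
  have hline : ∀ y ∈ U, (∀ c : F, y ≠ c • a) → ∀ z, f z z = 0 → f z a = 0 →
      LinearIndependent F ![a, y, z] → ∀ t : F, t • z ∈ U := by
    intro y hy _ z hz hza hli t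
    obtain ⟨w, hw, hwv⟩ := exists_isotropic_values hf hli (by omega) ![0, σ (t / (μ * μ)), 1]
    have hwa : f w a = 0 := hwv 0
    have hwy : f w y = σ (t / (μ * μ)) := hwv 1
    have hwz : f w z = 1 := hwv 2
    have h1 := hmove _ (hmove y hy w hw hwa) z hz hza
    rw [hf.smul_left, hwz, hf.herm y w, hwy, hf.involutive, mul_one] at h1
    rwa [show μ * (μ * (t / (μ * μ))) = t by field_simp] at h1
  have hmain : ∀ z, f z z = 0 → f z a = 0 → (∀ c : F, z ≠ c • a) → ∀ t : F, t • z ∈ U := by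
    intro z hz hza hzne t
    obtain ⟨y₁, hy₁, hy₁ne, hy₁iso, hy₁a⟩ : ∃ y ∈ U, (∀ c : F, y ≠ c • a) ∧ f y y = 0 ∧ f y a = 0 := by
      obtain ⟨w, hw, hwa, hwx⟩ := hiso2 a x ha hxa 0 1
      have hxw : f x w = 1 := by rw [hf.herm, hwx, map_one]
      refine ⟨_, hmove x ⟨hax, hxM⟩ w hw hwa, fun c hc => ?_, ?_, ?_⟩
      · have := congrArg (fun y => f y x) hc
        simp [hf.smul_left, hwx, hxw, hax, hμ0] at this
      · rw [hf.smul_left, herm_smul_right hf, hw, mul_zero, mul_zero]
      · rw [hf.smul_left, hwa, mul_zero]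
    by_cases hli : LinearIndependent F ![a, y₁, z]
    · exact hline y₁ hy₁ hy₁ne z hz hza hli t
    -- go through an auxiliary vector outside the plane
    obtain ⟨c, hca, hcy, hc⟩ : ∃ c, f c a = 0 ∧ f c y₁ = 0 ∧ c ∉ Submodule.span F (Set.range ![a, y₁]) := by
      by_contra! h
      have hle : perpOf hf ![a, y₁] ≤ Submodule.span F (Set.range ![a, y₁]) := fun c hc => by
        have := (mem_perpOf hf).mp hc
        exact h c (this 0) (this 1)
      have h1 := Submodule.finrank_mono hle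
      have h2 : Module.finrank F (Submodule.span F (Set.range ![a, y₁])) ≤ 2 :=
        le_trans (finrank_range_le_card _) (by simp)
      have h3 := LinearMap.finrank_range_add_finrank_ker
        (LinearMap.pi fun i => leftLin hf (![a, y₁] i))
      have h4 := Submodule.finrank_le (LinearMap.range (LinearMap.pi fun i => leftLin hf (![a, y₁] i)))
      rw [Module.finrank_pi, Fintype.card_fin] at h4
      rw [Module.finrank_pi] at h3
      change _ + Module.finrank F (perpOf hf ![a, y₁]) = _ at h3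
      omega
    have hli3 : LinearIndependent F ![a, y₁, c] := by
      have h2 := li_pair ha hy₁ne
      rw [show ![a, y₁, c] = Fin.snoc ![a, y₁] c by funext i; fin_cases i <;> rfl,
        linearIndependent_finSnoc]
      exact ⟨h2, hc⟩
    obtain ⟨y₂, hy₂iso, hy₂v⟩ := exists_isotropic_values hf hli3 (by omega) ![0, 0, 1]
    have hy₂a : f y₂ a = 0 := hy₂v 0
    have hy₂c : f y₂ c = 1 := hy₂v 2
    have hout : y₂ ∉ Submodule.span F (Set.range ![a, y₁]) := by
      intro h
      obtain ⟨s, hs⟩ := (Submodule.mem_span_range_iff_exists_fun F).mp h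
      have := congrArg (fun y => f y c) hs
      simp [Fin.sum_univ_two, hf.add_left, hf.smul_left, herm_eq_zero_comm hf hca,
        herm_eq_zero_comm hf hcy, hy₂c] at this
    have hli2 : LinearIndependent F ![a, y₁, y₂] := by
      rw [show ![a, y₁, y₂] = Fin.snoc ![a, y₁] y₂ by funext i; fin_cases i <;> rfl,
        linearIndependent_finSnoc]
      exact ⟨li_pair ha hy₁ne, hout⟩
    have hy₂ : (1 : F) • y₂ ∈ U := hline y₁ hy₁ hy₁ne y₂ hy₂iso hy₂a hli2 1
    rw [one_smul] at hy₂
    have hy₂ne : ∀ s : F, y₂ ≠ s • a := fun s hs => hout (by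
      rw [hs]; exact Submodule.smul_mem _ _ (Submodule.subset_span ⟨0, rfl⟩))
    refine hline y₂ hy₂ hy₂ne z hz hza ?_ t
    rw [show ![a, y₂, z] = Fin.snoc ![a, y₂] z by funext i; fin_cases i <;> rfl,
      linearIndependent_finSnoc]
    refine ⟨li_pair ha hy₂ne, fun hzin => ?_⟩
    have hzP : z ∈ Submodule.span F (Set.range ![a, y₁]) := by
      by_contra hz'
      apply hli
      rw [show ![a, y₁, z] = Fin.snoc ![a, y₁] z by funext i; fin_cases i <;> rfl,
        linearIndependent_finSnoc]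
      exact ⟨li_pair ha hy₁ne, hz'⟩
    obtain ⟨s, hs⟩ := (Submodule.mem_span_range_iff_exists_fun F).mp hzP
    obtain ⟨r, hr⟩ := (Submodule.mem_span_range_iff_exists_fun F).mp hzin
    simp only [Fin.sum_univ_two, Matrix.cons_val_zero, Matrix.cons_val_one] at hs hr
    have hr1 : r 1 ≠ 0 := fun h0 => hzne (r 0) (by rw [← hr, h0, zero_smul, add_zero])
    apply hout
    rw [show y₂ = (r 1)⁻¹ • ((s 0 - r 0) • a + s 1 • y₁) by
      have e : r 1 • y₂ = (s 0 - r 0) • a + s 1 • y₁ := by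
        rw [eq_sub_of_add_eq' hr, ← hs]; module
      rw [← e, smul_smul, inv_mul_cancel₀ hr1, one_smul]]
    exact Submodule.smul_mem _ _ (Submodule.add_mem _
      (Submodule.smul_mem _ _ (Submodule.subset_span ⟨0, rfl⟩))
      (Submodule.smul_mem _ _ (Submodule.subset_span ⟨1, rfl⟩)))
  have hUall : ∀ y, f a y = 0 → y ∈ U := by
    intro y hy
    have hya : f y a = 0 := herm_eq_zero_comm hf hy
    obtain ⟨z₀, hz₀, hz₀a, hz₀x⟩ := hiso2 a x ha hxa 0 1
    have hz₀ne : ∀ c : F, z₀ ≠ c • a := fun c hc => by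
      rw [hc, hf.smul_left, hax, mul_zero] at hz₀x; exact zero_ne_one hz₀x
    let U₀ : Submodule F (ι → F) :=
      { carrier := {y | f y a = 0 ∧ ∀ t : F, t • y ∈ U}
        add_mem' := fun {p q} hp hq => ⟨by rw [hf.add_left, hp.1, hq.1, add_zero],
          fun t => by rw [smul_add]; exact U.add_mem (hp.2 t) (hq.2 t)⟩
        zero_mem' := ⟨herm_zero_left hf a, fun t => by rw [smul_zero]; exact U.zero_mem⟩
        smul_mem' := fun c p hp => ⟨by rw [hf.smul_left, hp.1, mul_zero],
          fun t => by rw [smul_smul]; exact hp.2 _⟩ }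
    have haU : f a a = 0 → a ∈ U₀ := fun haa => by
      have h1 : z₀ + a ∈ U₀ := ⟨by rw [hf.add_left, hz₀a, haa, add_zero],
        hmain _ (by simp [hf.add_left, herm_add_right hf, hz₀, haa, hz₀a, herm_eq_zero_comm hf hz₀a])
          (by rw [hf.add_left, hz₀a, haa, add_zero])
          (fun c hc => hz₀ne (c - 1) (by rw [sub_smul, one_smul, ← hc]; simp))⟩
      have h2 : z₀ ∈ U₀ := ⟨hz₀a, hmain z₀ hz₀ hz₀a hz₀ne⟩
      simpa using U₀.sub_mem h1 h2
    have hin : ∀ z, f z z = 0 → f z a = 0 → z ∈ U₀ := fun z hz hza => by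
      by_cases hzne : ∀ c : F, z ≠ c • a
      · exact ⟨hza, hmain z hz hza hzne⟩
      · push Not at hzne
        obtain ⟨c, rfl⟩ := hzne
        by_cases hc : c = 0
        · subst hc; rw [zero_smul]; exact U₀.zero_mem
        refine U₀.smul_mem c (haU ?_)
        rw [hf.smul_left] at hza
        exact (mul_eq_zero.mp hza).resolve_left hc
    have hyU₀ : y ∈ U₀ := by
      by_contra hny
      obtain ⟨l, hl, hlU⟩ := Submodule.exists_dual_map_eq_bot_of_notMem hny inferInstance
      obtain ⟨b, hb⟩ := hfun₂_surjective hf (fun i => l (Pi.single i 1))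
      have hrep : ∀ x, f x b = l x := fun x => by
        rw [← hfun₂_dotProduct hf, hb]
        conv_rhs => rw [pi_eq_sum_univ' x, map_sum]
        exact Finset.sum_congr rfl fun i _ => by simp [mul_comm]
      have hba : ∀ c : F, b ≠ c • a := fun c hc => hl (by
        rw [← hrep, hc, herm_smul_right hf, hya, mul_zero])
      obtain ⟨w, hw, hwa, hwb⟩ := hiso2 a b ha hba 0 1
      have : l w ∈ U₀.map l := ⟨w, hin w hw hwa, rfl⟩
      rw [hlU, Submodule.mem_bot, ← hrep, hwb] at this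
      exact one_ne_zero this
    simpa using hyU₀.2 1
  let S : Set (ι → F) := {a | ∀ φ : ι → F, φ ⬝ᵥ a = 0 → tv a φ ∈ M}
  have haS : a ∈ S := fun φ hφ => by
    obtain ⟨y, rfl⟩ := hfun₂_surjective hf φ
    exact (hUall y (by rw [← hfun₂_dotProduct hf, hφ])).2
  have hconj : ∀ h ∈ M, ∀ a ∈ S, (h : Matrix ι ι F) *ᵥ a ∈ S := by
    intro h hh a ha φ hφ
    set ψ := φ ᵥ* (h : Matrix ι ι F)
    have hψ : ∀ x, φ ⬝ᵥ ((h : Matrix ι ι F) *ᵥ x) = ψ ⬝ᵥ x := fun x => dotProduct_mulVec _ _ _
    have hψa : ψ ⬝ᵥ a = 0 := by rw [← hψ, hφ]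
    rw [← conj_tv h hψa hψ]
    exact M.mul_mem (M.mul_mem hh (ha ψ hψa)) (M.inv_mem hh)
  have hsmul : ∀ a ∈ S, ∀ c : F, c • a ∈ S := fun a ha c φ hφ => by
    by_cases hc : c = 0
    · subst hc; rw [zero_smul, tv_zero_left]; exact M.one_mem
    have hφa : φ ⬝ᵥ a = 0 := by simpa [hc] using hφ
    rw [tv_smul_comm hφa]; exact ha _ (by simp [hφa])
  have hadd : ∀ p ∈ S, ∀ q ∈ S, p + q ∈ S := by
    intro p hp q hq
    by_cases hp0 : p = 0
    · rw [hp0, zero_add]; exact hq
    by_cases hdep : ∃ c : F, q = c • p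
    · obtain ⟨c, rfl⟩ := hdep
      rw [show p + c • p = (1 + c) • p by module]; exact hsmul p hp _
    push Not at hdep
    obtain ⟨w, hw⟩ : ∃ φ : ι → F, φ ⬝ᵥ q = 1 ∧ φ ⬝ᵥ p = 0 := by
      obtain ⟨u, -, hup, huq⟩ := hiso2 p q hp0 hdep 0 1
      refine ⟨fun i => σ (f u (Pi.single i 1)), ?_, ?_⟩ <;>
      · rw [show (fun i => σ (f u (Pi.single i 1))) = hfun₂ f u from
          funext fun i => (hf.herm _ _).symm, hfun₂_dotProduct hf, hf.herm]
        simp [hup, huq]
    have := hconj _ (hp w hw.2) q hq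
    rwa [tv_mulVec hw.2, hw.1, one_smul, add_comm] at this
  let SS : Submodule F (ι → F) :=
    { carrier := S, add_mem' := fun {p q} hp hq => hadd p hp q hq
      zero_mem' := fun φ _ => by rw [tv_zero_left]; exact M.one_mem
      smul_mem' := fun c p hp => hsmul p hp c }
  have htop : SS = ⊤ := eq_top_of_no_perp hf SS fun b hb => by
    obtain ⟨u, hu, hua, hub⟩ : ∃ u, f u u = 0 ∧ f u a ≠ 0 ∧ f u b ≠ 0 := by
      by_cases hba : ∀ c : F, b ≠ c • a
      · obtain ⟨u, hu, h1, h2⟩ := hiso2 a b ha hba 1 1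
        exact ⟨u, hu, by simp [h1], by simp [h2]⟩
      · push Not at hba
        obtain ⟨c, rfl⟩ := hba
        obtain ⟨u, hu, h1⟩ := hiso0 a ha
        refine ⟨u, hu, by simp [h1], ?_⟩
        rw [herm_smul_right hf, h1, mul_one, ne_eq, map_eq_zero]
        exact fun hc => hb (by rw [hc, zero_smul])
    refine ⟨u, ?_, hub⟩
    have h1 := hconj _ (hHM (hutvH u hu)) a haS
    rw [utv_mulVec hf hu] at h1
    have h2 : (μ * f a u) • u ∈ SS := by simpa using SS.sub_mem h1 (show a ∈ SS from haS)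
    have hne : μ * f a u ≠ 0 := mul_ne_zero hμ0 fun h0 => hua (herm_eq_zero_comm hf h0)
    have h3 := SS.smul_mem (μ * f a u)⁻¹ h2
    rwa [smul_smul, inv_mul_cancel₀ hne, one_smul] at h3
  refine specialLinear_le_of_tv fun p φ _ hφ => ?_
  exact (htop ▸ Submodule.mem_top : p ∈ SS) φ hφ

end CfsgLib.Classical
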