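import Cfsg.Agent.Lib.ClassicalSpStd
import Mathlib.LinearAlgebra.BilinearForm.Orthogonal

/-! In characteristic two the orthogonal groups are maximal in the symplectic group. -/

set_option autoImplicit false

namespace CfsgLib.Classical

open Matrix

variable {ι : Type} [Fintype ι] [DecidableEq ι] {F : Type*} [Field F] [CharP F 2] [PerfectRing F 2]
  {f : (ι → F) → (ι → F) → F} {Q : (ι → F) → F}

/-- a quadratic form with polar form `f`, as functions -/
structure IsQuadFor (Q : (ι → F) → F) (f : (ι → F) → (ι → F) → F) : Prop where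
  smul : ∀ (c : F) v, Q (c • v) = c ^ 2 * Q v
  add : ∀ u v, Q (u + v) = Q u + Q v + f u v

lemma char2_sqrt (x : F) : ∃ y : F, y ^ 2 = x := by
  obtain ⟨y, hy⟩ := surjective_frobenius F 2 x
  exact ⟨y, by simpa [frobenius_def] using hy⟩

variable (hf : Cfsg.Geo.IsSymplecticForm f) (hQ : IsQuadFor Q f)
include hf hQ

lemma quad_transvec_apply (w x : ι → F) :
    Q ((stv f w 1 : Matrix ι ι F) *ᵥ x) = Q x + (f x w) ^ 2 * (Q w + 1) := by
  rw [stv_mulVec hf, hQ.add, hQ.smul, hf.bilinear.smul_right, one_mul]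
  ring

lemma transvec_preserves {w : ι → F} (hw : Q w = 1) (x : ι → F) :
    Q ((stv f w 1 : Matrix ι ι F) *ᵥ x) = Q x := by
  rw [quad_transvec_apply hf hQ, hw, CharTwo.add_self_eq_zero, mul_zero, add_zero]

lemma exists_perp_value {S : Finset (ι → F)} (hS : 2 * S.card < Fintype.card ι) (s : F) :
    ∃ d, (∀ u ∈ S, f u d = 0) ∧ Q d = s := by
  classical
  set B := toBil hf.bilinear
  have hB : B.IsRefl := fun x y h => by
    rw [toBil_apply] at h ⊢; rw [hf.skew, h, neg_zero]
  have hnd : B.Nondegenerate :=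
    ⟨fun x hx => by
      by_contra h; obtain ⟨y, hy⟩ := (hf.nondegenerate x h).2; exact hy (hx y),
     fun x hx => by
      by_contra h; obtain ⟨y, hy⟩ := (hf.nondegenerate x h).1; exact hy (hx y)⟩
  set A := Submodule.span F (S : Set (ι → F))
  set P := B.orthogonal A
  have hA : Module.finrank F A ≤ S.card := finrank_span_finset_le_card S
  have hP := LinearMap.BilinForm.finrank_orthogonal hnd A
  have hmem : ∀ d ∈ P, ∀ u ∈ S, f u d = 0 := fun d hd u hu => hd u (Submodule.subset_span hu)
  by_cases h : ∀ d ∈ P, Q d = 0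
  · exfalso
    have hle : P ≤ B.orthogonal P := by
      intro x hx y hy
      have := h (y + x) (P.add_mem hy hx)
      rw [hQ.add, h y hy, h x hx, zero_add, zero_add] at this
      exact this
    have h2 := Submodule.finrank_mono hle
    rw [show B.orthogonal P = A from LinearMap.BilinForm.orthogonal_orthogonal hnd hB A] at h2
    rw [hP, Module.finrank_pi] at h2
    omega
  push Not at h
  obtain ⟨d, hd, hd0⟩ := h
  obtain ⟨c, hc⟩ := char2_sqrt (s / Q d)
  exact ⟨c • d, hmem _ (P.smul_mem c hd), by rw [hQ.smul, hc, div_mul_cancel₀ _ hd0]⟩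

variable {M : Subgroup (GL ι F)}

theorem isoGL_le_of_nonisometry (h8 : 8 ≤ Fintype.card ι)
    (hM : ∀ w, Q w = 1 → stv f w 1 ∈ M) {g : GL ι F} (hg : g ∈ M) (hgf : g ∈ isoGL f)
    (hgQ : ∃ v, Q ((g : Matrix ι ι F) *ᵥ v) ≠ Q v) : isoGL f ≤ M := by
  classical
  obtain ⟨v₀, hv₀⟩ := hgQ
  set S : Set (ι → F) := {w | stv f w 1 ∈ M}
  have hclos : ∀ a b, a ∈ S → b ∈ S → b + f b a • a ∈ S := by
    intro a b ha hb
    have h := M.mul_mem (M.mul_mem ha hb) (M.inv_mem ha)
    rw [stv_conj hf (stv_mem_isoGL hf a 1), stv_mulVec hf, one_mul] at h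
    exact h
  -- a vector of value different from one in S
  obtain ⟨b, hbS, hb0, hb1⟩ : ∃ b ∈ S, b ≠ 0 ∧ Q b ≠ 1 := by
    by_contra! h
    have h1 : ∀ w, Q w = 1 → Q ((g : Matrix ι ι F) *ᵥ w) = 1 := by
      intro w hw
      have hS : (g : Matrix ι ι F) *ᵥ w ∈ S := by
        have := M.mul_mem (M.mul_mem hg (hM w hw)) (M.inv_mem hg)
        rw [stv_conj hf hgf] at this
        exact this
      refine h _ hS fun h0 => ?_
      have : w = 0 := mulVec_injective g (by simpa using h0)
      subst this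
      have := hQ.smul 0 (0 : ι → F)
      simp [hw] at this
    apply hv₀
    by_cases hQv : Q v₀ = 0
    · obtain ⟨d, hd, hd1⟩ := exists_perp_value hf hQ (S := {v₀}) (by simp; omega) 1
      have hvd : Q (v₀ + d) = 1 := by rw [hQ.add, hQv, hd1, hd v₀ (by simp)]; ring
      have hgd := h1 _ hd1
      have := h1 _ hvd
      rw [mulVec_add, hQ.add, hgd, mem_isoGL.mp hgf, hd v₀ (by simp), add_zero] at this
      rw [hQv]; exact add_eq_right.mp this
    · obtain ⟨c, hc⟩ := char2_sqrt (Q v₀)⁻¹
      have := h1 (c • v₀) (by rw [hQ.smul, hc, inv_mul_cancel₀ hQv])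
      rw [mulVec_smul, hQ.smul, hc] at this
      calc Q ((g : Matrix ι ι F) *ᵥ v₀)
          = Q v₀ * ((Q v₀)⁻¹ * Q ((g : Matrix ι ι F) *ᵥ v₀)) := by
            rw [← mul_assoc, mul_inv_cancel₀ hQv, one_mul]
        _ = Q v₀ := by rw [this, mul_one]
  set μ := Q b
  have hadj : ∀ c d, c ∈ S → Q c = μ → Q d = μ → f c d ≠ 0 → d ∈ S := by
    intro c d hc hQc hQd hcd
    obtain ⟨k, hk⟩ := char2_sqrt (f c d)⁻¹
    set a := k • (c + d)
    have ha1 : Q a = 1 := by
      rw [hQ.smul, hk, hQ.add, hQc, hQd, CharTwo.add_self_eq_zero, zero_add, inv_mul_cancel₀ hcd]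
    have := hclos a c (hM a ha1) hc
    have e : f c a • a = c + d := by
      rw [hf.bilinear.smul_right, hf.bilinear.add_right, hf.alternating, zero_add, smul_smul]
      rw [show k * f c d * k = 1 by
        rw [mul_comm k, mul_assoc, ← sq, hk, mul_inv_cancel₀ hcd], one_smul]
    rw [e, ← add_assoc] at this
    have e2 : c + c = 0 := funext fun i => CharTwo.add_self_eq_zero (c i)
    rwa [e2, zero_add] at this
  have horbit : ∀ d, d ≠ 0 → Q d = μ → d ∈ S := by
    intro d hd0 hQd
    by_cases hbd : f b d = 0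
    · obtain ⟨z, -, hbz, hdz⟩ := exists_common_nonorth hf (nondegOn_top hf) (v := b) (w := d)
        trivial hb0 trivial hd0
      obtain ⟨y, hy, hQy⟩ := exists_perp_value hf hQ (S := {b, d, z})
        (by have := Finset.card_le_three (a := b) (b := d) (c := z); omega) (μ + Q z)
      have hz' : Q (z + y) = μ := by
        rw [hQ.add, hQy, hy z (by simp), add_zero, add_comm μ, ← add_assoc,
          CharTwo.add_self_eq_zero, zero_add]
      have h1 : z + y ∈ S := hadj b _ hbS rfl hz'
        (by rw [hf.bilinear.add_right, hy b (by simp), add_zero]; exact hbz)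
      refine hadj _ d h1 hz' hQd ?_
      rw [hf.skew, neg_ne_zero, hf.bilinear.add_right, hy d (by simp), add_zero]
      exact hdz
    · exact hadj b d hbS rfl hQd hbd
  have hall : ∀ z, z ≠ 0 → z ∈ S := by
    intro z hz
    by_cases hQz : Q z = 1
    · exact hM z hQz
    have hμ : 1 + μ ≠ 0 := fun h => hb1 (CharTwo.add_eq_zero.mp h).symm
    have hlam : 1 + Q z ≠ 0 := fun h => hQz (CharTwo.add_eq_zero.mp h).symm
    obtain ⟨s, hs⟩ := char2_sqrt ((1 + Q z) / (1 + μ))
    have hs0 : s ≠ 0 := by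
      intro h; rw [h, zero_pow two_ne_zero] at hs
      exact (div_ne_zero hlam hμ) hs.symm
    obtain ⟨y₀, hy₀⟩ := (hf.nondegenerate z hz).2
    set y := (s / f z y₀) • y₀
    have hzy : f z y = s := by
      rw [hf.bilinear.smul_right, div_mul_cancel₀ _ hy₀]
    obtain ⟨e, he, hQe⟩ := exists_perp_value hf hQ (S := {z, y})
      (by have := Finset.card_le_two (a := z) (b := y); omega) (μ + Q y)
    set b' := y + e
    have hb' : Q b' = μ := by
      rw [hQ.add, hQe, he y (by simp), add_zero, add_comm μ, ← add_assoc,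
        CharTwo.add_self_eq_zero, zero_add]
    have hzb : f z b' = s := by rw [hf.bilinear.add_right, hzy, he z (by simp), add_zero]
    have hb'0 : b' ≠ 0 := fun h => hs0 (by rw [← hzb, h, f_zero_right hf.bilinear])
    have ha : Q (z + s • b') = 1 := by
      rw [hQ.add, hQ.smul, hb', hf.bilinear.smul_right, hzb, ← sq]
      have : s ^ 2 * (1 + μ) = 1 + Q z := by rw [hs, div_mul_cancel₀ _ hμ]
      calc Q z + s ^ 2 * μ + s ^ 2 = Q z + s ^ 2 * (1 + μ) := by ring
        _ = Q z + (1 + Q z) := by rw [this]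
        _ = 1 + (Q z + Q z) := by ring
        _ = 1 := by rw [CharTwo.add_self_eq_zero, add_zero]
    have := hclos b' _ (horbit b' hb'0 hb') (hM _ ha)
    rw [hf.bilinear.add_left, hf.bilinear.smul_left, hf.alternating, mul_zero, add_zero, hzb,
      add_assoc] at this
    have e2 : s • b' + s • b' = 0 := funext fun i => CharTwo.add_self_eq_zero _
    rwa [e2, add_zero] at this
  refine isoGL_le_of_stv hf fun u hu c => ?_
  obtain ⟨r, hr⟩ := char2_sqrt c
  by_cases hr0 : r = 0
  · subst hr0
    rw [show c = 0 by rw [← hr]; simp, stv, zero_smul, tv_zero_right]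
    exact M.one_mem
  · have h := hall (r • u) (smul_ne_zero hr0 hu)
    have h' : stv f (r • u) 1 = stv f u c := by rw [stv_smul hf, one_mul, ← sq, hr]
    rwa [show (r • u ∈ S) = (stv f (r • u) 1 ∈ M) from rfl, h'] at h

theorem isMaximalIn_quadSimilarity (h8 : 8 ≤ Fintype.card ι) :
    Cfsg.Geo.IsMaximalIn (isoGL f) (Cfsg.Geo.quadSimilarityGroup Q ⊓ isoGL f) := by
  classical
  obtain ⟨j⟩ : Nonempty ι := Fintype.card_pos_iff.mp (by omega)
  refine isMaximalIn_of inf_le_right ?_ ?_
  · intro hle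
    obtain ⟨d, hd, hd1⟩ := exists_perp_value hf hQ (S := ∅) (by simp; omega) 1
    have hd0 : d ≠ 0 := fun h => by
      subst h
      have := hQ.smul 0 (0 : ι → F)
      simp [hd1] at this
    obtain ⟨y, hy⟩ := (hf.nondegenerate d hd0).1
    -- a singular vector not orthogonal to d
    obtain ⟨e, he, hQe⟩ := exists_perp_value hf hQ (S := {d, y})
      (by have := Finset.card_le_two (a := d) (b := y); omega) (Q y)
    set w := y + e
    have hw : Q w = 0 := by
      rw [hQ.add, hQe, he y (by simp), add_zero, CharTwo.add_self_eq_zero]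
    have hdw : f d w ≠ 0 := by
      rw [hf.bilinear.add_right, he d (by simp), add_zero, hf.skew]; simpa using hy
    obtain ⟨⟨c, hc⟩, -⟩ := hle (stv_mem_isoGL hf w 1)
    have h1 := hc w
    have hfix := hc d
    obtain ⟨e', he', hQe'⟩ := exists_perp_value hf hQ (S := {w}) (by simp; omega) 1
    have h2 := hc e'
    rw [quad_transvec_apply hf hQ, hw, hQe', hf.skew, he' w (by simp)] at h2
    rw [quad_transvec_apply hf hQ, hw, hd1, show (c : F) = 1 by simpa using h2.symm] at hfix
    simp [hdw] at hfix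
  intro M hHM hMK g hgM hgH
  refine isoGL_le_of_nonisometry hf hQ h8 (fun w hw => hHM ⟨⟨1, fun v => ?_⟩, stv_mem_isoGL hf w 1⟩)
    hgM (hMK hgM) ?_
  · rw [Units.val_one, one_mul, transvec_preserves hf hQ hw]
  · by_contra! h
    exact hgH ⟨⟨1, fun v => by rw [Units.val_one, one_mul, h v]⟩, hMK hgM⟩

end CfsgLib.Classical
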