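import Cfsg.Agent.Lib.ClassicalSymp
import Cfsg.Agent.Lib.ClassicalSymmIso
import Cfsg.Prelude.Def_GeometricClasses

/-! The orthogonal similarity group is maximal in SL (odd q). -/

set_option autoImplicit false

namespace CfsgLib.Classical

open Matrix

variable {F : Type*} [Field F] {ι : Type} [Fintype ι] [DecidableEq ι]
  {B : LinearMap.BilinForm F (ι → F)}

/-- the vector of the functional `x ↦ B x u` -/
noncomputable def bfun (B : LinearMap.BilinForm F (ι → F)) (u : ι → F) : ι → F :=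
  fun₂ (fun x y => B x y) u

lemma bfun_dot (u x : ι → F) : bfun B u ⬝ᵥ x = B x u :=
  fun₂_dotProduct (isBilinearForm_of_bilin B) u x

/-- Siegel element -/
noncomputable def pE (B : LinearMap.BilinForm F (ι → F)) (w a : ι → F) : GL ι F :=
  tv w (bfun B a + (2⁻¹ * B a a) • bfun B w) * tv a (-bfun B w)

variable (hB : ∀ x y, B x y = B y x)
include hB

lemma pE_mulVec (h2 : (2 : F) ≠ 0) {w a : ι → F} (hw : B w w = 0) (haw : B a w = 0) (x : ι → F) :
    (pE B w a : Matrix ι ι F) *ᵥ x = x + (B x a - 2⁻¹ * B a a * B x w) • w - B x w • a := by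
  have hwa : B w a = 0 := by rw [hB]; exact haw
  have h1 : (bfun B a + (2⁻¹ * B a a) • bfun B w) ⬝ᵥ w = 0 := by
    rw [add_dotProduct, smul_dotProduct, bfun_dot, bfun_dot, hwa, hw]; simp
  have h3 : (-bfun B w) ⬝ᵥ a = 0 := by rw [neg_dotProduct, bfun_dot, haw, neg_zero]
  rw [pE, Units.val_mul, ← mulVec_mulVec, tv_mulVec h3, tv_mulVec h1]
  simp only [add_dotProduct, smul_dotProduct, neg_dotProduct, bfun_dot, map_add, map_smul,
    LinearMap.add_apply, LinearMap.smul_apply, smul_eq_mul, haw]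
  match_scalars <;> field_simp <;> ring

omit hB in
lemma pE_mem_sl (w a : ι → F) : pE B w a ∈ Cfsg.Geo.specialLinear ι F :=
  Subgroup.mul_mem _ (tv_mem_specialLinear _ _) (tv_mem_specialLinear _ _)

lemma pE_preserves (h2 : (2 : F) ≠ 0) {w a : ι → F} (hw : B w w = 0) (haw : B a w = 0)
    (x y : ι → F) :
    B ((pE B w a : Matrix ι ι F) *ᵥ x) ((pE B w a : Matrix ι ι F) *ᵥ y) = B x y := by
  rw [pE_mulVec hB h2 hw haw, pE_mulVec hB h2 hw haw]
  simp only [map_add, map_sub, map_smul, LinearMap.add_apply, LinearMap.sub_apply,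
    LinearMap.smul_apply, smul_eq_mul, hw, haw, hB w a, hB w y, hB a y]
  field_simp
  ring

/-- the orthogonal similarity group is maximal -/
theorem isMaximalIn_orthSimilarity [Finite F] (hnd : SNondeg B ⊤) (h2 : (2 : F) ≠ 0)
    (h11 : 11 ≤ Fintype.card ι) (H : Subgroup (GL ι F))
    (hH : ∀ g, g ∈ H ↔ ∃ c : F, c ≠ 0 ∧ ∀ x y,
      B ((g : Matrix ι ι F) *ᵥ x) ((g : Matrix ι ι F) *ᵥ y) = c * B x y) :
    Cfsg.Geo.IsMaximalIn (Cfsg.Geo.specialLinear ι F) (H ⊓ Cfsg.Geo.specialLinear ι F) := by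
  classical
  have hV : Module.finrank F (ι → F) = Fintype.card ι := Module.finrank_pi F
  have hspan1 : ∀ a : ι → F, Module.finrank F (Submodule.span F {a}) ≤ 1 := fun a => by
    have := finrank_span_le_card (R := F) ({a} : Set (ι → F))
    simpa using this
  have hsurj : ∀ l : ι → F, ∃ y, bfun B y = l := by
    intro l
    obtain ⟨y, hy⟩ := sform_surjective hB hnd (dotProductBilin F F l)
    refine ⟨y, funext fun i => ?_⟩
    have h1 := LinearMap.congr_fun hy (Pi.single i 1)
    simpa [bfun, fun₂, hB (Pi.single i 1) y] using h1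
  obtain ⟨w₀, hw₀, -, hw₀n⟩ := exists_siso_orth hB hnd h2 ⊥ (by simp [hV]; omega)
  have hw₀0 : w₀ ≠ 0 := fun h => hw₀n (by rw [h]; exact Submodule.zero_mem _)
  refine isMaximalIn_of inf_le_right ?_ ?_
  · intro hle
    obtain ⟨z, hz, hzw⟩ := exists_siso_seeing hB hnd h2 (by omega) hw₀0
    obtain ⟨a, haw, haz⟩ := exists_sval hB hnd (Submodule.span F {w₀}) (q := z) (fun h => by
      obtain ⟨t, rfl⟩ := Submodule.mem_span_singleton.mp h
      exact hzw (by simp [hw₀])) 1
    have haw' : B a w₀ = 0 := haw w₀ (Submodule.mem_span_singleton_self _)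
    have hok : bfun B a ⬝ᵥ w₀ = 0 := by rw [bfun_dot, hB]; exact haw'
    obtain ⟨c, -, hc⟩ := (hH _).mp (hle (tv_mem_specialLinear w₀ (bfun B a))).1
    have h1 := hc z z
    simp only [tv_mulVec hok, bfun_dot, map_add, map_smul, LinearMap.add_apply,
      LinearMap.smul_apply, smul_eq_mul, hw₀, hz, hB z a, haz, hB w₀ z] at h1
    apply hzw
    apply (mul_eq_zero.mp (show (2 : F) * B z w₀ = 0 from ?_)).resolve_left h2
    linear_combination h1
  intro M hHM hMK g hgM hgH
  have hEM : ∀ w a, B w w = 0 → B a w = 0 → pE B w a ∈ M := fun w a hw ha =>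
    hHM ⟨(hH _).mpr ⟨1, one_ne_zero, fun x y => by rw [one_mul]; exact pE_preserves hB h2 hw ha x y⟩,
      pE_mem_sl w a⟩
  -- a conjugate outside the orthogonal group
  obtain ⟨w', a', hw', ha', hbad⟩ : ∃ w a, B w w = 0 ∧ B a w = 0 ∧ ∃ x y,
      B ((g * pE B w a * g⁻¹ : GL ι F).1 *ᵥ x) ((g * pE B w a * g⁻¹ : GL ι F).1 *ᵥ y) ≠ B x y := by
    by_contra! hall
    let G : Matrix ι ι F := g
    have hinv : ∀ w a, B w w = 0 → B a w = 0 → ∀ x y,
        B (G *ᵥ ((pE B w a : Matrix ι ι F) *ᵥ x)) (G *ᵥ ((pE B w a : Matrix ι ι F) *ᵥ y)) =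
          B (G *ᵥ x) (G *ᵥ y) := by
      intro w a hw ha x y
      have h := hall w a hw ha (G *ᵥ x) (G *ᵥ y)
      simp only [G, Units.val_mul, ← mulVec_mulVec, inv_mulVec_mulVec] at h
      exact h
    have hiso : ∀ w, B w w = 0 → w ≠ 0 →
        B (G *ᵥ w) (G *ᵥ w) = 0 ∧ ∀ x, B x w = 0 → B (G *ᵥ x) (G *ᵥ w) = 0 := by
      intro w hw hw0
      have hform : ∀ a x, B a w = 0 → B x w = 0 →
          (pE B w a : Matrix ι ι F) *ᵥ x = x + B x a • w := fun a x ha hx => by
        rw [pE_mulVec hB h2 hw ha, hx]; simp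
      have hself : B (G *ᵥ w) (G *ᵥ w) = 0 := by
        obtain ⟨n, -, hnw, hnn⟩ := exists_siso_orth hB hnd h2 (Submodule.span F {w})
          (by have := hspan1 w; omega)
        obtain ⟨a, haw, han⟩ := exists_sval hB hnd (Submodule.span F {w}) hnn 1
        have ha : B a w = 0 := haw w (Submodule.mem_span_singleton_self _)
        have hn : B n w = 0 := hnw w (Submodule.mem_span_singleton_self _)
        obtain ⟨m, hmw, hmn⟩ : ∃ m, B m w = 0 ∧ B m a = 1 := ⟨n, hn, by rw [hB]; exact han⟩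
        have h1 := hinv w a hw ha m m
        have h2' := hinv w a hw ha m w
        rw [hform a m ha hmw, hmn, one_smul] at h1 h2'
        rw [hform a w ha hw, hB w a, ha, zero_smul, add_zero] at h2'
        simp only [mulVec_add, map_add, LinearMap.add_apply, hB (G *ᵥ w) (G *ᵥ m)] at h1 h2'
        linear_combination h2'
      refine ⟨hself, fun x hx => ?_⟩
      by_cases hxw : x ∈ Submodule.span F {w}
      · obtain ⟨t, rfl⟩ := Submodule.mem_span_singleton.mp hxw
        rw [mulVec_smul, map_smul, LinearMap.smul_apply, hself, smul_zero]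
      obtain ⟨a, haw, hax⟩ := exists_sval hB hnd (Submodule.span F {w}) hxw 1
      have ha : B a w = 0 := haw w (Submodule.mem_span_singleton_self _)
      have h1 := hinv w a hw ha x x
      rw [hform a x ha hx, hB x a, hax, one_smul] at h1
      simp only [mulVec_add, map_add, LinearMap.add_apply, hB (G *ᵥ w) (G *ᵥ x), hself] at h1
      apply (mul_eq_zero.mp (show (2 : F) * B (G *ᵥ x) (G *ᵥ w) = 0 from ?_)).resolve_left h2
      linear_combination h1
    -- the multiplier at w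
    have hmult : ∀ w, B w w = 0 → w ≠ 0 → ∀ z, B z w ≠ 0 →
        ∀ x, B (G *ᵥ x) (G *ᵥ w) = B (G *ᵥ z) (G *ᵥ w) / B z w * B x w := by
      intro w hw hw0 z hz x
      have h := (hiso w hw hw0).2 (x - (B x w / B z w) • z) (by
        rw [map_sub, LinearMap.sub_apply, map_smul, LinearMap.smul_apply, smul_eq_mul,
          div_mul_cancel₀ _ hz, sub_self])
      rw [mulVec_sub, mulVec_smul, map_sub, LinearMap.sub_apply, map_smul, LinearMap.smul_apply,
        smul_eq_mul, sub_eq_zero] at h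
      rw [h]; ring
    obtain ⟨z₀, hz₀, hz₀w⟩ := exists_siso_seeing hB hnd h2 (by omega) hw₀0
    set c := B (G *ᵥ z₀) (G *ᵥ w₀) / B z₀ w₀ with hc
    have hsame : ∀ w, B w w = 0 → ∀ x, B (G *ᵥ x) (G *ᵥ w) = c * B x w := by
      intro w hw x
      by_cases hw0 : w = 0
      · subst hw0; simp
      obtain ⟨z, hz, hzw, hzw₀⟩ := exists_siso_common hB hnd h2 (by omega) hw hw0 hw₀ hw₀0
      have hz0 : z ≠ 0 := fun h => hzw (by rw [h]; simp)
      have hz' : ∀ y, B (G *ᵥ y) (G *ᵥ z) = c * B y z := by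
        intro y
        have hsym : B w₀ z ≠ 0 := by rw [hB]; exact hzw₀
        rw [hmult z hz hz0 w₀ hsym y, hB (G *ᵥ w₀), hmult w₀ hw₀ hw₀0 z₀ hz₀w z, ← hc, hB w₀ z,
          mul_div_assoc, div_self hzw₀, mul_one]
      rw [hmult w hw hw0 z hzw x, hB (G *ᵥ z), hz', hB w z, mul_div_assoc, div_self hzw, mul_one]
    have hall' : ∀ x y, B (G *ᵥ x) (G *ᵥ y) = c * B x y := by
      intro x y
      let S : Submodule F (ι → F) :=
        { carrier := {y | ∀ x, B (G *ᵥ x) (G *ᵥ y) = c * B x y}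
          add_mem' := fun {a b} ha hb x => by
            rw [mulVec_add, map_add, map_add, ha x, hb x]; ring
          zero_mem' := fun x => by simp
          smul_mem' := fun t a ha x => by
            rw [mulVec_smul, map_smul, map_smul, smul_eq_mul, ha x, smul_eq_mul]; ring }
      have hS := siso_induction hB hnd h2 (by omega) S (fun z hz x => hsame z hz x)
      exact (hS ▸ Submodule.mem_top : y ∈ S) x
    refine hgH ⟨(hH g).mpr ⟨c, fun hc0 => ?_, hall'⟩, hMK hgM⟩
    obtain ⟨x, -, hx⟩ := hnd (G *ᵥ w₀) trivial (fun h => hw₀0 (mulVec_injective g (by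
      simpa using h)))
    apply hx
    have h1 := hall' w₀ (((g⁻¹ : GL ι F) : Matrix ι ι F) *ᵥ x)
    rw [mulVec_inv_mulVec, hc0, zero_mul] at h1
    exact h1
  set e := g * pE B w' a' * g⁻¹ with he
  have heM : e ∈ M := M.mul_mem (M.mul_mem hgM (hEM w' a' hw' ha')) (M.inv_mem hgM)
  set u := (g : Matrix ι ι F) *ᵥ w'
  set cc := (g : Matrix ι ι F) *ᵥ a'
  have hefix : ∀ x, ∀ _ : B (((g⁻¹ : GL ι F) : Matrix ι ι F) *ᵥ x) w' = 0,
      ∀ _ : B (((g⁻¹ : GL ι F) : Matrix ι ι F) *ᵥ x) a' = 0, (e : Matrix ι ι F) *ᵥ x = x := by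
    intro x h1 h2'
    rw [he, Units.val_mul, Units.val_mul, ← mulVec_mulVec, ← mulVec_mulVec,
      pE_mulVec hB h2 hw' ha', h1, h2']
    simp [mulVec_inv_mulVec]
  have hefun : ∀ w, B u w = 0 → B cc w = 0 → ∀ x, B ((e : Matrix ι ι F) *ᵥ x) w = B x w := by
    intro w hu hc x
    rw [he, Units.val_mul, Units.val_mul, ← mulVec_mulVec, ← mulVec_mulVec,
      pE_mulVec hB h2 hw' ha', mulVec_sub, mulVec_add, mulVec_smul, mulVec_smul, mulVec_inv_mulVec]
    simp only [map_add, map_sub, map_smul, LinearMap.add_apply, LinearMap.sub_apply,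
      LinearMap.smul_apply, smul_eq_mul]
    change B x w + _ * B u w - _ * B cc w = B x w
    rw [hu, hc]; ring
  obtain ⟨p1, hp1⟩ := hsurj (Matrix.vecMul (bfun B w') ((g⁻¹ : GL ι F) : Matrix ι ι F))
  obtain ⟨p2, hp2⟩ := hsurj (Matrix.vecMul (bfun B a') ((g⁻¹ : GL ι F) : Matrix ι ι F))
  have hp1' : ∀ x, B x p1 = B (((g⁻¹ : GL ι F) : Matrix ι ι F) *ᵥ x) w' := fun x => by
    rw [← bfun_dot p1 x, hp1, ← dotProduct_mulVec, bfun_dot]
  have hp2' : ∀ x, B x p2 = B (((g⁻¹ : GL ι F) : Matrix ι ι F) *ᵥ x) a' := fun x => by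
    rw [← bfun_dot p2 x, hp2, ← dotProduct_mulVec, bfun_dot]
  let S4 : Submodule F (ι → F) := Submodule.span F (Set.range ![u, cc, p1, p2])
  have hS4 : Module.finrank F S4 ≤ 4 := le_trans (finrank_range_le_card _) (by simp)
  let K : Submodule F (ι → F) := S4.dualAnnihilator.comap B
  have hK : Module.finrank F K + Module.finrank F S4 = Module.finrank F (ι → F) :=
    finrank_sorth hB hnd S4
  obtain ⟨X, hXK, hX, hdim⟩ := exists_snondeg_big hB hnd K
  obtain ⟨v1, hv1, hv10, hv1v⟩ := exists_siso hB h2 hX (by omega)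
  obtain ⟨y₀, hy₀, hv1y⟩ := hX v1 hv1 hv10
  set v2 := y₀ + (-(B y₀ y₀) / (2 * B v1 y₀)) • v1 with hv2
  have hv2X : v2 ∈ X := X.add_mem hy₀ (X.smul_mem _ hv1)
  have hv12 : B v1 v2 ≠ 0 := by
    rw [hv2, map_add, map_smul, hv1v, smul_zero, add_zero]; exact hv1y
  have hXperp : ∀ v ∈ X, (e : Matrix ι ι F) *ᵥ v = v ∧
      ∀ x, B ((e : Matrix ι ι F) *ᵥ x) v = B x v := by
    intro v hv
    have h := fun i => (Submodule.mem_dualAnnihilator _).mp (hXK hv) (![u, cc, p1, p2] i)
      (Submodule.subset_span ⟨i, rfl⟩)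
    refine ⟨hefix v ?_ ?_, hefun v ?_ ?_⟩
    · rw [← hp1']; exact h 2
    · rw [← hp2']; exact h 3
    · rw [hB]; exact h 0
    · rw [hB]; exact h 1
  obtain ⟨hev1, hev1'⟩ := hXperp v1 hv1
  -- the commutator
  have hcomm : ∀ a b, B a v1 = 0 → B b v1 = 0 → tv v1 ((B ((e : Matrix ι ι F) *ᵥ a) b -
      B (((e⁻¹ : GL ι F) : Matrix ι ι F) *ᵥ b) a) • bfun B v1) ∈ M := by
    intro a b ha hb
    set X' := e * pE B v1 a * e⁻¹ with hX'
    set Y := pE B v1 b with hY
    set a₁ := (e : Matrix ι ι F) *ᵥ a with ha₁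
    have hXM : X' ∈ M := M.mul_mem (M.mul_mem heM (hEM v1 a hv1v ha)) (M.inv_mem heM)
    have hYM : Y ∈ M := hEM v1 b hv1v hb
    have hinvfun : ∀ x, B (((e⁻¹ : GL ι F) : Matrix ι ι F) *ᵥ x) v1 = B x v1 := fun x => by
      conv_rhs => rw [← mulVec_inv_mulVec e x, hev1']
    have hinvfix : ((e⁻¹ : GL ι F) : Matrix ι ι F) *ᵥ v1 = v1 := by
      conv_lhs => rw [← hev1]
      exact inv_mulVec_mulVec e v1
    have ha₁v : B a₁ v1 = 0 := by rw [ha₁, hev1', ha]
    have hXx : ∀ x, (X' : Matrix ι ι F) *ᵥ x =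
        x + (B (((e⁻¹ : GL ι F) : Matrix ι ι F) *ᵥ x) a - 2⁻¹ * B a a * B x v1) • v1
          - B x v1 • a₁ := by
      intro x
      rw [hX', Units.val_mul, Units.val_mul, ← mulVec_mulVec, ← mulVec_mulVec,
        pE_mulVec hB h2 hv1v ha, mulVec_sub, mulVec_add, mulVec_smul, mulVec_smul,
        mulVec_inv_mulVec, hev1, hinvfun]
    set k := B a₁ b - B (((e⁻¹ : GL ι F) : Matrix ι ι F) *ᵥ b) a with hk
    have hok : (k • bfun B v1) ⬝ᵥ v1 = 0 := by rw [smul_dotProduct, bfun_dot, hv1v, smul_zero]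
    have key : X' * Y = tv v1 (k • bfun B v1) * (Y * X') := by
      refine gl_ext_mulVec fun x => ?_
      simp only [Units.val_mul, ← mulVec_mulVec]
      rw [hXx x, pE_mulVec hB h2 hv1v hb x, hXx, pE_mulVec hB h2 hv1v hb, tv_mulVec hok,
        smul_dotProduct, bfun_dot]
      simp only [mulVec_add, mulVec_sub, mulVec_smul, hinvfix, map_add, map_sub, map_smul,
        LinearMap.add_apply, LinearMap.sub_apply, LinearMap.smul_apply, smul_eq_mul, hv1v, hb, ha₁v,
        hB v1 a, hB v1 b, ha, hk]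
      module
    rw [← eq_mul_inv_of_mul_eq (show tv v1 (k • bfun B v1) * (Y * X') = X' * Y from key.symm) |>.symm]
    exact M.mul_mem (M.mul_mem hXM hYM) (M.inv_mem (M.mul_mem hYM hXM))
  obtain ⟨a, b, ha, hb, hkne⟩ : ∃ a b, B a v1 = 0 ∧ B b v1 = 0 ∧
      B ((e : Matrix ι ι F) *ᵥ a) b - B (((e⁻¹ : GL ι F) : Matrix ι ι F) *ᵥ b) a ≠ 0 := by
    by_contra! hno
    obtain ⟨xx, yy, hxy⟩ := hbad
    apply hxy
    have hv21 : B v2 v1 ≠ 0 := by rw [hB]; exact hv12
    obtain ⟨hev2, hev2'⟩ := hXperp v2 hv2X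
    have hdec : ∀ x, ∃ (x' : ι → F) (t : F), B x' v1 = 0 ∧ x = x' + t • v2 := fun x =>
      ⟨x - (B x v1 / B v2 v1) • v2, B x v1 / B v2 v1, by
        simp [div_mul_cancel₀ _ hv21], by abel⟩
    obtain ⟨x', s, hx', rfl⟩ := hdec xx
    obtain ⟨y', t, hy', rfl⟩ := hdec yy
    have h0 := hno x' ((e : Matrix ι ι F) *ᵥ y') hx' (by rw [hev1']; exact hy')
    rw [inv_mulVec_mulVec, sub_eq_zero] at h0
    simp only [mulVec_add, mulVec_smul, hev2, map_add, map_smul, LinearMap.add_apply,
      LinearMap.smul_apply, smul_eq_mul, hev2', h0, hB v2 ((e : Matrix ι ι F) *ᵥ y'), hB v2 y',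
      hB y' x']
  -- transvections with centre v1
  have hT1 : ∀ c : F, tv v1 (c • bfun B v1) ∈ M := by
    intro c
    set k := B ((e : Matrix ι ι F) *ᵥ a) b - B (((e⁻¹ : GL ι F) : Matrix ι ι F) *ᵥ b) a
    have := hcomm a ((c / k) • b) ha (by simp [hb])
    rwa [show B ((e : Matrix ι ι F) *ᵥ a) ((c / k) • b) -
        B (((e⁻¹ : GL ι F) : Matrix ι ι F) *ᵥ ((c / k) • b)) a = c by
      rw [mulVec_smul, map_smul, map_smul, LinearMap.smul_apply, smul_eq_mul, smul_eq_mul, ← mul_sub,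
        div_mul_cancel₀ _ hkne]] at this
  -- at every isotropic vector
  have hconj : ∀ h : GL ι F, h ∈ M → (∀ x y, B ((h : Matrix ι ι F) *ᵥ x) ((h : Matrix ι ι F) *ᵥ y) = B x y) →
      ∀ (z w : ι → F) (c : F), B z w = 0 → tv z (c • bfun B w) ∈ M →
        tv ((h : Matrix ι ι F) *ᵥ z) (c • bfun B ((h : Matrix ι ι F) *ᵥ w)) ∈ M := by
    intro h hh hpres z w c hzw hM
    rw [← conj_tv h (a := z) (φ := c • bfun B w) (by rw [smul_dotProduct, bfun_dot, hzw, smul_zero])
      (fun x => by rw [smul_dotProduct, smul_dotProduct, bfun_dot, bfun_dot, hpres])]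
    exact M.mul_mem (M.mul_mem hh hM) (M.inv_mem hh)
  have hT : ∀ v, B v v = 0 → ∀ c : F, tv v (c • bfun B v) ∈ M := by
    intro v hv c
    by_cases hv0 : v = 0
    · subst hv0; rw [tv_zero_left]; exact M.one_mem
    obtain ⟨z, hz, hzw, hzv⟩ := exists_siso_common hB hnd h2 (by omega) hv1v hv10 hv hv0
    set k := B z v1 / B z v with hk
    set a := (B z v1)⁻¹ • (v1 - k • v) with haa
    have haz : B a z = 0 := by
      rw [haa, map_smul, map_sub, LinearMap.smul_apply, LinearMap.sub_apply, map_smul,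
        LinearMap.smul_apply, hB v1 z, hB v z, hk]
      simp only [smul_eq_mul]
      field_simp
      ring
    have hhv : (pE B z a : Matrix ι ι F) *ᵥ v1 = k • v := by
      rw [pE_mulVec hB h2 hz haz]
      have e0 : B v1 a - 2⁻¹ * B a a * B v1 z = 0 := by
        rw [hB v1 z, haa]
        simp only [map_smul, map_sub, LinearMap.smul_apply, LinearMap.sub_apply, smul_eq_mul, hv1v,
          hv, hB v v1]
        field_simp
        ring
      rw [e0, zero_smul, add_zero, hB v1 z, haa, smul_smul, mul_inv_cancel₀ hzw, one_smul]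
      abel
    have hk0 : k ≠ 0 := div_ne_zero hzw hzv
    have h1 := hconj _ (hEM z a hz haz) (pE_preserves hB h2 hz haz) v1 v1 (c / (k * k)) hv1v (hT1 _)
    rw [hhv] at h1
    have e1 : tv (k • v) ((c / (k * k)) • bfun B (k • v)) = tv v (c • bfun B v) := by
      have hok : ((c / (k * k)) • bfun B (k • v)) ⬝ᵥ (k • v) = 0 := by
        simp [bfun_dot, hv]
      refine gl_ext_mulVec fun x => ?_
      rw [tv_mulVec hok, tv_mulVec (by rw [smul_dotProduct, bfun_dot, hv, smul_zero]),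
        smul_dotProduct, smul_dotProduct, bfun_dot, bfun_dot, map_smul, smul_eq_mul, smul_eq_mul,
        smul_smul]
      congr 2
      rw [smul_eq_mul]
      field_simp
    rwa [e1] at h1
  -- orthogonal isotropic pairs
  have hpair : ∀ z w, B z z = 0 → B w w = 0 → B z w = 0 → ∀ c : F, tv z (c • bfun B w) ∈ M := by
    intro z w hz hw hzw c
    by_cases hzs : z ∈ Submodule.span F {w}
    · obtain ⟨t, rfl⟩ := Submodule.mem_span_singleton.mp hzs
      have := hT w hw (t * c)
      convert this using 1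
      refine gl_ext_mulVec fun x => ?_
      rw [tv_mulVec (by simp [bfun_dot, hw]), tv_mulVec (by simp [bfun_dot, hw])]
      simp only [smul_dotProduct, bfun_dot, smul_eq_mul, smul_smul]
      congr 2
      ring
    suffices h : ∀ z, B z z = 0 → B z w = 0 → z ∉ Submodule.span F {w} →
        tv z ((-2 : F) • bfun B w) ∈ M by
      by_cases hc : c = 0
      · subst hc; rw [zero_smul, tv_zero_right]; exact M.one_mem
      have h1 := h ((-c / 2) • z) (by simp [hz]) (by simp [hzw]) (fun hm => hzs (by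
        have hne : -c / 2 ≠ 0 := div_ne_zero (neg_ne_zero.mpr hc) h2
        have := Submodule.smul_mem _ (-c / 2)⁻¹ hm
        rwa [smul_smul, inv_mul_cancel₀ hne, one_smul] at this))
      convert h1 using 1
      refine gl_ext_mulVec fun x => ?_
      rw [tv_mulVec (by simp [bfun_dot, hzw]), tv_mulVec (by simp [bfun_dot, hzw])]
      simp only [smul_dotProduct, bfun_dot, smul_eq_mul, smul_smul]
      congr 2
      field_simp
    intro z hz hzw hzs
    obtain ⟨a, haS, haz⟩ := exists_sval hB hnd (Submodule.span F {w}) hzs 1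
    have haw : B a w = 0 := haS w (Submodule.mem_span_singleton_self _)
    have hz1 : bfun B z ⬝ᵥ z = 0 := by rw [bfun_dot, hz]
    have hTz : tv z (bfun B z) ∈ M := by simpa using hT z hz 1
    have hw1 : bfun B w ⬝ᵥ w = 0 := by rw [bfun_dot, hw]
    have hzw2 : ((-2 : F) • bfun B w) ⬝ᵥ z = 0 := by rw [smul_dotProduct, bfun_dot, hzw, smul_zero]
    have haz' : B (a - z) w = 0 := by simp [haw, hzw]
    have key : tv z (bfun B z) * pE B w a =
        pE B w (a - z) * (tv w (bfun B w) * tv z ((-2 : F) • bfun B w)) * tv z (bfun B z) := by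
      refine gl_ext_mulVec fun x => ?_
      simp only [Units.val_mul, ← mulVec_mulVec]
      rw [pE_mulVec hB h2 hw haw, tv_mulVec hz1, tv_mulVec hz1, tv_mulVec hzw2, tv_mulVec hw1,
        pE_mulVec hB h2 hw haz']
      simp only [smul_dotProduct, bfun_dot, map_add, map_sub, map_smul, LinearMap.add_apply,
        LinearMap.sub_apply, LinearMap.smul_apply, smul_eq_mul, hz, hw, hzw, haw, haz, hB w z,
        hB w a, hB z a]
      match_scalars <;> field_simp <;> ring
    have hTw : tv w (bfun B w) ∈ M := by simpa using hT w hw 1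
    have e1 : tv z ((-2 : F) • bfun B w) =
        (tv w (bfun B w))⁻¹ * ((pE B w (a - z))⁻¹ * (tv z (bfun B z) * pE B w a * (tv z (bfun B z))⁻¹)) := by
      rw [key]; group
    rw [e1]
    exact M.mul_mem (M.inv_mem hTw) (M.mul_mem (M.inv_mem (hEM w _ hw haz'))
      (M.mul_mem (M.mul_mem hTz (hEM w a hw haw)) (M.inv_mem hTz)))
  -- all transvections
  have hfun_add : ∀ y y', bfun B (y + y') = bfun B y + bfun B y' := fun y y' => by
    funext i; simp [bfun, fun₂]
  have hfun_smul : ∀ (t : F) y, bfun B (t • y) = t • bfun B y := fun t y => by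
    funext i; simp [bfun, fun₂]
  have hstep : ∀ z y, B z z = 0 → B y z = 0 → ∀ c : F, tv z (c • bfun B y) ∈ M := by
    intro z y hz hy
    let S : Submodule F (ι → F) :=
      { carrier := {y | B y z = 0 ∧ ∀ c : F, tv z (c • bfun B y) ∈ M}
        add_mem' := fun {p q} hp hq => ⟨by simp [hp.1, hq.1], fun c => by
          rw [hfun_add, smul_add, ← tv_mul_right]
          · exact M.mul_mem (hp.2 c) (hq.2 c)
          · rw [smul_dotProduct, bfun_dot, hB, hp.1, smul_zero]
          · rw [smul_dotProduct, bfun_dot, hB, hq.1, smul_zero]⟩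
        zero_mem' := ⟨by simp, fun c => by
          have : bfun B (0 : ι → F) = 0 := by funext i; simp [bfun, fun₂]
          rw [this, smul_zero, tv_zero_right]; exact M.one_mem⟩
        smul_mem' := fun t p hp => ⟨by simp [hp.1], fun c => by
          rw [hfun_smul, smul_smul]; exact hp.2 _⟩ }
    exact (siso_induction_perp hB hnd h2 (by omega) z S
      (fun w hw hwz => ⟨hwz, hpair z w hz hw (by rw [hB]; exact hwz)⟩) y hy).2
  refine specialLinear_le_of_tv fun z φ _ hφ => ?_
  obtain ⟨y, rfl⟩ := hsurj φ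
  rw [bfun_dot] at hφ
  let S : Submodule F (ι → F) :=
    { carrier := {z | B z y = 0 ∧ ∀ c : F, tv z (c • bfun B y) ∈ M}
      add_mem' := fun {p q} hp hq => ⟨by simp [hp.1, hq.1], fun c => by
        rw [← tv_mul_left]
        · exact M.mul_mem (hp.2 c) (hq.2 c)
        · rw [smul_dotProduct, bfun_dot, hp.1, smul_zero]
        · rw [smul_dotProduct, bfun_dot, hq.1, smul_zero]⟩
      zero_mem' := ⟨by simp, fun c => by rw [tv_zero_left]; exact M.one_mem⟩
      smul_mem' := fun t p hp => ⟨by simp [hp.1], fun c => by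
        have h1 := hp.2 (t * c)
        convert h1 using 1
        refine gl_ext_mulVec fun x => ?_
        rw [tv_mulVec (by simp [bfun_dot, hp.1]), tv_mulVec (by simp [bfun_dot, hp.1])]
        simp only [smul_dotProduct, bfun_dot, smul_eq_mul, smul_smul]
        congr 2
        ring⟩ }
  have := (siso_induction_perp hB hnd h2 (by omega) y S
    (fun z hz hzy => ⟨hzy, hstep z y hz (by rw [hB]; exact hzy)⟩) z hφ).2 1
  rwa [one_smul] at this

end CfsgLib.Classical
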