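import Cfsg.Agent.Lib.ClassicalOrthParity

/-! The stabiliser of a pair of complementary totally singular halves in `Ω`. -/

set_option autoImplicit false

namespace CfsgLib.Classical

open Matrix

variable {ι : Type} [Fintype ι] [DecidableEq ι] {F : Type*} [Field F] {Q : (ι → F) → F}
variable (hQ : Cfsg.Geo.IsNondegenerateQuadraticForm Q)
include hQ

local notation "pf" => QuadraticMap.polar Q
local notation:max "act" g:max => Matrix.toLin' ((g : GL ι F) : Matrix ι ι F)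

omit hQ in
lemma decomp_two {U₀ U₁ : Submodule F (ι → F)} (htop : U₀ ⊔ U₁ = ⊤) (x : ι → F) :
    ∃ a ∈ U₀, ∃ b ∈ U₁, x = a + b := by
  obtain ⟨a, ha, b, hb, hab⟩ := Submodule.mem_sup.mp (htop ▸ Submodule.mem_top : x ∈ U₀ ⊔ U₁)
  exact ⟨a, ha, b, hb, hab.symm⟩

/-- a vector of `U₁` with prescribed products on part of `U₀` -/
lemma exists_in_half {U₀ U₁ : Submodule F (ι → F)} (h₀ : Cfsg.Geo.IsTotallySingularQuad Q U₀)
    (htop : U₀ ⊔ U₁ = ⊤) {S : Submodule F (ι → F)} (hS : S ≤ U₀) {q : ι → F} (hq : q ∈ U₀)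
    (hqS : q ∉ S) : ∃ a ∈ U₁, (∀ s ∈ S, pf a s = 0) ∧ pf a q = 1 := by
  obtain ⟨c, hcS, hcq⟩ := exists_qval hQ S hqS 1
  obtain ⟨a₀, ha₀, a, ha, rfl⟩ := decomp_two htop c
  refine ⟨a, ha, fun s hs => ?_, ?_⟩
  · have := hcS s hs
    rwa [hQ.polar_bilinear.add_left, ts_pf hQ h₀ ha₀ (hS hs), zero_add] at this
  · rwa [hQ.polar_bilinear.add_left, ts_pf hQ h₀ ha₀ hq, zero_add] at hcq

lemma decomp_finrank {U₀ U₁ : Submodule F (ι → F)} (hdisj : U₀ ⊓ U₁ = ⊥) (htop : U₀ ⊔ U₁ = ⊤) :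
    Module.finrank F U₀ + Module.finrank F U₁ = Fintype.card ι := by
  have := Submodule.finrank_sup_add_finrank_inf_eq U₀ U₁
  rw [hdisj, htop, finrank_bot, finrank_top, Module.finrank_pi] at this
  omega

/-- two element decompositions -/
lemma mem_decomp_two_iff {D : Fin 2 → Submodule F (ι → F)} {g : GL ι F} :
    g ∈ Cfsg.Geo.decompositionStabilizer D ↔
      ((∀ x ∈ D 0, (g : Matrix ι ι F) *ᵥ x ∈ D 0) ∧ (∀ x ∈ D 1, (g : Matrix ι ι F) *ᵥ x ∈ D 1) ∨
       (∀ x ∈ D 0, (g : Matrix ι ι F) *ᵥ x ∈ D 1) ∧ (∀ x ∈ D 1, (g : Matrix ι ι F) *ᵥ x ∈ D 0)) ∧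
        ∃ σ : Equiv.Perm (Fin 2), ∀ i, Module.finrank F (D i) = Module.finrank F (D (σ i)) ∧
          ∀ x ∈ D i, (g : Matrix ι ι F) *ᵥ x ∈ D (σ i) := by
  constructor
  · rintro ⟨σ, hσ⟩
    have hmap : ∀ i, ∀ x ∈ D i, (g : Matrix ι ι F) *ᵥ x ∈ D (σ i) := fun i x hx => by
      rw [← hσ i, ← Matrix.toLin'_apply]; exact Submodule.mem_map_of_mem hx
    refine ⟨?_, σ, fun i => ⟨?_, hmap i⟩⟩
    · rcases (Fin.exists_fin_two.mp ⟨σ 0, rfl⟩ : σ 0 = 0 ∨ σ 0 = 1) with h | h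
      · have h1 : σ 1 = 1 := by
          rcases (Fin.exists_fin_two.mp ⟨σ 1, rfl⟩ : σ 1 = 0 ∨ σ 1 = 1) with h' | h'
          · exact absurd (σ.injective (h'.trans h.symm)) (by decide)
          · exact h'
        exact Or.inl ⟨fun x hx => h ▸ hmap 0 x hx, fun x hx => h1 ▸ hmap 1 x hx⟩
      · have h1 : σ 1 = 0 := by
          rcases (Fin.exists_fin_two.mp ⟨σ 1, rfl⟩ : σ 1 = 0 ∨ σ 1 = 1) with h' | h'
          · exact h'
          · exact absurd (σ.injective (h'.trans h.symm)) (by decide)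
        exact Or.inr ⟨fun x hx => h ▸ hmap 0 x hx, fun x hx => h1 ▸ hmap 1 x hx⟩
    · rw [← hσ i, ← (Submodule.equivMapOfInjective _ (fun a b h => mulVec_injective g
        (by simpa [Matrix.toLin'_apply] using h)) (D i)).finrank_eq]
  · rintro ⟨-, σ, hσ⟩
    refine ⟨σ, fun i => Submodule.eq_of_le_of_finrank_eq ?_ ?_⟩
    · rintro _ ⟨x, hx, rfl⟩
      rw [Matrix.toLin'_apply]
      exact (hσ i).2 x hx
    · rw [← (Submodule.equivMapOfInjective _ (fun a b h => mulVec_injective g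
        (by simpa [Matrix.toLin'_apply] using h)) (D i)).finrank_eq]
      exact (hσ i).1

variable [Finite F] (h7 : 7 ≤ Fintype.card ι)
include h7

/-- `k` odd: the pair stabiliser fixes each half, so is not maximal -/
theorem exists_between_pair {k : ℕ} (hk : 2 * k = Fintype.card ι) (hko : Odd k)
    {D : Fin 2 → Submodule F (ι → F)} (hD : Cfsg.Geo.IsMDecomposition k D)
    (hts : ∀ i, Cfsg.Geo.IsTotallySingularQuad Q (D i)) :
    ∃ K : Subgroup (GL ι F), Cfsg.Geo.decompositionStabilizer D ⊓ Cfsg.Geo.omegaGL Q < K ∧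
      K < Cfsg.Geo.omegaGL Q := by
  have hdisj : D 0 ⊓ D 1 = ⊥ := (hD.indep.pairwiseDisjoint (by decide : (0 : Fin 2) ≠ 1)).eq_bot
  have htop : D 0 ⊔ D 1 = ⊤ := by
    rw [← hD.iSup_eq_top]
    refine le_antisymm (sup_le (le_iSup D 0) (le_iSup D 1)) (iSup_le fun i => ?_)
    rcases (Fin.exists_fin_two.mp ⟨i, rfl⟩ : i = 0 ∨ i = 1) with rfl | rfl
    · exact le_sup_left
    · exact le_sup_right
  have hhalf : ∀ i, IsHalfTS (Q := Q) (D i) := fun i => ⟨hts i, by rw [hD.finrank_eq]; exact hk⟩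
  obtain ⟨u, hu, hu0⟩ := Submodule.exists_mem_ne_zero_of_ne_bot
    (show D 0 ≠ ⊥ from fun h => by have := hD.finrank_eq 0; rw [h, finrank_bot] at this; omega)
  obtain ⟨a, ha, hau⟩ : ∃ a ∈ D 0, a ∉ Submodule.span F {u} := by
    by_contra! h
    have := Submodule.finrank_mono (show D 0 ≤ Submodule.span F {u} from h)
    rw [hD.finrank_eq, finrank_span_singleton hu0] at this
    omega
  have hau' : pf a u = 0 := ts_pf hQ (hts 0) ha hu
  refine exists_between hQ h7 (X := D 0)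
    (fun h => by have := hD.finrank_eq 0; rw [h, finrank_bot] at this; omega)
    (fun h => by
      have := hD.finrank_eq 0; rw [h, finrank_top, Module.finrank_pi] at this; omega)
    (fun g hgD hg => ?_) (qE_mem_omega hQ (by omega) (hts 0 u hu) hau')
    (qE_maps_of_mem hQ (hts 0 u hu) hau' (Or.inl ⟨hu, Or.inr ha⟩)) (fun h => ?_)
  · rcases (mem_decomp_two_iff hQ).mp hgD |>.1 with ⟨h0, -⟩ | ⟨h0, -⟩
    · exact mem_stab_of_maps _ g h0
    · exfalso
      have hle : (D 0).map (act g) ≤ D 1 := by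
        rintro _ ⟨x, hx, rfl⟩; rw [Matrix.toLin'_apply]; exact h0 x hx
      have hpar := parity_omega hQ h7 hg (hhalf 0) (hhalf 0)
      rw [inf_idem, hD.finrank_eq, le_bot_iff.mp ((inf_le_inf_left _ hle).trans_eq hdisj),
        finrank_bot] at hpar
      rw [Nat.odd_iff] at hko
      omega
  · obtain ⟨y, hy, -, hyu⟩ := exists_in_half hQ (hts 0) htop (S := Submodule.span F {a})
      (Submodule.span_le.mpr (Set.singleton_subset_iff.mpr ha)) hu (fun h' => by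
        obtain ⟨t, ht⟩ := Submodule.mem_span_singleton.mp h'
        by_cases ht0 : t = 0
        · exact hu0 (by rw [← ht, ht0, zero_smul])
        · exact hau (Submodule.mem_span_singleton.mpr ⟨t⁻¹, by rw [← ht, inv_smul_smul₀ ht0]⟩))
    have hyE := qE_mulVec hQ (hts 0 u hu) hau' y
    rw [hyu, hts 0 a ha, zero_mul, sub_zero, one_smul] at hyE
    have hdiff : pf y a • u - a ∈ D 0 := (D 0).sub_mem ((D 0).smul_mem _ hu) ha
    rcases (mem_decomp_two_iff hQ).mp h |>.1 with ⟨-, h1⟩ | ⟨h0, -⟩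
    · have h2 := (D 1).sub_mem (h1 y hy) hy
      rw [hyE, show y + pf y a • u - a - y = pf y a • u - a by abel] at h2
      have h3 : pf y a • u - a ∈ D 0 ⊓ D 1 := ⟨hdiff, h2⟩
      rw [hdisj, Submodule.mem_bot, sub_eq_zero] at h3
      exact hau (h3 ▸ Submodule.smul_mem _ _ (Submodule.mem_span_singleton_self u))
    · have h2 := h0 u hu
      rw [qE_mulVec hQ (hts 0 u hu) hau', pf_self hQ, hts 0 u hu, pf_comm hQ u a, hau'] at h2
      have h3 : u ∈ D 0 ⊓ D 1 := ⟨hu, by simpa using h2⟩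
      rw [hdisj, Submodule.mem_bot] at h3
      exact hu0 h3

/-- an element of `Ω` exchanging the halves -/
lemma exists_swap_half {U₀ U₁ : Submodule F (ι → F)} {k : ℕ} (hke : Even k)
    (h₀ : Cfsg.Geo.IsTotallySingularQuad Q U₀) (h₁ : Cfsg.Geo.IsTotallySingularQuad Q U₁)
    (hd₀ : Module.finrank F U₀ = k) (hd₁ : Module.finrank F U₁ = k)
    (hdisj : U₀ ⊓ U₁ = ⊥) (htop : U₀ ⊔ U₁ = ⊤) :
    ∃ h ∈ Cfsg.Geo.omegaGL Q, (∀ x ∈ U₀, (h : Matrix ι ι F) *ᵥ x ∈ U₁) ∧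
      (∀ x ∈ U₁, (h : Matrix ι ι F) *ᵥ x ∈ U₀) := by
  obtain ⟨d₀, hd0⟩ : ∃ d, Q d = 1 := by
    obtain ⟨u, hu, hu0⟩ := Submodule.exists_mem_ne_zero_of_ne_bot
      (show U₀ ≠ ⊥ from fun h => by
        have h' := decomp_finrank hQ hdisj htop; rw [h, finrank_bot] at hd₀ h'; omega)
    obtain ⟨a, ha, -, hau⟩ := exists_in_half hQ h₀ htop (S := ⊥) bot_le hu (by simpa using hu0)
    exact ⟨u + a, by rw [q_add hQ, h₀ u hu, h₁ a ha, pf_comm hQ, hau]; ring⟩
  have hd00 : Q d₀ ≠ 0 := by rw [hd0]; exact one_ne_zero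
  suffices h : ∀ j ≤ k, ∃ A B : Submodule F (ι → F), A ≤ U₀ ∧ B ≤ U₁ ∧
      Module.finrank F A = j ∧ Module.finrank F B = j ∧
      ∃ h ∈ Cfsg.isometryGroup F Q, (∀ x ∈ A, (h : Matrix ι ι F) *ᵥ x ∈ B) ∧
        (∀ x ∈ B, (h : Matrix ι ι F) *ᵥ x ∈ A) ∧
        (∀ x, (∀ a ∈ A, pf x a = 0) → (∀ b ∈ B, pf x b = 0) → (h : Matrix ι ι F) *ᵥ x = x) ∧
        (Even j → h ∈ Cfsg.Geo.omegaGL Q) ∧
        (¬ Even j → h * qR hQ d₀ ∈ Cfsg.Geo.omegaGL Q) by
    obtain ⟨A, B, hA, hB, hAd, hBd, h, -, hhA, hhB, -, he, -⟩ := h k le_rfl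
    rw [Submodule.eq_of_le_of_finrank_eq hA (hAd.trans hd₀.symm),
      Submodule.eq_of_le_of_finrank_eq hB (hBd.trans hd₁.symm)] at hhA hhB
    exact ⟨h, he hke, hhA, hhB⟩
  intro j
  induction j with
  | zero =>
    exact fun _ => ⟨⊥, ⊥, bot_le, bot_le, finrank_bot F _, finrank_bot F _, 1, Subgroup.one_mem _,
      fun x hx => by simpa using hx, fun x hx => by simpa using hx, fun x _ _ => by simp,
      fun _ => Subgroup.one_mem _, fun h => absurd (Even.zero) h⟩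
  | succ j ih =>
    intro hj
    obtain ⟨A, B, hA, hB, hAd, hBd, h, hI, hhA, hhB, hfix, he, ho⟩ := ih (by omega)
    obtain ⟨e, ⟨he₀, heB⟩, heA⟩ : ∃ e ∈ U₀ ⊓ qorth hQ B, e ∉ A := by
      by_contra! hle
      obtain ⟨x, hx, hx0⟩ := Submodule.exists_mem_ne_zero_of_ne_bot
        (show U₀ ⊓ qorth hQ B ≠ ⊥ from fun h0 => by
          have h1 := finrank_inf_ge U₀ (qorth hQ B); have h2 := finrank_qorth hQ B
          rw [h0, finrank_bot] at h1; omega)
      have hxA := hle x hx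
      have hxf := hfix x (fun a ha => ts_pf hQ h₀ hx.1 (hA ha))
        (fun b hb => (mem_qorth hQ).mp hx.2 b hb)
      have : x ∈ U₀ ⊓ U₁ := ⟨hx.1, hxf ▸ hB (hhA x hxA)⟩
      rw [hdisj, Submodule.mem_bot] at this
      exact hx0 this
    obtain ⟨f, hf, hfA, hfe⟩ := exists_in_half hQ h₀ htop hA he₀ heA
    have heB' : ∀ b ∈ B, pf e b = 0 := fun b hb => (mem_qorth hQ).mp heB b hb
    obtain ⟨d, hd⟩ : ∃ d, d = e + f := ⟨_, rfl⟩
    have hQd : Q d = 1 := by rw [hd, q_add hQ, h₀ e he₀, h₁ f hf, pf_comm hQ, hfe]; ring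
    have hQd0 : Q d ≠ 0 := by rw [hQd]; exact one_ne_zero
    have hre : (qR hQ d : Matrix ι ι F) *ᵥ e = -f := by
      rw [qR_mulVec hQ hQd0, hQd, hd, hQ.polar_bilinear.add_right, pf_self hQ, h₀ e he₀,
        pf_comm hQ, hfe]
      module
    have hrf : (qR hQ d : Matrix ι ι F) *ᵥ f = -e := by
      rw [qR_mulVec hQ hQd0, hQd, hd, hQ.polar_bilinear.add_right, pf_self hQ f, h₁ f hf, hfe]
      module
    have hrfix : ∀ x, pf x e = 0 → pf x f = 0 → (qR hQ d : Matrix ι ι F) *ᵥ x = x := by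
      intro x h1 h2
      rw [qR_mulVec hQ hQd0, hd, hQ.polar_bilinear.add_right, h1, h2]
      simp
    have hfB : f ∉ B := fun h' => by
      have := heB' f h'
      rw [pf_comm hQ, hfe] at this
      exact one_ne_zero this
    have hhe : (h : Matrix ι ι F) *ᵥ e = e := hfix e (fun a ha => ts_pf hQ h₀ he₀ (hA ha)) heB'
    have hhf : (h : Matrix ι ι F) *ᵥ f = f := hfix f hfA (fun b hb => ts_pf hQ h₁ hf (hB hb))
    refine ⟨A ⊔ Submodule.span F {e}, B ⊔ Submodule.span F {f},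
      sup_le hA (Submodule.span_le.mpr (Set.singleton_subset_iff.mpr he₀)),
      sup_le hB (Submodule.span_le.mpr (Set.singleton_subset_iff.mpr hf)),
      by rw [finrank_sup_span heA, hAd], by rw [finrank_sup_span hfB, hBd],
      h * qR hQ d, Subgroup.mul_mem _ hI (qR_mem_isometry hQ hQd0), ?_, ?_, ?_, ?_, ?_⟩
    · intro x hx
      obtain ⟨a, ha, z, hz, rfl⟩ := Submodule.mem_sup.mp hx
      obtain ⟨t, rfl⟩ := Submodule.mem_span_singleton.mp hz
      rw [mulVec_add, mulVec_smul, Units.val_mul, ← mulVec_mulVec, ← mulVec_mulVec, hre,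
        hrfix a (ts_pf hQ h₀ (hA ha) he₀) (by rw [pf_comm hQ]; exact hfA a ha), mulVec_neg, hhf]
      exact Submodule.add_mem_sup (hhA a ha)
        (Submodule.smul_mem _ _ (Submodule.neg_mem _ (Submodule.mem_span_singleton_self f)))
    · intro x hx
      obtain ⟨b, hb, z, hz, rfl⟩ := Submodule.mem_sup.mp hx
      obtain ⟨t, rfl⟩ := Submodule.mem_span_singleton.mp hz
      rw [mulVec_add, mulVec_smul, Units.val_mul, ← mulVec_mulVec, ← mulVec_mulVec, hrf,
        hrfix b (by rw [pf_comm hQ]; exact heB' b hb) (ts_pf hQ h₁ (hB hb) hf), mulVec_neg, hhe]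
      exact Submodule.add_mem_sup (hhB b hb)
        (Submodule.smul_mem _ _ (Submodule.neg_mem _ (Submodule.mem_span_singleton_self e)))
    · intro x hxA hxB
      rw [Units.val_mul, ← mulVec_mulVec, hrfix x
        (hxA e (Submodule.mem_sup_right (Submodule.mem_span_singleton_self e)))
        (hxB f (Submodule.mem_sup_right (Submodule.mem_span_singleton_self f))),
        hfix x (fun a ha => hxA a (Submodule.mem_sup_left ha))
          (fun b hb => hxB b (Submodule.mem_sup_left hb))]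
    · intro hev
      have h1 := ho (fun h' => by
        rw [Nat.even_iff] at hev h'; omega)
      have h2 := qR_mul_mem_omega hQ h7 hd00 (hQd.trans hd0.symm)
      have := Subgroup.mul_mem _ h1 h2
      rwa [mul_assoc, ← mul_assoc (qR hQ d₀), show qR hQ d₀ * qR hQ d₀ = 1 by
        nth_rewrite 1 [← qR_inv hQ d₀]; exact inv_mul_cancel _, one_mul] at this
    · intro hodd
      rw [mul_assoc]
      exact Subgroup.mul_mem _ (he (by rw [Nat.even_iff] at hodd ⊢; omega))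
        (qR_mul_mem_omega hQ h7 hQd0 (hd0.trans hQd.symm))

/-- `k` even: the pair stabiliser is maximal -/
theorem isMaximalIn_qPair (h13 : 13 ≤ Fintype.card ι) {k : ℕ} (hk : 2 * k = Fintype.card ι) (hke : Even k)
    {D : Fin 2 → Submodule F (ι → F)} (hD : Cfsg.Geo.IsMDecomposition k D)
    (hts : ∀ i, Cfsg.Geo.IsTotallySingularQuad Q (D i)) :
    Cfsg.Geo.IsMaximalIn (Cfsg.Geo.omegaGL Q)
      (Cfsg.Geo.decompositionStabilizer D ⊓ Cfsg.Geo.omegaGL Q) := by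
  have hdisj : D 0 ⊓ D 1 = ⊥ := (hD.indep.pairwiseDisjoint (by decide : (0 : Fin 2) ≠ 1)).eq_bot
  have hdisj' : D 1 ⊓ D 0 = ⊥ := inf_comm (D 0) (D 1) ▸ hdisj
  have htop : D 0 ⊔ D 1 = ⊤ := by
    rw [← hD.iSup_eq_top]
    refine le_antisymm (sup_le (le_iSup D 0) (le_iSup D 1)) (iSup_le fun i => ?_)
    rcases (Fin.exists_fin_two.mp ⟨i, rfl⟩ : i = 0 ∨ i = 1) with rfl | rfl
    · exact le_sup_left
    · exact le_sup_right
  have htop' : D 1 ⊔ D 0 = ⊤ := sup_comm (D 0) (D 1) ▸ htop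
  have hd₀ := hD.finrank_eq 0
  have hd₁ := hD.finrank_eq 1
  obtain ⟨U₀, hU₀⟩ : ∃ U, U = D 0 := ⟨_, rfl⟩
  obtain ⟨U₁, hU₁⟩ : ∃ U, U = D 1 := ⟨_, rfl⟩
  have h₀ : Cfsg.Geo.IsTotallySingularQuad Q U₀ := hU₀ ▸ hts 0
  have h₁ : Cfsg.Geo.IsTotallySingularQuad Q U₁ := hU₁ ▸ hts 1
  have hDmem : ∀ g : GL ι F, (∀ x ∈ U₀, (g : Matrix ι ι F) *ᵥ x ∈ U₀) →
      (∀ x ∈ U₁, (g : Matrix ι ι F) *ᵥ x ∈ U₁) → g ∈ Cfsg.Geo.decompositionStabilizer D := by
    intro g h0 h1
    refine (mem_decomp_two_iff hQ).mpr ⟨Or.inl ⟨hU₀ ▸ h0, hU₁ ▸ h1⟩, 1, fun i => ⟨rfl, ?_⟩⟩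
    rcases (Fin.exists_fin_two.mp ⟨i, rfl⟩ : i = 0 ∨ i = 1) with rfl | rfl
    · exact hU₀ ▸ h0
    · exact hU₁ ▸ h1
  have hHE : ∀ u ∈ U₀, ∀ a ∈ U₁, pf a u = 0 →
      qE Q u a ∈ Cfsg.Geo.decompositionStabilizer D ⊓ Cfsg.Geo.omegaGL Q := by
    intro u hu a ha hau
    refine ⟨hDmem _ (fun x hx => ?_) (fun x hx => ?_), qE_mem_omega hQ (by omega) (h₀ u hu) hau⟩
    · rw [qE_mulVec hQ (h₀ u hu) hau, ts_pf hQ h₀ hx hu, mul_zero, sub_zero, zero_smul, sub_zero]
      exact U₀.add_mem hx (U₀.smul_mem _ hu)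
    · rw [qE_mulVec hQ (h₀ u hu) hau, ts_pf hQ h₁ hx ha, h₁ a ha, zero_mul, sub_zero, zero_smul,
        add_zero]
      exact U₁.sub_mem hx (U₁.smul_mem _ ha)
  obtain ⟨s, hsΩ, hs0, hs1⟩ := exists_swap_half hQ h7 hke (hts 0) (hts 1) hd₀ hd₁ hdisj htop
  have hsH : s ∈ Cfsg.Geo.decompositionStabilizer D ⊓ Cfsg.Geo.omegaGL Q := by
    refine ⟨(mem_decomp_two_iff hQ).mpr ⟨Or.inr ⟨hs0, hs1⟩, Equiv.swap 0 1, fun i => ?_⟩, hsΩ⟩
    rcases (Fin.exists_fin_two.mp ⟨i, rfl⟩ : i = 0 ∨ i = 1) with rfl | rfl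
    · exact ⟨hd₀.trans hd₁.symm, by simpa using hs0⟩
    · exact ⟨hd₁.trans hd₀.symm, by simpa using hs1⟩
  rw [← hU₀, ← hU₁] at hs0 hs1 hdisj htop hdisj' htop'
  rw [← hU₀] at hd₀
  rw [← hU₁] at hd₁
  refine isMaximalIn_of inf_le_right ?_ ?_
  · intro hle
    obtain ⟨u, hu, hu0⟩ := Submodule.exists_mem_ne_zero_of_ne_bot
      (show U₀ ≠ ⊥ from fun h => by rw [h, finrank_bot] at hd₀; omega)
    obtain ⟨a, ha, hau⟩ : ∃ a ∈ U₀, a ∉ Submodule.span F {u} := by
      by_contra! h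
      have := Submodule.finrank_mono (show U₀ ≤ Submodule.span F {u} from h)
      rw [hd₀, finrank_span_singleton hu0] at this
      omega
    have hau' : pf a u = 0 := ts_pf hQ h₀ ha hu
    have hmem := (mem_decomp_two_iff hQ).mp (hle (qE_mem_omega hQ (by omega) (h₀ u hu) hau')).1
    rw [← hU₀, ← hU₁] at hmem
    rcases hmem.1 with ⟨-, h1⟩ | ⟨h0, -⟩
    · obtain ⟨y, hy, -, hyu⟩ := exists_in_half hQ h₀ htop (S := Submodule.span F {a})
        (Submodule.span_le.mpr (Set.singleton_subset_iff.mpr ha)) hu (fun h' => by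
          obtain ⟨t, ht⟩ := Submodule.mem_span_singleton.mp h'
          by_cases ht0 : t = 0
          · exact hu0 (by rw [← ht, ht0, zero_smul])
          · exact hau (Submodule.mem_span_singleton.mpr ⟨t⁻¹, by rw [← ht, inv_smul_smul₀ ht0]⟩))
      have h2 := U₁.sub_mem (h1 y hy) hy
      rw [qE_mulVec hQ (h₀ u hu) hau', hyu, h₀ a ha, zero_mul, sub_zero, one_smul,
        show y + pf y a • u - a - y = pf y a • u - a by abel] at h2
      have h3 : pf y a • u - a ∈ U₀ ⊓ U₁ := ⟨U₀.sub_mem (U₀.smul_mem _ hu) ha, h2⟩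
      rw [hdisj, Submodule.mem_bot, sub_eq_zero] at h3
      exact hau (h3 ▸ Submodule.smul_mem _ _ (Submodule.mem_span_singleton_self u))
    · have h2 := h0 u hu
      rw [qE_mulVec hQ (h₀ u hu) hau', pf_self hQ, h₀ u hu, pf_comm hQ u a, hau'] at h2
      have h3 : u ∈ U₀ ⊓ U₁ := ⟨hu, by simpa using h2⟩
      rw [hdisj, Submodule.mem_bot] at h3
      exact hu0 h3
  intro M hHM hMK g hgM hgH
  have hgI : g ∈ Cfsg.isometryGroup F Q := omega_le_isometry (hMK hgM)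
  -- an element fixing a subspace of codimension two, moving the pair
  obtain ⟨kk, hkM, hkI, Z, hZdim, hkfix, a₀, ha₀, hka⟩ : ∃ kk ∈ M,
      kk ∈ Cfsg.isometryGroup F Q ∧ ∃ Z : Submodule F (ι → F),
        Fintype.card ι ≤ Module.finrank F Z + 2 ∧ (∀ x ∈ Z, (kk : Matrix ι ι F) *ᵥ x = x) ∧
        ∃ a₀ ∈ U₁, (kk : Matrix ι ι F) *ᵥ a₀ ∉ U₁ := by
    suffices h : ∃ kk ∈ M, kk ∈ Cfsg.isometryGroup F Q ∧ ∃ Z : Submodule F (ι → F),
        Fintype.card ι ≤ Module.finrank F Z + 2 ∧ (∀ x ∈ Z, (kk : Matrix ι ι F) *ᵥ x = x) ∧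
        ((∃ x ∈ U₁, (kk : Matrix ι ι F) *ᵥ x ∉ U₁) ∨
          (∃ x ∈ U₀, (kk : Matrix ι ι F) *ᵥ x ∉ U₀)) by
      obtain ⟨kk, hkM, hkI, Z, hZ, hfix, h | ⟨x, hx, hxn⟩⟩ := h
      · exact ⟨kk, hkM, hkI, Z, hZ, hfix, h⟩
      · have hsI := omega_le_isometry hsΩ
        refine ⟨s * kk * s⁻¹, M.mul_mem (M.mul_mem (hHM hsH) hkM) (M.inv_mem (hHM hsH)),
          Subgroup.mul_mem _ (Subgroup.mul_mem _ hsI hkI) (Subgroup.inv_mem _ hsI),
          Z.map (act s), ?_, ?_, (s : Matrix ι ι F) *ᵥ x, hs0 x hx, fun h => ?_⟩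
        · rwa [← (Submodule.equivMapOfInjective _ (fun a b h => mulVec_injective s
            (by simpa [Matrix.toLin'_apply] using h)) Z).finrank_eq]
        · rintro _ ⟨z, hz, rfl⟩
          rw [Matrix.toLin'_apply, Units.val_mul, Units.val_mul, ← mulVec_mulVec, ← mulVec_mulVec,
            inv_mulVec_mulVec, hfix z hz]
        · rw [Units.val_mul, Units.val_mul, ← mulVec_mulVec, ← mulVec_mulVec,
            inv_mulVec_mulVec] at h
          obtain ⟨p, hp, c, hc, hpc⟩ := decomp_two htop ((kk : Matrix ι ι F) *ᵥ x)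
          rw [hpc, mulVec_add] at h
          have h1 : (s : Matrix ι ι F) *ᵥ c ∈ U₀ ⊓ U₁ :=
            ⟨hs1 c hc, by simpa using U₁.sub_mem h (hs0 p hp)⟩
          rw [hdisj, Submodule.mem_bot] at h1
          have hc0 : c = 0 := mulVec_injective s (by simpa using h1)
          exact hxn (by rw [hpc, hc0, add_zero]; exact hp)
    by_contra hall
    have hinv : ∀ u ∈ U₀, ∀ a ∈ U₁, pf a u = 0 → ∀ i, ∀ y ∈ D i,
        (qE Q ((g : Matrix ι ι F) *ᵥ u) ((g : Matrix ι ι F) *ᵥ a) : Matrix ι ι F) *ᵥ y ∈ D i := by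
      intro u hu a ha hau i y hy
      have hgu : Q ((g : Matrix ι ι F) *ᵥ u) = 0 := by rw [iso_Q hgI, h₀ u hu]
      have hga : pf ((g : Matrix ι ι F) *ᵥ a) ((g : Matrix ι ι F) *ᵥ u) = 0 := by
        rw [iso_pf hgI, hau]
      by_contra hbad
      refine hall ⟨_, conj_qE_mem hQ hgM hgI (h₀ u hu) hau (hHM (hHE u hu a ha hau)),
        qE_mem_isometry hQ hgu hga,
        qorth hQ (Submodule.span F {(g : Matrix ι ι F) *ᵥ u, (g : Matrix ι ι F) *ᵥ a}), ?_,
        fun x hx => ?_, ?_⟩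
      · have := finrank_qorth hQ (Submodule.span F {(g : Matrix ι ι F) *ᵥ u,
          (g : Matrix ι ι F) *ᵥ a})
        have := span_le_two (F := F) ((g : Matrix ι ι F) *ᵥ u) ((g : Matrix ι ι F) *ᵥ a)
        omega
      · obtain ⟨h1, h2⟩ := (qorth_span_pair hQ).mp hx
        rw [qE_mulVec hQ hgu hga, h1, h2]
        simp
      · rcases (Fin.exists_fin_two.mp ⟨i, rfl⟩ : i = 0 ∨ i = 1) with rfl | rfl
        · exact Or.inr ⟨y, hU₀ ▸ hy, hU₀ ▸ hbad⟩
        · exact Or.inl ⟨y, hU₁ ▸ hy, hU₁ ▸ hbad⟩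
    -- the preimages of the halves are invariant, hence halves
    have hpre : ∀ i, (D i).map (act g⁻¹) = U₀ ∨ (D i).map (act g⁻¹) = U₁ := by
      intro i
      obtain ⟨X, hX⟩ : ∃ X, X = (D i).map (act g⁻¹) := ⟨_, rfl⟩
      rw [← hX]
      have hXd : Module.finrank F X = k := by
        rw [hX, ← (Submodule.equivMapOfInjective _ (fun a b h => mulVec_injective g⁻¹
          (by simpa [Matrix.toLin'_apply] using h)) (D i)).finrank_eq, hD.finrank_eq]
      have hXinv : ∀ u ∈ U₀, ∀ a ∈ U₁, pf a u = 0 → ∀ x ∈ X,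
          pf x a • u - pf x u • a ∈ X := by
        intro u hu a ha hau x hx
        rw [hX] at hx
        obtain ⟨y, hy, rfl⟩ := hx
        obtain ⟨x', hx'⟩ : ∃ x', x' = (act g⁻¹) y := ⟨_, rfl⟩
        rw [← hx']
        have hgx : (g : Matrix ι ι F) *ᵥ x' = y := by
          rw [hx', Matrix.toLin'_apply, mulVec_inv_mulVec]
        have h1 := hinv u hu a ha hau i y hy
        rw [← hgx, qE_mulVec hQ (by rw [iso_Q hgI, h₀ u hu]) (by rw [iso_pf hgI, hau]),
          iso_pf hgI, iso_pf hgI, iso_Q hgI, h₁ a ha, zero_mul, sub_zero, hgx] at h1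
        rw [hX]
        refine ⟨_, (D i).sub_mem h1 hy, ?_⟩
        rw [Matrix.toLin'_apply, show y + pf x' a • ((g : Matrix ι ι F) *ᵥ u) -
          pf x' u • ((g : Matrix ι ι F) *ᵥ a) - y =
          (g : Matrix ι ι F) *ᵥ (pf x' a • u - pf x' u • a) by
            rw [mulVec_sub, mulVec_smul, mulVec_smul]; abel, inv_mulVec_mulVec]
      by_cases hex : X ≤ U₁
      · exact Or.inr (Submodule.eq_of_le_of_finrank_eq hex (hXd.trans hd₁.symm))
      obtain ⟨x, hx, hxn⟩ := SetLike.not_le_iff_exists.mp hex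
      obtain ⟨x₀, hx₀, x₁, hx₁, rfl⟩ := decomp_two htop x
      have hx00 : x₀ ≠ 0 := fun h => hxn (by rw [h, zero_add]; exact hx₁)
      obtain ⟨a, ha, -, hax⟩ := exists_in_half hQ h₀ htop (S := ⊥) bot_le hx₀ (by simpa using hx00)
      have h1 := finrank_inf_ge U₀ (qorth hQ (Submodule.span F {a, x₁}))
      have h2 := finrank_qorth hQ (Submodule.span F {a, x₁})
      have h3 := span_le_two (F := F) a x₁
      obtain ⟨v, hv, hv0⟩ := Submodule.exists_mem_ne_zero_of_ne_bot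
        (show U₀ ⊓ qorth hQ (Submodule.span F {a, x₁}) ≠ ⊥ from fun h0 => by
          rw [h0, finrank_bot] at h1; omega)
      obtain ⟨hva, hvx⟩ := (qorth_span_pair hQ).mp hv.2
      have hvX : v ∈ X := by
        have := hXinv v hv.1 a ha (by rw [pf_comm hQ, hva]) _ hx
        rwa [hQ.polar_bilinear.add_left, hQ.polar_bilinear.add_left, pf_comm hQ x₀ a, hax,
          ts_pf hQ h₁ hx₁ ha, add_zero, ts_pf hQ h₀ hx₀ hv.1, pf_comm hQ x₁ v, hvx, add_zero,
          one_smul, zero_smul, sub_zero] at this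
      refine Or.inl (Submodule.eq_of_le_of_finrank_eq (fun z hz => ?_) (hd₀.trans hXd.symm)).symm
      by_cases hzv : z ∈ Submodule.span F {v}
      · exact (Submodule.span_le.mpr (Set.singleton_subset_iff.mpr hvX)) hzv
      obtain ⟨b, hb, hbS, hbv⟩ := exists_in_half hQ h₀ htop (S := Submodule.span F {z})
        (Submodule.span_le.mpr (Set.singleton_subset_iff.mpr hz)) hv.1 (fun h => by
          obtain ⟨t, ht⟩ := Submodule.mem_span_singleton.mp h
          by_cases ht0 : t = 0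
          · exact hv0 (by rw [← ht, ht0, zero_smul])
          · exact hzv (Submodule.mem_span_singleton.mpr ⟨t⁻¹, by rw [← ht, inv_smul_smul₀ ht0]⟩))
      have hbz : pf b z = 0 := hbS z (Submodule.mem_span_singleton_self z)
      have := hXinv z hz b hb hbz v hvX
      rwa [pf_comm hQ v b, hbv, ts_pf hQ h₀ hv.1 hz, one_smul, zero_smul, sub_zero] at this
    apply hgH
    have hback : ∀ i U, (D i).map (act g⁻¹) = U → ∀ x ∈ U, (g : Matrix ι ι F) *ᵥ x ∈ D i := by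
      intro i U hU x hx
      rw [← hU] at hx
      obtain ⟨y, hy, rfl⟩ := hx
      rwa [Matrix.toLin'_apply, mulVec_inv_mulVec]
    have hne : (D 0).map (act g⁻¹) ≠ (D 1).map (act g⁻¹) := by
      intro h
      have hinj : Function.Injective (act g⁻¹) := fun a b h => mulVec_injective g⁻¹
        (by simpa [Matrix.toLin'_apply] using h)
      have := Submodule.map_injective_of_injective hinj h
      rw [← hU₀, ← hU₁] at this
      rw [this, inf_idem] at hdisj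
      rw [hdisj, finrank_bot] at hd₁
      omega
    refine ⟨?_, hMK hgM⟩
    rcases hpre 0 with e0 | e0 <;> rcases hpre 1 with e1 | e1
    · exact absurd (e0.trans e1.symm) hne
    · exact hDmem g (fun x hx => hU₀ ▸ hback 0 _ e0 x hx) (fun x hx => hU₁ ▸ hback 1 _ e1 x hx)
    · refine (mem_decomp_two_iff hQ).mpr ⟨Or.inr ⟨fun x hx => hback 1 _ e1 x (hU₀ ▸ hx),
        fun x hx => hback 0 _ e0 x (hU₁ ▸ hx)⟩, Equiv.swap 0 1, fun i => ?_⟩
      rcases (Fin.exists_fin_two.mp ⟨i, rfl⟩ : i = 0 ∨ i = 1) with rfl | rfl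
      · exact ⟨(hD.finrank_eq _).trans (hD.finrank_eq _).symm,
          by simpa using fun x hx => hback 1 _ e1 x (hU₀ ▸ hx)⟩
      · exact ⟨(hD.finrank_eq _).trans (hD.finrank_eq _).symm,
          by simpa using fun x hx => hback 0 _ e0 x (hU₁ ▸ hx)⟩
    · exact absurd (e0.trans e1.symm) hne
  obtain ⟨p, hp, c, hc, hpc⟩ := decomp_two htop ((kk : Matrix ι ι F) *ᵥ a₀)
  have hp0 : p ≠ 0 := fun h => hka (by rw [hpc, h, zero_add]; exact hc)
  obtain ⟨u, ⟨⟨huU, huZ⟩, hua₀'⟩, hup⟩ :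
      ∃ u ∈ (U₀ ⊓ Z) ⊓ qorth hQ (Submodule.span F {a₀}), u ∉ Submodule.span F {p} := by
    by_contra! hle
    have h1 := finrank_inf_ge U₀ Z
    have h2 := finrank_inf_ge (U₀ ⊓ Z) (qorth hQ (Submodule.span F {a₀}))
    have h3 := finrank_qorth hQ (Submodule.span F {a₀})
    have h4 := span_le_one (F := F) a₀
    have h5 := span_le_one (F := F) p
    have h6 := Submodule.finrank_mono (show (U₀ ⊓ Z) ⊓ qorth hQ (Submodule.span F {a₀}) ≤
      Submodule.span F {p} from hle)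
    obtain ⟨j, hj⟩ := hke
    omega
  have hQu := h₀ u huU
  have hu0 : u ≠ 0 := fun h => hup (h ▸ Submodule.zero_mem _)
  have hua₀ : pf u a₀ = 0 := (mem_qorth hQ).mp hua₀' a₀ (Submodule.mem_span_singleton_self a₀)
  have ha₀u : pf a₀ u = 0 := by rw [pf_comm hQ]; exact hua₀
  have hku := hkfix u huZ
  have hpu : pf p u = 0 := ts_pf hQ h₀ hp huU
  have hcu : pf c u = 0 := by
    have h := iso_pf hkI a₀ u
    rw [hku, ha₀u, hpc, hQ.polar_bilinear.add_left, hpu, zero_add] at h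
    exact h
  have hpM : qE Q u p ∈ M := by
    have h1 := conj_qE_mem hQ hkM hkI hQu ha₀u (hHM (hHE u huU a₀ ha₀ ha₀u))
    rw [hku, hpc] at h1
    have h2 := M.mul_mem h1 (M.inv_mem (hHM (hHE u huU c hc hcu)))
    rwa [qE_inv hQ hQu hcu, qE_mul hQ hQu (by rw [hQ.polar_bilinear.add_left, hpu, hcu, add_zero])
      (by rw [pf_neg_left hQ, hcu, neg_zero]), add_neg_cancel_right] at h2
  have hspread : ∀ z ∈ U₀, z ∉ Submodule.span F {u, p} → qE Q u z ∈ M := by
    intro z hz hzn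
    have hpn : p ∉ Submodule.span F {u, z} := fun h => by
      obtain ⟨s, t, hst⟩ := Submodule.mem_span_pair.mp h
      by_cases ht : t = 0
      · rw [ht, zero_smul, add_zero] at hst
        have hs : s ≠ 0 := fun h' => hp0 (by rw [← hst, h', zero_smul])
        exact hup (Submodule.mem_span_singleton.mpr ⟨s⁻¹, by rw [← hst, inv_smul_smul₀ hs]⟩)
      · exact hzn (Submodule.mem_span_pair.mpr ⟨-(t⁻¹ * s), t⁻¹, by
          rw [← hst, smul_add, inv_smul_smul₀ ht, smul_smul]; module⟩)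
    obtain ⟨a, ha, haS, hap⟩ := exists_in_half hQ h₀ htop (S := Submodule.span F {u, z})
      (Submodule.span_le.mpr (Set.insert_subset_iff.mpr ⟨huU, Set.singleton_subset_iff.mpr hz⟩))
      hp hpn
    have hau : pf a u = 0 := haS u (Submodule.mem_span_of_mem (by simp))
    have haz : pf a z = 0 := haS z (Submodule.mem_span_of_mem (by simp))
    have hh := hHE z hz a ha haz
    have hhI := omega_le_isometry hh.2
    have h1 := conj_qE_mem hQ (hHM hh) hhI hQu hpu hpM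
    rw [qE_mulVec hQ (h₀ z hz) haz, qE_mulVec hQ (h₀ z hz) haz] at h1
    simp only [pf_comm hQ u a, hau, ts_pf hQ h₀ huU hz, pf_comm hQ p a, hap, ts_pf hQ h₀ hp hz,
      mul_zero, sub_zero, zero_smul, add_zero, one_smul] at h1
    have h2 := M.mul_mem h1 (M.inv_mem hpM)
    rwa [qE_inv hQ hQu hpu, qE_mul hQ hQu (by
        rw [hQ.polar_bilinear.add_left, hpu, ts_pf hQ h₀ hz huU, add_zero])
      (by rw [pf_neg_left hQ, hpu, neg_zero]), add_comm p z, add_neg_cancel_right] at h2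
  obtain ⟨z₀, hz₀, hz₀n⟩ : ∃ z ∈ U₀, z ∉ Submodule.span F {u, p} := by
    by_contra! h
    have := Submodule.finrank_mono (show U₀ ≤ Submodule.span F {u, p} from h)
    have := span_le_two (F := F) u p
    obtain ⟨j, hj⟩ := hke
    omega
  have hroot : ∀ a, pf a u = 0 → qE Q u a ∈ M := by
    intro a ha
    obtain ⟨a₁, ha₁, a₂, ha₂, rfl⟩ := decomp_two htop a
    have ha₁u : pf a₁ u = 0 := ts_pf hQ h₀ ha₁ huU
    have ha₂u : pf a₂ u = 0 := by rwa [hQ.polar_bilinear.add_left, ha₁u, zero_add] at ha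
    rw [← qE_mul hQ hQu ha₁u ha₂u]
    refine M.mul_mem ?_ (hHM (hHE u huU a₂ ha₂ ha₂u))
    by_cases h1 : a₁ ∈ Submodule.span F {u, p}
    · have h2 := hspread (a₁ + z₀) (U₀.add_mem ha₁ hz₀)
        (fun h => hz₀n (by simpa using Submodule.sub_mem _ h h1))
      have hzu := ts_pf hQ h₀ hz₀ huU
      rw [show a₁ = a₁ + z₀ + -z₀ by abel, ← qE_mul hQ hQu
        (by rw [hQ.polar_bilinear.add_left, ha₁u, hzu, add_zero])
        (by rw [pf_neg_left hQ, hzu, neg_zero]), ← qE_inv hQ hQu hzu]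
      exact M.mul_mem h2 (M.inv_mem (hspread z₀ hz₀ hz₀n))
    · exact hspread a₁ ha₁ h1
  have hrootU : ∀ z ∈ U₀, z ∉ Submodule.span F {u} → ∀ a, pf a z = 0 → qE Q z a ∈ M := by
    intro z hz hzn
    obtain ⟨b, hb, hbS, hbu⟩ := exists_in_half hQ h₀ htop (S := Submodule.span F {z - u})
      (Submodule.span_le.mpr (Set.singleton_subset_iff.mpr (U₀.sub_mem hz huU))) huU (fun h => by
        obtain ⟨t, ht⟩ := Submodule.mem_span_singleton.mp h
        have ht0 : t ≠ 0 := fun h' => hu0 (by rw [← ht, h', zero_smul])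
        refine hzn (Submodule.mem_span_singleton.mpr ⟨1 + t⁻¹, ?_⟩)
        rw [add_smul, one_smul]
        nth_rewrite 2 [← ht]
        rw [inv_smul_smul₀ ht0, add_sub_cancel])
    have hbz : pf b (z - u) = 0 := hbS _ (Submodule.mem_span_singleton_self _)
    have hh := hHE (z - u) (U₀.sub_mem hz huU) b hb hbz
    have := roots_conj hQ (hHM hh) (omega_le_isometry hh.2) hQu hroot
    rwa [qE_mulVec hQ (h₀ _ (U₀.sub_mem hz huU)) hbz, pf_comm hQ u b, hbu,
      ts_pf hQ h₀ huU (U₀.sub_mem hz huU), mul_zero, sub_zero, one_smul, zero_smul, sub_zero,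
      add_sub_cancel] at this
  have hsI := omega_le_isometry hsΩ
  have hroot' := roots_conj hQ (hHM hsH) hsI hQu hroot
  have hQsu : Q ((s : Matrix ι ι F) *ᵥ u) = 0 := by rw [iso_Q hsI, hQu]
  by_cases h : pf u ((s : Matrix ι ι F) *ᵥ u) = 0
  · obtain ⟨b, hb, -, hbsu⟩ := exists_in_half hQ h₁ htop' (S := ⊥) bot_le (hs0 u huU)
      (by
        simpa using fun h0 : (s : Matrix ι ι F) *ᵥ u = 0 =>
          hu0 (mulVec_injective s (by simpa using h0)))
    refine omega_le_of_two_roots hQ h7 (h₀ b hb) hQsu (by rw [hbsu]; exact one_ne_zero)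
      (hrootU b hb fun hm => ?_) hroot'
    obtain ⟨t, rfl⟩ := Submodule.mem_span_singleton.mp hm
    rw [hQ.polar_bilinear.smul_left, h, mul_zero] at hbsu
    exact zero_ne_one hbsu
  · exact omega_le_of_two_roots hQ h7 hQu hQsu h hroot hroot'

end CfsgLib.Classical
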