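import Cfsg.Agent.Lib.ClassicalMaxOrth
import Cfsg.Agent.Lib.ClassicalMaxOrthNondeg

/-! The stabiliser in `Ω` of an orthogonal decomposition into blocks of dimension at least five. -/

set_option autoImplicit false

namespace CfsgLib.Classical

open Matrix

variable {ι : Type} [Fintype ι] [DecidableEq ι] {F : Type*} [Field F] {Q : (ι → F) → F}
variable (hQ : Cfsg.Geo.IsNondegenerateQuadraticForm Q)
include hQ

local notation "pf" => QuadraticMap.polar Q
local notation:max "act" g:max => Matrix.toLin' ((g : GL ι F) : Matrix ι ι F)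

lemma conj_qR_mem_closure {D₀ : Submodule F (ι → F)} {h : GL ι F}
    (hh : h ∈ Subgroup.closure {r | ∃ d ∈ D₀, Q d ≠ 0 ∧ r = qR hQ d}) :
    h ∈ Cfsg.isometryGroup F Q ∧ (∀ x ∈ D₀, (h : Matrix ι ι F) *ᵥ x ∈ D₀) ∧
      ∀ x ∈ qorth hQ D₀, (h : Matrix ι ι F) *ᵥ x = x := by
  induction hh using Subgroup.closure_induction with
  | mem r hr =>
    obtain ⟨d, hd, hd0, rfl⟩ := hr
    refine ⟨qR_mem_isometry hQ hd0, fun x hx => ?_, fun x hx => ?_⟩
    · rw [qR_mulVec hQ hd0]; exact D₀.sub_mem hx (D₀.smul_mem _ hd)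
    · rw [qR_mulVec hQ hd0, (mem_qorth hQ).mp hx d hd, mul_zero, zero_smul, sub_zero]
  | one => exact ⟨Subgroup.one_mem _, fun x hx => by simpa using hx, fun x _ => by simp⟩
  | mul a b _ _ ha hb =>
    refine ⟨Subgroup.mul_mem _ ha.1 hb.1, fun x hx => ?_, fun x hx => ?_⟩
    · rw [Units.val_mul, ← mulVec_mulVec]; exact ha.2.1 _ (hb.2.1 x hx)
    · rw [Units.val_mul, ← mulVec_mulVec, hb.2.2 x hx, ha.2.2 x hx]
  | inv a _ ha =>
    refine ⟨Subgroup.inv_mem _ ha.1, fun x hx => ?_, fun x hx => ?_⟩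
    · exact maps_of_mem_stab (Subgroup.inv_mem _ (mem_stab_of_maps D₀ a ha.2.1)) hx
    · conv_lhs => rw [← ha.2.2 x hx]
      exact inv_mulVec_mulVec a x

/-- reflections inside a subspace with all values correct the class modulo `Ω` -/
theorem exists_class_fix [Finite F] (h7 : 7 ≤ Fintype.card ι) {D₀ : Submodule F (ι → F)}
    (hval : ∀ c : F, c ≠ 0 → ∃ d ∈ D₀, Q d = c) {g : GL ι F}
    (hg : g ∈ Cfsg.isometryGroup F Q) :
    ∃ h ∈ Cfsg.isometryGroup F Q, g * h ∈ Cfsg.Geo.omegaGL Q ∧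
      (∀ x ∈ D₀, (h : Matrix ι ι F) *ᵥ x ∈ D₀) ∧
      ∀ x ∈ qorth hQ D₀, (h : Matrix ι ι F) *ᵥ x = x := by
  obtain ⟨R, hR⟩ : ∃ R, R = Subgroup.closure {r | ∃ d ∈ D₀, Q d ≠ 0 ∧ r = qR hQ d} := ⟨_, rfl⟩
  let X : Subgroup (GL ι F) :=
    { carrier := {g | g ∈ Cfsg.isometryGroup F Q ∧ ∃ h ∈ R, g * h ∈ Cfsg.Geo.omegaGL Q}
      one_mem' := ⟨Subgroup.one_mem _, 1, Subgroup.one_mem _, by
        rw [mul_one]; exact Subgroup.one_mem _⟩
      mul_mem' := fun {a b} ha hb => by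
        obtain ⟨haI, h1, hh1, ha⟩ := ha
        obtain ⟨hbI, h2, hh2, hb⟩ := hb
        refine ⟨Subgroup.mul_mem _ haI hbI, h2 * h1, R.mul_mem hh2 hh1, ?_⟩
        have hI1 : h1 ∈ Cfsg.isometryGroup F Q :=
          (conj_qR_mem_closure hQ (hR ▸ hh1)).1
        have := Subgroup.mul_mem _ ha
          (omegaGL_eq_qGen hQ h7 ▸ conj_mem_qGen hQ (Subgroup.inv_mem _ hI1)
            (omegaGL_eq_qGen hQ h7 ▸ hb))
        simpa [mul_assoc] using this
      inv_mem' := fun {a} ha => by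
        obtain ⟨haI, h1, hh1, ha⟩ := ha
        refine ⟨Subgroup.inv_mem _ haI, h1⁻¹, R.inv_mem hh1, ?_⟩
        have := omegaGL_eq_qGen hQ h7 ▸ conj_mem_qGen hQ (Subgroup.inv_mem _ haI)
          (Subgroup.inv_mem _ (omegaGL_eq_qGen hQ h7 ▸ ha))
        simpa [mul_assoc] using this }
  have hle : Cfsg.isometryGroup F Q ≤ X := by
    refine isometry_le_of hQ (fun u a hu hau => ⟨qE_mem_isometry hQ hu hau, 1, R.one_mem, by
      rw [mul_one]; exact qE_mem_omega hQ (by omega) hu hau⟩) fun d hd => ?_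
    obtain ⟨d', hd', hQd'⟩ := hval (Q d) hd
    exact ⟨qR_mem_isometry hQ hd, qR hQ d',
      hR ▸ Subgroup.subset_closure ⟨d', hd', by rw [hQd']; exact hd, rfl⟩,
      qR_mul_mem_omega hQ h7 hd hQd'⟩
  obtain ⟨-, h, hh, hgh⟩ := hle hg
  obtain ⟨hI, h1, h2⟩ := conj_qR_mem_closure hQ (hR ▸ hh)
  exact ⟨h, hI, hgh, h1, h2⟩

/-- an additive group invariant under the Siegel elements of `W` contains `W` -/
theorem le_of_qE_invariant' [Finite F] {W : Submodule F (ι → F)}
    (hW : Cfsg.Geo.IsNondegenerateOn pf W) (h3 : 3 ≤ Module.finrank F W) (X : AddSubgroup (ι → F))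
    (hinv : ∀ u ∈ W, ∀ a ∈ W, Q u = 0 → pf a u = 0 → ∀ x ∈ X, (qE Q u a : Matrix ι ι F) *ᵥ x ∈ X)
    {x : ι → F} (hx : x ∈ X) (hxW : ∃ w ∈ W, pf x w ≠ 0) : ∀ y ∈ W, y ∈ X := by
  obtain ⟨u₀, hu₀W, hu₀0, hu₀⟩ := exists_sing hQ W h3
  obtain ⟨c, hcW, hc, hcu₀⟩ := exists_partner_in hQ hW hu₀W hu₀0 hu₀
  obtain ⟨u, huW, hu, hxu⟩ : ∃ u ∈ W, Q u = 0 ∧ pf x u ≠ 0 := by
    by_contra! hall
    obtain ⟨w, hw, hxw⟩ := hxW
    have hx0 := hall u₀ hu₀W hu₀
    have hxc := hall c hcW hc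
    obtain ⟨d, hd⟩ : ∃ d, d = w + (1 - pf w u₀) • c := ⟨_, rfl⟩
    have hdu : pf d u₀ = 1 := by
      rw [hd, hQ.polar_bilinear.add_left, hQ.polar_bilinear.smul_left, pf_comm hQ c u₀, hcu₀]
      ring
    have h := hall (d - Q d • u₀)
      (W.sub_mem (hd ▸ W.add_mem hw (W.smul_mem _ hcW)) (W.smul_mem _ hu₀W))
      (by rw [q_sub hQ, hQ.smul, hu₀, hQ.polar_bilinear.smul_right, hdu]; ring)
    rw [pf_sub_right hQ, hQ.polar_bilinear.smul_right, hx0, mul_zero, sub_zero, hd,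
      hQ.polar_bilinear.add_right, hQ.polar_bilinear.smul_right, hxc, mul_zero, add_zero] at h
    exact hxw h
  have hu0 : u ≠ 0 := fun h => hxu (by rw [h, pf_zero_right hQ])
  obtain ⟨w, hwW, hw, huw⟩ := exists_partner_in hQ hW huW hu0 hu
  have hproj : ∀ y ∈ W, ∃ z ∈ W, pf z u = 0 ∧ pf z w = 0 ∧ y = z + pf y w • u + pf y u • w := by
    intro y hy
    refine ⟨y - pf y w • u - pf y u • w,
      W.sub_mem (W.sub_mem hy (W.smul_mem _ huW)) (W.smul_mem _ hwW), ?_, ?_, by abel⟩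
    · rw [pf_sub_left hQ, pf_sub_left hQ, hQ.polar_bilinear.smul_left,
        hQ.polar_bilinear.smul_left, pf_self hQ u, hu, pf_comm hQ w u, huw]
      ring
    · rw [pf_sub_left hQ, pf_sub_left hQ, hQ.polar_bilinear.smul_left,
        hQ.polar_bilinear.smul_left, pf_self hQ w, hw, huw]
      ring
  obtain ⟨a, haW, hau, haw, b, hbW, hbu, hbw, hab⟩ : ∃ a ∈ W, pf a u = 0 ∧ pf a w = 0 ∧
      ∃ b ∈ W, pf b u = 0 ∧ pf b w = 0 ∧ pf a b ≠ 0 := by
    have h1 := span_le_two (F := F) u w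
    have h2 := finrank_qorth hQ (Submodule.span F {u, w})
    have h3' := finrank_inf_ge W (qorth hQ (Submodule.span F {u, w}))
    obtain ⟨a, ⟨haW, ha⟩, ha0⟩ := Submodule.exists_mem_ne_zero_of_ne_bot
      (show W ⊓ qorth hQ (Submodule.span F {u, w}) ≠ ⊥ from fun h0 => by
        rw [h0, finrank_bot] at h3'; omega)
    obtain ⟨hau, haw⟩ := (qorth_span_pair hQ).mp ha
    obtain ⟨y, hyW, hay⟩ := (hW a haW ha0).2
    obtain ⟨b, hbW, hbu, hbw, hyb⟩ := hproj y hyW
    refine ⟨a, haW, hau, haw, b, hbW, hbu, hbw, fun h => hay ?_⟩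
    rw [hyb, hQ.polar_bilinear.add_right, hQ.polar_bilinear.add_right,
      hQ.polar_bilinear.smul_right, hQ.polar_bilinear.smul_right, h, hau, haw]
    ring
  have key : ∀ v ∈ W, Q v = 0 → ∀ z ∈ X, pf z v ≠ 0 → pf a v = 0 → pf b v = 0 →
      ∀ s : F, s • v ∈ X := by
    intro v hvW hv z hz hzv hav hbv s
    obtain ⟨t, ht⟩ : ∃ t, t * (pf a b * pf z v) = s :=
      ⟨s / (pf a b * pf z v), div_mul_cancel₀ _ (mul_ne_zero hab hzv)⟩
    have htv : pf (t • a) v = 0 := by rw [hQ.polar_bilinear.smul_left, hav, mul_zero]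
    have hab' : pf (t • a + b) v = 0 := by rw [hQ.polar_bilinear.add_left, htv, hbv, add_zero]
    have h1 := X.sub_mem (hinv v hvW _ (W.smul_mem t haW) hv htv z hz) hz
    have h2 := X.sub_mem (hinv v hvW b hbW hv hbv z hz) hz
    have h3 := X.sub_mem (hinv v hvW _ (W.add_mem (W.smul_mem t haW) hbW) hv hab' z hz) hz
    have h4 := X.sub_mem (X.add_mem h1 h2) h3
    rw [qE_mulVec hQ hv htv, qE_mulVec hQ hv hbv, qE_mulVec hQ hv hab',
      hQ.polar_bilinear.add_right, hQ.polar_bilinear.smul_right, q_smul_add hQ, hQ.smul] at h4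
    convert h4 using 1
    rw [← ht]
    module
  have huX := key u huW hu x hx hxu hau hbu
  have hu1 : u ∈ X := by simpa using huX 1
  have hwX := key w hwW hw u hu1 (by rw [huw]; exact one_ne_zero) haw hbw
  intro y hy
  obtain ⟨z, hzW, hzu, hzw, hyz⟩ := hproj y hy
  rw [hyz]
  refine X.add_mem (X.add_mem ?_ (huX _)) (hwX _)
  have := X.sub_mem (hinv w hwW z hzW hw hzw u hu1) hu1
  rw [qE_mulVec hQ hw hzw, huw, pf_comm hQ u z, hzu] at this
  have h2 : -(Q z) • w - z ∈ X := by convert this using 1; module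
  simpa using X.sub_mem (hwX (-(Q z))) h2

section blocks

variable [Finite F] (h7 : 7 ≤ Fintype.card ι) {t k : ℕ} {D : Fin t → Submodule F (ι → F)}
  (hD : Cfsg.Geo.IsNondegenerateMDecomposition (QuadraticMap.polar Q) k D)
include h7 hD

omit h7 [Finite F] in
lemma blocks_le_qorth {i j : Fin t} (hij : i ≠ j) : D j ≤ qorth hQ (D i) :=
  fun _ hx => (mem_qorth hQ).mpr fun s hs => hD.orthogonal j i hij.symm _ hx s hs

omit h7 [Finite F] in
lemma eq_zero_of_all_orth {x : ι → F} (h : ∀ l, x ∈ qorth hQ (D l)) : x = 0 := by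
  by_contra hx
  obtain ⟨y, hy⟩ := (hQ.nondegenerate x hx).2
  have hle : iSup D ≤ LinearMap.ker (toBil hQ.polar_bilinear x) :=
    iSup_le fun l s hs => (mem_qorth hQ).mp (h l) s hs
  rw [hD.decomp.iSup_eq_top] at hle
  exact hy (hle (Submodule.mem_top : y ∈ ⊤))

omit h7 [Finite F] in
lemma qorth_block (i : Fin t) : qorth hQ (D i) = ⨆ (l) (_ : l ≠ i), D l := by
  refine le_antisymm (fun x hx => ?_) (iSup₂_le fun l hl => blocks_le_qorth hQ hD hl.symm)
  have htop : D i ⊔ (⨆ (l) (_ : l ≠ i), D l) = ⊤ := by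
    rw [← hD.decomp.iSup_eq_top]
    exact le_antisymm (sup_le (le_iSup D i) (iSup₂_le fun l _ => le_iSup D l))
      (iSup_le fun l => by
        by_cases h : l = i
        · exact h ▸ le_sup_left
        · exact le_trans (le_iSup₂ (f := fun l (_ : l ≠ i) => D l) l h) le_sup_right)
  obtain ⟨d, hd, s, hs, rfl⟩ : ∃ d ∈ D i, ∃ s ∈ ⨆ (l) (_ : l ≠ i), D l, d + s = x := by
    have hmem : x ∈ D i ⊔ (⨆ (l) (_ : l ≠ i), D l) := by rw [htop]; exact Submodule.mem_top
    exact Submodule.mem_sup.mp hmem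
  have hle : (⨆ (l) (_ : l ≠ i), D l) ≤ qorth hQ (D i) :=
    iSup₂_le fun l hl => blocks_le_qorth hQ hD (Ne.symm hl)
  have hs' : s ∈ qorth hQ (D i) := hle hs
  have hd' : d ∈ D i ⊓ qorth hQ (D i) := ⟨hd, by simpa using Submodule.sub_mem _ hx hs'⟩
  rw [nondeg_inf_qorth hQ (hD.nondegenerate i), Submodule.mem_bot] at hd'
  rwa [hd', zero_add]

omit h7 [Finite F] in
lemma mem_block_of_orth {i : Fin t} {x : ι → F} (h : ∀ l, l ≠ i → x ∈ qorth hQ (D l)) :
    x ∈ D i := by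
  obtain ⟨d, hd, s, hs, rfl⟩ := nondeg_decomp hQ (hD.nondegenerate i) x
  have : s = 0 := eq_zero_of_all_orth hQ hD fun l => by
    by_cases hl : l = i
    · exact hl ▸ hs
    · simpa using Submodule.sub_mem _ (h l hl) (blocks_le_qorth hQ hD hl hd)
  rw [this, add_zero]
  exact hd

omit h7 [Finite F] in
lemma qE_block_maps {i : Fin t} {u a : ι → F} (hu : u ∈ D i) (ha : a ∈ D i) (hQu : Q u = 0)
    (hau : pf a u = 0) (l : Fin t) : ∀ x ∈ D l, (qE Q u a : Matrix ι ι F) *ᵥ x ∈ D l := by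
  intro x hx
  rw [qE_mulVec hQ hQu hau]
  by_cases hl : l = i
  · subst hl
    exact (D l).sub_mem ((D l).add_mem hx ((D l).smul_mem _ hu)) ((D l).smul_mem _ ha)
  · rw [hD.orthogonal l i hl x hx u hu, hD.orthogonal l i hl x hx a ha]
    simpa using hx

omit h7 [Finite F] in
lemma mem_decomp_of_maps {g : GL ι F} (σ : Fin t → Fin t) (hσ : Function.Injective σ)
    (hmap : ∀ i, ∀ x ∈ D i, (g : Matrix ι ι F) *ᵥ x ∈ D (σ i)) :
    g ∈ Cfsg.Geo.decompositionStabilizer D := by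
  refine ⟨Equiv.ofBijective σ (Finite.injective_iff_bijective.mp hσ), fun i => ?_⟩
  refine Submodule.eq_of_le_of_finrank_eq ?_ ?_
  · rintro _ ⟨x, hx, rfl⟩
    rw [Matrix.toLin'_apply]
    exact hmap i x hx
  · rw [hD.decomp.finrank_eq, ← (Submodule.equivMapOfInjective _ (fun a b h => mulVec_injective g
      (by simpa [Matrix.toLin'_apply] using h)) (D i)).finrank_eq, hD.decomp.finrank_eq]

lemma qE_block_mem_H {i : Fin t} {u a : ι → F} (hu : u ∈ D i) (ha : a ∈ D i) (hQu : Q u = 0)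
    (hau : pf a u = 0) :
    qE Q u a ∈ Cfsg.Geo.decompositionStabilizer D ⊓ Cfsg.Geo.omegaGL Q :=
  ⟨mem_decomp_of_maps hQ hD id Function.injective_id (qE_block_maps hQ hD hu ha hQu hau),
    qE_mem_omega hQ (by omega) hQu hau⟩

/-- exchange two blocks, fixing the others, inside `Ω` -/
lemma exists_block_swap (h3 : 3 ≤ k) {j l : Fin t} (hjl : j ≠ l)
    (hiso : Cfsg.Geo.AreIsometricFor Q (D j) (D l)) :
    ∃ h ∈ Cfsg.Geo.decompositionStabilizer D ⊓ Cfsg.Geo.omegaGL Q,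
      (∀ x ∈ D j, (h : Matrix ι ι F) *ᵥ x ∈ D l) ∧
      ∀ i, i ≠ j → i ≠ l → ∀ x ∈ D i, (h : Matrix ι ι F) *ᵥ x = x := by
  classical
  obtain ⟨e, he⟩ := hiso
  have hc : ∀ i, IsCompl (D i) (qorth hQ (D i)) := fun i => by
    refine ⟨disjoint_iff.mpr (nondeg_inf_qorth hQ (hD.nondegenerate i)), ?_⟩
    rw [codisjoint_iff, eq_top_iff]
    intro x _
    obtain ⟨b, hb, c, hc, rfl⟩ := nondeg_decomp hQ (hD.nondegenerate i) x
    exact Submodule.add_mem_sup hb hc
  let P : ∀ i, (ι → F) →ₗ[F] D i := fun i => (D i).projectionOnto (qorth hQ (D i)) (hc i)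
  have hPin : ∀ i (x : D i), P i x = x := fun i x =>
    Submodule.projectionOnto_apply_left (hc i) x
  have hPout : ∀ i x, x ∈ qorth hQ (D i) → P i x = 0 := fun i x hx =>
    (Submodule.projectionOnto_apply_eq_zero_iff (hc i)).mpr hx
  let T : (ι → F) →ₗ[F] (ι → F) := LinearMap.id
    + ((D l).subtype ∘ₗ e.toLinearMap ∘ₗ P j - (D j).subtype ∘ₗ P j)
    + ((D j).subtype ∘ₗ e.symm.toLinearMap ∘ₗ P l - (D l).subtype ∘ₗ P l)
  have hTj : ∀ x (hx : x ∈ D j), T x = (e ⟨x, hx⟩ : ι → F) := by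
    intro x hx
    have h1 := hPin j ⟨x, hx⟩
    have h2 := hPout l x (blocks_le_qorth hQ hD hjl.symm hx)
    simp only [T, LinearMap.add_apply, LinearMap.sub_apply, LinearMap.id_apply,
      LinearMap.comp_apply, h1, h2, map_zero]
    simp
  have hTl : ∀ x (hx : x ∈ D l), T x = (e.symm ⟨x, hx⟩ : ι → F) := by
    intro x hx
    have h1 := hPin l ⟨x, hx⟩
    have h2 := hPout j x (blocks_le_qorth hQ hD hjl hx)
    simp only [T, LinearMap.add_apply, LinearMap.sub_apply, LinearMap.id_apply,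
      LinearMap.comp_apply, h1, h2, map_zero]
    simp
  have hTr : ∀ x, x ∈ qorth hQ (D j) → x ∈ qorth hQ (D l) → T x = x := by
    intro x h1 h2
    simp only [T, LinearMap.add_apply, LinearMap.sub_apply, LinearMap.id_apply,
      LinearMap.comp_apply, hPout j x h1, hPout l x h2, map_zero]
    simp
  have hdec : ∀ x, ∃ a ∈ D j, ∃ b ∈ D l, ∃ r, r ∈ qorth hQ (D j) ∧ r ∈ qorth hQ (D l) ∧
      x = a + b + r := by
    intro x
    obtain ⟨a, ha, c, hc', rfl⟩ := nondeg_decomp hQ (hD.nondegenerate j) x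
    obtain ⟨b, hb, r, hr, rfl⟩ := nondeg_decomp hQ (hD.nondegenerate l) c
    refine ⟨a, ha, b, hb, r, ?_, hr, (add_assoc _ _ _).symm⟩
    simpa using Submodule.sub_mem _ hc' (blocks_le_qorth hQ hD hjl hb)
  have hQT : ∀ x, Q (T x) = Q x := by
    intro x
    obtain ⟨a, ha, b, hb, r, hr1, hr2, rfl⟩ := hdec x
    have he' : Q (e.symm ⟨b, hb⟩ : ι → F) = Q b := by
      have := he (e.symm ⟨b, hb⟩)
      rw [e.apply_symm_apply] at this
      exact this.symm
    rw [map_add, map_add, hTj a ha, hTl b hb, hTr r hr1 hr2, q_add hQ, q_add hQ (a + b),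
      q_add hQ, q_add hQ a b, he, he', hQ.polar_bilinear.add_left, hQ.polar_bilinear.add_left,
      hD.orthogonal l j hjl.symm _ (e _).2 _ (e.symm _).2, hD.orthogonal j l hjl a ha b hb,
      pf_comm hQ _ r, (mem_qorth hQ).mp hr2 _ (e _).2, pf_comm hQ _ r,
      (mem_qorth hQ).mp hr1 _ (e.symm _).2, pf_comm hQ a r, (mem_qorth hQ).mp hr1 a ha,
      pf_comm hQ b r, (mem_qorth hQ).mp hr2 b hb]
  have hinj : Function.Injective T := by
    rw [injective_iff_map_eq_zero]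
    intro x hx
    by_contra hx0
    obtain ⟨y, hy⟩ := (hQ.nondegenerate x hx0).2
    refine hy ?_
    have := hQT (x + y)
    rw [map_add, hx, zero_add, hQT, q_add hQ] at this
    have h0 := hQT x
    rw [hx, q_zero hQ] at h0
    linear_combination -this + h0
  have hunit : IsUnit (LinearMap.toMatrix' T) := by
    rw [← Matrix.mulVec_injective_iff_isUnit]
    intro a b hab
    simp only [LinearMap.toMatrix'_mulVec] at hab
    exact hinj hab
  obtain ⟨g, hg⟩ : ∃ g : GL ι F, ∀ x, (g : Matrix ι ι F) *ᵥ x = T x :=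
    ⟨hunit.unit, fun x => by rw [IsUnit.unit_spec, LinearMap.toMatrix'_mulVec]⟩
  have hgI : g ∈ Cfsg.isometryGroup F Q := fun x _ => by
    change Q ((g : Matrix ι ι F) *ᵥ x) = Q x
    rw [hg, hQT]
  obtain ⟨h, hI, hΩ, hh1, hh2⟩ := exists_class_fix hQ h7 (D₀ := D j) (fun c _ => by
    obtain ⟨u, hu, hu0, hQu⟩ := exists_sing hQ (D j) (by rw [hD.decomp.finrank_eq]; exact h3)
    obtain ⟨w, hw, hQw, huw⟩ := exists_partner_in hQ (hD.nondegenerate j) hu hu0 hQu
    exact ⟨c • u + w, (D j).add_mem ((D j).smul_mem _ hu) hw,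
      by rw [q_smul_add hQ, hQu, hQw, huw]; ring⟩) hgI
  have hfix : ∀ i, i ≠ j → i ≠ l → ∀ x ∈ D i, ((g * h : GL ι F) : Matrix ι ι F) *ᵥ x = x := by
    intro i hij hil x hx
    rw [Units.val_mul, ← mulVec_mulVec, hh2 x (blocks_le_qorth hQ hD (Ne.symm hij) hx), hg,
      hTr x (blocks_le_qorth hQ hD (Ne.symm hij) hx) (blocks_le_qorth hQ hD (Ne.symm hil) hx)]
  have hj : ∀ x ∈ D j, ((g * h : GL ι F) : Matrix ι ι F) *ᵥ x ∈ D l := by
    intro x hx
    rw [Units.val_mul, ← mulVec_mulVec, hg, hTj _ (hh1 x hx)]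
    exact (e _).2
  refine ⟨g * h, ⟨mem_decomp_of_maps hQ hD (Equiv.swap j l) (Equiv.injective _) fun i x hx => ?_,
    hΩ⟩, hj, hfix⟩
  by_cases hij : i = j
  · subst hij; rw [Equiv.swap_apply_left]; exact hj x hx
  by_cases hil : i = l
  · subst hil
    rw [Equiv.swap_apply_right, Units.val_mul, ← mulVec_mulVec,
      hh2 x (blocks_le_qorth hQ hD hjl hx), hg, hTl x hx]
    exact (e.symm _).2
  rw [Equiv.swap_apply_of_ne_of_ne hij hil, hfix i hij hil x hx]
  exact hx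

/-- a root element with centre in a block, parameter outside, gives everything -/
lemma omega_le_of_block_root (h3 : 3 ≤ k)
    (hiso : t = 2 ∨ ∀ i j, Cfsg.Geo.AreIsometricFor Q (D i) (D j)) {M : Subgroup (GL ι F)}
    (hHM : Cfsg.Geo.decompositionStabilizer D ⊓ Cfsg.Geo.omegaGL Q ≤ M) {i : Fin t} {u b : ι → F}
    (hu : u ∈ D i) (hu0 : u ≠ 0) (hQu : Q u = 0) (hb : b ∈ qorth hQ (D i)) (hb0 : b ≠ 0)
    (hbM : qE Q u b ∈ M) : Cfsg.Geo.omegaGL Q ≤ M := by
  have hperp : ∀ x ∈ qorth hQ (D i), pf x u = 0 := fun x hx => (mem_qorth hQ).mp hx u hu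
  let X : AddSubgroup (ι → F) :=
    { carrier := {x | x ∈ qorth hQ (D i) ∧ qE Q u x ∈ M}
      add_mem' := fun {x y} hx hy => ⟨Submodule.add_mem _ hx.1 hy.1, by
        rw [← qE_mul hQ hQu (hperp x hx.1) (hperp y hy.1)]; exact M.mul_mem hx.2 hy.2⟩
      zero_mem' := ⟨Submodule.zero_mem _, by rw [qE_zero hQ hQu]; exact M.one_mem⟩
      neg_mem' := fun {x} hx => ⟨Submodule.neg_mem _ hx.1, by
        rw [← qE_inv hQ hQu (hperp x hx.1)]; exact M.inv_mem hx.2⟩ }
  obtain ⟨j, hj⟩ : ∃ j, b ∉ qorth hQ (D j) := by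
    by_contra! h
    exact hb0 (eq_zero_of_all_orth hQ hD h)
  have hji : j ≠ i := fun h => hj (h ▸ hb)
  have hjX : ∀ y ∈ D j, y ∈ X := by
    refine le_of_qE_invariant' hQ (hD.nondegenerate j) (by rw [hD.decomp.finrank_eq]; exact h3) X
      (fun u' hu' a' ha' hQu' hau' x hx => ?_) (x := b) ⟨hb, hbM⟩ ?_
    · have hH := qE_block_mem_H hQ h7 hD hu' ha' hQu' hau'
      have hI := omega_le_isometry hH.2
      refine ⟨(mem_qorth hQ).mpr fun s hs => ?_, ?_⟩
      · have hfx : (qE Q u' a' : Matrix ι ι F) *ᵥ s = s := by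
          rw [qE_mulVec hQ hQu' hau', hD.orthogonal i j hji.symm s hs u' hu',
            hD.orthogonal i j hji.symm s hs a' ha']
          simp
        rw [← hfx, iso_pf hI]
        exact (mem_qorth hQ).mp hx.1 s hs
      · have := conj_qE_mem hQ (hHM hH) hI hQu (hperp x hx.1) hx.2
        simpa [qE_mulVec hQ hQu' hau' u, hD.orthogonal i j hji.symm u hu u' hu',
          hD.orthogonal i j hji.symm u hu a' ha'] using this
    · by_contra! hall
      exact hj ((mem_qorth hQ).mpr hall)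
  have hlX : ∀ l, l ≠ i → ∀ y ∈ D l, y ∈ X := by
    intro l hl y hy
    by_cases hlj : l = j
    · exact hjX y (hlj ▸ hy)
    rcases hiso with ht | hiso
    · exfalso
      subst ht
      have h1 := i.isLt; have h2 := j.isLt; have h3 := l.isLt
      exact (show False by
        have := Fin.val_ne_of_ne hji; have := Fin.val_ne_of_ne hl; have := Fin.val_ne_of_ne hlj
        omega)
    obtain ⟨h, hH, hhmap, hhfix⟩ := exists_block_swap hQ h7 hD h3 (Ne.symm hlj) (hiso j l)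
    have hmapeq : (D j).map (act h) = D l := by
      refine Submodule.eq_of_le_of_finrank_eq ?_ ?_
      · rintro _ ⟨x, hx, rfl⟩; rw [Matrix.toLin'_apply]; exact hhmap x hx
      · rw [hD.decomp.finrank_eq, ← (Submodule.equivMapOfInjective _ (fun a b h' =>
          mulVec_injective h (by simpa [Matrix.toLin'_apply] using h')) (D j)).finrank_eq,
          hD.decomp.finrank_eq]
    rw [← hmapeq] at hy
    obtain ⟨x, hx, rfl⟩ := hy
    rw [Matrix.toLin'_apply]
    refine ⟨blocks_le_qorth hQ hD (Ne.symm hl) (hhmap x hx), ?_⟩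
    have := conj_qE_mem hQ (hHM hH) (omega_le_isometry hH.2) hQu (hperp x (hjX x hx).1) (hjX x hx).2
    rwa [hhfix i (Ne.symm hji) (Ne.symm hl) u hu] at this
  have hallX : ∀ y ∈ qorth hQ (D i), y ∈ X := by
    intro y hy
    rw [qorth_block hQ hD i, iSup_subtype'] at hy
    exact Submodule.iSup_induction _ (motive := fun z => z ∈ X) hy
      (fun l z hz => hlX l.1 l.2 z hz) X.zero_mem (fun a b ha hb => X.add_mem ha hb)
  have hroot : ∀ a, pf a u = 0 → qE Q u a ∈ M := by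
    intro a ha
    obtain ⟨a₁, ha₁, a₂, ha₂, rfl⟩ := nondeg_decomp hQ (hD.nondegenerate i) a
    have ha₁u : pf a₁ u = 0 := by
      rwa [hQ.polar_bilinear.add_left, hperp a₂ ha₂, add_zero] at ha
    rw [← qE_mul hQ hQu ha₁u (hperp a₂ ha₂)]
    exact M.mul_mem (hHM (qE_block_mem_H hQ h7 hD hu ha₁ hQu ha₁u)) (hallX a₂ ha₂).2
  obtain ⟨w, hw, hQw, huw⟩ := exists_partner_in hQ (hD.nondegenerate i) hu hu0 hQu
  obtain ⟨a, haD, hau, haw, hQa⟩ : ∃ a ∈ D i, pf a u = 0 ∧ pf a w = 0 ∧ Q a ≠ 0 := by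
    by_contra! hall
    have h1 := finrank_inf_ge (D i) (qorth hQ (Submodule.span F {u, w}))
    have h2 := finrank_qorth hQ (Submodule.span F {u, w})
    have h3' := span_le_two (F := F) u w
    rw [hD.decomp.finrank_eq] at h1
    obtain ⟨z, hz, hz0⟩ := Submodule.exists_mem_ne_zero_of_ne_bot
      (show D i ⊓ qorth hQ (Submodule.span F {u, w}) ≠ ⊥ from fun h0 => by
        rw [h0, finrank_bot] at h1; omega)
    obtain ⟨hzu, hzw⟩ := (qorth_span_pair hQ).mp hz.2
    obtain ⟨y, hy, hzy⟩ := (hD.nondegenerate i z hz.1 hz0).2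
    obtain ⟨y', hy'⟩ : ∃ y', y' = y - pf y w • u - pf y u • w := ⟨_, rfl⟩
    have hy'D : y' ∈ D i :=
      hy' ▸ (D i).sub_mem ((D i).sub_mem hy ((D i).smul_mem _ hu)) ((D i).smul_mem _ hw)
    have hy'u : pf y' u = 0 := by
      rw [hy', pf_sub_left hQ, pf_sub_left hQ, hQ.polar_bilinear.smul_left,
        hQ.polar_bilinear.smul_left, pf_self hQ u, hQu, pf_comm hQ w u, huw]
      ring
    have hy'w : pf y' w = 0 := by
      rw [hy', pf_sub_left hQ, pf_sub_left hQ, hQ.polar_bilinear.smul_left,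
        hQ.polar_bilinear.smul_left, pf_self hQ w, hQw, huw]
      ring
    have h4 := hall (z + y') ((D i).add_mem hz.1 hy'D)
      (by rw [hQ.polar_bilinear.add_left, hzu, hy'u, add_zero])
      (by rw [hQ.polar_bilinear.add_left, hzw, hy'w, add_zero])
    rw [q_add hQ, hall z hz.1 hzu hzw, hall y' hy'D hy'u hy'w, hy', pf_sub_right hQ,
      pf_sub_right hQ, hQ.polar_bilinear.smul_right, hQ.polar_bilinear.smul_right, hzu, hzw] at h4
    exact hzy (by linear_combination h4)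
  have he := qE_block_mem_H hQ h7 hD hw haD hQw haw
  have heI := omega_le_isometry he.2
  refine omega_le_of_two_roots hQ h7 hQu (v := (qE Q w a : Matrix ι ι F) *ᵥ u)
    (by rw [iso_Q heI, hQu]) ?_ hroot (roots_conj hQ (hHM he) heI hQu hroot)
  rw [qE_mulVec hQ hQw haw]
  simp only [pf_sub_right hQ, hQ.polar_bilinear.add_right, hQ.polar_bilinear.smul_right,
    pf_self hQ, hQu, huw, pf_comm hQ u a, hau]
  intro h
  exact hQa (by linear_combination -h)

/-- blocks of dimension at least five -/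
theorem isMaximalIn_qWreath (h5 : 5 ≤ k)
    (hiso : t = 2 ∨ ∀ i j, Cfsg.Geo.AreIsometricFor Q (D i) (D j)) :
    Cfsg.Geo.IsMaximalIn (Cfsg.Geo.omegaGL Q)
      (Cfsg.Geo.decompositionStabilizer D ⊓ Cfsg.Geo.omegaGL Q) := by
  have ht : 0 < t := by have := hD.decomp.two_le; omega
  refine isMaximalIn_of inf_le_right ?_ ?_
  · intro hle
    let i₀ : Fin t := ⟨0, ht⟩
    let j₀ : Fin t := ⟨1, by have := hD.decomp.two_le; omega⟩
    have hne : j₀ ≠ i₀ := fun h => by simp [i₀, j₀] at h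
    obtain ⟨u, hu, hu0, hQu⟩ := exists_sing hQ (D i₀) (by rw [hD.decomp.finrank_eq]; omega)
    obtain ⟨b, hb, hb0⟩ := Submodule.exists_mem_ne_zero_of_ne_bot
      (show D j₀ ≠ ⊥ from fun h => by
        have := hD.decomp.finrank_eq j₀; rw [h, finrank_bot] at this; omega)
    have hbu : pf b u = 0 := hD.orthogonal _ _ hne b hb u hu
    obtain ⟨σ, hσ⟩ := (hle (qE_mem_omega hQ (by omega) hQu hbu)).1
    have hfix : ∀ i, ∀ x ∈ D i, pf x u = 0 → pf x b = 0 → x ≠ 0 → σ i = i := by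
      intro i x hx h1 h2 hx0
      have hm : (qE Q u b : Matrix ι ι F) *ᵥ x ∈ D (σ i) := by
        rw [← hσ i, ← Matrix.toLin'_apply]; exact Submodule.mem_map_of_mem hx
      rw [qE_mulVec hQ hQu hbu, h1, h2] at hm
      simp only [mul_zero, sub_zero, zero_smul, add_zero] at hm
      by_contra hne'
      exact hx0 (((hD.decomp.indep.pairwiseDisjoint hne').le_bot ⟨hm, hx⟩))
    have hσj : σ j₀ = j₀ := by
      have h1 := finrank_inf_ge (D j₀) (qorth hQ (Submodule.span F {u, b}))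
      have h2 := finrank_qorth hQ (Submodule.span F {u, b})
      have h3 := span_le_two (F := F) u b
      rw [hD.decomp.finrank_eq] at h1
      obtain ⟨x, hx, hx0⟩ := Submodule.exists_mem_ne_zero_of_ne_bot
        (show D j₀ ⊓ qorth hQ (Submodule.span F {u, b}) ≠ ⊥ from fun h0 => by
          rw [h0, finrank_bot] at h1; omega)
      obtain ⟨h4, h5'⟩ := (qorth_span_pair hQ).mp hx.2
      exact hfix j₀ x hx.1 h4 h5' hx0
    obtain ⟨y, hy, hby⟩ := (hD.nondegenerate j₀ b hb hb0).1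
    have hyu : pf y u = 0 := hD.orthogonal _ _ hne y hy u hu
    have hm : (qE Q u b : Matrix ι ι F) *ᵥ y ∈ D j₀ := by
      have hmem := Submodule.mem_map_of_mem (f := Matrix.toLin' (qE Q u b : Matrix ι ι F)) hy
      rw [hσ j₀, Matrix.toLin'_apply, hσj] at hmem
      exact hmem
    rw [qE_mulVec hQ hQu hbu, hyu] at hm
    have h' := (D j₀).sub_mem hm hy
    simp only [mul_zero, sub_zero, zero_smul, add_sub_cancel_left] at h'
    exact hu0 ((hD.decomp.indep.pairwiseDisjoint hne).le_bot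
      ⟨((D j₀).smul_mem_iff hby).mp h', hu⟩)
  intro M hHM hMK g hgM hgH
  have hgI := omega_le_isometry (hMK hgM)
  -- a Siegel element of `M` moving a block
  obtain ⟨kk, hkM, hkI, Z, hZdim, hkfix, j, y₀, hy₀, hky⟩ : ∃ kk ∈ M,
      kk ∈ Cfsg.isometryGroup F Q ∧ ∃ Z : Submodule F (ι → F),
        Fintype.card ι ≤ Module.finrank F Z + 2 ∧ (∀ x ∈ Z, (kk : Matrix ι ι F) *ᵥ x = x) ∧
        ∃ j, ∃ y₀ ∈ D j, (kk : Matrix ι ι F) *ᵥ y₀ ∉ D j := by
    by_contra hall
    apply hgH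
    have hblock : ∀ p, ∃ l, ∀ x ∈ D p, (g : Matrix ι ι F) *ᵥ x ∈ D l := by
      intro p
      obtain ⟨W, hW⟩ : ∃ W, W = (D p).map (act g) := ⟨_, rfl⟩
      have hWnd : Cfsg.Geo.IsNondegenerateOn pf W := by
        intro z hz hz0
        rw [hW] at hz
        obtain ⟨x, hx, rfl⟩ := hz
        obtain ⟨⟨y, hy, h1⟩, y', hy', h2⟩ :=
          hD.nondegenerate p x hx (fun h => hz0 (by rw [h, map_zero]))
        refine ⟨⟨_, hW ▸ Submodule.mem_map_of_mem hy, ?_⟩,
          _, hW ▸ Submodule.mem_map_of_mem hy', ?_⟩ <;>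
          simpa only [Matrix.toLin'_apply, iso_pf hgI]
      have hWd : Module.finrank F W = k := by
        rw [hW, ← (Submodule.equivMapOfInjective _ (fun a b h => mulVec_injective g
          (by simpa [Matrix.toLin'_apply] using h)) (D p)).finrank_eq, hD.decomp.finrank_eq]
      obtain ⟨l, hl⟩ : ∃ l, ∃ x ∈ D l, ∃ w ∈ W, pf x w ≠ 0 := by
        by_contra! hno
        obtain ⟨w, hw, hw0⟩ := Submodule.exists_mem_ne_zero_of_ne_bot
          (show W ≠ ⊥ from fun h => by rw [h, finrank_bot] at hWd; omega)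
        exact hw0 (eq_zero_of_all_orth hQ hD fun l => (mem_qorth hQ).mpr fun s hs => by
          rw [pf_comm hQ]; exact hno l s hs w hw)
      obtain ⟨x, hx, hxw⟩ := hl
      have hle : W ≤ D l := le_of_qE_invariant hQ hWnd (by omega) (fun u' hu' a' ha' hQu' hau' z hz => by
        rw [hW] at hu' ha'
        obtain ⟨u, hu, rfl⟩ := hu'
        obtain ⟨a, ha, rfl⟩ := ha'
        rw [Matrix.toLin'_apply] at hQu'
        rw [Matrix.toLin'_apply, Matrix.toLin'_apply] at hau' ⊢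
        by_contra hbad
        have hgu : Q u = 0 := by rwa [iso_Q hgI] at hQu'
        have hga : pf a u = 0 := by rwa [iso_pf hgI] at hau'
        refine hall ⟨_, conj_qE_mem hQ hgM hgI hgu hga (hHM (qE_block_mem_H hQ h7 hD hu ha hgu hga)),
          qE_mem_isometry hQ hQu' hau',
          qorth hQ (Submodule.span F {(g : Matrix ι ι F) *ᵥ u, (g : Matrix ι ι F) *ᵥ a}), ?_,
          fun x hx => ?_, l, z, hz, hbad⟩
        · have := finrank_qorth hQ (Submodule.span F {(g : Matrix ι ι F) *ᵥ u,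
            (g : Matrix ι ι F) *ᵥ a})
          have := span_le_two (F := F) ((g : Matrix ι ι F) *ᵥ u) ((g : Matrix ι ι F) *ᵥ a)
          omega
        · obtain ⟨h1, h2⟩ := (qorth_span_pair hQ).mp hx
          rw [qE_mulVec hQ hQu' hau', h1, h2]
          simp) hx hxw
      exact ⟨l, fun y hy => hle (hW ▸ by rw [← Matrix.toLin'_apply]; exact Submodule.mem_map_of_mem hy)⟩
    choose σ hσ using hblock
    refine ⟨mem_decomp_of_maps hQ hD σ (fun p p' hpp => ?_) hσ, hMK hgM⟩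
    by_contra hne
    have h1 : D p ⊔ D p' ≤ (D (σ p)).comap (act g) := sup_le
      (fun x hx => by rw [Submodule.mem_comap, Matrix.toLin'_apply]; exact hσ p x hx)
      (fun x hx => by rw [Submodule.mem_comap, Matrix.toLin'_apply, hpp]; exact hσ p' x hx)
    have hinj : Function.Injective (act g) := fun a b h => mulVec_injective g
      (by simpa [Matrix.toLin'_apply] using h)
    have h2 := Submodule.finrank_mono
      ((Submodule.map_mono h1).trans (Submodule.map_comap_le (act g) (D (σ p))))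
    rw [← (Submodule.equivMapOfInjective _ hinj (D p ⊔ D p')).finrank_eq,
      hD.decomp.finrank_eq] at h2
    have h3 := Submodule.finrank_sup_add_finrank_inf_eq (D p) (D p')
    rw [(hD.decomp.indep.pairwiseDisjoint hne).eq_bot, finrank_bot, hD.decomp.finrank_eq,
      hD.decomp.finrank_eq] at h3
    omega
  obtain ⟨m, hmj, hm⟩ : ∃ m, m ≠ j ∧ (kk : Matrix ι ι F) *ᵥ y₀ ∉ qorth hQ (D m) := by
    by_contra! h
    exact hky (mem_block_of_orth hQ hD h)
  obtain ⟨K, hK⟩ : ∃ K, K = D j ⊓ (qorth hQ (D m)).comap (act kk) := ⟨_, rfl⟩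
  have hKdim : k ≤ Module.finrank F K + 2 := by
    have h1 := finrank_inf_ge (D j) Z
    rw [hD.decomp.finrank_eq] at h1
    have h2 := Submodule.finrank_mono (show D j ⊓ Z ≤ K from fun x hx => hK ▸ ⟨hx.1, by
      change (act kk) x ∈ qorth hQ (D m)
      rw [Matrix.toLin'_apply, hkfix x hx.2]
      exact blocks_le_qorth hQ hD hmj hx.1⟩)
    omega
  have hKj : K ≤ D j := hK ▸ inf_le_left
  obtain ⟨u, hu, hu0, hQu, a, ha, hau, haK⟩ : ∃ u ∈ K, u ≠ 0 ∧ Q u = 0 ∧
      ∃ a ∈ D j, pf a u = 0 ∧ a ∉ K := by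
    obtain ⟨u, hu, hu0, hQu⟩ := exists_sing hQ K (by omega)
    obtain ⟨P, hP⟩ : ∃ P, P = D j ⊓ qorth hQ (Submodule.span F {u}) := ⟨_, rfl⟩
    have hmemP : ∀ x, x ∈ P ↔ x ∈ D j ∧ pf x u = 0 := fun x => by
      rw [hP, Submodule.mem_inf]
      exact and_congr_right fun _ => ⟨fun h => (mem_qorth hQ).mp h u (Submodule.mem_span_singleton_self u),
        fun h => (mem_qorth hQ).mpr (pf_span_singleton hQ h)⟩
    by_cases hPK : P ≤ K
    swap
    · obtain ⟨a, ha, haK⟩ := SetLike.not_le_iff_exists.mp hPK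
      exact ⟨u, hu, hu0, hQu, a, ((hmemP a).mp ha).1, ((hmemP a).mp ha).2, haK⟩
    have hPd : k ≤ Module.finrank F P + 1 := by
      have h1 := finrank_inf_ge (D j) (qorth hQ (Submodule.span F {u}))
      have h2 := finrank_qorth hQ (Submodule.span F {u})
      have h3 := span_le_one (F := F) u
      rw [hD.decomp.finrank_eq, ← hP] at h1
      omega
    obtain ⟨C, hC⟩ := (Submodule.span F {u}).exists_isCompl
    have h0 := Submodule.finrank_add_eq_of_isCompl hC
    rw [Module.finrank_pi, finrank_span_singleton hu0] at h0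
    have h1 := finrank_inf_ge P C
    obtain ⟨u', hu', hu'0, hQu'⟩ := exists_sing hQ (P ⊓ C) (by omega)
    by_contra hno
    have hP'K : ∀ a ∈ D j, pf a u' = 0 → a ∈ K := fun a ha h => by
      by_contra haK
      exact hno ⟨u', hPK hu'.1, hu'0, hQu', a, ha, h, haK⟩
    obtain ⟨z, hz, hQz, huz⟩ := exists_partner_in hQ (hD.nondegenerate j) (hKj hu) hu0 hQu
    have hzK : z ∉ K := fun hzK => hm (by
      have : y₀ ∈ K := by
        have hmem : y₀ - pf y₀ u • z ∈ P := (hmemP _).mpr ⟨(D j).sub_mem hy₀ ((D j).smul_mem _ hz), by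
          rw [pf_sub_left hQ, hQ.polar_bilinear.smul_left, pf_comm hQ z u, huz]; ring⟩
        simpa using K.add_mem (hPK hmem) (K.smul_mem (pf y₀ u) hzK)
      rw [hK] at this
      simpa [Matrix.toLin'_apply] using this.2)
    have hu'u : pf u' u = 0 := ((hmemP u').mp hu'.1).2
    obtain ⟨c, hc⟩ : ∃ c, c = u' - pf u' z • u := ⟨_, rfl⟩
    have hc0 : c = 0 := by
      by_contra hc0
      have hcD : c ∈ D j :=
        hc ▸ (D j).sub_mem ((hmemP u').mp hu'.1).1 ((D j).smul_mem _ (hKj hu))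
      obtain ⟨y, hy, hcy⟩ := (hD.nondegenerate j c hcD hc0).2
      refine hcy ?_
      have hcu : pf c u = 0 := by
        rw [hc, pf_sub_left hQ, hQ.polar_bilinear.smul_left, hu'u, pf_self hQ, hQu]; ring
      have hcz : pf c z = 0 := by
        rw [hc, pf_sub_left hQ, hQ.polar_bilinear.smul_left, huz]; ring
      obtain ⟨y', hy'⟩ : ∃ y', y' = y - pf y u • z := ⟨_, rfl⟩
      have hy'u : pf y' u = 0 := by
        rw [hy', pf_sub_left hQ, hQ.polar_bilinear.smul_left, pf_comm hQ z u, huz]; ring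
      have hy'D : y' ∈ D j := hy' ▸ (D j).sub_mem hy ((D j).smul_mem _ hz)
      have hcy' : pf c y' = 0 := by
        by_contra hne
        have hu'y : pf u' y' ≠ 0 := by
          rwa [hc, pf_sub_left hQ, hQ.polar_bilinear.smul_left, pf_comm hQ u y', hy'u, mul_zero,
            sub_zero] at hne
        obtain ⟨s, hs⟩ : ∃ s, s = pf u' z / pf u' y' := ⟨_, rfl⟩
        have hmem := hP'K (z - s • y') ((D j).sub_mem hz ((D j).smul_mem _ hy'D)) (by
          rw [pf_comm hQ, pf_sub_right hQ, hQ.polar_bilinear.smul_right, hs,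
            div_mul_cancel₀ _ hu'y, sub_self])
        exact hzK (by
          simpa using K.add_mem hmem (K.smul_mem s (hPK ((hmemP y').mpr ⟨hy'D, hy'u⟩))))
      rw [show y = y' + pf y u • z by rw [hy']; abel, hQ.polar_bilinear.add_right,
        hQ.polar_bilinear.smul_right, hcy', hcz]
      ring
    rw [hc, sub_eq_zero] at hc0
    have hus : u' ∈ Submodule.span F {u} := Submodule.mem_span_singleton.mpr ⟨_, hc0.symm⟩
    exact hu'0 (Submodule.disjoint_def.mp hC.disjoint u' hus hu'.2)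
  have hucond := hu
  rw [hK] at hucond
  have hvm : (kk : Matrix ι ι F) *ᵥ u ∈ qorth hQ (D m) := by
    simpa [Matrix.toLin'_apply] using hucond.2
  have ham : (kk : Matrix ι ι F) *ᵥ a ∉ qorth hQ (D m) := fun h => haK (hK ▸ ⟨ha, by
    change (act kk) a ∈ qorth hQ (D m)
    rw [Matrix.toLin'_apply]; exact h⟩)
  obtain ⟨v, hv⟩ : ∃ v, v = (kk : Matrix ι ι F) *ᵥ u := ⟨_, rfl⟩
  rw [← hv] at hvm
  have hQv : Q v = 0 := by rw [hv, iso_Q hkI, hQu]
  have hv0 : v ≠ 0 := fun h => hu0 (mulVec_injective kk (by simpa [← hv] using h))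
  have hav : pf ((kk : Matrix ι ι F) *ᵥ a) v = 0 := by rw [hv, iso_pf hkI, hau]
  have haM : qE Q v ((kk : Matrix ι ι F) *ᵥ a) ∈ M := by
    rw [hv]
    exact conj_qE_mem hQ hkM hkI hQu hau (hHM (qE_block_mem_H hQ h7 hD (hKj hu) ha hQu hau))
  let X : AddSubgroup (ι → F) :=
    { carrier := {x | pf x v = 0 ∧ qE Q v x ∈ M}
      add_mem' := fun {x y} hx hy => ⟨by rw [hQ.polar_bilinear.add_left, hx.1, hy.1, add_zero], by
        rw [← qE_mul hQ hQv hx.1 hy.1]; exact M.mul_mem hx.2 hy.2⟩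
      zero_mem' := ⟨pf_zero_left hQ v, by rw [qE_zero hQ hQv]; exact M.one_mem⟩
      neg_mem' := fun {x} hx => ⟨by rw [pf_neg_left hQ, hx.1, neg_zero], by
        rw [← qE_inv hQ hQv hx.1]; exact M.inv_mem hx.2⟩ }
  have hmX : ∀ y ∈ D m, y ∈ X := by
    refine le_of_qE_invariant' hQ (hD.nondegenerate m) (by rw [hD.decomp.finrank_eq]; omega) X
      (fun u' hu' a' ha' hQu' hau' x hx => ?_) (x := (kk : Matrix ι ι F) *ᵥ a) ⟨hav, haM⟩ ?_
    · have hH := qE_block_mem_H hQ h7 hD hu' ha' hQu' hau'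
      have hI := omega_le_isometry hH.2
      have hfix : (qE Q u' a' : Matrix ι ι F) *ᵥ v = v := by
        rw [qE_mulVec hQ hQu' hau', (mem_qorth hQ).mp hvm u' hu', (mem_qorth hQ).mp hvm a' ha']
        simp
      refine ⟨by rw [← hfix, iso_pf hI]; exact hx.1, ?_⟩
      have := conj_qE_mem hQ (hHM hH) hI hQv hx.1 hx.2
      rwa [hfix] at this
    · by_contra! hall
      exact ham ((mem_qorth hQ).mpr hall)
  obtain ⟨δ, hδ, hδ0, hQδ⟩ := exists_sing hQ (D m) (by rw [hD.decomp.finrank_eq]; omega)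
  have hδM := (hmX δ hδ).2
  have hδv : pf δ v = 0 := (hmX δ hδ).1
  rw [qE_swap hQ hQv hQδ hδv] at hδM
  exact omega_le_of_block_root hQ h7 hD (by omega) hiso hHM hδ hδ0 hQδ
    (Submodule.neg_mem _ hvm) (neg_ne_zero.mpr hv0) hδM

end blocks

end CfsgLib.Classical
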