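import Cfsg.Agent.Lib.ClassicalMaxOrthNondeg

/-! A space split into two isometric orthogonal halves of even dimension has plus type; wrappers
of the maximality of non-degenerate subspace stabilisers. -/

set_option autoImplicit false

namespace CfsgLib.Classical

open Matrix

variable {ι : Type} [Fintype ι] [DecidableEq ι] {F : Type*} [Field F] {Q : (ι → F) → F}
variable (hQ : Cfsg.Geo.IsNondegenerateQuadraticForm Q)
include hQ

local notation "pf" => QuadraticMap.polar Q

lemma plane_of_sing {W : Submodule F (ι → F)} (h2 : Module.finrank F W = 2) {x : ι → F}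
    (hx : x ∈ W) (hx0 : x ≠ 0) (hQx : Q x = 0) : Cfsg.Geo.IsPlusTypeOn Q W := by
  refine ⟨Submodule.span F {x}, Submodule.span_le.mpr (Set.singleton_subset_iff.mpr hx),
    fun y hy => ?_, by rw [finrank_span_singleton hx0, h2]⟩
  obtain ⟨t, rfl⟩ := Submodule.mem_span_singleton.mp hy
  rw [hQ.smul, hQx, mul_zero]

lemma exists_nonsing_nondeg (h2 : (2 : F) ≠ 0) {X : Submodule F (ι → F)}
    (hX : Cfsg.Geo.IsNondegenerateOn pf X) (h0 : X ≠ ⊥) : ∃ x ∈ X, Q x ≠ 0 := by
  obtain ⟨e, he, hee⟩ := exists_sAniso (qB_symm hQ) h2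
    (show SNondeg (toBil hQ.polar_bilinear) X from fun w hw hw0 => (hX w hw hw0).2) h0
  refine ⟨e, he, fun h => hee ?_⟩
  rw [toBil_apply, pf_self hQ, h, mul_zero]

lemma nondeg_perp (h2 : (2 : F) ≠ 0) {X : Submodule F (ι → F)}
    (hX : Cfsg.Geo.IsNondegenerateOn pf X) {e : ι → F} (he : e ∈ X) (hQe : Q e ≠ 0) :
    Cfsg.Geo.IsNondegenerateOn pf (X ⊓ qorth hQ (Submodule.span F {e})) ∧
      Module.finrank F (X ⊓ qorth hQ (Submodule.span F {e}) : Submodule F (ι → F)) + 1 =
        Module.finrank F X := by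
  have hmem : ∀ x, x ∈ qorth hQ (Submodule.span F {e}) ↔ pf x e = 0 := fun x =>
    ⟨fun h => (mem_qorth hQ).mp h e (Submodule.mem_span_singleton_self e),
      fun h => (mem_qorth hQ).mpr (pf_span_singleton hQ h)⟩
  have hee : pf e e ≠ 0 := by rw [pf_self hQ]; exact mul_ne_zero h2 hQe
  refine ⟨fun p hp hp0 => ?_, ?_⟩
  · suffices h : ∃ x ∈ X ⊓ qorth hQ (Submodule.span F {e}), pf p x ≠ 0 by
      obtain ⟨x, hx, hpx⟩ := h
      exact ⟨⟨x, hx, by rwa [pf_comm hQ]⟩, x, hx, hpx⟩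
    obtain ⟨x, hx, hpx⟩ := (hX p hp.1 hp0).2
    refine ⟨x - (pf x e / pf e e) • e, ⟨X.sub_mem hx (X.smul_mem _ he), (hmem _).mpr ?_⟩, ?_⟩
    · rw [pf_sub_left hQ, hQ.polar_bilinear.smul_left, div_mul_cancel₀ _ hee, sub_self]
    · rw [pf_sub_right hQ, hQ.polar_bilinear.smul_right, (hmem p).mp hp.2, mul_zero, sub_zero]
      exact hpx
  · have h1 := finrank_inf_ge X (qorth hQ (Submodule.span F {e}))
    have h2' := finrank_qorth hQ (Submodule.span F {e})
    have h3 := span_le_one (F := F) e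
    have hlt : X ⊓ qorth hQ (Submodule.span F {e}) < X :=
      lt_of_le_not_ge inf_le_left fun h => hee ((hmem e).mp (h he).2)
    have := Submodule.finrank_lt_finrank_of_lt hlt
    omega

variable [Fintype F]

omit hQ in
lemma exists_sum_sq {a c : F} (h2 : (2 : F) ≠ 0) (ha : a ≠ 0) (hc : c ≠ 0) :
    ∃ s t, a * s ^ 2 + c * t ^ 2 = -a := by
  obtain ⟨s, t, hst⟩ := FiniteField.exists_root_sum_quadratic
    (f := Polynomial.C a * Polynomial.X ^ 2)
    (g := Polynomial.C c * Polynomial.X ^ 2 + Polynomial.C a)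
    (by rw [Polynomial.degree_C_mul_X_pow 2 ha]; rfl)
    (by rw [Polynomial.degree_add_C (by rw [Polynomial.degree_C_mul_X_pow 2 hc]; decide),
      Polynomial.degree_C_mul_X_pow 2 hc]; rfl)
    (by
      rw [← Nat.odd_iff]
      by_contra hodd
      rw [Nat.not_odd_iff_even, Nat.even_iff] at hodd
      have hch := FiniteField.even_card_iff_char_two.mpr hodd
      exact h2 (by
        have : CharP F 2 := hch ▸ ringChar.charP F
        exact_mod_cast CharP.cast_eq_zero F 2))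
  simp only [Polynomial.eval_add, Polynomial.eval_mul, Polynomial.eval_C, Polynomial.eval_pow,
    Polynomial.eval_X] at hst
  exact ⟨s, t, by linear_combination hst⟩

/-- two isometric orthogonal halves of even dimension make a space of plus type -/
theorem plus_of_isometric_halves {W : Submodule F (ι → F)}
    (hW : Cfsg.Geo.IsNondegenerateOn pf W) (hdim : 2 * Module.finrank F W = Fintype.card ι)
    (hev : Even (Module.finrank F W)) {g : GL ι F} (hgI : g ∈ Cfsg.isometryGroup F Q)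
    (hg : ∀ x ∈ W, (g : Matrix ι ι F) *ᵥ x ∈ qorth hQ W) : Cfsg.Geo.IsPlusTypeOn Q ⊤ := by
  have horth : ∀ x ∈ W, ∀ y ∈ W, pf x ((g : Matrix ι ι F) *ᵥ y) = 0 := fun x hx y hy => by
    rw [pf_comm hQ]; exact (mem_qorth hQ).mp (hg y hy) x hx
  suffices h : ∃ T : Submodule F (ι → F), Cfsg.Geo.IsTotallySingularQuad Q T ∧
      Module.finrank F T = Module.finrank F W by
    obtain ⟨T, hT, hTd⟩ := h
    exact ⟨T, le_top, hT, by rw [finrank_top, Module.finrank_pi, hTd, hdim]⟩
  by_cases h2 : (2 : F) = 0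
  · obtain ⟨φ, hφ⟩ : ∃ φ : (ι → F) →ₗ[F] (ι → F),
        φ = LinearMap.id + Matrix.toLin' (g : Matrix ι ι F) := ⟨_, rfl⟩
    have hφx : ∀ x, φ x = x + (g : Matrix ι ι F) *ᵥ x := fun x => by
      simp [hφ, Matrix.toLin'_apply]
    refine ⟨W.map φ, ?_, ?_⟩
    · rintro _ ⟨x, hx, rfl⟩
      rw [hφx, q_add hQ, iso_Q hgI, horth x hx x hx]
      linear_combination Q x * h2
    · have hinj : Function.Injective (φ.comp W.subtype) := by
        rw [injective_iff_map_eq_zero]
        intro x hx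
        have hx' : (x : ι → F) + (g : Matrix ι ι F) *ᵥ x = 0 := by rw [← hφx]; exact hx
        have hmem : (x : ι → F) ∈ W ⊓ qorth hQ W :=
          ⟨x.2, by rw [eq_neg_of_add_eq_zero_left hx']; exact Submodule.neg_mem _ (hg _ x.2)⟩
        rw [nondeg_inf_qorth hQ hW, Submodule.mem_bot] at hmem
        exact Subtype.ext hmem
      have := LinearMap.finrank_range_of_inj hinj
      rwa [LinearMap.range_comp, Submodule.range_subtype] at this
  obtain ⟨G, hGapp⟩ : ∃ G : (ι → F) →ₗ[F] (ι → F), ∀ x, G x = (g : Matrix ι ι F) *ᵥ x :=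
    ⟨Matrix.toLin' (g : Matrix ι ι F), fun x => Matrix.toLin'_apply _ _⟩
  suffices h : ∀ j, ∀ X ≤ W, Cfsg.Geo.IsNondegenerateOn pf X → Module.finrank F X = 2 * j →
      ∃ T ≤ X ⊔ X.map G, Cfsg.Geo.IsTotallySingularQuad Q T ∧ Module.finrank F T = 2 * j by
    obtain ⟨j, hj⟩ := hev
    obtain ⟨T, -, hT, hTd⟩ := h j W le_rfl hW (by omega)
    exact ⟨T, hT, by omega⟩
  intro j
  induction j with
  | zero =>
    exact fun X _ _ _ => ⟨⊥, bot_le, fun w hw => by rw [(Submodule.mem_bot F).mp hw, q_zero hQ],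
      by simp⟩
  | succ j ih =>
    intro X hXW hX hd
    obtain ⟨e, he, hQe⟩ := exists_nonsing_nondeg hQ h2 hX
      (fun h0 => by rw [h0, finrank_bot] at hd; omega)
    obtain ⟨hX1, hd1⟩ := nondeg_perp hQ h2 hX he hQe
    obtain ⟨e', he', hQe'⟩ := exists_nonsing_nondeg hQ h2 hX1
      (fun h0 => by rw [h0, finrank_bot] at hd1; omega)
    obtain ⟨hX2, hd2⟩ := nondeg_perp hQ h2 hX1 he' hQe'
    have hee' : pf e' e = 0 :=
      (mem_qorth hQ).mp he'.2 e (Submodule.mem_span_singleton_self e)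
    obtain ⟨X2, hX2def⟩ : ∃ X2, X2 = X ⊓ qorth hQ (Submodule.span F {e}) ⊓
        qorth hQ (Submodule.span F {e'}) := ⟨_, rfl⟩
    rw [← hX2def] at hX2 hd2
    have hX2X : X2 ≤ X := hX2def ▸ inf_le_left.trans inf_le_left
    obtain ⟨T, hTle, hT, hTd⟩ := ih X2 (hX2X.trans hXW) hX2 (by omega)
    obtain ⟨s, t, hst⟩ := exists_sum_sq h2 hQe hQe'
    obtain ⟨v₁, hv₁⟩ : ∃ v, v = e + G (s • e + t • e') := ⟨_, rfl⟩
    obtain ⟨v₂, hv₂⟩ : ∃ v, v = e' + G ((-(t * Q e' / Q e)) • e + s • e') := ⟨_, rfl⟩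
    have heW : e ∈ W := hXW he
    have he'W : e' ∈ W := hXW he'.1
    have hGpf : ∀ x y, pf (G x) (G y) = pf x y := fun x y => by
      rw [hGapp, hGapp, iso_pf hgI]
    have hGQ : ∀ x, Q (G x) = Q x := fun x => by rw [hGapp, iso_Q hgI]
    have horth' : ∀ x ∈ W, ∀ y ∈ W, pf x (G y) = 0 := fun x hx y hy => by
      rw [hGapp]; exact horth x hx y hy
    have hQ1 : Q v₁ = 0 := by
      rw [hv₁, q_add hQ, hGQ, horth' e heW _ (W.add_mem (W.smul_mem _ heW) (W.smul_mem _ he'W)),
        q_add hQ, hQ.smul, hQ.smul, hQ.polar_bilinear.smul_left, hQ.polar_bilinear.smul_right,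
        pf_comm hQ e e', hee']
      linear_combination hst
    have hQ2 : Q v₂ = 0 := by
      rw [hv₂, q_add hQ, hGQ, horth' e' he'W _ (W.add_mem (W.smul_mem _ heW) (W.smul_mem _ he'W)),
        q_add hQ, hQ.smul, hQ.smul, hQ.polar_bilinear.smul_left, hQ.polar_bilinear.smul_right,
        pf_comm hQ e e', hee']
      field_simp
      linear_combination Q e' * hst
    have h12 : pf v₁ v₂ = 0 := by
      simp only [hv₁, hv₂, hQ.polar_bilinear.add_left, hQ.polar_bilinear.add_right,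
        horth' e heW _ (W.add_mem (W.smul_mem _ heW) (W.smul_mem _ he'W)),
        pf_comm hQ (G (s • e + t • e')) e',
        horth' e' he'W _ (W.add_mem (W.smul_mem _ heW) (W.smul_mem _ he'W)), hGpf,
        hQ.polar_bilinear.smul_left, hQ.polar_bilinear.smul_right, pf_self hQ e, pf_self hQ e',
        pf_comm hQ e e', hee']
      field_simp
      ring
    have hTorth : ∀ w ∈ T, pf w e = 0 ∧ pf w e' = 0 ∧ pf w v₁ = 0 ∧ pf w v₂ = 0 := by
      intro w hw
      obtain ⟨a, ha, b, hb, rfl⟩ := Submodule.mem_sup.mp (hTle hw)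
      obtain ⟨b, hb', rfl⟩ := hb
      have hae : ∀ a ∈ X2, pf a e = 0 ∧ pf a e' = 0 := fun a ha => by
        rw [hX2def] at ha
        exact ⟨(mem_qorth hQ).mp ha.1.2 e (Submodule.mem_span_singleton_self e),
          (mem_qorth hQ).mp ha.2 e' (Submodule.mem_span_singleton_self e')⟩
      have haW : a ∈ W := hXW (hX2X ha)
      have hbW : b ∈ W := hXW (hX2X hb')
      have hGae : ∀ x ∈ W, pf (G b) x = 0 := fun x hx => by
        rw [pf_comm hQ]; exact horth' x hx b hbW
      refine ⟨?_, ?_, ?_, ?_⟩ <;>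
        simp only [hv₁, hv₂, hQ.polar_bilinear.add_left, hQ.polar_bilinear.add_right,
          hGae e heW, hGae e' he'W, (hae a ha).1, (hae a ha).2, hGpf,
          horth' a haW _ (W.add_mem (W.smul_mem _ heW) (W.smul_mem _ he'W)),
          hQ.polar_bilinear.smul_right, (hae b hb').1, (hae b hb').2, mul_zero, add_zero]
    have hts1 := ts_sup_span hQ hT hQ1 (fun w hw => by rw [pf_comm hQ]; exact (hTorth w hw).2.2.1)
    have hts2 := ts_sup_span hQ hts1 hQ2 (fun w hw => by
      obtain ⟨a, ha, z, hz, rfl⟩ := Submodule.mem_sup.mp hw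
      obtain ⟨c, rfl⟩ := Submodule.mem_span_singleton.mp hz
      rw [hQ.polar_bilinear.add_right, hQ.polar_bilinear.smul_right, pf_comm hQ v₂ a,
        (hTorth a ha).2.2.2, pf_comm hQ v₂ v₁, h12]
      ring)
    have hv1e : pf v₁ e = 2 * Q e := by
      rw [hv₁, hQ.polar_bilinear.add_left, pf_self hQ e, pf_comm hQ (G _) e,
        horth' e heW _ (W.add_mem (W.smul_mem _ heW) (W.smul_mem _ he'W)), add_zero]
    have hv1e' : pf v₁ e' = 0 := by
      rw [hv₁, hQ.polar_bilinear.add_left, pf_comm hQ e e', hee', pf_comm hQ (G _) e',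
        horth' e' he'W _ (W.add_mem (W.smul_mem _ heW) (W.smul_mem _ he'W)), add_zero]
    have hv2e' : pf v₂ e' = 2 * Q e' := by
      rw [hv₂, hQ.polar_bilinear.add_left, pf_self hQ e', pf_comm hQ (G _) e',
        horth' e' he'W _ (W.add_mem (W.smul_mem _ heW) (W.smul_mem _ he'W)), add_zero]
    have hn1 : v₁ ∉ T := fun h => mul_ne_zero h2 hQe (hv1e ▸ (hTorth v₁ h).1)
    have hn2 : v₂ ∉ T ⊔ Submodule.span F {v₁} := fun h => by
      obtain ⟨a, ha, z, hz, hz'⟩ := Submodule.mem_sup.mp h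
      obtain ⟨c, rfl⟩ := Submodule.mem_span_singleton.mp hz
      refine mul_ne_zero h2 hQe' ?_
      rw [← hv2e', ← hz', hQ.polar_bilinear.add_left, hQ.polar_bilinear.smul_left,
        (hTorth a ha).2.1, hv1e']
      ring
    refine ⟨T ⊔ Submodule.span F {v₁} ⊔ Submodule.span F {v₂}, ?_, hts2, ?_⟩
    · have hmapmem : ∀ a b : F, G (a • e + b • e') ∈ X.map G := fun a b =>
        Submodule.mem_map_of_mem (X.add_mem (X.smul_mem _ he) (X.smul_mem _ he'.1))
      refine sup_le (sup_le ?_ ?_) ?_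
      · exact hTle.trans (sup_le_sup hX2X (Submodule.map_mono hX2X))
      · exact Submodule.span_le.mpr (Set.singleton_subset_iff.mpr
          (hv₁ ▸ Submodule.add_mem_sup he (hmapmem _ _)))
      · exact Submodule.span_le.mpr (Set.singleton_subset_iff.mpr
          (hv₂ ▸ Submodule.add_mem_sup he'.1 (hmapmem _ _)))
    · rw [finrank_sup_span hn2, finrank_sup_span hn1, hTd]
      ring

/-- either summand of dimension at most half works -/
theorem isMaximalIn_qNondeg' (h13 : 13 ≤ Fintype.card ι) {W : Submodule F (ι → F)}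
    (hW : Cfsg.Geo.IsNondegenerateOn pf W) (hW0 : W ≠ ⊥) (hW1 : W ≠ ⊤)
    (hne : 2 * Module.finrank F W = Fintype.card ι →
      ∀ g ∈ Cfsg.Geo.omegaGL Q, ¬ ∀ x ∈ W, (g : Matrix ι ι F) *ᵥ x ∈ qorth hQ W)
    (hex : ∀ U, (U = W ∨ U = qorth hQ W) → Fintype.card F ≤ 3 → Module.finrank F U = 2 →
      ∀ x ∈ U, x ≠ 0 → Q x ≠ 0) :
    Cfsg.Geo.IsMaximalIn (Cfsg.Geo.omegaGL Q)
      (Cfsg.Geo.subspaceStabilizer W ⊓ Cfsg.Geo.omegaGL Q) := by
  have hd := finrank_qorth hQ W
  by_cases hk : Module.finrank F W ≤ Module.finrank F (qorth hQ W)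
  · refine isMaximalIn_qNondeg hQ (by omega) hW hW0 (by omega) hk (fun h => hne (by omega))
      (fun h2 => ?_)
    by_cases hq : 4 ≤ Fintype.card F
    · exact Or.inl hq
    · exact Or.inr (hex W (Or.inl rfl) (by omega) h2)
  · rw [stab_qorth_inf hQ]
    have hne0 : qorth hQ W ≠ ⊥ := fun h0 => hW1 (Submodule.eq_top_of_finrank_eq (by
      rw [h0, finrank_bot] at hd; rw [Module.finrank_pi]; omega))
    refine isMaximalIn_qNondeg hQ (by omega) (nondeg_qorth hQ hW) hne0
      (by rw [qorth_qorth hQ]; omega) (by rw [qorth_qorth hQ]; omega)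
      (fun h => by rw [qorth_qorth hQ] at h; omega) (fun h2 => ?_)
    by_cases hq : 4 ≤ Fintype.card F
    · exact Or.inl hq
    · exact Or.inr (hex _ (Or.inr rfl) (by omega) h2)

end CfsgLib.Classical
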