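import Cfsg.Agent.Lib.ClassicalMaxOrthWreath
import Cfsg.Agent.Lib.ClassicalOrthPlus
import Cfsg.Agent.Lib.ClassicalOrthParity
import Mathlib.NumberTheory.LegendreSymbol.QuadraticChar.Basic

/-! Blocks of dimension three in odd characteristic, at least five elements. -/

set_option autoImplicit false

namespace CfsgLib.Classical

open Matrix

variable {ι : Type} [Fintype ι] [DecidableEq ι] {F : Type*} [Field F] {Q : (ι → F) → F}

/-- a non-singular vector of `D₀` with anisotropic orthogonal in `D₀` -/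
def AnisoPerp (Q : (ι → F) → F) (D₀ : Submodule F (ι → F)) (x : ι → F) : Prop :=
  x ∈ D₀ ∧ Q x ≠ 0 ∧ ∀ y ∈ D₀, QuadraticMap.polar Q y x = 0 → Q y = 0 → y = 0

section field

variable [Fintype F]

lemma isSquare_mul_of_not {a b : F} (ha : ¬ IsSquare a) (hb : ¬ IsSquare b) :
    IsSquare (a * b) := by
  classical
  have ha0 : a ≠ 0 := fun h => ha (h ▸ IsSquare.zero)
  have hb0 : b ≠ 0 := fun h => hb (h ▸ IsSquare.zero)
  rw [← quadraticChar_one_iff_isSquare (mul_ne_zero ha0 hb0), map_mul,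
    quadraticChar_neg_one_iff_not_isSquare.mpr ha, quadraticChar_neg_one_iff_not_isSquare.mpr hb]
  norm_num

lemma bad_value_five : ∀ κ μ z : ZMod 5, κ ≠ 0 → μ ≠ 0 → z ≠ 0 →
    ∃ c : ZMod 5, c ≠ 0 ∧ c ≠ -(4 * κ) ∧
      ∀ s : ZMod 5, s = 0 ∨ (1 - c * z) ^ 2 * μ + c ^ 2 * z ≠ κ * s ^ 2 := by decide

/-- the quadratic expression leaves the square class of `κ` -/
theorem exists_bad_value (h2 : (2 : F) ≠ 0) (hodd : Odd (Fintype.card F))
    (h5 : 5 ≤ Fintype.card F) {κ μ z : F} (hκ : κ ≠ 0) (hμ : μ ≠ 0) (hz : z ≠ 0) :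
    ∃ c : F, c ≠ 0 ∧ c ≠ -(4 * κ) ∧
      ∀ s : F, s ≠ 0 → (1 - c * z) ^ 2 * μ + c ^ 2 * z ≠ κ * s ^ 2 := by
  classical
  by_cases hq : Fintype.card F = 5
  · obtain ⟨e⟩ : Nonempty (ZMod 5 ≃+* F) := ⟨ZMod.ringEquivOfPrime F (by norm_num) hq⟩
    obtain ⟨c, hc0, hc1, hc⟩ := bad_value_five (e.symm κ) (e.symm μ) (e.symm z)
      (fun h => hκ (by simpa using congrArg e h)) (fun h => hμ (by simpa using congrArg e h))
      (fun h => hz (by simpa using congrArg e h))
    refine ⟨e c, fun h => hc0 (e.injective (by rw [h, map_zero])), fun h => hc1 ?_,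
      fun s hs h => ?_⟩
    · exact e.injective (by rw [h, map_neg, map_mul, map_ofNat, RingEquiv.apply_symm_apply])
    · rcases hc (e.symm s) with h0 | h0
      · exact hs (by simpa using congrArg e h0)
      · apply h0
        apply e.injective
        simpa using h
  by_contra! hall
  choose! s hs0 hs using hall
  obtain ⟨A, hA⟩ : ∃ A, A = z ^ 2 * μ + z := ⟨_, rfl⟩
  obtain ⟨B, hB⟩ : ∃ B, B = -(2 * z * μ) := ⟨_, rfl⟩
  let C : Finset F := (Finset.univ.erase 0).erase (-(4 * κ))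
  have hC : ∀ c ∈ C, c ≠ 0 ∧ c ≠ -(4 * κ) := fun c hc => by
    simp only [C, Finset.mem_erase] at hc
    exact ⟨hc.2.1, hc.1⟩
  let Pt : Finset (F × F) := C.image (fun c => (c, s c)) ∪ C.image (fun c => (c, -s c))
  have hcurve : ∀ p ∈ Pt, κ * p.2 ^ 2 = A * p.1 ^ 2 + B * p.1 + μ ∧ p.1 ∈ C := by
    intro p hp
    simp only [Pt, Finset.mem_union, Finset.mem_image] at hp
    rcases hp with ⟨c, hc, rfl⟩ | ⟨c, hc, rfl⟩ <;>
      refine ⟨?_, hc⟩ <;>
      have := hs c (hC c hc).1 (hC c hc).2 <;>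
      simp only [hA, hB] <;> linear_combination -this
  have hcard : 2 * C.card ≤ Pt.card := by
    rw [Finset.card_union_of_disjoint, Finset.card_image_of_injective _
      (fun a b h => (Prod.mk.inj h).1), Finset.card_image_of_injective _
      (fun a b h => (Prod.mk.inj h).1)]
    · omega
    · rw [Finset.disjoint_left]
      simp only [Finset.mem_image]
      rintro p ⟨c, hc, rfl⟩ ⟨c', hc', h⟩
      obtain ⟨rfl, h'⟩ := Prod.mk.inj h
      have : 2 * s c' = 0 := by linear_combination -h'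
      exact hs0 c' (hC c' hc').1 (hC c' hc').2 ((mul_eq_zero.mp this).resolve_left h2)
  have hCc : Fintype.card F ≤ C.card + 2 := by
    have h1 : (Finset.univ.erase (0 : F)).card + 1 = Fintype.card F := by
      rw [Finset.card_erase_add_one (Finset.mem_univ _), Finset.card_univ]
    have h3 := Finset.pred_card_le_card_erase (a := -(4 * κ)) (s := Finset.univ.erase (0 : F))
    change (Finset.univ.erase (0 : F)).card - 1 ≤ C.card at h3
    omega
  obtain ⟨p₀, hp₀⟩ : Pt.Nonempty := Finset.card_pos.mp (by omega)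
  have hbound : Pt.card ≤ Fintype.card F + 2 := by
    let vert := Pt.filter (fun p => p.1 = p₀.1)
    let rest := Pt.filter (fun p => ¬ p.1 = p₀.1)
    have hsplit : vert.card + rest.card = Pt.card := Finset.card_filter_add_card_filter_not _
    have hv : vert.card ≤ 2 := by
      have : vert ⊆ {(p₀.1, p₀.2), (p₀.1, -p₀.2)} := by
        intro p hp
        simp only [vert, Finset.mem_filter] at hp
        have h1 := (hcurve p hp.1).1
        rw [hp.2, ← (hcurve p₀ hp₀).1] at h1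
        rcases sq_eq_sq_iff_eq_or_eq_neg.mp (mul_left_cancel₀ hκ h1) with h | h
        · simp [Prod.ext_iff, hp.2, h]
        · simp [Prod.ext_iff, hp.2, h]
      exact le_trans (Finset.card_le_card this) Finset.card_le_two
    have hr : rest.card ≤ Fintype.card F := by
      rw [← Finset.card_univ]
      refine Finset.card_le_card_of_injOn (fun p => (p.2 - p₀.2) / (p.1 - p₀.1))
        (fun p _ => Finset.mem_univ _) ?_
      intro p hp p' hp' heq
      simp only [rest, Finset.coe_filter, Set.mem_ofPred_eq] at hp hp'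
      obtain ⟨σ, hσ⟩ : ∃ σ, σ = (p.2 - p₀.2) / (p.1 - p₀.1) := ⟨_, rfl⟩
      have hσ' : σ = (p'.2 - p₀.2) / (p'.1 - p₀.1) := hσ.trans heq
      rw [eq_div_iff (sub_ne_zero.mpr hp.2)] at hσ
      rw [eq_div_iff (sub_ne_zero.mpr hp'.2)] at hσ'
      have h0 := (hcurve p₀ hp₀).1
      have h1 := (hcurve p hp.1).1
      have h1' := (hcurve p' hp'.1).1
      by_contra hne
      have hne1 : p.1 - p'.1 ≠ 0 := fun h => hne (Prod.ext (sub_eq_zero.mp h) (by
        linear_combination -hσ + hσ' + σ * h))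
      obtain ⟨τ, hτ⟩ : ∃ τ, τ = p₀.2 - σ * p₀.1 := ⟨_, rfl⟩
      have e0 : p₀.2 = σ * p₀.1 + τ := by linear_combination -hτ
      have e1 : p.2 = σ * p.1 + τ := by linear_combination -hσ - hτ
      have e1' : p'.2 = σ * p'.1 + τ := by linear_combination -hσ' - hτ
      rw [e0] at h0
      rw [e1] at h1
      rw [e1'] at h1'
      have d1 : (p.1 - p₀.1) * ((κ * σ ^ 2 - A) * (p.1 + p₀.1) + (2 * κ * σ * τ - B)) = 0 := by
        linear_combination h1 - h0
      have d2 : (p'.1 - p₀.1) * ((κ * σ ^ 2 - A) * (p'.1 + p₀.1) + (2 * κ * σ * τ - B)) = 0 := by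
        linear_combination h1' - h0
      have g1 := (mul_eq_zero.mp d1).resolve_left (sub_ne_zero.mpr hp.2)
      have g2 := (mul_eq_zero.mp d2).resolve_left (sub_ne_zero.mpr hp'.2)
      have hsA : κ * σ ^ 2 - A = 0 :=
        (mul_eq_zero.mp (show (κ * σ ^ 2 - A) * (p.1 - p'.1) = 0 by
          linear_combination g1 - g2)).resolve_right hne1
      have hsB : 2 * κ * σ * τ - B = 0 := by
        linear_combination g1 - (p.1 + p₀.1) * hsA
      have hsμ : κ * τ ^ 2 - μ = 0 := by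
        linear_combination h0 - p₀.1 ^ 2 * hsA - p₀.1 * hsB
      have : (2 : F) * 2 * z * μ = 0 := by
        have h4 : B ^ 2 = 4 * A * μ := by
          linear_combination
            (-(2 * κ * σ * τ + B)) * hsB + (4 * κ * τ ^ 2) * hsA + (4 * A) * hsμ
        rw [hA, hB] at h4
        linear_combination -h4
      simp [h2, hz, hμ] at this
    omega
  obtain ⟨j, hj⟩ := hodd
  omega

end field

variable (hQ : Cfsg.Geo.IsNondegenerateQuadraticForm Q)
include hQ

local notation "pf" => QuadraticMap.polar Q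

section values

variable [Fintype F] (h2 : (2 : F) ≠ 0)
include h2

lemma exists_qvalue {W : Submodule F (ι → F)} (hW : Cfsg.Geo.IsNondegenerateOn pf W)
    (hd : 2 ≤ Module.finrank F W) (c : F) : ∃ d ∈ W, Q d = c := by
  obtain ⟨d, hd', hdd⟩ := exists_svalue (qB_symm hQ) h2
    (show SNondeg (toBil hQ.polar_bilinear) W from fun w hw hw0 => (hW w hw hw0).2) hd (2 * c)
  rw [toBil_apply, pf_self hQ] at hdd
  exact ⟨d, hd', mul_left_cancel₀ h2 hdd⟩

end values

section blocks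

variable [Fintype F] {t : ℕ} {D : Fin t → Submodule F (ι → F)}
  (hD : Cfsg.Geo.IsNondegenerateMDecomposition (QuadraticMap.polar Q) 3 D)
include hD

/-- the component in a block -/
noncomputable def qcomp (m : Fin t) : (ι → F) →ₗ[F] (ι → F) :=
  (D m).subtype ∘ₗ (D m).projectionOnto (qorth hQ (D m))
    ⟨disjoint_iff.mpr (nondeg_inf_qorth hQ (hD.nondegenerate m)), by
      rw [codisjoint_iff, eq_top_iff]
      intro x _
      obtain ⟨b, hb, c, hc, rfl⟩ := nondeg_decomp hQ (hD.nondegenerate m) x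
      exact Submodule.add_mem_sup hb hc⟩

lemma qcomp_mem (m : Fin t) (v : ι → F) : qcomp hQ hD m v ∈ D m := Submodule.coe_mem _

lemma qcomp_self {m : Fin t} {v : ι → F} (hv : v ∈ D m) : qcomp hQ hD m v = v := by
  have := Submodule.projectionOnto_apply_left (q := qorth hQ (D m))
    (⟨disjoint_iff.mpr (nondeg_inf_qorth hQ (hD.nondegenerate m)), by
      rw [codisjoint_iff, eq_top_iff]
      intro x _
      obtain ⟨b, hb, c, hc, rfl⟩ := nondeg_decomp hQ (hD.nondegenerate m) x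
      exact Submodule.add_mem_sup hb hc⟩) ⟨v, hv⟩
  simp only [qcomp, LinearMap.comp_apply, this]
  rfl

lemma qcomp_perp {m : Fin t} {v : ι → F} (hv : v ∈ qorth hQ (D m)) : qcomp hQ hD m v = 0 := by
  simp only [qcomp, LinearMap.comp_apply, (Submodule.projectionOnto_apply_eq_zero_iff _).mpr hv,
    map_zero]

lemma sub_qcomp_mem (m : Fin t) (v : ι → F) : v - qcomp hQ hD m v ∈ qorth hQ (D m) := by
  obtain ⟨b, hb, c, hc, rfl⟩ := nondeg_decomp hQ (hD.nondegenerate m) v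
  rw [map_add, qcomp_self hQ hD hb, qcomp_perp hQ hD hc]
  simpa using hc

lemma qcomp_pf (m : Fin t) (v : ι → F) {y : ι → F} (hy : y ∈ D m) :
    pf (qcomp hQ hD m v) y = pf v y := by
  have := (mem_qorth hQ).mp (sub_qcomp_mem hQ hD m v) y hy
  rw [pf_sub_left hQ] at this
  linear_combination -this

lemma qcomp_other {l m : Fin t} (h : l ≠ m) {v : ι → F} (hv : v ∈ D l) :
    qcomp hQ hD m v = 0 := qcomp_perp hQ hD (blocks_le_qorth hQ hD h.symm hv)

lemma eq_zero_of_qcomp {v : ι → F} (h : ∀ m, qcomp hQ hD m v = 0) : v = 0 :=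
  eq_zero_of_all_orth hQ hD fun m => by simpa [h m] using sub_qcomp_mem hQ hD m v

lemma mem_block_of_qcomp {p : Fin t} {v : ι → F} (h : ∀ m, m ≠ p → qcomp hQ hD m v = 0) :
    v ∈ D p :=
  mem_block_of_orth hQ hD fun m hm => by simpa [h m hm] using sub_qcomp_mem hQ hD m v

lemma exists_qcomp_ne {p : Fin t} {v : ι → F} (h : v ∉ D p) :
    ∃ m, m ≠ p ∧ qcomp hQ hD m v ≠ 0 := by
  by_contra! h'
  exact h (mem_block_of_qcomp hQ hD h')

lemma plane_perp (h2 : (2 : F) ≠ 0) {m : Fin t} {x : ι → F} (hx : x ∈ D m) (hQx : Q x ≠ 0) :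
    Cfsg.Geo.IsNondegenerateOn pf (D m ⊓ qorth hQ (Submodule.span F {x})) ∧
      Module.finrank F (D m ⊓ qorth hQ (Submodule.span F {x}) : Submodule F (ι → F)) = 2 := by
  obtain ⟨h1, h3⟩ := nondeg_perp hQ h2 (hD.nondegenerate m) hx hQx
  rw [hD.decomp.finrank_eq] at h3
  exact ⟨h1, by omega⟩

lemma mem_plane {m : Fin t} {x y : ι → F} :
    y ∈ D m ⊓ qorth hQ (Submodule.span F {x}) ↔ y ∈ D m ∧ pf y x = 0 := by
  rw [Submodule.mem_inf]
  exact and_congr_right fun _ =>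
    ⟨fun h => (mem_qorth hQ).mp h x (Submodule.mem_span_singleton_self x),
      fun h => (mem_qorth hQ).mpr (pf_span_singleton hQ h)⟩

variable (h13 : 13 ≤ Fintype.card ι)
include h13

lemma rot_mem_H {m : Fin t} {c d : ι → F} (hc : c ∈ D m) (hd : d ∈ D m) (hQc : Q c ≠ 0)
    (he : Q d = Q c) :
    qR hQ c * qR hQ d ∈ Cfsg.Geo.decompositionStabilizer D ⊓ Cfsg.Geo.omegaGL Q ∧
      ∀ x ∈ qorth hQ (D m), ((qR hQ c * qR hQ d : GL ι F) : Matrix ι ι F) *ᵥ x = x := by
  have hQd : Q d ≠ 0 := he ▸ hQc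
  have hfix : ∀ x ∈ qorth hQ (D m),
      ((qR hQ c * qR hQ d : GL ι F) : Matrix ι ι F) *ᵥ x = x := fun x hx => by
    rw [Units.val_mul, ← mulVec_mulVec, qR_mulVec hQ hQd, (mem_qorth hQ).mp hx d hd, mul_zero,
      zero_smul, sub_zero, qR_mulVec hQ hQc, (mem_qorth hQ).mp hx c hc, mul_zero, zero_smul,
      sub_zero]
  refine ⟨⟨mem_decomp_of_maps hQ hD id Function.injective_id fun i x hx => ?_,
    qR_mul_mem_omega hQ (by omega) hQc he⟩, hfix⟩
  by_cases him : i = m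
  · subst him
    rw [Units.val_mul, ← mulVec_mulVec, qR_mulVec hQ hQd, qR_mulVec hQ hQc]
    exact (D i).sub_mem ((D i).sub_mem hx ((D i).smul_mem _ hd)) ((D i).smul_mem _ hc)
  · rw [hfix x (blocks_le_qorth hQ hD (Ne.symm him) hx)]
    exact hx

lemma exists_rot (h2 : (2 : F) ≠ 0) {m : Fin t} {x x' : ι → F} (hx : x ∈ D m) (hx' : x' ∈ D m)
    (he : Q x' = Q x) (hQx : Q x ≠ 0) (hd : Q (x' - x) ≠ 0) :
    ∃ e ∈ Cfsg.Geo.decompositionStabilizer D ⊓ Cfsg.Geo.omegaGL Q,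
      (e : Matrix ι ι F) *ᵥ x = x' ∧
        ∀ y ∈ qorth hQ (D m), (e : Matrix ι ι F) *ᵥ y = y := by
  obtain ⟨hnd, hdim⟩ := plane_perp hQ hD h2 hx' (he ▸ hQx)
  obtain ⟨c, hc, hQc⟩ := exists_qvalue hQ h2 hnd hdim.ge (Q (x' - x))
  obtain ⟨hcD, hcx⟩ := (mem_plane hQ hD).mp hc
  obtain ⟨hH, hfix⟩ := rot_mem_H hQ hD h13 hcD ((D m).sub_mem hx' hx) (hQc.symm ▸ hd) hQc.symm
  refine ⟨_, hH, ?_, hfix⟩
  have hcoef : pf x (x' - x) = -Q (x' - x) := by
    rw [pf_sub_right hQ, q_sub hQ, pf_self hQ, he, pf_comm hQ x' x]; ring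
  rw [Units.val_mul, ← mulVec_mulVec, qR_mulVec hQ hd, hcoef, mul_neg, inv_mul_cancel₀ hd,
    neg_one_smul, sub_neg_eq_add, add_sub_cancel, qR_mulVec hQ (hQc.symm ▸ hd), pf_comm hQ x' c,
    hcx, mul_zero, zero_smul, sub_zero]

/-- the square class of the vectors with anisotropic orthogonal is unique -/
lemma anisoPerp_ratio (h2 : (2 : F) ≠ 0) {m : Fin t} {x y : ι → F}
    (hx : AnisoPerp Q (D m) x) (hy : AnisoPerp Q (D m) y) :
    ∃ s, s ≠ 0 ∧ Q y = Q x * s ^ 2 := by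
  obtain ⟨hxD, hQx, hxA⟩ := hx
  obtain ⟨hyD, hQy, hyA⟩ := hy
  by_cases hsq : IsSquare (Q y / Q x)
  · obtain ⟨s, hs⟩ := hsq
    refine ⟨s, fun h => hQy ?_, ?_⟩
    · rw [h, mul_zero, div_eq_zero_iff] at hs
      exact hs.resolve_right hQx
    · rw [sq, ← hs, mul_div_cancel₀ _ hQx]
  exfalso
  obtain ⟨hnd, hdim⟩ := plane_perp hQ hD h2 hxD hQx
  obtain ⟨y₀, hy₀, hQy₀⟩ := exists_qvalue hQ h2 hnd hdim.ge (Q y)
  obtain ⟨hy₀D, hy₀x⟩ := (mem_plane hQ hD).mp hy₀
  obtain ⟨y₁, ⟨hy₁, hy₁y⟩, hy₁0⟩ := Submodule.exists_mem_ne_zero_of_ne_bot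
    (show (D m ⊓ qorth hQ (Submodule.span F {x})) ⊓ qorth hQ (Submodule.span F {y₀}) ≠ ⊥ from
      fun h => by
        have h1 := finrank_inf_ge (D m ⊓ qorth hQ (Submodule.span F {x}))
          (qorth hQ (Submodule.span F {y₀}))
        have h3 := finrank_qorth hQ (Submodule.span F {y₀})
        have h4 := span_le_one (F := F) y₀
        rw [h, finrank_bot, hdim] at h1
        omega)
  obtain ⟨hy₁D, hy₁x⟩ := (mem_plane hQ hD).mp hy₁
  have hy₁y₀ : pf y₁ y₀ = 0 := (mem_qorth hQ).mp hy₁y y₀ (Submodule.mem_span_singleton_self _)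
  have hQy₁ : Q y₁ ≠ 0 := fun h => hy₁0 (hxA y₁ hy₁D hy₁x h)
  have hQy₀' : Q y₀ ≠ 0 := hQy₀ ▸ hQy
  have hns : ¬ IsSquare (-(Q y₁) / Q y₀) := by
    rintro ⟨s, hs⟩
    have h0 : y₁ + s • y₀ = 0 := hxA _ ((D m).add_mem hy₁D ((D m).smul_mem _ hy₀D))
      (by rw [hQ.polar_bilinear.add_left, hQ.polar_bilinear.smul_left, hy₁x, hy₀x]; ring) (by
        rw [q_add hQ, hQ.smul, hQ.polar_bilinear.smul_right, hy₁y₀, sq, ← hs]
        field_simp
        ring)
    have h1 : pf (y₁ + s • y₀) y₁ = 0 := by rw [h0, pf_zero_left hQ]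
    rw [hQ.polar_bilinear.add_left, hQ.polar_bilinear.smul_left, pf_comm hQ y₀ y₁, hy₁y₀,
      mul_zero, add_zero, pf_self hQ] at h1
    exact mul_ne_zero h2 hQy₁ h1
  obtain ⟨s, hs⟩ := isSquare_mul_of_not hns hsq
  have hs' : s * s = -(Q y₁) / Q x := by rw [← hs, hQy₀]; field_simp
  obtain ⟨z, hz⟩ : ∃ z, z = y₁ + s • x := ⟨_, rfl⟩
  have hzD : z ∈ D m := hz ▸ (D m).add_mem hy₁D ((D m).smul_mem _ hxD)
  have hQz : Q z = 0 := by
    rw [hz, q_add hQ, hQ.smul, hQ.polar_bilinear.smul_right, hy₁x, sq, hs']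
    field_simp
    ring
  have hzy₀ : pf z y₀ = 0 := by
    rw [hz, hQ.polar_bilinear.add_left, hQ.polar_bilinear.smul_left, hy₁y₀, pf_comm hQ x y₀, hy₀x]
    ring
  have hz0 : z ≠ 0 := fun h => by
    have h1 : pf z y₁ = 0 := by rw [h, pf_zero_left hQ]
    rw [hz, hQ.polar_bilinear.add_left, hQ.polar_bilinear.smul_left, pf_comm hQ x y₁, hy₁x,
      mul_zero, add_zero, pf_self hQ] at h1
    exact mul_ne_zero h2 hQy₁ h1
  obtain ⟨y₂, hy₂D, hQy₂, hd, hzy₂⟩ : ∃ y₂ ∈ D m, Q y₂ = Q y ∧ Q (y₂ - y) ≠ 0 ∧ pf z y₂ = 0 := by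
    by_cases h : Q (y₀ - y) = 0
    · refine ⟨-y₀, (D m).neg_mem hy₀D, by rw [q_neg hQ, hQy₀], fun h' => ?_,
        by rw [pf_neg_right hQ, hzy₀, neg_zero]⟩
      rw [q_sub hQ, hQy₀] at h
      rw [q_sub hQ, q_neg hQ, pf_neg_left hQ, hQy₀] at h'
      have : (2 : F) * 2 * Q y = 0 := by linear_combination h + h'
      simp [h2, hQy] at this
    · exact ⟨y₀, hy₀D, hQy₀, h, hzy₀⟩
  obtain ⟨e, he, hey, hefix⟩ := exists_rot hQ hD h13 h2 hyD hy₂D hQy₂ hQy hd
  have heI := omega_le_isometry he.2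
  obtain ⟨z', hz'⟩ : ∃ z', z' = ((e⁻¹ : GL ι F) : Matrix ι ι F) *ᵥ z := ⟨_, rfl⟩
  have hez : (e : Matrix ι ι F) *ᵥ z' = z := hz' ▸ mulVec_inv_mulVec e z
  have hz'D : z' ∈ D m := mem_block_of_orth hQ hD fun l hl => (mem_qorth hQ).mpr fun w hw => by
    rw [← iso_pf heI, hez, hefix w (blocks_le_qorth hQ hD (Ne.symm hl) hw)]
    exact hD.orthogonal m l (Ne.symm hl) z hzD w hw
  have hzero := hyA z' hz'D (by rw [← iso_pf heI, hez, hey, hzy₂])
    (by rw [← iso_Q heI, hez, hQz])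
  exact hz0 (by rw [← hez, hzero, mulVec_zero])

lemma anisoPerp_ratio' (h2 : (2 : F) ≠ 0) (hiso : ∀ i j, Cfsg.Geo.AreIsometricFor Q (D i) (D j))
    {l m : Fin t} {x y : ι → F} (hx : AnisoPerp Q (D l) x) (hy : AnisoPerp Q (D m) y) :
    ∃ s, s ≠ 0 ∧ Q y = Q x * s ^ 2 := by
  obtain ⟨φ, hφ⟩ := hiso l m
  obtain ⟨hxD, hQx, hxA⟩ := hx
  obtain ⟨x', hx'⟩ : ∃ x', x' = (φ ⟨x, hxD⟩ : ι → F) := ⟨_, rfl⟩
  have hQx' : Q x' = Q x := by rw [hx', hφ]
  rw [← hQx']
  refine anisoPerp_ratio hQ hD h13 h2 ⟨hx' ▸ (φ ⟨x, hxD⟩).2, hQx'.symm ▸ hQx, fun z hz hzx hQz => ?_⟩ hy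
  obtain ⟨w, hw⟩ : ∃ w : D l, φ w = ⟨z, hz⟩ := φ.surjective _
  have hwz : (φ w : ι → F) = z := by rw [hw]
  have h1 := hxA w w.2 (by
    have h3 : Q ((φ (w + ⟨x, hxD⟩) : D m) : ι → F) = Q ((w : ι → F) + x) := hφ (w + ⟨x, hxD⟩)
    rw [map_add, Submodule.coe_add, hwz, ← hx', q_add hQ, q_add hQ, hzx, hQx', ← hwz, hφ] at h3
    linear_combination -h3) (by rw [← hφ, hwz, hQz])
  have : w = 0 := Subtype.ext h1
  rw [← hwz, this, map_zero]
  rfl

variable (hiso : ∀ i j, Cfsg.Geo.AreIsometricFor Q (D i) (D j)) {M : Subgroup (GL ι F)}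
  (hHM : Cfsg.Geo.decompositionStabilizer D ⊓ Cfsg.Geo.omegaGL Q ≤ M)
include hiso hHM

lemma done_single {v d : ι → F} {m : Fin t} (hv : Q v = 0) (hvm : v ∉ D m) (hd : d ∈ D m)
    (hd0 : d ≠ 0) (hQd : Q d = 0) (hdv : pf d v = 0) (hM : qE Q v d ∈ M) :
    Cfsg.Geo.omegaGL Q ≤ M := by
  rw [qE_swap hQ hv hQd hdv] at hM
  obtain ⟨b, hb⟩ : ∃ b, b = v - qcomp hQ hD m v := ⟨_, rfl⟩
  have hbm : b ∈ qorth hQ (D m) := hb ▸ sub_qcomp_mem hQ hD m v
  have hvd : pf (qcomp hQ hD m v) d = 0 := by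
    rw [qcomp_pf hQ hD m v hd, pf_comm hQ]; exact hdv
  have hb0 : b ≠ 0 := fun h => hvm (by
    rw [hb, sub_eq_zero] at h; rw [h]; exact qcomp_mem hQ hD m v)
  have h1 := qE_block_mem_H hQ (by omega) hD hd (qcomp_mem hQ hD m v) hQd hvd
  have hbd : pf b d = 0 := (mem_qorth hQ).mp hbm d hd
  have h2' := M.mul_mem hM (hHM h1)
  rw [qE_mul hQ hQd (by rw [pf_neg_left hQ, pf_comm hQ, hdv, neg_zero]) hvd,
    show -v + qcomp hQ hD m v = -b by rw [hb]; abel] at h2'
  exact omega_le_of_block_root hQ (by omega) hD le_rfl (Or.inr hiso) hHM hd hd0 hQd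
    (Submodule.neg_mem _ hbm) (neg_ne_zero.mpr hb0) h2'

lemma done_perp {v a : ι → F} {m : Fin t} (hv : Q v = 0) (hv0 : v ≠ 0)
    (hvm : v ∈ qorth hQ (D m)) (hav : pf a v = 0) (hM : qE Q v a ∈ M) (ha : a ∉ qorth hQ (D m)) :
    Cfsg.Geo.omegaGL Q ≤ M := by
  let X : AddSubgroup (ι → F) :=
    { carrier := {x | pf x v = 0 ∧ qE Q v x ∈ M}
      add_mem' := fun {x y} hx hy => ⟨by rw [hQ.polar_bilinear.add_left, hx.1, hy.1, add_zero], by
        rw [← qE_mul hQ hv hx.1 hy.1]; exact M.mul_mem hx.2 hy.2⟩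
      zero_mem' := ⟨pf_zero_left hQ v, by rw [qE_zero hQ hv]; exact M.one_mem⟩
      neg_mem' := fun {x} hx => ⟨by rw [pf_neg_left hQ, hx.1, neg_zero], by
        rw [← qE_inv hQ hv hx.1]; exact M.inv_mem hx.2⟩ }
  have hmX : ∀ y ∈ D m, y ∈ X := by
    refine le_of_qE_invariant' hQ (hD.nondegenerate m) (by rw [hD.decomp.finrank_eq]) X
      (fun u' hu' a' ha' hQu' hau' x hx => ?_) (x := a) ⟨hav, hM⟩ ?_
    · have hH := qE_block_mem_H hQ (by omega) hD hu' ha' hQu' hau'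
      have hI := omega_le_isometry hH.2
      have hfix : (qE Q u' a' : Matrix ι ι F) *ᵥ v = v := by
        rw [qE_mulVec hQ hQu' hau', (mem_qorth hQ).mp hvm u' hu', (mem_qorth hQ).mp hvm a' ha']
        simp
      refine ⟨by rw [← hfix, iso_pf hI]; exact hx.1, ?_⟩
      have := conj_qE_mem hQ (hHM hH) hI hv hx.1 hx.2
      rwa [hfix] at this
    · by_contra! hall
      exact ha ((mem_qorth hQ).mpr hall)
  obtain ⟨δ, hδ, hδ0, hQδ⟩ := exists_sing hQ (D m) (by rw [hD.decomp.finrank_eq])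
  refine done_single hQ hD h13 hiso hHM hv (fun h => hv0 ?_) hδ hδ0 hQδ (hmX δ hδ).1 (hmX δ hδ).2
  have : v ∈ D m ⊓ qorth hQ (D m) := ⟨h, hvm⟩
  rwa [nondeg_inf_qorth hQ (hD.nondegenerate m), Submodule.mem_bot] at this

variable (h2 : (2 : F) ≠ 0) (h5 : 5 ≤ Fintype.card F)
include h2 h5

/-- a parameter in a single block -/
lemma exists_single {v a : ι → F} {p : Fin t} (hv : Q v = 0) (hvp : v ∉ D p)
    (hp : qcomp hQ hD p v ≠ 0) (hap : qcomp hQ hD p a ∉ Submodule.span F {qcomp hQ hD p v})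
    (hav : pf a v = 0) (hM : qE Q v a ∈ M) :
    Cfsg.Geo.omegaGL Q ≤ M ∨
      ∃ d ∈ D p, Q d ≠ 0 ∧ pf d v = 0 ∧ qE Q v d ∈ M := by
  obtain ⟨x, hx⟩ : ∃ x, x = qcomp hQ hD p v := ⟨_, rfl⟩
  obtain ⟨b, hb⟩ : ∃ b, b = qcomp hQ hD p a := ⟨_, rfl⟩
  rw [← hx] at hp
  rw [← hx, ← hb] at hap
  have hxD : x ∈ D p := hx ▸ qcomp_mem hQ hD p v
  have hbD : b ∈ D p := hb ▸ qcomp_mem hQ hD p a
  have key : ∀ e ∈ Cfsg.Geo.decompositionStabilizer D ⊓ Cfsg.Geo.omegaGL Q,
      (∀ y ∈ qorth hQ (D p), (e : Matrix ι ι F) *ᵥ y = y) → (e : Matrix ι ι F) *ᵥ x = x →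
      (e : Matrix ι ι F) *ᵥ b - b ∈ D p → (e : Matrix ι ι F) *ᵥ b ≠ b →
      Cfsg.Geo.omegaGL Q ≤ M ∨ ∃ d ∈ D p, Q d ≠ 0 ∧ pf d v = 0 ∧ qE Q v d ∈ M := by
    intro e he hfix hex hmem hne
    have heI := omega_le_isometry he.2
    have hev : (e : Matrix ι ι F) *ᵥ v = v := by
      conv_lhs => rw [← sub_add_cancel v x]
      have hr : v - x ∈ qorth hQ (D p) := by rw [hx]; exact sub_qcomp_mem hQ hD p v
      rw [mulVec_add, hfix _ hr, hex, sub_add_cancel]
    have hea : (e : Matrix ι ι F) *ᵥ a - a = (e : Matrix ι ι F) *ᵥ b - b := by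
      nth_rewrite 1 [← sub_add_cancel a b]
      have hr : a - b ∈ qorth hQ (D p) := by rw [hb]; exact sub_qcomp_mem hQ hD p a
      rw [mulVec_add, hfix _ hr]
      abel
    have h1 := conj_qE_mem hQ (hHM he) heI hv hav hM
    rw [hev] at h1
    have heav : pf ((e : Matrix ι ι F) *ᵥ a) v = 0 := by rw [← hev, iso_pf heI, hav]
    have h3 := M.mul_mem h1 (M.inv_mem hM)
    rw [qE_inv hQ hv hav, qE_mul hQ hv heav (by rw [pf_neg_left hQ, hav, neg_zero]),
      ← sub_eq_add_neg, hea] at h3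
    have hdv : pf ((e : Matrix ι ι F) *ᵥ b - b) v = 0 := by
      rw [← hea, pf_sub_left hQ, heav, hav, sub_zero]
    by_cases hQd : Q ((e : Matrix ι ι F) *ᵥ b - b) = 0
    · exact Or.inl (done_single hQ hD h13 hiso hHM hv hvp hmem (sub_ne_zero.mpr hne) hQd hdv h3)
    · exact Or.inr ⟨_, hmem, hQd, hdv, h3⟩
  by_cases hQx : Q x = 0
  · obtain ⟨w, hw, hQw, hxw⟩ := exists_partner_in hQ (hD.nondegenerate p) hxD hp hQx
    obtain ⟨c, ⟨hcD, hc⟩, hc0⟩ := Submodule.exists_mem_ne_zero_of_ne_bot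
      (show D p ⊓ qorth hQ (Submodule.span F {x, w}) ≠ ⊥ from fun h0 => by
        have h1 := finrank_inf_ge (D p) (qorth hQ (Submodule.span F {x, w}))
        have h3 := finrank_qorth hQ (Submodule.span F {x, w})
        have h4 := span_le_two (F := F) x w
        rw [hD.decomp.finrank_eq, h0, finrank_bot] at h1
        omega)
    obtain ⟨hcx, hcw⟩ := (qorth_span_pair hQ).mp hc
    have hspan : Submodule.span F {x, w, c} = D p := by
      have hle : Submodule.span F {x, w, c} ≤ D p := Submodule.span_le.mpr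
        (Set.insert_subset_iff.mpr ⟨hxD, Set.insert_subset_iff.mpr
          ⟨hw, Set.singleton_subset_iff.mpr hcD⟩⟩)
      refine Submodule.eq_of_le_of_finrank_le hle ?_
      have hw1 : w ∉ Submodule.span F {x} := fun h => by
        obtain ⟨s, rfl⟩ := Submodule.mem_span_singleton.mp h
        rw [hQ.polar_bilinear.smul_right, pf_self hQ, hQx] at hxw
        simp at hxw
      have hc1 : c ∉ Submodule.span F {x} ⊔ Submodule.span F {w} := fun h => by
        obtain ⟨y, hy, z, hz, hyz⟩ := Submodule.mem_sup.mp h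
        obtain ⟨s, rfl⟩ := Submodule.mem_span_singleton.mp hy
        obtain ⟨r, rfl⟩ := Submodule.mem_span_singleton.mp hz
        rw [← hyz, hQ.polar_bilinear.add_left, hQ.polar_bilinear.smul_left,
          hQ.polar_bilinear.smul_left] at hcx hcw
        rw [pf_self hQ, hQx, pf_comm hQ w x, hxw] at hcx
        rw [hxw, pf_self hQ, hQw] at hcw
        exact hc0 (by
          rw [← hyz, show s = 0 by linear_combination hcw, show r = 0 by linear_combination hcx,
            zero_smul, zero_smul, add_zero])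
      rw [hD.decomp.finrank_eq, Submodule.span_insert, Submodule.span_insert, ← sup_assoc,
        finrank_sup_span hc1, finrank_sup_span hw1, finrank_span_singleton hp]
    have hQc : Q c ≠ 0 := fun h => by
      obtain ⟨y, hy, hcy⟩ := (hD.nondegenerate p c hcD hc0).2
      refine hcy ?_
      rw [← hspan] at hy
      obtain ⟨s, y', hy', rfl⟩ := Submodule.mem_span_insert.mp hy
      obtain ⟨r, r', rfl⟩ := Submodule.mem_span_pair.mp hy'
      simp only [hQ.polar_bilinear.add_right, hQ.polar_bilinear.smul_right, hcx, hcw, pf_self hQ, h]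
      ring
    have hH := qE_block_mem_H hQ (by omega) hD hxD hcD hQx hcx
    have hfix : ∀ y ∈ qorth hQ (D p), (qE Q x c : Matrix ι ι F) *ᵥ y = y := fun y hy => by
      rw [qE_mulVec hQ hQx hcx, (mem_qorth hQ).mp hy x hxD, (mem_qorth hQ).mp hy c hcD]
      simp
    refine key _ hH hfix (by
      rw [qE_mulVec hQ hQx hcx, pf_self hQ x, hQx, pf_comm hQ x c, hcx]; simp)
      ((D p).sub_mem (qE_block_maps hQ hD hxD hcD hQx hcx p b hbD) hbD) fun h => hap ?_
    rw [qE_mulVec hQ hQx hcx, add_sub_assoc, add_eq_left] at h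
    have e1 := congrArg (fun z => pf z c) h
    simp only [pf_sub_left hQ, hQ.polar_bilinear.smul_left, pf_comm hQ x c, hcx,
      pf_self hQ, pf_zero_left hQ] at e1
    have hbx : pf b x = 0 := by
      have : pf b x * (2 * Q c) = 0 := by linear_combination -e1
      exact (mul_eq_zero.mp this).resolve_right (mul_ne_zero h2 hQc)
    rw [hbx, mul_zero, sub_zero, zero_smul, sub_zero, smul_eq_zero] at h
    have hbc : pf b c = 0 := h.resolve_right hp
    rw [← hspan] at hbD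
    obtain ⟨s, y', hy', hb'⟩ := Submodule.mem_span_insert.mp hbD
    obtain ⟨r, r', rfl⟩ := Submodule.mem_span_pair.mp hy'
    rw [hb', hQ.polar_bilinear.add_left, hQ.polar_bilinear.add_left, hQ.polar_bilinear.smul_left,
      hQ.polar_bilinear.smul_left, hQ.polar_bilinear.smul_left] at hbx hbc
    rw [pf_self hQ, hQx, pf_comm hQ w x, hxw, hcx] at hbx
    rw [pf_comm hQ x c, hcx, pf_comm hQ w c, hcw, pf_self hQ] at hbc
    have hr : r = 0 := by linear_combination hbx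
    have hr' : r' = 0 := by
      have : r' * (2 * Q c) = 0 := by linear_combination hbc
      exact (mul_eq_zero.mp this).resolve_right (mul_ne_zero h2 hQc)
    exact Submodule.mem_span_singleton.mpr ⟨s, by rw [hb', hr, hr']; simp⟩
  · obtain ⟨α, hα⟩ : ∃ α, α = pf b x / pf x x := ⟨_, rfl⟩
    obtain ⟨c₀, hc₀⟩ : ∃ c₀, c₀ = b - α • x := ⟨_, rfl⟩
    have hxx : pf x x ≠ 0 := by rw [pf_self hQ]; exact mul_ne_zero h2 hQx
    have hc₀D : c₀ ∈ D p := hc₀ ▸ (D p).sub_mem hbD ((D p).smul_mem _ hxD)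
    have hc₀x : pf c₀ x = 0 := by
      rw [hc₀, pf_sub_left hQ, hQ.polar_bilinear.smul_left, hα, div_mul_cancel₀ _ hxx, sub_self]
    have hc₀0 : c₀ ≠ 0 := fun h => hap (by
      rw [hc₀, sub_eq_zero] at h
      exact Submodule.mem_span_singleton.mpr ⟨α, h.symm⟩)
    have hnd := (plane_perp hQ hD h2 hxD hQx).1
    have finish : ∀ c d, c ∈ D p → d ∈ D p → pf c x = 0 → pf d x = 0 → Q c ≠ 0 → Q d = Q c →
        ((qR hQ c * qR hQ d : GL ι F) : Matrix ι ι F) *ᵥ c₀ ≠ c₀ →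
        Cfsg.Geo.omegaGL Q ≤ M ∨ ∃ d ∈ D p, Q d ≠ 0 ∧ pf d v = 0 ∧ qE Q v d ∈ M := by
      intro c d hc hd hcx hdx hQc he hne
      obtain ⟨hH, hfix⟩ := rot_mem_H hQ hD h13 hc hd hQc he
      have hQd0 : Q d ≠ 0 := by rw [he]; exact hQc
      have hex : ((qR hQ c * qR hQ d : GL ι F) : Matrix ι ι F) *ᵥ x = x := by
        rw [Units.val_mul, ← mulVec_mulVec, qR_mulVec hQ hQd0, pf_comm hQ x d, hdx,
          mul_zero, zero_smul, sub_zero, qR_mulVec hQ hQc, pf_comm hQ x c, hcx, mul_zero,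
          zero_smul, sub_zero]
      refine key _ hH hfix hex ?_ fun h => hne ?_
      · rw [Units.val_mul, ← mulVec_mulVec, qR_mulVec hQ hQd0, qR_mulVec hQ hQc]
        exact (D p).sub_mem ((D p).sub_mem ((D p).sub_mem hbD ((D p).smul_mem _ hd))
          ((D p).smul_mem _ hc)) hbD
      · rw [hc₀, mulVec_sub, mulVec_smul, hex, h]
    by_cases hQc₀ : Q c₀ = 0
    · obtain ⟨n', hn', hQn', hcn⟩ :=
        exists_partner_in hQ hnd ((mem_plane hQ hD).mpr ⟨hc₀D, hc₀x⟩) hc₀0 hQc₀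
      obtain ⟨hn'D, hn'x⟩ := (mem_plane hQ hD).mp hn'
      obtain ⟨s, hs1, hs2⟩ := exists_avoid (a := (1 : F)) (b := 0) (c := -1) (d := 1) (e := 0)
        (by omega) (Or.inl one_ne_zero) (Or.inl one_ne_zero)
      simp only [one_mul, zero_mul, add_zero] at hs1 hs2
      have hs1' : s ^ 2 ≠ 1 := fun h => hs1 (by rw [h]; ring)
      have hQd : Q (s • c₀ + s⁻¹ • n') = 1 := by
        rw [q_add hQ, hQ.smul, hQ.smul, hQc₀, hQn', hQ.polar_bilinear.smul_left,
          hQ.polar_bilinear.smul_right, hcn]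
        field_simp
        ring
      have hQc : Q (c₀ + n') = 1 := by rw [q_add hQ, hQc₀, hQn', hcn]; ring
      refine finish (c₀ + n') (s • c₀ + s⁻¹ • n') ((D p).add_mem hc₀D hn'D)
        ((D p).add_mem ((D p).smul_mem _ hc₀D) ((D p).smul_mem _ hn'D))
        (by rw [hQ.polar_bilinear.add_left, hc₀x, hn'x, add_zero])
        (by rw [hQ.polar_bilinear.add_left, hQ.polar_bilinear.smul_left,
          hQ.polar_bilinear.smul_left, hc₀x, hn'x]; ring)
        (by rw [hQc]; exact one_ne_zero) (hQd.trans hQc.symm) fun h => hs1' ?_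
      rw [Units.val_mul, ← mulVec_mulVec,
        qR_mulVec hQ (show Q (s • c₀ + s⁻¹ • n') ≠ 0 from hQd.symm ▸ one_ne_zero),
        qR_mulVec hQ (show Q (c₀ + n') ≠ 0 from hQc.symm ▸ one_ne_zero), hQd, hQc] at h
      have h' := congrArg (fun z => pf z n') h
      simp only [pf_sub_left hQ, hQ.polar_bilinear.add_left, hQ.polar_bilinear.add_right,
        hQ.polar_bilinear.smul_left, hQ.polar_bilinear.smul_right, pf_self hQ c₀, pf_self hQ n',
        hQc₀, hQn', pf_comm hQ n' c₀, hcn, inv_one, one_mul] at h'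
      field_simp at h'
      linear_combination -h'
    · obtain ⟨c₁, ⟨hc₁, hc₁c⟩, hc₁0⟩ := Submodule.exists_mem_ne_zero_of_ne_bot
        (show (D p ⊓ qorth hQ (Submodule.span F {x})) ⊓ qorth hQ (Submodule.span F {c₀}) ≠ ⊥ from
          fun h0 => by
            have h1 := finrank_inf_ge (D p ⊓ qorth hQ (Submodule.span F {x}))
              (qorth hQ (Submodule.span F {c₀}))
            have h3 := finrank_qorth hQ (Submodule.span F {c₀})
            have h4 := span_le_one (F := F) c₀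
            rw [h0, finrank_bot, (plane_perp hQ hD h2 hxD hQx).2] at h1
            omega)
      obtain ⟨hc₁D, hc₁x⟩ := (mem_plane hQ hD).mp hc₁
      have hc₁c₀ : pf c₁ c₀ = 0 :=
        (mem_qorth hQ).mp hc₁c c₀ (Submodule.mem_span_singleton_self _)
      obtain ⟨s, hs1, hs2⟩ := exists_avoid (a := Q c₁) (b := 0) (c := Q c₀) (d := 1) (e := 0)
        (by omega) (Or.inr (Or.inr hQc₀)) (Or.inl one_ne_zero)
      simp only [one_mul, zero_mul, add_zero] at hs1 hs2
      obtain ⟨den, hden⟩ : ∃ den, den = Q c₁ * s ^ 2 + Q c₀ := ⟨_, rfl⟩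
      rw [← hden] at hs1
      have hQd : Q ((((Q c₁ * s ^ 2 - Q c₀) / den)) • c₀ + (2 * s * Q c₀ / den) • c₁) = Q c₀ := by
        rw [q_add hQ, hQ.smul, hQ.smul, hQ.polar_bilinear.smul_left, hQ.polar_bilinear.smul_right,
          pf_comm hQ c₀ c₁, hc₁c₀]
        field_simp
        rw [hden]
        ring
      have hQc₁ : Q c₁ ≠ 0 := fun h0 => by
        obtain ⟨y, hy, hcy⟩ := ((plane_perp hQ hD h2 hxD hQx).1 c₁ hc₁ hc₁0).2
        refine hcy ?_
        have hsp : Submodule.span F {c₀} ⊔ Submodule.span F {c₁} =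
            D p ⊓ qorth hQ (Submodule.span F {x}) := by
          refine Submodule.eq_of_le_of_finrank_le (sup_le
            (Submodule.span_le.mpr (Set.singleton_subset_iff.mpr
              ((mem_plane hQ hD).mpr ⟨hc₀D, hc₀x⟩)))
            (Submodule.span_le.mpr (Set.singleton_subset_iff.mpr hc₁))) ?_
          rw [(plane_perp hQ hD h2 hxD hQx).2, finrank_sup_span (fun h => by
            obtain ⟨r, hr⟩ := Submodule.mem_span_singleton.mp h
            rw [← hr, hQ.smul] at h0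
            rcases mul_eq_zero.mp h0 with hr0 | hr0
            · exact hc₁0 (by rw [← hr, pow_eq_zero_iff two_ne_zero |>.mp hr0, zero_smul])
            · exact hQc₀ hr0), finrank_span_singleton hc₀0]
        rw [← hsp] at hy
        obtain ⟨y₁, hy₁, y₂, hy₂, rfl⟩ := Submodule.mem_sup.mp hy
        obtain ⟨r, rfl⟩ := Submodule.mem_span_singleton.mp hy₁
        obtain ⟨r', rfl⟩ := Submodule.mem_span_singleton.mp hy₂
        rw [hQ.polar_bilinear.add_right, hQ.polar_bilinear.smul_right,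
          hQ.polar_bilinear.smul_right, hc₁c₀, pf_self hQ, h0]
        ring
      refine finish c₀ _ hc₀D ((D p).add_mem ((D p).smul_mem _ hc₀D) ((D p).smul_mem _ hc₁D))
        hc₀x (by rw [hQ.polar_bilinear.add_left, hQ.polar_bilinear.smul_left,
          hQ.polar_bilinear.smul_left, hc₀x, hc₁x]; ring) hQc₀ hQd fun h => ?_
      rw [Units.val_mul, ← mulVec_mulVec,
        qR_mulVec hQ (show Q ((((Q c₁ * s ^ 2 - Q c₀) / den)) • c₀ + (2 * s * Q c₀ / den) • c₁) ≠ 0
          from hQd.symm ▸ hQc₀), qR_mulVec hQ hQc₀, hQd] at h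
      have h' := congrArg (fun z => pf z c₁) h
      simp only [pf_sub_left hQ, hQ.polar_bilinear.add_left, hQ.polar_bilinear.add_right,
        hQ.polar_bilinear.smul_left, hQ.polar_bilinear.smul_right, pf_self hQ c₁,
        pf_comm hQ c₀ c₁, hc₁c₀, pf_self hQ c₀] at h'
      have : (2 * (Q c₁ * s ^ 2 - Q c₀) / den) * (2 * s * Q c₀ / den) * (2 * Q c₁) = 0 := by
        field_simp at h' ⊢
        linear_combination -h'
      by_cases hnum : Q c₁ * s ^ 2 - Q c₀ = 0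
      · have h'' := congrArg (fun z => pf z c₀) h
        simp only [hnum, zero_div, zero_smul, zero_add, pf_sub_left hQ, hQ.polar_bilinear.smul_left,
          hQ.polar_bilinear.smul_right, pf_self hQ c₀, pf_comm hQ c₀ c₁, hc₁c₀, mul_zero,
          sub_zero] at h''
        field_simp at h''
        exact h2 (by linear_combination -h'')
      · simp [h2, hQc₁, hQc₀, hs1, hs2, hnum] at this

/-- a good component outside the block of the parameter gives everything -/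
lemma done_good {v d : ι → F} {m l : Fin t} (hv : Q v = 0) (hd : d ∈ D m) (hQd : Q d ≠ 0)
    (hdv : pf d v = 0) (hM : qE Q v d ∈ M) (hlm : l ≠ m) (hl : qcomp hQ hD l v ≠ 0)
    (hgood : ¬ AnisoPerp Q (D l) (qcomp hQ hD l v)) : Cfsg.Geo.omegaGL Q ≤ M := by
  obtain ⟨x, hx⟩ : ∃ x, x = qcomp hQ hD l v := ⟨_, rfl⟩
  rw [← hx] at hl hgood
  have hxD : x ∈ D l := hx ▸ qcomp_mem hQ hD l v
  have hvx : pf v x = 2 * Q x := by
    rw [← qcomp_pf hQ hD l v hxD, ← hx, pf_self hQ]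
  have hdl : d ∈ qorth hQ (D l) := blocks_le_qorth hQ hD hlm hd
  suffices h : ∃ e ∈ Cfsg.Geo.decompositionStabilizer D ⊓ Cfsg.Geo.omegaGL Q,
      (∀ y ∈ qorth hQ (D l), (e : Matrix ι ι F) *ᵥ y = y) ∧
      ∃ δ ∈ D l, δ ≠ 0 ∧ Q δ = 0 ∧ (e : Matrix ι ι F) *ᵥ x = x + δ by
    obtain ⟨e, he, hfix, δ, hδ, hδ0, hQδ, hex⟩ := h
    have heI := omega_le_isometry he.2
    have hev : (e : Matrix ι ι F) *ᵥ v = v + δ := by
      conv_lhs => rw [← sub_add_cancel v x]
      have hr : v - x ∈ qorth hQ (D l) := by rw [hx]; exact sub_qcomp_mem hQ hD l v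
      rw [mulVec_add, hfix _ hr, hex]
      abel
    have h1 := conj_qE_mem hQ (hHM he) heI hv hdv hM
    rw [hev, hfix d hdl] at h1
    have hQw : Q (v + δ) = 0 := by rw [← hev, iso_Q heI, hv]
    have hdδ : pf d δ = 0 := (mem_qorth hQ).mp hdl δ hδ
    have hdw : pf d (v + δ) = 0 := by rw [hQ.polar_bilinear.add_right, hdv, hdδ, add_zero]
    have hvδ : pf v δ = 0 := by
      rw [q_add hQ, hv, hQδ, zero_add, zero_add] at hQw; exact hQw
    obtain ⟨b, hb⟩ : ∃ b, b = d - Q d • v := ⟨_, rfl⟩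
    obtain ⟨hb1, e1⟩ := qE_eq_qR_mul hQ hv hdv hQd
    obtain ⟨hb2, e2⟩ := qE_eq_qR_mul hQ hQw hdw hQd
    rw [← hb] at hb1 e1
    have hbδ : pf b δ = 0 := by
      rw [hb, pf_sub_left hQ, hQ.polar_bilinear.smul_left, hdδ, hvδ]; ring
    obtain ⟨-, e3⟩ := qE_eq_qR_mul hQ hQδ hbδ (hb1.symm ▸ hQd)
    rw [hb1, show b - Q d • δ = d - Q d • (v + δ) by rw [hb, smul_add]; abel] at e3
    have h3 := M.mul_mem (M.inv_mem hM) h1
    rw [e1, e2, _root_.mul_inv_rev, qR_inv hQ, qR_inv hQ, mul_assoc, ← mul_assoc (qR hQ d) (qR hQ d),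
      show qR hQ d * qR hQ d = 1 by nth_rewrite 1 [← qR_inv hQ d]; exact inv_mul_cancel _,
      one_mul, ← e3] at h3
    obtain ⟨b', hb'⟩ : ∃ b', b' = b - qcomp hQ hD l b := ⟨_, rfl⟩
    have hblδ : pf (qcomp hQ hD l b) δ = 0 := by rw [qcomp_pf hQ hD l b hδ]; exact hbδ
    have hnegδ : pf (-qcomp hQ hD l b) δ = 0 := by rw [pf_neg_left hQ, hblδ, neg_zero]
    have h4 := M.mul_mem h3 (hHM (qE_block_mem_H hQ (by omega) hD hδ
      ((D l).neg_mem (qcomp_mem hQ hD l b)) hQδ hnegδ))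
    rw [qE_mul hQ hQδ hbδ hnegδ, ← sub_eq_add_neg, ← hb'] at h4
    refine omega_le_of_block_root hQ (by omega) hD le_rfl (Or.inr hiso) hHM hδ hδ0 hQδ
      (hb' ▸ sub_qcomp_mem hQ hD l b) (fun h => ?_) h4
    have hz := congrArg (fun z => pf z d) h
    simp only [hb', hb, map_sub, map_smul, qcomp_perp hQ hD hdl, zero_sub, sub_neg_eq_add,
      hQ.polar_bilinear.add_left, pf_sub_left hQ, hQ.polar_bilinear.smul_left, pf_self hQ,
      pf_comm hQ v d, hdv, pf_comm hQ _ d, pf_zero_left hQ, pf_zero_right hQ] at hz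
    rw [(show pf d (qcomp hQ hD l v) = 0 from (mem_qorth hQ).mp hdl _ (qcomp_mem hQ hD l v))] at hz
    exact mul_ne_zero h2 hQd (by linear_combination hz)
  by_cases hQx : Q x = 0
  · obtain ⟨w, hw, hQw, hxw⟩ := exists_partner_in hQ (hD.nondegenerate l) hxD hl hQx
    obtain ⟨s, hs1, hs2⟩ := exists_avoid (a := (1 : F)) (b := 0) (c := -1) (d := 1) (e := 0)
      (by omega) (Or.inl one_ne_zero) (Or.inl one_ne_zero)
    simp only [one_mul, zero_mul, add_zero] at hs1 hs2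
    have hQc : Q (x + w) = 1 := by rw [q_add hQ, hQx, hQw, hxw]; ring
    have hQd' : Q (s • x + s⁻¹ • w) = 1 := by
      rw [q_add hQ, hQ.smul, hQ.smul, hQx, hQw, hQ.polar_bilinear.smul_left,
        hQ.polar_bilinear.smul_right, hxw]
      field_simp
      ring
    obtain ⟨hH, hfix⟩ := rot_mem_H hQ hD h13 ((D l).add_mem hxD hw)
      ((D l).add_mem ((D l).smul_mem s hxD) ((D l).smul_mem s⁻¹ hw))
      (by rw [hQc]; exact one_ne_zero) (hQd'.trans hQc.symm)
    refine ⟨_, hH, hfix, (s⁻¹ * s⁻¹ - 1) • x, (D l).smul_mem _ hxD, smul_ne_zero (fun h => hs1 ?_) hl,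
      by rw [hQ.smul, hQx, mul_zero], ?_⟩
    · have : s⁻¹ * s⁻¹ = 1 := sub_eq_zero.mp h
      field_simp at this
      linear_combination -this
    · rw [Units.val_mul, ← mulVec_mulVec,
        qR_mulVec hQ (show Q (s • x + s⁻¹ • w) ≠ 0 from hQd'.symm ▸ one_ne_zero),
        qR_mulVec hQ (show Q (x + w) ≠ 0 from hQc.symm ▸ one_ne_zero), hQd', hQc]
      simp only [pf_sub_left hQ, hQ.polar_bilinear.add_right, hQ.polar_bilinear.add_left,
        hQ.polar_bilinear.smul_left, hQ.polar_bilinear.smul_right, pf_self hQ x, pf_self hQ w,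
        hQx, hQw, pf_comm hQ w x, hxw, inv_one, one_mul]
      match_scalars <;> field_simp <;> ring
  · obtain ⟨δ, hδ, hδx, hQδ, hδ0⟩ : ∃ δ ∈ D l, pf δ x = 0 ∧ Q δ = 0 ∧ δ ≠ 0 := by
      by_contra! h
      exact hgood ⟨hxD, hQx, h⟩
    obtain ⟨w, hw, hQw, hδw⟩ := exists_partner_in hQ (plane_perp hQ hD h2 hxD hQx).1
      ((mem_plane hQ hD).mpr ⟨hδ, hδx⟩) hδ0 hQδ
    have hxδ : pf x δ = 0 := by rw [pf_comm hQ]; exact hδx
    refine ⟨_, qE_block_mem_H hQ (by omega) hD hδ hxD hQδ hxδ, fun y hy => ?_,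
      (2 * Q x) • δ, (D l).smul_mem _ hδ, smul_ne_zero (mul_ne_zero h2 hQx) hδ0,
      by rw [hQ.smul, hQδ, mul_zero], ?_⟩
    · rw [qE_mulVec hQ hQδ hxδ, (mem_qorth hQ).mp hy δ hδ, (mem_qorth hQ).mp hy x hxD]
      simp
    · rw [qE_mulVec hQ hQδ hxδ, hxδ, pf_self hQ]
      simp

/-- the commutator of a translate with the original -/
lemma conj_translate {v a w : ι → F} (hv : Q v = 0) (hav : pf a v = 0) (hM : qE Q v a ∈ M)
    (hwM : qE Q w a ∈ M) (hQw : Q w = 0) (haw : pf a w = 0) :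
    Q (v - (pf v w * Q a) • w - pf v w • a) = 0 ∧
    pf (a + (2 * Q a) • w) (v - (pf v w * Q a) • w - pf v w • a) = 0 ∧
    qE Q (v - (pf v w * Q a) • w - pf v w • a) (a + (2 * Q a) • w) ∈ M := by
  have hI := qE_mem_isometry hQ hQw haw
  have e1 : (qE Q w a : Matrix ι ι F) *ᵥ v = v - (pf v w * Q a) • w - pf v w • a := by
    rw [qE_mulVec hQ hQw haw, pf_comm hQ v a, hav]; module
  have e2 : (qE Q w a : Matrix ι ι F) *ᵥ a = a + (2 * Q a) • w := by
    rw [qE_mulVec hQ hQw haw, pf_self hQ, haw]; module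
  rw [← e1, ← e2]
  exact ⟨by rw [iso_Q hI, hv], by rw [iso_pf hI, hav], conj_qE_mem hQ hwM hI hv hav hM⟩

lemma done_state {v d : ι → F} {m : Fin t} (hv : Q v = 0) (hvm : v ∉ D m) (hd : d ∈ D m)
    (hQd : Q d ≠ 0) (hdv : pf d v = 0) (hM : qE Q v d ∈ M) : Cfsg.Geo.omegaGL Q ≤ M := by
  obtain ⟨l, hlm, hl⟩ := exists_qcomp_ne hQ hD hvm
  by_cases hgood : AnisoPerp Q (D l) (qcomp hQ hD l v)
  swap
  · exact done_good hQ hD h13 hiso hHM h2 h5 hv hd hQd hdv hM hlm hl hgood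
  obtain ⟨x, hx⟩ : ∃ x, x = qcomp hQ hD l v := ⟨_, rfl⟩
  obtain ⟨y, hy⟩ : ∃ y, y = qcomp hQ hD m v := ⟨_, rfl⟩
  rw [← hx] at hgood hl
  obtain ⟨hxD, hκ, -⟩ := id hgood
  have hyD : y ∈ D m := hy ▸ qcomp_mem hQ hD m v
  have hyd : pf y d = 0 := by rw [hy, qcomp_pf hQ hD m v hd, pf_comm hQ]; exact hdv
  have hv0 : v ≠ 0 := fun h => hvm (h ▸ (D m).zero_mem)
  by_cases hy0 : y = 0
  · refine done_perp hQ hD h13 hiso hHM (m := m) hv hv0 ?_ hdv hM fun h => hQd ?_
    · have := sub_qcomp_mem hQ hD m v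
      rwa [← hy, hy0, sub_zero] at this
    · have h0 : d ∈ D m ⊓ qorth hQ (D m) := ⟨hd, h⟩
      rw [nondeg_inf_qorth hQ (hD.nondegenerate m), Submodule.mem_bot] at h0
      rw [h0, q_zero hQ]
  by_cases hμ : Q y = 0
  · have hdy : pf d y = 0 := by rw [pf_comm hQ]; exact hyd
    have hH := qE_block_mem_H hQ (by omega) hD hyD hd hμ hdy
    have hI := omega_le_isometry hH.2
    have hvy : pf v y = 0 := by
      rw [← qcomp_pf hQ hD m v hyD, ← hy, pf_self hQ, hμ, mul_zero]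
    have e1 : (qE Q y d : Matrix ι ι F) *ᵥ v = v := by
      rw [qE_mulVec hQ hμ hdy, hvy, pf_comm hQ v d, hdv]; simp
    have e2 : (qE Q y d : Matrix ι ι F) *ᵥ d = d + (2 * Q d) • y := by
      rw [qE_mulVec hQ hμ hdy, hdy, pf_self hQ]; simp
    have h1 := conj_qE_mem hQ (hHM hH) hI hv hdv hM
    rw [e1, e2] at h1
    have h3 := M.mul_mem h1 (M.inv_mem hM)
    have hyv : pf ((2 * Q d) • y) v = 0 := by
      rw [hQ.polar_bilinear.smul_left, pf_comm hQ, hvy, mul_zero]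
    rw [qE_inv hQ hv hdv, qE_mul hQ hv (by rw [hQ.polar_bilinear.add_left, hdv, hyv, add_zero])
      (by rw [pf_neg_left hQ, hdv, neg_zero]), add_neg_cancel_comm] at h3
    exact done_single hQ hD h13 hiso hHM hv hvm ((D m).smul_mem _ hyD)
      (smul_ne_zero (mul_ne_zero h2 hQd) hy0) (by rw [hQ.smul, hμ, mul_zero]) hyv h3
  obtain ⟨c, hc0, hc4, hcP⟩ := exists_bad_value h2
    (by
      by_contra hodd
      rw [Nat.not_odd_iff_even, Nat.even_iff] at hodd
      have hc := FiniteField.even_card_iff_char_two.mpr hodd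
      exact h2 (by
        have : CharP F 2 := hc ▸ ringChar.charP F
        exact_mod_cast CharP.cast_eq_zero F 2)) h5 hκ hμ hQd
  obtain ⟨α, hα⟩ : ∃ α, α = 1 + c / (2 * Q x) := ⟨_, rfl⟩
  have hcα : c = 2 * Q x * (α - 1) := by rw [hα]; field_simp; ring
  obtain ⟨π, hπ, hQπ⟩ := exists_qvalue hQ h2 (plane_perp hQ hD h2 hxD hκ).1
    (plane_perp hQ hD h2 hxD hκ).2.ge (Q x * (1 - α ^ 2))
  obtain ⟨hπD, hπx⟩ := (mem_plane hQ hD).mp hπ
  have hπ0 : π ≠ 0 := fun h => by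
    rw [h, q_zero hQ] at hQπ
    rcases mul_eq_zero.mp hQπ.symm with h' | h'
    · exact hκ h'
    · rcases mul_eq_zero.mp (show (α - 1) * (α + 1) = 0 by linear_combination -h') with h'' | h''
      · exact hc0 (by rw [hcα, h'', mul_zero])
      · exact hc4 (by rw [hcα, show α = -1 by linear_combination h'']; ring)
  obtain ⟨x', hx'⟩ : ∃ x', x' = α • x + π := ⟨_, rfl⟩
  have hx'D : x' ∈ D l := hx' ▸ (D l).add_mem ((D l).smul_mem _ hxD) hπD
  have hQx' : Q x' = Q x := by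
    rw [hx', q_smul_add hQ, hQπ, pf_comm hQ x π, hπx]; ring
  have hxx' : pf x x' = 2 * α * Q x := by
    rw [hx', hQ.polar_bilinear.add_right, hQ.polar_bilinear.smul_right, pf_self hQ,
      pf_comm hQ x π, hπx]
    ring
  obtain ⟨e, he, hex, hefix⟩ := exists_rot hQ hD h13 h2 hxD hx'D hQx' hκ (by
    rw [q_sub hQ, hQx', pf_comm hQ x' x, hxx']
    intro h
    exact hc0 (by rw [hcα]; linear_combination -h))
  have heI := omega_le_isometry he.2
  have hdl : d ∈ qorth hQ (D l) := blocks_le_qorth hQ hD hlm hd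
  obtain ⟨w, hw⟩ : ∃ w, w = v - x + x' := ⟨_, rfl⟩
  have hev : (e : Matrix ι ι F) *ᵥ v = w := by
    conv_lhs => rw [← sub_add_cancel v x]
    have hr : v - x ∈ qorth hQ (D l) := by rw [hx]; exact sub_qcomp_mem hQ hD l v
    rw [mulVec_add, hefix _ hr, hex, hw]
  have hwM := conj_qE_mem hQ (hHM he) heI hv hdv hM
  rw [hev, hefix d hdl] at hwM
  have hQw : Q w = 0 := by rw [← hev, iso_Q heI, hv]
  have hdw : pf d w = 0 := by
    have := iso_pf heI d v
    rwa [hefix d hdl, hev, hdv] at this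
  have hvw : pf v w = c := by
    rw [hw, hQ.polar_bilinear.add_right, pf_sub_right hQ, pf_self hQ, hv,
      ← qcomp_pf hQ hD l v hxD, ← qcomp_pf hQ hD l v hx'D, ← hx, pf_self hQ, hxx', hcα]
    ring
  obtain ⟨hQv', hav', hM'⟩ := conj_translate hQ hD h13 hiso hHM h2 h5 hv hdv hM hwM hQw hdw
  rw [hvw] at hQv' hav' hM'
  obtain ⟨v', hv'⟩ : ∃ v', v' = v - (c * Q d) • w - c • d := ⟨_, rfl⟩
  rw [← hv'] at hQv' hav' hM'
  have hwl : qcomp hQ hD l w = x' := by
    rw [hw, map_add, map_sub, ← hx, qcomp_self hQ hD hxD, qcomp_self hQ hD hx'D, sub_self,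
      zero_add]
  have hwm : qcomp hQ hD m w = y := by
    rw [hw, map_add, map_sub, ← hy, qcomp_other hQ hD hlm hxD, qcomp_other hQ hD hlm hx'D]
    abel
  have hv'l : qcomp hQ hD l v' = x - (c * Q d) • x' := by
    rw [hv', map_sub, map_sub, map_smul, map_smul, hwl, ← hx, qcomp_perp hQ hD hdl, smul_zero,
      sub_zero]
  have hv'm : qcomp hQ hD m v' = (1 - c * Q d) • y - c • d := by
    rw [hv', map_sub, map_sub, map_smul, map_smul, hwm, ← hy, qcomp_self hQ hD hd, sub_smul,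
      one_smul]
  have hv'm0 : qcomp hQ hD m v' ≠ 0 := fun h => by
    rw [hv'm] at h
    have h' := congrArg (fun z => pf z d) h
    simp only [pf_sub_left hQ, hQ.polar_bilinear.smul_left, hyd, pf_self hQ,
      pf_zero_left hQ] at h'
    have : c * (2 * Q d) = 0 := by linear_combination -h'
    exact mul_ne_zero hc0 (mul_ne_zero h2 hQd) this
  have hal : qcomp hQ hD l (d + (2 * Q d) • w) = (2 * Q d) • x' := by
    rw [map_add, map_smul, hwl, qcomp_perp hQ hD hdl, zero_add]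
  have hind : ∀ r s : F, r • x + s • x' = 0 → r = 0 ∧ s = 0 := by
    intro r s h
    rw [hx', smul_add, smul_smul, ← add_assoc, ← add_smul] at h
    have hQπ0 : Q π ≠ 0 := fun h0 => hπ0 (hgood.2.2 π hπD hπx h0)
    have h1 := congrArg (fun z => pf z π) h
    simp only [hQ.polar_bilinear.add_left, hQ.polar_bilinear.smul_left, pf_comm hQ x π, hπx,
      pf_self hQ, pf_zero_left hQ, mul_zero, zero_add] at h1
    have hs : s = 0 := (mul_eq_zero.mp h1).resolve_right (mul_ne_zero h2 hQπ0)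
    rw [hs, zero_mul, add_zero, zero_smul, add_zero] at h
    exact ⟨(smul_eq_zero.mp h).resolve_right hl, hs⟩
  rcases exists_single hQ hD h13 hiso hHM h2 h5 (p := l) hQv' (fun h => hv'm0
      (qcomp_other hQ hD hlm h)) (by
    rw [hv'l]
    intro h
    have := (hind 1 (-(c * Q d)) (by rw [← h]; module)).1
    exact one_ne_zero this) (by
    rw [hv'l, hal]
    intro h
    obtain ⟨r, hr⟩ := Submodule.mem_span_singleton.mp h
    obtain ⟨h1, h3⟩ := hind r (-(r * (c * Q d)) - 2 * Q d) (by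
      rw [show r • x + (-(r * (c * Q d)) - 2 * Q d) • x' =
        r • (x - (c * Q d) • x') - (2 * Q d) • x' by module, hr, sub_self])
    rw [h1] at h3
    exact mul_ne_zero h2 hQd (by linear_combination -h3)) hav' hM' with h | ⟨d', hd', hQd', hd'v, hd'M⟩
  · exact h
  refine done_good hQ hD h13 hiso hHM h2 h5 hQv' hd' hQd' hd'v hd'M (Ne.symm hlm) hv'm0 fun hA => ?_
  obtain ⟨s, hs0, hs⟩ := anisoPerp_ratio' hQ hD h13 h2 hiso hgood hA
  refine hcP s hs0 ?_
  rw [hv'm, q_sub hQ, hQ.smul, hQ.smul, hQ.polar_bilinear.smul_left, hQ.polar_bilinear.smul_right,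
    hyd] at hs
  linear_combination hs

lemma done_root {v a : ι → F} (hv : Q v = 0) (hblock : ∀ m, v ∉ D m)
    (ha : a ∉ Submodule.span F {v}) (hav : pf a v = 0) (hM : qE Q v a ∈ M) :
    Cfsg.Geo.omegaGL Q ≤ M := by
  have hv0 : v ≠ 0 := fun h => by
    obtain ⟨m⟩ : Nonempty (Fin t) := ⟨⟨0, by have := hD.decomp.two_le; omega⟩⟩
    exact hblock m (h ▸ (D m).zero_mem)
  obtain ⟨p, hp⟩ : ∃ p, qcomp hQ hD p v ≠ 0 := by
    by_contra! h; exact hv0 (eq_zero_of_qcomp hQ hD h)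
  by_cases hex : ∃ q, qcomp hQ hD q v ≠ 0 ∧
      qcomp hQ hD q a ∉ Submodule.span F {qcomp hQ hD q v}
  · obtain ⟨q, hqv, hqa⟩ := hex
    rcases exists_single hQ hD h13 hiso hHM h2 h5 hv (hblock q) hqv hqa hav hM with
      h | ⟨d, hd, hQd, hdv, hdM⟩
    · exact h
    · exact done_state hQ hD h13 hiso hHM h2 h5 hv (hblock q) hd hQd hdv hdM
  push Not at hex
  obtain ⟨μ, hμ⟩ := Submodule.mem_span_singleton.mp (hex p hp)
  obtain ⟨a', ha'⟩ : ∃ a', a' = a + (-μ) • v := ⟨_, rfl⟩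
  have ha'M : qE Q v a' ∈ M := by rw [ha', qE_add_smul hQ hv hav]; exact hM
  have ha'v : pf a' v = 0 := by
    rw [ha', hQ.polar_bilinear.add_left, hQ.polar_bilinear.smul_left, pf_self hQ, hv, hav]; ring
  have ha'0 : a' ≠ 0 := fun h => ha (Submodule.mem_span_singleton.mpr ⟨μ, by
    rw [ha', neg_smul, ← sub_eq_add_neg, sub_eq_zero] at h; exact h.symm⟩)
  have ha'p : qcomp hQ hD p a' = 0 := by rw [ha', map_add, map_smul, ← hμ]; module
  have ha'orth : a' ∈ qorth hQ (D p) := by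
    have := sub_qcomp_mem hQ hD p a'
    rwa [ha'p, sub_zero] at this
  have hvo : v ∉ qorth hQ (D p) := fun h => hp (qcomp_perp hQ hD h)
  by_cases hQa : Q a' = 0
  · rw [qE_swap hQ hv hQa ha'v] at ha'M
    exact done_perp hQ hD h13 hiso hHM hQa ha'0 ha'orth
      (by rw [pf_neg_left hQ, pf_comm hQ, ha'v, neg_zero]) ha'M
      fun h => hvo (by simpa using Submodule.neg_mem _ h)
  obtain ⟨x, hx⟩ : ∃ x, x = qcomp hQ hD p v := ⟨_, rfl⟩
  rw [← hx] at hp
  have hxD : x ∈ D p := hx ▸ qcomp_mem hQ hD p v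
  obtain ⟨e, he, hefix, hexD, hind⟩ : ∃ e ∈ Cfsg.Geo.decompositionStabilizer D ⊓ Cfsg.Geo.omegaGL Q,
      (∀ y ∈ qorth hQ (D p), (e : Matrix ι ι F) *ᵥ y = y) ∧ (e : Matrix ι ι F) *ᵥ x ∈ D p ∧
      ∀ r s : F, r • x + s • ((e : Matrix ι ι F) *ᵥ x) = 0 → r = 0 ∧ s = 0 := by
    by_cases hQx : Q x = 0
    · obtain ⟨w, hw, hQw, hxw⟩ := exists_partner_in hQ (hD.nondegenerate p) hxD hp hQx
      obtain ⟨c, ⟨hcD, hc⟩, hc0⟩ := Submodule.exists_mem_ne_zero_of_ne_bot
        (show D p ⊓ qorth hQ (Submodule.span F {x, w}) ≠ ⊥ from fun h0 => by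
          have h1 := finrank_inf_ge (D p) (qorth hQ (Submodule.span F {x, w}))
          have h3 := finrank_qorth hQ (Submodule.span F {x, w})
          have h4 := span_le_two (F := F) x w
          rw [hD.decomp.finrank_eq, h0, finrank_bot] at h1
          omega)
      obtain ⟨hcx, hcw⟩ := (qorth_span_pair hQ).mp hc
      have hind0 : ∀ r s u : F, r • x + s • w + u • c = 0 → r = 0 ∧ s = 0 ∧ u • c = 0 := by
        intro r s u h
        have h1 := congrArg (fun z => pf z x) h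
        have h3 := congrArg (fun z => pf z w) h
        simp only [hQ.polar_bilinear.add_left, hQ.polar_bilinear.smul_left, pf_self hQ, hQx, hQw,
          pf_comm hQ w x, hxw, hcx, hcw, pf_zero_left hQ] at h1 h3
        have hs : s = 0 := by linear_combination h1
        have hr : r = 0 := by linear_combination h3
        exact ⟨hr, hs, by simpa [hr, hs] using h⟩
      refine ⟨_, qE_block_mem_H hQ (by omega) hD hw hcD hQw hcw, fun y hy => ?_,
        qE_block_maps hQ hD hw hcD hQw hcw p x hxD, fun r s h => ?_⟩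
      · rw [qE_mulVec hQ hQw hcw, (mem_qorth hQ).mp hy w hw, (mem_qorth hQ).mp hy c hcD]
        simp
      · rw [qE_mulVec hQ hQw hcw, hxw, pf_comm hQ x c, hcx] at h
        obtain ⟨h1, -, h3⟩ := hind0 (r + s) (-(s * Q c)) (-s) (by rw [← h]; module)
        have hs : s = 0 := by simpa [hc0] using h3
        exact ⟨by rw [hs, add_zero] at h1; exact h1, hs⟩
    · obtain ⟨π, hπ, hQπ⟩ := exists_qvalue hQ h2 (plane_perp hQ hD h2 hxD hQx).1
        (plane_perp hQ hD h2 hxD hQx).2.ge (Q x)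
      obtain ⟨hπD, hπx⟩ := (mem_plane hQ hD).mp hπ
      obtain ⟨e, he, hex', hefix⟩ := exists_rot hQ hD h13 h2 hxD hπD hQπ hQx (by
        rw [q_sub hQ, hQπ, hπx, sub_zero, ← two_mul]; exact mul_ne_zero h2 hQx)
      refine ⟨e, he, hefix, hex' ▸ hπD, fun r s h => ?_⟩
      rw [hex'] at h
      have h1 := congrArg (fun z => pf z x) h
      have h3 := congrArg (fun z => pf z π) h
      simp only [hQ.polar_bilinear.add_left, hQ.polar_bilinear.smul_left, pf_self hQ,
        pf_comm hQ x π, hπx, pf_zero_left hQ, hQπ, mul_zero, add_zero, zero_add] at h1 h3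
      exact ⟨(mul_eq_zero.mp h1).resolve_right (mul_ne_zero h2 hQx),
        (mul_eq_zero.mp h3).resolve_right (mul_ne_zero h2 hQx)⟩
  have heI := omega_le_isometry he.2
  obtain ⟨x', hx'⟩ : ∃ x', x' = (e : Matrix ι ι F) *ᵥ x := ⟨_, rfl⟩
  rw [← hx'] at hind hexD
  obtain ⟨w, hw⟩ : ∃ w, w = v - x + x' := ⟨_, rfl⟩
  have hev : (e : Matrix ι ι F) *ᵥ v = w := by
    conv_lhs => rw [← sub_add_cancel v x]
    have hr : v - x ∈ qorth hQ (D p) := by rw [hx]; exact sub_qcomp_mem hQ hD p v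
    rw [mulVec_add, hefix _ hr, hw, hx']
  have hwM := conj_qE_mem hQ (hHM he) heI hv ha'v ha'M
  rw [hev, hefix a' ha'orth] at hwM
  have hQw : Q w = 0 := by rw [← hev, iso_Q heI, hv]
  have haw : pf a' w = 0 := by
    have := iso_pf heI a' v
    rwa [hefix a' ha'orth, hev, ha'v] at this
  obtain ⟨hQv', hav', hM'⟩ := conj_translate hQ hD h13 hiso hHM h2 h5 hv ha'v ha'M hwM hQw haw
  obtain ⟨c, hc⟩ : ∃ c, c = pf v w := ⟨_, rfl⟩
  rw [← hc] at hQv' hav' hM'
  obtain ⟨v', hv'⟩ : ∃ v', v' = v - (c * Q a') • w - c • a' := ⟨_, rfl⟩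
  rw [← hv'] at hQv' hav' hM'
  obtain ⟨a'', ha''⟩ : ∃ a'', a'' = a' + (2 * Q a') • w := ⟨_, rfl⟩
  rw [← ha''] at hav' hM'
  have hwp : qcomp hQ hD p w = x' := by
    rw [hw, map_add, map_sub, ← hx, qcomp_self hQ hD hxD, qcomp_self hQ hD hexD, sub_self,
      zero_add]
  have hv'p : qcomp hQ hD p v' = x - (c * Q a') • x' := by
    rw [hv', map_sub, map_sub, map_smul, map_smul, hwp, ← hx, ha'p, smul_zero, sub_zero]
  have hv'p0 : qcomp hQ hD p v' ≠ 0 := by
    rw [hv'p]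
    intro h
    exact one_ne_zero (hind 1 (-(c * Q a')) (by rw [← h]; module)).1
  have ha''p : qcomp hQ hD p a'' ∉ Submodule.span F {qcomp hQ hD p v'} := by
    rw [hv'p, ha'', map_add, map_smul, hwp, ha'p, zero_add]
    intro h
    obtain ⟨r, hr⟩ := Submodule.mem_span_singleton.mp h
    obtain ⟨h1, h3⟩ := hind r (-(r * (c * Q a')) - 2 * Q a') (by
      rw [show r • x + (-(r * (c * Q a')) - 2 * Q a') • x' =
        r • (x - (c * Q a') • x') - (2 * Q a') • x' by module, hr, sub_self])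
    rw [h1] at h3
    exact mul_ne_zero h2 hQa (by linear_combination -h3)
  by_cases hv'b : v' ∈ D p
  · obtain ⟨b, hb⟩ : ∃ b, b = a'' - qcomp hQ hD p a'' := ⟨_, rfl⟩
    by_cases hb0 : b = 0
    · exfalso
      have haD : a'' ∈ D p := by
        rw [hb, sub_eq_zero] at hb0; rw [hb0]; exact qcomp_mem hQ hD p a''
      -- both in the block: impossible
      have h1 : a' + (2 * Q a') • (v - x) = 0 := by
        have h4 : a'' - (2 * Q a') • x' = a' + (2 * Q a') • (v - x) := by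
          rw [ha'', hw]; module
        have h5 : a' + (2 * Q a') • (v - x) ∈ D p ⊓ qorth hQ (D p) :=
          ⟨h4 ▸ (D p).sub_mem haD ((D p).smul_mem _ hexD),
            Submodule.add_mem _ ha'orth (Submodule.smul_mem _ _ (hx ▸ sub_qcomp_mem hQ hD p v))⟩
        rwa [nondeg_inf_qorth hQ (hD.nondegenerate p), Submodule.mem_bot] at h5
      have hxv : pf v x = 2 * Q x := by rw [← qcomp_pf hQ hD p v hxD, ← hx, pf_self hQ]
      have h6 := congrArg (fun z => pf z v) h1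
      simp only [hQ.polar_bilinear.add_left, hQ.polar_bilinear.smul_left, pf_sub_left hQ,
        pf_self hQ, hv, ha'v, pf_comm hQ x v, hxv, pf_zero_left hQ] at h6
      have hQx : Q x = 0 := by
        have : (2 : F) * Q a' * (2 * Q x) = 0 := by linear_combination -h6
        exact (mul_eq_zero.mp this).resolve_left (mul_ne_zero h2 hQa) |> fun h =>
          (mul_eq_zero.mp h).resolve_left h2
      have h7 : Q a' = Q ((2 * Q a') • (v - x)) := by
        conv_lhs => rw [eq_neg_of_add_eq_zero_left h1]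
        rw [q_neg hQ]
      rw [hQ.smul, q_sub hQ, hv, hQx, hxv, hQx] at h7
      exact hQa (by linear_combination h7)
    · have hap' : pf (-qcomp hQ hD p a'') v' = 0 := by
        rw [pf_neg_left hQ, qcomp_pf hQ hD p a'' hv'b, hav', neg_zero]
      have h3 := M.mul_mem hM' (hHM (qE_block_mem_H hQ (by omega) hD hv'b
        ((D p).neg_mem (qcomp_mem hQ hD p a'')) hQv' hap'))
      rw [qE_mul hQ hQv' hav' hap', ← sub_eq_add_neg, ← hb] at h3
      exact omega_le_of_block_root hQ (by omega) hD le_rfl (Or.inr hiso) hHM hv'b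
        (fun h => hv'p0 (by rw [h, map_zero])) hQv' (hb ▸ sub_qcomp_mem hQ hD p a'') hb0 h3
  · rcases exists_single hQ hD h13 hiso hHM h2 h5 hQv' hv'b hv'p0 ha''p hav' hM' with
      h | ⟨d, hd, hQd, hdv, hdM⟩
    · exact h
    · exact done_state hQ hD h13 hiso hHM h2 h5 hQv' hv'b hd hQd hdv hdM

omit hHM in
/-- blocks of dimension three -/
theorem isMaximalIn_qWreath3 :
    Cfsg.Geo.IsMaximalIn (Cfsg.Geo.omegaGL Q)
      (Cfsg.Geo.decompositionStabilizer D ⊓ Cfsg.Geo.omegaGL Q) := by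
  have ht : 0 < t := by have := hD.decomp.two_le; omega
  refine isMaximalIn_of inf_le_right ?_ ?_
  · intro hle
    let i₀ : Fin t := ⟨0, ht⟩
    let j₀ : Fin t := ⟨1, by have := hD.decomp.two_le; omega⟩
    have hne : j₀ ≠ i₀ := fun h => by simp [i₀, j₀] at h
    obtain ⟨u, hu, hu0, hQu⟩ := exists_sing hQ (D i₀) (by rw [hD.decomp.finrank_eq])
    obtain ⟨b, hb, hb0⟩ := Submodule.exists_mem_ne_zero_of_ne_bot
      (show D j₀ ≠ ⊥ from fun h => by
        have := hD.decomp.finrank_eq j₀; rw [h, finrank_bot] at this; omega)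
    have hbu : pf b u = 0 := hD.orthogonal _ _ hne b hb u hu
    obtain ⟨σ, hσ⟩ := (hle (qE_mem_omega hQ (by omega) hQu hbu)).1
    have hσj : σ j₀ = j₀ := by
      have h1 := finrank_inf_ge (D j₀) (qorth hQ (Submodule.span F {u, b}))
      have h2' := finrank_qorth hQ (Submodule.span F {u, b})
      have h3 := span_le_two (F := F) u b
      rw [hD.decomp.finrank_eq] at h1
      obtain ⟨x, hx, hx0⟩ := Submodule.exists_mem_ne_zero_of_ne_bot
        (show D j₀ ⊓ qorth hQ (Submodule.span F {u, b}) ≠ ⊥ from fun h0 => by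
          rw [h0, finrank_bot] at h1; omega)
      obtain ⟨h4, h5'⟩ := (qorth_span_pair hQ).mp hx.2
      have hm := Submodule.mem_map_of_mem (f := Matrix.toLin' (qE Q u b : Matrix ι ι F)) hx.1
      rw [hσ j₀, Matrix.toLin'_apply, qE_mulVec hQ hQu hbu, h4, h5'] at hm
      simp only [mul_zero, sub_zero, zero_smul, add_zero] at hm
      by_contra hne'
      exact hx0 ((hD.decomp.indep.pairwiseDisjoint hne').le_bot ⟨hm, hx.1⟩)
    obtain ⟨y, hy, hby⟩ := (hD.nondegenerate j₀ b hb hb0).1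
    have hyu : pf y u = 0 := hD.orthogonal _ _ hne y hy u hu
    have hm := Submodule.mem_map_of_mem (f := Matrix.toLin' (qE Q u b : Matrix ι ι F)) hy
    rw [hσ j₀, Matrix.toLin'_apply, hσj, qE_mulVec hQ hQu hbu, hyu] at hm
    have h' := (D j₀).sub_mem hm hy
    simp only [mul_zero, sub_zero, zero_smul, add_sub_cancel_left] at h'
    exact hu0 ((hD.decomp.indep.pairwiseDisjoint hne).le_bot
      ⟨((D j₀).smul_mem_iff hby).mp h', hu⟩)
  intro M hHM hMK g hgM hgH
  have hgI := omega_le_isometry (hMK hgM)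
  by_contra hno
  have hroot : ∀ p, ∀ u ∈ D p, u ≠ 0 → Q u = 0 →
      ∃ l, (g : Matrix ι ι F) *ᵥ u ∈ D l ∧
        ∀ a ∈ D p, pf a u = 0 → (g : Matrix ι ι F) *ᵥ a ∈ D l := by
    intro p u hu hu0 hQu
    obtain ⟨v, hv⟩ : ∃ v, v = (g : Matrix ι ι F) *ᵥ u := ⟨_, rfl⟩
    have hv0 : v ≠ 0 := fun h => hu0 (mulVec_injective g (by simpa [← hv] using h))
    have hQv : Q v = 0 := by rw [hv, iso_Q hgI, hQu]
    have hmemM : ∀ a ∈ D p, pf a u = 0 → qE Q v ((g : Matrix ι ι F) *ᵥ a) ∈ M := fun a ha hau =>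
      hv ▸ conj_qE_mem hQ hgM hgI hQu hau (hHM (qE_block_mem_H hQ (by omega) hD hu ha hQu hau))
    by_cases hblock : ∀ m, v ∉ D m
    · exfalso
      obtain ⟨a, ha, hau⟩ : ∃ a ∈ D p ⊓ qorth hQ (Submodule.span F {u}),
          a ∉ Submodule.span F {u} := by
        by_contra! h
        have h1 := finrank_inf_ge (D p) (qorth hQ (Submodule.span F {u}))
        have h2' := finrank_qorth hQ (Submodule.span F {u})
        have h3 := Submodule.finrank_mono (show D p ⊓ qorth hQ (Submodule.span F {u}) ≤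
          Submodule.span F {u} from h)
        have h4 := span_le_one (F := F) u
        rw [hD.decomp.finrank_eq] at h1
        omega
      obtain ⟨haD, hau'⟩ := (mem_plane hQ hD).mp ha
      refine hno (done_root hQ hD h13 hiso hHM h2 h5 hQv hblock (fun h => hau ?_)
        (by rw [hv, iso_pf hgI, hau']) (hmemM a haD hau'))
      obtain ⟨r, hr⟩ := Submodule.mem_span_singleton.mp h
      rw [hv, ← mulVec_smul] at hr
      exact Submodule.mem_span_singleton.mpr ⟨r, mulVec_injective g hr⟩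
    push Not at hblock
    obtain ⟨l, hl⟩ := hblock
    refine ⟨l, hv ▸ hl, fun a ha hau => ?_⟩
    by_contra hout
    obtain ⟨a', ha'⟩ : ∃ a', a' = (g : Matrix ι ι F) *ᵥ a := ⟨_, rfl⟩
    rw [← ha'] at hout
    have hav : pf a' v = 0 := by rw [ha', hv, iso_pf hgI, hau]
    have hneg : pf (-qcomp hQ hD l a') v = 0 := by
      rw [pf_neg_left hQ, qcomp_pf hQ hD l a' hl, hav, neg_zero]
    have h3 := M.mul_mem (ha' ▸ hmemM a ha hau) (hHM (qE_block_mem_H hQ (by omega) hD hl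
      ((D l).neg_mem (qcomp_mem hQ hD l a')) hQv hneg))
    rw [qE_mul hQ hQv hav hneg, ← sub_eq_add_neg] at h3
    exact hno (omega_le_of_block_root hQ (by omega) hD le_rfl (Or.inr hiso) hHM hl hv0 hQv
      (sub_qcomp_mem hQ hD l a')
      (fun h => hout (by rw [sub_eq_zero.mp h]; exact qcomp_mem hQ hD l a')) h3)
  have hblk : ∀ p, ∃ l, ∀ z ∈ D p, (g : Matrix ι ι F) *ᵥ z ∈ D l := by
    intro p
    obtain ⟨u, hu, hu0, hQu⟩ := exists_sing hQ (D p) (by rw [hD.decomp.finrank_eq])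
    obtain ⟨w, hw, hQw, huw⟩ := exists_partner_in hQ (hD.nondegenerate p) hu hu0 hQu
    have hw0 : w ≠ 0 := fun h => by rw [h, pf_zero_right hQ] at huw; exact zero_ne_one huw
    obtain ⟨l, hlu, hla⟩ := hroot p u hu hu0 hQu
    obtain ⟨l', hlw, -⟩ := hroot p w hw hw0 hQw
    have hll : l' = l := by
      by_contra hne
      have := hD.orthogonal l l' (Ne.symm hne) _ hlu _ hlw
      rw [iso_pf hgI, huw] at this
      exact one_ne_zero this
    subst hll
    refine ⟨l', fun z hz => ?_⟩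
    have h1 := hla (z - pf z u • w) ((D p).sub_mem hz ((D p).smul_mem _ hw))
      (by rw [pf_sub_left hQ, hQ.polar_bilinear.smul_left, pf_comm hQ w u, huw]; ring)
    have h3 := (D l').add_mem h1 ((D l').smul_mem (pf z u) hlw)
    rwa [← mulVec_smul, ← mulVec_add, sub_add_cancel] at h3
  choose σ hσ using hblk
  refine hgH ⟨mem_decomp_of_maps hQ hD σ (fun p p' hpp => ?_) hσ, hMK hgM⟩
  by_contra hne
  have h1 : D p ⊔ D p' ≤ (D (σ p)).comap (Matrix.toLin' (g : Matrix ι ι F)) := sup_le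
    (fun x hx => by rw [Submodule.mem_comap, Matrix.toLin'_apply]; exact hσ p x hx)
    (fun x hx => by rw [Submodule.mem_comap, Matrix.toLin'_apply, hpp]; exact hσ p' x hx)
  have hinj : Function.Injective (Matrix.toLin' (g : Matrix ι ι F)) := fun a b h =>
    mulVec_injective g (by simpa [Matrix.toLin'_apply] using h)
  have h2' := Submodule.finrank_mono
    ((Submodule.map_mono h1).trans (Submodule.map_comap_le _ (D (σ p))))
  rw [← (Submodule.equivMapOfInjective _ hinj (D p ⊔ D p')).finrank_eq,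
    hD.decomp.finrank_eq] at h2'
  have h3 := Submodule.finrank_sup_add_finrank_inf_eq (D p) (D p')
  rw [(hD.decomp.indep.pairwiseDisjoint hne).eq_bot, finrank_bot, hD.decomp.finrank_eq,
    hD.decomp.finrank_eq] at h3
  omega

end blocks

end CfsgLib.Classical
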