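import Cfsg.Agent.Lib.ClassicalSymp
import Cfsg.Prelude.Def_GeometricClasses

/-! The stabiliser of two complementary totally singular subspaces is maximal in Sp, odd q. -/

set_option autoImplicit false

namespace CfsgLib.Classical

open Matrix

variable {ι : Type} [Fintype ι] [DecidableEq ι] {F : Type*} [Field F]
  {f : (ι → F) → (ι → F) → F}

/-- `x ↦ x + c (f(x,a) b + f(x,b) a)` -/
noncomputable def rtv (f : (ι → F) → (ι → F) → F) (a b : ι → F) (c : F) : GL ι F :=
  stv f (a + b) c * (stv f a (-c) * stv f b (-c))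

variable (hf : Cfsg.Geo.IsSymplecticForm f)
include hf

lemma rtv_mem_isoGL (a b : ι → F) (c : F) : rtv f a b c ∈ isoGL f :=
  mul_mem (stv_mem_isoGL hf _ _) (mul_mem (stv_mem_isoGL hf _ _) (stv_mem_isoGL hf _ _))

lemma rtv_mulVec {a b : ι → F} (h : f a b = 0) (c : F) (x : ι → F) :
    (rtv f a b c : Matrix ι ι F) *ᵥ x = x + (c * f x a) • b + (c * f x b) • a := by
  have hba : f b a = 0 := by rw [hf.skew, h, neg_zero]
  simp only [rtv, Units.val_mul, ← mulVec_mulVec, stv_mulVec hf]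
  simp only [hf.bilinear.add_left, hf.bilinear.add_right, hf.bilinear.smul_left, h, hba,
    hf.alternating]
  module

lemma rtv_comm (a b : ι → F) (h : f a b = 0) (c : F) : rtv f a b c = rtv f b a c := by
  have hba : f b a = 0 := by rw [hf.skew, h, neg_zero]
  refine gl_ext_mulVec fun x => ?_
  rw [rtv_mulVec hf h, rtv_mulVec hf hba]
  abel

lemma rtv_conj {g : GL ι F} (hg : g ∈ isoGL f) (a b : ι → F) (c : F) :
    g * rtv f a b c * g⁻¹ =
      rtv f ((g : Matrix ι ι F) *ᵥ a) ((g : Matrix ι ι F) *ᵥ b) c := by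
  simp only [rtv, ← mulVec_add, ← stv_conj hf hg]
  group

lemma rtv_mul_rtv {a b b' : ι → F} (h : f a b = 0) (h' : f a b' = 0) (hbb : f b b' = 0) (c : F) :
    rtv f a b c * rtv f a b' c = rtv f a (b + b') c := by
  have hs : f a (b + b') = 0 := by rw [hf.bilinear.add_right, h, h', add_zero]
  refine gl_ext_mulVec fun x => ?_
  rw [Units.val_mul, ← mulVec_mulVec, rtv_mulVec hf h', rtv_mulVec hf h, rtv_mulVec hf hs]
  simp only [hf.bilinear.add_left, hf.bilinear.add_right, hf.bilinear.smul_left, hf.alternating,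
    hf.skew b' a, h', hf.skew b' b, hbb, h]
  module

/-- two complementary totally singular subspaces -/
structure IsTSPair (f : (ι → F) → (ι → F) → F) (A B : Submodule F (ι → F)) : Prop where
  isoA : ∀ u ∈ A, ∀ v ∈ A, f u v = 0
  isoB : ∀ u ∈ B, ∀ v ∈ B, f u v = 0
  compl : IsCompl A B

variable {A B : Submodule F (ι → F)} (hP : IsTSPair f A B)
include hP

omit hf in
lemma IsTSPair.symm : IsTSPair f B A := ⟨hP.isoB, hP.isoA, hP.compl.symm⟩

omit hf in
lemma tsSplit (x : ι → F) : ∃ a ∈ A, ∃ b ∈ B, x = a + b := by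
  obtain ⟨a, ha, b, hb, h⟩ :=
    Submodule.mem_sup.mp (hP.compl.sup_eq_top ▸ Submodule.mem_top (x := x))
  exact ⟨a, ha, b, hb, h.symm⟩

lemma eq_zero_of_pairing {a : ι → F} (ha : a ∈ A) (h : ∀ w ∈ B, f a w = 0) : a = 0 := by
  by_contra ha0
  obtain ⟨x, hx⟩ := (hf.nondegenerate a ha0).2
  obtain ⟨p, hp, q, hq, rfl⟩ := tsSplit hP x
  exact hx (by rw [hf.bilinear.add_right, hP.isoA a ha p hp, h q hq, add_zero])

lemma exists_functional_vec (v : ι → F) {S : Submodule F (ι → F)} (hS : S ≤ A) (hv : v ∈ A)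
    (hvS : v ∉ S) : ∃ w ∈ B, f v w = 1 ∧ ∀ s ∈ S, f s w = 0 := by
  obtain ⟨l, hl, hlS⟩ := Submodule.exists_dual_map_eq_bot_of_notMem hvS inferInstance
  obtain ⟨y, hy⟩ : ∃ y, ∀ x, f x y = (l v)⁻¹ * l x := by
    let T : (ι → F) →ₗ[F] Module.Dual F (ι → F) := (toBil hf.bilinear).flip
    have hinj : Function.Injective T := by
      rw [injective_iff_map_eq_zero]
      intro y hy
      by_contra hy0
      obtain ⟨x, hx⟩ := (hf.nondegenerate y hy0).1
      exact hx (LinearMap.congr_fun hy x)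
    obtain ⟨y, hy⟩ := (LinearMap.injective_iff_surjective_of_finrank_eq_finrank
      (by rw [Subspace.dual_finrank_eq])).mp hinj ((l v)⁻¹ • l)
    exact ⟨y, fun x => LinearMap.congr_fun hy x⟩
  obtain ⟨p, hp, q, hq, rfl⟩ := tsSplit hP y
  have hq' : ∀ x ∈ A, f x q = (l v)⁻¹ * l x := fun x hx => by
    have := hy x
    rwa [hf.bilinear.add_right, hP.isoA x hx p hp, zero_add] at this
  refine ⟨q, hq, by rw [hq' v hv, inv_mul_cancel₀ hl], fun s hs => ?_⟩
  have : l s ∈ S.map l := ⟨s, hs, rfl⟩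
  rw [hlS, Submodule.mem_bot] at this
  rw [hq' s (hS hs), this, mul_zero]

omit hP in
lemma exists_mem_avoid (A : Submodule F (ι → F)) (hA : 5 ≤ Module.finrank F A) (p q u v : ι → F) :
    ∃ a ∈ A, f a p = 0 ∧ f a q = 0 ∧ a ∉ Submodule.span F (Set.range ![u, v]) := by
  by_contra! h
  let L : A →ₗ[F] (Fin 2 → F) :=
    (LinearMap.pi ![(toBil hf.bilinear).flip p, (toBil hf.bilinear).flip q]).comp A.subtype
  have hker : (LinearMap.ker L).map A.subtype ≤ Submodule.span F (Set.range ![u, v]) := by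
    rintro _ ⟨a, ha, rfl⟩
    exact h a a.2 (congrFun (LinearMap.mem_ker.mp ha) 0) (congrFun (LinearMap.mem_ker.mp ha) 1)
  have h1 := Submodule.finrank_mono hker
  rw [← (Submodule.equivMapOfInjective _ A.injective_subtype (LinearMap.ker L)).finrank_eq] at h1
  have h2 : Module.finrank F (Submodule.span F (Set.range ![u, v])) ≤ 2 :=
    le_trans (finrank_range_le_card _) (by simp)
  have h3 := LinearMap.finrank_range_add_finrank_ker L
  have h4 := Submodule.finrank_le (LinearMap.range L)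
  rw [Module.finrank_pi, Fintype.card_fin] at h4
  omega

omit hP in
lemma rtv_zero (a b : ι → F) (h : f a b = 0) : rtv f a b 0 = 1 := by
  refine gl_ext_mulVec fun x => ?_
  rw [rtv_mulVec hf h]; simp

variable {M : Subgroup (GL ι F)}
  (hH : ∀ a ∈ A, ∀ b ∈ B, f a b = 0 → ∀ c, rtv f a b c ∈ M) (hMK : M ≤ isoGL f)
include hH hMK

/-- from one skew pair of short root elements get all transvections with one centre in `A` -/
theorem tsCentre (h2 : (2 : F) ≠ 0) (hdim : 5 ≤ Module.finrank F A) {b v : ι → F}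
    (hbv : f b v = 0) (hbvM : ∀ c, rtv f b v c ∈ M) {b0 b1 v0 v1 : ι → F} (hb0 : b0 ∈ A)
    (hb1 : b1 ∈ B) (hb : b = b0 + b1) (hv0 : v0 ∈ A) (hv1 : v1 ∈ B) (hv : v = v0 + v1)
    (hb00 : b0 ≠ 0) (hind : v0 ∉ Submodule.span F {b0}) :
    ∃ a ∈ A, a ≠ 0 ∧ ∀ c, stv f a c ∈ M := by
  classical
  obtain ⟨a, ha, hab, hav, hanot⟩ := exists_mem_avoid hf A hdim b1 v1 b0 v0
  have ha0 : a ≠ 0 := fun h => hanot (h ▸ Submodule.zero_mem _)
  have hv0not : v0 ∉ Submodule.span F (Set.range ![a, b0]) := by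
    intro h
    obtain ⟨c, hc⟩ := (Submodule.mem_span_range_iff_exists_fun F).mp h
    simp only [Fin.sum_univ_two, Matrix.cons_val_zero, Matrix.cons_val_one] at hc
    by_cases h0 : c 0 = 0
    · rw [h0, zero_smul, zero_add] at hc
      exact hind (Submodule.mem_span_singleton.mpr ⟨c 1, hc⟩)
    apply hanot
    have : a = (c 0)⁻¹ • (v0 - c 1 • b0) := by
      rw [← hc, add_sub_cancel_right, smul_smul, inv_mul_cancel₀ h0, one_smul]
    rw [this]
    exact Submodule.smul_mem _ _ (Submodule.sub_mem _ (Submodule.subset_span ⟨1, rfl⟩)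
      (Submodule.smul_mem _ _ (Submodule.subset_span ⟨0, rfl⟩)))
  have hb0not : b0 ∉ Submodule.span F {a} := by
    intro h
    obtain ⟨c, hc⟩ := Submodule.mem_span_singleton.mp h
    have hc0 : c ≠ 0 := fun h => hb00 (by rw [← hc, h, zero_smul])
    apply hanot
    rw [show a = c⁻¹ • b0 by rw [← hc, smul_smul, inv_mul_cancel₀ hc0, one_smul]]
    exact Submodule.smul_mem _ _ (Submodule.subset_span ⟨0, rfl⟩)
  obtain ⟨w, hw, hvw, hS⟩ := exists_functional_vec hf hP v0
    (S := Submodule.span F (Set.range ![a, b0])) (Submodule.span_le.mpr (by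
      rintro _ ⟨i, rfl⟩; fin_cases i <;> simpa)) hv0 hv0not
  have haw : f a w = 0 := hS _ (Submodule.subset_span ⟨0, rfl⟩)
  have hb0w : f b0 w = 0 := hS _ (Submodule.subset_span ⟨1, rfl⟩)
  obtain ⟨w', hw', hb0w', hS'⟩ := exists_functional_vec hf hP b0 (S := Submodule.span F {a})
    (by simpa using ha) hb0 hb0not
  have haw' : f a w' = 0 := hS' _ (Submodule.mem_span_singleton_self a)
  have hab0' : f a b0 = 0 := hP.isoA a ha b0 hb0
  have habb : f a b = 0 := by rw [hb, hf.bilinear.add_right, hab0', hab, add_zero]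
  have havv : f a v = 0 := by rw [hv, hf.bilinear.add_right, hP.isoA a ha v0 hv0, hav, add_zero]
  have hwb : f w b = 0 := by
    rw [hb, hf.bilinear.add_right, hf.skew w b0, hb0w, hP.isoB w hw b1 hb1]; simp
  have hwv : f w v = -1 := by
    rw [hv, hf.bilinear.add_right, hf.skew w v0, hvw, hP.isoB w hw v1 hv1]; simp
  -- `rtv a b c ∈ M`
  have hrab : ∀ c, rtv f a b c ∈ M := by
    intro c
    have hg := hbvM 1
    have h1 : rtv f b v 1 * rtv f a w c * (rtv f b v 1)⁻¹ ∈ M :=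
      M.mul_mem (M.mul_mem hg (hH a ha w hw haw c)) (M.inv_mem hg)
    rw [rtv_conj hf (hMK hg), rtv_mulVec hf hbv, rtv_mulVec hf hbv, habb, havv, hwb, hwv] at h1
    simp only [mul_zero, zero_smul, add_zero, one_mul] at h1
    rw [show w + (-1 : F) • b = w - b by module] at h1
    have hwb' : f (w - b) b = 0 := by rw [f_sub_left hf.bilinear, hwb, hf.alternating, sub_zero]
    have hawb : f a (w - b) = 0 := by rw [f_sub_right hf.bilinear, haw, habb, sub_zero]
    have e := rtv_mul_rtv hf hawb habb hwb' c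
    rw [sub_add_cancel] at e
    rw [show rtv f a b c = (rtv f a (w - b) c)⁻¹ * rtv f a w c by rw [← e, inv_mul_cancel_left]]
    exact M.mul_mem (M.inv_mem h1) (hH a ha w hw haw c)
  refine ⟨a, ha, ha0, fun c => ?_⟩
  set d : F := c / 2 with hd
  set S : GL ι F := rtv f a b d * rtv f a b1 (-d) with hSdef
  have hSM : S ∈ M := M.mul_mem (hrab d) (hH a ha b1 hb1 hab _)
  set h := rtv f a w' 1 with hhdef
  have hhM : h ∈ M := hH a ha w' hw' haw' 1
  have hb0a : f b0 a = 0 := hP.isoA b0 hb0 a ha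
  have hha : (h : Matrix ι ι F) *ᵥ a = a := by
    rw [rtv_mulVec hf haw', haw', hf.alternating]; simp
  have hhb0 : (h : Matrix ι ι F) *ᵥ b0 = b0 + a := by
    rw [rtv_mulVec hf haw', hb0a, hb0w']; simp
  have hbb : f b1 b = f b1 b0 := by
    rw [hb, hf.bilinear.add_right, hf.alternating, add_zero]
  have hb1a : f b1 a = 0 := by rw [hf.skew b1 a, hab, neg_zero]
  have hSx : ∀ x, (S : Matrix ι ι F) *ᵥ x = x + (d * f x a) • b0 + (d * f x b0) • a
      - (d * d * f x a * f b1 b0) • a := by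
    intro x
    rw [hSdef, Units.val_mul, ← mulVec_mulVec, rtv_mulVec hf hab, rtv_mulVec hf habb]
    simp only [hf.bilinear.add_left, hf.bilinear.smul_left, hb1a, hbb, hf.alternating, habb]
    simp only [hb, hf.bilinear.add_right]
    module
  have key : h * S * h⁻¹ = stv f a c * S := by
    rw [mul_inv_eq_iff_eq_mul]
    refine gl_ext_mulVec fun x => ?_
    simp only [Units.val_mul, ← mulVec_mulVec, stv_mulVec hf]
    rw [hSx, hSx, mulVec_sub, mulVec_add, mulVec_add, mulVec_smul, mulVec_smul, mulVec_smul,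
      hha, hhb0]
    have hxa : f ((h : Matrix ι ι F) *ᵥ x) a = f x a := by
      conv_lhs => rw [← hha]
      exact mem_isoGL.mp (hMK hhM) x a
    have hxb : f ((h : Matrix ι ι F) *ᵥ x) b0 = f x b0 - f x a := by
      have := mem_isoGL.mp (hMK hhM) x b0
      rw [hhb0, hf.bilinear.add_right, hxa] at this
      linear_combination this
    have hc2 : c = 2 * d := by rw [hd]; field_simp
    simp only [hxa, hxb, f_sub_left hf.bilinear, hf.bilinear.add_left, hf.bilinear.smul_left,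
      hb0a, hf.alternating, hc2]
    module
  rw [show stv f a c = h * S * h⁻¹ * S⁻¹ by rw [key, mul_inv_cancel_right]]
  exact M.mul_mem (M.mul_mem (M.mul_mem hhM hSM) (M.inv_mem hhM)) (M.inv_mem hSM)

/-- transvections spread over `A` -/
theorem tsSpread (hdim : 5 ≤ Module.finrank F A) {a : ι → F} (ha : a ∈ A) (ha0 : a ≠ 0)
    (haM : ∀ c, stv f a c ∈ M) : ∀ x ∈ A, ∀ c, stv f x c ∈ M := by
  classical
  have step : ∀ p ∈ A, p ≠ 0 → (∀ c, stv f p c ∈ M) → ∀ q ∈ A, q ∉ Submodule.span F {p} →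
      ∀ c, stv f q c ∈ M := by
    intro p hp hp0 hpM q hq hnot c
    have hnot' : p ∉ Submodule.span F {q - p} := by
      intro h
      obtain ⟨t, ht⟩ := Submodule.mem_span_singleton.mp h
      have ht0 : t ≠ 0 := fun h => hp0 (by rw [← ht, h, zero_smul])
      apply hnot
      refine Submodule.mem_span_singleton.mpr ⟨t⁻¹ + 1, ?_⟩
      rw [add_smul, one_smul, ← ht, smul_smul, inv_mul_cancel₀ ht0, one_smul]
      rw [ht, sub_add_cancel]
    obtain ⟨w, hw, hpw, hS⟩ := exists_functional_vec hf hP p (S := Submodule.span F {q - p})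
      (by simpa using A.sub_mem hq hp) hp hnot'
    have hqp : f (q - p) w = 0 := hS _ (Submodule.mem_span_singleton_self _)
    have hhM : rtv f (q - p) w 1 ∈ M := hH _ (A.sub_mem hq hp) w hw hqp 1
    have himg : (rtv f (q - p) w 1 : Matrix ι ι F) *ᵥ p = q := by
      rw [rtv_mulVec hf hqp, hpw, hP.isoA p hp _ (A.sub_mem hq hp)]; simp
    rw [← himg, ← stv_conj hf (hMK hhM)]
    exact M.mul_mem (M.mul_mem hhM (hpM c)) (M.inv_mem hhM)
  intro x hx c
  by_cases hx0 : x = 0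
  · rw [hx0, stv, tv_zero_left]; exact M.one_mem
  by_cases hxs : x ∈ Submodule.span F {a}
  · obtain ⟨y, hy, -, -, hys⟩ := exists_mem_avoid hf A hdim 0 0 a a
    have hy0 : y ≠ 0 := fun h => hys (h ▸ Submodule.zero_mem _)
    have hya : y ∉ Submodule.span F {a} := fun h =>
      hys (Submodule.span_mono (by simp) h)
    refine step y hy hy0 (step a ha ha0 haM y hy hya) x hx (fun h => ?_) c
    obtain ⟨t, ht⟩ := Submodule.mem_span_singleton.mp h
    obtain ⟨s, hs⟩ := Submodule.mem_span_singleton.mp hxs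
    have ht0 : t ≠ 0 := fun h => hx0 (by rw [← ht, h, zero_smul])
    apply hya
    refine Submodule.mem_span_singleton.mpr ⟨t⁻¹ * s, ?_⟩
    rw [mul_smul, hs, ← ht, smul_smul, inv_mul_cancel₀ ht0, one_smul]
  · exact step a ha ha0 haM x hx hxs c

omit hH hP in
/-- the line lemma -/
lemma stv_mem_of_pair {p q : ι → F} (hp : ∀ c, stv f p c ∈ M) (hq : ∀ c, stv f q c ∈ M)
    (hpq : f p q ≠ 0) : ∀ c, stv f (p + q) c ∈ M := by
  intro c
  have : (stv f q (f p q)⁻¹ : Matrix ι ι F) *ᵥ p = p + q := by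
    rw [stv_mulVec hf, inv_mul_cancel₀ hpq, one_smul]
  rw [← this, ← stv_conj hf (stv_mem_isoGL hf _ _)]
  exact M.mul_mem (M.mul_mem (hq _) (hp c)) (M.inv_mem (hq _))

omit hH in
lemma stv_mem_all (hA : ∀ x ∈ A, ∀ c, stv f x c ∈ M) (hB : ∀ x ∈ B, ∀ c, stv f x c ∈ M)
    (z : ι → F) : ∀ c, stv f z c ∈ M := by
  obtain ⟨p, hp, q, hq, rfl⟩ := tsSplit hP z
  by_cases hp0 : p = 0
  · subst hp0; simpa using hB q hq
  by_cases hpq : f p q = 0
  · obtain ⟨q', hq', hpq', -⟩ := exists_functional_vec hf hP p (S := ⊥) bot_le hp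
      (by simpa using hp0)
    have e : p + q = (p + q') + (q - q') := by abel
    rw [e]
    refine stv_mem_of_pair hf hMK (stv_mem_of_pair hf hMK (hA p hp) (hB q' hq') (by simp [hpq']))
      (hB _ (B.sub_mem hq hq')) ?_
    rw [hf.bilinear.add_left, f_sub_right hf.bilinear, f_sub_right hf.bilinear, hpq, hpq',
      hP.isoB q' hq' q hq, hf.alternating]
    simp
  · exact stv_mem_of_pair hf hMK (hA p hp) (hB q hq) hpq

/-- from one element moving a vector of `A` to a mixed vector get a centre in `A` or in `B` -/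
theorem tsMixed (h2 : (2 : F) ≠ 0) (hA5 : 5 ≤ Module.finrank F A) (hB5 : 5 ≤ Module.finrank F B)
    {g : GL ι F} (hg : g ∈ M) {u : ι → F} (hu : u ∈ A)
    (hmix : (g : Matrix ι ι F) *ᵥ u ∉ A) (hmix' : (g : Matrix ι ι F) *ᵥ u ∉ B) :
    (∃ a ∈ A, a ≠ 0 ∧ ∀ c, stv f a c ∈ M) ∨ (∃ a ∈ B, a ≠ 0 ∧ ∀ c, stv f a c ∈ M) := by
  classical
  obtain ⟨b0, hb0, b1, hb1, hb⟩ := tsSplit hP ((g : Matrix ι ι F) *ᵥ u)
  have hb00 : b0 ≠ 0 := fun h => hmix' (by rw [hb, h, zero_add]; exact hb1)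
  have hb10 : b1 ≠ 0 := fun h => hmix (by rw [hb, h, add_zero]; exact hb0)
  by_contra hno
  push Not at hno
  let L : Submodule F (ι → F) := B ⊓ LinearMap.ker (toBil hf.bilinear u)
  let T : (ι → F) →ₗ[F] (ι → F) := Matrix.toLin' (g : Matrix ι ι F)
  have hsub : L.map T ≤ Submodule.span F (Set.range ![b0, b1]) := by
    rintro _ ⟨x, ⟨hxB, hxu⟩, rfl⟩
    have hux : f u x = 0 := hxu
    have hTx : T x = (g : Matrix ι ι F) *ᵥ x := Matrix.toLin'_apply _ _
    rw [hTx]
    obtain ⟨v0, hv0, v1, hv1, hv⟩ := tsSplit hP ((g : Matrix ι ι F) *ᵥ x)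
    have hbv : f ((g : Matrix ι ι F) *ᵥ u) ((g : Matrix ι ι F) *ᵥ x) = 0 := by
      rw [mem_isoGL.mp (hMK hg), hux]
    have hM' : ∀ c, rtv f ((g : Matrix ι ι F) *ᵥ u) ((g : Matrix ι ι F) *ᵥ x) c ∈ M := by
      intro c
      rw [← rtv_conj hf (hMK hg)]
      exact M.mul_mem (M.mul_mem hg (hH u hu x hxB hux c)) (M.inv_mem hg)
    by_cases h0 : v0 ∈ Submodule.span F {b0}
    · by_cases h1 : v1 ∈ Submodule.span F {b1}
      · rw [hv]
        refine Submodule.add_mem _ (Submodule.span_mono ?_ h0) (Submodule.span_mono ?_ h1) <;> simp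
      · exfalso
        obtain ⟨a, ha, ha0, haM⟩ := tsCentre hf hP.symm
          (fun p hp q hq h c => by
            rw [rtv_comm hf p q h]; exact hH q hq p hp (by rw [hf.skew q p, h, neg_zero]) c)
          hMK h2 hB5 hbv hM' hb1 hb0 (by rw [hb, add_comm]) hv1 hv0 (by rw [hv, add_comm]) hb10 h1
        obtain ⟨c, hc⟩ := hno.2 a ha ha0
        exact hc (haM c)
    · exfalso
      obtain ⟨a, ha, ha0, haM⟩ := tsCentre hf hP hH hMK h2 hA5 hbv hM' hb0 hb1 hb hv0 hv1 hv hb00 h0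
      obtain ⟨c, hc⟩ := hno.1 a ha ha0
      exact hc (haM c)
  have h1 := Submodule.finrank_mono hsub
  have hT : Function.Injective T := by
    intro x y h
    simp only [T, Matrix.toLin'_apply] at h
    exact mulVec_injective g h
  rw [← (Submodule.equivMapOfInjective _ hT L).finrank_eq] at h1
  have h3 : Module.finrank F (Submodule.span F (Set.range ![b0, b1])) ≤ 2 :=
    le_trans (finrank_range_le_card _) (by simp)
  have h4 := LinearMap.finrank_range_add_finrank_ker ((toBil hf.bilinear u).comp B.subtype)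
  have h5 := Submodule.finrank_le (LinearMap.range ((toBil hf.bilinear u).comp B.subtype))
  rw [Module.finrank_self] at h5
  have h6 : Module.finrank F (LinearMap.ker ((toBil hf.bilinear u).comp B.subtype)) =
      Module.finrank F L := by
    rw [(Submodule.equivMapOfInjective _ B.injective_subtype _).finrank_eq, LinearMap.ker_comp,
      Submodule.map_comap_subtype]
  omega

omit hH hMK in
/-- an isometry interchanging the two subspaces -/
theorem exists_tsSwap : ∃ J ∈ isoGL f, (∀ x ∈ A, (J : Matrix ι ι F) *ᵥ x ∈ B) ∧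
    (∀ x ∈ B, (J : Matrix ι ι F) *ᵥ x ∈ A) := by
  classical
  let T : B →ₗ[F] Module.Dual F A :=
    (LinearMap.compl₁₂ (toBil hf.bilinear) A.subtype B.subtype).flip
  let T' : A →ₗ[F] Module.Dual F B := LinearMap.compl₁₂ (toBil hf.bilinear) A.subtype B.subtype
  have hTi : Function.Injective T := by
    rw [injective_iff_map_eq_zero]
    intro y hy
    refine Subtype.ext (eq_zero_of_pairing hf hP.symm y.2 fun w hw => ?_)
    have h' : f w (y : ι → F) = 0 := LinearMap.congr_fun hy ⟨w, hw⟩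
    rw [hf.skew, h', neg_zero]
  have hTi' : Function.Injective T' := by
    rw [injective_iff_map_eq_zero]
    intro y hy
    exact Subtype.ext (eq_zero_of_pairing hf hP y.2 fun w hw => LinearMap.congr_fun hy ⟨w, hw⟩)
  have hd : Module.finrank F B = Module.finrank F (Module.Dual F A) := by
    rw [Subspace.dual_finrank_eq]
    have h1 := LinearMap.finrank_le_finrank_of_injective hTi
    have h2 := LinearMap.finrank_le_finrank_of_injective hTi'
    rw [Subspace.dual_finrank_eq] at h1 h2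
    omega
  let φ : A ≃ₗ[F] B :=
    (Module.finBasis F A).toDualEquiv ≪≫ₗ (LinearEquiv.ofInjectiveOfFinrankEq T hTi hd).symm
  have hφ : ∀ a a' : A, f (a : ι → F) (φ a' : ι → F) = f (a' : ι → F) (φ a : ι → F) := by
    have e : ∀ a a' : A, f (a : ι → F) (φ a' : ι → F) = (Module.finBasis F A).toDual a' a := by
      intro a a'
      have : T (φ a') = (Module.finBasis F A).toDual a' :=
        (LinearEquiv.ofInjectiveOfFinrankEq T hTi hd).apply_symm_apply _
      exact LinearMap.congr_fun this a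
    intro a a'
    rw [e, e]
    have : (Module.finBasis F A).toDual.flip = (Module.finBasis F A).toDual :=
      (Module.finBasis F A).ext fun i => (Module.finBasis F A).ext fun j => by
        simp [Module.Basis.toDual_apply, eq_comm]
    conv_lhs => rw [← this]
    rfl
  let E := Submodule.prodEquivOfIsCompl A B hP.compl
  let Je : (ι → F) ≃ₗ[F] (ι → F) :=
    E.symm ≪≫ₗ LinearEquiv.prodComm F A B ≪≫ₗ
      (φ.symm ≪≫ₗ LinearEquiv.neg F).prodCongr φ ≪≫ₗ E
  let J : GL ι F := ⟨LinearMap.toMatrix' Je.toLinearMap, LinearMap.toMatrix' Je.symm.toLinearMap,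
    by rw [← LinearMap.toMatrix'_comp]; simp,
    by rw [← LinearMap.toMatrix'_comp]; simp⟩
  have hJ : ∀ (a : A) (b : B), (J : Matrix ι ι F) *ᵥ ((a : ι → F) + b) =
      (φ a : ι → F) + -(φ.symm b : ι → F) := by
    intro a b
    have h1 : (J : Matrix ι ι F) *ᵥ ((a : ι → F) + b) = Je ((a : ι → F) + b) :=
      LinearMap.toMatrix'_mulVec _ _
    have h2 : ((a : ι → F) + b) = E (a, b) :=
      (Submodule.coe_prodEquivOfIsCompl' A B hP.compl (a, b)).symm
    rw [h1, h2]
    simp only [Je, LinearEquiv.trans_apply, LinearEquiv.symm_apply_apply]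
    rw [Submodule.coe_prodEquivOfIsCompl' A B hP.compl]
    simp [add_comm]
  refine ⟨J, fun x y => ?_, fun x hx => ?_, fun x hx => ?_⟩
  · change f ((J : Matrix ι ι F) *ᵥ x) ((J : Matrix ι ι F) *ᵥ y) = f x y
    obtain ⟨a, ha, b, hb, rfl⟩ := tsSplit hP x
    obtain ⟨a', ha', b', hb', rfl⟩ := tsSplit hP y
    rw [show a + b = ((⟨a, ha⟩ : A) : ι → F) + (⟨b, hb⟩ : B) from rfl, hJ,
      show a' + b' = ((⟨a', ha'⟩ : A) : ι → F) + (⟨b', hb'⟩ : B) from rfl, hJ]
    have hn : ∀ u v : ι → F, f (-u) v = -f u v := fun u v => by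
      rw [← neg_one_smul F u, hf.bilinear.smul_left]; ring
    have hn' : ∀ u v : ι → F, f u (-v) = -f u v := fun u v => by
      rw [← neg_one_smul F v, hf.bilinear.smul_right]; ring
    simp only [hf.bilinear.add_left, hf.bilinear.add_right, hn, hn', hP.isoA a ha a' ha',
      hP.isoB b hb b' hb', hP.isoB _ (φ ⟨a, ha⟩).2 _ (φ ⟨a', ha'⟩).2,
      hP.isoA _ (φ.symm ⟨b, hb⟩).2 _ (φ.symm ⟨b', hb'⟩).2]
    have e1 : f (φ.symm ⟨b', hb'⟩ : ι → F) (φ ⟨a, ha⟩ : ι → F) = f a b' := by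
      rw [hφ, φ.apply_symm_apply]
    have e2 : f (φ.symm ⟨b, hb⟩ : ι → F) (φ ⟨a', ha'⟩ : ι → F) = f a' b := by
      rw [hφ, φ.apply_symm_apply]
    rw [hf.skew (φ ⟨a, ha⟩ : ι → F) (φ.symm ⟨b', hb'⟩ : ι → F), e1, e2, hf.skew b a']
    ring
  · rw [show x = ((⟨x, hx⟩ : A) : ι → F) + ((0 : B) : ι → F) by simp, hJ]
    simp
  · rw [show x = ((0 : A) : ι → F) + ((⟨x, hx⟩ : B) : ι → F) by simp, hJ]
    simp

omit hH hMK hf hP in
/-- a subspace inside a union of two subspaces lies in one of them -/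
lemma le_or_le_of_subset_union {W P Q : Submodule F (ι → F)} (h : ∀ x ∈ W, x ∈ P ∨ x ∈ Q) :
    W ≤ P ∨ W ≤ Q := by
  by_contra hne
  push Not at hne
  obtain ⟨x, hxW, hxP⟩ := SetLike.not_le_iff_exists.mp hne.1
  obtain ⟨y, hyW, hyQ⟩ := SetLike.not_le_iff_exists.mp hne.2
  have hxQ := (h x hxW).resolve_left hxP
  have hyP := (h y hyW).resolve_right hyQ
  rcases h _ (W.add_mem hxW hyW) with h' | h'
  · exact hxP (by simpa using P.sub_mem h' hyP)
  · exact hyQ (by simpa using Q.sub_mem h' hxQ)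

omit hH hMK hP in
theorem isMaximalIn_tsPair {m : ℕ} {D : Fin 2 → Submodule F (ι → F)}
    (hD : Cfsg.Geo.IsMDecomposition m D) (hts : ∀ i, Cfsg.Geo.IsTotallySingularFor f (D i))
    (h2 : (2 : F) ≠ 0) (hm : 5 ≤ m) :
    Cfsg.Geo.IsMaximalIn (isoGL f) (Cfsg.Geo.decompositionStabilizer D ⊓ isoGL f) := by
  classical
  have hcompl : IsCompl (D 0) (D 1) := by
    refine ⟨hD.indep.pairwiseDisjoint (show (0 : Fin 2) ≠ 1 by decide), ?_⟩
    rw [codisjoint_iff, eq_top_iff, ← hD.iSup_eq_top]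
    exact iSup_le fun i => by fin_cases i <;> simp
  have hP : IsTSPair f (D 0) (D 1) := ⟨hts 0, hts 1, hcompl⟩
  -- maps of the pieces
  have hstab : ∀ {g : GL ι F} (σ : Equiv.Perm (Fin 2)),
      (∀ i, ∀ x ∈ D i, (g : Matrix ι ι F) *ᵥ x ∈ D (σ i)) →
      g ∈ Cfsg.Geo.decompositionStabilizer D := by
    intro g σ h
    refine ⟨σ, fun i => Submodule.eq_of_le_of_finrank_eq ?_ ?_⟩
    · rintro _ ⟨x, hx, rfl⟩
      rw [Matrix.toLin'_apply]; exact h i x hx
    · rw [← (Submodule.equivMapOfInjective _ (fun x y hxy => mulVec_injective g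
        (by simpa [Matrix.toLin'_apply] using hxy)) (D i)).finrank_eq, hD.finrank_eq, hD.finrank_eq]
  have hrtv : ∀ a ∈ D 0, ∀ b ∈ D 1, f a b = 0 → ∀ c,
      rtv f a b c ∈ Cfsg.Geo.decompositionStabilizer D ⊓ isoGL f := by
    intro a ha b hb hab c
    refine ⟨hstab 1 fun i x hx => ?_, rtv_mem_isoGL hf a b c⟩
    rw [rtv_mulVec hf hab]
    fin_cases i
    · have : f x a = 0 := hts 0 x hx a ha
      simp only [this, mul_zero, zero_smul, add_zero]
      exact (D 0).add_mem hx ((D 0).smul_mem _ ha)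
    · have : f x b = 0 := hts 1 x hx b hb
      simp only [this, mul_zero, zero_smul, add_zero]
      exact (D 1).add_mem hx ((D 1).smul_mem _ hb)
  obtain ⟨J, hJI, hJA, hJB⟩ := exists_tsSwap hf hP
  have hJH : J ∈ Cfsg.Geo.decompositionStabilizer D ⊓ isoGL f := by
    refine ⟨hstab (Equiv.swap 0 1) fun i x hx => ?_, hJI⟩
    fin_cases i
    · simpa using hJA x hx
    · simpa using hJB x hx
  refine isMaximalIn_of inf_le_right ?_ ?_
  · -- strictness
    intro hle
    have h0 : 5 ≤ Module.finrank F (D 0) := by rw [hD.finrank_eq]; exact hm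
    obtain ⟨p, hp, -, -, hp0⟩ := exists_mem_avoid hf (D 0) h0 0 0 0 0
    obtain ⟨a, ha, -, -, hap⟩ := exists_mem_avoid hf (D 0) h0 0 0 p p
    have hp0' : p ≠ 0 := fun h => hp0 (by rw [h]; exact Submodule.zero_mem _)
    have hap' : a ∉ Submodule.span F {p} := fun h => hap (Submodule.span_mono (by simp) h)
    obtain ⟨q, hq, haq, hS⟩ := exists_functional_vec hf hP a (S := Submodule.span F {p})
      (by simpa using hp) ha hap'
    have hpq : f p q = 0 := hS _ (Submodule.mem_span_singleton_self p)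
    obtain ⟨σ, hσ⟩ := (hle (stv_mem_isoGL hf (p + q) 1)).1
    have himg : (stv f (p + q) 1 : Matrix ι ι F) *ᵥ a = (a + p) + q := by
      rw [stv_mulVec hf, hf.bilinear.add_right, hts 0 a ha p hp, haq]
      simp [add_assoc]
    have hmem : (a + p) + q ∈ D (σ 0) := by
      rw [← hσ 0]; exact ⟨a, ha, by rw [Matrix.toLin'_apply, himg]⟩
    have hq0 : q ≠ 0 := fun h => by rw [h, f_zero_right hf.bilinear] at haq; exact zero_ne_one haq
    rcases (Fin.exists_fin_two.mp ⟨σ 0, rfl⟩ : σ 0 = 0 ∨ σ 0 = 1) with h | h <;> rw [h] at hmem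
    · have hqA : q ∈ D 0 := by simpa using (D 0).sub_mem hmem ((D 0).add_mem ha hp)
      exact hq0 (Submodule.disjoint_def.mp hcompl.disjoint q hqA hq)
    · have : a + p ∈ D 1 := by simpa using (D 1).sub_mem hmem hq
      have h0' := Submodule.disjoint_def.mp hcompl.disjoint _ ((D 0).add_mem ha hp) this
      exact hap' (Submodule.mem_span_singleton.mpr ⟨-1, by
        rw [neg_one_smul, eq_neg_of_add_eq_zero_left h0']⟩)
  intro M hHM hMK g hg hgH
  have hH : ∀ a ∈ D 0, ∀ b ∈ D 1, f a b = 0 → ∀ c, rtv f a b c ∈ M :=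
    fun a ha b hb hab c => hHM (hrtv a ha b hb hab c)
  have hH' : ∀ a ∈ D 1, ∀ b ∈ D 0, f a b = 0 → ∀ c, rtv f a b c ∈ M :=
    fun a ha b hb hab c => by
      rw [rtv_comm hf a b hab]; exact hH b hb a ha (by rw [hf.skew, hab, neg_zero]) c
  have hA5 : 5 ≤ Module.finrank F (D 0) := by rw [hD.finrank_eq]; exact hm
  have hB5 : 5 ≤ Module.finrank F (D 1) := by rw [hD.finrank_eq]; exact hm
  -- some centre
  have hcentre : (∃ a ∈ D 0, a ≠ 0 ∧ ∀ c, stv f a c ∈ M) ∨
      (∃ a ∈ D 1, a ≠ 0 ∧ ∀ c, stv f a c ∈ M) := by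
    by_contra hno
    have hu : ∀ i, ∀ u ∈ D i, (g : Matrix ι ι F) *ᵥ u ∈ D 0 ∨ (g : Matrix ι ι F) *ᵥ u ∈ D 1 := by
      intro i u hu
      by_contra hmix
      push Not at hmix
      fin_cases i
      · exact hno (tsMixed hf hP hH hMK h2 hA5 hB5 hg hu hmix.1 hmix.2)
      · exact hno (tsMixed hf hP.symm hH' hMK h2 hB5 hA5 hg hu hmix.2 hmix.1).symm
    have hcase : ∀ i, ∃ j, ∀ u ∈ D i, (g : Matrix ι ι F) *ᵥ u ∈ D j := by
      intro i
      rcases le_or_le_of_subset_union (W := (D i).map (Matrix.toLin' (g : Matrix ι ι F)))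
        (P := D 0) (Q := D 1) (by rintro _ ⟨x, hx, rfl⟩; rw [Matrix.toLin'_apply]; exact hu i x hx)
        with h | h
      · exact ⟨0, fun x hx => h ⟨x, hx, Matrix.toLin'_apply _ _⟩⟩
      · exact ⟨1, fun x hx => h ⟨x, hx, Matrix.toLin'_apply _ _⟩⟩
    choose τ hτ using hcase
    have hne : τ 0 ≠ τ 1 := by
      intro he
      have htop : (⊤ : Submodule F (ι → F)).map (Matrix.toLin' (g : Matrix ι ι F)) ≤ D (τ 0) := by
        rw [← hcompl.sup_eq_top, Submodule.map_sup, sup_le_iff]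
        refine ⟨?_, ?_⟩ <;> rintro _ ⟨x, hx, rfl⟩ <;> rw [Matrix.toLin'_apply]
        · exact hτ 0 x hx
        · rw [he]; exact hτ 1 x hx
      have h1 := Submodule.finrank_mono htop
      have hadd := Submodule.finrank_add_eq_of_isCompl hcompl
      rw [← (Submodule.equivMapOfInjective _ (fun x y hxy => mulVec_injective g
        (by simpa [Matrix.toLin'_apply] using hxy)) (⊤ : Submodule F (ι → F))).finrank_eq,
        finrank_top, hD.finrank_eq, ← hadd, hD.finrank_eq, hD.finrank_eq] at h1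
      omega
    refine hgH ⟨?_, hMK hg⟩
    have hinj : Function.Injective τ := by
      intro i j hij
      fin_cases i <;> fin_cases j <;> first | rfl | exact absurd hij hne | exact absurd hij.symm hne
    exact hstab (Equiv.ofBijective τ (Finite.injective_iff_bijective.mp hinj)) hτ
  have hmove : ∀ {a : ι → F}, (∀ c, stv f a c ∈ M) → ∀ c,
      stv f ((J : Matrix ι ι F) *ᵥ a) c ∈ M := fun {a} h c => by
    rw [← stv_conj hf hJI]
    exact M.mul_mem (M.mul_mem (hHM hJH) (h c)) (M.inv_mem (hHM hJH))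
  have hJ0 : ∀ {a : ι → F}, a ≠ 0 → (J : Matrix ι ι F) *ᵥ a ≠ 0 := fun {a} ha h =>
    ha (mulVec_injective J (by simpa using h))
  have hboth : (∃ a ∈ D 0, a ≠ 0 ∧ ∀ c, stv f a c ∈ M) ∧
      (∃ a ∈ D 1, a ≠ 0 ∧ ∀ c, stv f a c ∈ M) := by
    rcases hcentre with ⟨a, ha, ha0, haM⟩ | ⟨a, ha, ha0, haM⟩
    · exact ⟨⟨a, ha, ha0, haM⟩, ⟨_, hJA a ha, hJ0 ha0, hmove haM⟩⟩
    · exact ⟨⟨_, hJB a ha, hJ0 ha0, hmove haM⟩, ⟨a, ha, ha0, haM⟩⟩
  obtain ⟨⟨a, ha, ha0, haM⟩, ⟨b, hb, hb0, hbM⟩⟩ := hboth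
  exact isoGL_le_of_stv hf fun u _ c => stv_mem_all hf hP hMK (tsSpread hf hP hH hMK hA5 ha ha0 haM)
    (tsSpread hf hP.symm hH' hMK hB5 hb hb0 hbM) u c

end CfsgLib.Classical
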