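import Cfsg.Agent.Lib.ClassicalSymp

/-! Maximality of the stabiliser of an orthogonal decomposition in the symplectic group. -/

set_option autoImplicit false

namespace CfsgLib.Classical

open Matrix

variable {ι : Type} [Fintype ι] [DecidableEq ι] {F : Type*} [Field F]
  {f : (ι → F) → (ι → F) → F} {t k : ℕ} {D : Fin t → Submodule F (ι → F)}

variable (hf : Cfsg.Geo.IsSymplecticForm f) (hD : Cfsg.Geo.IsNondegenerateMDecomposition f k D)
include hf hD

lemma deco_nondeg (i : Fin t) : NondegOn (toBil hf.bilinear) (D i) := fun w hw hw0 =>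
  (hD.nondegenerate i w hw hw0).1

/-- component of `x` in `D i` -/
noncomputable def proj (i : Fin t) (x : ι → F) : ι → F :=
  (exists_decomp (deco_nondeg hf hD i) x).choose

lemma proj_mem (i : Fin t) (x : ι → F) : proj hf hD i x ∈ D i :=
  (exists_decomp (deco_nondeg hf hD i) x).choose_spec.1

lemma proj_spec (i : Fin t) (x : ι → F) {u : ι → F} (hu : u ∈ D i) :
    f u (proj hf hD i x) = f u x := by
  have := (exists_decomp (deco_nondeg hf hD i) x).choose_spec.2 u hu
  rw [toBil_apply, f_sub_right hf.bilinear, sub_eq_zero] at this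
  exact this.symm

lemma proj_unique {i : Fin t} {x w : ι → F} (hw : w ∈ D i) (h : ∀ u ∈ D i, f u w = f u x) :
    proj hf hD i x = w := by
  by_contra hne
  obtain ⟨y, hy, hyne⟩ := deco_nondeg hf hD i _ ((D i).sub_mem (proj_mem hf hD i x) hw)
    (sub_ne_zero.mpr hne)
  apply hyne
  rw [toBil_apply, f_sub_right hf.bilinear, proj_spec hf hD i x hy, h y hy, sub_self]

lemma orth_deco {i j : Fin t} (hij : i ≠ j) {u v : ι → F} (hu : u ∈ D i) (hv : v ∈ D j) :
    f u v = 0 := hD.orthogonal i j hij u hu v hv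

lemma eq_of_pairings {x y : ι → F} (h : ∀ i, ∀ u ∈ D i, f u x = f u y) : x = y := by
  by_contra hne
  obtain ⟨z, hz⟩ := (hf.nondegenerate (x - y) (sub_ne_zero.mpr hne)).1
  apply hz
  have hzm : z ∈ LinearMap.ker ((toBil hf.bilinear).flip (x - y)) := by
    refine (iSup_le ?_ : iSup D ≤ _) (hD.decomp.iSup_eq_top ▸ Submodule.mem_top)
    intro i u hu
    refine LinearMap.mem_ker.mpr (?_ : f u (x - y) = 0)
    rw [f_sub_right hf.bilinear, h i u hu, sub_self]
  exact hzm

lemma proj_self {i : Fin t} {x : ι → F} (hx : x ∈ D i) : proj hf hD i x = x :=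
  proj_unique hf hD hx fun _ _ => rfl

lemma proj_other {i j : Fin t} (hij : i ≠ j) {x : ι → F} (hx : x ∈ D j) : proj hf hD i x = 0 :=
  proj_unique hf hD (D i).zero_mem fun u hu => by
    rw [f_zero_right hf.bilinear, orth_deco hf hD hij hu hx]

lemma proj_add (i : Fin t) (x y : ι → F) :
    proj hf hD i (x + y) = proj hf hD i x + proj hf hD i y :=
  proj_unique hf hD ((D i).add_mem (proj_mem hf hD i x) (proj_mem hf hD i y)) fun u hu => by
    rw [hf.bilinear.add_right, hf.bilinear.add_right, proj_spec hf hD i x hu, proj_spec hf hD i y hu]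

lemma proj_smul (i : Fin t) (c : F) (x : ι → F) :
    proj hf hD i (c • x) = c • proj hf hD i x :=
  proj_unique hf hD ((D i).smul_mem c (proj_mem hf hD i x)) fun u hu => by
    rw [hf.bilinear.smul_right, hf.bilinear.smul_right, proj_spec hf hD i x hu]

lemma proj_sub (i : Fin t) (x y : ι → F) :
    proj hf hD i (x - y) = proj hf hD i x - proj hf hD i y := by
  rw [sub_eq_add_neg, ← neg_one_smul F y, proj_add, proj_smul, neg_one_smul, sub_eq_add_neg]

/-- the support of a vector -/
noncomputable def supp (x : ι → F) : Finset (Fin t) :=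
  @Finset.filter _ (fun i => proj hf hD i x ≠ 0) (fun _ => _root_.Classical.propDecidable _) Finset.univ

lemma mem_supp {x : ι → F} {i : Fin t} : i ∈ supp hf hD x ↔ proj hf hD i x ≠ 0 := by
  simp [supp]

lemma eq_proj_of_supp_subset {x : ι → F} {i : Fin t}
    (h : ∀ j, j ≠ i → proj hf hD j x = 0) : x = proj hf hD i x := by
  refine eq_of_pairings hf hD fun j u hu => ?_
  by_cases hji : j = i
  · subst hji; rw [proj_spec hf hD j x hu]
  · rw [← proj_spec hf hD j x hu, h j hji, f_zero_right hf.bilinear,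
      orth_deco hf hD hji hu (proj_mem hf hD i x)]

lemma eq_zero_of_supp {x : ι → F} (h : ∀ j, proj hf hD j x = 0) : x = 0 :=
  eq_of_pairings hf hD fun j u hu => by
    rw [← proj_spec hf hD j x hu, h, f_zero_right hf.bilinear]

lemma two_le_finrank (i : Fin t) : 2 ≤ k := by
  obtain ⟨m, b, -, hm⟩ := exists_hypBasis (toBil_isAlt hf) (D i) (deco_nondeg hf hD i)
  rw [hD.decomp.finrank_eq] at hm
  have := hD.decomp.pos
  omega

lemma exists_ne_zero (i : Fin t) : ∃ u ∈ D i, u ≠ 0 := by
  refine Submodule.exists_mem_ne_zero_of_ne_bot fun h => ?_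
  have := hD.decomp.finrank_eq i
  rw [h, finrank_bot] at this
  exact (Nat.lt_irrefl _) (this ▸ hD.decomp.pos)

/-- an element of the stabiliser exchanging two blocks -/
lemma exists_swap {p q : Fin t} (hpq : p ≠ q) :
    ∃ g ∈ Cfsg.Geo.decompositionStabilizer D ⊓ isoGL f,
      (∀ x ∈ D p, (g : Matrix ι ι F) *ᵥ x ∈ D q) ∧
      ∀ r, r ≠ p → r ≠ q → ∀ x ∈ D r, (g : Matrix ι ι F) *ᵥ x = x := by
  classical
  obtain ⟨e, he⟩ := exists_isometry (toBil_isAlt hf) (deco_nondeg hf hD p) (deco_nondeg hf hD q)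
    (by rw [hD.decomp.finrank_eq, hD.decomp.finrank_eq])
  simp only [toBil_apply] at he
  have he' : ∀ x y : D q, f (e.symm x : ι → F) (e.symm y : ι → F) = f (x : ι → F) (y : ι → F) :=
    fun x y => by
      conv_rhs => rw [← e.apply_symm_apply x, ← e.apply_symm_apply y]
      exact (he _ _).symm
  let P : Fin t → ((ι → F) →ₗ[F] (ι → F)) := fun i =>
    { toFun := proj hf hD i, map_add' := proj_add hf hD i, map_smul' := proj_smul hf hD i }
  let A : (ι → F) →ₗ[F] D q := e.toLinearMap ∘ₗ (P p).codRestrict (D p) (proj_mem hf hD p)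
  let B : (ι → F) →ₗ[F] D p := e.symm.toLinearMap ∘ₗ (P q).codRestrict (D q) (proj_mem hf hD q)
  let T : (ι → F) →ₗ[F] (ι → F) :=
    LinearMap.id - P p - P q + (D q).subtype ∘ₗ A + (D p).subtype ∘ₗ B
  have hT : ∀ x, T x = x - proj hf hD p x - proj hf hD q x + (A x : ι → F) + (B x : ι → F) :=
    fun x => rfl
  have hrest : ∀ x, ∀ i, proj hf hD i (x - proj hf hD p x - proj hf hD q x) =
      if i = p ∨ i = q then 0 else proj hf hD i x := by
    intro x i
    rw [proj_sub, proj_sub]
    by_cases hip : i = p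
    · subst hip; simp [proj_self hf hD (proj_mem hf hD i x), proj_other hf hD hpq (proj_mem hf hD q x)]
    by_cases hiq : i = q
    · subst hiq; simp [proj_self hf hD (proj_mem hf hD i x), proj_other hf hD hip (proj_mem hf hD p x)]
    simp [hip, hiq, proj_other hf hD hip (proj_mem hf hD p x),
      proj_other hf hD hiq (proj_mem hf hD q x)]
  have hperp : ∀ x, ∀ w, (w ∈ D p ∨ w ∈ D q) → f w (x - proj hf hD p x - proj hf hD q x) = 0 := by
    rintro x w (hw | hw)
    · rw [← proj_spec hf hD p _ hw, hrest, if_pos (Or.inl rfl), f_zero_right hf.bilinear]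
    · rw [← proj_spec hf hD q _ hw, hrest, if_pos (Or.inr rfl), f_zero_right hf.bilinear]
  have hTiso : ∀ x y, f (T x) (T y) = f x y := by
    intro x y
    set x₀ := x - proj hf hD p x - proj hf hD q x with hx₀
    set y₀ := y - proj hf hD p y - proj hf hD q y with hy₀
    have e1 : ∀ x, ∀ w, (w ∈ D p ∨ w ∈ D q) → f (x - proj hf hD p x - proj hf hD q x) w = 0 :=
      fun x w hw => by rw [hf.skew, hperp x w hw, neg_zero]
    have hx : x = x₀ + proj hf hD p x + proj hf hD q x := by rw [hx₀]; abel
    have hy : y = y₀ + proj hf hD p y + proj hf hD q y := by rw [hy₀]; abel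
    have hAB : f (A x : ι → F) (A y : ι → F) = f (proj hf hD p x) (proj hf hD p y) ∧
        f (B x : ι → F) (B y : ι → F) = f (proj hf hD q x) (proj hf hD q y) :=
      ⟨he _ _, he' _ _⟩
    conv_rhs => rw [hx, hy]
    rw [hT, hT, ← hx₀, ← hy₀]
    simp only [hf.bilinear.add_left, hf.bilinear.add_right, hAB.1, hAB.2]
    simp only [hx₀, hy₀, hperp _ _ (Or.inl (proj_mem hf hD p _)),
      hperp _ _ (Or.inr (proj_mem hf hD q _)), hperp _ _ (Or.inl (B _).2), hperp _ _ (Or.inr (A _).2),
      e1 _ _ (Or.inl (proj_mem hf hD p _)), e1 _ _ (Or.inr (proj_mem hf hD q _)),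
      e1 _ _ (Or.inl (B _).2), e1 _ _ (Or.inr (A _).2),
      orth_deco hf hD hpq (proj_mem hf hD p _) (proj_mem hf hD q _),
      orth_deco hf hD hpq.symm (proj_mem hf hD q _) (proj_mem hf hD p _),
      orth_deco hf hD hpq (B _).2 (A _).2, orth_deco hf hD hpq.symm (A _).2 (B _).2]
  have hinj : Function.Injective T := by
    rw [injective_iff_map_eq_zero]
    intro x hx
    by_contra hx0
    obtain ⟨z, hz⟩ := (hf.nondegenerate x hx0).1
    exact hz (by rw [← hTiso, hx, f_zero_right hf.bilinear])
  set M : Matrix ι ι F := LinearMap.toMatrix' T with hM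
  have hMinj : IsUnit M := by
    rw [← Matrix.mulVec_injective_iff_isUnit]
    intro a b hab
    simp only [hM, LinearMap.toMatrix'_mulVec] at hab
    exact hinj hab
  have hMv : ∀ x, ((hMinj.unit : GL ι F) : Matrix ι ι F) *ᵥ x = T x := fun x => by
    rw [IsUnit.unit_spec, hM, LinearMap.toMatrix'_mulVec]
  have hp' : ∀ x ∈ D p, T x = (A x : ι → F) := fun x hx => by
    have hB : B x = 0 := by
      simp only [B, LinearMap.comp_apply]
      rw [show (P q).codRestrict (D q) (proj_mem hf hD q) x = 0 from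
        Subtype.ext (proj_other hf hD hpq.symm hx), map_zero]
    simp [hT, proj_self hf hD hx, proj_other hf hD hpq.symm hx, hB]
  have hq' : ∀ x ∈ D q, T x = (B x : ι → F) := fun x hx => by
    have hA : A x = 0 := by
      simp only [A, LinearMap.comp_apply]
      rw [show (P p).codRestrict (D p) (proj_mem hf hD p) x = 0 from
        Subtype.ext (proj_other hf hD hpq hx), map_zero]
    simp [hT, proj_self hf hD hx, proj_other hf hD hpq hx, hA]
  have hr' : ∀ r, r ≠ p → r ≠ q → ∀ x ∈ D r, T x = x := fun r hrp hrq x hx => by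
    have hA : A x = 0 := by
      simp only [A, LinearMap.comp_apply]
      rw [show (P p).codRestrict (D p) (proj_mem hf hD p) x = 0 from
        Subtype.ext (proj_other hf hD hrp.symm hx), map_zero]
    have hB : B x = 0 := by
      simp only [B, LinearMap.comp_apply]
      rw [show (P q).codRestrict (D q) (proj_mem hf hD q) x = 0 from
        Subtype.ext (proj_other hf hD hrq.symm hx), map_zero]
    simp [hT, proj_other hf hD hrp.symm hx, proj_other hf hD hrq.symm hx, hA, hB]
  have hiso : hMinj.unit ∈ isoGL f := fun x y => by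
    change f (((hMinj.unit : GL ι F) : Matrix ι ι F) *ᵥ x) (((hMinj.unit : GL ι F) : Matrix ι ι F) *ᵥ y) = _
    rw [hMv, hMv, hTiso]
  refine ⟨hMinj.unit, ⟨⟨Equiv.swap p q, fun i => ?_⟩, hiso⟩,
    fun x hx => by rw [hMv, hp' x hx]; exact (A x).2,
    fun r h1 h2 x hx => by rw [hMv, hr' r h1 h2 x hx]⟩
  refine Submodule.eq_of_le_of_finrank_eq ?_ ?_
  · rintro _ ⟨x, hx, rfl⟩
    rw [Matrix.toLin'_apply, hMv]
    by_cases hip : i = p
    · subst hip; rw [Equiv.swap_apply_left, hp' x hx]; exact (A x).2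
    by_cases hiq : i = q
    · subst hiq; rw [Equiv.swap_apply_right, hq' x hx]; exact (B x).2
    rw [Equiv.swap_apply_of_ne_of_ne hip hiq, hr' i hip hiq x hx]; exact hx
  · rw [hD.decomp.finrank_eq]
    refine (Submodule.equivMapOfInjective _ ?_ (D i)).finrank_eq.symm.trans (hD.decomp.finrank_eq i)
    intro a b hab
    simp only [Matrix.toLin'_apply] at hab
    exact mulVec_injective _ hab

omit hf hD in
lemma add_mem_span_or {V : Type*} [AddCommGroup V] [Module F V] (a : V) (U : Submodule F V)
    (h : 2 ≤ Module.finrank F U) (hq : k ≠ 2 ∨ ∃ c : F, c ≠ 0 ∧ c ≠ 1) (ha : a ∈ U) (ha0 : a ≠ 0)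
    (φ : V →ₗ[F] F) (hφ : φ a = 0) (hk : Module.finrank F U = k) :
    ∃ y ∈ U, y ≠ 0 ∧ y ≠ a ∧ φ y = 0 := by
  rcases hq with hq | ⟨c, hc0, hc1⟩
  · have h3 : 3 ≤ Module.finrank F U := by omega
    haveI : FiniteDimensional F U := FiniteDimensional.of_finrank_pos (by omega)
    by_contra! hno
    have hle : LinearMap.ker (φ ∘ₗ U.subtype) ≤ Submodule.span F {(⟨a, ha⟩ : U)} := by
      intro y hy
      by_cases hy0 : (y : V) = 0
      · rw [show y = 0 from Subtype.ext hy0]; exact Submodule.zero_mem _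
      by_cases hya : (y : V) = a
      · rw [show y = ⟨a, ha⟩ from Subtype.ext hya]; exact Submodule.mem_span_singleton_self _
      · exact absurd hy (hno y y.2 hy0 hya)
    have h1 := Submodule.finrank_mono hle
    rw [finrank_span_singleton (fun h => ha0 (congrArg Subtype.val h))] at h1
    have h2 := LinearMap.finrank_range_add_finrank_ker (φ ∘ₗ U.subtype)
    have h4 : Module.finrank F (LinearMap.range (φ ∘ₗ U.subtype)) ≤ 1 := by
      simpa using Submodule.finrank_le (LinearMap.range (φ ∘ₗ U.subtype))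
    omega
  · exact ⟨c • a, U.smul_mem c ha, smul_ne_zero hc0 ha0, fun h => hc1 (by
      have : (c - 1) • a = 0 := by rw [sub_smul, h, one_smul, sub_self]
      exact sub_eq_zero.mp ((smul_eq_zero.mp this).resolve_right ha0)), by rw [map_smul, hφ, smul_zero]⟩

theorem isMaximalIn_decomposition (hq : k ≠ 2 ∨ ∃ c : F, c ≠ 0 ∧ c ≠ 1) :
    Cfsg.Geo.IsMaximalIn (isoGL f) (Cfsg.Geo.decompositionStabilizer D ⊓ isoGL f) := by
  classical
  obtain ⟨i₀, j₀, hij₀⟩ : ∃ i j : Fin t, i ≠ j :=
    ⟨⟨0, by have := hD.decomp.two_le; omega⟩, ⟨1, by have := hD.decomp.two_le; omega⟩,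
      fun h => by simp at h⟩
  refine isMaximalIn_of inf_le_right ?_ ?_
  · intro hle
    obtain ⟨u, hu, hu0⟩ := exists_ne_zero hf hD i₀
    obtain ⟨u', hu', hu'0⟩ := exists_ne_zero hf hD j₀
    obtain ⟨x, hx, hux⟩ := exists_pair (toBil_isAlt hf) (deco_nondeg hf hD i₀) hu hu0
    rw [toBil_apply] at hux
    obtain ⟨⟨σ, hσ⟩, -⟩ := hle (stv_mem_isoGL hf (u + u') 1)
    have hmem : (stv f (u + u') 1 : Matrix ι ι F) *ᵥ x ∈ D (σ i₀) := by
      rw [← hσ i₀]; exact ⟨x, hx, Matrix.toLin'_apply _ _⟩
    rw [stv_mulVec hf, hf.bilinear.add_right, orth_deco hf hD hij₀ hx hu', add_zero, one_mul] at hmem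
    by_cases hj : σ i₀ = j₀
    · have := proj_other hf hD (i := i₀) (by rw [hj]; exact hij₀) hmem
      rw [proj_add, proj_smul, proj_add, proj_self hf hD hx, proj_self hf hD hu,
        proj_other hf hD hij₀ hu', add_zero, hf.skew x u, hux, neg_one_smul, ← sub_eq_add_neg,
        sub_eq_zero] at this
      rw [this, hf.alternating] at hux
      exact one_ne_zero hux.symm
    · have := proj_other hf hD (i := j₀) (Ne.symm hj) hmem
      rw [proj_add, proj_smul, proj_add, proj_other hf hD hij₀.symm hx,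
        proj_other hf hD hij₀.symm hu, proj_self hf hD hu', zero_add, zero_add, hf.skew x u, hux,
        neg_one_smul, neg_eq_zero] at this
      exact hu'0 this
  intro M hHM hMK g hgM hgH
  have hgiso := hMK hgM
  set S : Set (ι → F) := {a | ∀ c, stv f a c ∈ M} with hSdef
  have hblockH : ∀ i, ∀ u ∈ D i, ∀ c, stv f u c ∈
      Cfsg.Geo.decompositionStabilizer D ⊓ isoGL f := by
    intro i u hu c
    refine ⟨⟨1, fun j => ?_⟩, stv_mem_isoGL hf u c⟩
    refine Submodule.eq_of_le_of_finrank_eq ?_ ?_
    · rintro _ ⟨x, hx, rfl⟩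
      rw [Matrix.toLin'_apply, stv_mulVec hf, Equiv.Perm.one_apply]
      by_cases hji : j = i
      · subst hji; exact (D j).add_mem hx ((D j).smul_mem _ hu)
      · rw [orth_deco hf hD hji hx hu, mul_zero, zero_smul, add_zero]; exact hx
    · rw [hD.decomp.finrank_eq]
      refine (Submodule.equivMapOfInjective _ ?_ (D j)).finrank_eq.symm.trans (hD.decomp.finrank_eq j)
      intro a b hab
      simp only [Matrix.toLin'_apply] at hab
      exact mulVec_injective _ hab
  have hblock : ∀ i, ∀ u ∈ D i, u ∈ S := fun i u hu c => hHM (hblockH i u hu c)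
  have hconjS : ∀ h ∈ M, ∀ a ∈ S, (h : Matrix ι ι F) *ᵥ a ∈ S := by
    intro h hh a ha c
    rw [← stv_conj hf (hMK hh) a c]
    exact M.mul_mem (M.mul_mem hh (ha c)) (M.inv_mem hh)
  have hclos : ∀ a b, a ∈ S → b ∈ S → ∀ c, b + (c * f b a) • a ∈ S := fun a b ha hb c => by
    rw [← stv_mulVec hf a c b]; exact hconjS _ (ha c) b hb
  -- replace one component
  have hrepl : ∀ a ∈ S, ∀ i, proj hf hD i a ≠ 0 → ∀ x ∈ D i, x ≠ 0 →
      a - proj hf hD i a + x ∈ S := by
    intro a ha i hi x hx hx0
    obtain ⟨h, hh, hhx⟩ := exists_sympGen_map hf (deco_nondeg hf hD i) (proj_mem hf hD i a) hi hx hx0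
    have hfix : (h : Matrix ι ι F) *ᵥ (a - proj hf hD i a) = a - proj hf hD i a := by
      refine sympGen_fix hf (fun u hu => ?_) hh
      rw [hf.skew, f_sub_right hf.bilinear, proj_spec hf hD i a hu, sub_self, neg_zero]
    have hhM : h ∈ M := sympGen_le hf (fun u hu c => hblock i u hu c) hh
    have := hconjS h hhM a ha
    have e : (h : Matrix ι ι F) *ᵥ a = a - proj hf hD i a + x := by
      conv_lhs => rw [← sub_add_cancel a (proj hf hD i a)]
      rw [mulVec_add, hfix, hhx]
    rwa [e] at this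
  obtain ⟨i, u, hu, a, ha, p, q, hpq, hap, haq⟩ : ∃ i, ∃ u ∈ D i, ∃ a ∈ S, ∃ p q, p ≠ q ∧
      proj hf hD p a ≠ 0 ∧ proj hf hD q a ≠ 0 := by
    by_contra! hno
    apply hgH
    refine ⟨?_, hgiso⟩
    have hsingle : ∀ i, ∀ u ∈ D i, u ≠ 0 → ∃ j, (g : Matrix ι ι F) *ᵥ u ∈ D j ∧
        proj hf hD j ((g : Matrix ι ι F) *ᵥ u) ≠ 0 := by
      intro i u hu hu0
      have hgu : (g : Matrix ι ι F) *ᵥ u ≠ 0 := fun h => hu0 (mulVec_injective g (by simpa using h))
      obtain ⟨j, hj⟩ : ∃ j, proj hf hD j ((g : Matrix ι ι F) *ᵥ u) ≠ 0 := by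
        by_contra! h; exact hgu (eq_zero_of_supp hf hD h)
      refine ⟨j, ?_, hj⟩
      rw [eq_proj_of_supp_subset hf hD (x := (g : Matrix ι ι F) *ᵥ u) (i := j) fun l hl =>
        hno i u hu _ (hconjS g hgM u (hblock i u hu)) j l hl.symm hj]
      exact proj_mem hf hD j _
    have hblk : ∀ i, ∃ j, ∀ u ∈ D i, (g : Matrix ι ι F) *ᵥ u ∈ D j := by
      intro i
      obtain ⟨u₀, hu₀, hu₀0⟩ := exists_ne_zero hf hD i
      obtain ⟨j, hj, hjne⟩ := hsingle i u₀ hu₀ hu₀0
      refine ⟨j, fun u hu => ?_⟩
      by_cases hu0 : u = 0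
      · subst hu0; simp
      obtain ⟨l, hl, hlne⟩ := hsingle i u hu hu0
      by_cases hlj : l = j
      · exact hlj ▸ hl
      exfalso
      have hsum : u₀ + u ∈ D i := (D i).add_mem hu₀ hu
      have h1 : proj hf hD j ((g : Matrix ι ι F) *ᵥ (u₀ + u)) ≠ 0 := by
        rw [mulVec_add, proj_add, proj_other hf hD (Ne.symm hlj) hl, add_zero]; exact hjne
      have h2 : proj hf hD l ((g : Matrix ι ι F) *ᵥ (u₀ + u)) ≠ 0 := by
        rw [mulVec_add, proj_add, proj_other hf hD hlj hj, zero_add]; exact hlne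
      exact h2 (hno i (u₀ + u) hsum _ (hconjS g hgM _ (hblock i _ hsum)) j l (Ne.symm hlj) h1)
    choose σ hσ using hblk
    have hmap : ∀ i, (D i).map (Matrix.toLin' (g : Matrix ι ι F)) = D (σ i) := by
      intro i
      refine Submodule.eq_of_le_of_finrank_eq ?_ ?_
      · rintro _ ⟨x, hx, rfl⟩; rw [Matrix.toLin'_apply]; exact hσ i x hx
      · rw [hD.decomp.finrank_eq]
        refine (Submodule.equivMapOfInjective _ ?_ (D i)).finrank_eq.symm.trans (hD.decomp.finrank_eq i)
        intro a b hab
        simp only [Matrix.toLin'_apply] at hab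
        exact mulVec_injective _ hab
    have hσinj : Function.Injective σ := by
      intro i j hij
      by_contra hne
      have h1 := hmap i
      rw [hij, ← hmap j] at h1
      have h2 := Submodule.map_injective_of_injective (f := Matrix.toLin' (g : Matrix ι ι F))
        (fun a b hab => mulVec_injective g (by simpa [Matrix.toLin'_apply] using hab)) h1
      obtain ⟨u, hu, hu0⟩ := exists_ne_zero hf hD i
      have := proj_other hf hD hne (h2 ▸ hu)
      rw [proj_self hf hD hu] at this
      exact hu0 this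
    exact ⟨Equiv.ofBijective σ (Finite.injective_iff_bijective.mp hσinj), fun i => hmap i⟩
  -- all vectors supported on two chosen blocks
  have hpair : ∀ z, (∀ l, l ≠ p → l ≠ q → proj hf hD l z = 0) → z ∈ S := by
    have hne : ∃ w ∈ S, proj hf hD p w ≠ 0 ∧ proj hf hD q w ≠ 0 ∧
        ∀ l, l ≠ p → l ≠ q → proj hf hD l w = 0 := by
      set ap := proj hf hD p a
      set aq := proj hf hD q a
      obtain ⟨y, hy, hy0, hyne, hyperp⟩ := add_mem_span_or (k := k) aq (D q)
        (by rw [hD.decomp.finrank_eq]; exact two_le_finrank hf hD q) hq (proj_mem hf hD q a) haq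
        (toBil hf.bilinear aq) (hf.alternating aq) (hD.decomp.finrank_eq q)
      rw [toBil_apply] at hyperp
      obtain ⟨x, hx, hxp⟩ := exists_pair (toBil_isAlt hf) (deco_nondeg hf hD p) (proj_mem hf hD p a) hap
      rw [toBil_apply] at hxp
      have hx0 : x ≠ 0 := fun h => by rw [h, f_zero_right hf.bilinear] at hxp; exact zero_ne_one hxp
      have h1 := hrepl a ha p hap x hx hx0
      have hq1 : proj hf hD q (a - ap + x) = aq := by
        rw [proj_add, proj_sub, proj_other hf hD hpq.symm (proj_mem hf hD p a),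
          proj_other hf hD hpq.symm hx, sub_zero, add_zero]
      have h2 := hrepl _ h1 q (by rw [hq1]; exact haq) y hy hy0
      rw [hq1] at h2
      set a' := a - ap + x - aq + y with ha'
      have hs : f a a' = 1 := by
        have e1 : f a a = 0 := hf.alternating a
        have e2 : f a ap = 0 := by
          rw [hf.skew, ← proj_spec hf hD p a (proj_mem hf hD p a), hf.alternating, neg_zero]
        have e3 : f a x = 1 := by
          rw [hf.skew, ← proj_spec hf hD p a hx, ← hf.skew]; exact hxp
        have e4 : f a aq = 0 := by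
          rw [hf.skew, ← proj_spec hf hD q a (proj_mem hf hD q a), hf.alternating, neg_zero]
        have e5 : f a y = 0 := by
          rw [hf.skew, ← proj_spec hf hD q a hy, ← hf.skew]; exact hyperp
        rw [ha', hf.bilinear.add_right, f_sub_right hf.bilinear, hf.bilinear.add_right,
          f_sub_right hf.bilinear, e1, e2, e3, e4, e5]
        ring
      have h3 := hclos a' a h2 ha (-1)
      rw [hs, mul_one, neg_one_smul, ← sub_eq_add_neg] at h3
      have heq : a - a' = (ap - x) + (aq - y) := by rw [ha']; abel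
      rw [heq] at h3
      have m1 : ap - x ∈ D p := (D p).sub_mem (proj_mem hf hD p a) hx
      have m2 : aq - y ∈ D q := (D q).sub_mem (proj_mem hf hD q a) hy
      refine ⟨_, h3, ?_, ?_, fun l hlp hlq => ?_⟩
      · rw [proj_add, proj_self hf hD m1, proj_other hf hD hpq m2, add_zero, sub_ne_zero]
        intro h; rw [← h, hf.alternating] at hxp; exact zero_ne_one hxp
      · rw [proj_add, proj_other hf hD hpq.symm m1, proj_self hf hD m2, zero_add, sub_ne_zero]
        exact hyne.symm
      · rw [proj_add, proj_other hf hD hlp m1, proj_other hf hD hlq m2, add_zero]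
    obtain ⟨w, hw, hwp, hwq, hwl⟩ := hne
    intro z hz
    by_cases hzp : proj hf hD p z = 0
    · rw [eq_proj_of_supp_subset hf hD (x := z) (i := q) fun l hl => by
        by_cases hlp : l = p
        · exact hlp ▸ hzp
        · exact hz l hlp hl]
      exact hblock q _ (proj_mem hf hD q z)
    by_cases hzq : proj hf hD q z = 0
    · rw [eq_proj_of_supp_subset hf hD (x := z) (i := p) fun l hl => by
        by_cases hlq : l = q
        · exact hlq ▸ hzq
        · exact hz l hl hlq]
      exact hblock p _ (proj_mem hf hD p z)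
    have h1 := hrepl w hw p hwp _ (proj_mem hf hD p z) hzp
    have hq1 : proj hf hD q (w - proj hf hD p w + proj hf hD p z) = proj hf hD q w := by
      rw [proj_add, proj_sub, proj_other hf hD hpq.symm (proj_mem hf hD p w),
        proj_other hf hD hpq.symm (proj_mem hf hD p z), sub_zero, add_zero]
    have h2 := hrepl _ h1 q (by rw [hq1]; exact hwq) _ (proj_mem hf hD q z) hzq
    rw [hq1] at h2
    convert h2
    refine eq_of_pairings hf hD fun l v hv => ?_
    rw [← proj_spec hf hD l z hv, ← proj_spec hf hD l (_ + proj hf hD q z) hv]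
    congr 1
    by_cases hlp : l = p
    · subst hlp
      simp [proj_add, proj_sub, proj_self hf hD (proj_mem hf hD l _),
        proj_other hf hD hpq (proj_mem hf hD q _)]
    by_cases hlq : l = q
    · subst hlq
      simp [proj_add, proj_sub, proj_self hf hD (proj_mem hf hD l _),
        proj_other hf hD hlp (proj_mem hf hD p _)]
    simp [proj_add, proj_sub, hz l hlp hlq, hwl l hlp hlq,
      proj_other hf hD hlp (proj_mem hf hD p _), proj_other hf hD hlq (proj_mem hf hD q _)]
  -- all pairs of blocks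
  have hpairs : ∀ r s, r ≠ s → ∀ x ∈ D r, ∀ y ∈ D s, x + y ∈ S := by
    have htrans : ∀ r s r', r ≠ s → r' ≠ s → (∀ x ∈ D r, ∀ y ∈ D s, x + y ∈ S) →
        ∀ x ∈ D r', ∀ y ∈ D s, x + y ∈ S := by
      intro r s r' hrs hr's hS x hx y hy
      by_cases hrr : r = r'
      · exact hS x (hrr ▸ hx) y hy
      obtain ⟨τ, hτ, hτr, hτfix⟩ := exists_swap hf hD (Ne.symm hrr)
      have h1 := hS _ (hτr x hx) y hy
      have h2 := hconjS τ⁻¹ (M.inv_mem (hHM hτ)) _ h1
      rwa [mulVec_add, inv_mulVec_mulVec, show ((τ⁻¹ : GL ι F) : Matrix ι ι F) *ᵥ y = y by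
        conv_lhs => rw [← hτfix s hr's.symm hrs.symm y hy]
        exact inv_mulVec_mulVec τ y] at h2
    have hsym : ∀ r s, (∀ x ∈ D r, ∀ y ∈ D s, x + y ∈ S) → ∀ x ∈ D s, ∀ y ∈ D r, x + y ∈ S :=
      fun r s h x hx y hy => by rw [add_comm]; exact h y hy x hx
    have h0 : ∀ x ∈ D p, ∀ y ∈ D q, x + y ∈ S := fun x hx y hy => hpair _ fun l hlp hlq => by
      rw [proj_add, proj_other hf hD hlp hx, proj_other hf hD hlq hy, add_zero]
    intro r s hrs
    by_cases hr : r = q
    · subst hr
      by_cases hs : s = p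
      · subst hs; exact hsym _ _ h0
      · exact hsym _ _ (htrans p r s hpq hrs.symm h0)
    · have h1 := hsym _ _ (htrans p q r hpq hr h0)
      exact hsym _ _ (htrans q r s (Ne.symm hr) hrs.symm h1)
  have hall : ∀ z, z ∈ S := by
    intro z
    induction hn : (supp hf hD z).card using Nat.strong_induction_on generalizing z with
    | _ n ih =>
    subst hn
    by_cases h1 : (supp hf hD z).card ≤ 1
    · rcases Finset.eq_empty_or_nonempty (supp hf hD z) with he | ⟨j, hj⟩
      · have : z = 0 := eq_zero_of_supp hf hD fun j => by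
          by_contra h
          have := (mem_supp hf hD).mpr h
          simp [he] at this
        exact this ▸ hblock i₀ 0 (D i₀).zero_mem
      · rw [eq_proj_of_supp_subset hf hD (x := z) (i := j) fun l hl => by
          by_contra h
          exact hl (Finset.card_le_one.mp h1 l ((mem_supp hf hD).mpr h) j hj)]
        exact hblock j _ (proj_mem hf hD j z)
    obtain ⟨r, hr, s, hs, hrs⟩ := Finset.one_lt_card.mp (Nat.lt_of_not_le h1)
    rw [mem_supp] at hr hs
    obtain ⟨y, hy, hys⟩ := exists_pair (toBil_isAlt hf) (deco_nondeg hf hD s) (proj_mem hf hD s z) hs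
    rw [toBil_apply] at hys
    set b := proj hf hD r z + y
    have hb : b ∈ S := hpairs r s hrs _ (proj_mem hf hD r z) y hy
    have hsub : supp hf hD (z - b) ⊆ (supp hf hD z).erase r := by
      intro l hl
      rw [mem_supp, proj_sub, proj_add] at hl
      rw [Finset.mem_erase, mem_supp]
      refine ⟨fun h => hl ?_, fun h => hl ?_⟩
      · subst h; rw [proj_self hf hD (proj_mem hf hD l z), proj_other hf hD hrs hy]; simp
      · have hlr : l ≠ r := fun e => hr (e ▸ h)
        have hls : l ≠ s := fun e => hs (e ▸ h)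
        rw [h, proj_other hf hD hlr (proj_mem hf hD r z), proj_other hf hD hls hy]; simp
    have hlt : (supp hf hD (z - b)).card < (supp hf hD z).card :=
      lt_of_le_of_lt (Finset.card_le_card hsub)
        (Finset.card_erase_lt_of_mem ((mem_supp hf hD).mpr hr))
    have hfab : f (z - b) b = 1 := by
      rw [f_sub_left hf.bilinear, hf.alternating, sub_zero, hf.bilinear.add_right,
        hf.skew z (proj hf hD r z), ← proj_spec hf hD r z (proj_mem hf hD r z), hf.alternating,
        neg_zero, zero_add, hf.skew, ← proj_spec hf hD s z hy, ← hf.skew]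
      exact hys
    have := hclos b (z - b) hb (ih _ hlt (z - b) rfl) 1
    rwa [hfab, mul_one, one_smul, sub_add_cancel] at this
  exact isoGL_le_of_stv hf fun u _ c => hall u c

end CfsgLib.Classical
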