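import Cfsg.Agent.Lib.ClassicalSymp

/-! Maximality of the symplectic similarity group in SL. -/

set_option autoImplicit false

namespace CfsgLib.Classical

open Matrix

variable {ι : Type} [Fintype ι] [DecidableEq ι] {F : Type*} [Field F]
  {f : (ι → F) → (ι → F) → F} (hf : Cfsg.Geo.IsSymplecticForm f)
include hf

lemma fun₂_injective : Function.Injective (fun₂ f) := by
  intro u v h
  by_contra hne
  obtain ⟨x, hx⟩ := (hf.nondegenerate (u - v) (sub_ne_zero.mpr hne)).1
  apply hx
  rw [f_sub_right hf.bilinear, ← fun₂_dotProduct hf.bilinear, ← fun₂_dotProduct hf.bilinear, h,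
    sub_self]

/-- `u ↦ f(·, u)` as a linear equivalence -/
noncomputable def fun₂Equiv : (ι → F) ≃ₗ[F] (ι → F) :=
  LinearEquiv.ofInjectiveEndo
    { toFun := fun₂ f
      map_add' := fun u v => funext fun j => hf.bilinear.add_right _ _ _
      map_smul' := fun c u => funext fun j => hf.bilinear.smul_right c _ _ }
    (fun₂_injective hf)

lemma fun₂Equiv_apply (u : ι → F) : fun₂Equiv hf u = fun₂ f u := rfl

lemma exists_pair_values {a b : ι → F} (ha : a ≠ 0) (hab : ∀ c : F, b ≠ c • a) (s t : F) :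
    ∃ x, f x a = s ∧ f x b = t := by
  have hb : NondegOn (toBil hf.bilinear) ⊤ := nondegOn_top hf
  obtain ⟨y, -, hy⟩ := hb a trivial ha
  set y₁ := (f y a)⁻¹ • y
  have hy1 : f y₁ a = 1 := by
    simp only [y₁, hf.bilinear.smul_left]; exact inv_mul_cancel₀ hy
  obtain ⟨z, -, hz⟩ := hb (b - f y₁ b • a) trivial (sub_ne_zero.mpr (hab _))
  set z₁ := z - f z a • y₁
  have hza : f z₁ a = 0 := by simp [z₁, f_sub_left hf.bilinear, hf.bilinear.smul_left, hy1]
  have hzb : f z₁ b ≠ 0 := by
    intro h; apply hz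
    simp only [z₁, f_sub_left hf.bilinear, hf.bilinear.smul_left] at h
    simp only [toBil_apply, f_sub_right hf.bilinear, hf.bilinear.smul_right]
    linear_combination h
  refine ⟨s • y₁ + ((t - s * f y₁ b) / f z₁ b) • z₁, ?_, ?_⟩
  · simp [hf.bilinear.add_left, hf.bilinear.smul_left, hy1, hza]
  · simp only [hf.bilinear.add_left, hf.bilinear.smul_left]
    field_simp
    ring

theorem isMaximalIn_similarity (h3 : 3 ≤ Fintype.card ι) :
    Cfsg.Geo.IsMaximalIn (Cfsg.Geo.specialLinear ι F)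
      (Cfsg.Geo.similarityGroup f ⊓ Cfsg.Geo.specialLinear ι F) := by
  classical
  obtain ⟨j⟩ : Nonempty ι := Fintype.card_pos_iff.mp (by omega)
  have hstvH : ∀ u c, stv f u c ∈ Cfsg.Geo.similarityGroup f ⊓ Cfsg.Geo.specialLinear ι F :=
    fun u c => ⟨⟨1, fun x y => by rw [Units.val_one, one_mul]; exact stv_mem_isoGL hf u c x y⟩,
      tv_mem_specialLinear _ _⟩
  refine isMaximalIn_of inf_le_right ?_ ?_
  · intro hle
    set a : ι → F := Pi.single j 1
    have ha : a ≠ 0 := by simp [a]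
    obtain ⟨b, hb, hba⟩ : ∃ b, f a b = 0 ∧ ∀ c : F, b ≠ c • a := by
      by_contra! h
      have hker : LinearMap.ker (toBil hf.bilinear a) ≤ Submodule.span F {a} := fun b hb => by
        obtain ⟨c, hc⟩ := h b hb
        exact Submodule.mem_span_singleton.mpr ⟨c, hc.symm⟩
      have h1 := Submodule.finrank_mono hker
      rw [finrank_span_singleton ha] at h1
      have h2 := LinearMap.finrank_range_add_finrank_ker (toBil hf.bilinear a)
      have h3' : Module.finrank F (LinearMap.range (toBil hf.bilinear a)) ≤ 1 := by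
        simpa using Submodule.finrank_le (LinearMap.range (toBil hf.bilinear a))
      rw [Module.finrank_pi] at h2
      omega
    have hok : fun₂ f b ⬝ᵥ a = 0 := by rw [fun₂_dotProduct hf.bilinear, hb]
    obtain ⟨⟨c, hc⟩, -⟩ := hle (tv_mem_specialLinear a (fun₂ f b))
    obtain ⟨x₀, hx₀a, hx₀b⟩ := exists_pair_values hf ha hba 1 0
    obtain ⟨x, hxa, hxb⟩ := exists_pair_values hf ha hba 0 1
    obtain ⟨y, hya, hyb⟩ := exists_pair_values hf ha hba 1 0
    have h0 := hc x₀ a
    rw [tv_mulVec hok, tv_mulVec hok, fun₂_dotProduct hf.bilinear, fun₂_dotProduct hf.bilinear,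
      hx₀b, hb, zero_smul, add_zero, add_zero, hx₀a, mul_one] at h0
    have h1 := hc x y
    rw [tv_mulVec hok, tv_mulVec hok, fun₂_dotProduct hf.bilinear, fun₂_dotProduct hf.bilinear,
      hxb, hyb, zero_smul, add_zero, one_smul, hf.bilinear.add_left, ← h0, one_mul,
      hf.skew a y, hya] at h1
    simp at h1
  intro M hHM hMS g hgM hgH
  obtain ⟨v, hv⟩ : ∃ v, ∀ c : F, pushFun g (fun₂ f v) ≠ c • fun₂ f ((g : Matrix ι ι F) *ᵥ v) := by
    by_contra! h
    have hrel : ∀ x v, ∀ c : F, pushFun g (fun₂ f v) = c • fun₂ f ((g : Matrix ι ι F) *ᵥ v) →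
        f x v = c * f ((g : Matrix ι ι F) *ᵥ x) ((g : Matrix ι ι F) *ᵥ v) := by
      intro x v c hc
      have := pushFun_apply g (fun₂ f v) x
      rw [hc, smul_dotProduct, fun₂_dotProduct hf.bilinear, fun₂_dotProduct hf.bilinear,
        smul_eq_mul] at this
      exact this.symm
    let T : (ι → F) →ₗ[F] (ι → F) :=
      (fun₂Equiv hf).symm.toLinearMap ∘ₗ
        { toFun := fun v j => f ((g : Matrix ι ι F) *ᵥ Pi.single j 1) ((g : Matrix ι ι F) *ᵥ v)
          map_add' := fun u v => funext fun j => by simp [mulVec_add, hf.bilinear.add_right]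
          map_smul' := fun c u => funext fun j => by simp [mulVec_smul, hf.bilinear.smul_right] }
    have hT : ∀ v, ∃ d : F, T v = d • v := by
      intro v
      obtain ⟨c, hc⟩ := h v
      by_cases hc0 : c = 0
      · have : v = 0 := fun₂_injective hf <| funext fun j => by
          rw [fun₂, fun₂, hrel (Pi.single j 1) v c hc, hc0, zero_mul, f_zero_right hf.bilinear]
        exact ⟨0, by simp [this]⟩
      refine ⟨c⁻¹, ?_⟩
      simp only [T, LinearMap.comp_apply, LinearEquiv.coe_coe, LinearEquiv.symm_apply_eq, map_smul]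
      funext j
      simp only [fun₂Equiv_apply, fun₂, hrel (Pi.single j 1) v c hc, Pi.smul_apply, smul_eq_mul,
        LinearMap.coe_mk, AddHom.coe_mk, inv_mul_cancel_left₀ hc0]
    obtain ⟨d, hd⟩ := exists_eq_smul_of_forall_smul T hT
    have hfg : ∀ x v, f ((g : Matrix ι ι F) *ᵥ x) ((g : Matrix ι ι F) *ᵥ v) = d * f x v := by
      intro x v
      have := hd v
      simp only [T, LinearMap.comp_apply, LinearEquiv.coe_coe, LinearEquiv.symm_apply_eq,
        map_smul] at this
      have h' : ∀ j, f ((g : Matrix ι ι F) *ᵥ Pi.single j 1) ((g : Matrix ι ι F) *ᵥ v) =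
          d * f (Pi.single j 1) v := fun j => congrFun this j
      let B₁ : (ι → F) →ₗ[F] F :=
        ((toBil hf.bilinear).flip ((g : Matrix ι ι F) *ᵥ v)).comp (Matrix.mulVecLin (g : Matrix ι ι F))
      have : B₁ = d • (toBil hf.bilinear).flip v :=
        LinearMap.pi_ext' fun j => LinearMap.ext_ring (by simpa [B₁] using h' j)
      simpa [B₁] using LinearMap.congr_fun this x
    have hd0 : d ≠ 0 := by
      intro hd0
      obtain ⟨x, hx⟩ := (hf.nondegenerate ((g : Matrix ι ι F) *ᵥ (Pi.single j 1)) (fun h0 => by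
        have := congrArg (((g⁻¹ : GL ι F) : Matrix ι ι F) *ᵥ ·) h0
        simp only [inv_mulVec_mulVec, mulVec_zero] at this
        simp at this)).1
      apply hx
      rw [← mulVec_inv_mulVec g x, hfg, hd0, zero_mul]
    exact hgH ⟨⟨Units.mk0 d hd0, fun u v => hfg u v⟩, hMS hgM⟩
  set a := (g : Matrix ι ι F) *ᵥ v
  set x := (fun₂Equiv hf).symm (pushFun g (fun₂ f v)) with hxdef
  have hx : fun₂ f x = pushFun g (fun₂ f v) := (fun₂Equiv hf).apply_symm_apply _
  have hvok : fun₂ f v ⬝ᵥ v = 0 := by rw [fun₂_dotProduct hf.bilinear, hf.alternating]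
  have hax : f a x = 0 := by
    rw [← fun₂_dotProduct hf.bilinear, hx, pushFun_apply, hvok]
  have hxM : tv a (fun₂ f x) ∈ M := by
    rw [hx]
    refine tv_conj_mem hgM hvok (hHM ?_)
    simpa [stv] using hstvH v 1
  have hxa : ∀ c : F, x ≠ c • a := fun c hc => hv c (by
    rw [← hx, hc, ← fun₂Equiv_apply hf, map_smul, fun₂Equiv_apply])
  have ha : a ≠ 0 := by
    intro ha
    have hv0 : v = 0 := by
      have := congrArg (((g⁻¹ : GL ι F) : Matrix ι ι F) *ᵥ ·) ha
      simpa [a, inv_mulVec_mulVec] using this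
    apply hv 0
    subst hv0
    funext j
    simp [pushFun, fun₂, f_zero_right hf.bilinear, vecMul, dotProduct]
  have hok : ∀ {p y : ι → F}, f p y = 0 → fun₂ f y ⬝ᵥ p = 0 := fun h => by
    rw [fun₂_dotProduct hf.bilinear, h]
  have hconj : ∀ {k : GL ι F}, k ∈ isoGL f → ∀ {p y : ι → F}, f p y = 0 →
      k * tv p (fun₂ f y) * k⁻¹ =
        tv ((k : Matrix ι ι F) *ᵥ p) (fun₂ f ((k : Matrix ι ι F) *ᵥ y)) := by
    intro k hk p y h
    refine conj_tv k (hok h) fun z => ?_
    rw [fun₂_dotProduct hf.bilinear, fun₂_dotProduct hf.bilinear, mem_isoGL.mp hk]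
  let U : Set (ι → F) := {y | f a y = 0 ∧ tv a (fun₂ f y) ∈ M}
  have hsub : ∀ y z, y ∈ U → z ∈ U → y - z ∈ U := by
    intro y z hy hz
    refine ⟨by rw [f_sub_right hf.bilinear, hy.1, hz.1, sub_zero], ?_⟩
    rw [← fun₂Equiv_apply hf, map_sub, fun₂Equiv_apply, fun₂Equiv_apply, sub_eq_add_neg,
      ← tv_mul_right (hok hy.1) (by simp [hok hz.1]), ← tv_inv (hok hz.1)]
    exact M.mul_mem hy.2 (M.inv_mem hz.2)
  have hstep : ∀ u, f a u = 0 → f x u ≠ 0 → u ∈ U := by
    intro u hau hxu
    have h1 : x + u ∈ U := by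
      refine ⟨by rw [hf.bilinear.add_right, hax, hau, add_zero], ?_⟩
      have hk := stv_mem_isoGL hf u (f x u)⁻¹
      have := hconj hk hax
      rw [stv_mulVec hf, stv_mulVec hf, hau, inv_mul_cancel₀ hxu, one_smul, mul_zero, zero_smul,
        add_zero] at this
      rw [← this]
      exact M.mul_mem (M.mul_mem (hHM (hstvH _ _)) hxM) (M.inv_mem (hHM (hstvH _ _)))
    have := hsub _ _ h1 ⟨hax, hxM⟩
    simpa using this
  have hall : ∀ y, f a y = 0 → y ∈ U := by
    intro y hay
    by_cases hxy : f x y = 0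
    · obtain ⟨u, hua, hux⟩ := exists_pair_values hf ha hxa 0 1
      have hau : f a u = 0 := by rw [hf.skew, hua, neg_zero]
      have hxu : f x u ≠ 0 := by rw [hf.skew, hux]; simp
      have h1 : y + u ∈ U := hstep _ (by rw [hf.bilinear.add_right, hay, hau, add_zero])
        (by rw [hf.bilinear.add_right, hxy, zero_add]; exact hxu)
      simpa using hsub _ _ h1 (hstep u hau hxu)
    · exact hstep y hay hxy
  refine specialLinear_le_of_tv fun b ψ hb hψ => ?_
  obtain ⟨k, hk, hka⟩ := exists_sympGen_map hf (nondegOn_top hf) (v := a) (w := b) trivial ha trivial hb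
  have hkM : k ∈ M := sympGen_le hf (fun u _ c => hHM (hstvH u c)) hk
  have hki := sympGen_le_isoGL hf _ hk
  set z := (fun₂Equiv hf).symm ψ
  have hz : fun₂ f z = ψ := (fun₂Equiv hf).apply_symm_apply ψ
  set y := ((k⁻¹ : GL ι F) : Matrix ι ι F) *ᵥ z
  have hky : (k : Matrix ι ι F) *ᵥ y = z := mulVec_inv_mulVec k z
  have hay : f a y = 0 := by
    rw [← mem_isoGL.mp hki a y, hka, hky, ← fun₂_dotProduct hf.bilinear, hz, hψ]
  rw [← hz, ← hky, ← hka, ← hconj hki hay]
  exact M.mul_mem (M.mul_mem hkM (hall y hay).2) (M.inv_mem hkM)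

end CfsgLib.Classical
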