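import Cfsg.Agent.Lib.ClassicalUnitaryGen
import Cfsg.Agent.Lib.ClassicalMaxParabolic
import Cfsg.Prelude.Def_GeometricClasses

/-! Maximality of subspace stabilisers in SU. -/

set_option autoImplicit false

namespace CfsgLib.Classical

open Matrix

variable {F : Type*} [Field F] [Finite F] {ι : Type} [Fintype ι] [DecidableEq ι] {σ : F ≃+* F}
  {f : (ι → F) → (ι → F) → F}

/-- the isotropic vectors all whose transvections lie in `M` -/
def uCentres (σ : F ≃+* F) (f : (ι → F) → (ι → F) → F) (M : Subgroup (GL ι F)) : Set (ι → F) :=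
  {u | f u u = 0 ∧ ∀ μ, σ μ = -μ → utv f u μ ∈ M}

variable (hf : Cfsg.Geo.IsUnitaryForm σ f)
include hf

omit [Finite F] in
lemma uCentres_map {M : Subgroup (GL ι F)} (hM : M ≤ hSU f) {g : GL ι F} (hg : g ∈ M)
    {u : ι → F} (hu : u ∈ uCentres σ f M) :
    (g : Matrix ι ι F) *ᵥ u ∈ uCentres σ f M := by
  refine ⟨by rw [mem_hIso.mp (hM hg).1, hu.1], fun μ hμ => ?_⟩
  rw [← utv_conj hf (hM hg).1 hu.1]
  exact M.mul_mem (M.mul_mem hg (hu.2 μ hμ)) (M.inv_mem hg)

omit [Finite F] in
lemma uCentres_smul {M : Subgroup (GL ι F)} {u : ι → F} (hu : u ∈ uCentres σ f M) (a : F) :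
    a • u ∈ uCentres σ f M := by
  refine ⟨by rw [hf.smul_left, herm_smul_right hf, hu.1]; simp, fun μ hμ => ?_⟩
  rw [utv_smul hf hu.1]
  refine hu.2 _ ?_
  rw [map_mul, map_mul, hf.involutive, hμ]; ring

omit [Finite F] in
lemma uCentres_line {M : Subgroup (GL ι F)} (hM : M ≤ hSU f) {u v : ι → F}
    (hu : u ∈ uCentres σ f M) (hv : v ∈ uCentres σ f M) (huv : f u v ≠ 0) {a b : F}
    (hiso : f (a • u + b • v) (a • u + b • v) = 0) : a • u + b • v ∈ uCentres σ f M := by
  by_cases ha : a = 0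
  · rw [ha, zero_smul, zero_add]; exact uCentres_smul hf hv b
  by_cases hb : b = 0
  · rw [hb, zero_smul, add_zero]; exact uCentres_smul hf hu a
  have hsk : σ (a * σ b * f u v) = -(a * σ b * f u v) := by
    have h := skew_of_iso hf (x := a • u) (y := b • v)
      (uCentres_smul hf hu a).1 (uCentres_smul hf hv b).1 hiso
    rwa [hf.smul_left, herm_smul_right hf, ← mul_assoc] at h
  set μ := (a * σ b * f u v)⁻¹ with hμdef
  have hμ : σ μ = -μ := by rw [hμdef, map_inv₀, hsk, inv_neg]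
  have hbv := uCentres_smul hf hv b
  have h := uCentres_map hf hM (hbv.2 μ hμ) (uCentres_smul hf hu a)
  rw [utv_mulVec hf hbv.1, hf.smul_left, herm_smul_right hf] at h
  rw [show μ * (a * (σ b * f u v)) = 1 by
    rw [hμdef, ← mul_assoc a, inv_mul_cancel₀]
    have hσb : σ b ≠ 0 := (map_ne_zero σ).mpr hb
    exact mul_ne_zero (mul_ne_zero ha hσb) huv, one_smul] at h
  exact h

omit [Finite F] in
lemma mem_W_of_perp {W : Submodule F (ι → F)} {x : ι → F}
    (h : ∀ y ∈ hperp hf W, f x y = 0) : x ∈ W := by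
  by_contra hx
  obtain ⟨φ, hφx, hφW⟩ := exists_annihilator W hx
  obtain ⟨y, hy⟩ := hfun₂_surjective hf φ
  have := h y fun w hw => herm_eq_zero_comm hf (by rw [← hfun₂_dotProduct hf, hy, hφW w hw])
  rw [← hfun₂_dotProduct hf, hy, hφx] at this
  exact one_ne_zero this

/-- the stabiliser of a totally singular subspace is maximal in SU -/
theorem isMaximalIn_unitaryParabolic (h4 : 4 ≤ Fintype.card ι) (W : Submodule F (ι → F))
    (hW0 : W ≠ ⊥) (hW : ∀ u ∈ W, ∀ v ∈ W, f u v = 0) :
    Cfsg.Geo.IsMaximalIn (hSU f) (Cfsg.Geo.subspaceStabilizer W ⊓ hSU f) := by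
  classical
  obtain ⟨w₀, hw₀, hw₀0⟩ := Submodule.exists_mem_ne_zero_of_ne_bot hW0
  obtain ⟨k, hk0, hk⟩ := exists_skew hf.ne_refl hf.involutive
  obtain ⟨δ, hδ⟩ := exists_trace_one hf.ne_refl hf.involutive
  refine isMaximalIn_of inf_le_right ?_ ?_
  · intro hle
    obtain ⟨z, -, hzz, hwz⟩ := exists_hpartner hf (hnondeg_top hf) trivial hw₀0 (hW w₀ hw₀ w₀ hw₀)
    have := maps_of_mem_stab (hle (utv_mem_hSU hf hzz hk)).1 hw₀
    rw [utv_mulVec hf hzz, hwz, mul_one] at this
    have hz : k • z ∈ W := by simpa using W.sub_mem this hw₀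
    have hzW : z ∈ W := by
      rw [show z = k⁻¹ • (k • z) by rw [smul_smul, inv_mul_cancel₀ hk0, one_smul]]
      exact W.smul_mem _ hz
    rw [hW w₀ hw₀ z hzW] at hwz
    exact zero_ne_one hwz
  intro M hHM hMK g hgM hgH
  set C := uCentres σ f M with hC
  have hW' : ∀ y ∈ hperp hf W, f y y = 0 → y ∈ C := fun y hy hyy => ⟨hyy, fun μ hμ =>
    hHM ⟨mem_stab_of_maps W _ fun x hx => by
      rwa [utv_fix hf hyy μ (herm_eq_zero_comm hf (hy x hx))], utv_mem_hSU hf hyy hμ⟩⟩
  have hWW' : ∀ w ∈ W, w ∈ hperp hf W := fun w hw x hx => hW w hw x hx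
  -- an isotropic centre outside the perp
  obtain ⟨z₀, hz₀, hz₀W⟩ : ∃ z ∈ C, z ∉ hperp hf W := by
    by_contra! hall
    refine hgH ⟨?_, hMK hgM⟩
    have hgi := (hMK hgM).1
    have hiso : ∀ y ∈ hperp hf W, f y y = 0 → (g : Matrix ι ι F) *ᵥ y ∈ hperp hf W :=
      fun y hy hyy => hall _ (uCentres_map hf hMK hgM (hW' y hy hyy))
    refine mem_stab_of_maps W g fun x hx => ?_
    by_cases hex : ∃ y ∈ hperp hf W, f y y = 0 ∧ y ∉ W
    · obtain ⟨y₀, hy₀, hy₀y, hy₀W⟩ := hex
      obtain ⟨q₀, hq₀, hyq⟩ : ∃ q ∈ hperp hf W, f y₀ q ≠ 0 := by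
        by_contra! h; exact hy₀W (mem_W_of_perp hf h)
      have hgy : ∀ q ∈ hperp hf W, f y₀ q ≠ 0 → (g : Matrix ι ι F) *ᵥ q ∈ hperp hf W := by
        intro q hq hne
        set c := -(δ * f q q) / f y₀ q with hc
        have hiq : f (q + c • y₀) (q + c • y₀) = 0 := by
          rw [herm_norm_add hf, hf.smul_left, herm_smul_right hf, herm_smul_right hf, hy₀y,
            hf.herm q y₀, hc]
          simp only [map_mul, map_div₀, map_neg, hf.involutive, herm_self_fixed hf]
          have h2 : σ (f y₀ q) ≠ 0 := (map_ne_zero σ).mpr hne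
          field_simp
          linear_combination -(f q q * σ (f y₀ q) * f y₀ q) * hδ
        have h1 := hiso _ ((hperp hf W).add_mem hq ((hperp hf W).smul_mem _ hy₀)) hiq
        rw [mulVec_add, mulVec_smul] at h1
        simpa using (hperp hf W).sub_mem h1 ((hperp hf W).smul_mem c (hiso y₀ hy₀ hy₀y))
      refine mem_W_of_perp hf fun y hy => ?_
      have hle : ((hperp hf W).map (Matrix.toLin' (g : Matrix ι ι F))) ≤ hperp hf W := by
        rintro _ ⟨q, hq, rfl⟩
        rw [Matrix.toLin'_apply]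
        by_cases hne : f y₀ q = 0
        · have h1 := hgy (q + q₀) ((hperp hf W).add_mem hq hq₀)
            (by rw [herm_add_right hf, hne, zero_add]; exact hyq)
          rw [mulVec_add] at h1
          simpa using (hperp hf W).sub_mem h1 (hgy q₀ hq₀ hyq)
        · exact hgy q hq hne
      have heq := Submodule.eq_of_le_of_finrank_eq hle ((Submodule.equivMapOfInjective _
        (fun a b hab => mulVec_injective g (by simpa [Matrix.toLin'_apply] using hab))
          (hperp hf W)).finrank_eq.symm)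
      rw [← heq] at hy
      obtain ⟨y', hy', rfl⟩ := hy
      rw [Matrix.toLin'_apply, mem_hIso.mp hgi]
      exact herm_eq_zero_comm hf (hy' x hx)
    · push Not at hex
      exact hex _ (hiso x (hWW' x hx) (hW x hx x hx))
        (by rw [mem_hIso.mp hgi]; exact hW x hx x hx)
  obtain ⟨w, hw, hzw⟩ : ∃ w ∈ W, f z₀ w ≠ 0 := by
    by_contra! h; exact hz₀W h
  have hH : ∀ a, f a w = 0 → etv f w a (σ δ * f a a) ∈ M := fun a ha =>
    hHM ⟨mem_stab_of_maps W _ fun x hx => by
      rw [etv_mulVec hf (hW w hw w hw) ha, hW x hx w hw]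
      simp only [mul_zero, add_zero, zero_smul, sub_zero]
      exact W.add_mem hx (W.smul_mem _ hw), etv_mem_hSU hf (hW w hw w hw) ha hδ⟩
  set z := (f z₀ w)⁻¹ • z₀ with hzdef
  have hzC : z ∈ C := uCentres_smul hf hz₀ _
  have hzw1 : f z w = 1 := by rw [hzdef, hf.smul_left, inv_mul_cancel₀ hzw]
  -- everything not orthogonal to w
  have hfirst : ∀ x, f x x = 0 → f x w ≠ 0 → x ∈ C := by
    intro x hxx hxw
    set x₁ := (f x w)⁻¹ • x with hx₁
    have hx₁w : f x₁ w = 1 := by rw [hx₁, hf.smul_left, inv_mul_cancel₀ hxw]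
    have hx₁x : f x₁ x₁ = 0 := by rw [hx₁, hf.smul_left, herm_smul_right hf, hxx]; simp
    set a := z - x₁ with hadef
    have haw : f a w = 0 := by rw [hadef, herm_sub_left hf, hzw1, hx₁w, sub_self]
    have h1 := uCentres_map hf hMK (hH a haw) hzC
    rw [etv_mulVec hf (hW w hw w hw) haw, hzw1, one_smul, mul_one] at h1
    set e := f z a + (σ δ * f a a - f a a) with hedef
    rw [show z + e • w - a = x₁ + e • w by rw [hadef]; abel] at h1
    have hsk : σ e = -e := by
      have h := skew_of_iso hf (x := x₁) (y := e • w) hx₁x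
        (by rw [hf.smul_left, herm_smul_right hf, hW w hw w hw]; simp) h1.1
      rw [herm_smul_right hf, hx₁w, mul_one, hf.involutive] at h
      linear_combination h
    have hwC : w ∈ C := hW' w (hWW' w hw) (hW w hw w hw)
    have h2 := uCentres_map hf hMK (hwC.2 (-e) (by rw [map_neg, hsk])) h1
    rw [utv_mulVec hf hwC.1, hf.add_left, hx₁w, hf.smul_left, hW w hw w hw] at h2
    simp only [mul_zero, add_zero, mul_one, neg_smul, add_neg_cancel_right] at h2
    have := uCentres_smul hf h2 (f x w)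
    rwa [hx₁, smul_smul, mul_inv_cancel₀ hxw, one_smul] at this
  refine hSU_le_of_utv hf h4 fun x hxx μ hμ => ?_
  suffices hx : x ∈ C from hx.2 μ hμ
  by_cases hxW : x ∈ hperp hf W
  · exact hW' x hxW hxx
  obtain ⟨w', hw', hxw'⟩ : ∃ w' ∈ W, f x w' ≠ 0 := by
    by_contra! h; exact hxW h
  by_cases hxw : f x w = 0
  swap
  · exact hfirst x hxx hxw
  -- an intermediate centre not orthogonal to both
  obtain ⟨u, hu, huw, huw'⟩ : ∃ u ∈ C, f u w ≠ 0 ∧ f u w' ≠ 0 := by
    by_cases hzw' : f z w' = 0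
    · obtain ⟨u, hu⟩ : ∃ u, u = z + x := ⟨_, rfl⟩
      have huw : f u w = 1 := by rw [hu, hf.add_left, hzw1, hxw, add_zero]
      have huw' : f u w' = f x w' := by rw [hu, hf.add_left, hzw', zero_add]
      refine ⟨u + (-(δ * f u u)) • w, hfirst _ ?_ ?_, ?_, ?_⟩
      · rw [herm_norm_add hf, hf.smul_left, herm_smul_right hf, herm_smul_right hf,
          hW w hw w hw, huw]
        simp only [map_neg, map_mul, hf.involutive, herm_self_fixed hf, mul_one, mul_zero,
          add_zero]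
        linear_combination -(f u u) * hδ
      · rw [hf.add_left, hf.smul_left, hW w hw w hw, huw]; simp
      · rw [hf.add_left, hf.smul_left, hW w hw w hw, huw]; simp
      · rw [hf.add_left, hf.smul_left, hW w hw w' hw', huw']; simp [hxw']
    · exact ⟨z, hzC, by rw [hzw1]; exact one_ne_zero, hzw'⟩
  -- repeat the argument at w'
  set u₁ := (f u w')⁻¹ • u with hu₁
  have hu₁C : u₁ ∈ C := uCentres_smul hf hu _
  set x₁ := (f x w')⁻¹ • x with hx₁
  have hx₁w : f x₁ w' = 1 := by rw [hx₁, hf.smul_left, inv_mul_cancel₀ hxw']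
  have hx₁x : f x₁ x₁ = 0 := by rw [hx₁, hf.smul_left, herm_smul_right hf, hxx]; simp
  have hu₁w : f u₁ w' = 1 := by rw [hu₁, hf.smul_left, inv_mul_cancel₀ huw']
  set a := u₁ - x₁ with hadef
  have haw : f a w' = 0 := by rw [hadef, herm_sub_left hf, hu₁w, hx₁w, sub_self]
  have hH' : etv f w' a (σ δ * f a a) ∈ M :=
    hHM ⟨mem_stab_of_maps W _ fun x hx => by
      rw [etv_mulVec hf (hW w' hw' w' hw') haw, hW x hx w' hw']
      simp only [mul_zero, add_zero, zero_smul, sub_zero]
      exact W.add_mem hx (W.smul_mem _ hw'), etv_mem_hSU hf (hW w' hw' w' hw') haw hδ⟩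
  have h1 := uCentres_map hf hMK hH' hu₁C
  rw [etv_mulVec hf (hW w' hw' w' hw') haw, hu₁w, one_smul, mul_one] at h1
  set e := f u₁ a + (σ δ * f a a - f a a) with hedef
  rw [show u₁ + e • w' - a = x₁ + e • w' by rw [hadef]; abel] at h1
  have hsk : σ e = -e := by
    have h := skew_of_iso hf (x := x₁) (y := e • w') hx₁x
      (by rw [hf.smul_left, herm_smul_right hf, hW w' hw' w' hw']; simp) h1.1
    rw [herm_smul_right hf, hx₁w, mul_one, hf.involutive] at h
    linear_combination h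
  have hwC : w' ∈ C := hW' w' (hWW' w' hw') (hW w' hw' w' hw')
  have h2 := uCentres_map hf hMK (hwC.2 (-e) (by rw [map_neg, hsk])) h1
  rw [utv_mulVec hf hwC.1, hf.add_left, hx₁w, hf.smul_left, hW w' hw' w' hw'] at h2
  simp only [mul_zero, add_zero, mul_one, neg_smul, add_neg_cancel_right] at h2
  have := uCentres_smul hf h2 (f x w')
  rwa [hx₁, smul_smul, mul_inv_cancel₀ hxw', one_smul] at this

end CfsgLib.Classical
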