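import Cfsg.Agent.Lib.ClassicalMaxUnitary

/-! Maximality of stabilisers of non-degenerate subspaces in SU. -/

set_option autoImplicit false

namespace CfsgLib.Classical

open Matrix

variable {F : Type*} [Field F] [Finite F] {ι : Type} [Fintype ι] [DecidableEq ι] {σ : F ≃+* F}
  {f : (ι → F) → (ι → F) → F}

/-- isometries with determinant of norm one fixing the orthogonal of `W` -/
def guFix (hf : Cfsg.Geo.IsUnitaryForm σ f) (W : Submodule F (ι → F)) (g : GL ι F) : Prop :=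
  g ∈ hIso f ∧ (∀ x ∈ hperp hf W, (g : Matrix ι ι F) *ᵥ x = x) ∧
    Matrix.det (g : Matrix ι ι F) * σ (Matrix.det (g : Matrix ι ι F)) = 1

variable (hf : Cfsg.Geo.IsUnitaryForm σ f)
include hf

omit [Finite F] in
lemma guFix_mul {W : Submodule F (ι → F)} {g h : GL ι F} (hg : guFix hf W g) (hh : guFix hf W h) :
    guFix hf W (g * h) := by
  refine ⟨mul_mem hg.1 hh.1, fun x hx => by
    rw [Units.val_mul, ← mulVec_mulVec, hh.2.1 x hx, hg.2.1 x hx], ?_⟩
  rw [Units.val_mul, Matrix.det_mul, map_mul]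
  linear_combination (Matrix.det (h : Matrix ι ι F) * σ (Matrix.det (h : Matrix ι ι F))) * hg.2.2 +
    hh.2.2

omit [Finite F] in
lemma guFix_one (W : Submodule F (ι → F)) : guFix hf W 1 :=
  ⟨one_mem _, fun x _ => by simp, by simp⟩

omit [Finite F] in
lemma guFix_utv {W : Submodule F (ι → F)} {u : ι → F} (hu : u ∈ W) (huu : f u u = 0) {μ : F}
    (hμ : σ μ = -μ) : guFix hf W (utv f u μ) :=
  ⟨(utv_mem_hSU hf huu hμ).1, fun x hx => utv_fix hf huu μ (hx u hu), by
    have : ((Matrix.GeneralLinearGroup.det (utv f u μ) : Fˣ) : F) = 1 := by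
      rw [show Matrix.GeneralLinearGroup.det (utv f u μ) = 1 from (utv_mem_hSU hf huu hμ).2]; rfl
    rw [show Matrix.det (utv f u μ : Matrix ι ι F) = 1 from this]; simp⟩

omit [Finite F] in
/-- one quasi-reflection or transvection moves `w` to `w'` -/
lemma exists_gu_step {W : Submodule F (ι → F)} {w w' : ι → F} (hw : w ∈ W) (hw' : w' ∈ W)
    (hn : f w w = f w' w') (hs : f w w' - f w w ≠ 0) :
    ∃ h, guFix hf W h ∧ (h : Matrix ι ι F) *ᵥ w = w' := by
  set d := w' - w with hd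
  have hdW : d ∈ W := W.sub_mem hw' hw
  have hwd : f w d = f w w' - f w w := by rw [hd, herm_sub_right hf]
  have hdd : f d d = -((f w w' - f w w) + σ (f w w' - f w w)) := by
    rw [hd, herm_sub_left hf, herm_sub_right hf, herm_sub_right hf, map_sub, herm_self_fixed hf,
      hf.herm w' w, ← hn]
    ring
  set s := f w w' - f w w
  by_cases hiso : f d d = 0
  · have hsk : σ s = -s := by
      rw [hdd, neg_eq_zero] at hiso
      exact eq_neg_of_add_eq_zero_right hiso
    refine ⟨utv f d s⁻¹, guFix_utv hf hdW hiso (by rw [map_inv₀, hsk, inv_neg]), ?_⟩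
    rw [utv_mulVec hf hiso, hwd, inv_mul_cancel₀ hs, one_smul, hd]; abel
  · have hσs : σ s ≠ 0 := (map_ne_zero σ).mpr hs
    have hlam : -σ s / s * σ (-σ s / s) = 1 := by
      rw [map_div₀, map_neg, hf.involutive]; field_simp
    obtain ⟨r, hr, hrv, hdet⟩ := exists_href hf hiso hlam
    refine ⟨r, ⟨hr, fun x hx => by rw [hrv, hx d hdW]; simp, by rw [hdet]; exact hlam⟩, ?_⟩
    rw [hrv, hwd]
    have : (-σ s / s - 1) / f d d * s = 1 := by
      rw [hdd] at hiso ⊢
      rw [div_mul_eq_mul_div, div_eq_one_iff_eq hiso]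
      field_simp
      ring
    rw [this, one_smul, hd]; abel

omit [Finite F] in
/-- transitivity of GU on vectors of one norm -/
lemma exists_gu_map {W : Submodule F (ι → F)} (hW : HNondeg f W) {w w' : ι → F} (hw : w ∈ W)
    (hw0 : w ≠ 0) (hw' : w' ∈ W) (hw'0 : w' ≠ 0) (hn : f w w = f w' w') :
    ∃ h, guFix hf W h ∧ (h : Matrix ι ι F) *ᵥ w = w' := by
  by_cases hs : f w w' - f w w = 0
  swap
  · exact exists_gu_step hf hw hw' hn hs
  rw [sub_eq_zero] at hs
  obtain ⟨e, he, hwe, hw'e, hee⟩ : ∃ e ∈ W, f w e ≠ 0 ∧ f w' e ≠ 0 ∧ f e e ≠ 0 := by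
    by_cases ht : f w w = 0
    · obtain ⟨y, hy, hwy, hw'y⟩ := exists_nonorth2 hf hW hw hw0 hw' hw'0
      by_cases hyy : f y y = 0
      · obtain ⟨δ, hδ⟩ := exists_trace_one hf.ne_refl hf.involutive
        have hw'w : f w' w = 0 := herm_eq_zero_comm hf (hs.trans ht)
        refine ⟨y + (δ / f w y) • w, W.add_mem hy (W.smul_mem _ hw), ?_, ?_, ?_⟩
        · rw [herm_add_right hf, herm_smul_right hf, ht, mul_zero, add_zero]; exact hwy
        · rw [herm_add_right hf, herm_smul_right hf, hw'w, mul_zero, add_zero]; exact hw'y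
        · rw [herm_norm_add hf, hyy, hf.smul_left, herm_smul_right hf, herm_smul_right hf, ht,
            hf.herm y w]
          simp only [map_mul, map_div₀, hf.involutive]
          have h2 : σ (f w y) ≠ 0 := (map_ne_zero σ).mpr hwy
          rw [div_mul_cancel₀ _ hwy, div_mul_cancel₀ _ h2, add_comm (σ δ) δ, hδ]
          simp
      · exact ⟨y, hy, hwy, hw'y, hyy⟩
    · refine ⟨w, hw, ht, ?_, ht⟩
      rw [hf.herm, hs, herm_self_fixed hf]; exact ht
  obtain ⟨lam, hlam, hlam1⟩ : ∃ lam : F, lam * σ lam = 1 ∧ lam ≠ 1 := by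
    obtain ⟨a, ha⟩ := exists_sigma_ne hf.ne_refl
    have ha0 : a ≠ 0 := fun h => ha (by rw [h, map_zero])
    have hσa : σ a ≠ 0 := (map_ne_zero σ).mpr ha0
    refine ⟨σ a / a, by rw [map_div₀, hf.involutive]; field_simp, fun h => ha ?_⟩
    rwa [div_eq_one_iff_eq ha0] at h
  obtain ⟨r, hr, hrv, hdet⟩ := exists_href hf hee hlam
  have hrG : guFix hf W r := ⟨hr, fun x hx => by rw [hrv, hx e he]; simp, by rw [hdet]; exact hlam⟩
  set c := (lam - 1) / f e e * f w e with hc
  have hc0 : c ≠ 0 := mul_ne_zero (div_ne_zero (sub_ne_zero.mpr hlam1) hee) hwe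
  set w'' := (r : Matrix ι ι F) *ᵥ w with hw''
  have hw''eq : w'' = w + c • e := hrv w
  have hw''W : w'' ∈ W := by rw [hw''eq]; exact W.add_mem hw (W.smul_mem _ he)
  have hn'' : f w'' w'' = f w w := mem_hIso.mp hr w w
  obtain ⟨h, hh, hhw⟩ := exists_gu_step hf hw''W hw' (hn''.trans hn) (by
    rw [hn'', hw''eq, hf.add_left, hf.smul_left, hs, add_sub_cancel_left]
    exact mul_ne_zero hc0 fun h => hw'e (herm_eq_zero_comm hf h))
  exact ⟨h * r, guFix_mul hf hh hrG, by rw [Units.val_mul, ← mulVec_mulVec, ← hw'', hhw]⟩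

omit [Finite F] in
lemma guFix_maps {W : Submodule F (ι → F)} (hW : HNondeg f W) {g : GL ι F} (hg : guFix hf W g)
    {x : ι → F} (hx : x ∈ W) : (g : Matrix ι ι F) *ᵥ x ∈ W :=
  mem_of_perp_perp hf hW fun y hy => by
    rw [← hg.2.1 y hy, mem_hIso.mp hg.1]; exact herm_eq_zero_comm hf (hy x hx)

theorem isMaximalIn_unitaryNondeg (W : Submodule F (ι → F)) (hW0 : W ≠ ⊥) (hW : HNondeg f W)
    (hdim : 2 * Module.finrank F W < Fintype.card ι) (h6 : 6 ≤ Fintype.card ι) :
    Cfsg.Geo.IsMaximalIn (hSU f) (Cfsg.Geo.subspaceStabilizer W ⊓ hSU f) := by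
  classical
  obtain ⟨k, hk0, hk⟩ := exists_skew hf.ne_refl hf.involutive
  obtain ⟨δ, hδ⟩ := exists_trace_one hf.ne_refl hf.involutive
  set U := hperp hf W with hUdef
  have hU : HNondeg f U := hnondeg_perp hf hW
  have hWU := finrank_hperp hf hW
  have hU3 : 3 ≤ Module.finrank F U := by rw [← hUdef] at hWU; omega
  have hUW : ∀ u ∈ U, ∀ w ∈ W, f u w = 0 := fun u hu w hw => hu w hw
  have hWU' : ∀ w ∈ W, ∀ u ∈ U, f w u = 0 := fun w hw u hu => herm_eq_zero_comm hf (hu w hw)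
  have hfixW : ∀ {g : GL ι F}, guFix hf U g → ∀ x ∈ W, (g : Matrix ι ι F) *ᵥ x = x :=
    fun {g} hg x hx => hg.2.1 x fun u hu => hWU' x hx u hu
  obtain ⟨w₀, hw₀, hw₀0⟩ := Submodule.exists_mem_ne_zero_of_ne_bot hW0
  obtain ⟨u₀, hu₀, hu₀0, hu₀u⟩ := exists_norm_in_ne_zero hf hU (by omega) (map_zero σ)
  refine isMaximalIn_of inf_le_right ?_ ?_
  · intro hle
    obtain ⟨x, hx, hwx⟩ := hW w₀ hw₀ hw₀0
    have hxU : x ∉ U := fun h => hwx (hWU' w₀ hw₀ x h)
    -- an isotropic vector mixed, not orthogonal to w₀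
    obtain ⟨y, hy, hyy⟩ := exists_norm_in hf hU (by omega)
      (show σ (-f x x) = -f x x by rw [map_neg, herm_self_fixed hf])
    obtain ⟨y', hy', hy'0, hy'y⟩ : ∃ y' ∈ U, y' ≠ 0 ∧ f y' y' = -f x x :=
      exists_norm_in_ne_zero hf hU (by omega) (by rw [map_neg, herm_self_fixed hf])
    have hiso : f (x + y') (x + y') = 0 := by
      rw [herm_norm_add hf, hWU' x hx y' hy', hy'y, map_zero]; ring
    have := maps_of_mem_stab (hle (utv_mem_hSU hf hiso hk)).1 hw₀
    rw [utv_mulVec hf hiso, herm_add_right hf, hWU' w₀ hw₀ y' hy', add_zero] at this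
    have h1 : (k * f w₀ x) • (x + y') ∈ W := by simpa using W.sub_mem this hw₀
    have h2 : x + y' ∈ W := by
      rw [show x + y' = (k * f w₀ x)⁻¹ • ((k * f w₀ x) • (x + y')) by
        rw [smul_smul, inv_mul_cancel₀ (mul_ne_zero hk0 hwx), one_smul]]
      exact W.smul_mem _ h1
    exact hy'0 (Submodule.disjoint_def.mp (disjoint_hperp hf hW) y'
      (by simpa using W.sub_mem h2 hx) hy')
  intro M hHM hMK g hgM hgH
  set C := uCentres σ f M with hC
  have hstab : ∀ {x : GL ι F}, x ∈ hSU f → (∀ w ∈ W, (x : Matrix ι ι F) *ᵥ w ∈ W) → x ∈ M :=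
    fun {x} hx h => hHM ⟨mem_stab_of_maps W _ h, hx⟩
  have hUC : ∀ u ∈ U, f u u = 0 → u ∈ C := fun u hu huu => ⟨huu, fun μ hμ =>
    hstab (utv_mem_hSU hf huu hμ) fun w hw => by rwa [utv_fix hf huu μ (hWU' w hw u hu)]⟩
  have hWC : ∀ u ∈ W, f u u = 0 → u ∈ C := fun u hu huu => ⟨huu, fun μ hμ =>
    hstab (utv_mem_hSU hf huu hμ) fun w hw => by
      rw [utv_mulVec hf huu]; exact W.add_mem hw (W.smul_mem _ hu)⟩
  -- transitivity of the stabiliser
  have htrans : ∀ w₁ ∈ W, ∀ u₁ ∈ U, ∀ w ∈ W, ∀ u ∈ U, w₁ ≠ 0 → u₁ ≠ 0 → w ≠ 0 → u ≠ 0 →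
      f w₁ w₁ = f w w → f u₁ u₁ = f u u → w₁ + u₁ ∈ C → w + u ∈ C := by
    intro w₁ hw₁ u₁ hu₁ w hw u hu hw₁0 hu₁0 hw0 hu0 hnw hnu hz
    obtain ⟨a, ha, haw⟩ := exists_gu_map hf hW hw₁ hw₁0 hw hw0 hnw
    obtain ⟨b, hb, hbu⟩ := exists_gu_map hf hU hu₁ hu₁0 hu hu0 hnu
    obtain ⟨d, hdU, hdu, hdd⟩ : ∃ d ∈ U, f d u = 0 ∧ f d d = 1 := by
      by_cases huu : f u u = 0
      · obtain ⟨v, hv, hvv, huv⟩ := exists_hpartner hf hU hu hu0 huu
        have hP := finrank_perp2 hf hu hv huu hvv huv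
        obtain ⟨d, hd, hdd⟩ := exists_norm_in hf (hnondeg_perp2 hf hU hu hv huu hvv huv)
          (by omega) (map_one σ)
        obtain ⟨hdU, hdu, -⟩ := (mem_hperp2 hf).mp hd
        exact ⟨d, hdU, hdu, hdd⟩
      · have hP := finrank_perp1 hf hu huu
        obtain ⟨d, hd, hdd⟩ := exists_norm_in hf (hnondeg_perp1 hf hU hu huu) (by omega)
          (map_one σ)
        exact ⟨d, ((mem_hperp1 hf).mp hd).1, ((mem_hperp1 hf).mp hd).2, hdd⟩
    set D := Matrix.det (b : Matrix ι ι F) * Matrix.det (a : Matrix ι ι F) with hD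
    have hDN : D * σ D = 1 := by
      rw [hD, map_mul]
      linear_combination (Matrix.det (a : Matrix ι ι F) * σ (Matrix.det (a : Matrix ι ι F))) *
        hb.2.2 + ha.2.2
    have hlam : σ D * σ (σ D) = 1 := by rw [hf.involutive, mul_comm]; exact hDN
    obtain ⟨r, hr, hrv, hdet⟩ := exists_href hf (show f d d ≠ 0 by rw [hdd]; exact one_ne_zero) hlam
    have hrW : ∀ x ∈ W, (r : Matrix ι ι F) *ᵥ x = x := fun x hx => by
      rw [hrv, hWU' x hx d hdU]; simp
    have hru : (r : Matrix ι ι F) *ᵥ u = u := by rw [hrv, herm_eq_zero_comm hf hdu]; simp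
    have hSUm : r * (b * a) ∈ hSU f := by
      refine ⟨mul_mem hr (mul_mem hb.1 ha.1), Units.ext ?_⟩
      rw [Matrix.GeneralLinearGroup.val_det_apply, Units.val_mul, Units.val_mul, Matrix.det_mul,
        Matrix.det_mul, hdet, ← hD, mul_comm]
      exact hDN
    have hkM : r * (b * a) ∈ M := hstab hSUm fun x hx => by
      rw [Units.val_mul, Units.val_mul, ← mulVec_mulVec, ← mulVec_mulVec,
        hfixW hb _ (guFix_maps hf hW ha hx), hrW _ (guFix_maps hf hW ha hx)]
      exact guFix_maps hf hW ha hx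
    have h1 := uCentres_map hf hMK hkM hz
    rwa [Units.val_mul, Units.val_mul, ← mulVec_mulVec, ← mulVec_mulVec, mulVec_add, mulVec_add,
      mulVec_add, haw, ha.2.1 u₁ hu₁, hfixW hb w hw, hbu, hrW w hw, hru] at h1
  -- a mixed centre
  obtain ⟨w₁, hw₁, u₁, hu₁, hw₁0, hu₁0, hz⟩ : ∃ w₁ ∈ W, ∃ u₁ ∈ U, w₁ ≠ 0 ∧ u₁ ≠ 0 ∧
      w₁ + u₁ ∈ C := by
    by_contra! hno
    have hpure : ∀ z ∈ C, z ∈ W ∨ z ∈ U := by
      intro z hz
      obtain ⟨w, hw, hzw⟩ := herm_decomp hf hW z
      by_cases hw0 : w = 0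
      · right; rwa [hw0, sub_zero] at hzw
      by_cases hu0 : z - w = 0
      · left; rw [sub_eq_zero.mp hu0]; exact hw
      exact absurd (by rwa [add_sub_cancel]) (hno w hw _ hzw hw0 hu0)
    have himg : ∀ x ∈ U, f x x = 0 →
        (g : Matrix ι ι F) *ᵥ x ∈ W ∨ (g : Matrix ι ι F) *ᵥ x ∈ U :=
      fun x hx hxx => hpure _ (uCentres_map hf hMK hgM (hUC x hx hxx))
    have hgi := (hMK hgM).1
    have hdisj := Submodule.disjoint_def.mp (disjoint_hperp hf hW)
    -- two isotropic vectors have images on the same side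
    have hsame : ∀ x ∈ U, ∀ y ∈ U, f x x = 0 → f y y = 0 → x ≠ 0 → y ≠ 0 →
        (g : Matrix ι ι F) *ᵥ x ∈ W → (g : Matrix ι ι F) *ᵥ y ∈ U → False := by
      intro x hx y hy hxx hyy hx0 hy0 hgx hgy
      have hxy : f x y = 0 := by
        rw [← mem_hIso.mp hgi, hWU' _ hgx _ hgy]
      have hs : f (x + y) (x + y) = 0 := by rw [herm_norm_add hf, hxy, hxx, hyy, map_zero]; ring
      rcases himg _ (U.add_mem hx hy) hs with h | h <;> rw [mulVec_add] at h
      · have h' := hdisj _ (by simpa using W.sub_mem h hgx) hgy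
        exact hy0 (mulVec_injective g (by simpa using h'))
      · have h' := hdisj _ hgx (by simpa using U.sub_mem h hgy)
        exact hx0 (mulVec_injective g (by simpa using h'))
    have hspan : ∀ T : Submodule F (ι → F), (∀ x ∈ U, f x x = 0 → (g : Matrix ι ι F) *ᵥ x ∈ T) →
        ∀ x ∈ U, (g : Matrix ι ι F) *ᵥ x ∈ T := by
      intro T hT x hx
      obtain ⟨y₁, hy₁, h₁, h₂⟩ := exists_iso_split hf hU (by omega) hx
      have := T.add_mem (hT _ hy₁ h₁) (hT _ (U.sub_mem hx hy₁) h₂)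
      rwa [← mulVec_add, add_sub_cancel] at this
    rcases himg u₀ hu₀ hu₀u with h0 | h0
    · have hall := hspan W fun x hx hxx => by
        by_cases hx0 : x = 0
        · rw [hx0, mulVec_zero]; exact W.zero_mem
        exact (himg x hx hxx).resolve_right fun h => hsame u₀ hu₀ x hx hu₀u hxx hu₀0 hx0 h0 h
      have hle : U.map (Matrix.toLin' (g : Matrix ι ι F)) ≤ W := by
        rintro _ ⟨x, hx, rfl⟩; rw [Matrix.toLin'_apply]; exact hall x hx
      have h1 := Submodule.finrank_mono hle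
      rw [← (Submodule.equivMapOfInjective _ (fun a b hab => mulVec_injective g
        (by simpa [Matrix.toLin'_apply] using hab)) U).finrank_eq] at h1
      rw [← hUdef] at hWU
      omega
    · have hall := hspan U fun x hx hxx => by
        by_cases hx0 : x = 0
        · rw [hx0, mulVec_zero]; exact U.zero_mem
        exact (himg x hx hxx).resolve_left fun h => hsame x hx u₀ hu₀ hxx hu₀u hx0 hu₀0 h h0
      refine hgH ⟨mem_stab_of_maps W g fun x hx => mem_of_perp_perp hf hW fun y hy => ?_, hMK hgM⟩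
      have hy' : ((g⁻¹ : GL ι F) : Matrix ι ι F) *ᵥ y ∈ U :=
        maps_of_mem_stab (W := U) (Subgroup.inv_mem _ (mem_stab_of_maps U g hall)) hy
      rw [← mulVec_inv_mulVec g y, mem_hIso.mp hgi]
      exact hWU' x hx _ hy'
  -- change the class
  set N := f w₁ w₁ with hNdef
  have hnorm : ∀ w ∈ W, ∀ u ∈ U, f (w + u) (w + u) = 0 → f u u = -f w w := fun w hw u hu h => by
    rw [herm_norm_add hf, hWU' w hw u hu, map_zero] at h; linear_combination h
  have hu₁N : f u₁ u₁ = -N := hnorm w₁ hw₁ u₁ hu₁ hz.1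
  have hclassN : N ≠ 0 → ∀ w ∈ W, ∀ u ∈ U, f w w ≠ 0 → f (w + u) (w + u) = 0 → w + u ∈ C := by
    intro hN w hw u hu hww hiso
    have huu := hnorm w hw u hu hiso
    obtain ⟨c, hc⟩ := exists_norm_eq hf.ne_refl hf.involutive (t := f w w / N)
      (by rw [map_div₀, herm_self_fixed hf, hNdef, herm_self_fixed hf])
    have hc0 : c ≠ 0 := fun h => by
      rw [h, zero_mul] at hc; exact div_ne_zero hww hN hc.symm
    have hw0 : w ≠ 0 := fun h => hww (by rw [h, herm_zero_left hf])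
    have hu0 : u ≠ 0 := fun h => hww (by rw [h, herm_zero_left hf] at huu; simpa using huu.symm)
    refine htrans (c • w₁) (W.smul_mem _ hw₁) (c • u₁) (U.smul_mem _ hu₁) w hw u hu
      (smul_ne_zero hc0 hw₁0) (smul_ne_zero hc0 hu₁0) hw0 hu0 ?_ ?_
      (by rw [← smul_add]; exact uCentres_smul hf hz c)
    · rw [hf.smul_left, herm_smul_right hf, ← mul_assoc, hc, ← hNdef, div_mul_cancel₀ _ hN]
    · rw [hf.smul_left, herm_smul_right hf, ← mul_assoc, hc, hu₁N, huu, mul_neg,
        div_mul_cancel₀ _ hN]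
  have hclass0 : N = 0 → ∀ w ∈ W, ∀ u ∈ U, w ≠ 0 → u ≠ 0 → f w w = 0 → f u u = 0 → w + u ∈ C :=
    fun hN w hw u hu hw0 hu0 hww huu => htrans w₁ hw₁ u₁ hu₁ w hw u hu hw₁0 hu₁0 hw0 hu0
      (by rw [hww, ← hNdef, hN]) (by rw [huu, hu₁N, hN, neg_zero]) hz
  -- from isotropic parts to anisotropic ones
  have hne : ∃ w ∈ W, ∃ u ∈ U, f w w ≠ 0 ∧ w + u ∈ C := by
    by_cases hN : N = 0
    swap
    · exact ⟨w₁, hw₁, u₁, hu₁, hN, hz⟩
    obtain ⟨v, hv, hvv, hwv⟩ := exists_hpartner hf hW hw₁ hw₁0 (hNdef ▸ hN)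
    obtain ⟨v', hv', hv'v, huv⟩ := exists_hpartner hf hU hu₁ hu₁0 (by rw [hu₁N, hN, neg_zero])
    obtain ⟨a, ha⟩ := exists_sigma_ne hf.ne_refl
    have ha0 : a ≠ 0 := fun h => ha (by rw [h, map_zero])
    have ha1 : 1 - a ≠ 0 := fun h => ha (by rw [← sub_eq_zero.mp h, map_one])
    have hv0 : v ≠ 0 := fun h => by rw [h, herm_zero_right hf] at hwv; exact zero_ne_one hwv
    have hv'0 : v' ≠ 0 := fun h => by rw [h, herm_zero_right hf] at huv; exact zero_ne_one huv
    have hσa : σ a ≠ 0 := (map_ne_zero σ).mpr ha0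
    have hσa1 : σ (1 - a) ≠ 0 := (map_ne_zero σ).mpr ha1
    have hz' : σ a • v + σ (1 - a) • v' ∈ C :=
      hclass0 hN _ (W.smul_mem _ hv) _ (U.smul_mem _ hv') (smul_ne_zero hσa hv0)
        (smul_ne_zero hσa1 hv'0)
        (by rw [hf.smul_left, herm_smul_right hf, hvv]; simp)
        (by rw [hf.smul_left, herm_smul_right hf, hv'v]; simp)
    have hp : f (w₁ + u₁) (σ a • v + σ (1 - a) • v') = 1 := by
      rw [hf.add_left, herm_add_right hf, herm_add_right hf, herm_smul_right hf,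
        herm_smul_right hf, herm_smul_right hf, herm_smul_right hf, hwv, hWU' w₁ hw₁ v' hv',
        hUW u₁ hu₁ v hv, huv]
      simp [hf.involutive]
    have hiso : f (k • (w₁ + u₁) + (1 : F) • (σ a • v + σ (1 - a) • v'))
        (k • (w₁ + u₁) + (1 : F) • (σ a • v + σ (1 - a) • v')) = 0 := by
      rw [one_smul, herm_norm_add hf, hf.smul_left, herm_smul_right hf, hz.1, hf.smul_left, hp,
        hz'.1, mul_one, hk]
      ring
    refine ⟨k • w₁ + σ a • v, W.add_mem (W.smul_mem _ hw₁) (W.smul_mem _ hv),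
      k • u₁ + σ (1 - a) • v', U.add_mem (U.smul_mem _ hu₁) (U.smul_mem _ hv'), ?_, ?_⟩
    · rw [herm_norm_add hf]
      simp only [hf.smul_left, herm_smul_right hf, hwv, hvv, ← hNdef, hN, hf.involutive, map_mul,
        map_one, hk, mul_zero, zero_add, add_zero, mul_one]
      intro h
      apply mul_ne_zero hk0 (sub_ne_zero.mpr (Ne.symm ha))
      linear_combination h
    · have h := uCentres_line hf hMK hz hz' (by rw [hp]; exact one_ne_zero) hiso
      convert h using 1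
      module
  obtain ⟨w₂, hw₂, u₂, hu₂, hw₂N, hz₂⟩ := hne
  -- every class of anisotropic parts
  have hall : ∀ w ∈ W, ∀ u ∈ U, f w w ≠ 0 → f (w + u) (w + u) = 0 → w + u ∈ C := by
    intro w hw u hu hww hiso
    have hu₂N := hnorm w₂ hw₂ u₂ hu₂ hz₂.1
    obtain ⟨c, hc⟩ := exists_norm_eq hf.ne_refl hf.involutive (t := f w w / f w₂ w₂)
      (by rw [map_div₀, herm_self_fixed hf, herm_self_fixed hf])
    have huu := hnorm w hw u hu hiso
    have hc0 : c ≠ 0 := fun h => by
      rw [h, zero_mul] at hc; exact div_ne_zero hww hw₂N hc.symm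
    have hw0 : w ≠ 0 := fun h => hww (by rw [h, herm_zero_left hf])
    have hu0 : u ≠ 0 := fun h => hww (by rw [h, herm_zero_left hf] at huu; simpa using huu.symm)
    have hw₂0 : w₂ ≠ 0 := fun h => hw₂N (by rw [h, herm_zero_left hf])
    have hu₂0 : u₂ ≠ 0 := fun h => hw₂N (by rw [h, herm_zero_left hf] at hu₂N; simpa using hu₂N.symm)
    refine htrans (c • w₂) (W.smul_mem _ hw₂) (c • u₂) (U.smul_mem _ hu₂) w hw u hu
      (smul_ne_zero hc0 hw₂0) (smul_ne_zero hc0 hu₂0) hw0 hu0 ?_ ?_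
      (by rw [← smul_add]; exact uCentres_smul hf hz₂ c)
    · rw [hf.smul_left, herm_smul_right hf, ← mul_assoc, hc, div_mul_cancel₀ _ hw₂N]
    · rw [hf.smul_left, herm_smul_right hf, ← mul_assoc, hc, hu₂N, huu, mul_neg,
        div_mul_cancel₀ _ hw₂N]
  refine hSU_le_of_utv hf (by omega) fun x hxx μ hμ => ?_
  suffices hx : x ∈ C from hx.2 μ hμ
  obtain ⟨w, hw, hxw⟩ := herm_decomp hf hW x
  rw [← add_sub_cancel w x]
  set u := x - w with hu'
  have hiso : f (w + u) (w + u) = 0 := by rwa [hu', add_sub_cancel]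
  by_cases hww : f w w = 0
  swap
  · exact hall w hw u hxw hww hiso
  have huu : f u u = 0 := by rw [hnorm w hw u hxw hiso, hww, neg_zero]
  by_cases hw0 : w = 0
  · rw [hw0, zero_add]; exact hUC u hxw huu
  by_cases hu0 : u = 0
  · rw [hu0, add_zero]; exact hWC w hw hww
  -- produce one mixed centre with isotropic parts
  have hW2 : 2 ≤ Module.finrank F W := by
    by_contra hlt
    obtain ⟨e, he, hee⟩ := exists_norm_in hf hW (by
      have := Submodule.one_le_finrank_iff.mpr hW0; omega) (map_one σ)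
    have hne : f e e ≠ 0 := by rw [hee]; exact one_ne_zero
    have hP := finrank_perp1 hf he hne
    have h0 : hperp1 hf W e = ⊥ := Submodule.finrank_eq_zero.mp (by omega)
    have hmem : w - f w e • e ∈ hperp1 hf W e := (mem_hperp1 hf).mpr
      ⟨W.sub_mem hw (W.smul_mem _ he), by rw [herm_sub_left hf, hf.smul_left, hee]; ring⟩
    rw [h0, Submodule.mem_bot, sub_eq_zero] at hmem
    rw [hmem, hf.smul_left, herm_smul_right hf, hee, mul_one] at hww
    rcases mul_eq_zero.mp hww with h | h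
    · exact hw0 (by rw [hmem, h, zero_smul])
    · exact hw0 (by rw [hmem, (map_eq_zero σ).mp h, zero_smul])
  obtain ⟨e, he, hee⟩ := exists_norm_in hf hW (by omega) (map_one σ)
  have hene : f e e ≠ 0 := by rw [hee]; exact one_ne_zero
  have hP := finrank_perp1 hf he hene
  obtain ⟨e', he', he'e⟩ := exists_norm_in hf (hnondeg_perp1 hf hW he hene) (by omega) (map_one σ)
  obtain ⟨he'W, he'o⟩ := (mem_hperp1 hf).mp he'
  obtain ⟨α, hα⟩ := exists_norm_eq hf.ne_refl hf.involutive (t := (-1 : F))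
    (by rw [map_neg, map_one])
  obtain ⟨d, hd, hdd⟩ := exists_norm_in hf hU (by omega) (show σ (-1 : F) = -1 by
    rw [map_neg, map_one])
  have hdne : f d d ≠ 0 := by rw [hdd]; simp
  have hQ := finrank_perp1 hf hd hdne
  have hα0 : α ≠ 0 := fun h => by simp [h] at hα
  set β := σ (k / α) with hβ
  obtain ⟨y, hy, hy0, hyy⟩ := exists_norm_in_ne_zero hf (hnondeg_perp1 hf hU hd hdne) (by omega)
    (t := -1 + β * σ β) (by rw [map_add, map_mul, hf.involutive, map_neg, map_one, mul_comm])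
  obtain ⟨hyU, hyd⟩ := (mem_hperp1 hf).mp hy
  -- partner vector: d' = -β d + y
  obtain ⟨d', hd'def⟩ : ∃ d', d' = -β • d + y := ⟨_, rfl⟩
  have hd'U : d' ∈ U := by rw [hd'def]; exact U.add_mem (U.smul_mem _ hd) hyU
  have hd'd : f d' d' = -1 := by
    rw [hd'def, herm_norm_add hf, hf.smul_left, herm_smul_right hf, hf.smul_left, hdd,
      herm_eq_zero_comm hf hyd, hyy, map_neg]
    simp
  have hdd' : f d d' = k / α := by
    rw [hd'def, herm_add_right hf, herm_smul_right hf, hdd, herm_eq_zero_comm hf hyd, map_neg,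
      hβ, hf.involutive]
    ring
  have hz1 : e + d ∈ C := hall e he d hd hene (by
    rw [herm_norm_add hf, hWU' e he d hd, hee, hdd, map_zero]; ring)
  have hz2 : e' + d' ∈ C := hall e' he'W d' hd'U (by rw [he'e]; exact one_ne_zero) (by
    rw [herm_norm_add hf, hWU' e' he'W d' hd'U, he'e, hd'd, map_zero]; ring)
  have hp : f (e + d) (e' + d') = k / α := by
    rw [hf.add_left, herm_add_right hf, herm_add_right hf, herm_eq_zero_comm hf he'o,
      hWU' e he d' hd'U, hUW d hd e' he'W, hdd']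
    ring
  have hiso3 : f (α • (e + d) + (1 : F) • (e' + d')) (α • (e + d) + (1 : F) • (e' + d')) = 0 := by
    rw [one_smul, herm_norm_add hf, hf.smul_left, herm_smul_right hf, hz1.1, hf.smul_left, hp,
      hz2.1, mul_div_cancel₀ _ hα0, hk]
    ring
  have h3 := uCentres_line hf hMK hz1 hz2 (by rw [hp]; exact div_ne_zero hk0 hα0) hiso3
  have hW3 : f (α • e + e') (α • e + e') = 0 := by
    rw [herm_norm_add hf, hf.smul_left, herm_smul_right hf, hee, he'e, hf.smul_left,
      herm_eq_zero_comm hf he'o, mul_one, hα]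
    simp
  have hW30 : α • e + e' ≠ 0 := fun h => by
    have h1 := congrArg (fun x => f x e) h
    simp only [hf.add_left, hf.smul_left, hee, he'o, herm_zero_left hf] at h1
    exact hα0 (by simpa using h1)
  have hU30 : α • d + d' ≠ 0 := fun h => by
    have hh : (α - β) • d + y = 0 := by rw [← h, hd'def]; module
    have h1 := congrArg (fun x => f x y) hh
    have h2 := congrArg (fun x => f x d) hh
    simp only [hf.add_left, hf.smul_left, hyd, hdd, herm_zero_left hf] at h2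
    have hαβ : α - β = 0 := by linear_combination -h2
    rw [hαβ, zero_smul, zero_add] at hh
    exact hy0 hh
  have hmix : α • e + e' + (α • d + d') ∈ C := by
    convert h3 using 1
    module
  have hU3' : f (α • d + d') (α • d + d') = 0 := by
    rw [hnorm _ (W.add_mem (W.smul_mem _ he) he'W) _ (U.add_mem (U.smul_mem _ hd) hd'U) hmix.1,
      hW3, neg_zero]
  exact htrans _ (W.add_mem (W.smul_mem _ he) he'W) _ (U.add_mem (U.smul_mem _ hd) hd'U) w hw u hxw
    hW30 hU30 hw0 hu0 (by rw [hW3, hww]) (by rw [hU3', huu]) hmix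

end CfsgLib.Classical
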