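import Cfsg.Agent.Lib.ClassicalMaxUnitarySp

/-! Quadratic rational structures: conjugation, components. -/

set_option autoImplicit false

namespace CfsgLib.Classical

open Matrix

variable {F : Type*} [Field F] {ι : Type} [Fintype ι] [DecidableEq ι] {F₀ : Subfield F}

/-- the conjugation of the rational structure -/
def ratConj (σ : F ≃+* F) (P : GL ι F) (x : ι → F) : ι → F :=
  (P : Matrix ι ι F) *ᵥ fun i => σ ((((P⁻¹ : GL ι F) : Matrix ι ι F) *ᵥ x) i)

variable {σ : F ≃+* F}

lemma ratConj_add (P : GL ι F) (x y : ι → F) :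
    ratConj σ P (x + y) = ratConj σ P x + ratConj σ P y := by
  rw [ratConj, ratConj, ratConj, ← mulVec_add, mulVec_add]
  congr 1; funext i; exact map_add σ _ _

lemma ratConj_smul (P : GL ι F) (c : F) (x : ι → F) :
    ratConj σ P (c • x) = σ c • ratConj σ P x := by
  rw [ratConj, ratConj, ← mulVec_smul, mulVec_smul]
  congr 1; funext i; exact map_mul σ _ _

variable (hfix : ∀ x : F, σ x = x ↔ x ∈ F₀)
include hfix

lemma ratConj_rvec (P : GL ι F) (u : ι → F₀) : ratConj σ P (rvec P u) = rvec P u := by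
  rw [ratConj, rvec, inv_mulVec_mulVec]
  congr 1; funext i; exact (hfix _).mpr (u i).2

omit hfix in
lemma rvec_injective (P : GL ι F) : Function.Injective (rvec P : (ι → F₀) → ι → F) := fun u v h => by
  funext i; exact Subtype.ext (congrFun (mulVec_injective P h) i)

omit hfix in
lemma rvec_ne_zero (P : GL ι F) {u : ι → F₀} (hu : u ≠ 0) : rvec P u ≠ 0 :=
  fun h => hu (rvec_injective P (by rw [h, rvec_zero]))

/-- a line stable under the conjugation is rational -/
lemma exists_rat_of_ratConj {P : GL ι F} {u : ι → F} {κ : F}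
    (h : ratConj σ P u = κ • u) : ∃ (lam : F) (r : ι → F₀), u = lam • rvec P r := by
  set v := ((P⁻¹ : GL ι F) : Matrix ι ι F) *ᵥ u with hv
  have hu : u = (P : Matrix ι ι F) *ᵥ v := by rw [hv, mulVec_inv_mulVec]
  by_cases h0 : v = 0
  · exact ⟨0, 0, by rw [hu, h0, mulVec_zero, zero_smul]⟩
  obtain ⟨i₀, hi₀⟩ := Function.ne_iff.mp h0
  have hi : v i₀ ≠ 0 := hi₀
  have hσv : ∀ i, σ (v i) = κ * v i := fun i => by
    have h1 : (fun i => σ (v i)) = κ • v := mulVec_injective P (by
      change ratConj σ P u = _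
      rw [h]
      simp only [mulVec_smul, ← hu])
    exact congrFun h1 i
  have hκ : κ ≠ 0 := fun hk => hi (by simpa [hk] using hσv i₀)
  refine ⟨v i₀, fun i => ⟨v i / v i₀, (hfix _).mp (by
    rw [map_div₀, hσv, hσv, mul_div_mul_left _ _ hκ])⟩, ?_⟩
  rw [hu, rvec, ← mulVec_smul]
  congr 1; funext i
  simp only [Pi.smul_apply, smul_eq_mul]
  field_simp

variable {θ : F} (hθ : σ θ ≠ θ) (hinv : ∀ a, σ (σ a) = a)
include hθ hinv

lemma rat_split (x : F) : ∃ a b : F₀, x = a + θ * b := by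
  have hθ0 : σ θ - θ ≠ 0 := sub_ne_zero.mpr hθ
  have hb : (σ x - x) / (σ θ - θ) ∈ F₀ := (hfix _).mp (by
    rw [map_div₀, map_sub, map_sub, hinv, hinv, ← neg_sub (σ x), ← neg_sub (σ θ), neg_div_neg_eq])
  have ha : x - θ * ((σ x - x) / (σ θ - θ)) ∈ F₀ := (hfix _).mp (by
    rw [map_sub, map_mul, (hfix _).mpr hb]; field_simp; ring)
  exact ⟨⟨_, ha⟩, ⟨_, hb⟩, by simp⟩

omit hinv in
lemma rat_unique {a b a' b' : F₀} (h : (a : F) + θ * b = a' + θ * b') : a = a' ∧ b = b' := by
  have h2 := congrArg σ h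
  simp only [map_add, map_mul, (hfix _).mpr a.2, (hfix _).mpr b.2,
    (hfix _).mpr a'.2, (hfix _).mpr b'.2] at h2
  have h3 : (σ θ - θ) * ((b : F) - b') = 0 := by linear_combination h2 - h
  have hb : b = b' :=
    Subtype.ext (sub_eq_zero.mp ((mul_eq_zero.mp h3).resolve_left (sub_ne_zero.mpr hθ)))
  subst hb
  exact ⟨Subtype.ext (add_right_cancel h), rfl⟩

lemma rvec_split (P : GL ι F) (z : ι → F) : ∃ a b : ι → F₀, z = rvec P a + θ • rvec P b := by
  choose a b hab using fun i => rat_split hfix hθ hinv ((((P⁻¹ : GL ι F) : Matrix ι ι F) *ᵥ z) i)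
  refine ⟨a, b, ?_⟩
  rw [rvec, rvec, ← mulVec_smul, ← mulVec_add]
  conv_lhs => rw [← mulVec_inv_mulVec P z]
  congr 1; funext i; simp only [Pi.add_apply, Pi.smul_apply, smul_eq_mul]; exact hab i

omit hinv in
lemma rvec_unique {P : GL ι F} {a b a' b' : ι → F₀}
    (h : rvec P a + θ • rvec P b = rvec P a' + θ • rvec P b') : a = a' ∧ b = b' := by
  have h' : ∀ i, (a i : F) + θ * b i = a' i + θ * b' i := fun i => by
    have := congrFun (mulVec_injective P (a₁ := (fun i => (a i : F)) + θ • fun i => (b i : F))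
      (a₂ := (fun i => (a' i : F)) + θ • fun i => (b' i : F)) (by
        simp only [mulVec_add, mulVec_smul]; exact h)) i
    simpa using this
  exact ⟨funext fun i => (rat_unique hfix hθ (h' i)).1, funext fun i => (rat_unique hfix hθ (h' i)).2⟩

end CfsgLib.Classical
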