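import Cfsg.Agent.Lib.ClassicalMaxUnitary
import Cfsg.Agent.Lib.ClassicalRatStruct
import Cfsg.Agent.Lib.ClassicalSymm

/-! The orthogonal subgroups are maximal in SU (odd q). -/

set_option autoImplicit false

namespace CfsgLib.Classical

open Matrix

variable {F : Type*} [Field F] [Finite F] {ι : Type} [Fintype ι] [DecidableEq ι] {σ : F ≃+* F}
  {f : (ι → F) → (ι → F) → F} {F₀ : Subfield F}

/-- Eichler element, odd characteristic -/
noncomputable def eE (f : (ι → F) → (ι → F) → F) (w a : ι → F) : GL ι F :=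
  etv f w a (2⁻¹ * f a a)

variable (hf : Cfsg.Geo.IsUnitaryForm σ f)
include hf

omit [Finite F] in
lemma eE_mulVec (h2 : (2 : F) ≠ 0) {w a : ι → F} (hw : f w w = 0) (haw : f a w = 0) (x : ι → F) :
    (eE f w a : Matrix ι ι F) *ᵥ x =
      x + (f x a - 2⁻¹ * f a a * f x w) • w - f x w • a := by
  rw [eE, etv_mulVec hf hw haw]
  congr 2
  congr 1
  field_simp
  ring

omit [Finite F] in
lemma eE_mem_hSU (h2 : (2 : F) ≠ 0) {w a : ι → F} (hw : f w w = 0) (haw : f a w = 0) :
    eE f w a ∈ hSU f := by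
  have hσ : σ (2⁻¹ : F) = 2⁻¹ := by rw [map_inv₀, map_ofNat]
  have := etv_mem_hSU hf hw haw (δ := 2⁻¹) (by rw [hσ]; field_simp; norm_num)
  rwa [hσ] at this

omit [Finite F] in
lemma eE_conj (h2 : (2 : F) ≠ 0) {g : GL ι F} (hg : g ∈ hIso f) {w a : ι → F} (hw : f w w = 0)
    (haw : f a w = 0) :
    g * eE f w a * g⁻¹ = eE f ((g : Matrix ι ι F) *ᵥ w) ((g : Matrix ι ι F) *ᵥ a) := by
  rw [mul_inv_eq_iff_eq_mul]
  refine gl_ext_mulVec fun x => ?_
  rw [Units.val_mul, Units.val_mul, ← mulVec_mulVec, ← mulVec_mulVec, eE_mulVec hf h2 hw haw,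
    eE_mulVec hf h2 (by rw [mem_hIso.mp hg, hw]) (by rw [mem_hIso.mp hg, haw]), mulVec_sub,
    mulVec_add, mulVec_smul, mulVec_smul, mem_hIso.mp hg, mem_hIso.mp hg, mem_hIso.mp hg]

omit [Finite F] in
lemma eE_fix_self (h2 : (2 : F) ≠ 0) {w a : ι → F} (hw : f w w = 0) (haw : f a w = 0) :
    (eE f w a : Matrix ι ι F) *ᵥ w = w := by
  rw [eE_mulVec hf h2 hw haw, hw, herm_eq_zero_comm hf haw]
  simp

omit [Finite F] in
lemma eE_mul (h2 : (2 : F) ≠ 0) {w a b : ι → F} (hw : f w w = 0) (haw : f a w = 0)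
    (hbw : f b w = 0) :
    eE f w a * eE f w b = eE f w (a + b) * utv f w (2⁻¹ * (f a b - f b a)) := by
  refine gl_ext_mulVec fun x => ?_
  have hwa : f w a = 0 := herm_eq_zero_comm hf haw
  have hwb : f w b = 0 := herm_eq_zero_comm hf hbw
  have hab : f (a + b) w = 0 := by rw [hf.add_left, haw, hbw, add_zero]
  rw [Units.val_mul, Units.val_mul, ← mulVec_mulVec, ← mulVec_mulVec, eE_mulVec hf h2 hw hbw,
    eE_mulVec hf h2 hw haw, utv_mulVec hf hw, eE_mulVec hf h2 hw hab]
  simp only [hf.add_left, herm_add_right hf, herm_sub_left hf, hf.smul_left, hw, hwa, hwb,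
    haw, hbw]
  match_scalars <;> field_simp <;> ring

omit [Finite F] in
lemma skew_half_diff (a b : ι → F) : σ (2⁻¹ * (f a b - f b a)) = -(2⁻¹ * (f a b - f b a)) := by
  rw [map_mul, map_inv₀, map_ofNat, map_sub, ← hf.herm, ← hf.herm]; ring

/-- the orthogonal subgroup is maximal in SU -/
theorem isMaximalIn_unitaryOrthogonal (h11 : 11 ≤ Fintype.card ι) (h2 : (2 : F) ≠ 0)
    (hfix : ∀ x : F, σ x = x ↔ x ∈ F₀) (P : GL ι F)
    (hP : Cfsg.Geo.IsFormRationalStructure f F₀ 1 P) :
    Cfsg.Geo.IsMaximalIn (hSU f) (Cfsg.Geo.subfieldSubgroup F₀ P ⊓ hSU f) := by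
  classical
  haveI : Nonempty ι := Fintype.card_pos_iff.mp (by omega)
  obtain ⟨θ, hθ0, hθs⟩ := exists_skew hf.ne_refl hf.involutive
  have hθ : σ θ ≠ θ := fun h => by
    rw [hθs, neg_eq_iff_add_eq_zero, ← two_mul] at h
    exact hθ0 ((mul_eq_zero.mp h).resolve_left h2)
  have h20 : (2 : F₀) ≠ 0 := fun h => h2 (by
    have := congrArg F₀.subtype h; rwa [map_ofNat, map_zero] at this)
  have hσ2 : σ (2⁻¹ : F) = 2⁻¹ := by rw [map_inv₀, map_ofNat]
  set r : (ι → F₀) → (ι → F) := rvec P with hr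
  have hmemF : ∀ u v, f (r u) (r v) ∈ F₀ := fun u v => by
    have := hP _ _ (fun i => (u i).2) (fun i => (v i).2)
    rwa [one_mul] at this
  have hsymm : ∀ u v, f (r v) (r u) = f (r u) (r v) := fun u v => by
    rw [hf.herm, (hfix _).mpr (hmemF u v)]
  -- the symmetric form
  let ω : LinearMap.BilinForm F₀ (ι → F₀) := LinearMap.mk₂ F₀ (fun u v => ⟨f (r u) (r v), hmemF u v⟩)
    (fun x y v => Subtype.ext (by simp [hr, rvec_add, hf.add_left]))
    (fun c x v => Subtype.ext (by simp [hr, rvec_smul, hf.smul_left]))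
    (fun v x y => Subtype.ext (by simp [hr, rvec_add, herm_add_right hf]))
    (fun c v x => Subtype.ext (by simp [hr, rvec_smul, herm_smul_right hf, (hfix _).mpr c.2]))
  have hωf : ∀ u v, (ω u v : F) = f (r u) (r v) := fun u v => rfl
  have hω0 : ∀ {u v}, ω u v = 0 → f (r u) (r v) = 0 := fun {u v} h => by
    rw [← hωf, h]; rfl
  have hωs : ∀ u v, ω u v = ω v u := fun u v => Subtype.ext (hsymm v u)
  have hrne : ∀ {u : ι → F₀}, u ≠ 0 → r u ≠ 0 := fun {u} hu => rvec_ne_zero P hu
  have hωnd : SNondeg ω ⊤ := by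
    intro v _ hv
    obtain ⟨x, hx⟩ := (hf.nondegenerate _ (hrne hv)).1
    by_contra! h
    apply hx
    obtain ⟨a, b, rfl⟩ := rvec_split hfix hθ hf.involutive P x
    first
      | rw [hf.add_left, hf.smul_left, herm_eq_zero_comm hf (hω0 (h a trivial)),
          herm_eq_zero_comm hf (hω0 (h b trivial))]; ring
      | rw [herm_add_right hf, herm_smul_right hf, hω0 (h a trivial), hω0 (h b trivial)]; ring
  -- values
  have hval : ∀ (S : Submodule F₀ (ι → F₀)) (q : ι → F₀), q ∉ S → ∀ t : F₀,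
      ∃ c, (∀ s ∈ S, ω c s = 0) ∧ ω c q = t := by
    intro S q hq t
    obtain ⟨l, hl, hlS⟩ := Submodule.exists_dual_map_eq_bot_of_notMem hq inferInstance
    have hinj : Function.Injective ω := by
      rw [injective_iff_map_eq_zero]
      intro v hv
      by_contra hv0
      obtain ⟨x, -, hx⟩ := hωnd v trivial hv0
      exact hx (by rw [hv]; rfl)
    obtain ⟨c, hc⟩ := (LinearMap.injective_iff_surjective_of_finrank_eq_finrank
      (by rw [Subspace.dual_finrank_eq])).mp hinj ((t / l q) • l)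
    refine ⟨c, fun s hs => ?_, ?_⟩
    · have : l s ∈ S.map l := ⟨s, hs, rfl⟩
      rw [hlS, Submodule.mem_bot] at this
      simp [hc, this]
    · simp [hc, div_mul_cancel₀ _ hl]
  have hinj : Function.Injective ω := by
    rw [injective_iff_map_eq_zero]
    intro v hv
    by_contra hv0
    obtain ⟨x, -, hx⟩ := hωnd v trivial hv0
    exact hx (by rw [hv]; rfl)
  have hKdim : ∀ S : Submodule F₀ (ι → F₀),
      Module.finrank F₀ (S.dualAnnihilator.comap ω : Submodule F₀ (ι → F₀)) + Module.finrank F₀ S =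
        Fintype.card ι := by
    intro S
    have h4 := Subspace.finrank_add_finrank_dualAnnihilator_eq S
    have h6 := (Submodule.equivMapOfInjective ω hinj (S.dualAnnihilator.comap ω)).finrank_eq
    rw [Submodule.map_comap_eq_of_surjective
      ((LinearMap.injective_iff_surjective_of_finrank_eq_finrank
        (by rw [Subspace.dual_finrank_eq])).mp hinj)] at h6
    have h7 : Module.finrank F₀ (S.dualAnnihilator.comap ω : Submodule F₀ (ι → F₀)) =
        Module.finrank F₀ S.dualAnnihilator := h6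
    rw [h7, add_comm, h4, Module.finrank_pi]
  -- a non-degenerate part of a large subspace
  have hbig : ∀ K : Submodule F₀ (ι → F₀), ∃ X ≤ K, SNondeg ω X ∧
      2 * Module.finrank F₀ K ≤ Module.finrank F₀ X + Fintype.card ι := by
    intro K
    obtain ⟨X, hXK, hX, hdec⟩ := exists_snondeg_part hωs K
    let R : Submodule F₀ (ι → F₀) := K.dualAnnihilator.comap ω
    have hle : K ≤ R ⊔ X := fun x hx => by
      obtain ⟨rr, hr0, -, hrX⟩ := hdec x hx
      exact Submodule.mem_sup.mpr ⟨rr, (Submodule.mem_dualAnnihilator _).mpr hr0, x - rr, hrX,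
        by abel⟩
    have h1 := Submodule.finrank_mono hle
    have h3 := Submodule.finrank_add_le_finrank_add_finrank R X
    have h4 : Module.finrank F₀ R + Module.finrank F₀ K = Fintype.card ι := hKdim K
    exact ⟨X, hXK, hX, by omega⟩
  -- isotropic vectors orthogonal to few vectors
  have hisoorth : ∀ S : Submodule F₀ (ι → F₀), Module.finrank F₀ S ≤ 4 →
      ∃ z, ω z z = 0 ∧ (∀ s ∈ S, ω z s = 0) ∧ z ∉ S := by
    intro S hS
    let K : Submodule F₀ (ι → F₀) := S.dualAnnihilator.comap ω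
    have hK : Module.finrank F₀ K + Module.finrank F₀ S = Fintype.card ι := hKdim S
    obtain ⟨X, hXK, hX, hdim⟩ := hbig K
    obtain ⟨z, hz, hz0, hzz⟩ := exists_siso hωs h20 hX (by omega)
    have hzS : ∀ s ∈ S, ω z s = 0 := (Submodule.mem_dualAnnihilator _).mp (hXK hz)
    refine ⟨z, hzz, hzS, fun hzmem => ?_⟩
    obtain ⟨x, hx, hzx⟩ := hX z hz hz0
    exact hzx (by rw [hωs]; exact (Submodule.mem_dualAnnihilator _).mp (hXK hx) z hzmem)
  have hspan1 : ∀ a : ι → F₀, Module.finrank F₀ (Submodule.span F₀ {a}) ≤ 1 := fun a => by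
    have := finrank_span_le_card (R := F₀) ({a} : Set (ι → F₀))
    simpa using this
  have hspan4 : ∀ v : Fin 4 → (ι → F₀), Module.finrank F₀ (Submodule.span F₀ (Set.range v)) ≤ 4 :=
    fun v => le_trans (finrank_range_le_card v) (by simp)
  obtain ⟨w₀, hw₀w, -, hw₀⟩ := hisoorth ⊥ (by simp)
  have hw₀0 : w₀ ≠ 0 := fun h => hw₀ (by rw [h]; exact Submodule.zero_mem _)
  -- every vector is seen by an isotropic one
  have hsee : ∀ y : ι → F₀, y ≠ 0 → ∀ t : ι → F₀, ω t t = 0 → t ≠ 0 →
      ∃ z, ω z z = 0 ∧ ω z y ≠ 0 ∨ ω t y ≠ 0 ∧ z = t := by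
    intro y hy t ht ht0
    by_cases hty : ω t y = 0
    swap
    · exact ⟨t, Or.inr ⟨hty, rfl⟩⟩
    obtain ⟨x, -, hxy, hxt⟩ : ∃ x, x ∈ (⊤ : Submodule F₀ (ι → F₀)) ∧ ω y x ≠ 0 ∧ ω t x ≠ 0 := by
      obtain ⟨p, hp, hyp⟩ := hωnd y trivial hy
      obtain ⟨q, hq, htq⟩ := hωnd t trivial ht0
      by_cases h1 : ω t p = 0
      · by_cases h2' : ω y q = 0
        · exact ⟨p + q, trivial, by rw [map_add, h2', add_zero]; exact hyp,
            by rw [map_add, h1, zero_add]; exact htq⟩
        · exact ⟨q, trivial, h2', htq⟩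
      · exact ⟨p, trivial, hyp, h1⟩
    refine ⟨x + (-(ω x x) / (2 * ω t x)) • t, Or.inl ⟨?_, ?_⟩⟩
    · rw [snorm_add hωs]
      simp only [map_smul, LinearMap.smul_apply, smul_eq_mul, ht, hωs x t]
      field_simp
      ring
    · simp only [map_add, map_smul, LinearMap.add_apply, LinearMap.smul_apply, smul_eq_mul, hty,
        hωs x y]
      simpa using hxy
  have hsee' : ∀ y : ι → F₀, y ≠ 0 → ∃ z, ω z z = 0 ∧ ω z y ≠ 0 := fun y hy => by
    obtain ⟨z, h | ⟨h, rfl⟩⟩ := hsee y hy w₀ hw₀w hw₀0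
    · exact ⟨z, h⟩
    · exact ⟨z, hw₀w, h⟩
  -- a common non-orthogonal isotropic vector
  have hcommon : ∀ v v', ω v v = 0 → v ≠ 0 → ω v' v' = 0 → v' ≠ 0 →
      ∃ z, ω z z = 0 ∧ ω z v ≠ 0 ∧ ω z v' ≠ 0 := by
    intro v v' hv hv0 hv' hv'0
    by_cases hc : ω v v' = 0
    · obtain ⟨x, hvx, hv'x⟩ : ∃ x, ω v x ≠ 0 ∧ ω v' x ≠ 0 := by
        obtain ⟨p, -, hp⟩ := hωnd v trivial hv0
        obtain ⟨q, -, hq⟩ := hωnd v' trivial hv'0
        by_cases h1 : ω v' p = 0
        · by_cases h2' : ω v q = 0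
          · exact ⟨p + q, by rw [map_add, h2', add_zero]; exact hp,
              by rw [map_add, h1, zero_add]; exact hq⟩
          · exact ⟨q, h2', hq⟩
        · exact ⟨p, hp, h1⟩
      refine ⟨x + (-(ω x x) / (2 * ω v x)) • v, ?_, ?_, ?_⟩
      · rw [snorm_add hωs]
        simp only [map_smul, LinearMap.smul_apply, smul_eq_mul, hv, hωs x v]
        field_simp
        ring
      · rw [map_add, map_smul, LinearMap.add_apply, LinearMap.smul_apply, hv, smul_zero, add_zero,
          hωs]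
        exact hvx
      · rw [map_add, map_smul, LinearMap.add_apply, LinearMap.smul_apply, hc, smul_zero, add_zero,
          hωs]
        exact hv'x
    · set K : Submodule F₀ (ι → F₀) := (Submodule.span F₀ (Set.range ![v, v'])).dualAnnihilator.comap ω
      have hKn : SNondeg ω K := by
        intro p hp hp0
        obtain ⟨x, -, hpx⟩ := hωnd p trivial hp0
        have hpv : ω p v = 0 :=
          (Submodule.mem_dualAnnihilator _).mp hp v (Submodule.subset_span ⟨0, rfl⟩)
        have hpv' : ω p v' = 0 :=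
          (Submodule.mem_dualAnnihilator _).mp hp v' (Submodule.subset_span ⟨1, rfl⟩)
        refine ⟨x - (ω x v' / ω v v') • v - (ω x v / ω v v') • v', ?_, ?_⟩
        · refine (Submodule.mem_dualAnnihilator _).mpr fun s hs => ?_
          obtain ⟨cc, rfl⟩ := (Submodule.mem_span_range_iff_exists_fun F₀).mp hs
          simp only [Fin.sum_univ_two, Matrix.cons_val_zero, Matrix.cons_val_one, map_add, map_smul,
            map_sub, LinearMap.sub_apply, LinearMap.smul_apply, smul_eq_mul, hv, hv', hωs v' v]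
          field_simp
          ring
        · simpa [map_sub, hpv, hpv'] using hpx
      have hK : 2 ≤ Module.finrank F₀ K := by
        have h4 : Module.finrank F₀ K + _ = Fintype.card ι :=
          hKdim (Submodule.span F₀ (Set.range ![v, v']))
        have : Module.finrank F₀ (Submodule.span F₀ (Set.range ![v, v'])) ≤ 2 :=
          le_trans (finrank_range_le_card _) (by simp)
        omega
      obtain ⟨d, hd, hdd⟩ := exists_svalue hωs h20 hKn hK (-(2 * ω v v'))
      have hdv : ω d v = 0 :=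
        (Submodule.mem_dualAnnihilator _).mp hd v (Submodule.subset_span ⟨0, rfl⟩)
      have hdv' : ω d v' = 0 :=
        (Submodule.mem_dualAnnihilator _).mp hd v' (Submodule.subset_span ⟨1, rfl⟩)
      refine ⟨v + v' + d, ?_, ?_, ?_⟩
      · simp only [map_add, LinearMap.add_apply, hv, hv', hdd, hdv, hdv', hωs v d, hωs v' d,
          hωs v' v]
        ring
      · simp only [map_add, LinearMap.add_apply, hv, hdv, hωs v' v]
        simpa using hc
      · simp only [map_add, LinearMap.add_apply, hv', hdv']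
        simpa using hc
  -- the elements of the orthogonal group we use
  have hrat : ∀ w a : ι → F₀, ω w w = 0 → ω a w = 0 → ∀ x, (eE f (r w) (r a) : Matrix ι ι F) *ᵥ r x
      = r (x + (ω x a - 2⁻¹ * ω a a * ω x w) • w - ω x w • a) := by
    intro w a hw ha x
    rw [eE_mulVec hf h2 (hω0 hw) (hω0 ha)]
    simp only [hr, sub_eq_add_neg, ← neg_smul, rvec_add, rvec_smul, Subfield.coe_mul,
      Subfield.coe_neg, Subfield.coe_add, Subfield.coe_inv, hωf]
    congr 2
  have hEH : ∀ w a : ι → F₀, ω w w = 0 → ω a w = 0 →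
      eE f (r w) (r a) ∈ Cfsg.Geo.subfieldSubgroup F₀ P ⊓ hSU f := fun w a hw ha =>
    ⟨mem_subfieldSubgroup_of_lines hfix fun x => ⟨1, _, by rw [one_smul]; exact hrat w a hw ha x⟩,
      eE_mem_hSU hf h2 (hω0 hw) (hω0 ha)⟩
  refine isMaximalIn_of inf_le_right ?_ ?_
  · intro hle
    obtain ⟨v, hv, hvw⟩ := hsee' w₀ hw₀0
    obtain ⟨lam, u, hu⟩ :=
      exists_rat_of_mem_subfieldSubgroup (hle (utv_mem_hSU hf (hω0 hw₀w) hθs)).1 v
    rw [utv_mulVec hf (hω0 hw₀w), ← hωf] at hu
    obtain ⟨s, t, hst⟩ := rat_split hfix hθ hf.involutive lam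
    rw [hst, add_smul, mul_smul, ← rvec_smul, ← rvec_smul, mul_smul, ← rvec_smul] at hu
    obtain ⟨e1, e2⟩ := rvec_unique hfix hθ hu
    by_cases ht : t = 0
    · rw [ht, zero_smul] at e2; exact smul_ne_zero hvw hw₀0 e2
    · have : v = (s / t * ω v w₀) • w₀ := by
        rw [mul_smul, e2, smul_smul, div_mul_cancel₀ _ ht, e1]
      apply hvw
      rw [this, map_smul, LinearMap.smul_apply, hw₀w, smul_zero]
  intro M hHM hMK g hgM hgH
  have hgi := (hMK hgM).1
  have hEM : ∀ w a : ι → F₀, ω w w = 0 → ω a w = 0 → eE f (r w) (r a) ∈ M :=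
    fun w a hw ha => hHM (hEH w a hw ha)
  -- some conjugate moves the rational vectors
  obtain ⟨w', a', hw', ha', hbad⟩ : ∃ w a : ι → F₀, ω w w = 0 ∧ ω a w = 0 ∧
      ∃ x, ∀ y, (eE f ((g : Matrix ι ι F) *ᵥ r w) ((g : Matrix ι ι F) *ᵥ r a) : Matrix ι ι F) *ᵥ r x
        ≠ r y := by
    by_contra! hall
    have hiso : ∀ w, ω w w = 0 → ∃ (lam : F) (u : ι → F₀),
        (g : Matrix ι ι F) *ᵥ r w = lam • r u := by
      intro w hw
      by_cases hw0 : w = 0
      · exact ⟨0, 0, by rw [hw0, hr, rvec_zero, mulVec_zero, zero_smul]⟩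
      suffices hex : ∃ κ : F, ratConj σ P ((g : Matrix ι ι F) *ᵥ r w) = κ • ((g : Matrix ι ι F) *ᵥ r w) by
        obtain ⟨κ, hκ⟩ := hex
        exact exists_rat_of_ratConj hfix hκ
      set u := (g : Matrix ι ι F) *ᵥ r w with hu
      have huu : f u u = 0 := by rw [hu, mem_hIso.mp hgi, hω0 hw]
      -- two further vectors
      obtain ⟨z, -, hzS, hza⟩ := hisoorth (Submodule.span F₀ {w}) (le_trans (hspan1 w) (by omega))
      have hzw : ω z w = 0 := hzS _ (Submodule.mem_span_singleton_self w)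
      obtain ⟨z', -, hz'S, hz'a⟩ := hisoorth (Submodule.span F₀ (Set.range ![w, z, w, z])) (hspan4 _)
      have hz'w : ω z' w = 0 := hz'S _ (Submodule.subset_span ⟨0, rfl⟩)
      -- the key containment
      have key : ∀ a, ω a w = 0 → a ∉ Submodule.span F₀ {w} →
          ∃ α β : F, ratConj σ P u = α • u + β • ((g : Matrix ι ι F) *ᵥ r a) := by
        intro a ha hane
        set c := (g : Matrix ι ι F) *ᵥ r a with hc
        have hcu : f c u = 0 := by rw [hu, hc, mem_hIso.mp hgi, hω0 ha]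
        set E := (eE f u c : Matrix ι ι F) with hE
        have hcomm : ∀ x, ratConj σ P (E *ᵥ x) = E *ᵥ ratConj σ P x := by
          intro x
          obtain ⟨p, q, rfl⟩ := rvec_split hfix hθ hf.involutive P x
          obtain ⟨p', hp'⟩ := hall w a hw ha p
          obtain ⟨q', hq'⟩ := hall w a hw ha q
          rw [mulVec_add, mulVec_smul, ratConj_add, ratConj_smul, ratConj_add, ratConj_smul,
            mulVec_add, mulVec_smul]
          change ratConj σ P (E *ᵥ r p) + σ θ • ratConj σ P (E *ᵥ r q) = _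
          rw [hp', hq', hr, ratConj_rvec hfix, ratConj_rvec hfix, ratConj_rvec hfix,
            ratConj_rvec hfix, ← hr, ← hp', ← hq']
        have hli : LinearIndependent F ![u, c] := by
          rw [LinearIndependent.pair_iff]
          intro s t hst
          rw [hu, hc, ← mulVec_smul, ← mulVec_smul, ← mulVec_add] at hst
          have h1 := mulVec_injective g (hst.trans (mulVec_zero _).symm)
          obtain ⟨s0, s1, hs⟩ := rat_split hfix hθ hf.involutive s
          obtain ⟨t0, t1, ht⟩ := rat_split hfix hθ hf.involutive t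
          rw [hs, ht] at h1
          have h1' : rvec P (s0 • w + t0 • a) + θ • rvec P (s1 • w + t1 • a) =
              rvec P (0 : ι → F₀) + θ • rvec P (0 : ι → F₀) := by
            rw [rvec_add, rvec_add, rvec_smul, rvec_smul, rvec_smul, rvec_smul, rvec_zero,
              smul_zero, add_zero, ← h1]
            simp only [hr]
            module
          obtain ⟨e1, e2⟩ := rvec_unique hfix hθ h1'
          have hz : ∀ s t : F₀, s • w + t • a = 0 → s = 0 ∧ t = 0 := by
            intro s t h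
            have ht : t = 0 := by
              by_contra ht
              apply hane
              refine Submodule.mem_span_singleton.mpr ⟨-(s / t), ?_⟩
              rw [neg_smul]
              have h2 := congrArg (t⁻¹ • ·) h
              simp only [smul_add, smul_smul, inv_mul_cancel₀ ht, one_smul, smul_zero] at h2
              rw [div_eq_inv_mul]
              exact (eq_neg_of_add_eq_zero_right h2).symm
            rw [ht, zero_smul, add_zero] at h
            exact ⟨(smul_eq_zero.mp h).resolve_right hw0, ht⟩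
          rw [hs, ht, (hz _ _ e1).1, (hz _ _ e2).1, (hz _ _ e1).2, (hz _ _ e2).2]
          simp
        obtain ⟨z1, hz1⟩ := exists_values hf hli ![0, 1]
        have hz1u : f z1 u = 0 := hz1 0
        have hz1c : f z1 c = 1 := hz1 1
        have hL : E *ᵥ z1 = z1 + u := by
          rw [hE, eE_mulVec hf h2 huu hcu, hz1u, hz1c]; simp
        have h2' := hcomm z1
        rw [hL, ratConj_add, hE, eE_mulVec hf h2 huu hcu, add_sub_assoc, _root_.add_right_inj] at h2'
        refine ⟨f (ratConj σ P z1) c - 2⁻¹ * f c c * f (ratConj σ P z1) u, -f (ratConj σ P z1) u, ?_⟩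
        rw [h2']; module
      obtain ⟨α, β, hαβ⟩ := key z hzw hza
      obtain ⟨α', β', hαβ'⟩ := key z' hz'w (fun h => hz'a (Submodule.span_mono (by simp) h))
      have hβ : β = 0 := by
        have h0 : (g : Matrix ι ι F) *ᵥ ((α - α') • r w + β • r z + (-β') • r z') = 0 := by
          rw [mulVec_add, mulVec_add, mulVec_smul, mulVec_smul, mulVec_smul, ← hu]
          rw [hαβ'] at hαβ
          have := sub_eq_zero.mpr hαβ
          rw [← neg_eq_zero] at this
          rw [← this]; module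
        have h1 := mulVec_injective g (h0.trans (mulVec_zero _).symm)
        obtain ⟨s0, s1, hs⟩ := rat_split hfix hθ hf.involutive (α - α')
        obtain ⟨t0, t1, ht⟩ := rat_split hfix hθ hf.involutive β
        obtain ⟨k0, k1, hk⟩ := rat_split hfix hθ hf.involutive (-β')
        rw [hs, ht, hk] at h1
        have h1' : rvec P (s0 • w + t0 • z + k0 • z') + θ • rvec P (s1 • w + t1 • z + k1 • z') =
            rvec P (0 : ι → F₀) + θ • rvec P (0 : ι → F₀) := by
          simp only [rvec_add, rvec_smul, rvec_zero, smul_zero, add_zero]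
          rw [← h1]; simp only [hr]; module
        obtain ⟨e1, e2⟩ := rvec_unique hfix hθ h1'
        have hz : ∀ s t k : F₀, s • w + t • z + k • z' = 0 → t = 0 := by
          intro s t k h
          have hk : k = 0 := by
            by_contra hk
            apply hz'a
            have h3 : z' = (-(s / k)) • w + (-(t / k)) • z := by
              have h4 := congrArg (k⁻¹ • ·) h
              simp only [smul_add, smul_smul, inv_mul_cancel₀ hk, one_smul, smul_zero] at h4
              rw [eq_neg_of_add_eq_zero_right h4, div_eq_inv_mul, div_eq_inv_mul]; module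
            rw [h3]
            exact Submodule.add_mem _ (Submodule.smul_mem _ _ (Submodule.subset_span ⟨0, rfl⟩))
              (Submodule.smul_mem _ _ (Submodule.subset_span ⟨1, rfl⟩))
          by_contra ht0
          apply hza
          rw [hk, zero_smul, add_zero] at h
          refine Submodule.mem_span_singleton.mpr ⟨-(s / t), ?_⟩
          have h4 := congrArg (t⁻¹ • ·) h
          simp only [smul_add, smul_smul, inv_mul_cancel₀ ht0, one_smul, smul_zero] at h4
          rw [eq_neg_of_add_eq_zero_right h4, div_eq_inv_mul, neg_smul]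
        rw [ht, hz _ _ _ e1, hz _ _ _ e2]
        simp
      exact ⟨α, by rw [hαβ, hβ, zero_smul, add_zero]⟩
    -- all scalars agree
    choose lam uu huu using hiso
    have hne : ∀ w hw, w ≠ 0 → lam w hw ≠ 0 := fun w hw hw0 h => hrne hw0 (mulVec_injective g (by
      simp only
      rw [huu w hw, h, zero_smul, mulVec_zero]))
    have hrel : ∀ w hw v hv, ω w v ≠ 0 → lam w hw * σ (lam v hv) ∈ F₀ := by
      intro w hw v hv hwv
      have h1 : lam w hw * σ (lam v hv) * (ω (uu w hw) (uu v hv) : F) = (ω w v : F) := by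
        rw [hωf, hωf, mul_assoc, ← herm_smul_right hf, ← hf.smul_left, ← huu, ← huu,
          mem_hIso.mp hgi]
      have hne' : (ω (uu w hw) (uu v hv) : F) ≠ 0 := fun h => by
        rw [h, mul_zero] at h1
        exact hwv (Subtype.ext h1.symm)
      rw [eq_div_of_mul_eq hne' h1]
      exact div_mem (ω w v).2 (ω (uu w hw) (uu v hv)).2
    obtain ⟨L, hL⟩ : ∃ L, L = lam w₀ hw₀w := ⟨_, rfl⟩
    have hscal : ∀ w (hw : ω w w = 0), ∃ y, (g : Matrix ι ι F) *ᵥ r w = L • r y := by
      intro w hw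
      by_cases hw0 : w = 0
      · exact ⟨0, by rw [hw0, hr, rvec_zero, mulVec_zero, smul_zero]⟩
      obtain ⟨z, hz, hzw, hzw₀⟩ := hcommon w w₀ hw hw0 hw₀w hw₀0
      have hz0 : z ≠ 0 := fun h => hzw (by rw [h]; simp)
      have hrat' : lam w hw / L ∈ F₀ := by
        have h1 := hrel w hw z hz (by rw [hωs]; exact hzw)
        have h2' := hrel w₀ hw₀w z hz (by rw [hωs]; exact hzw₀)
        rw [← hL] at h2'
        have hσz : σ (lam z hz) ≠ 0 := (map_ne_zero σ).mpr (hne z hz hz0)
        rw [show lam w hw / L = lam w hw * σ (lam z hz) / (L * σ (lam z hz)) by field_simp]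
        exact div_mem h1 h2'
      have hL0 : L ≠ 0 := hL ▸ hne w₀ hw₀w hw₀0
      refine ⟨(⟨_, hrat'⟩ : F₀) • uu w hw, ?_⟩
      rw [huu w hw, hr, rvec_smul, smul_smul]
      congr 1
      simp only
      field_simp
    refine hgH ⟨mem_subfieldSubgroup_of_lines hfix fun y => ⟨L, ?_⟩, hMK hgM⟩
    by_cases hy0 : y = 0
    · exact ⟨0, by rw [hy0, rvec_zero, mulVec_zero, smul_zero]⟩
    obtain ⟨z, hz, hzy⟩ := hsee' y hy0
    set a := -(ω y y) / (2 * ω z y) with ha
    obtain ⟨y1, hy1⟩ := hscal (y + a • z) (by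
      rw [snorm_add hωs]
      simp only [map_smul, LinearMap.smul_apply, smul_eq_mul, hz, hωs y z, ha]
      field_simp
      ring)
    obtain ⟨z1, hz1⟩ := hscal z hz
    refine ⟨y1 - a • z1, ?_⟩
    change (g : Matrix ι ι F) *ᵥ r y = _
    have e : y = (y + a • z) - a • z := by abel
    conv_lhs => rw [e]
    simp only [hr, sub_eq_add_neg, ← neg_smul, rvec_add, rvec_smul, mulVec_add, mulVec_smul] at hy1 hz1 ⊢
    rw [hy1, hz1]
    module
  obtain ⟨x₀, hx₀⟩ := hbad
  set u := (g : Matrix ι ι F) *ᵥ r w' with hu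
  set c := (g : Matrix ι ι F) *ᵥ r a' with hc
  have huu : f u u = 0 := by rw [hu, mem_hIso.mp hgi, hω0 hw']
  have hcu : f c u = 0 := by rw [hu, hc, mem_hIso.mp hgi, hω0 ha']
  have hEgM : eE f u c ∈ M := by
    rw [hu, hc, ← eE_conj hf h2 hgi (hω0 hw') (hω0 ha')]
    exact M.mul_mem (M.mul_mem hgM (hEM w' a' hw' ha')) (M.inv_mem hgM)
  -- rational vectors fixed by it
  obtain ⟨p1, q1, hp1⟩ := rvec_split hfix hθ hf.involutive P u
  obtain ⟨p2, q2, hp2⟩ := rvec_split hfix hθ hf.involutive P c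
  set S4 := Submodule.span F₀ (Set.range ![p1, q1, p2, q2])
  have hfixed : ∀ z, (∀ s ∈ S4, ω z s = 0) → (eE f u c : Matrix ι ι F) *ᵥ r z = r z := by
    intro z hz
    have h0 : ∀ i, f (r z) (r (![p1, q1, p2, q2] i)) = 0 := fun i =>
      hω0 (hz _ (Submodule.subset_span ⟨i, rfl⟩))
    have hzu : f (r z) u = 0 := by
      rw [hp1, herm_add_right hf, herm_smul_right hf]
      change f (r z) (r p1) + σ θ * f (r z) (r q1) = 0
      rw [show f (r z) (r p1) = 0 from h0 0, show f (r z) (r q1) = 0 from h0 1]; ring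
    have hzc : f (r z) c = 0 := by
      rw [hp2, herm_add_right hf, herm_smul_right hf]
      change f (r z) (r p2) + σ θ * f (r z) (r q2) = 0
      rw [show f (r z) (r p2) = 0 from h0 2, show f (r z) (r q2) = 0 from h0 3]; ring
    rw [eE_mulVec hf h2 huu hcu, hzu, hzc]; simp
  obtain ⟨w, p, q, hw0, hww, hpw, hqw, hqne, hbM⟩ : ∃ w p q, w ≠ 0 ∧ ω w w = 0 ∧ ω p w = 0 ∧ ω q w = 0 ∧
      q ∉ Submodule.span F₀ {w} ∧ eE f (r w) (r p + θ • r q) ∈ M := by
    obtain ⟨w1, hw1, hw1S, hw1n⟩ := hisoorth S4 (hspan4 _)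
    let K : Submodule F₀ (ι → F₀) := S4.dualAnnihilator.comap ω
    obtain ⟨X, hXK, hX, hdim⟩ := hbig K
    have hK : Module.finrank F₀ K + Module.finrank F₀ S4 = Fintype.card ι := hKdim S4
    have : Module.finrank F₀ S4 ≤ 4 := hspan4 ![p1, q1, p2, q2]
    obtain ⟨v1, hv1, hv10, hv1v⟩ := exists_siso hωs h20 hX (by omega)
    obtain ⟨y, hy, hv1y⟩ := hX v1 hv1 hv10
    set v2 := y + (-(ω y y) / (2 * ω v1 y)) • v1 with hv2
    have hv2X : v2 ∈ X := X.add_mem hy (X.smul_mem _ hv1)
    have hv2v : ω v2 v2 = 0 := by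
      rw [hv2, snorm_add hωs]
      simp only [map_smul, LinearMap.smul_apply, smul_eq_mul, hv1v, hωs y v1]
      field_simp
      ring
    have hv12 : ω v1 v2 ≠ 0 := by
      rw [hv2, map_add, map_smul, hv1v, smul_zero, add_zero]; exact hv1y
    have hfx : ∀ v ∈ X, (eE f u c : Matrix ι ι F) *ᵥ r v = r v := fun v hv =>
      hfixed v ((Submodule.mem_dualAnnihilator _).mp (hXK hv))
    by_contra! hno
    -- real on the orthogonal of v1
    have horth : ∀ x, ω x v1 = 0 → ∃ y, (eE f u c : Matrix ι ι F) *ᵥ r x = r y := by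
      intro x hx
      obtain ⟨p, q, hpq⟩ := rvec_split hfix hθ hf.involutive P ((eE f u c : Matrix ι ι F) *ᵥ r x)
      have hb : f (r p + θ • r q) (r v1) = 0 := by
        rw [show r p + θ • r q = _ from hpq.symm, ← hfx v1 hv1,
          mem_hIso.mp (hMK hEgM).1, hω0 hx]
      have hmem : eE f (r v1) (r p + θ • r q) ∈ M := by
        rw [show r p + θ • r q = _ from hpq.symm]
        have h1 := M.mul_mem (M.mul_mem hEgM (hEM v1 x hv1v hx)) (M.inv_mem hEgM)
        rwa [eE_conj hf h2 (hMK hEgM).1 (hω0 hv1v) (hω0 hx), hfx v1 hv1] at h1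
      rw [hf.add_left, hf.smul_left, ← hωf, ← hωf] at hb
      have hu2 := rat_unique hfix hθ (a := ω p v1) (b := ω q v1) (a' := 0) (b' := 0)
        (by rw [hb]; simp)
      obtain ⟨α, hα⟩ := Submodule.mem_span_singleton.mp
        (Decidable.byContradiction fun hq => hno v1 p q hv10 hv1v hu2.1 hu2.2 hq hmem)
      have hb2 : f (r p + θ • r q) (r v2) = f (r x) (r v2) := by
        rw [show r p + θ • r q = _ from hpq.symm]
        conv_lhs => rw [← hfx v2 hv2X]
        exact mem_hIso.mp (hMK hEgM).1 _ _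
      rw [hf.add_left, hf.smul_left, ← hωf, ← hωf, ← hωf] at hb2
      have hu3 := rat_unique hfix hθ (a := ω p v2) (b := ω q v2) (a' := ω x v2) (b' := 0)
        (by rw [hb2]; simp)
      rw [← hα, map_smul, LinearMap.smul_apply, smul_eq_mul] at hu3
      rw [show α = 0 from (mul_eq_zero.mp hu3.2).resolve_right hv12, zero_smul] at hα
      exact ⟨p, by rw [hpq, ← hα, rvec_zero, smul_zero, add_zero]⟩
    set t := ω x₀ v1 / ω v2 v1 with ht
    have hv21 : ω v2 v1 ≠ 0 := by rw [hωs]; exact hv12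
    obtain ⟨y0, hy0⟩ := horth (x₀ - t • v2) (by
      rw [map_sub, LinearMap.sub_apply, map_smul, LinearMap.smul_apply, smul_eq_mul, ht,
        div_mul_cancel₀ _ hv21, sub_self])
    refine hx₀ (y0 + t • v2) ?_
    have e : x₀ = (x₀ - t • v2) + t • v2 := by abel
    rw [e, hr, rvec_add, rvec_add, rvec_smul, mulVec_add, mulVec_smul, ← hr]
    change (eE f u c : Matrix ι ι F) *ᵥ r (x₀ - t • v2) + (t : F) • ((eE f u c : Matrix ι ι F) *ᵥ r v2) = _
    rw [hy0, hfx v2 hv2X]
  -- transvections at w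
  have hwi : f (r w) (r w) = 0 := hω0 hww
  have hqw' : f (r q) (r w) = 0 := hω0 hqw
  have hbw : f (r p + θ • r q) (r w) = 0 := by
    rw [hf.add_left, hf.smul_left, hω0 hpw, hω0 hqw]; ring
  have hcomm : ∀ a b, f a (r w) = 0 → f b (r w) = 0 → eE f (r w) a ∈ M → eE f (r w) b ∈ M →
      utv f (r w) (f a b - f b a) ∈ M := by
    intro a b ha hb hA hB
    set m := 2⁻¹ * (f a b - f b a) with hm
    have hab : f (a + b) (r w) = 0 := by rw [hf.add_left, ha, hb, add_zero]
    have e1 := eE_mul hf h2 hwi ha hb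
    have e2 := eE_mul hf h2 hwi hb ha
    rw [add_comm b a, show 2⁻¹ * (f b a - f a b) = -m by rw [hm]; ring] at e2
    rw [← hm] at e1
    set E := eE f (r w) (a + b)
    have hinv : (utv f (r w) (-m))⁻¹ = utv f (r w) m := by
      rw [utv, tv_inv (utv_ok hf hwi _), utv]; congr 1; rw [neg_smul, neg_neg]
    have h2m : utv f (r w) m * utv f (r w) m = utv f (r w) (f a b - f b a) := by
      rw [utv, utv, tv_mul_right (utv_ok hf hwi _) (utv_ok hf hwi _), ← add_smul]
      congr 2
      rw [hm]; field_simp; ring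
    have hprod : eE f (r w) a * eE f (r w) b * (eE f (r w) b * eE f (r w) a)⁻¹ =
        utv f (r w) (f a b - f b a) := by
      rw [e1, e2, _root_.mul_inv_rev, hinv, ← h2m,
        show E * utv f (r w) m * (utv f (r w) m * E⁻¹) =
          E * (utv f (r w) m * utv f (r w) m) * E⁻¹ by group, h2m,
        utv_conj hf (eE_mem_hSU hf h2 hwi hab).1 hwi, eE_fix_self hf h2 hwi hab]
    rw [← hprod]
    exact M.mul_mem (M.mul_mem hA hB) (M.inv_mem (M.mul_mem hB hA))
  -- all skew parameters
  obtain ⟨c₁, hc₁w, hc₁q⟩ := hval (Submodule.span F₀ {w}) q hqne 1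
  have hT : ∀ μ, σ μ = -μ → utv f (r w) μ ∈ M := by
    intro μ hμ
    set k : F₀ := ⟨μ / (2 * θ), (hfix _).mp (by rw [map_div₀, map_mul, map_ofNat, hμ, hθs, mul_neg, neg_div_neg_eq])⟩
    have hcw : ω (k • c₁) w = 0 := by
      rw [map_smul, LinearMap.smul_apply, hc₁w w (Submodule.mem_span_singleton_self w), smul_zero]
    have := hcomm (r p + θ • r q) (r (k • c₁)) hbw (hω0 hcw) hbM (hEM w _ hww hcw)
    rw [hf.add_left, hf.smul_left, herm_add_right hf, herm_smul_right hf, hθs,
      hsymm p (k • c₁), hsymm q (k • c₁), ← hωf q (k • c₁), map_smul, hωs q c₁, hc₁q] at this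
    convert this using 2
    simp only [k, smul_eq_mul, mul_one]
    field_simp
    ring
  have hsplitE : ∀ a b, f a (r w) = 0 → f b (r w) = 0 → eE f (r w) a ∈ M → eE f (r w) b ∈ M →
      eE f (r w) (a + b) ∈ M := by
    intro a b ha hb hA hB
    have e := eE_mul hf h2 hwi ha hb
    rw [← mul_inv_eq_iff_eq_mul] at e
    rw [← e]
    exact M.mul_mem (M.mul_mem hA hB) (M.inv_mem (hT _ (skew_half_diff hf a b)))
  let S : Set (ι → F₀) := {y | ω y w = 0 ∧ eE f (r w) (θ • r y) ∈ M}
  have hθw : ∀ y, ω y w = 0 → f (θ • r y) (r w) = 0 := fun y hy => by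
    rw [hf.smul_left, hω0 hy, mul_zero]
  have hSadd : ∀ y y', y ∈ S → y' ∈ S → y + y' ∈ S := fun y y' hy hy' => by
    refine ⟨by rw [map_add, LinearMap.add_apply, hy.1, hy'.1, add_zero], ?_⟩
    rw [hr, rvec_add, smul_add]
    exact hsplitE _ _ (hθw y hy.1) (hθw y' hy'.1) hy.2 hy'.2
  have hSneg : ∀ y, y ∈ S → -y ∈ S := fun y hy => by
    refine ⟨by rw [map_neg, LinearMap.neg_apply, hy.1, neg_zero], ?_⟩
    have hy' : ω (-y) w = 0 := by rw [map_neg, LinearMap.neg_apply, hy.1, neg_zero]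
    have e := eE_mul hf h2 hwi (hθw y hy.1) (hθw (-y) hy')
    have hneg : θ • r (-y) = -(θ • r y) := by
      rw [hr, ← neg_one_smul F₀ y, rvec_smul]; simp
    rw [hneg, add_neg_cancel] at e
    have h1 : eE f (r w) 0 = 1 := gl_ext_mulVec fun x => by
      rw [eE_mulVec hf h2 hwi (herm_zero_left hf _), herm_zero_right hf, herm_zero_left hf]; simp
    have h0 : f (θ • r y) (-(θ • r y)) - f (-(θ • r y)) (θ • r y) = 0 := by
      rw [← neg_one_smul F (θ • r y), hf.smul_left (-1), herm_smul_right hf _ (-1), map_neg, map_one, sub_self]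
    rw [h0, mul_zero, h1, one_mul,
      show utv f (r w) 0 = 1 by rw [utv, zero_smul, tv_zero_right]] at e
    rw [hneg, eq_inv_of_mul_eq_one_right e]
    exact M.inv_mem hy.2
  have hSsub : ∀ y y', y ∈ S → y' ∈ S → y' - y ∈ S := fun y y' hy hy' => by
    rw [sub_eq_add_neg]; exact hSadd _ _ hy' (hSneg _ hy)
  have hqS : q ∈ S := by
    refine ⟨hqw, ?_⟩
    have hp' : ω (-p) w = 0 := by rw [map_neg, LinearMap.neg_apply, hpw, neg_zero]
    have := hsplitE _ _ hbw (hω0 hp') hbM (hEM w (-p) hww hp')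
    rwa [hr, ← neg_one_smul F₀ p, rvec_smul, show rvec P p + θ • rvec P q + ((-1 : F₀) : F) • rvec P p
      = θ • rvec P q by simp] at this
  -- multiples of w
  have hwS : ∀ t : F₀, t • w ∈ S := fun t => by
    refine ⟨by rw [map_smul, LinearMap.smul_apply, hww, smul_zero], ?_⟩
    have h0 : ω (t • w) w = 0 := by rw [map_smul, LinearMap.smul_apply, hww, smul_zero]
    have e : eE f (r w) (θ • r (t • w)) = utv f (r w) (-(2 * θ * t)) := gl_ext_mulVec fun x => by
      rw [eE_mulVec hf h2 hwi (hθw _ h0), utv_mulVec hf hwi, hr, rvec_smul]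
      simp only [hf.smul_left, herm_smul_right hf, hθs, (hfix _).mpr t.2]
      rw [show f (rvec P w) (rvec P w) = 0 from hwi]
      match_scalars <;> field_simp <;> ring
    rw [e]
    exact hT _ (by rw [map_neg, map_mul, map_mul, map_ofNat, hθs, (hfix _).mpr t.2]; ring)
  -- spreading
  have hspread : ∀ y z, y ∈ S → ω z z = 0 → ω z w = 0 → ω z y = 0 →
      y ∉ Submodule.span F₀ (Set.range ![w, z]) → ∀ t : F₀, t • z ∈ S := by
    intro y z hy hzz hzw hzy hyne t
    obtain ⟨a, haS, hay⟩ := hval _ y hyne t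
    have haw : ω a w = 0 := haS _ (Submodule.subset_span ⟨0, rfl⟩)
    have haz : ω a z = 0 := haS _ (Submodule.subset_span ⟨1, rfl⟩)
    have hh := hEM z a hzz haz
    have h1 := M.mul_mem (M.mul_mem hh hy.2) (M.inv_mem hh)
    rw [eE_conj hf h2 (hMK hh).1 hwi (hθw y hy.1), mulVec_smul, hrat z a hzz haz w,
      hrat z a hzz haz y, hωs y z, hzy, hωs y a, hay, hωs w z, hzw, hωs w a, haw] at h1
    simp only [mul_zero, sub_zero, zero_smul, add_zero] at h1
    have hnew : y + t • z ∈ S := ⟨by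
      rw [map_add, map_smul, LinearMap.add_apply, LinearMap.smul_apply, hy.1, hzw, smul_zero,
        add_zero], h1⟩
    simpa using hSsub y (y + t • z) hy hnew
  obtain ⟨v, hvv, hvw⟩ := hsee' w hw0
  -- isotropic vectors orthogonal to w
  have hSiso : ∀ z, ω z z = 0 → ω z w = 0 → z ∈ S := by
    intro z hzz hzw
    by_cases hzs : z ∈ Submodule.span F₀ {w}
    · obtain ⟨t, rfl⟩ := Submodule.mem_span_singleton.mp hzs; exact hwS t
    obtain ⟨z', hz'z, hz'S, hz'n⟩ := hisoorth (Submodule.span F₀ (Set.range ![w, q, z, w]))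
      (hspan4 _)
    have h0 : ω z' w = 0 := hz'S _ (Submodule.subset_span ⟨0, rfl⟩)
    have hm : ∀ i, (![w, q, z, w] i) ∈ Submodule.span F₀ (Set.range ![w, q, z, w]) :=
      fun i => Submodule.subset_span ⟨i, rfl⟩
    have havoid : ∀ y i, ![w, q, z, w] i = y → y ∉ Submodule.span F₀ {w} →
        y ∉ Submodule.span F₀ (Set.range ![w, z']) := by
      intro y i hi hy hmem
      obtain ⟨cc, hcc⟩ := (Submodule.mem_span_range_iff_exists_fun F₀).mp hmem
      simp only [Fin.sum_univ_two, Matrix.cons_val_zero, Matrix.cons_val_one] at hcc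
      by_cases hc1 : cc 1 = 0
      · rw [hc1, zero_smul, add_zero] at hcc
        exact hy (Submodule.mem_span_singleton.mpr ⟨cc 0, hcc⟩)
      · apply hz'n
        rw [show z' = (cc 1)⁻¹ • (y - cc 0 • w) by
          rw [← hcc, add_sub_cancel_left, smul_smul, inv_mul_cancel₀ hc1, one_smul]]
        exact Submodule.smul_mem _ _ (Submodule.sub_mem _ (hi ▸ hm i) (Submodule.smul_mem _ _ (hm 0)))
    have hz'mem : z' ∈ S := by
      simpa using hspread q z' hqS hz'z h0 (hz'S _ (hm 1)) (havoid q 1 rfl hqne) 1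
    have hz'ne : z' ∉ Submodule.span F₀ (Set.range ![w, z]) := fun h => hz'n (by
      refine Submodule.span_mono ?_ h
      rintro _ ⟨i, rfl⟩
      fin_cases i
      · exact ⟨0, rfl⟩
      · exact ⟨2, rfl⟩)
    simpa using hspread z' z hz'mem hzz hzw (by rw [hωs]; exact hz'S _ (hm 2)) hz'ne 1
  -- all of the orthogonal
  have hSall : ∀ y, ω y w = 0 → y ∈ S := by
    intro y hy
    by_cases hyw : y ∈ Submodule.span F₀ {w}
    · obtain ⟨t, rfl⟩ := Submodule.mem_span_singleton.mp hyw; exact hwS t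
    obtain ⟨x, hxw, hxy⟩ := hval _ y hyw 1
    have hxw' : ω x w = 0 := hxw w (Submodule.mem_span_singleton_self w)
    by_cases hyy : ω y y = 0
    · exact hSiso y hyy hy
    obtain ⟨n, hn, hnw, hnne⟩ := hisoorth (Submodule.span F₀ {w}) (le_trans (hspan1 w) (by omega))
    have hnw' : ω n w = 0 := hnw w (Submodule.mem_span_singleton_self w)
    obtain ⟨z, hzz, hzw, hzy⟩ : ∃ z, ω z z = 0 ∧ ω z w = 0 ∧ ω z y ≠ 0 := by
      by_cases hny : ω n y = 0
      swap
      · exact ⟨n, hn, hnw', hny⟩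
      obtain ⟨x', hx'S, hx'n⟩ := hval (Submodule.span F₀ {w}) n hnne 1
      have hx'w : ω x' w = 0 := hx'S w (Submodule.mem_span_singleton_self w)
      obtain ⟨x'', h1, h2', h3⟩ : ∃ x'', ω x'' w = 0 ∧ ω x'' n ≠ 0 ∧ ω x'' y ≠ 0 := by
        by_cases hxn : ω x n = 0
        · by_cases hx'y : ω x' y = 0
          · refine ⟨x + x', ?_, ?_, ?_⟩ <;>
              simp [hxw', hx'w, hxn, hx'n, hxy, hx'y]
          · exact ⟨x', hx'w, by rw [hx'n]; exact one_ne_zero, hx'y⟩
        · exact ⟨x, hxw', hxn, by rw [hxy]; exact one_ne_zero⟩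
      refine ⟨x'' + (-(ω x'' x'') / (2 * ω x'' n)) • n, ?_, ?_, ?_⟩
      · rw [snorm_add hωs]
        simp only [map_smul, LinearMap.smul_apply, smul_eq_mul, hn]
        field_simp
        ring
      · simp [h1, hnw']
      · simpa [hny] using h3
    set a := -(ω y y) / (2 * ω z y) with ha
    have h1 : y + a • z ∈ S := hSiso _ (by
      rw [snorm_add hωs]
      simp only [map_smul, LinearMap.smul_apply, smul_eq_mul, hzz, hωs y z, ha]
      field_simp
      ring) (by simp [hy, hzw])
    have h2'' : a • z ∈ S := hSiso _ (by simp [hzz]) (by simp [hzw])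
    simpa using hSsub _ _ h2'' h1
  -- every Eichler element at w
  have hEw : ∀ b, f b (r w) = 0 → eE f (r w) b ∈ M := by
    intro b hb
    obtain ⟨p', q', rfl⟩ := rvec_split hfix hθ hf.involutive P b
    rw [hf.add_left, hf.smul_left] at hb
    change f (r p') (r w) + θ * f (r q') (r w) = 0 at hb
    rw [← hωf, ← hωf] at hb
    have h := rat_unique hfix hθ (a := ω p' w) (b := ω q' w) (a' := 0) (b' := 0) (by rw [hb]; simp)
    exact hsplitE _ _ (hω0 h.1) (hθw q' h.2) (hEM w p' hww h.1) (hSall q' h.2).2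
  -- move w
  have hmove : ∀ v', ω v' v' = 0 → v' ≠ 0 → ∃ (k : F₀) (h : GL ι F), k ≠ 0 ∧ h ∈ M ∧
      (h : Matrix ι ι F) *ᵥ r w = r (k • v') := by
    intro v' hv' hv'0
    obtain ⟨z, hzz, hzw, hzv⟩ := hcommon w v' hww hw0 hv' hv'0
    set k := ω z w / ω z v' with hk
    set a := (ω z w)⁻¹ • (w - k • v') with ha
    have haz : ω a z = 0 := by
      rw [ha, map_smul, map_sub, LinearMap.smul_apply, LinearMap.sub_apply, map_smul,
        LinearMap.smul_apply, hωs w z, hωs v' z, hk]
      simp only [smul_eq_mul]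
      field_simp
      ring
    refine ⟨k, _, div_ne_zero hzw hzv, hEM z a hzz haz, ?_⟩
    rw [hrat z a hzz haz]
    congr 1
    have e : ω w a - 2⁻¹ * ω a a * ω w z = 0 := by
      rw [hωs w z, ha]
      simp only [map_smul, map_sub, LinearMap.smul_apply, LinearMap.sub_apply, smul_eq_mul, hww,
        hv', hωs v' w]
      field_simp
      ring
    rw [e, zero_smul, add_zero, hωs w z, ha, smul_smul, mul_inv_cancel₀ hzw, one_smul]
    abel
  set C := uCentres σ f M with hC
  have hwC : r w ∈ C := ⟨hwi, hT⟩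
  have hratC : ∀ v', ω v' v' = 0 → r v' ∈ C := by
    intro v' hv'
    by_cases hv'0 : v' = 0
    · refine ⟨hω0 hv', fun μ hμ => ?_⟩
      rw [hv'0, hr, rvec_zero, utv, tv_zero_left]; exact M.one_mem
    obtain ⟨k, h, hk, hh, hhw⟩ := hmove v' hv' hv'0
    have h1 := uCentres_map hf hMK hh hwC
    rw [hhw, hr, rvec_smul] at h1
    have h2' := uCentres_smul hf h1 ((k : F)⁻¹)
    rwa [smul_smul, inv_mul_cancel₀ (fun h => hk (Subtype.ext h)), one_smul] at h2'
  refine hSU_le_of_utv hf (by omega) fun x hxx μ hμ => ?_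
  suffices hx : x ∈ C from hx.2 μ hμ
  by_cases hx0 : x = 0
  · subst hx0
    refine ⟨hxx, fun μ hμ => ?_⟩
    rw [utv, tv_zero_left]; exact M.one_mem
  obtain ⟨px, qx, hpq⟩ := rvec_split hfix hθ hf.involutive P x
  obtain ⟨v', hv'v, hv'x⟩ : ∃ v', ω v' v' = 0 ∧ f x (r v') ≠ 0 := by
    by_contra! h
    have hboth : px = 0 ∧ qx = 0 := by
      have hh : ∀ z, ω z z = 0 → ω z px = 0 ∧ ω z qx = 0 := fun z hz => by
        have h0 := h z hz
        rw [hpq, hf.add_left, hf.smul_left] at h0
        change f (r px) (r z) + θ * f (r qx) (r z) = 0 at h0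
        rw [← hωf, ← hωf] at h0
        have := rat_unique hfix hθ (a := ω px z) (b := ω qx z) (a' := 0) (b' := 0)
          (by rw [h0]; simp)
        exact ⟨by rw [hωs]; exact this.1, by rw [hωs]; exact this.2⟩
      constructor <;> by_contra hne <;> obtain ⟨z, hz, hzy⟩ := hsee' _ hne
      · exact hzy (hh z hz).1
      · exact hzy (hh z hz).2
    exact hx0 (by rw [hpq, hboth.1, hboth.2, rvec_zero, smul_zero, add_zero])
  have hv'0 : v' ≠ 0 := fun h => hv'x (by rw [h, hr, rvec_zero, herm_zero_right hf])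
  obtain ⟨k, h, hk, hh, hhw⟩ := hmove v' hv'v hv'0
  set v'' := k • v' with hv''
  have hv''v : ω v'' v'' = 0 := by simp [hv'', hv'v]
  have hv''x : f x (r v'') ≠ 0 := by
    rw [hv'', hr, rvec_smul, herm_smul_right hf, (hfix _).mpr k.2]
    exact mul_ne_zero (fun h => hk (Subtype.ext h)) hv'x
  have hi : f (r v'') (r v'') = 0 := hω0 hv''v
  have hEv : ∀ b, f b (r v'') = 0 → eE f (r v'') b ∈ M := by
    intro b hb
    rw [← hhw] at hb ⊢
    have hb' : f (((h⁻¹ : GL ι F) : Matrix ι ι F) *ᵥ b) (r w) = 0 := by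
      rw [hIso_inv hf (hMK hh).1, hb]
    rw [← mulVec_inv_mulVec h b, ← eE_conj hf h2 (hMK hh).1 hwi hb']
    exact M.mul_mem (M.mul_mem hh (hEw _ hb')) (M.inv_mem hh)
  obtain ⟨n, hn, hnv⟩ := hsee' v'' (by
    rw [hv'']; exact smul_ne_zero hk hv'0)
  set z := ((ω n v'' : F))⁻¹ • r n with hz
  have hzC : z ∈ C := uCentres_smul hf (hratC n hn) _
  have hzv : f z (r v'') = 1 := by
    rw [hz, hf.smul_left, ← hωf, inv_mul_cancel₀]
    exact fun h => hnv (Subtype.ext h)
  set x₁ := (f x (r v''))⁻¹ • x with hx₁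
  have hx₁v : f x₁ (r v'') = 1 := by rw [hx₁, hf.smul_left, inv_mul_cancel₀ hv''x]
  have hx₁x : f x₁ x₁ = 0 := by rw [hx₁, hf.smul_left, herm_smul_right hf, hxx]; simp
  set a := z - x₁ with hadef
  have hav : f a (r v'') = 0 := by rw [hadef, herm_sub_left hf, hzv, hx₁v, sub_self]
  have h1 := uCentres_map hf hMK (hEv a hav) hzC
  rw [eE_mulVec hf h2 hi hav, hzv, one_smul, mul_one] at h1
  set e := f z a - 2⁻¹ * f a a with hedef
  rw [show z + e • r v'' - a = x₁ + e • r v'' by rw [hadef]; abel] at h1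
  have hsk : σ e = -e := by
    have h := skew_of_iso hf (x := x₁) (y := e • r v'') hx₁x
      (by rw [hf.smul_left, herm_smul_right hf, hi]; simp) h1.1
    rw [herm_smul_right hf, hx₁v, mul_one, hf.involutive] at h
    linear_combination h
  have hvC : r v'' ∈ C := hratC v'' hv''v
  have h2' := uCentres_map hf hMK (hvC.2 (-e) (by rw [map_neg, hsk])) h1
  rw [utv_mulVec hf hvC.1, hf.add_left, hx₁v, hf.smul_left, hi] at h2'
  simp only [mul_zero, add_zero, mul_one, neg_smul, add_neg_cancel_right] at h2'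
  have := uCentres_smul hf h2' (f x (r v''))
  rwa [hx₁, smul_smul, mul_inv_cancel₀ hv''x, one_smul] at this

end CfsgLib.Classical
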