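import Cfsg.Agent.Lib.ClassicalMaxUnitary

/-! The stabiliser of two complementary totally singular subspaces is maximal in SU. -/

set_option autoImplicit false

namespace CfsgLib.Classical

open Matrix

variable {ι : Type} [Fintype ι] [DecidableEq ι] {F : Type*} [Field F] [Finite F] {σ : F ≃+* F}
  {f : (ι → F) → (ι → F) → F}

/-- `x ↦ x + c f(x,a) b - σ c f(x,b) a` -/
noncomputable def rhv (σ : F ≃+* F) (f : (ι → F) → (ι → F) → F) (a b : ι → F) (c : F) : GL ι F :=
  tv b (c • hfun₂ f a) * tv a ((-σ c) • hfun₂ f b)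

variable (hf : Cfsg.Geo.IsUnitaryForm σ f)
include hf

omit [Finite F] in
lemma rhv_mulVec {a b : ι → F} (ha : f a a = 0) (h : f a b = 0) (c : F) (x : ι → F) :
    (rhv σ f a b c : Matrix ι ι F) *ᵥ x = x + (c * f x a) • b - (σ c * f x b) • a := by
  have h1 : (c • hfun₂ f a) ⬝ᵥ b = 0 := by
    rw [smul_dotProduct, hfun₂_dotProduct hf, herm_eq_zero_comm hf h, smul_zero]
  have h2 : ((-σ c) • hfun₂ f b) ⬝ᵥ a = 0 := by
    rw [smul_dotProduct, hfun₂_dotProduct hf, h, smul_zero]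
  rw [rhv, Units.val_mul, ← mulVec_mulVec, tv_mulVec h2, tv_mulVec h1]
  simp only [smul_dotProduct, hfun₂_dotProduct hf, hf.add_left, hf.smul_left, ha, smul_eq_mul]
  module

omit [Finite F] in
lemma rhv_mem_hSU {a b : ι → F} (ha : f a a = 0) (hb : f b b = 0) (h : f a b = 0) (c : F) :
    rhv σ f a b c ∈ hSU f := by
  refine ⟨fun x y => ?_, Subgroup.mul_mem _ (tv_mem_specialLinear _ _) (tv_mem_specialLinear _ _)⟩
  change f ((rhv σ f a b c : Matrix ι ι F) *ᵥ x) ((rhv σ f a b c : Matrix ι ι F) *ᵥ y) = f x y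
  rw [rhv_mulVec hf ha h, rhv_mulVec hf ha h]
  simp only [hf.add_left, herm_add_right hf, herm_sub_left hf, herm_sub_right hf, hf.smul_left,
    herm_smul_right hf, ha, hb, h, herm_eq_zero_comm hf h, map_mul, hf.involutive, ← hf.herm a y,
    ← hf.herm b y]
  ring

omit [Finite F] in
lemma rhv_swap {a b : ι → F} (ha : f a a = 0) (hb : f b b = 0) (h : f a b = 0) (c : F) :
    rhv σ f a b c = rhv σ f b a (-σ c) := by
  refine gl_ext_mulVec fun x => ?_
  rw [rhv_mulVec hf ha h, rhv_mulVec hf hb (herm_eq_zero_comm hf h), map_neg, hf.involutive]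
  module

omit [Finite F] in
lemma rhv_conj {g : GL ι F} (hg : g ∈ hIso f) {a b : ι → F} (ha : f a a = 0) (h : f a b = 0)
    (c : F) :
    g * rhv σ f a b c * g⁻¹ =
      rhv σ f ((g : Matrix ι ι F) *ᵥ a) ((g : Matrix ι ι F) *ᵥ b) c := by
  rw [mul_inv_eq_iff_eq_mul]
  refine gl_ext_mulVec fun x => ?_
  have hga : f ((g : Matrix ι ι F) *ᵥ a) ((g : Matrix ι ι F) *ᵥ a) = 0 := by
    rw [mem_hIso.mp hg, ha]
  have hgh : f ((g : Matrix ι ι F) *ᵥ a) ((g : Matrix ι ι F) *ᵥ b) = 0 := by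
    rw [mem_hIso.mp hg, h]
  rw [Units.val_mul, Units.val_mul, ← mulVec_mulVec, ← mulVec_mulVec, rhv_mulVec hf ha h,
    rhv_mulVec hf hga hgh, mulVec_sub, mulVec_add, mulVec_smul, mulVec_smul, mem_hIso.mp hg,
    mem_hIso.mp hg]

/-- two complementary totally singular subspaces -/
structure IsHTSPair (f : (ι → F) → (ι → F) → F) (A B : Submodule F (ι → F)) : Prop where
  isoA : ∀ u ∈ A, ∀ v ∈ A, f u v = 0
  isoB : ∀ u ∈ B, ∀ v ∈ B, f u v = 0
  compl : IsCompl A B

variable {A B : Submodule F (ι → F)} (hP : IsHTSPair f A B)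
include hP

omit hf [Finite F] in
lemma IsHTSPair.symm : IsHTSPair f B A := ⟨hP.isoB, hP.isoA, hP.compl.symm⟩

omit hf [Finite F] in
lemma htsSplit (x : ι → F) : ∃ a ∈ A, ∃ b ∈ B, x = a + b := by
  obtain ⟨a, ha, b, hb, h⟩ :=
    Submodule.mem_sup.mp (hP.compl.sup_eq_top ▸ Submodule.mem_top (x := x))
  exact ⟨a, ha, b, hb, h.symm⟩

omit [Finite F] in
/-- functionals on `A` come from `B` -/
lemma hts_repr (l : (ι → F) →ₗ[F] F) : ∃ w ∈ B, ∀ a ∈ A, f a w = l a := by
  obtain ⟨y, -, hy⟩ := herm_repr hf (hnondeg_top hf) (l.comp (Submodule.subtype ⊤))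
  obtain ⟨p, hp, q, hq, rfl⟩ := htsSplit hP y
  refine ⟨q, hq, fun a ha => ?_⟩
  have := hy ⟨a, trivial⟩
  simpa [herm_add_right hf, hP.isoA a ha p hp] using this

omit [Finite F] in
lemma exists_hfunctional_vec (v : ι → F) (S : Submodule F (ι → F)) (hS : S ≤ A) (hv : v ∈ A)
    (hvS : v ∉ S) (t : F) : ∃ w ∈ B, f v w = t ∧ ∀ s ∈ S, f s w = 0 := by
  obtain ⟨l, hl, hlS⟩ := Submodule.exists_dual_map_eq_bot_of_notMem hvS inferInstance
  obtain ⟨w, hw, hwl⟩ := hts_repr hf hP ((t / l v) • l)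
  refine ⟨w, hw, by rw [hwl v hv, LinearMap.smul_apply, smul_eq_mul, div_mul_cancel₀ _ hl],
    fun s hs => ?_⟩
  have : l s ∈ S.map l := ⟨s, hs, rfl⟩
  rw [hlS, Submodule.mem_bot] at this
  rw [hwl s (hS hs), LinearMap.smul_apply, this, smul_zero]

omit hP [Finite F] in
lemma exists_hmem_avoid (A : Submodule F (ι → F)) (hA : 5 ≤ Module.finrank F A) (p q u v : ι → F) :
    ∃ a ∈ A, f a p = 0 ∧ f a q = 0 ∧ a ∉ Submodule.span F (Set.range ![u, v]) := by
  by_contra! h
  let L : A →ₗ[F] (Fin 2 → F) :=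
    (LinearMap.pi ![leftLin hf p, leftLin hf q]).comp A.subtype
  have hker : (LinearMap.ker L).map A.subtype ≤ Submodule.span F (Set.range ![u, v]) := by
    rintro _ ⟨a, ha, rfl⟩
    exact h a a.2 (congrFun (LinearMap.mem_ker.mp ha) 0) (congrFun (LinearMap.mem_ker.mp ha) 1)
  have h1 := Submodule.finrank_mono hker
  rw [← (Submodule.equivMapOfInjective _ A.injective_subtype (LinearMap.ker L)).finrank_eq] at h1
  have h2 : Module.finrank F (Submodule.span F (Set.range ![u, v])) ≤ 2 :=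
    le_trans (finrank_range_le_card _) (by simp)
  have h3 := LinearMap.finrank_range_add_finrank_ker L
  have h4 := Submodule.finrank_le (LinearMap.range L)
  rw [Module.finrank_pi, Fintype.card_fin] at h4
  omega

variable {M : Subgroup (GL ι F)}
  (hH : ∀ a ∈ A, ∀ b ∈ B, f a b = 0 → ∀ c, rhv σ f a b c ∈ M) (hMK : M ≤ hSU f)
include hH hMK

omit [Finite F] in
/-- from one skew pair of short root elements get a centre in `A` -/
theorem htsCentre (hdim : 5 ≤ Module.finrank F A) {b v : ι → F} (hbb : f b b = 0)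
    (hbv : f b v = 0) (hbvM : ∀ c, rhv σ f b v c ∈ M) {b0 b1 v0 v1 : ι → F} (hb0 : b0 ∈ A)
    (hb1 : b1 ∈ B) (hb : b = b0 + b1) (hv0 : v0 ∈ A) (hv1 : v1 ∈ B) (hv : v = v0 + v1)
    (hb00 : b0 ≠ 0) (hind : v0 ∉ Submodule.span F {b0}) {δ : F} (hδ : δ + σ δ = 1) :
    ∃ a ∈ A, a ≠ 0 ∧ a ∈ uCentres σ f M := by
  classical
  obtain ⟨a, ha, hab, hav, hanot⟩ := exists_hmem_avoid hf A hdim b1 v1 b0 v0
  have ha0 : a ≠ 0 := fun h => hanot (h ▸ Submodule.zero_mem _)
  have haa : f a a = 0 := hP.isoA a ha a ha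
  have hv0not : v0 ∉ Submodule.span F (Set.range ![a, b0]) := by
    intro h
    obtain ⟨c, hc⟩ := (Submodule.mem_span_range_iff_exists_fun F).mp h
    simp only [Fin.sum_univ_two, Matrix.cons_val_zero, Matrix.cons_val_one] at hc
    by_cases h0 : c 0 = 0
    · rw [h0, zero_smul, zero_add] at hc
      exact hind (Submodule.mem_span_singleton.mpr ⟨c 1, hc⟩)
    apply hanot
    have : a = (c 0)⁻¹ • (v0 - c 1 • b0) := by
      rw [← hc, add_sub_cancel_right, smul_smul, inv_mul_cancel₀ h0, one_smul]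
    rw [this]
    exact Submodule.smul_mem _ _ (Submodule.sub_mem _ (Submodule.subset_span ⟨1, rfl⟩)
      (Submodule.smul_mem _ _ (Submodule.subset_span ⟨0, rfl⟩)))
  have hb0not : b0 ∉ Submodule.span F {a} := by
    intro h
    obtain ⟨c, hc⟩ := Submodule.mem_span_singleton.mp h
    have hc0 : c ≠ 0 := fun h => hb00 (by rw [← hc, h, zero_smul])
    apply hanot
    rw [show a = c⁻¹ • b0 by rw [← hc, smul_smul, inv_mul_cancel₀ hc0, one_smul]]
    exact Submodule.smul_mem _ _ (Submodule.subset_span ⟨0, rfl⟩)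
  obtain ⟨w, hw, hvw, hS⟩ := exists_hfunctional_vec hf hP v0
    (Submodule.span F (Set.range ![a, b0])) (Submodule.span_le.mpr (by
      rintro _ ⟨i, rfl⟩; fin_cases i <;> simpa)) hv0 hv0not 1
  have haw : f a w = 0 := hS _ (Submodule.subset_span ⟨0, rfl⟩)
  have hb0w : f b0 w = 0 := hS _ (Submodule.subset_span ⟨1, rfl⟩)
  obtain ⟨w', hw', hb0w', hS'⟩ := exists_hfunctional_vec hf hP b0 (Submodule.span F {a})
    (by simpa using ha) hb0 hb0not (-1)
  have haw' : f a w' = 0 := hS' _ (Submodule.mem_span_singleton_self a)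
  have hab0' : f a b0 = 0 := hP.isoA a ha b0 hb0
  have habb : f a b = 0 := by rw [hb, herm_add_right hf, hab0', hab, add_zero]
  have havv : f a v = 0 := by rw [hv, herm_add_right hf, hP.isoA a ha v0 hv0, hav, add_zero]
  have hwb : f w b = 0 := by
    rw [hb, herm_add_right hf, herm_eq_zero_comm hf hb0w, hP.isoB w hw b1 hb1, add_zero]
  have hwv : f w v = 1 := by
    rw [hv, herm_add_right hf, hf.herm w v0, hvw, map_one, hP.isoB w hw v1 hv1, add_zero]
  have hrab : ∀ c, rhv σ f a b c ∈ M := by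
    intro c
    have hg := hbvM 1
    have h1 : rhv σ f b v 1 * rhv σ f a w c * (rhv σ f b v 1)⁻¹ ∈ M :=
      M.mul_mem (M.mul_mem hg (hH a ha w hw haw c)) (M.inv_mem hg)
    rw [rhv_conj hf (hMK hg).1 haa haw, rhv_mulVec hf hbb hbv, rhv_mulVec hf hbb hbv, habb, havv,
      hwb, hwv, map_one] at h1
    simp only [mul_zero, zero_smul, add_zero, sub_zero, one_mul, one_smul] at h1
    have hwb' : f b (w - b) = 0 := by
      rw [herm_sub_right hf, herm_eq_zero_comm hf hwb, hbb, sub_zero]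
    have hawb : f a (w - b) = 0 := by rw [herm_sub_right hf, haw, habb, sub_zero]
    have e : rhv σ f a (w - b) c * rhv σ f a b c = rhv σ f a w c := by
      refine gl_ext_mulVec fun x => ?_
      rw [Units.val_mul, ← mulVec_mulVec, rhv_mulVec hf haa habb, rhv_mulVec hf haa hawb,
        rhv_mulVec hf haa haw]
      simp only [hf.add_left, herm_sub_left hf, hf.smul_left, haa, herm_eq_zero_comm hf habb,
        hawb, hwb', herm_sub_right hf]
      module
    rw [show rhv σ f a b c = (rhv σ f a (w - b) c)⁻¹ * rhv σ f a w c by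
      rw [← e, inv_mul_cancel_left]]
    exact M.mul_mem (M.inv_mem h1) (hH a ha w hw haw c)
  refine ⟨a, ha, ha0, haa, fun μ hμ => ?_⟩
  set d : F := δ * μ with hd
  set S : GL ι F := rhv σ f a b d * rhv σ f a b1 (-d) with hSdef
  have hSM : S ∈ M := M.mul_mem (hrab d) (hH a ha b1 hb1 hab _)
  set h := rhv σ f a w' 1 with hhdef
  have hhM : h ∈ M := hH a ha w' hw' haw' 1
  have hb0a : f b0 a = 0 := hP.isoA b0 hb0 a ha
  have hha : (h : Matrix ι ι F) *ᵥ a = a := by
    rw [rhv_mulVec hf haa haw', haw', haa]; simp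
  have hhb0 : (h : Matrix ι ι F) *ᵥ b0 = b0 + a := by
    rw [rhv_mulVec hf haa haw', hb0a, hb0w', map_one]; simp
  have hbb1 : f b1 b = f b1 b0 := by
    rw [hb, herm_add_right hf, hP.isoB b1 hb1 b1 hb1, add_zero]
  have hb1a : f b1 a = 0 := herm_eq_zero_comm hf hab
  have hSx : ∀ x, (S : Matrix ι ι F) *ᵥ x = x + (d * f x a) • b0 - (σ d * f x b0) • a
      + (σ d * d * f x a * f b1 b0) • a := by
    intro x
    rw [hSdef, Units.val_mul, ← mulVec_mulVec, rhv_mulVec hf haa hab, rhv_mulVec hf haa habb]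
    simp only [hf.add_left, herm_sub_left hf, hf.smul_left, hb1a, hbb1, haa, habb, map_neg]
    simp only [hb, herm_add_right hf]
    module
  have hc2 : μ = d - σ d := by
    rw [hd, map_mul, hμ]; linear_combination -μ * hδ
  have key : h * S * h⁻¹ = utv f a μ * S := by
    rw [mul_inv_eq_iff_eq_mul]
    refine gl_ext_mulVec fun x => ?_
    simp only [Units.val_mul, ← mulVec_mulVec, utv_mulVec hf haa]
    rw [hSx, hSx, mulVec_add, mulVec_sub, mulVec_add, mulVec_smul, mulVec_smul, mulVec_smul,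
      hha, hhb0]
    have hxa : f ((h : Matrix ι ι F) *ᵥ x) a = f x a := by
      conv_lhs => rw [← hha]
      exact mem_hIso.mp (hMK hhM).1 x a
    have hxb : f ((h : Matrix ι ι F) *ᵥ x) b0 = f x b0 - f x a := by
      have := mem_hIso.mp (hMK hhM).1 x b0
      rw [hhb0, herm_add_right hf, hxa] at this
      linear_combination this
    simp only [hxa, hxb, herm_sub_left hf, hf.add_left, hf.smul_left, hb0a, haa, hc2]
    module
  rw [show utv f a μ = h * S * h⁻¹ * S⁻¹ by rw [key, mul_inv_cancel_right]]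
  exact M.mul_mem (M.mul_mem (M.mul_mem hhM hSM) (M.inv_mem hhM)) (M.inv_mem hSM)

omit [Finite F] in
/-- centres spread over `A` -/
theorem htsSpread (hdim : 5 ≤ Module.finrank F A) {a : ι → F} (ha : a ∈ A) (ha0 : a ≠ 0)
    (haM : a ∈ uCentres σ f M) : ∀ x ∈ A, x ∈ uCentres σ f M := by
  classical
  have step : ∀ p ∈ A, p ≠ 0 → p ∈ uCentres σ f M → ∀ q ∈ A, q ∉ Submodule.span F {p} →
      q ∈ uCentres σ f M := by
    intro p hp hp0 hpM q hq hnot
    have hnot' : p ∉ Submodule.span F {q - p} := by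
      intro h
      obtain ⟨t, ht⟩ := Submodule.mem_span_singleton.mp h
      have ht0 : t ≠ 0 := fun h => hp0 (by rw [← ht, h, zero_smul])
      apply hnot
      refine Submodule.mem_span_singleton.mpr ⟨t⁻¹ + 1, ?_⟩
      rw [add_smul, one_smul, ← ht, smul_smul, inv_mul_cancel₀ ht0, one_smul]
      rw [ht, sub_add_cancel]
    obtain ⟨w, hw, hpw, hS⟩ := exists_hfunctional_vec hf hP p (Submodule.span F {q - p})
      (by simpa using A.sub_mem hq hp) hp hnot' (-1)
    have hqp : f (q - p) w = 0 := hS _ (Submodule.mem_span_singleton_self _)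
    have hhM : rhv σ f (q - p) w 1 ∈ M := hH _ (A.sub_mem hq hp) w hw hqp 1
    have himg : (rhv σ f (q - p) w 1 : Matrix ι ι F) *ᵥ p = q := by
      rw [rhv_mulVec hf (hP.isoA _ (A.sub_mem hq hp) _ (A.sub_mem hq hp)) hqp, hpw,
        hP.isoA p hp _ (A.sub_mem hq hp), map_one]
      simp
    rw [← himg]
    exact uCentres_map hf hMK hhM hpM
  intro x hx
  by_cases hxs : x ∈ Submodule.span F {a}
  · obtain ⟨t, ht⟩ := Submodule.mem_span_singleton.mp hxs
    rw [← ht]; exact uCentres_smul hf haM t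
  · exact step a ha ha0 haM x hx hxs

omit hH in
lemma hts_mem_all (hA : ∀ x ∈ A, x ∈ uCentres σ f M) (hB : ∀ x ∈ B, x ∈ uCentres σ f M)
    (z : ι → F) (hz : f z z = 0) : z ∈ uCentres σ f M := by
  obtain ⟨p, hp, q, hq, rfl⟩ := htsSplit hP z
  by_cases hp0 : p = 0
  · subst hp0; simpa using hB q hq
  by_cases hpq : f p q = 0
  · obtain ⟨μ, hμ0, hμ⟩ := exists_skew hf.ne_refl hf.involutive
    obtain ⟨q', hq', hpq', -⟩ := exists_hfunctional_vec hf hP p ⊥ bot_le hp (by simpa using hp0) μ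
    have e : p + q = (p + q') + (q - q') := by abel
    have h1 : p + q' ∈ uCentres σ f M := by
      have := uCentres_line hf hMK (hA p hp) (hB q' hq') (by rw [hpq']; exact hμ0) (a := 1) (b := 1)
        (by rw [one_smul, one_smul, herm_norm_add hf, hP.isoA p hp p hp, hP.isoB q' hq' q' hq', hpq',
          hμ]; ring)
      simpa using this
    have := uCentres_line hf hMK h1 (hB _ (B.sub_mem hq hq')) (by
      rw [hf.add_left, herm_sub_right hf, herm_sub_right hf, hpq, hpq', hP.isoB q' hq' q hq,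
        hP.isoB q' hq' q' hq']
      simpa using hμ0) (a := 1) (b := 1) (by rw [one_smul, one_smul, ← e]; exact hz)
    rw [one_smul, one_smul, ← e] at this
    exact this
  · have := uCentres_line hf hMK (hA p hp) (hB q hq) hpq (a := 1) (b := 1)
      (by rw [one_smul, one_smul]; exact hz)
    simpa using this

omit [Finite F] in
/-- from one element moving a vector of `A` to a mixed vector get a centre in `A` or in `B` -/
theorem htsMixed (hA5 : 5 ≤ Module.finrank F A) (hB5 : 5 ≤ Module.finrank F B)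
    {g : GL ι F} (hg : g ∈ M) {u : ι → F} (hu : u ∈ A)
    (hmix : (g : Matrix ι ι F) *ᵥ u ∉ A) (hmix' : (g : Matrix ι ι F) *ᵥ u ∉ B) :
    (∃ a ∈ A, a ≠ 0 ∧ a ∈ uCentres σ f M) ∨ (∃ a ∈ B, a ≠ 0 ∧ a ∈ uCentres σ f M) := by
  classical
  obtain ⟨δ, hδ⟩ := exists_trace_one hf.ne_refl hf.involutive
  obtain ⟨b0, hb0, b1, hb1, hb⟩ := htsSplit hP ((g : Matrix ι ι F) *ᵥ u)
  have hb00 : b0 ≠ 0 := fun h => hmix' (by rw [hb, h, zero_add]; exact hb1)
  have hb10 : b1 ≠ 0 := fun h => hmix (by rw [hb, h, add_zero]; exact hb0)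
  by_contra hno
  push Not at hno
  let L : Submodule F (ι → F) := B ⊓ LinearMap.ker (leftLin hf u)
  let T : (ι → F) →ₗ[F] (ι → F) := Matrix.toLin' (g : Matrix ι ι F)
  have hgi := (hMK hg).1
  have hsub : L.map T ≤ Submodule.span F (Set.range ![b0, b1]) := by
    rintro _ ⟨x, ⟨hxB, hxu⟩, rfl⟩
    have hxu' : f x u = 0 := hxu
    have hux : f u x = 0 := herm_eq_zero_comm hf hxu'
    have hTx : T x = (g : Matrix ι ι F) *ᵥ x := Matrix.toLin'_apply _ _
    rw [hTx]
    obtain ⟨v0, hv0, v1, hv1, hv⟩ := htsSplit hP ((g : Matrix ι ι F) *ᵥ x)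
    have hbv : f ((g : Matrix ι ι F) *ᵥ u) ((g : Matrix ι ι F) *ᵥ x) = 0 := by
      rw [mem_hIso.mp hgi, hux]
    have hbb : f ((g : Matrix ι ι F) *ᵥ u) ((g : Matrix ι ι F) *ᵥ u) = 0 := by
      rw [mem_hIso.mp hgi, hP.isoA u hu u hu]
    have hM' : ∀ c, rhv σ f ((g : Matrix ι ι F) *ᵥ u) ((g : Matrix ι ι F) *ᵥ x) c ∈ M := by
      intro c
      rw [← rhv_conj hf hgi (hP.isoA u hu u hu) hux]
      exact M.mul_mem (M.mul_mem hg (hH u hu x hxB hux c)) (M.inv_mem hg)
    by_cases h0 : v0 ∈ Submodule.span F {b0}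
    · by_cases h1 : v1 ∈ Submodule.span F {b1}
      · rw [hv]
        refine Submodule.add_mem _ (Submodule.span_mono ?_ h0) (Submodule.span_mono ?_ h1) <;> simp
      · exfalso
        obtain ⟨a, ha, ha0, haM⟩ := htsCentre hf hP.symm
          (fun p hp q hq h c => by
            rw [rhv_swap hf (hP.isoB p hp p hp) (hP.isoA q hq q hq) h]
            exact hH q hq p hp (herm_eq_zero_comm hf h) _)
          hMK hB5 hbb hbv hM' hb1 hb0 (by rw [hb, add_comm]) hv1 hv0 (by rw [hv, add_comm]) hb10 h1 hδ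
        exact hno.2 a ha ha0 haM
    · exfalso
      obtain ⟨a, ha, ha0, haM⟩ :=
        htsCentre hf hP hH hMK hA5 hbb hbv hM' hb0 hb1 hb hv0 hv1 hv hb00 h0 hδ
      exact hno.1 a ha ha0 haM
  have h1 := Submodule.finrank_mono hsub
  have hT : Function.Injective T := by
    intro x y h
    simp only [T, Matrix.toLin'_apply] at h
    exact mulVec_injective g h
  rw [← (Submodule.equivMapOfInjective _ hT L).finrank_eq] at h1
  have h3 : Module.finrank F (Submodule.span F (Set.range ![b0, b1])) ≤ 2 :=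
    le_trans (finrank_range_le_card _) (by simp)
  have h4 : Module.finrank F B ≤ Module.finrank F L + 1 := finrank_perp1_ge hf B u
  omega

omit hH hMK in
/-- an element of SU interchanging the two subspaces -/
theorem exists_htsSwap : ∃ J ∈ hSU f, (∀ x ∈ A, (J : Matrix ι ι F) *ᵥ x ∈ B) ∧
    (∀ x ∈ B, (J : Matrix ι ι F) *ᵥ x ∈ A) := by
  classical
  obtain ⟨μ, hμ0, hμ⟩ := exists_skew hf.ne_refl hf.involutive
  let e := Module.finBasis F A
  have hdual : ∀ i, ∃ w ∈ B, ∀ j, f (e j : ι → F) w = if j = i then 1 else 0 := by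
    intro i
    obtain ⟨l, hl⟩ := LinearMap.exists_extend (e.coord i)
    obtain ⟨w, hw, h⟩ := hts_repr hf hP l
    refine ⟨w, hw, fun j => ?_⟩
    rw [h _ (e j).2, ← Submodule.subtype_apply, ← LinearMap.comp_apply, hl, e.coord_apply,
      e.repr_self, Finsupp.single_apply]
  choose w hwB hw using hdual
  have hee : ∀ i j, f (e i : ι → F) (e j : ι → F) = 0 := fun i j =>
    hP.isoA _ (e i).2 _ (e j).2
  have hww : ∀ i j, f (w i) (w j) = 0 := fun i j => hP.isoB _ (hwB i) _ (hwB j)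
  have hew : ∀ i, f (e i : ι → F) (w i) = 1 := fun i => by rw [hw, if_pos rfl]
  have hwe : ∀ i, f (w i) (e i : ι → F) = 1 := fun i => by rw [hf.herm, hew, map_one]
  have hew0 : ∀ i j, j ≠ i → f (e j : ι → F) (w i) = 0 := fun i j h => by rw [hw, if_neg h]
  have hwe0 : ∀ i j, j ≠ i → f (w i) (e j : ι → F) = 0 := fun i j h =>
    herm_eq_zero_comm hf (hew0 i j h)
  have hν : σ (-μ⁻¹) = -(-μ⁻¹) := by rw [map_neg, map_inv₀, hμ, inv_neg]
  have key : ∀ s : Finset (Fin (Module.finrank F A)), ∃ J ∈ hSU f,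
      (∀ i ∈ s, (J : Matrix ι ι F) *ᵥ (e i : ι → F) ∈ B ∧ (J : Matrix ι ι F) *ᵥ w i ∈ A) ∧
      (∀ i, i ∉ s → (J : Matrix ι ι F) *ᵥ (e i : ι → F) = (e i : ι → F) ∧
        (J : Matrix ι ι F) *ᵥ w i = w i) := by
    intro s
    induction s using Finset.induction with
    | empty => exact ⟨1, one_mem _, by simp, fun i _ => by simp⟩
    | insert i s hi ih =>
      obtain ⟨J, hJ, hJs, hJn⟩ := ih
      set K := utv f (e i : ι → F) μ * (utv f (w i) (-μ⁻¹) * utv f (e i : ι → F) μ) with hK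
      have hK' : ∀ x, (K : Matrix ι ι F) *ᵥ x = x + (μ * f x (e i : ι → F) + μ * f x (e i : ι → F)) • (e i : ι → F)
          + (-μ⁻¹ * (f x (w i) + μ * f x (e i : ι → F))) • (w i + μ • (e i : ι → F)) := by
        intro x
        rw [hK, Units.val_mul, Units.val_mul, ← mulVec_mulVec, ← mulVec_mulVec,
          utv_mulVec hf (hee i i), utv_mulVec hf (hee i i), utv_mulVec hf (hww i i)]
        simp only [hf.add_left, hf.smul_left, hee, hew, hwe, hww]
        match_scalars <;> field_simp <;> ring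
      refine ⟨J * K, mul_mem hJ (mul_mem (utv_mem_hSU hf (hee i i) hμ)
        (mul_mem (utv_mem_hSU hf (hww i i) hν) (utv_mem_hSU hf (hee i i) hμ))), fun j hj => ?_,
        fun j hj => ?_⟩
      · rw [Units.val_mul, ← mulVec_mulVec, ← mulVec_mulVec, hK', hK']
        rcases Finset.mem_insert.mp hj with rfl | hj
        · have e1 : (e j : ι → F) + (μ * f (e j : ι → F) (e j : ι → F) + μ * f (e j : ι → F) (e j : ι → F)) • (e j : ι → F)
              + (-μ⁻¹ * (f (e j : ι → F) (w j) + μ * f (e j : ι → F) (e j : ι → F))) •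
                (w j + μ • (e j : ι → F)) = (-μ⁻¹) • w j := by
            rw [hee, hew]; match_scalars <;> field_simp <;> ring
          have e2 : w j + (μ * f (w j) (e j : ι → F) + μ * f (w j) (e j : ι → F)) • (e j : ι → F)
              + (-μ⁻¹ * (f (w j) (w j) + μ * f (w j) (e j : ι → F))) •
                (w j + μ • (e j : ι → F)) = μ • (e j : ι → F) := by
            rw [hww, hwe]; match_scalars <;> field_simp <;> ring
          rw [e1, e2]
          refine ⟨?_, ?_⟩
          · rw [mulVec_smul, (hJn j hi).2]; exact B.smul_mem _ (hwB j)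
          · rw [mulVec_smul, (hJn j hi).1]; exact A.smul_mem _ (e j).2
        · have hne : j ≠ i := fun h => hi (h ▸ hj)
          rw [hee, hew0 i j hne, hww, hwe0 j i hne.symm]
          simpa using hJs j hj
      · rw [Finset.mem_insert, not_or] at hj
        rw [Units.val_mul, ← mulVec_mulVec, ← mulVec_mulVec, hK', hK', hee, hew0 i j hj.1, hww,
          hwe0 j i (Ne.symm hj.1)]
        simpa using hJn j hj.2
  obtain ⟨J, hJ, hJall, -⟩ := key Finset.univ
  refine ⟨J, hJ, fun x hx => ?_, fun x hx => ?_⟩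
  · have hx' : x = ∑ i, (e.repr ⟨x, hx⟩ i) • (e i : ι → F) := by
      have h := congrArg A.subtype (e.sum_repr ⟨x, hx⟩)
      simp only [map_sum, map_smul, Submodule.subtype_apply] at h
      exact h.symm
    rw [hx', mulVec_sum]
    exact B.sum_mem fun i _ => by
      rw [mulVec_smul]; exact B.smul_mem _ (hJall i (Finset.mem_univ i)).1
  · have hx' : x = ∑ i, (f x (e i : ι → F)) • w i := by
      by_contra hne
      set d := x - ∑ i, (f x (e i : ι → F)) • w i with hd
      have hdB : d ∈ B := B.sub_mem hx (B.sum_mem fun i _ => B.smul_mem _ (hwB i))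
      have hde : ∀ j, f d (e j : ι → F) = 0 := fun j => by
        rw [hd, herm_sub_left hf, show f (∑ i, (f x (e i : ι → F)) • w i) (e j : ι → F) =
          leftLin hf (e j : ι → F) (∑ i, (f x (e i : ι → F)) • w i) from rfl, map_sum]
        rw [Finset.sum_eq_single j (fun i _ hij => by
          change f _ _ = 0
          rw [hf.smul_left, hwe0 i j (Ne.symm hij), mul_zero])
          (fun h => absurd (Finset.mem_univ j) h)]
        change f x _ - f _ _ = 0
        rw [hf.smul_left, hwe, mul_one, sub_self]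
      have hd0 : d = 0 := by
        by_contra hd0
        obtain ⟨y, -, hy⟩ := hnondeg_top hf d trivial hd0
        obtain ⟨p, hp, q, hq, rfl⟩ := htsSplit hP y
        apply hy
        rw [herm_add_right hf, hP.isoB d hdB q hq, add_zero]
        have h0 : ((leftLin hf d).comp A.subtype) = 0 := e.ext fun j =>
          herm_eq_zero_comm hf (hde j)
        exact herm_eq_zero_comm hf (LinearMap.congr_fun h0 ⟨p, hp⟩)
      exact hne (sub_eq_zero.mp hd0)
    rw [hx', mulVec_sum]
    exact A.sum_mem fun i _ => by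
      rw [mulVec_smul]; exact A.smul_mem _ (hJall i (Finset.mem_univ i)).2

omit hf hP hH hMK [Fintype ι] [DecidableEq ι] [Finite F] in
/-- a subspace inside a union of two subspaces lies in one of them -/
lemma hts_le_or_le {W P Q : Submodule F (ι → F)} (h : ∀ x ∈ W, x ∈ P ∨ x ∈ Q) :
    W ≤ P ∨ W ≤ Q := by
  by_contra hne
  push Not at hne
  obtain ⟨x, hxW, hxP⟩ := SetLike.not_le_iff_exists.mp hne.1
  obtain ⟨y, hyW, hyQ⟩ := SetLike.not_le_iff_exists.mp hne.2
  have hxQ := (h x hxW).resolve_left hxP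
  have hyP := (h y hyW).resolve_right hyQ
  rcases h _ (W.add_mem hxW hyW) with h' | h'
  · exact hxP (by simpa using P.sub_mem h' hyP)
  · exact hyQ (by simpa using Q.sub_mem h' hxQ)

omit hP hH hMK in
theorem isMaximalIn_htsPair {m : ℕ} {D : Fin 2 → Submodule F (ι → F)}
    (hD : Cfsg.Geo.IsMDecomposition m D) (hts : ∀ i, Cfsg.Geo.IsTotallySingularFor f (D i))
    (hm : 5 ≤ m) :
    Cfsg.Geo.IsMaximalIn (hSU f) (Cfsg.Geo.decompositionStabilizer D ⊓ hSU f) := by
  classical
  obtain ⟨k, hk0, hk⟩ := exists_skew hf.ne_refl hf.involutive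
  have hcompl : IsCompl (D 0) (D 1) := by
    refine ⟨hD.indep.pairwiseDisjoint (show (0 : Fin 2) ≠ 1 by decide), ?_⟩
    rw [codisjoint_iff, eq_top_iff, ← hD.iSup_eq_top]
    exact iSup_le fun i => by fin_cases i <;> simp
  have hP : IsHTSPair f (D 0) (D 1) := ⟨hts 0, hts 1, hcompl⟩
  have hcard : Fintype.card ι = m + m := by
    rw [← Module.finrank_pi (R := F) (ι := ι), ← Submodule.finrank_add_eq_of_isCompl hcompl,
      hD.finrank_eq, hD.finrank_eq]
  have hinjT : ∀ g : GL ι F, Function.Injective (Matrix.toLin' (g : Matrix ι ι F)) :=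
    fun g x y hxy => mulVec_injective g (by simpa [Matrix.toLin'_apply] using hxy)
  have hstab : ∀ {g : GL ι F} (τ : Equiv.Perm (Fin 2)),
      (∀ i, ∀ x ∈ D i, (g : Matrix ι ι F) *ᵥ x ∈ D (τ i)) →
      g ∈ Cfsg.Geo.decompositionStabilizer D := by
    intro g τ h
    refine ⟨τ, fun i => Submodule.eq_of_le_of_finrank_eq ?_ ?_⟩
    · rintro _ ⟨x, hx, rfl⟩
      rw [Matrix.toLin'_apply]; exact h i x hx
    · rw [← (Submodule.equivMapOfInjective _ (hinjT g) (D i)).finrank_eq, hD.finrank_eq,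
        hD.finrank_eq]
  have hrhv : ∀ a ∈ D 0, ∀ b ∈ D 1, f a b = 0 → ∀ c,
      rhv σ f a b c ∈ Cfsg.Geo.decompositionStabilizer D ⊓ hSU f := by
    intro a ha b hb hab c
    refine ⟨hstab 1 fun i x hx => ?_, rhv_mem_hSU hf (hts 0 a ha a ha) (hts 1 b hb b hb) hab c⟩
    rw [rhv_mulVec hf (hts 0 a ha a ha) hab]
    fin_cases i
    · have : f x a = 0 := hts 0 x hx a ha
      simp only [this, mul_zero, zero_smul, add_zero]
      exact (D 0).sub_mem hx ((D 0).smul_mem _ ha)
    · have : f x b = 0 := hts 1 x hx b hb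
      simp only [this, mul_zero, zero_smul, sub_zero]
      exact (D 1).add_mem hx ((D 1).smul_mem _ hb)
  obtain ⟨J, hJI, hJA, hJB⟩ := exists_htsSwap hf hP
  have hJH : J ∈ Cfsg.Geo.decompositionStabilizer D ⊓ hSU f := by
    refine ⟨hstab (Equiv.swap 0 1) fun i x hx => ?_, hJI⟩
    fin_cases i
    · simpa using hJA x hx
    · simpa using hJB x hx
  have hA5 : 5 ≤ Module.finrank F (D 0) := by rw [hD.finrank_eq]; exact hm
  have hB5 : 5 ≤ Module.finrank F (D 1) := by rw [hD.finrank_eq]; exact hm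
  refine isMaximalIn_of inf_le_right ?_ ?_
  · intro hle
    obtain ⟨p, hp, -, -, hp0⟩ := exists_hmem_avoid hf (D 0) hA5 0 0 0 0
    have hp0' : p ≠ 0 := fun h => hp0 (by rw [h]; exact Submodule.zero_mem _)
    obtain ⟨a, ha, -, -, hap⟩ := exists_hmem_avoid hf (D 0) hA5 0 0 p p
    have hap' : a ∉ Submodule.span F {p} := fun h => hap (Submodule.span_mono (by simp) h)
    obtain ⟨q, hq, haq, hS⟩ := exists_hfunctional_vec hf hP a (Submodule.span F {p})
      (by simpa using hp) ha hap' 1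
    have hpq : f p q = 0 := hS _ (Submodule.mem_span_singleton_self p)
    have hiso : f (p + q) (p + q) = 0 := by
      rw [herm_norm_add hf, hts 0 p hp p hp, hts 1 q hq q hq, hpq, map_zero]; ring
    obtain ⟨τ, hτ⟩ := (hle (utv_mem_hSU hf hiso hk)).1
    have himg : (utv f (p + q) k : Matrix ι ι F) *ᵥ a = (a + k • p) + k • q := by
      rw [utv_mulVec hf hiso, herm_add_right hf, hts 0 a ha p hp, haq]
      simp [add_assoc]
    have hmem : (a + k • p) + k • q ∈ D (τ 0) := by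
      rw [← hτ 0]; exact ⟨a, ha, by rw [Matrix.toLin'_apply, himg]⟩
    have hq0 : q ≠ 0 := fun h => by rw [h, herm_zero_right hf] at haq; exact zero_ne_one haq
    have hA : a + k • p ∈ D 0 := (D 0).add_mem ha ((D 0).smul_mem _ hp)
    have hB : k • q ∈ D 1 := (D 1).smul_mem _ hq
    have hdisj := Submodule.disjoint_def.mp hcompl.disjoint
    rcases (Fin.exists_fin_two.mp ⟨τ 0, rfl⟩ : τ 0 = 0 ∨ τ 0 = 1) with h | h <;> rw [h] at hmem
    · exact smul_ne_zero hk0 hq0 (hdisj _ (by simpa using (D 0).sub_mem hmem hA) hB)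
    · have h0 := hdisj _ hA (by simpa using (D 1).sub_mem hmem hB)
      exact hap' (Submodule.mem_span_singleton.mpr ⟨-k, by
        rw [neg_smul, eq_neg_of_add_eq_zero_left h0]⟩)
  intro M hHM hMK g hg hgH
  have hH : ∀ a ∈ D 0, ∀ b ∈ D 1, f a b = 0 → ∀ c, rhv σ f a b c ∈ M :=
    fun a ha b hb hab c => hHM (hrhv a ha b hb hab c)
  have hH' : ∀ a ∈ D 1, ∀ b ∈ D 0, f a b = 0 → ∀ c, rhv σ f a b c ∈ M :=
    fun a ha b hb hab c => by
      rw [rhv_swap hf (hts 1 a ha a ha) (hts 0 b hb b hb) hab]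
      exact hH b hb a ha (herm_eq_zero_comm hf hab) _
  have hcentre : (∃ a ∈ D 0, a ≠ 0 ∧ a ∈ uCentres σ f M) ∨
      (∃ a ∈ D 1, a ≠ 0 ∧ a ∈ uCentres σ f M) := by
    by_contra hno
    have hu : ∀ i, ∀ u ∈ D i, (g : Matrix ι ι F) *ᵥ u ∈ D 0 ∨ (g : Matrix ι ι F) *ᵥ u ∈ D 1 := by
      intro i u hu
      by_contra hmix
      push Not at hmix
      fin_cases i
      · exact hno (htsMixed hf hP hH hMK hA5 hB5 hg hu hmix.1 hmix.2)
      · exact hno (htsMixed hf hP.symm hH' hMK hB5 hA5 hg hu hmix.2 hmix.1).symm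
    have hcase : ∀ i, ∃ j, ∀ u ∈ D i, (g : Matrix ι ι F) *ᵥ u ∈ D j := by
      intro i
      rcases hts_le_or_le (W := (D i).map (Matrix.toLin' (g : Matrix ι ι F)))
        (P := D 0) (Q := D 1) (by rintro _ ⟨x, hx, rfl⟩; rw [Matrix.toLin'_apply]; exact hu i x hx)
        with h | h
      · exact ⟨0, fun x hx => h ⟨x, hx, Matrix.toLin'_apply _ _⟩⟩
      · exact ⟨1, fun x hx => h ⟨x, hx, Matrix.toLin'_apply _ _⟩⟩
    choose τ hτ using hcase
    have hne : τ 0 ≠ τ 1 := by
      intro he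
      have htop : (⊤ : Submodule F (ι → F)).map (Matrix.toLin' (g : Matrix ι ι F)) ≤ D (τ 0) := by
        rw [← hcompl.sup_eq_top, Submodule.map_sup, sup_le_iff]
        refine ⟨?_, ?_⟩ <;> rintro _ ⟨x, hx, rfl⟩ <;> rw [Matrix.toLin'_apply]
        · exact hτ 0 x hx
        · rw [he]; exact hτ 1 x hx
      have h1 := Submodule.finrank_mono htop
      rw [← (Submodule.equivMapOfInjective _ (hinjT g) (⊤ : Submodule F (ι → F))).finrank_eq,
        finrank_top, hD.finrank_eq, Module.finrank_pi, hcard] at h1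
      omega
    refine hgH ⟨?_, hMK hg⟩
    have hinj : Function.Injective τ := by
      intro i j hij
      fin_cases i <;> fin_cases j <;> first | rfl | exact absurd hij hne | exact absurd hij.symm hne
    exact hstab (Equiv.ofBijective τ (Finite.injective_iff_bijective.mp hinj)) hτ
  have hJ0 : ∀ {a : ι → F}, a ≠ 0 → (J : Matrix ι ι F) *ᵥ a ≠ 0 := fun {a} ha h =>
    ha (mulVec_injective J (by simpa using h))
  have hboth : (∃ a ∈ D 0, a ≠ 0 ∧ a ∈ uCentres σ f M) ∧
      (∃ a ∈ D 1, a ≠ 0 ∧ a ∈ uCentres σ f M) := by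
    rcases hcentre with ⟨a, ha, ha0, haM⟩ | ⟨a, ha, ha0, haM⟩
    · exact ⟨⟨a, ha, ha0, haM⟩, ⟨_, hJA a ha, hJ0 ha0, uCentres_map hf hMK (hHM hJH) haM⟩⟩
    · exact ⟨⟨_, hJB a ha, hJ0 ha0, uCentres_map hf hMK (hHM hJH) haM⟩, ⟨a, ha, ha0, haM⟩⟩
  obtain ⟨⟨a, ha, ha0, haM⟩, ⟨b, hb, hb0, hbM⟩⟩ := hboth
  exact hSU_le_of_utv hf (by omega) fun u hu μ hμ =>
    (hts_mem_all hf hP hMK (htsSpread hf hP hH hMK hA5 ha ha0 haM)
      (htsSpread hf hP.symm hH' hMK hB5 hb hb0 hbM) u hu).2 μ hμ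

end CfsgLib.Classical
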