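import Cfsg.Agent.Lib.ClassicalMaxUnitary
import Cfsg.Agent.Lib.ClassicalMaxSymp

/-! The symplectic subgroups are maximal in SU. -/

set_option autoImplicit false

namespace CfsgLib.Classical

open Matrix

variable {F : Type*} [Field F] [Finite F] {ι : Type} [Fintype ι] [DecidableEq ι] {σ : F ≃+* F}
  {f : (ι → F) → (ι → F) → F} {F₀ : Subfield F}

/-- the rational vectors of the structure given by `P` -/
def rvec (P : GL ι F) (u : ι → F₀) : ι → F := (P : Matrix ι ι F) *ᵥ fun i => (u i : F)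

omit [Finite F] in
lemma rvec_add (P : GL ι F) (u v : ι → F₀) : rvec P (u + v) = rvec P u + rvec P v := by
  rw [rvec, rvec, rvec, ← mulVec_add]; rfl

omit [Finite F] in
lemma rvec_smul (P : GL ι F) (c : F₀) (u : ι → F₀) : rvec P (c • u) = (c : F) • rvec P u := by
  rw [rvec, rvec, ← mulVec_smul]; rfl

omit [Finite F] in
lemma rvec_zero (P : GL ι F) : rvec P (0 : ι → F₀) = 0 := by
  rw [rvec]; exact mulVec_zero _

omit [Finite F] in
lemma map_subtype_mulVec (h : Matrix ι ι F₀) (u : ι → F₀) :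
    h.map F₀.subtype *ᵥ (fun i => (u i : F)) = fun i => ((h *ᵥ u) i : F) := by
  funext i
  simp [mulVec, dotProduct]

omit [Finite F] in
lemma exists_rat_of_mem_subfieldSubgroup {P g : GL ι F}
    (hg : g ∈ Cfsg.Geo.subfieldSubgroup F₀ P) (u : ι → F₀) :
    ∃ (lam : F) (r : ι → F₀), (g : Matrix ι ι F) *ᵥ rvec P u = lam • rvec P r := by
  obtain ⟨h, hh, rfl⟩ := hg
  obtain ⟨a, ⟨a0, rfl⟩, s, hs, rfl⟩ := Subgroup.mem_sup_of_normal_right.mp hh
  obtain ⟨c, hc⟩ := (Cfsg.Geo.mem_scalars_iff s).mp hs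
  refine ⟨(c : F), (a0 : Matrix ι ι F₀) *ᵥ u, ?_⟩
  simp only [MulEquiv.coe_toMonoidHom, MulAut.conj_apply, Units.val_mul, rvec, ← mulVec_mulVec,
    inv_mulVec_mulVec, hc, smul_mulVec, one_mulVec, mulVec_smul]
  rw [← map_subtype_mulVec]
  rfl

omit [Finite F] in
/-- a transformation sending every rational line to a rational line is rational up to a scalar -/
lemma mem_subfieldSubgroup_of_lines (hfix : ∀ x : F, σ x = x ↔ x ∈ F₀) [Nonempty ι] {P g : GL ι F}
    (h : ∀ u : ι → F₀, ∃ (lam : F) (r : ι → F₀), (g : Matrix ι ι F) *ᵥ rvec P u = lam • rvec P r) :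
    g ∈ Cfsg.Geo.subfieldSubgroup F₀ P := by
  classical
  obtain ⟨j₀⟩ := ‹Nonempty ι›
  set T : GL ι F := P⁻¹ * g * P with hT
  have hTu : ∀ u : ι → F₀, ∃ (lam : F) (r : ι → F₀),
      (T : Matrix ι ι F) *ᵥ (fun i => (u i : F)) = lam • fun i => (r i : F) := by
    intro u
    obtain ⟨lam, r, hr⟩ := h u
    refine ⟨lam, r, ?_⟩
    rw [hT, Units.val_mul, Units.val_mul, ← mulVec_mulVec, ← mulVec_mulVec]
    change _ *ᵥ ((g : Matrix ι ι F) *ᵥ rvec P u) = _
    rw [hr, mulVec_smul, rvec, inv_mulVec_mulVec]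
  -- columns
  have hcol : ∀ j, ∃ (lam : F) (r : ι → F₀), lam ≠ 0 ∧ r ≠ 0 ∧
      (T : Matrix ι ι F) *ᵥ Pi.single j 1 = lam • fun i => (r i : F) := by
    intro j
    obtain ⟨lam, r, hr⟩ := hTu (Pi.single j 1)
    have e : (fun i => ((Pi.single j (1 : F₀) : ι → F₀) i : F)) = Pi.single j 1 := by
      funext i; by_cases hij : i = j
      · subst hij; simp
      · simp [hij]
    rw [e] at hr
    have h0 : lam • (fun i => (r i : F)) ≠ 0 := by
      rw [← hr]
      intro h0
      have h1 := mulVec_injective T (a₁ := Pi.single j 1) (a₂ := 0) (by simpa using h0)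
      simpa using congrFun h1 j
    refine ⟨lam, r, fun hl => h0 (by rw [hl, zero_smul]), fun hr0 => h0 ?_, hr⟩
    subst hr0; funext i; simp
  choose lam r hlam hr0 hcol using hcol
  have hli : ∀ i j, i ≠ j → ∀ x y : F, x • (fun k => (r i k : F)) + y • (fun k => (r j k : F)) = 0 →
      x = 0 ∧ y = 0 := by
    intro i j hij x y hxy
    have h1 := mulVec_injective T (a₁ := (x / lam i) • Pi.single i 1 + (y / lam j) • Pi.single j 1)
      (a₂ := 0) (by
        simp only [mulVec_add, mulVec_smul, hcol, smul_smul, div_mul_cancel₀ _ (hlam i),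
          div_mul_cancel₀ _ (hlam j), mulVec_zero]
        exact hxy)
    have h2 := congrFun h1 i
    have h3 := congrFun h1 j
    simp [Pi.single_apply, hij, hij.symm, hlam i, hlam j] at h2 h3
    exact ⟨h2, h3⟩
  have hratio : ∀ j, lam j / lam j₀ ∈ F₀ := by
    intro j
    by_cases hj : j = j₀
    · rw [hj, div_self (hlam j₀)]; exact one_mem _
    obtain ⟨l, q, hq⟩ := hTu (Pi.single j₀ 1 + Pi.single j 1)
    have e : (fun i => (((Pi.single j₀ 1 + Pi.single j 1 : ι → F₀)) i : F)) =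
        Pi.single j₀ 1 + Pi.single j 1 := by
      funext i
      simp only [Pi.add_apply, Subfield.coe_add, Pi.single_apply]
      split_ifs <;> simp
    rw [e, mulVec_add, hcol, hcol] at hq
    have hl : l ≠ 0 := fun hl => by
      rw [hl, zero_smul] at hq
      exact hlam j₀ (hli j₀ j (Ne.symm hj) _ _ hq).1
    set x := lam j₀ / l with hx
    set y := lam j / l with hy
    have hxy : ∀ k, x * (r j₀ k : F) + y * (r j k : F) = q k := fun k => by
      have := congrFun hq k
      simp only [Pi.add_apply, Pi.smul_apply, smul_eq_mul] at this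
      rw [hx, hy]; field_simp; linear_combination this
    have hzero := hli j₀ j (Ne.symm hj) (σ x - x) (σ y - y) (by
      funext k
      simp only [Pi.add_apply, Pi.smul_apply, smul_eq_mul, Pi.zero_apply]
      have h1 := congrArg σ (hxy k)
      rw [map_add, map_mul, map_mul, (hfix _).mpr (r j₀ k).2, (hfix _).mpr (r j k).2,
        (hfix _).mpr (q k).2, ← hxy k] at h1
      linear_combination h1)
    have hxF : x ∈ F₀ := (hfix x).mp (sub_eq_zero.mp hzero.1)
    have hyF : y ∈ F₀ := (hfix y).mp (sub_eq_zero.mp hzero.2)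
    have : lam j / lam j₀ = y / x := by
      rw [hx, hy]; field_simp
    rw [this]
    exact div_mem hyF hxF
  let T0 : Matrix ι ι F₀ := Matrix.of fun i j => ⟨lam j / lam j₀, hratio j⟩ * r j i
  have hTeq : (T : Matrix ι ι F) = lam j₀ • T0.map F₀.subtype := by
    ext i j
    have := congrFun (hcol j) i
    rw [mulVec_single_one] at this
    simp only [Matrix.col_apply, Pi.smul_apply, smul_eq_mul] at this
    simp only [T0, Matrix.smul_apply, Matrix.map_apply, Matrix.of_apply, smul_eq_mul]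
    simp only [Subfield.coe_mul, Subfield.subtype_apply, this]
    field_simp
    rw [mul_div_cancel_right₀ _ (hlam j₀)]
  have hdet : T0.det ≠ 0 := by
    intro h0
    have h1 : Matrix.det (T : Matrix ι ι F) = 0 := by
      rw [hTeq, Matrix.det_smul, show (T0.map F₀.subtype).det = F₀.subtype T0.det from
        (RingHom.map_det _ _).symm, h0, map_zero, mul_zero]
    exact ((Matrix.isUnit_iff_isUnit_det _).mp T.isUnit).ne_zero h1
  let a0 : GL ι F₀ := Matrix.GeneralLinearGroup.mkOfDetNeZero T0 hdet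
  let s : GL ι F := Units.map (Matrix.scalar ι : F →+* Matrix ι ι F).toMonoidHom
    (Units.mk0 (lam j₀) (hlam j₀))
  refine ⟨T, ?_, ?_⟩
  · have e : T = Matrix.GeneralLinearGroup.map (F₀.subtype : F₀ →+* F) a0 * s := by
      refine Units.ext ?_
      rw [hTeq, Units.val_mul]
      change _ = T0.map F₀.subtype * Matrix.scalar ι (lam j₀)
      rw [Matrix.scalar_apply, ← Matrix.smul_one_eq_diagonal, Matrix.mul_smul, Matrix.mul_one]
    rw [SetLike.mem_coe, e]
    exact Subgroup.mul_mem_sup ⟨a0, rfl⟩ ⟨_, rfl⟩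
  · rw [MulEquiv.coe_toMonoidHom, MulAut.conj_apply, hT]; group

variable (hf : Cfsg.Geo.IsUnitaryForm σ f)
include hf

/-- the symplectic subgroup is maximal -/
theorem isMaximalIn_unitarySymplectic (h4 : 4 ≤ Fintype.card ι)
    (hfix : ∀ x : F, σ x = x ↔ x ∈ F₀) {ζ : F} (hζ0 : ζ ≠ 0) (hζ : σ ζ = -ζ) (P : GL ι F)
    (hP : Cfsg.Geo.IsFormRationalStructure f F₀ ζ P)
    (halt : ∀ u : ι → F, (∀ i, u i ∈ F₀) →
      f ((P : Matrix ι ι F) *ᵥ u) ((P : Matrix ι ι F) *ᵥ u) = 0) :
    Cfsg.Geo.IsMaximalIn (hSU f) (Cfsg.Geo.subfieldSubgroup F₀ P ⊓ hSU f) := by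
  classical
  haveI : Nonempty ι := Fintype.card_pos_iff.mp (by omega)
  obtain ⟨θ, hθ⟩ := exists_sigma_ne hf.ne_refl
  have hθ0 : σ θ - θ ≠ 0 := sub_ne_zero.mpr hθ
  have hsplit : ∀ x : F, ∃ a b : F₀, x = a + θ * b := by
    intro x
    have hb : (σ x - x) / (σ θ - θ) ∈ F₀ := (hfix _).mp (by
      rw [map_div₀, map_sub, map_sub, hf.involutive, hf.involutive, ← neg_sub (σ x), ← neg_sub (σ θ),
        neg_div_neg_eq])
    have ha : x - θ * ((σ x - x) / (σ θ - θ)) ∈ F₀ := (hfix _).mp (by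
      rw [map_sub, map_mul, (hfix _).mpr hb]; field_simp; ring)
    exact ⟨⟨_, ha⟩, ⟨_, hb⟩, by simp⟩
  -- the symplectic form over the subfield
  let ω : (ι → F₀) → (ι → F₀) → F₀ := fun u v =>
    ⟨ζ * f (rvec P u) (rvec P v), hP _ _ (fun i => (u i).2) (fun i => (v i).2)⟩
  have hωf : ∀ u v, f (rvec P u) (rvec P v) = (ω u v : F) / ζ := fun u v => by
    simp only [ω]; rw [mul_div_cancel_left₀ _ hζ0]
  have hbil : Cfsg.Geo.IsBilinearForm ω :=
    ⟨fun x y v => Subtype.ext (by simp [ω, rvec_add, hf.add_left]; ring),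
      fun c x v => Subtype.ext (by simp [ω, rvec_smul, hf.smul_left]; ring),
      fun v x y => Subtype.ext (by simp [ω, rvec_add, herm_add_right hf]; ring),
      fun c v x => Subtype.ext (by
        simp [ω, rvec_smul, herm_smul_right hf, (hfix _).mpr c.2]; ring)⟩
  have hωalt : ∀ v, ω v v = 0 := fun v => Subtype.ext (by
    simp [ω, show f (rvec P v) (rvec P v) = 0 from halt _ fun i => (v i).2])
  have hωskew : ∀ v w, ω v w = -ω w v := fun v w => by
    have h := hωalt (v + w)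
    rw [hbil.add_left, hbil.add_right, hbil.add_right, hωalt, hωalt] at h
    rw [zero_add, add_zero] at h
    exact eq_neg_of_add_eq_zero_left h
  have hrinj : Function.Injective (rvec P : (ι → F₀) → ι → F) := fun u v h => by
    funext i; exact Subtype.ext (congrFun (mulVec_injective P h) i)
  have hωnd : ∀ v, v ≠ 0 → ∃ w, ω v w ≠ 0 := by
    intro v hv
    by_contra! h
    have hv' : rvec P v ≠ 0 := fun h0 => hv (hrinj (by rw [h0, rvec_zero]))
    obtain ⟨x, hx⟩ := (hf.nondegenerate _ hv').1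
    apply hx
    choose a b hab using fun i => hsplit ((((P⁻¹ : GL ι F) : Matrix ι ι F) *ᵥ x) i)
    have e : x = rvec P a + θ • rvec P b := by
      rw [rvec, rvec, ← mulVec_smul, ← mulVec_add]
      conv_lhs => rw [← mulVec_inv_mulVec P x]
      congr 1; funext i; simp only [Pi.add_apply, Pi.smul_apply, smul_eq_mul]; exact hab i
    have h0 : ∀ w, f (rvec P v) (rvec P w) = 0 := fun w => by rw [hωf, h w]; simp
    first
      | rw [e, hf.add_left, hf.smul_left, herm_eq_zero_comm hf (h0 a),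
          herm_eq_zero_comm hf (h0 b)]; ring
      | rw [e, herm_add_right hf, herm_smul_right hf, h0 a, h0 b]; ring
  have hω : Cfsg.Geo.IsSymplecticForm ω := ⟨hbil, hωskew, hωalt, fun v hv => by
    obtain ⟨w, hw⟩ := hωnd v hv
    exact ⟨⟨w, by rw [hωskew]; simpa using hw⟩, ⟨w, hw⟩⟩⟩
  have hiso : ∀ u : ι → F₀, f (rvec P u) (rvec P u) = 0 := fun u => halt _ fun i => (u i).2
  have hzz : ∀ a b : ι → F₀, f (rvec P a + θ • rvec P b) (rvec P a + θ • rvec P b) =
      (σ θ - θ) * ((ω a b : F) / ζ) := fun a b => by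
    rw [herm_norm_add hf, hiso, hf.smul_left, herm_smul_right hf, herm_smul_right hf, hiso, hωf,
      map_mul, hf.involutive, map_div₀, (hfix _).mpr (ω a b).2, hζ]
    ring
  -- transvections with rational centres
  have hgen : ∀ (u : ι → F₀) (μ : F), σ μ = -μ →
      utv f (rvec P u) μ ∈ Cfsg.Geo.subfieldSubgroup F₀ P ⊓ hSU f := by
    intro u μ hμ
    refine ⟨mem_subfieldSubgroup_of_lines hfix fun x => ⟨1, x +
      (⟨μ / ζ, (hfix _).mp (by rw [map_div₀, hμ, hζ, neg_div_neg_eq])⟩ * ω x u) • u, ?_⟩,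
      utv_mem_hSU hf (hiso u) hμ⟩
    rw [utv_mulVec hf (hiso u), one_smul, rvec_add, rvec_smul, hωf]
    congr 2
    simp only [ω, Subfield.coe_mul]
    field_simp
  refine isMaximalIn_of inf_le_right ?_ ?_
  · intro hle
    let j := Classical.arbitrary ι
    have : Nontrivial (ι → F₀) := inferInstance
    obtain ⟨a, ha⟩ := exists_ne (0 : ι → F₀)
    obtain ⟨b, hab, hbne⟩ : ∃ b, ω a b = 0 ∧ ∀ c : F₀, b ≠ c • a := by
      by_contra! h
      have hker : LinearMap.ker (toBil hbil a) ≤ Submodule.span F₀ {a} := fun b hb => by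
        obtain ⟨c, hc⟩ := h b hb
        exact Submodule.mem_span_singleton.mpr ⟨c, hc.symm⟩
      have h1 := Submodule.finrank_mono hker
      rw [finrank_span_singleton ha] at h1
      have h2 := LinearMap.finrank_range_add_finrank_ker (toBil hbil a)
      have h3 := Submodule.finrank_le (LinearMap.range (toBil hbil a))
      rw [Module.finrank_self] at h3
      rw [Module.finrank_pi] at h2
      omega
    obtain ⟨c, hca, hcb⟩ := exists_pair_values hω ha hbne 1 0
    set z := rvec P a + θ • rvec P b with hz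
    have hzi : f z z = 0 := by rw [hz, hzz, hab]; simp
    obtain ⟨lam, r, hr⟩ := exists_rat_of_mem_subfieldSubgroup (hle (utv_mem_hSU hf hzi hζ)).1 c
    rw [utv_mulVec hf hzi, hz, herm_add_right hf, herm_smul_right hf, hωf, hωf, hca, hcb] at hr
    simp only [OneMemClass.coe_one, ZeroMemClass.coe_zero, zero_div, mul_zero, add_zero,
      mul_one_div, div_self hζ0, one_smul] at hr
    rw [← add_assoc, ← rvec_add] at hr
    obtain ⟨s, t, hst⟩ := hsplit lam
    rw [hst, add_smul, mul_smul, ← rvec_smul, ← rvec_smul] at hr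
    have huniq : ∀ a b a' b' : ι → F₀,
        rvec P a + θ • rvec P b = rvec P a' + θ • rvec P b' → a = a' ∧ b = b' := by
      intro a b a' b' h
      have h' : ∀ i, (a i : F) + θ * b i = a' i + θ * b' i := by
        intro i
        have := congrFun (mulVec_injective P (a₁ := (fun i => (a i : F)) + θ • fun i => (b i : F))
          (a₂ := (fun i => (a' i : F)) + θ • fun i => (b' i : F)) (by
            simp only [mulVec_add, mulVec_smul]; exact h)) i
        simpa using this
      have hb : b = b' := by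
        funext i
        have h1 := h' i
        have h2 := congrArg σ h1
        simp only [map_add, map_mul, (hfix _).mpr (a i).2, (hfix _).mpr (b i).2,
          (hfix _).mpr (a' i).2, (hfix _).mpr (b' i).2] at h2
        have h3 : (σ θ - θ) * ((b i : F) - b' i) = 0 := by linear_combination h2 - h1
        exact Subtype.ext (sub_eq_zero.mp ((mul_eq_zero.mp h3).resolve_left hθ0))
      refine ⟨funext fun i => Subtype.ext ?_, hb⟩
      have h1 := h' i
      rw [hb] at h1
      exact add_right_cancel h1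
    obtain ⟨e1, e2⟩ := huniq _ _ _ _ hr
    have hb0 : b ≠ 0 := fun h0 => hbne 0 (by rw [h0, zero_smul])
    have ht : t ≠ 0 := fun h0 => hb0 (by rw [e2, h0, zero_smul])
    have h5 : c + a = (s / t) • b := by
      rw [e2, smul_smul, div_mul_cancel₀ _ ht, e1]
    have h6 := congrArg (fun y => ω y a) h5
    simp only [hbil.add_left, hbil.smul_left, hca, hωalt, hωskew b a, hab] at h6
    simp at h6
  intro M hHM hMK g hgM hgH
  set C := uCentres σ f M with hC
  have hrat : ∀ u : ι → F₀, rvec P u ∈ C := fun u => ⟨hiso u, fun μ hμ => hHM (hgen u μ hμ)⟩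
  -- rational transvections act
  have hact : ∀ h ∈ sympGen ω (Set.univ : Set (ι → F₀)), ∃ G ∈ M, ∀ u : ι → F₀,
      (G : Matrix ι ι F) *ᵥ rvec P u = rvec P ((h : Matrix ι ι F₀) *ᵥ u) := by
    intro h hh
    induction hh using Subgroup.closure_induction with
    | mem h hh =>
      obtain ⟨u, -, c, rfl⟩ := hh
      have hμ : σ ((c : F) * ζ) = -((c : F) * ζ) := by rw [map_mul, (hfix _).mpr c.2, hζ, mul_neg]
      refine ⟨utv f (rvec P u) ((c : F) * ζ), hHM (hgen u _ hμ), fun x => ?_⟩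
      rw [stv_mulVec hω, utv_mulVec hf (hiso u), rvec_add, rvec_smul, hωf]
      congr 1
      rw [Subfield.coe_mul, mul_assoc, mul_div_cancel₀ _ hζ0]
    | one => exact ⟨1, one_mem _, fun u => by simp⟩
    | mul a b _ _ ha hb =>
      obtain ⟨A, hA, hA'⟩ := ha
      obtain ⟨B, hB, hB'⟩ := hb
      exact ⟨A * B, mul_mem hA hB, fun u => by
        rw [Units.val_mul, ← mulVec_mulVec, hB', hA', Units.val_mul, ← mulVec_mulVec]⟩
    | inv a _ ha =>
      obtain ⟨A, hA, hA'⟩ := ha
      refine ⟨A⁻¹, inv_mem hA, fun u => mulVec_injective A ?_⟩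
      simp only [mulVec_inv_mulVec, hA']
  -- transitivity on orthogonal independent pairs
  have htrans : ∀ a b a' b' : ι → F₀, a ≠ 0 → (∀ c : F₀, b ≠ c • a) → ω a b = 0 → a' ≠ 0 →
      (∀ c : F₀, b' ≠ c • a') → ω a' b' = 0 →
      ∃ h ∈ sympGen ω (Set.univ : Set (ι → F₀)),
        (h : Matrix ι ι F₀) *ᵥ a = a' ∧ (h : Matrix ι ι F₀) *ᵥ b = b' := by
    intro a b a' b' ha hb hab ha' hb' hab'
    obtain ⟨c, hca, hcb⟩ := exists_pair_values hω ha hb 1 0
    obtain ⟨c', hca', hcb'⟩ := exists_pair_values hω ha' hb' 1 0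
    obtain ⟨h₁, hh₁, h₁c, h₁a⟩ := exists_sympGen_map_pair hω (nondegOn_top hω) (v := c) (w := a)
      (v' := c') (w' := a') trivial trivial trivial trivial hca hca'
    set b₁ := (h₁ : Matrix ι ι F₀) *ᵥ b with hb₁
    have hi := sympGen_le_isoGL hω _ hh₁
    have hW := nondegOn_pairPerp (toBil_isAlt hω) (nondegOn_top hω) (e := c') (h := a') trivial trivial
      hca'
    have hb₁W : b₁ ∈ pairPerp (toBil hω.bilinear) ⊤ c' a' := mem_pairPerp.mpr ⟨trivial, by
      rw [toBil_apply, ← h₁c, hb₁, mem_isoGL.mp hi, hcb], by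
      rw [toBil_apply, ← h₁a, hb₁, mem_isoGL.mp hi, hab]⟩
    have hb'W : b' ∈ pairPerp (toBil hω.bilinear) ⊤ c' a' :=
      mem_pairPerp.mpr ⟨trivial, hcb', hab'⟩
    have hb₁0 : b₁ ≠ 0 := fun h0 => hb 0 (by
      rw [zero_smul]; exact mulVec_injective h₁ (h0.trans (mulVec_zero _).symm))
    have hb'0 : b' ≠ 0 := fun h0 => hb' 0 (by rw [zero_smul]; exact h0)
    obtain ⟨h₂, hh₂, h₂b⟩ := exists_sympGen_map hω hW hb₁W hb₁0 hb'W hb'0
    refine ⟨h₂ * h₁, mul_mem (Subgroup.closure_mono ?_ hh₂) (Subgroup.closure_mono ?_ hh₁), ?_, ?_⟩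
    · rintro _ ⟨u, -, d, rfl⟩; exact ⟨u, trivial, d, rfl⟩
    · rintro _ ⟨u, -, d, rfl⟩; exact ⟨u, trivial, d, rfl⟩
    · rw [Units.val_mul, ← mulVec_mulVec, h₁a]
      exact sympGen_fix hω (fun u hu => (mem_pairPerp.mp hu).2.2) hh₂
    · rw [Units.val_mul, ← mulVec_mulVec, ← hb₁, h₂b]
  -- decompose
  have hdec : ∀ z : ι → F, ∃ a b : ι → F₀, z = rvec P a + θ • rvec P b := by
    intro z
    choose a b hab using fun i => hsplit ((((P⁻¹ : GL ι F) : Matrix ι ι F) *ᵥ z) i)
    refine ⟨a, b, ?_⟩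
    rw [rvec, rvec, ← mulVec_smul, ← mulVec_add]
    conv_lhs => rw [← mulVec_inv_mulVec P z]
    congr 1; funext i; simp only [Pi.add_apply, Pi.smul_apply, smul_eq_mul]; exact hab i
  have hdep : ∀ a b : ι → F₀, (a = 0 ∨ ∃ c : F₀, b = c • a) →
      ∃ (lam : F) (r : ι → F₀), rvec P a + θ • rvec P b = lam • rvec P r := by
    rintro a b (rfl | ⟨c, rfl⟩)
    · exact ⟨θ, b, by rw [rvec_zero, zero_add]⟩
    · exact ⟨1 + θ * c, a, by rw [rvec_smul]; module⟩
  -- a non-rational centre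
  obtain ⟨a₁, b₁, ha₁, hb₁, hab₁, hz₁⟩ : ∃ a b : ι → F₀, a ≠ 0 ∧ (∀ c : F₀, b ≠ c • a) ∧
      ω a b = 0 ∧ rvec P a + θ • rvec P b ∈ C := by
    by_contra! hno
    refine hgH ⟨mem_subfieldSubgroup_of_lines hfix fun u => ?_, hMK hgM⟩
    have hz := uCentres_map hf hMK hgM (hrat u)
    obtain ⟨a, b, hab⟩ := hdec ((g : Matrix ι ι F) *ᵥ rvec P u)
    rw [hab]
    rw [hab] at hz
    refine hdep a b ?_
    by_contra h
    push Not at h
    have h0 := hz.1
    rw [hzz, mul_eq_zero, div_eq_zero_iff] at h0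
    have h1 : (ω a b : F) = 0 := (h0.resolve_left hθ0).resolve_right hζ0
    exact hno a b h.1 h.2 (Subtype.ext h1) hz
  refine hSU_le_of_utv hf h4 fun z hzi μ hμ => ?_
  suffices hzC : z ∈ C from hzC.2 μ hμ
  obtain ⟨a, b, rfl⟩ := hdec z
  by_cases h : a = 0 ∨ ∃ c : F₀, b = c • a
  · obtain ⟨lam, r, hr⟩ := hdep a b h
    rw [hr]; exact uCentres_smul hf (hrat r) lam
  push Not at h
  have hab : ω a b = 0 := by
    rw [hzz, mul_eq_zero, div_eq_zero_iff] at hzi
    exact Subtype.ext ((hzi.resolve_left hθ0).resolve_right hζ0)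
  obtain ⟨k, hk, hka, hkb⟩ := htrans a₁ b₁ a b ha₁ hb₁ hab₁ h.1 h.2 hab
  obtain ⟨G, hG, hG'⟩ := hact k hk
  have := uCentres_map hf hMK hG hz₁
  rwa [mulVec_add, mulVec_smul, hG', hG', hka, hkb] at this

end CfsgLib.Classical
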