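import Cfsg.Agent.Lib.ClassicalReflections
import Cfsg.Agent.Lib.ClassicalDiag
import Cfsg.Prelude.Def_GeometricClasses

/-! Orthogonal blocks of dimension two or three over three elements refine into orthogonal axes. -/

set_option autoImplicit false

namespace CfsgLib.NonMaxAxes

open Matrix CfsgLib.Classical

attribute [local instance] _root_.Classical.propDecidable

variable {ι : Type} [Fintype ι] [DecidableEq ι] {F : Type*} [Field F] [Fintype F] {Q : (ι → F) → F}
variable (hQ : Cfsg.Geo.IsNondegenerateQuadraticForm Q)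
include hQ

local notation "pf" => QuadraticMap.polar Q

/-- an orthogonal family of one value in a block -/
lemma exists_axes (hq : Fintype.card F = 3) {k : ℕ} (W : Submodule F (ι → F)) (hk : Module.finrank F W = k)
    (hW : Cfsg.Geo.IsNondegenerateOn pf W) (hcase : (k = 2 ∧ ¬ Cfsg.Geo.IsPlusTypeOn Q W) ∨ k = 3) :
    ∃ (c : F) (v : Fin k → ι → F), c ≠ 0 ∧ (∀ a, v a ∈ W) ∧ (∀ a, Q (v a) = c) ∧
      ∀ a a', a ≠ a' → pf (v a) (v a') = 0 := by
  have h3 : (3 : F) = 0 := by
    have := Nat.cast_card_eq_zero F; rw [hq] at this; exact_mod_cast this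
  have h2 : (2 : F) ≠ 0 := fun h => one_ne_zero (show (1 : F) = 0 by linear_combination h3 - h)
  have hα : ¬ IsSquare (-1 : F) := by
    rintro ⟨r, hr⟩
    by_cases h : r = 0
    · rw [h, mul_zero] at hr; exact one_ne_zero (neg_eq_zero.mp hr)
    · have := FiniteField.pow_card_sub_one_eq_one r h
      rw [hq, show 3 - 1 = 2 from rfl, pow_two, ← hr] at this
      exact h2 (by linear_combination -this)
  let B := toBil hQ.polar_bilinear
  have hnd : CfsgLib.Classical.Diag.NdOn B W := fun w hw h => by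
    by_contra h0
    obtain ⟨x, hx, hne⟩ := (hW w hw h0).2
    exact hne (h x hx)
  obtain ⟨l, rfl⟩ : ∃ l, k = l + 1 := ⟨k - 1, by omega⟩
  obtain ⟨b, horth, hone, hlast⟩ := CfsgLib.Classical.Diag.exists_diag_basis h2 B
    (fun u v => pf_comm hQ u v) hα W hnd hk
  have hval : ∀ a, B (b a : ι → F) (b a : ι → F) = 2 * Q (b a : ι → F) := fun a => pf_self hQ _
  have hQone : ∀ a, B (b a : ι → F) (b a : ι → F) = 1 → Q (b a : ι → F) = -1 := fun a h => by
    rw [hval] at h; linear_combination -h + Q (b a : ι → F) * h3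
  rcases hlast with hl | hl
  · refine ⟨-1, fun a => (b a : ι → F), neg_ne_zero.mpr one_ne_zero, fun a => (b a).2, fun a => ?_, horth⟩
    by_cases ha : a = Fin.last l
    · subst ha; exact hQone _ hl
    · exact hQone _ (hone a ha)
  have hQl : Q (b (Fin.last l) : ι → F) = 1 := by
    rw [hval] at hl; linear_combination -hl + Q (b (Fin.last l) : ι → F) * h3
  rcases hcase with ⟨hk2, hplus⟩ | hk3
  · exfalso
    apply hplus
    obtain rfl : l = 1 := by omega
    have h01 : pf (b 0 : ι → F) (b 1 : ι → F) = 0 := horth 0 1 (by simp)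
    have hQ0 : Q (b 0 : ι → F) = -1 := hQone _ (hone 0 (by simp))
    have hQ1 : Q (b 1 : ι → F) = 1 := hQl
    have hs : Q ((b 0 : ι → F) + (b 1 : ι → F)) = 0 := by rw [q_add hQ, h01, hQ0, hQ1]; ring
    have hne : (b 0 : ι → F) + (b 1 : ι → F) ≠ 0 := fun h => by
      have h' := congrArg (fun t => pf t (b 1 : ι → F)) h
      simp only [hQ.polar_bilinear.add_left, h01, pf_zero_left hQ, pf_self hQ, hQ1, zero_add, mul_one] at h'
      exact h2 h'
    refine ⟨Submodule.span F {(b 0 : ι → F) + (b 1 : ι → F)}, ?_, ?_, ?_⟩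
    · rw [Submodule.span_singleton_le_iff_mem]; exact add_mem (b 0).2 (b 1).2
    · intro w hw
      obtain ⟨r, rfl⟩ := Submodule.mem_span_singleton.mp hw
      rw [hQ.smul, hs, mul_zero]
    · rw [finrank_span_singleton hne, hk]
  · obtain rfl : l = 2 := by omega
    have h01 : pf (b 0 : ι → F) (b 1 : ι → F) = 0 := horth 0 1 (by decide)
    have h02 : pf (b 0 : ι → F) (b 2 : ι → F) = 0 := horth 0 2 (by decide)
    have h12 : pf (b 1 : ι → F) (b 2 : ι → F) = 0 := horth 1 2 (by decide)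
    have hQ0 : Q (b 0 : ι → F) = -1 := hQone _ (hone 0 (by decide))
    have hQ1 : Q (b 1 : ι → F) = -1 := hQone _ (hone 1 (by decide))
    have hQ2 : Q (b 2 : ι → F) = 1 := hQl
    let w : Fin 3 → ι → F :=
      ![(b 2 : ι → F), (b 0 : ι → F) + (b 1 : ι → F), (b 0 : ι → F) - (b 1 : ι → F)]
    refine ⟨1, w, one_ne_zero, fun a => ?_, fun a => ?_, fun a a' haa => ?_⟩
    · fin_cases a
      · exact (b 2).2
      · exact add_mem (b 0).2 (b 1).2
      · exact sub_mem (b 0).2 (b 1).2
    · fin_cases a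
      · exact hQ2
      · show Q ((b 0 : ι → F) + (b 1 : ι → F)) = 1
        rw [q_add hQ, h01, hQ0, hQ1]; linear_combination -h3
      · show Q ((b 0 : ι → F) - (b 1 : ι → F)) = 1
        rw [q_sub hQ, h01, hQ0, hQ1]; linear_combination -h3
    · have e1 : pf (b 2 : ι → F) ((b 0 : ι → F) + (b 1 : ι → F)) = 0 := by
        rw [hQ.polar_bilinear.add_right, pf_comm hQ, h02, pf_comm hQ, h12, add_zero]
      have e2 : pf (b 2 : ι → F) ((b 0 : ι → F) - (b 1 : ι → F)) = 0 := by
        rw [pf_sub_right hQ, pf_comm hQ, h02, pf_comm hQ, h12, sub_zero]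
      have e3 : pf ((b 0 : ι → F) + (b 1 : ι → F)) ((b 0 : ι → F) - (b 1 : ι → F)) = 0 := by
        rw [hQ.polar_bilinear.add_left, pf_sub_right hQ, pf_sub_right hQ, pf_comm hQ (b 1 : ι → F) (b 0 : ι → F),
          h01, pf_self hQ, pf_self hQ, hQ0, hQ1]
        ring
      fin_cases a <;> fin_cases a'
      · exact absurd rfl haa
      · exact e1
      · exact e2
      · exact (pf_comm hQ _ _).trans e1
      · exact absurd rfl haa
      · exact e3
      · exact (pf_comm hQ _ _).trans e2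
      · exact (pf_comm hQ _ _).trans e3
      · exact absurd rfl haa

/-- the refinement -/
theorem exists_between_axes (hq : Fintype.card F = 3) {t k : ℕ} (hn : 8 ≤ Fintype.card ι)
    (D : Fin t → Submodule F (ι → F)) (hD : Cfsg.Geo.IsOrthogonalMDecomposition Q k D)
    (hcase : (k = 2 ∧ ∀ i, ¬ Cfsg.Geo.IsPlusTypeOn Q (D i)) ∨ k = 3) :
    ∃ K : Subgroup (GL ι F), Cfsg.Geo.decompositionStabilizer D ⊓ Cfsg.Geo.omegaGL Q < K ∧
      K < Cfsg.Geo.omegaGL Q := by
  have h3 : (3 : F) = 0 := by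
    have := Nat.cast_card_eq_zero F; rw [hq] at this; exact_mod_cast this
  have h2 : (2 : F) ≠ 0 := fun h => one_ne_zero (show (1 : F) = 0 by linear_combination h3 - h)
  have hdec := hD.decomp.decomp
  have ht : 2 ≤ t := hdec.two_le
  have hk2 : 2 ≤ k ∧ k ≤ 3 := by rcases hcase with ⟨rfl, -⟩ | rfl <;> omega
  obtain ⟨c, v, hc, hvm, hvQ, hvo⟩ := exists_axes hQ hq (D ⟨0, by omega⟩) (hdec.finrank_eq _)
    (hD.decomp.nondegenerate _) (hcase.imp (fun h => ⟨h.1, h.2 _⟩) id)
  choose iso hiso using fun i => hD.isometric ⟨0, by omega⟩ i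
  let bv : Fin t × Fin k → ι → F := fun p => (iso p.1 ⟨v p.2, hvm p.2⟩ : ι → F)
  have hbm : ∀ p : Fin t × Fin k, bv p ∈ D p.1 := fun p => (iso p.1 ⟨v p.2, hvm p.2⟩).2
  have hbQ : ∀ p, Q (bv p) = c := fun p => (hiso p.1 ⟨v p.2, hvm p.2⟩).trans (hvQ p.2)
  have hbo : ∀ p p', p ≠ p' → pf (bv p) (bv p') = 0 := by
    rintro ⟨i, a⟩ ⟨i', a'⟩ hne
    by_cases hi : i = i'
    · subst hi
      have ha : a ≠ a' := fun h => hne (h ▸ rfl)
      have hadd : (iso i ⟨v a, hvm a⟩ : ι → F) + (iso i ⟨v a', hvm a'⟩ : ι → F) =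
          (iso i (⟨v a, hvm a⟩ + ⟨v a', hvm a'⟩) : ι → F) := by rw [map_add]; rfl
      show pf (iso i ⟨v a, hvm a⟩ : ι → F) (iso i ⟨v a', hvm a'⟩ : ι → F) = 0
      rw [QuadraticMap.polar, hadd, hiso, hiso, hiso]
      exact hvo a a' ha
    · exact hD.decomp.orthogonal i i' hi _ (hbm (i, a)) _ (hbm (i', a'))
  have hli : LinearIndependent F bv := by
    rw [Fintype.linearIndependent_iff]
    intro g hg p
    have h := congrArg (fun x => toBil hQ.polar_bilinear x (bv p)) hg
    simp only [map_sum, map_smul, LinearMap.sum_apply, LinearMap.smul_apply, smul_eq_mul, map_zero,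
      LinearMap.zero_apply] at h
    rw [Finset.sum_eq_single p (fun q _ hq' => by
      show g q * pf (bv q) (bv p) = 0
      rw [hbo q p hq', mul_zero]) (by simp)] at h
    change g p * pf (bv p) (bv p) = 0 at h
    rw [pf_self hQ, hbQ] at h
    exact (mul_eq_zero.mp h).resolve_right (mul_ne_zero h2 hc)
  have hcard : Fintype.card (Fin t × Fin k) = Module.finrank F (ι → F) := by
    have hi := DirectSum.isInternal_submodule_of_iSupIndep_of_iSup_eq_top hdec.indep hdec.iSup_eq_top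
    let e := LinearEquiv.ofBijective (DirectSum.coeLinearMap D) hi
    rw [← e.finrank_eq, Module.finrank_directSum]
    simp [hdec.finrank_eq]
  let b := basisOfLinearIndependentOfCardEqFinrank' bv hli hcard
  have hb : ∀ p, b p = bv p := fun p => by simp [b]
  have hQsum : ∀ (s : Finset (Fin t × Fin k)) (x : Fin t × Fin k → F),
      Q (∑ p ∈ s, x p • bv p) = c * ∑ p ∈ s, x p ^ 2 := by
    intro s x
    induction s using Finset.induction with
    | empty => simp [q_zero hQ]
    | @insert p s hp ih =>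
      rw [Finset.sum_insert hp, Finset.sum_insert hp, q_add hQ, ih, hQ.smul, hbQ]
      have : pf (x p • bv p) (∑ q ∈ s, x q • bv q) = 0 := by
        rw [← toBil_apply hQ.polar_bilinear, map_sum]
        refine Finset.sum_eq_zero fun q hq' => ?_
        show pf (x p • bv p) (x q • bv q) = 0
        rw [hQ.polar_bilinear.smul_left, hQ.polar_bilinear.smul_right, hbo p q (fun h => hp (h ▸ hq')), mul_zero,
          mul_zero]
      rw [this]; ring
  let S : Set (ι → F) := {x | ∃ p, x = bv p ∨ x = -bv p}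
  -- vectors of value `c` in a block are axes
  have haxis : ∀ i, ∀ x ∈ D i, Q x = c → x ∈ S := by
    intro i x hx hxc
    have hli' : LinearIndependent F fun a : Fin k => bv (i, a) :=
      hli.comp _ fun a a' h => congrArg Prod.snd h
    have heq : Submodule.span F (Set.range fun a : Fin k => bv (i, a)) = D i :=
      Submodule.eq_of_le_of_finrank_eq (Submodule.span_le.mpr (by rintro _ ⟨a, rfl⟩; exact hbm (i, a)))
        (by rw [finrank_span_eq_card hli', hdec.finrank_eq, Fintype.card_fin])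
    obtain ⟨s, hs⟩ := (Submodule.mem_span_range_iff_exists_fun F).mp (heq.symm ▸ hx)
    have hsum : ∑ a, s a ^ 2 = 1 := by
      have h := hQsum (Finset.univ.image fun a : Fin k => (i, a)) (fun p => s p.2)
      rw [Finset.sum_image (fun a _ a' _ h => congrArg Prod.snd h),
        Finset.sum_image (fun a _ a' _ h => congrArg Prod.snd h)] at h
      simp only at h
      rw [hs, hxc] at h
      exact mul_left_cancel₀ hc (by rw [mul_one]; exact h.symm)
    have hsq : ∀ a, s a ^ 2 = if s a = 0 then 0 else 1 := fun a => by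
      by_cases h : s a = 0
      · simp [h]
      · rw [if_neg h]
        have := FiniteField.pow_card_sub_one_eq_one (s a) h
        rwa [hq, show 3 - 1 = 2 from rfl] at this
    simp only [hsq, Finset.sum_ite, Finset.sum_const_zero, zero_add, Finset.sum_const, nsmul_eq_mul, mul_one] at hsum
    set N := (Finset.univ.filter fun a : Fin k => ¬ s a = 0) with hN
    have hle : N.card ≤ 3 := by
      refine (Finset.card_le_univ _).trans ?_
      rw [Fintype.card_fin]; exact hk2.2
    have h1 : N.card = 1 := by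
      rcases (show N.card = 0 ∨ N.card = 1 ∨ N.card = 2 ∨ N.card = 3 by omega) with h | h | h | h <;>
        rw [h] at hsum <;> push_cast at hsum
      · exact absurd hsum zero_ne_one
      · exact h
      · exact absurd (show (1 : F) = 0 by linear_combination hsum) one_ne_zero
      · exact absurd (show (1 : F) = 0 by linear_combination h3 - hsum) one_ne_zero
    obtain ⟨a, ha⟩ := Finset.card_eq_one.mp h1
    have hxa : x = s a • bv (i, a) := by
      rw [← hs, Finset.sum_eq_single a (fun a' _ hne => ?_) (by simp)]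
      have : s a' = 0 := by
        by_contra h
        exact hne (Finset.mem_singleton.mp (ha ▸ Finset.mem_filter.mpr ⟨Finset.mem_univ _, h⟩))
      simp [this]
    have hsa : s a ≠ 0 := by
      have : a ∈ N := ha ▸ Finset.mem_singleton_self a
      exact (Finset.mem_filter.mp this).2
    have hsa2 : s a * s a = 1 := by rw [← pow_two, hsq, if_neg hsa]
    refine ⟨(i, a), ?_⟩
    rcases mul_self_eq_one_iff.mp hsa2 with h | h
    · left; rw [hxa, h, one_smul]
    · right; rw [hxa, h, neg_one_smul]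
  -- permutation isometries
  have hperm : ∀ π : Equiv.Perm (Fin t × Fin k), ∃ g : GL ι F, g ∈ Cfsg.isometryGroup F Q ∧
      ∀ p, (g : Matrix ι ι F) *ᵥ bv p = bv (π p) := by
    intro π
    let φ : GL ι F ≃* ((ι → F) ≃ₗ[F] (ι → F)) :=
      (Matrix.GeneralLinearGroup.toLin : GL ι F ≃* _).trans
        (LinearMap.GeneralLinearGroup.generalLinearEquiv F (ι → F))
    have hval : ∀ x, ((φ.symm (b.equiv b π) : GL ι F) : Matrix ι ι F) *ᵥ x = b.equiv b π x := fun x => by
      have : φ (φ.symm (b.equiv b π)) x = b.equiv b π x := by rw [φ.apply_symm_apply]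
      exact this
    have hbe : ∀ p, b.equiv b π (bv p) = bv (π p) := fun p => by rw [← hb, Module.Basis.equiv_apply, hb]
    refine ⟨φ.symm (b.equiv b π), fun x _ => ?_, fun p => by rw [hval, hbe]⟩
    show Q (((φ.symm (b.equiv b π) : GL ι F) : Matrix ι ι F) *ᵥ x) = Q x
    rw [hval, ← b.sum_repr x, map_sum]
    simp only [map_smul, hb, hbe]
    rw [← Equiv.sum_comp π.symm]
    simp only [Equiv.apply_symm_apply]
    rw [hQsum, hQsum, Equiv.sum_comp π.symm (fun p => (b.repr x p) ^ 2)]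
  let K := Cfsg.stabilizing (Cfsg.glToMat ι F) S ⊓ Cfsg.Geo.omegaGL Q
  have hmap : ∀ g ∈ Cfsg.Geo.decompositionStabilizer D ⊓ Cfsg.Geo.omegaGL Q, ∀ x ∈ S,
      (g : Matrix ι ι F) *ᵥ x ∈ S := by
    rintro g ⟨⟨σ, hσ⟩, hgΩ⟩ x ⟨p, hp⟩
    have hgb : (g : Matrix ι ι F) *ᵥ bv p ∈ S := by
      refine haxis (σ p.1) _ ?_ (by rw [iso_Q (omega_le_isometry hgΩ), hbQ])
      rw [← hσ p.1, ← Matrix.toLin'_apply]; exact Submodule.mem_map_of_mem (hbm p)
    obtain ⟨q, hq'⟩ := hgb
    rcases hp with rfl | rfl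
    · exact ⟨q, hq'⟩
    · rw [mulVec_neg]
      rcases hq' with h | h <;> rw [h]
      · exact ⟨q, Or.inr rfl⟩
      · exact ⟨q, Or.inl (neg_neg _)⟩
  have hHK : Cfsg.Geo.decompositionStabilizer D ⊓ Cfsg.Geo.omegaGL Q ≤ K := fun g hg =>
    ⟨fun x => ⟨hmap g hg x, fun hx => by
      have := hmap g⁻¹ (inv_mem hg) _ hx
      change ((g⁻¹ : GL ι F) : Matrix ι ι F) *ᵥ ((g : Matrix ι ι F) *ᵥ x) ∈ _ at this
      rwa [mulVec_mulVec, ← Units.val_mul, inv_mul_cancel, Units.val_one, one_mulVec] at this⟩, hg.2⟩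
  -- a three-cycle across two blocks
  let i : Fin t := ⟨0, by omega⟩
  let j : Fin t := ⟨1, by omega⟩
  let a0 : Fin k := ⟨0, by omega⟩
  let a1 : Fin k := ⟨1, by omega⟩
  have hij : i ≠ j := by simp [i, j]
  have ha01 : a0 ≠ a1 := by simp [a0, a1]
  let s1 := Equiv.swap (i, a0) (i, a1)
  let s2 := Equiv.swap (i, a1) (j, a0)
  obtain ⟨g1, hg1, hg1b⟩ := hperm s1
  obtain ⟨g2, hg2, hg2b⟩ := hperm s2
  have hinv : ∀ (g : GL ι F) (π : Equiv.Perm (Fin t × Fin k)), (∀ p, (g : Matrix ι ι F) *ᵥ bv p = bv (π p)) →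
      ∀ p, ((g⁻¹ : GL ι F) : Matrix ι ι F) *ᵥ bv p = bv (π.symm p) := fun g π h p => by
    conv_lhs => rw [← π.apply_symm_apply p, ← h, mulVec_mulVec, ← Units.val_mul, inv_mul_cancel, Units.val_one,
      one_mulVec]
  set g := g1 * g2 * g1⁻¹ * g2⁻¹ with hgdef
  have hgb : ∀ p, (g : Matrix ι ι F) *ᵥ bv p = bv (s1 (s2 (s1.symm (s2.symm p)))) := fun p => by
    rw [hgdef, Units.val_mul, Units.val_mul, Units.val_mul, ← mulVec_mulVec, ← mulVec_mulVec, ← mulVec_mulVec,
      hinv g2 s2 hg2b, hinv g1 s1 hg1b, hg2b, hg1b]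
  have hgΩ : g ∈ Cfsg.Geo.omegaGL Q := comm_mem_omegaGL hg1 hg2
  have hgS : ∀ x ∈ S, (g : Matrix ι ι F) *ᵥ x ∈ S := by
    rintro x ⟨p, rfl | rfl⟩
    · exact ⟨_, Or.inl (hgb p)⟩
    · exact ⟨_, Or.inr (by rw [mulVec_neg, hgb p])⟩
  have hgK : g ∈ K := by
    refine ⟨fun x => ⟨hgS x, fun hx => ?_⟩, hgΩ⟩
    obtain ⟨q, hq'⟩ := hx
    let π' : Equiv.Perm (Fin t × Fin k) := ((s2.symm.trans s1.symm).trans s2).trans s1
    have hgb' : ∀ p, (g : Matrix ι ι F) *ᵥ bv p = bv (π' p) := hgb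
    refine ⟨π'.symm q, ?_⟩
    rcases hq' with h | h
    · left
      refine mulVec_injective g ?_
      show (g : Matrix ι ι F) *ᵥ x = (g : Matrix ι ι F) *ᵥ bv (π'.symm q)
      rw [hgb', Equiv.apply_symm_apply]; exact h
    · right
      refine mulVec_injective g ?_
      show (g : Matrix ι ι F) *ᵥ x = (g : Matrix ι ι F) *ᵥ (-bv (π'.symm q))
      rw [mulVec_neg, hgb', Equiv.apply_symm_apply]; exact h
  have hgH : g ∉ Cfsg.Geo.decompositionStabilizer D := by
    rintro ⟨σ, hσ⟩
    have hm : ∀ a, (g : Matrix ι ι F) *ᵥ bv (i, a) ∈ D (σ i) := fun a => by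
      rw [← hσ i, ← Matrix.toLin'_apply]; exact Submodule.mem_map_of_mem (hbm (i, a))
    have e0 : s1 (s2 (s1.symm (s2.symm (i, a0)))) = (j, a0) := by
      simp [s1, s2, Equiv.swap_apply_def, hij, hij.symm, ha01, ha01.symm]
    have e1 : s1 (s2 (s1.symm (s2.symm (i, a1)))) = (i, a0) := by
      simp [s1, s2, Equiv.swap_apply_def, hij, hij.symm, ha01, ha01.symm]
    have h0 := hm a0
    have h1 := hm a1
    rw [hgb, e0] at h0
    rw [hgb, e1] at h1
    have hd : ∀ (l : Fin t) (p : Fin t × Fin k), bv p ∈ D l → p.1 = l := fun l p h => by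
      by_contra hne
      have := Submodule.disjoint_def.mp (hdec.indep.pairwiseDisjoint hne) _ (hbm p) h
      exact hc (by rw [← hbQ p, this, q_zero hQ])
    exact hij ((hd _ (i, a0) h1).trans (hd _ (j, a0) h0).symm)
  -- a reflection product moving an axis off the axes
  have hcard8 : 8 ≤ Fintype.card (Fin t × Fin k) := by rw [hcard, Module.finrank_pi]; exact hn
  obtain ⟨f⟩ : Nonempty (Fin 8 ↪ Fin t × Fin k) :=
    Function.Embedding.nonempty_of_card_le (by rwa [Fintype.card_fin])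
  let π : Equiv.Perm (Fin t × Fin k) :=
    Equiv.swap (f 0) (f 4) * Equiv.swap (f 1) (f 5) * Equiv.swap (f 2) (f 6) * Equiv.swap (f 3) (f 7)
  obtain ⟨gp, hgp, hgpb⟩ := hperm π
  set u := bv (f 0) + bv (f 1) + bv (f 2) + bv (f 3) with hu
  have hfo : ∀ a a' : Fin 8, a ≠ a' → pf (bv (f a)) (bv (f a')) = 0 := fun a a' h => hbo _ _ (f.injective.ne h)
  have hQu : Q u = c := by
    rw [hu, q_add hQ, q_add hQ, q_add hQ, hbQ, hbQ, hbQ, hbQ, hQ.polar_bilinear.add_left,
      hQ.polar_bilinear.add_left, hQ.polar_bilinear.add_left, hfo 0 1 (by decide), hfo 0 2 (by decide),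
      hfo 1 2 (by decide), hfo 0 3 (by decide), hfo 1 3 (by decide), hfo 2 3 (by decide)]
    linear_combination c * h3
  have hu0 : Q u ≠ 0 := hQu.symm ▸ hc
  set h := qR hQ u * gp * (qR hQ u)⁻¹ * gp⁻¹
  have hπ4 : π.symm (f 0) = f 4 := by
    rw [Equiv.symm_apply_eq]
    simp [π, Equiv.Perm.mul_apply, Equiv.swap_apply_def, f.injective.eq_iff]
  have hπ0 : π (f 4) = f 0 := by rw [← hπ4, Equiv.apply_symm_apply]
  have hfix : (qR hQ u : Matrix ι ι F) *ᵥ bv (f 4) = bv (f 4) := by
    rw [qR_mulVec hQ hu0, hu, hQ.polar_bilinear.add_right, hQ.polar_bilinear.add_right,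
      hQ.polar_bilinear.add_right, hfo 4 0 (by decide), hfo 4 1 (by decide), hfo 4 2 (by decide),
      hfo 4 3 (by decide)]
    simp
  have hh : (h : Matrix ι ι F) *ᵥ bv (f 0) = bv (f 0) + u := by
    show ((qR hQ u * gp * (qR hQ u)⁻¹ * gp⁻¹ : GL ι F) : Matrix ι ι F) *ᵥ bv (f 0) = _
    rw [qR_inv hQ, Units.val_mul, Units.val_mul, Units.val_mul, ← mulVec_mulVec, ← mulVec_mulVec, ← mulVec_mulVec,
      hinv gp π hgpb, hπ4, hfix, hgpb, hπ0, qR_mulVec hQ hu0, hQu]
    have : pf (bv (f 0)) u = 2 * c := by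
      rw [hu, hQ.polar_bilinear.add_right, hQ.polar_bilinear.add_right, hQ.polar_bilinear.add_right, pf_self hQ,
        hbQ, hfo 0 1 (by decide), hfo 0 2 (by decide), hfo 0 3 (by decide), add_zero, add_zero, add_zero]
    rw [this, show c⁻¹ * (2 * c) = 2 by field_simp, sub_eq_add_neg, ← neg_smul,
      show (-2 : F) = 1 by linear_combination -h3, one_smul]
  refine ⟨K, lt_of_le_not_ge hHK fun hle => hgH (hle hgK).1, lt_of_le_not_ge inf_le_right fun hle => ?_⟩
  have hmemS := ((hle (comm_mem_omegaGL (qR_mem_isometry hQ hu0) hgp)).1 (bv (f 0))).mp ⟨_, Or.inl rfl⟩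
  change (h : Matrix ι ι F) *ᵥ bv (f 0) ∈ S at hmemS
  rw [hh] at hmemS
  obtain ⟨p, hp⟩ := hmemS
  have p0 : pf (bv (f 0) + u) (bv (f 0)) ≠ 0 := by
    rw [hu, hQ.polar_bilinear.add_left, hQ.polar_bilinear.add_left, hQ.polar_bilinear.add_left,
      hQ.polar_bilinear.add_left, pf_self hQ, hbQ, hfo 1 0 (by decide), hfo 2 0 (by decide), hfo 3 0 (by decide)]
    intro e; exact hc (by linear_combination e - c * h3)
  have p1 : pf (bv (f 0) + u) (bv (f 1)) ≠ 0 := by
    rw [hu, hQ.polar_bilinear.add_left, hQ.polar_bilinear.add_left, hQ.polar_bilinear.add_left,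
      hQ.polar_bilinear.add_left, pf_self hQ, hbQ, hfo 0 1 (by decide), hfo 2 1 (by decide), hfo 3 1 (by decide)]
    simpa using mul_ne_zero h2 hc
  have horth : ∀ q, p ≠ q → pf (bv (f 0) + u) (bv q) = 0 := fun q hq' => by
    rcases hp with e | e <;> rw [e]
    · exact hbo p q hq'
    · rw [pf_neg_left hQ, hbo p q hq', neg_zero]
  by_cases h0 : p = f 0
  · exact p1 (horth _ (h0 ▸ f.injective.ne (by decide)))
  · exact p0 (horth _ h0)

end CfsgLib.NonMaxAxes
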