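import Cfsg.Agent.Lib.ClassicalReflClass

/-! A plane of plus type over three elements: its stabiliser is not maximal in Omega. -/

set_option autoImplicit false

namespace CfsgLib.NonMaxThree

open Matrix CfsgLib.Classical

attribute [local instance] _root_.Classical.propDecidable

variable {ι : Type} [Fintype ι] [DecidableEq ι] {F : Type*} [Field F] [Fintype F] {Q : (ι → F) → F}
variable (hQ : Cfsg.Geo.IsNondegenerateQuadraticForm Q) (h2 : (2 : F) ≠ 0)
include hQ h2

local notation "pf" => QuadraticMap.polar Q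

lemma exists_value_perp (S : Submodule F (ι → F)) (h : 2 * Module.finrank F S + 4 ≤ Fintype.card ι) (c : F) :
    ∃ w, (∀ s ∈ S, pf w s = 0) ∧ Q w = c := by
  obtain ⟨x1, hx1, hQx1⟩ := exists_nonsing_orth hQ S (by omega)
  obtain ⟨x2, hx2, hQx2⟩ := exists_nonsing_orth hQ (S ⊔ Submodule.span F {x1}) (by
    have := Submodule.finrank_add_le_finrank_add_finrank S (Submodule.span F {x1})
    have := span_le_one (F := F) x1
    omega)
  obtain ⟨s, t, hst⟩ := binary_universal h2 hQx1 hQx2 c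
  have hx21 : pf x1 x2 = 0 := by
    rw [pf_comm hQ]; exact hx2 x1 (Submodule.mem_sup_right (Submodule.mem_span_singleton_self x1))
  refine ⟨s • x1 + t • x2, fun r hr => ?_, ?_⟩
  · rw [hQ.polar_bilinear.add_left, hQ.polar_bilinear.smul_left, hQ.polar_bilinear.smul_left, hx1 r hr,
      hx2 r (Submodule.mem_sup_left hr), mul_zero, mul_zero, add_zero]
  · rw [q_add hQ, hQ.smul, hQ.smul, hQ.polar_bilinear.smul_left, hQ.polar_bilinear.smul_right, hx21]
    linear_combination hst

/-- an element of Omega fixing `x` and moving the orthogonal vector `y` out of the plane -/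
lemma exists_mover (h12 : 12 ≤ Fintype.card ι) {x y : ι → F} (hxy : pf x y = 0) (hy : Q y ≠ 0) :
    ∃ g ∈ Cfsg.Geo.omegaGL Q, (g : Matrix ι ι F) *ᵥ x = x ∧
      ∀ r s : F, (g : Matrix ι ι F) *ᵥ y ≠ r • x + s • y := by
  set d := Q y with hd
  have hle2 := span_le_two (F := F) x y
  obtain ⟨z, hz, hQz⟩ := exists_value_perp hQ h2 (Submodule.span F {x, y}) (by omega) d
  have hxz : pf z x = 0 := hz x (Submodule.subset_span (by simp))
  have hyz : pf z y = 0 := hz y (Submodule.subset_span (by simp))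
  obtain ⟨w, hw, hQw⟩ := exists_value_perp hQ h2 (Submodule.span F {x, y} ⊔ Submodule.span F {z}) (by
    have := Submodule.finrank_add_le_finrank_add_finrank (Submodule.span F {x, y}) (Submodule.span F {z})
    have := span_le_one (F := F) z
    omega) d
  have hxw : pf w x = 0 := hw x (Submodule.mem_sup_left (Submodule.subset_span (by simp)))
  have hyw : pf w y = 0 := hw y (Submodule.mem_sup_left (Submodule.subset_span (by simp)))
  have hzw : pf w z = 0 := hw z (Submodule.mem_sup_right (Submodule.mem_span_singleton_self z))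
  have hdd : (2 : F) * d ≠ 0 := mul_ne_zero h2 hy
  set u := y + z with hu
  set v := z + w with hv
  have hQu : Q u = 2 * d := by rw [hu, q_add hQ, pf_comm hQ y z, hyz, hQz, ← hd]; ring
  have hQv : Q v = 2 * d := by rw [hv, q_add hQ, pf_comm hQ z w, hzw, hQz, hQw]; ring
  have hu0 : Q u ≠ 0 := hQu.symm ▸ hdd
  have hv0 : Q v ≠ 0 := hQv.symm ▸ hdd
  refine ⟨qR hQ u * qR hQ v * (qR hQ u)⁻¹ * (qR hQ v)⁻¹,
    comm_mem_omegaGL (qR_mem_isometry hQ hu0) (qR_mem_isometry hQ hv0), ?_, fun r s hrs => ?_⟩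
  · have fu : (qR hQ u : Matrix ι ι F) *ᵥ x = x := by
      rw [qR_mulVec hQ hu0, hu, hQ.polar_bilinear.add_right, hxy, pf_comm hQ x z, hxz]; simp
    have fv : (qR hQ v : Matrix ι ι F) *ᵥ x = x := by
      rw [qR_mulVec hQ hv0, hv, hQ.polar_bilinear.add_right, pf_comm hQ x z, hxz, pf_comm hQ x w, hxw]; simp
    rw [qR_inv hQ, qR_inv hQ, Units.val_mul, Units.val_mul, Units.val_mul, ← mulVec_mulVec, ← mulVec_mulVec,
      ← mulVec_mulVec, fv, fu, fv, fu]
  · have e1 : (qR hQ v : Matrix ι ι F) *ᵥ y = y := by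
      rw [qR_mulVec hQ hv0, hv, hQ.polar_bilinear.add_right, pf_comm hQ y z, hyz, pf_comm hQ y w, hyw]; simp
    have e2 : (qR hQ u : Matrix ι ι F) *ᵥ y = -z := by
      rw [qR_mulVec hQ hu0, hQu, hu, hQ.polar_bilinear.add_right, pf_self hQ, ← hd, pf_comm hQ y z, hyz, add_zero,
        inv_mul_cancel₀ hdd, one_smul]
      abel
    have e3 : (qR hQ v : Matrix ι ι F) *ᵥ (-z) = w := by
      rw [mulVec_neg, qR_mulVec hQ hv0, hQv, hv, hQ.polar_bilinear.add_right, pf_self hQ, hQz, pf_comm hQ z w, hzw,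
        add_zero, inv_mul_cancel₀ hdd, one_smul]
      abel
    have e4 : (qR hQ u : Matrix ι ι F) *ᵥ w = w := by
      rw [qR_mulVec hQ hu0, hu, hQ.polar_bilinear.add_right, hyw, hzw]; simp
    rw [qR_inv hQ, qR_inv hQ, Units.val_mul, Units.val_mul, Units.val_mul, ← mulVec_mulVec, ← mulVec_mulVec,
      ← mulVec_mulVec, e1, e2, e3, e4] at hrs
    have h1 := congrArg (fun a => pf a w) hrs
    simp only [pf_self hQ, hQw, hQ.polar_bilinear.add_left, hQ.polar_bilinear.smul_left,
      pf_comm hQ x w, hxw, pf_comm hQ y w, hyw, mul_zero, add_zero] at h1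
    exact hdd h1

theorem exists_between_plane (hq : Fintype.card F = 3) (h12 : 12 ≤ Fintype.card ι) (W : Submodule F (ι → F))
    (hdim : Module.finrank F W = 2) (hW : Cfsg.Geo.IsNondegenerateOn (QuadraticMap.polar Q) W)
    (hplus : Cfsg.Geo.IsPlusTypeOn Q W) :
    ∃ K : Subgroup (GL ι F), Cfsg.Geo.subspaceStabilizer W ⊓ Cfsg.Geo.omegaGL Q < K ∧ K < Cfsg.Geo.omegaGL Q := by
  obtain ⟨U, hUW, hUs, hUd⟩ := hplus
  obtain ⟨u, hu, hu0⟩ := Submodule.exists_mem_ne_zero_of_ne_bot (p := U) fun h => by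
    rw [h, finrank_bot, hdim] at hUd; omega
  have hQu : Q u = 0 := hUs u hu
  obtain ⟨x, hx, hxu⟩ := (hW u (hUW hu) hu0).1
  obtain ⟨v, hvdef⟩ : ∃ v, v = (pf u x)⁻¹ • x - (Q ((pf u x)⁻¹ • x)) • u := ⟨_, rfl⟩
  rw [pf_comm hQ] at hxu
  have hvW : v ∈ W := hvdef ▸ sub_mem (W.smul_mem _ hx) (W.smul_mem _ (hUW hu))
  have huv : pf u v = 1 := by
    rw [hvdef, pf_sub_right hQ, hQ.polar_bilinear.smul_right, hQ.polar_bilinear.smul_right, pf_self hQ, hQu,
      inv_mul_cancel₀ hxu]
    ring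
  have hQv : Q v = 0 := by
    rw [hvdef, q_sub hQ, hQ.smul (Q _) u, hQu, hQ.polar_bilinear.smul_right, hQ.polar_bilinear.smul_left,
      pf_comm hQ x u, inv_mul_cancel₀ hxu]
    ring
  set a := u + v with ha
  set b := u - v with hb
  have hQa : Q a = 1 := by rw [ha, q_add hQ, hQu, hQv, huv]; ring
  have hQb : Q b = -1 := by rw [hb, q_sub hQ, hQu, hQv, huv]; ring
  have hab : pf a b = 0 := by
    rw [ha, hb, hQ.polar_bilinear.add_left, pf_sub_right hQ, pf_sub_right hQ, pf_self hQ, pf_self hQ, hQu, hQv,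
      pf_comm hQ v u, huv]
    ring
  have haW : a ∈ W := add_mem (hUW hu) hvW
  have hbW : b ∈ W := sub_mem (hUW hu) hvW
  have ha0 : a ≠ 0 := fun h => by rw [h, q_zero hQ] at hQa; exact zero_ne_one hQa
  have hspan : ∀ y ∈ W, ∃ r s : F, y = r • a + s • b := by
    have hli : LinearIndependent F ![a, b] := by
      rw [LinearIndependent.pair_iff]
      intro r s hrs
      have h1 := congrArg (fun t => pf t a) hrs
      have h3 := congrArg (fun t => pf t b) hrs
      simp only [hQ.polar_bilinear.add_left, hQ.polar_bilinear.smul_left, pf_zero_left hQ, pf_self hQ, hQa,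
        hQb, hab, pf_comm hQ b a, mul_zero, add_zero, zero_add, mul_one, mul_neg, neg_eq_zero,
        mul_eq_zero, h2, or_false] at h1 h3
      exact ⟨h1, h3⟩
    have hle : Submodule.span F (Set.range ![a, b]) ≤ W := Submodule.span_le.mpr (by
      rintro _ ⟨j, rfl⟩; fin_cases j <;> assumption)
    have heq := Submodule.eq_of_le_of_finrank_eq hle (by rw [finrank_span_eq_card hli, hdim, Fintype.card_fin])
    intro y hy
    obtain ⟨c, rfl⟩ := (Submodule.mem_span_range_iff_exists_fun F).mp (heq.symm ▸ hy)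
    exact ⟨c 0, c 1, by simp [Fin.sum_univ_two]⟩
  have hsq : ∀ r : F, r * r = 0 ∨ r * r = 1 := fun r => by
    by_cases h : r = 0
    · left; rw [h, mul_zero]
    · right
      have := FiniteField.pow_card_sub_one_eq_one r h
      rwa [hq, show 3 - 1 = 2 from rfl, pow_two] at this
  have hline : ∀ g : GL ι F, g ∈ Cfsg.Geo.subspaceStabilizer W → g ∈ Cfsg.isometryGroup F Q →
      ∀ y ∈ Submodule.span F {a}, (g : Matrix ι ι F) *ᵥ y ∈ Submodule.span F {a} := by
    intro g hgW hg y hy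
    obtain ⟨c, rfl⟩ := Submodule.mem_span_singleton.mp hy
    rw [mulVec_smul]
    refine Submodule.smul_mem _ _ ?_
    obtain ⟨r, s, hrs⟩ := hspan _ ((hgW a).mp haW)
    have h := iso_Q hg a
    have hrs' : (g : Matrix ι ι F) *ᵥ a = r • a + s • b := hrs
    rw [hrs', q_add hQ, hQ.smul, hQ.smul, hQ.polar_bilinear.smul_left, hQ.polar_bilinear.smul_right, hab, hQa,
      hQb] at h
    have hs : s = 0 := by
      rcases hsq r with hr | hr <;> rcases hsq s with hs | hs
      · exact mul_self_eq_zero.mp hs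
      · exfalso; apply h2; linear_combination -h + hr - hs
      · exact mul_self_eq_zero.mp hs
      · exfalso; apply one_ne_zero (α := F); linear_combination -h + hr - hs
    rw [hrs', hs, zero_smul, add_zero]
    exact Submodule.smul_mem _ _ (Submodule.mem_span_singleton_self a)
  let H := Cfsg.Geo.subspaceStabilizer W ⊓ Cfsg.Geo.omegaGL Q
  let K := Cfsg.Geo.subspaceStabilizer (Submodule.span F {a}) ⊓ Cfsg.Geo.omegaGL Q
  have hHK : H ≤ K := fun g hg => ⟨fun y => ⟨hline g hg.1 (omega_le_isometry hg.2) y, fun hy => by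
    have hgi : g⁻¹ ∈ H := inv_mem hg
    have := hline g⁻¹ hgi.1 (omega_le_isometry hgi.2) _ hy
    change ((g⁻¹ : GL ι F) : Matrix ι ι F) *ᵥ ((g : Matrix ι ι F) *ᵥ y) ∈ _ at this
    rwa [mulVec_mulVec, ← Units.val_mul, inv_mul_cancel, Units.val_one, one_mulVec] at this⟩, hg.2⟩
  obtain ⟨g, hgΩ, hga, hgb⟩ := exists_mover hQ h2 h12 hab (by rw [hQb]; exact neg_ne_zero.mpr one_ne_zero)
  obtain ⟨k, hkΩ, -, hka⟩ := exists_mover hQ h2 h12 (show pf b a = 0 by rw [pf_comm hQ]; exact hab)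
    (by rw [hQa]; exact one_ne_zero)
  refine ⟨K, lt_of_le_not_ge hHK fun h => ?_, lt_of_le_not_ge inf_le_right fun h => ?_⟩
  · have hgK : g ∈ K := ⟨fun y => ⟨fun hy => by
      obtain ⟨c, rfl⟩ := Submodule.mem_span_singleton.mp hy
      change (g : Matrix ι ι F) *ᵥ (c • a) ∈ _
      rw [mulVec_smul, hga]; exact hy, fun hy => by
      obtain ⟨c, hc⟩ := Submodule.mem_span_singleton.mp hy
      refine Submodule.mem_span_singleton.mpr ⟨c, mulVec_injective g ?_⟩
      show (g : Matrix ι ι F) *ᵥ (c • a) = (g : Matrix ι ι F) *ᵥ y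
      rw [mulVec_smul, hga, hc]; rfl⟩, hgΩ⟩
    obtain ⟨r, s, hrs⟩ := hspan _ (((h hgK).1 b).mp hbW)
    exact hgb r s hrs
  · obtain ⟨c, hc⟩ := Submodule.mem_span_singleton.mp (((h hkΩ).1 a).mp (Submodule.mem_span_singleton_self a))
    exact hka 0 c (by rw [zero_smul, zero_add]; exact hc.symm)

end CfsgLib.NonMaxThree
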