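import Cfsg.Agent.Lib.ClassicalNonMaxWreath
import Cfsg.Agent.Lib.ClassicalSymp

/-! Symplectic planes over two elements: the decomposition stabiliser lies in an orthogonal group. -/

set_option autoImplicit false

namespace CfsgLib.Classical

open Matrix

theorem exists_between_sp_planes {ι : Type} [Fintype ι] [DecidableEq ι] {F : Type*} [Field F] [Fintype F]
    (hq : Fintype.card F = 2) {t : ℕ} (h3 : 3 ≤ t) {D : Fin t → Submodule F (ι → F)}
    {f : (ι → F) → (ι → F) → F} (hf : Cfsg.Geo.IsSymplecticForm f)
    (hD : Cfsg.Geo.IsNondegenerateMDecomposition f 2 D) :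
    ∃ K : Subgroup (GL ι F), Cfsg.Geo.decompositionStabilizer D ⊓ isoGL f < K ∧ K < isoGL f := by
  classical
  have hind := hD.decomp.indep
  have htop := hD.decomp.iSup_eq_top
  have hbit : ∀ s : F, s = 0 ∨ s = 1 := fun s => by
    by_cases hs : s = 0
    · exact Or.inl hs
    · refine Or.inr ?_
      have := FiniteField.pow_card_sub_one_eq_one s hs
      rwa [hq, show 2 - 1 = 1 from rfl, pow_one] at this
  have htwo : (2 : F) = 0 := by
    have := Nat.cast_card_eq_zero F; rw [hq] at this; exact_mod_cast this
  set P := fun i (x : ι → F) => (bcomp hind htop i x : ι → F) with hP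
  let ind : (ι → F) → F := fun a => if a = 0 then 0 else 1
  have hcount : ∀ x, blockCount hind htop x = ∑ i, ind (P i x) := fun x => by
    refine Finset.sum_congr rfl fun i _ => ?_
    by_cases h : bcomp hind htop i x = 0
    · rw [if_pos h]; simp [ind, P, h]
    · rw [if_neg h]
      have : P i x ≠ 0 := fun h' => h (Subtype.ext h')
      simp [ind, this]
  -- the identity in one plane
  have hplane : ∀ i, ∀ a ∈ D i, ∀ b ∈ D i, ind (a + b) = ind a + ind b + f a b := by
    intro i a ha b hb
    by_cases ha0 : a = 0
    · subst ha0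
      rw [zero_add, f_zero_left hf.bilinear]; simp [ind]
    by_cases hb0 : b = 0
    · subst hb0
      rw [add_zero, f_zero_right hf.bilinear]; simp [ind]
    by_cases hab : a = b
    · subst hab
      rw [← two_smul F a, htwo, zero_smul, hf.alternating]
      simp [ind, ha0, one_add_one_eq_two, htwo]
    have hab0 : a + b ≠ 0 := fun h => hab (by
      rw [eq_neg_of_add_eq_zero_left h]
      funext j
      simp only [Pi.neg_apply]
      linear_combination -(b j) * htwo)
    have hli : LinearIndependent F ![a, b] := by
      rw [LinearIndependent.pair_iff]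
      intro s r hsr
      rcases hbit s with rfl | rfl <;> rcases hbit r with rfl | rfl
      · exact ⟨rfl, rfl⟩
      · simp [hb0] at hsr
      · simp [ha0] at hsr
      · simp [hab0] at hsr
    have hfab : f a b = 1 := (hbit _).resolve_left fun h => by
      obtain ⟨-, x, hx, hfx⟩ := hD.nondegenerate i a ha ha0
      have hle : Submodule.span F (Set.range ![a, b]) ≤ D i := Submodule.span_le.mpr (by
        rintro _ ⟨j, rfl⟩; fin_cases j <;> assumption)
      have heq := Submodule.eq_of_le_of_finrank_eq hle (by
        rw [finrank_span_eq_card hli, hD.decomp.finrank_eq, Fintype.card_fin])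
      obtain ⟨c, rfl⟩ := (Submodule.mem_span_range_iff_exists_fun F).mp (heq.symm ▸ hx)
      apply hfx
      simp [Fin.sum_univ_two, hf.bilinear.add_right, hf.bilinear.smul_right, hf.alternating, h]
    rw [hfab]
    simp [ind, ha0, hb0, hab0, one_add_one_eq_two, htwo]
  have hpol : ∀ x y, blockCount hind htop (x + y) = blockCount hind htop x + blockCount hind htop y + f x y := by
    intro x y
    have hfxy : f x y = ∑ i, f (P i x) (P i y) := by
      conv_lhs => rw [← sum_bcomp hind htop x, ← sum_bcomp hind htop y]
      rw [← toBil_apply hf.bilinear]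
      simp only [map_sum, LinearMap.sum_apply]
      rw [Finset.sum_comm]
      refine Finset.sum_congr rfl fun i _ => ?_
      refine Finset.sum_eq_single i (fun j _ hj => ?_) (fun h => absurd (Finset.mem_univ i) h)
      exact hD.orthogonal i j (Ne.symm hj) _ (bcomp hind htop i x).2 _ (bcomp hind htop j y).2
    rw [hcount, hcount, hcount, hfxy, ← Finset.sum_add_distrib, ← Finset.sum_add_distrib]
    refine Finset.sum_congr rfl fun i _ => ?_
    rw [show P i (x + y) = P i x + P i y by simp [P]]
    exact hplane i _ (bcomp hind htop i x).2 _ (bcomp hind htop i y).2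
  have hne : ∀ i, D i ≠ ⊥ := fun i h => by
    have := hD.decomp.finrank_eq i; rw [h, finrank_bot] at this; omega
  choose e heD he0 using fun i => Submodule.exists_mem_ne_zero_of_ne_bot (hne i)
  choose d hdD hd using fun i => (hD.nondegenerate i (e i) (heD i) (he0 i)).2
  have hd1 : ∀ i, f (e i) (d i) = 1 := fun i => (hbit _).resolve_left (hd i)
  have hone : ∀ i, ∀ v ∈ D i, v ≠ 0 → blockCount hind htop v = 1 := fun i v hv hv0 => by
    rw [blockCount, Finset.sum_eq_single i (fun l _ hl => by
      rw [if_pos (bcomp_other hind htop (Ne.symm hl) hv)])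
      (fun h => absurd (Finset.mem_univ i) h), bcomp_self hind htop hv,
      if_neg (fun h => hv0 (congrArg Subtype.val h))]
  have hd0 : ∀ i, d i ≠ 0 := fun i h => hd i (by rw [h, f_zero_right hf.bilinear])
  let i : Fin t := ⟨0, by omega⟩
  let j : Fin t := ⟨1, by omega⟩
  let k : Fin t := ⟨2, by omega⟩
  have hij : i ≠ j := by simp [i, j]
  have hik : i ≠ k := by simp [i, k]
  have hjk : j ≠ k := by simp [j, k]
  have ho : ∀ a b, a ≠ b → ∀ u ∈ D a, ∀ v ∈ D b, f u v = 0 := fun a b h => hD.orthogonal a b h
  set u := d i + d j + d k with hu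
  have hQu : blockCount hind htop u = 1 := by
    rw [hu, hpol, hpol, hone i _ (hdD i) (hd0 i), hone j _ (hdD j) (hd0 j), hone k _ (hdD k) (hd0 k),
      hf.bilinear.add_left, ho i j hij _ (hdD i) _ (hdD j), ho i k hik _ (hdD i) _ (hdD k),
      ho j k hjk _ (hdD j) _ (hdD k)]
    linear_combination htwo
  have hgK : stv f u 1 ∈ Cfsg.isometryGroup F (blockCount hind htop) := by
    intro x _
    change blockCount hind htop ((stv f u 1 : Matrix ι ι F) *ᵥ x) = blockCount hind htop x
    rw [stv_mulVec hf, one_mul]
    rcases hbit (f x u) with h | h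
    · rw [h, zero_smul, add_zero]
    · rw [h, one_smul, hpol, hQu, h]
      linear_combination htwo
  have hgH : stv f u 1 ∉ Cfsg.Geo.decompositionStabilizer D := by
    rintro ⟨σ, hσ⟩
    have hmem : (stv f u 1 : Matrix ι ι F) *ᵥ e i ∈ D (σ i) := by
      rw [← hσ i, ← Matrix.toLin'_apply]; exact Submodule.mem_map_of_mem (heD i)
    have hfu : f (e i) u = 1 := by
      rw [hu, hf.bilinear.add_right, hf.bilinear.add_right, hd1, ho i j hij _ (heD i) _ (hdD j),
        ho i k hik _ (heD i) _ (hdD k), add_zero, add_zero]
    rw [stv_mulVec hf, one_mul, hfu, one_smul] at hmem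
    have hz : ∀ l, l ≠ σ i → bcomp hind htop l (e i + u) = 0 := fun l hl => bcomp_other hind htop (Ne.symm hl) hmem
    have hj' : bcomp hind htop j (e i + u) = ⟨d j, hdD j⟩ := by
      rw [hu, map_add, map_add, map_add, bcomp_other hind htop hij (heD i), bcomp_other hind htop hij (hdD i),
        bcomp_self hind htop (hdD j), bcomp_other hind htop hjk.symm (hdD k)]
      simp
    have hk' : bcomp hind htop k (e i + u) = ⟨d k, hdD k⟩ := by
      rw [hu, map_add, map_add, map_add, bcomp_other hind htop hik (heD i), bcomp_other hind htop hik (hdD i),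
        bcomp_other hind htop hjk (hdD j), bcomp_self hind htop (hdD k)]
      simp
    by_cases hσj : j = σ i
    · have := hz k (hσj ▸ hjk.symm)
      rw [hk'] at this
      exact hd0 k (congrArg Subtype.val this)
    · have := hz j hσj
      rw [hj'] at this
      exact hd0 j (congrArg Subtype.val this)
  refine ⟨Cfsg.isometryGroup F (blockCount hind htop) ⊓ isoGL f,
    lt_of_le_not_ge (fun x hx => ⟨decompStab_le_count hind htop hx.1, hx.2⟩)
      (fun h => hgH (h ⟨hgK, stv_mem_isoGL hf u 1⟩).1), lt_of_le_not_ge inf_le_right fun h => ?_⟩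
  have hk := (h (stv_mem_isoGL hf (d i + d j) 1)).1 (e i) (e i)
  change blockCount hind htop ((stv f (d i + d j) 1 : Matrix ι ι F) *ᵥ e i) = blockCount hind htop (e i) at hk
  rw [stv_mulVec hf, one_mul, hf.bilinear.add_right, hd1, ho i j hij _ (heD i) _ (hdD j), add_zero, one_smul,
    hpol, hpol, hone i _ (heD i) (he0 i), hone i _ (hdD i) (hd0 i), hone j _ (hdD j) (hd0 j),
    hf.bilinear.add_right, hd1, ho i j hij _ (heD i) _ (hdD j), ho i j hij _ (hdD i) _ (hdD j)] at hk
  exact one_ne_zero (show (1 : F) = 0 by linear_combination hk - htwo)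

end CfsgLib.Classical
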