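import Cfsg.Agent.Lib.ClassicalNonMaxAxes
import Cfsg.Agent.Lib.ClassicalUnitary
import Cfsg.Agent.Lib.ClassicalSymp

/-! Tensor product stabilisers with a monomial factor lie in decomposition stabilisers. -/

set_option autoImplicit false

namespace CfsgLib.NonMaxTensor

open Matrix CfsgLib.Classical
open scoped Kronecker

attribute [local instance] _root_.Classical.propDecidable

variable {ι : Type} [Fintype ι] [DecidableEq ι] {F : Type*} [Field F]

/-- pure tensors, transported -/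
def pur {n₁ n₂ : ℕ} (e : ι ≃ Fin n₁ × Fin n₂) (P : GL ι F) :
    (Fin n₁ → F) →ₗ[F] (Fin n₂ → F) →ₗ[F] (ι → F) :=
  LinearMap.mk₂ F (fun x v => (P : Matrix ι ι F) *ᵥ ((fun a : Fin n₁ × Fin n₂ => x a.1 * v a.2) ∘ e))
    (fun x x' v => by
      rw [← mulVec_add]; congr 1; funext i; simp only [Function.comp_apply, Pi.add_apply]; ring)
    (fun c x v => by
      rw [← mulVec_smul]; congr 1; funext i; simp only [Function.comp_apply, Pi.smul_apply, smul_eq_mul]; ring)
    (fun x v v' => by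
      rw [← mulVec_add]; congr 1; funext i; simp only [Function.comp_apply, Pi.add_apply]; ring)
    (fun c x v => by
      rw [← mulVec_smul]; congr 1; funext i; simp only [Function.comp_apply, Pi.smul_apply, smul_eq_mul]; ring)

lemma exists_pur_map {n₁ n₂ : ℕ} {e : ι ≃ Fin n₁ × Fin n₂} {P g : GL ι F}
    (hg : g ∈ Cfsg.Geo.tensorProductSubgroup n₁ n₂ e P) :
    ∃ (a : GL (Fin n₁) F) (b : GL (Fin n₂) F), ∀ x v,
      (g : Matrix ι ι F) *ᵥ pur e P x v =
        pur e P ((a : Matrix (Fin n₁) (Fin n₁) F) *ᵥ x) ((b : Matrix (Fin n₂) (Fin n₂) F) *ᵥ v) := by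
  obtain ⟨k, ⟨w, ⟨a, b, hw⟩, rfl⟩, rfl⟩ := hg
  refine ⟨a, b, fun x v => ?_⟩
  show ((P * _ * P⁻¹ : GL ι F) : Matrix ι ι F) *ᵥ
      ((P : Matrix ι ι F) *ᵥ ((fun a : Fin n₁ × Fin n₂ => x a.1 * v a.2) ∘ e)) = (P : Matrix ι ι F) *ᵥ _
  rw [mulVec_mulVec, ← Units.val_mul, inv_mul_cancel_right, Units.val_mul, ← mulVec_mulVec]
  congr 1
  show (Matrix.reindex e.symm e.symm (w : Matrix (Fin n₁ × Fin n₂) (Fin n₁ × Fin n₂) F)) *ᵥ _ = _
  rw [Matrix.reindex_apply, Equiv.symm_symm, Matrix.submatrix_mulVec_equiv, Function.comp_assoc,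
    Equiv.self_comp_symm, Function.comp_id, hw]
  funext i
  simp only [Function.comp_apply, Matrix.mulVec, dotProduct, Matrix.kroneckerMap_apply, Fintype.sum_prod_type,
    Finset.sum_mul_sum]
  exact Finset.sum_congr rfl fun c _ => Finset.sum_congr rfl fun d _ => by ring

lemma gram_eq {κ : Type} [Fintype κ] [DecidableEq κ] {σ : F → F} {f : (κ → F) → (κ → F) → F}
    (hl : ∀ x y v, f (x + y) v = f x v + f y v) (hsl : ∀ (c : F) x v, f (c • x) v = c * f x v)
    (hr : ∀ v x y, f v (x + y) = f v x + f v y) (hsr : ∀ (c : F) v x, f v (c • x) = σ c * f v x)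
    (x y : κ → F) : Cfsg.Geo.formOfGram σ (Cfsg.Geo.gramMatrix f) x y = f x y := by
  let fl : (κ → F) → (κ → F) →+ F := fun v => AddMonoidHom.mk' (fun x => f x v) fun x y => hl x y v
  let fr : (κ → F) → (κ → F) →+ F := fun v => AddMonoidHom.mk' (fun x => f v x) (hr v)
  conv_rhs => rw [pi_eq_sum_univ' x, show f _ y = fl y _ from rfl, map_sum]
  refine Finset.sum_congr rfl fun a _ => ?_
  show _ = f (x a • _) y
  rw [hsl]
  conv_rhs => rw [pi_eq_sum_univ' y, show f _ _ = fr _ _ from rfl, map_sum, Finset.mul_sum]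
  refine Finset.sum_congr rfl fun b _ => ?_
  show _ = x a * f _ (y b • _)
  rw [hsr, Cfsg.Geo.gramMatrix]; ring

lemma pur_form {n₁ n₂ : ℕ} {e : ι ≃ Fin n₁ × Fin n₂} {P : GL ι F} {σ : F → F}
    (hσ : ∀ a b, σ (a * b) = σ a * σ b) {f : (ι → F) → (ι → F) → F}
    {f₁ : (Fin n₁ → F) → (Fin n₁ → F) → F} {f₂ : (Fin n₂ → F) → (Fin n₂ → F) → F}
    (h₁ : ∀ x y, Cfsg.Geo.formOfGram σ (Cfsg.Geo.gramMatrix f₁) x y = f₁ x y)
    (h₂ : ∀ x y, Cfsg.Geo.formOfGram σ (Cfsg.Geo.gramMatrix f₂) x y = f₂ x y)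
    (hT : Cfsg.Geo.IsTensorFormStructure σ f f₁ f₂ e P) :
    ∃ c : F, c ≠ 0 ∧ ∀ x v x' v', f (pur e P x v) (pur e P x' v') = c * (f₁ x x' * f₂ v v') := by
  obtain ⟨c, hc, hT⟩ := hT
  refine ⟨c, hc, fun x v x' v' => (hT _ _).trans ?_⟩
  rw [← h₁, ← h₂, Cfsg.Geo.formOfGram, Cfsg.Geo.formOfGram, Cfsg.Geo.formOfGram]
  congr 1
  simp only [Fintype.sum_prod_type, Finset.sum_mul_sum, Matrix.kroneckerMap_apply, hσ]
  refine Finset.sum_congr rfl fun a _ => Finset.sum_congr rfl fun a' _ => ?_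
  refine Finset.sum_congr rfl fun b _ => Finset.sum_congr rfl fun b' _ => ?_
  ring

/-- The general criterion. -/
theorem exists_between_monomial {k n' : ℕ} (hdim : k * n' = Fintype.card ι)
    (G T : Subgroup (GL ι F)) {f : (ι → F) → (ι → F) → F}
    (hl : ∀ x y v, f (x + y) v = f x v + f y v) (hsl : ∀ (c : F) x v, f (c • x) v = c * f x v)
    {h' : (Fin n' → F) → (Fin n' → F) → F} (hnd : Cfsg.Geo.IsNondegenerateForm h') {γ : F} (hγ : γ ≠ 0)
    (L : Fin k → (Fin n' → F) →ₗ[F] (ι → F))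
    (hform : ∀ a b v v', f (L a v) (L b v') = if a = b then γ * h' v v' else 0)
    (hT : ∀ g ∈ T ⊓ G, ∃ (π : Equiv.Perm (Fin k)) (s : Fin k → F) (b : (Fin n' → F) →ₗ[F] (Fin n' → F)),
      ∀ a v, (g : Matrix ι ι F) *ᵥ L a v = s a • L (π a) (b v))
    {i j : Fin k} (hij : i ≠ j)
    (hg : ∃ g ∈ G, (∀ a, a ≠ i → ∀ v, (g : Matrix ι ι F) *ᵥ L a v = L a v) ∧
      (∀ v, ∃ v', (g : Matrix ι ι F) *ᵥ L i v = L i v') ∧
      (∃ z, z ≠ 0 ∧ (g : Matrix ι ι F) *ᵥ L i z = L i z) ∧ ∃ x, (g : Matrix ι ι F) *ᵥ L i x ≠ L i x)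
    (hh : ∃ g ∈ G, (∃ z, z ≠ 0 ∧ (g : Matrix ι ι F) *ᵥ L i z = L i z) ∧
      ∃ x, ∀ v', (g : Matrix ι ι F) *ᵥ L i x ≠ L i v') :
    ∃ K : Subgroup (GL ι F), T ⊓ G < K ∧ K < G := by
  have hpair : ∀ (v : Fin k → Fin n' → F) b v', f (∑ a, L a (v a)) (L b v') = γ * h' (v b) v' := by
    intro v b v'
    let fl : (ι → F) →+ F := AddMonoidHom.mk' (fun x => f x (L b v')) fun x y => hl x y _
    show fl _ = _
    rw [map_sum, Finset.sum_eq_single b (fun a _ hne => ?_) (by simp)]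
    · show f _ _ = _
      rw [hform, if_pos rfl]
    · show f _ _ = _
      rw [hform, if_neg hne]
  have hz : ∀ v, f 0 v = 0 := fun v => by simpa using hsl 0 0 v
  let Φ : (Fin k → Fin n' → F) →ₗ[F] (ι → F) :=
    ∑ a, (L a).comp (LinearMap.proj a)
  have hΦ : ∀ v, Φ v = ∑ a, L a (v a) := fun v => by simp [Φ]
  have hinj : Function.Injective Φ := by
    rw [injective_iff_map_eq_zero]
    intro v hv
    funext b
    by_contra hb
    obtain ⟨x, hx⟩ := (hnd (v b) hb).2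
    have := hpair v b x
    rw [← hΦ, hv, hz] at this
    exact mul_ne_zero hγ hx this.symm
  have hsurj : Function.Surjective Φ := by
    refine (LinearMap.injective_iff_surjective_of_finrank_eq_finrank ?_).mp hinj
    simp [Module.finrank_pi_fintype, hdim]
  have hsingle : ∀ a v, Φ (Pi.single a v) = L a v := fun a v => by
    rw [hΦ, Finset.sum_eq_single a (fun b _ hb => by simp [hb]) (by simp)]; simp
  have hLinj : ∀ a, Function.Injective (L a) := fun a v v' h => by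
    rw [← hsingle, ← hsingle] at h
    simpa using congrFun (hinj h) a
  have hsame : ∀ a b v v', L a v = L b v' → v ≠ 0 → a = b := fun a b v v' h hv => by
    rw [← hsingle, ← hsingle] at h
    by_contra hne
    exact hv (by simpa [hne] using congrFun (hinj h) a)
  let D : Fin k → Submodule F (ι → F) := fun a => LinearMap.range (L a)
  have hDr : ∀ a, Module.finrank F (D a) = n' := fun a => by
    rw [LinearMap.finrank_range_of_inj (hLinj a), Module.finrank_pi, Fintype.card_fin]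
  have hstab : ∀ (g : GL ι F) (π : Equiv.Perm (Fin k)),
      (∀ a v, (g : Matrix ι ι F) *ᵥ L a v ∈ D (π a)) → g ∈ Cfsg.Geo.decompositionStabilizer D := by
    intro g π h
    refine ⟨π, fun a => Submodule.eq_of_le_of_finrank_eq ?_ ?_⟩
    · rintro _ ⟨_, ⟨v, rfl⟩, rfl⟩
      rw [Matrix.toLin'_apply]; exact h a v
    · have hgi : Function.Injective (Matrix.toLin' (g : Matrix ι ι F)) := fun x y hxy => by
        rw [Matrix.toLin'_apply, Matrix.toLin'_apply] at hxy; exact mulVec_injective g hxy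
      rw [← LinearEquiv.finrank_eq (Submodule.equivMapOfInjective _ hgi (D a)), hDr, hDr]
  obtain ⟨g, hgG, hgfix, hgi, ⟨z, hz0, hgz⟩, x, hgx⟩ := hg
  obtain ⟨h, hhG, ⟨y, hy0, hhy⟩, x', hhx⟩ := hh
  let K := Cfsg.Geo.decompositionStabilizer D ⊓ G
  have hTK : T ⊓ G ≤ K := fun g hg => by
    obtain ⟨π, s, b, hb⟩ := hT g hg
    exact ⟨hstab g π fun a v => by rw [hb]; exact Submodule.smul_mem _ _ ⟨b v, rfl⟩, hg.2⟩
  refine ⟨K, lt_of_le_not_ge hTK fun hle => ?_, lt_of_le_not_ge inf_le_right fun hle => ?_⟩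
  · have hgK : g ∈ K := ⟨hstab g 1 fun a v => by
      rw [Equiv.Perm.one_apply]
      by_cases ha : a = i
      · obtain ⟨v', hv'⟩ := hgi v
        rw [ha, hv']; exact ⟨v', rfl⟩
      · rw [hgfix a ha]; exact ⟨v, rfl⟩, hgG⟩
    obtain ⟨π, s, b, hb⟩ := hT g (hle hgK)
    have hj : ∀ v, L j v = L (π j) (s j • b v) := fun v => by rw [map_smul, ← hb, hgfix j hij.symm]
    have hbv : ∀ v, s j • b v = v := fun v => by
      by_cases hv : v = 0
      · simp [hv]
      · have := hsame _ _ _ _ (hj v) hv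
        exact (hLinj j (by rw [hj v, ← this])).symm
    have hi : L i z = L (π i) (s i • b z) := by rw [map_smul, ← hb, hgz]
    have hπi := hsame _ _ _ _ hi hz0
    have hbz : s i • b z = z := (hLinj i (by rw [hi, ← hπi])).symm
    have hs : s i = s j := by
      by_contra hne
      have : (s i - s j) • b z = 0 := by rw [sub_smul, hbz, hbv, sub_self]
      have hb0 : b z = 0 := (smul_eq_zero.mp this).resolve_left (sub_ne_zero.mpr hne)
      exact hz0 (by rw [← hbv z, hb0, smul_zero])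
    refine hgx ?_
    rw [hb, ← hπi, ← map_smul, hs, hbv]
  · obtain ⟨τ, hτ⟩ := (hle hhG).1
    have hmem : ∀ v, (h : Matrix ι ι F) *ᵥ L i v ∈ D (τ i) := fun v => by
      rw [← hτ i, ← Matrix.toLin'_apply]; exact Submodule.mem_map_of_mem ⟨v, rfl⟩
    obtain ⟨w, hw⟩ := hmem y
    rw [hhy] at hw
    have hτi : i = τ i := hsame _ _ _ _ hw.symm hy0
    obtain ⟨w', hw'⟩ := hmem x'
    rw [← hτi] at hw'
    exact hhx w' hw'.symm

/-- a similitude of the small factor permuting the given axes makes the tensor stabiliser monomial -/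
lemma monomial_of_tensor {k n' : ℕ} (G : Subgroup (GL ι F)) {f : (ι → F) → (ι → F) → F}
    (hG : ∀ g ∈ G, ∀ x y, f ((g : Matrix ι ι F) *ᵥ x) ((g : Matrix ι ι F) *ᵥ y) = f x y)
    {h : (Fin k → F) → (Fin k → F) → F} (hh : Cfsg.Geo.IsNondegenerateForm h)
    (hsl : ∀ (r : F) x v, h (r • x) v = r * h x v)
    {h' : (Fin n' → F) → (Fin n' → F) → F} (hh' : Cfsg.Geo.IsNondegenerateForm h') (hn' : 0 < n')
    {E : (Fin k → F) →ₗ[F] (Fin n' → F) →ₗ[F] (ι → F)} {c : F} (hc : c ≠ 0)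
    (hE : ∀ x v x' v', f (E x v) (E x' v') = c * (h x x' * h' v v'))
    {w : Fin k → Fin k → F} {γ : F} (hγ : γ ≠ 0) (hw : ∀ i j, h (w i) (w j) = if i = j then γ else 0)
    (hmono : ∀ (a : GL (Fin k) F) (s : F), s ≠ 0 →
      (∀ x x', h ((a : Matrix (Fin k) (Fin k) F) *ᵥ x) ((a : Matrix (Fin k) (Fin k) F) *ᵥ x') = s * h x x') →
      ∀ i, ∃ j, ∃ r : F, (a : Matrix (Fin k) (Fin k) F) *ᵥ w i = r • w j)
    {g : GL ι F} (hgG : g ∈ G) (hg : ∃ (a : GL (Fin k) F) (b : GL (Fin n') F), ∀ x v,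
      (g : Matrix ι ι F) *ᵥ E x v =
        E ((a : Matrix (Fin k) (Fin k) F) *ᵥ x) ((b : Matrix (Fin n') (Fin n') F) *ᵥ v)) :
    ∃ (π : Equiv.Perm (Fin k)) (s : Fin k → F) (b : (Fin n' → F) →ₗ[F] (Fin n' → F)),
      ∀ a v, (g : Matrix ι ι F) *ᵥ E (w a) v = s a • E (w (π a)) (b v) := by
  obtain ⟨a, b, hab⟩ := hg
  obtain ⟨v₀, hv₀⟩ : ∃ v : Fin n' → F, v ≠ 0 :=
    ⟨Pi.single ⟨0, hn'⟩ 1, by simp⟩
  obtain ⟨v₁, hv₁⟩ := (hh' v₀ hv₀).2
  set A : Matrix (Fin k) (Fin k) F := (a : Matrix (Fin k) (Fin k) F) with hA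
  set B : Matrix (Fin n') (Fin n') F := (b : Matrix (Fin n') (Fin n') F) with hB
  have hrel : ∀ x x', h (A *ᵥ x) (A *ᵥ x') * h' (B *ᵥ v₀) (B *ᵥ v₁) = h x x' * h' v₀ v₁ := fun x x' => by
    have := hG g hgG (E x v₀) (E x' v₁)
    rw [hab, hab, hE, hE] at this
    exact mul_left_cancel₀ hc this
  have hbne : ∀ i, h' (B *ᵥ v₀) (B *ᵥ v₁) ≠ 0 := fun i h0 => by
    have := hrel (w i) (w i)
    rw [h0, mul_zero, hw, if_pos rfl] at this
    exact mul_ne_zero hγ hv₁ this.symm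
  have hsim : ∀ i : Fin k, ∃ j, ∃ r : F, A *ᵥ w i = r • w j := fun i => by
    refine hmono a (h' v₀ v₁ / h' (B *ᵥ v₀) (B *ᵥ v₁)) (div_ne_zero hv₁ (hbne i)) (fun x x' => ?_) i
    rw [div_mul_eq_mul_div, eq_div_iff (hbne i)]
    linear_combination hrel x x'
  choose π r hπ using hsim
  have hπi : Function.Injective π := fun i i' hii => by
    by_contra hne
    have hr0 : ∀ l, r l ≠ 0 := fun l h0 => by
      have h1 := hπ l
      rw [h0, zero_smul] at h1
      have h2 : w l = 0 := mulVec_injective a (by rw [← hA]; simpa using h1)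
      have h3 := hw l l
      rw [if_pos rfl, h2] at h3
      exact hγ (by rw [← h3]; simpa using hsl 0 0 0)
    have := hrel (w i) (w i')
    rw [hw i i', if_neg hne, zero_mul, hπ, hπ, hii, hsl] at this
    have h4 : h (w (π i')) (r i' • w (π i')) = 0 :=
      (mul_eq_zero.mp ((mul_eq_zero.mp this).resolve_right (hbne i))).resolve_left (hr0 i)
    obtain ⟨q, hq⟩ : ∃ q, A *ᵥ q = w (π i') := ⟨(r i')⁻¹ • w i', by
      rw [mulVec_smul, hπ, smul_smul, inv_mul_cancel₀ (hr0 i'), one_smul]⟩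
    have h5 := hrel q (w i')
    rw [hq, hπ, h4, zero_mul] at h5
    have h6 : q = (r i')⁻¹ • w i' := mulVec_injective a (by
      rw [← hA]
      show A *ᵥ q = A *ᵥ _
      rw [hq, mulVec_smul, hπ, smul_smul, inv_mul_cancel₀ (hr0 i'), one_smul])
    rw [h6, hsl, hw, if_pos rfl] at h5
    exact mul_ne_zero (mul_ne_zero (inv_ne_zero (hr0 i')) hγ) hv₁ h5.symm
  refine ⟨Equiv.ofBijective π (Finite.injective_iff_bijective.mp hπi), r, B.mulVecLin, fun i v => ?_⟩
  rw [hab, hπ, map_smul, LinearMap.smul_apply]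
  rfl

lemma coords {k : ℕ} {h : (Fin k → F) → (Fin k → F) → F}
    (hl : ∀ x y v, h (x + y) v = h x v + h y v) (hsl : ∀ (c : F) x v, h (c • x) v = c * h x v)
    {w : Fin k → Fin k → F} {γ : F} (hγ : γ ≠ 0) (hw : ∀ i j, h (w i) (w j) = if i = j then γ else 0)
    (y : Fin k → F) : y = ∑ j, (γ⁻¹ * h y (w j)) • w j := by
  have hsum : ∀ (c : Fin k → F) j, h (∑ i, c i • w i) (w j) = c j * γ := fun c j => by
    let fl : (Fin k → F) →+ F := AddMonoidHom.mk' (fun x => h x (w j)) fun x y => hl x y _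
    show fl _ = _
    rw [map_sum, Finset.sum_eq_single j (fun a _ hne => ?_) (by simp)]
    · show h _ _ = _
      rw [hsl, hw, if_pos rfl]
    · show h _ _ = _
      rw [hsl, hw, if_neg hne, mul_zero]
  have hli : LinearIndependent F w := by
    rw [Fintype.linearIndependent_iff]
    intro c hc j
    have h0 := hsum c j
    rw [hc, show h 0 (w j) = 0 by simpa using hsl 0 0 (w j)] at h0
    exact (mul_eq_zero.mp h0.symm).resolve_right hγ
  have hcard : Fintype.card (Fin k) = Module.finrank F (Fin k → F) := by simp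
  obtain ⟨c, hc⟩ := (Submodule.mem_span_range_iff_exists_fun F).mp
    ((hli.span_eq_top_of_card_eq_finrank' hcard).symm ▸ Submodule.mem_top (x := y))
  conv_lhs => rw [← hc]
  refine Finset.sum_congr rfl fun j _ => ?_
  rw [← hc, hsum, mul_comm (c j), inv_mul_cancel_left₀ hγ]

section Unitary

variable [Fintype F] {σ : F ≃+* F} (hq : Fintype.card F = 4) (hN : ∀ x : F, x ≠ 0 → x * σ x = 1)

omit hq hN in
lemma exists_orthonormal {m : ℕ} {h : (Fin m → F) → (Fin m → F) → F} (hh : Cfsg.Geo.IsUnitaryForm σ h) :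
    ∃ w : Fin m → Fin m → F, ∀ i j, h (w i) (w j) = if i = j then 1 else 0 := by
  let B : (Fin m → F) →ₛₗ[(σ : F →+* F)] (Fin m → F) →ₗ[F] F :=
    LinearMap.mk₂'ₛₗ (σ : F →+* F) (RingHom.id F) (fun u v => h v u)
      (fun u u' v => herm_add_right hh v u u') (fun c u v => herm_smul_right hh v c u)
      (fun u v v' => hh.add_left v v' u) (fun c u v => hh.smul_left c v u)
  obtain ⟨b, hb⟩ := CfsgLib.Classical.Diag.exists_orthonormal_basis (σ := (σ : F →+* F))
    (fun h' => hh.ne_refl (RingEquiv.ext fun x => RingHom.congr_fun h' x)) (fun a => hh.involutive a) B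
    (fun u v => (hh.herm u v).symm) ⊤ (fun w _ hw => by
      by_contra h0
      obtain ⟨x, hx⟩ := (hh.nondegenerate w h0).1
      exact hx (hw x Submodule.mem_top))
  have hk : Module.finrank F (⊤ : Submodule F (Fin m → F)) = m := by simp
  refine ⟨fun a => (b (a.cast hk.symm) : Fin m → F), fun a a' => ?_⟩
  have := hb (a'.cast hk.symm) (a.cast hk.symm)
  change h (b (a.cast hk.symm) : Fin m → F) (b (a'.cast hk.symm) : Fin m → F) = _ at this
  rw [this]
  by_cases ha : a = a'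
  · simp [ha]
  · rw [if_neg ha, if_neg (fun e => ha (by simpa [Fin.ext_iff] using e.symm))]

include hq hN

theorem exists_between_unitary {n' : ℕ} (hn' : 2 ≤ n') (hdim : 2 * n' = Fintype.card ι)
    (T : Subgroup (GL ι F)) {f : (ι → F) → (ι → F) → F} (hf : Cfsg.Geo.IsUnitaryForm σ f)
    {h : (Fin 2 → F) → (Fin 2 → F) → F} (hh : Cfsg.Geo.IsUnitaryForm σ h)
    {h' : (Fin n' → F) → (Fin n' → F) → F} (hh' : Cfsg.Geo.IsUnitaryForm σ h')
    (E : (Fin 2 → F) →ₗ[F] (Fin n' → F) →ₗ[F] (ι → F)) {c : F} (hc : c ≠ 0)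
    (hE : ∀ x v x' v', f (E x v) (E x' v') = c * (h x x' * h' v v'))
    (hT : ∀ g ∈ T ⊓ hSU f, ∃ (a : GL (Fin 2) F) (b : GL (Fin n') F), ∀ x v,
      (g : Matrix ι ι F) *ᵥ E x v =
        E ((a : Matrix (Fin 2) (Fin 2) F) *ᵥ x) ((b : Matrix (Fin n') (Fin n') F) *ᵥ v)) :
    ∃ K : Subgroup (GL ι F), T ⊓ hSU f < K ∧ K < hSU f := by
  have h2 : (2 : F) = 0 := by
    have := Nat.cast_card_eq_zero F; rw [hq] at this
    have h4 : (2 : F) * 2 = 0 := by rw [← this]; norm_num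
    exact (mul_eq_zero.mp h4).elim id id
  obtain ⟨w, hw⟩ := exists_orthonormal hh
  obtain ⟨z, hz⟩ := exists_orthonormal hh'
  let L : Fin 2 → (Fin n' → F) →ₗ[F] (ι → F) := fun a => E (w a)
  have hform : ∀ a b v v', f (L a v) (L b v') = if a = b then c * h' v v' else 0 := fun a b v v' => by
    show f (E (w a) v) (E (w b) v') = _
    rw [hE, hw]
    by_cases e : a = b
    · simp [e]
    · simp [e]
  have hmono : ∀ (a : GL (Fin 2) F) (s : F), s ≠ 0 →
      (∀ x x', h ((a : Matrix (Fin 2) (Fin 2) F) *ᵥ x) ((a : Matrix (Fin 2) (Fin 2) F) *ᵥ x') = s * h x x') →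
      ∀ i, ∃ j, ∃ r : F, (a : Matrix (Fin 2) (Fin 2) F) *ᵥ w i = r • w j := by
    intro a s hs hsim i
    obtain ⟨y, hy⟩ : ∃ y, y = (a : Matrix (Fin 2) (Fin 2) F) *ᵥ w i := ⟨_, rfl⟩
    rw [← hy]
    have hys : h y y = s := by rw [hy, hsim, hw, if_pos rfl, mul_one]
    have hs1 : s = 1 := by
      have h1 := hN s hs
      rw [← hys, herm_self_fixed hh, hys] at h1
      have : (s - 1) * (s - 1) = 0 := by linear_combination h1 + (1 - s) * h2
      exact sub_eq_zero.mp (mul_self_eq_zero.mp this)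
    have hexp := coords hh.add_left hh.smul_left one_ne_zero hw y
    rw [Fin.sum_univ_two, inv_one, one_mul, one_mul] at hexp
    obtain ⟨c0, hc0⟩ : ∃ c0, c0 = h y (w 0) := ⟨_, rfl⟩
    obtain ⟨c1, hc1⟩ : ∃ c1, c1 = h y (w 1) := ⟨_, rfl⟩
    rw [← hc0, ← hc1] at hexp
    have hn : c0 * σ c0 + c1 * σ c1 = 1 := by
      rw [← hs1, ← hys]
      conv_rhs => arg 1; rw [hexp]
      rw [hh.add_left, hh.smul_left, hh.smul_left, hh.herm (w 0), hh.herm (w 1), ← hc0, ← hc1]
    by_cases e0 : c0 = 0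
    · exact ⟨1, c1, by rw [hexp, e0, zero_smul, zero_add]⟩
    by_cases e1 : c1 = 0
    · exact ⟨0, c0, by rw [hexp, e1, zero_smul, add_zero]⟩
    rw [hN c0 e0, hN c1 e1] at hn
    exact absurd (show (1 : F) = 0 by linear_combination h2 - hn) one_ne_zero
  have hμ : σ (1 : F) = -1 := by rw [map_one]; linear_combination h2
  let i0 : Fin n' := ⟨0, by omega⟩
  let i1 : Fin n' := ⟨1, by omega⟩
  have h01 : i0 ≠ i1 := by simp [i0, i1]
  have hz01 : h' (z i0) (z i1) = 0 := by rw [hz, if_neg h01]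
  have hz10 : h' (z i1) (z i0) = 0 := by rw [hz, if_neg h01.symm]
  have hz0 : h' (z i0) (z i0) = 1 := by rw [hz, if_pos rfl]
  have hz1 : h' (z i1) (z i1) = 1 := by rw [hz, if_pos rfl]
  have hne : ∀ a, z a ≠ 0 := fun a e => by
    have := hz a a
    rw [if_pos rfl, e, herm_zero_left hh'] at this
    exact zero_ne_one this
  refine exists_between_monomial hdim (hSU f) T hf.add_left hf.smul_left hh'.nondegenerate hc L hform
    (fun g hg => monomial_of_tensor (hSU f) (fun g hg => mem_hIso.mp hg.1) hh.nondegenerate hh.smul_left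
      hh'.nondegenerate (by omega) hc hE one_ne_zero hw hmono hg.2 (hT g hg))
    (show (0 : Fin 2) ≠ 1 by decide) ?_ ?_
  · obtain ⟨u, hu⟩ : ∃ u, u = z i0 + z i1 := ⟨_, rfl⟩
    have huu : h' u u = 0 := by
      rw [hu, hh'.add_left, herm_add_right hh', herm_add_right hh', hz0, hz1, hz01, hz10]; linear_combination h2
    have hLu : f (L 0 u) (L 0 u) = 0 := by rw [hform, if_pos rfl, huu, mul_zero]
    have hu0 : h' (z i0) u = 1 := by rw [hu, herm_add_right hh', hz0, hz01, add_zero]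
    have hune : u ≠ 0 := fun e => by rw [e, herm_zero_right hh'] at hu0; exact zero_ne_one hu0
    refine ⟨utv f (L 0 u) 1, utv_mem_hSU hf hLu hμ, fun a ha v => ?_, fun v => ?_, ⟨u, hune, ?_⟩, z i0, ?_⟩
    · rw [utv_mulVec hf hLu, hform, if_neg ha]; simp
    · exact ⟨v + (1 * f (L 0 v) (L 0 u)) • u, by rw [utv_mulVec hf hLu, map_add, map_smul]⟩
    · rw [utv_mulVec hf hLu, hLu]; simp
    · rw [utv_mulVec hf hLu, hform, if_pos rfl, hu0, mul_one, one_mul]
      intro e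
      have e' : c • L 0 u = 0 := by simpa using e
      have := hform 0 0 (z i0) u
      rw [(smul_eq_zero.mp e').resolve_left hc, herm_zero_right hf, if_pos rfl, hu0, mul_one] at this
      exact hc this.symm
  · obtain ⟨u, hu⟩ : ∃ u, u = L 0 (z i0) + L 1 (z i0) := ⟨_, rfl⟩
    have hLu : f u u = 0 := by
      rw [hu, hf.add_left, herm_add_right hf, herm_add_right hf, hform, hform, hform, hform, if_pos rfl,
        if_pos rfl, if_neg (by decide), if_neg (by decide), hz0]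
      linear_combination c * h2
    have hval : ∀ v, f (L 0 v) u = c * h' v (z i0) := fun v => by
      rw [hu, herm_add_right hf, hform, hform, if_pos rfl, if_neg (by decide), add_zero]
    refine ⟨utv f u 1, utv_mem_hSU hf hLu hμ, ⟨z i1, hne i1, ?_⟩, z i0, fun v' e => ?_⟩
    · rw [utv_mulVec hf hLu, hval, hz10]; simp
    · rw [utv_mulVec hf hLu, hval, hz0, mul_one, one_mul] at e
      have := congrArg (fun x => f x (L 1 (z i0))) e
      simp only [hu, hf.add_left, hf.smul_left, hform, if_pos rfl, if_neg (show (0 : Fin 2) ≠ 1 by decide),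
        hz0, mul_one, zero_add] at this
      exact mul_ne_zero hc hc this

end Unitary

section Ternary

variable [Fintype F] (hq : Fintype.card F = 3)
include hq

lemma exists_ternary_axes {h : (Fin 3 → F) → (Fin 3 → F) → F} (hh : Cfsg.Geo.IsSymmetricForm h) :
    ∃ (w : Fin 3 → Fin 3 → F) (γ : F), γ ≠ 0 ∧ (∀ i j, h (w i) (w j) = if i = j then γ else 0) ∧
      ∀ (a : GL (Fin 3) F) (s : F), s ≠ 0 →
      (∀ x x', h ((a : Matrix (Fin 3) (Fin 3) F) *ᵥ x) ((a : Matrix (Fin 3) (Fin 3) F) *ᵥ x') = s * h x x') →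
      ∀ i, ∃ j, ∃ r : F, (a : Matrix (Fin 3) (Fin 3) F) *ᵥ w i = r • w j := by
  have h3 : (3 : F) = 0 := by
    have := Nat.cast_card_eq_zero F; rw [hq] at this; exact_mod_cast this
  have h2 : (2 : F) ≠ 0 := fun h => one_ne_zero (show (1 : F) = 0 by linear_combination h3 - h)
  have hb := hh.bilinear
  have hpol : ∀ x y, QuadraticMap.polar (fun v => h v v) x y = 2 * h x y := fun x y => by
    simp only [QuadraticMap.polar, hb.add_left, hb.add_right, hh.symm y x]; ring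
  have hQ : Cfsg.Geo.IsNondegenerateQuadraticForm (fun v => h v v) :=
    ⟨fun c v => by simp only [hb.smul_left, hb.smul_right]; ring,
      ⟨fun x y v => by simp only [hpol, hb.add_left]; ring, fun c x v => by simp only [hpol, hb.smul_left]; ring,
        fun v x y => by simp only [hpol, hb.add_right]; ring, fun c v x => by simp only [hpol, hb.smul_right]; ring⟩,
      fun v hv => by
        obtain ⟨⟨x, hx⟩, ⟨y, hy⟩⟩ := hh.nondegenerate v hv
        exact ⟨⟨x, by rw [hpol]; exact mul_ne_zero h2 hx⟩, ⟨y, by rw [hpol]; exact mul_ne_zero h2 hy⟩⟩⟩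
  obtain ⟨γ, w, hγ, -, hwQ, hwo⟩ := CfsgLib.NonMaxAxes.exists_axes hQ hq (k := 3) (⊤ : Submodule F (Fin 3 → F))
    (by simp) (fun v _ hv => by
      obtain ⟨⟨x, hx⟩, ⟨y, hy⟩⟩ := hQ.nondegenerate v hv
      exact ⟨⟨x, Submodule.mem_top, hx⟩, ⟨y, Submodule.mem_top, hy⟩⟩) (Or.inr rfl)
  have hw : ∀ i j, h (w i) (w j) = if i = j then γ else 0 := fun i j => by
    by_cases e : i = j
    · subst e; rw [if_pos rfl]; exact hwQ i
    · rw [if_neg e]
      have := hwo i j e
      rw [hpol] at this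
      exact (mul_eq_zero.mp this).resolve_left h2
  refine ⟨w, γ, hγ, hw, fun a s hs hsim => ?_⟩
  set A : Matrix (Fin 3) (Fin 3) F := (a : Matrix (Fin 3) (Fin 3) F) with hA
  obtain ⟨c, hc⟩ : ∃ c, c = fun i j => γ⁻¹ * h (A *ᵥ w i) (w j) := ⟨_, rfl⟩
  have hexp : ∀ i, A *ᵥ w i = ∑ j, c i j • w j := fun i => by
    rw [hc]; exact coords hb.add_left hb.smul_left hγ hw _
  have hhw : ∀ i j, h (A *ᵥ w i) (w j) = γ * c i j := fun i j => by
    rw [hc]; exact (mul_inv_cancel_left₀ hγ _).symm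
  have hdot : ∀ i i', c i 0 * c i' 0 + c i 1 * c i' 1 + c i 2 * c i' 2 = if i = i' then s else 0 := fun i i' => by
    refine mul_left_cancel₀ hγ ?_
    have := hsim (w i) (w i')
    rw [hw] at this
    rw [hexp i', Fin.sum_univ_three, hb.add_right, hb.add_right, hb.smul_right, hb.smul_right, hb.smul_right,
      hhw, hhw, hhw] at this
    by_cases e : i = i'
    · rw [if_pos e] at this ⊢; linear_combination this
    · rw [if_neg e] at this ⊢; linear_combination this
  have hsq : ∀ x : F, x ≠ 0 → x * x = 1 := fun x hx => by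
    have := FiniteField.pow_card_sub_one_eq_one x hx
    rwa [hq, show 3 - 1 = 2 from rfl, pow_two] at this
  rcases mul_self_eq_one_iff.mp (hsq s hs) with rfl | rfl
  · intro i
    have h := hdot i i
    rw [if_pos rfl] at h
    by_cases e0 : c i 0 = 0
    · by_cases e1 : c i 1 = 0
      · exact ⟨2, c i 2, by rw [hexp, Fin.sum_univ_three, e0, e1]; simp⟩
      · by_cases e2 : c i 2 = 0
        · exact ⟨1, c i 1, by rw [hexp, Fin.sum_univ_three, e0, e2]; simp⟩
        · rw [e0, hsq _ e1, hsq _ e2] at h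
          exact absurd (show (1 : F) = 0 by linear_combination h) one_ne_zero
    · by_cases e1 : c i 1 = 0
      · by_cases e2 : c i 2 = 0
        · exact ⟨0, c i 0, by rw [hexp, Fin.sum_univ_three, e1, e2]; simp⟩
        · rw [e1, hsq _ e0, hsq _ e2] at h
          exact absurd (show (1 : F) = 0 by linear_combination h) one_ne_zero
      · by_cases e2 : c i 2 = 0
        · rw [e2, hsq _ e0, hsq _ e1] at h
          exact absurd (show (1 : F) = 0 by linear_combination h) one_ne_zero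
        · rw [hsq _ e0, hsq _ e1, hsq _ e2] at h
          exact absurd (show (1 : F) = 0 by linear_combination h3 - h) one_ne_zero
  · exfalso
    have hzero : ∀ i, (c i 0 = 0 ∧ c i 1 ≠ 0 ∧ c i 2 ≠ 0) ∨ (c i 0 ≠ 0 ∧ c i 1 = 0 ∧ c i 2 ≠ 0) ∨
        (c i 0 ≠ 0 ∧ c i 1 ≠ 0 ∧ c i 2 = 0) := fun i => by
      have h := hdot i i
      rw [if_pos rfl] at h
      by_cases e0 : c i 0 = 0 <;> by_cases e1 : c i 1 = 0 <;> by_cases e2 : c i 2 = 0 <;>
        first
        | exact Or.inl ⟨e0, e1, e2⟩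
        | exact Or.inr (Or.inl ⟨e0, e1, e2⟩)
        | exact Or.inr (Or.inr ⟨e0, e1, e2⟩)
        | (exfalso
           simp only [e0, e1, e2, hsq, ne_eq, not_false_eq_true, mul_zero, zero_add, add_zero] at h
           first
           | exact one_ne_zero (show (1 : F) = 0 by linear_combination h)
           | exact one_ne_zero (show (1 : F) = 0 by linear_combination -h)
           | exact h2 (by linear_combination h)
           | exact h2 (by linear_combination -h)
           | exact one_ne_zero (show (1 : F) = 0 by linear_combination h - h3))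
    obtain ⟨p, hp⟩ : ∃ p, c 0 p = 0 := by
      rcases hzero 0 with h | h | h
      · exact ⟨0, h.1⟩
      · exact ⟨1, h.2.1⟩
      · exact ⟨2, h.2.2⟩
    have hall : ∀ i, c i p = 0 := by
      intro i
      by_cases e : (0 : Fin 3) = i
      · rwa [← e]
      have h := hdot 0 i
      rw [if_neg e] at h
      rcases hzero 0 with ⟨a0, a1, a2⟩ | ⟨a0, a1, a2⟩ | ⟨a0, a1, a2⟩ <;>
        rcases hzero i with ⟨b0, b1, b2⟩ | ⟨b0, b1, b2⟩ | ⟨b0, b1, b2⟩ <;>
        fin_cases p <;> first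
        | assumption
        | exact absurd hp a0
        | exact absurd hp a1
        | exact absurd hp a2
        | (exfalso
           simp only [a0, a1, a2, b0, b1, b2, zero_mul, mul_zero, zero_add, add_zero] at h
           simp [a0, a1, a2, b0, b1, b2] at h)
    obtain ⟨x, hx⟩ : ∃ x, A *ᵥ x = w p := ⟨((a⁻¹ : GL (Fin 3) F) : Matrix (Fin 3) (Fin 3) F) *ᵥ w p, by
      rw [hA, mulVec_mulVec, ← Units.val_mul, mul_inv_cancel, Units.val_one, one_mulVec]⟩
    have hxe := congrArg (fun y => h (A *ᵥ y) (w p)) (coords hb.add_left hb.smul_left hγ hw x)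
    simp only [hx, hw, if_pos, Fin.sum_univ_three, mulVec_add, mulVec_smul, hb.add_left, hb.smul_left, hhw,
      hall, mul_zero, add_zero] at hxe
    exact hγ hxe

theorem exists_between_symplectic {n' : ℕ} (hdim : 3 * n' = Fintype.card ι) (hn' : 0 < n')
    (T : Subgroup (GL ι F)) {f : (ι → F) → (ι → F) → F} (hf : Cfsg.Geo.IsSymplecticForm f)
    {h : (Fin 3 → F) → (Fin 3 → F) → F} (hh : Cfsg.Geo.IsSymmetricForm h)
    {h' : (Fin n' → F) → (Fin n' → F) → F} (hh' : Cfsg.Geo.IsSymplecticForm h')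
    (E : (Fin 3 → F) →ₗ[F] (Fin n' → F) →ₗ[F] (ι → F)) {c : F} (hc : c ≠ 0)
    (hE : ∀ x v x' v', f (E x v) (E x' v') = c * (h x x' * h' v v'))
    (hT : ∀ g ∈ T ⊓ isoGL f, ∃ (a : GL (Fin 3) F) (b : GL (Fin n') F), ∀ x v,
      (g : Matrix ι ι F) *ᵥ E x v =
        E ((a : Matrix (Fin 3) (Fin 3) F) *ᵥ x) ((b : Matrix (Fin n') (Fin n') F) *ᵥ v)) :
    ∃ K : Subgroup (GL ι F), T ⊓ isoGL f < K ∧ K < isoGL f := by
  obtain ⟨w, γ, hγ, hw, hmono⟩ := exists_ternary_axes hq hh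
  let L : Fin 3 → (Fin n' → F) →ₗ[F] (ι → F) := fun a => E (w a)
  have hform : ∀ a b v v', f (L a v) (L b v') = if a = b then (c * γ) * h' v v' else 0 := fun a b v v' => by
    show f (E (w a) v) (E (w b) v') = _
    rw [hE, hw]
    by_cases e : a = b
    · simp [e, mul_assoc]
    · simp [e]
  obtain ⟨u, hu⟩ : ∃ u : Fin n' → F, u ≠ 0 := ⟨Pi.single ⟨0, hn'⟩ 1, by simp⟩
  obtain ⟨x, hx⟩ := (hh'.nondegenerate u hu).1
  refine exists_between_monomial hdim (isoGL f) T hf.bilinear.add_left hf.bilinear.smul_left hh'.nondegenerate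
    (mul_ne_zero hc hγ) L hform
    (fun g hg => monomial_of_tensor (isoGL f) (fun g hg => mem_isoGL.mp hg) hh.nondegenerate hh.bilinear.smul_left
      hh'.nondegenerate hn' hc hE hγ hw hmono hg.2 (hT g hg))
    (show (0 : Fin 3) ≠ 1 by decide) ?_ ?_
  · refine ⟨stv f (L 0 u) 1, stv_mem_isoGL hf _ _, fun a ha v => ?_, fun v => ?_, ⟨u, hu, ?_⟩, x, ?_⟩
    · exact stv_fix hf _ _ (by rw [hform, if_neg ha])
    · exact ⟨v + (1 * f (L 0 v) (L 0 u)) • u, by rw [stv_mulVec hf, map_add, map_smul]⟩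
    · exact stv_fix hf _ _ (hf.alternating _)
    · rw [stv_mulVec hf, hform, if_pos rfl, one_mul]
      intro e
      have e' : L 0 u = 0 := by
        have : (c * γ * h' x u) • L 0 u = 0 := by simpa using e
        exact (smul_eq_zero.mp this).resolve_left (mul_ne_zero (mul_ne_zero hc hγ) hx)
      have := hform 0 0 x u
      rw [e', f_zero_right hf.bilinear, if_pos rfl] at this
      exact mul_ne_zero (mul_ne_zero hc hγ) hx this.symm
  · obtain ⟨d, hd⟩ : ∃ d, d = L 0 u + L 1 u := ⟨_, rfl⟩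
    have hval : ∀ v, f (L 0 v) d = c * γ * h' v u := fun v => by
      rw [hd, hf.bilinear.add_right, hform, hform, if_pos rfl, if_neg (by decide), add_zero]
    refine ⟨stv f d 1, stv_mem_isoGL hf _ _, ⟨u, hu, stv_fix hf _ _ (by rw [hval, hh'.alternating, mul_zero])⟩,
      x, fun v' e => ?_⟩
    rw [stv_mulVec hf, hval, one_mul] at e
    obtain ⟨y, hy⟩ := (hh'.nondegenerate u hu).2
    have := congrArg (fun z => f z (L 1 y)) e
    simp only [hd, hf.bilinear.add_left, hf.bilinear.smul_left, hform, if_pos,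
      if_neg (show (0 : Fin 3) ≠ 1 by decide), zero_add] at this
    exact mul_ne_zero (mul_ne_zero (mul_ne_zero hc hγ) hx) (mul_ne_zero (mul_ne_zero hc hγ) hy) this

theorem exists_between_orthogonal {n' : ℕ} (hdim : 3 * n' = Fintype.card ι) (hn' : 4 ≤ n')
    (T : Subgroup (GL ι F)) {Q : (ι → F) → F} (hQ : Cfsg.Geo.IsNondegenerateQuadraticForm Q)
    {h : (Fin 3 → F) → (Fin 3 → F) → F} (hh : Cfsg.Geo.IsSymmetricForm h)
    {h' : (Fin n' → F) → (Fin n' → F) → F} (hh' : Cfsg.Geo.IsSymmetricForm h')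
    (E : (Fin 3 → F) →ₗ[F] (Fin n' → F) →ₗ[F] (ι → F)) {c : F} (hc : c ≠ 0)
    (hE : ∀ x v x' v', QuadraticMap.polar Q (E x v) (E x' v') = c * (h x x' * h' v v'))
    (hT : ∀ g ∈ T ⊓ Cfsg.Geo.omegaGL Q, ∃ (a : GL (Fin 3) F) (b : GL (Fin n') F), ∀ x v,
      (g : Matrix ι ι F) *ᵥ E x v =
        E ((a : Matrix (Fin 3) (Fin 3) F) *ᵥ x) ((b : Matrix (Fin n') (Fin n') F) *ᵥ v)) :
    ∃ K : Subgroup (GL ι F), T ⊓ Cfsg.Geo.omegaGL Q < K ∧ K < Cfsg.Geo.omegaGL Q := by
  have h3 : (3 : F) = 0 := by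
    have := Nat.cast_card_eq_zero F; rw [hq] at this; exact_mod_cast this
  have h2 : (2 : F) ≠ 0 := fun h => one_ne_zero (show (1 : F) = 0 by linear_combination h3 - h)
  have hα : ¬ IsSquare (-1 : F) := by
    rintro ⟨r, hr⟩
    by_cases h : r = 0
    · rw [h, mul_zero] at hr; exact one_ne_zero (neg_eq_zero.mp hr)
    · have := FiniteField.pow_card_sub_one_eq_one r h
      rw [hq, show 3 - 1 = 2 from rfl, pow_two, ← hr] at this
      exact h2 (by linear_combination -this)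
  obtain ⟨w, γ, hγ, hw, hmono⟩ := exists_ternary_axes hq hh
  let L : Fin 3 → (Fin n' → F) →ₗ[F] (ι → F) := fun a => E (w a)
  have hform : ∀ a b v v', QuadraticMap.polar Q (L a v) (L b v') = if a = b then (c * γ) * h' v v' else 0 :=
    fun a b v v' => by
      show QuadraticMap.polar Q (E (w a) v) (E (w b) v') = _
      rw [hE, hw]
      by_cases e : a = b
      · simp [e, mul_assoc]
      · simp [e]
  have hG : ∀ g ∈ Cfsg.Geo.omegaGL Q, ∀ x y,
      QuadraticMap.polar Q ((g : Matrix ι ι F) *ᵥ x) ((g : Matrix ι ι F) *ᵥ y) = QuadraticMap.polar Q x y :=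
    fun g hg x y => by
      simp only [QuadraticMap.polar, ← mulVec_add, iso_Q (omega_le_isometry hg)]
  obtain ⟨l, hl⟩ : ∃ l, n' = l + 1 := ⟨n' - 1, by omega⟩
  obtain ⟨b, horth, hone, -⟩ := CfsgLib.Classical.Diag.exists_diag_basis h2 (toBil hh'.bilinear)
    (fun u v => hh'.symm u v) hα ⊤ (fun v _ hv => by
      by_contra h0
      obtain ⟨x, hx⟩ := (hh'.nondegenerate v h0).2
      exact hx (hv x Submodule.mem_top)) (show Module.finrank F (⊤ : Submodule F (Fin n' → F)) = l + 1 by simp [hl])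
  let z : Fin (l + 1) → Fin n' → F := fun a => (b a : Fin n' → F)
  let i0 : Fin (l + 1) := ⟨0, by omega⟩
  let i1 : Fin (l + 1) := ⟨1, by omega⟩
  let i2 : Fin (l + 1) := ⟨2, by omega⟩
  have z00 : h' (z i0) (z i0) = 1 := hone i0 (by simp [i0, Fin.ext_iff]; omega)
  have z11 : h' (z i1) (z i1) = 1 := hone i1 (by simp [i1, Fin.ext_iff]; omega)
  have z22 : h' (z i2) (z i2) = 1 := hone i2 (by simp [i2, Fin.ext_iff]; omega)
  have z01 : h' (z i0) (z i1) = 0 := horth i0 i1 (by simp [i0, i1])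
  have z02 : h' (z i0) (z i2) = 0 := horth i0 i2 (by simp [i0, i2])
  have z12 : h' (z i1) (z i2) = 0 := horth i1 i2 (by simp [i1, i2])
  have z10 : h' (z i1) (z i0) = 0 := (hh'.symm _ _).trans z01
  have z20 : h' (z i2) (z i0) = 0 := (hh'.symm _ _).trans z02
  have z21 : h' (z i2) (z i1) = 0 := (hh'.symm _ _).trans z12
  obtain ⟨κ, hκ, hκ0⟩ : ∃ κ, κ = c * γ ∧ κ ≠ 0 := ⟨_, rfl, mul_ne_zero hc hγ⟩
  rw [← hκ] at hform
  have hQL : ∀ a v, Q (L a v) = 2 * (κ * h' v v) := fun a v => by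
    have := hform a a v v
    rw [pf_self hQ, if_pos rfl] at this
    linear_combination 2 * this - Q (L a v) * h3
  obtain ⟨d, hd⟩ : ∃ d, d = L 0 (z i0) + L 0 (z i1) := ⟨_, rfl⟩
  have hda : Q (L 0 (z i0)) = 2 * κ := by rw [hQL, z00, mul_one]
  have hdQ : Q d = κ := by
    rw [hd, q_add hQ, hQL, hQL, hform, if_pos rfl, z00, z11, z01]; linear_combination κ * h3
  have hne2 : 2 * κ ≠ 0 := mul_ne_zero h2 hκ0
  have hza : Q (L 0 (z i0)) ≠ 0 := hda.symm ▸ hne2
  have hzd : Q d ≠ 0 := hdQ.symm ▸ hκ0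
  have hpfd : ∀ a v, QuadraticMap.polar Q (L a v) d = if a = 0 then κ * (h' v (z i0) + h' v (z i1)) else 0 :=
    fun a v => by
      rw [hd, hQ.polar_bilinear.add_right, hform, hform]
      by_cases e : a = 0
      · simp [e, mul_add]
      · simp [e]
  refine exists_between_monomial hdim (Cfsg.Geo.omegaGL Q) T hQ.polar_bilinear.add_left
    hQ.polar_bilinear.smul_left hh'.nondegenerate hκ0 L hform
    (fun g hg => monomial_of_tensor (Cfsg.Geo.omegaGL Q) hG hh.nondegenerate hh.bilinear.smul_left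
      hh'.nondegenerate (by omega) hc hE hγ hw hmono hg.2 (hT g hg))
    (show (0 : Fin 3) ≠ 1 by decide) ?_ ?_
  · obtain ⟨g, hgdef⟩ : ∃ g, g = qR hQ (L 0 (z i0)) * qR hQ d * (qR hQ (L 0 (z i0)))⁻¹ * (qR hQ d)⁻¹ := ⟨_, rfl⟩
    have hgm : ∀ x, (g : Matrix ι ι F) *ᵥ x = (qR hQ (L 0 (z i0)) : Matrix ι ι F) *ᵥ
        ((qR hQ d : Matrix ι ι F) *ᵥ ((qR hQ (L 0 (z i0)) : Matrix ι ι F) *ᵥ
          ((qR hQ d : Matrix ι ι F) *ᵥ x))) := fun x => by
      rw [hgdef, qR_inv hQ, qR_inv hQ, Units.val_mul, Units.val_mul, Units.val_mul, ← mulVec_mulVec,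
        ← mulVec_mulVec, ← mulVec_mulVec]
    have ha0 : ∀ v, ∃ v', (qR hQ (L 0 (z i0)) : Matrix ι ι F) *ᵥ L 0 v = L 0 v' := fun v => by
      rw [qR_mulVec hQ hza]
      exact ⟨v - ((Q (L 0 (z i0)))⁻¹ * QuadraticMap.polar Q (L 0 v) (L 0 (z i0))) • z i0,
        by rw [map_sub, map_smul]⟩
    have hd0 : ∀ v, ∃ v', (qR hQ d : Matrix ι ι F) *ᵥ L 0 v = L 0 v' := fun v => by
      rw [qR_mulVec hQ hzd]
      exact ⟨v - ((Q d)⁻¹ * QuadraticMap.polar Q (L 0 v) d) • (z i0 + z i1),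
        by rw [map_sub, map_smul, map_add, hd]⟩
    have hfix : ∀ x, QuadraticMap.polar Q x (L 0 (z i0)) = 0 → QuadraticMap.polar Q x d = 0 →
        (g : Matrix ι ι F) *ᵥ x = x := fun x hxa hxd => by
      have e1 : (qR hQ (L 0 (z i0)) : Matrix ι ι F) *ᵥ x = x := by rw [qR_mulVec hQ hza, hxa]; simp
      have e2 : (qR hQ d : Matrix ι ι F) *ᵥ x = x := by rw [qR_mulVec hQ hzd, hxd]; simp
      rw [hgm, e2, e1, e2, e1]
    refine ⟨g, hgdef ▸ comm_mem_omegaGL (qR_mem_isometry hQ hza) (qR_mem_isometry hQ hzd),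
      fun a ha v => hfix _ (by rw [hform, if_neg ha]) (by rw [hpfd, if_neg ha]),
      fun v => ?_, ⟨z i2, fun e => ?_, hfix _ ?_ ?_⟩, z i0, ?_⟩
    · obtain ⟨v1, h1⟩ := hd0 v
      obtain ⟨v2, h2'⟩ := ha0 v1
      obtain ⟨v3, h3'⟩ := hd0 v2
      obtain ⟨v4, h4'⟩ := ha0 v3
      exact ⟨v4, by rw [hgm, h1, h2', h3', h4']⟩
    · rw [e, f_zero_left hh'.bilinear] at z22
      exact zero_ne_one z22
    · rw [hform, if_pos rfl, z20, mul_zero]
    · rw [hpfd, if_pos rfl, z20, z21]; ring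
    · have e1 : (qR hQ d : Matrix ι ι F) *ᵥ L 0 (z i0) = -L 0 (z i1) := by
        rw [qR_mulVec hQ hzd, hpfd, if_pos rfl, z00, z01, hdQ, add_zero, mul_one, inv_mul_cancel₀ hκ0, one_smul,
          hd]
        abel
      have e2 : (qR hQ (L 0 (z i0)) : Matrix ι ι F) *ᵥ L 0 (z i1) = L 0 (z i1) := by
        rw [qR_mulVec hQ hza, hform, if_pos rfl, z10]; simp
      have e3 : (qR hQ d : Matrix ι ι F) *ᵥ L 0 (z i1) = -L 0 (z i0) := by
        rw [qR_mulVec hQ hzd, hpfd, if_pos rfl, z10, z11, hdQ, zero_add, mul_one, inv_mul_cancel₀ hκ0, one_smul,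
          hd]
        abel
      have e4 : (qR hQ (L 0 (z i0)) : Matrix ι ι F) *ᵥ L 0 (z i0) = -L 0 (z i0) := by
        rw [qR_mulVec hQ hza, hform, if_pos rfl, z00, mul_one, hda,
          show (2 * κ)⁻¹ * κ = 2 from by field_simp; linear_combination -h3, two_smul]
        abel
      rw [hgm, e1, mulVec_neg, e2, mulVec_neg, e3, neg_neg, e4]
      intro e
      have := congrArg (fun x => QuadraticMap.polar Q x (L 0 (z i0))) e
      simp only [pf_neg_left hQ, hform, if_pos, z00, mul_one] at this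
      exact hne2 (by linear_combination -this)
  · obtain ⟨u, hu⟩ : ∃ u, u = L 0 (z i0) + L 1 (z i0) := ⟨_, rfl⟩
    have huQ : Q u = κ := by
      rw [hu, q_add hQ, hQL, hQL, hform, if_neg (by decide), z00]; linear_combination κ * h3
    have hzu : Q u ≠ 0 := huQ.symm ▸ hκ0
    have hpu : ∀ v, QuadraticMap.polar Q (L 0 v) u = κ * h' v (z i0) := fun v => by
      rw [hu, hQ.polar_bilinear.add_right, hform, hform, if_pos rfl, if_neg (by decide), add_zero]
    have hfix : ∀ x, QuadraticMap.polar Q x u = 0 → QuadraticMap.polar Q x d = 0 →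
        ((qR hQ u * qR hQ d * (qR hQ u)⁻¹ * (qR hQ d)⁻¹ : GL ι F) : Matrix ι ι F) *ᵥ x = x := fun x hxa hxd => by
      have e1 : (qR hQ u : Matrix ι ι F) *ᵥ x = x := by rw [qR_mulVec hQ hzu, hxa]; simp
      have e2 : (qR hQ d : Matrix ι ι F) *ᵥ x = x := by rw [qR_mulVec hQ hzd, hxd]; simp
      rw [qR_inv hQ, qR_inv hQ, Units.val_mul, Units.val_mul, Units.val_mul, ← mulVec_mulVec,
        ← mulVec_mulVec, ← mulVec_mulVec, e2, e1, e2, e1]
    refine ⟨_, comm_mem_omegaGL (qR_mem_isometry hQ hzu) (qR_mem_isometry hQ hzd),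
      ⟨z i2, fun e => ?_, hfix _ ?_ ?_⟩, z i0, fun v' => ?_⟩
    · rw [e, f_zero_left hh'.bilinear] at z22
      exact zero_ne_one z22
    · rw [hpu, z20, mul_zero]
    · rw [hpfd, if_pos rfl, z20, z21]; ring
    · have e1 : (qR hQ d : Matrix ι ι F) *ᵥ L 0 (z i0) = -L 0 (z i1) := by
        rw [qR_mulVec hQ hzd, hpfd, if_pos rfl, z00, z01, hdQ, add_zero, mul_one, inv_mul_cancel₀ hκ0, one_smul,
          hd]
        abel
      have e2 : (qR hQ u : Matrix ι ι F) *ᵥ L 0 (z i1) = L 0 (z i1) := by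
        rw [qR_mulVec hQ hzu, hpu, z10]; simp
      have e3 : (qR hQ d : Matrix ι ι F) *ᵥ L 0 (z i1) = -L 0 (z i0) := by
        rw [qR_mulVec hQ hzd, hpfd, if_pos rfl, z10, z11, hdQ, zero_add, mul_one, inv_mul_cancel₀ hκ0, one_smul,
          hd]
        abel
      have e4 : (qR hQ u : Matrix ι ι F) *ᵥ L 0 (z i0) = -L 1 (z i0) := by
        rw [qR_mulVec hQ hzu, hpu, z00, huQ, mul_one, inv_mul_cancel₀ hκ0, one_smul, hu]
        abel
      intro e
      rw [qR_inv hQ, qR_inv hQ, Units.val_mul, Units.val_mul, Units.val_mul, ← mulVec_mulVec, ← mulVec_mulVec,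
        ← mulVec_mulVec, e1, mulVec_neg, e2, mulVec_neg, e3, neg_neg, e4] at e
      have := congrArg (fun x => QuadraticMap.polar Q x (L 1 (z i0))) e
      simp only [pf_neg_left hQ, hform, if_pos, if_neg (show (0 : Fin 3) ≠ 1 by decide), z00, mul_one] at this
      exact hκ0 (neg_eq_zero.mp this)

end Ternary

end CfsgLib.NonMaxTensor
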