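import Cfsg.Agent.Lib.ClassicalNonMaxTensor

/-! Symplectic tensor stabilisers over two elements are not maximal in the orthogonal group. -/

set_option autoImplicit false

namespace CfsgLib.NonMaxTensorOmega

open Matrix CfsgLib.Classical CfsgLib.NonMaxTensor
open scoped Kronecker

attribute [local instance] _root_.Classical.propDecidable

/-- elements conjugating `J` to itself or its inverse -/
def twist {G : Type*} [Group G] (J : G) : Subgroup G where
  carrier := {g | g * J * g⁻¹ = J ∨ g * J * g⁻¹ = J⁻¹}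
  one_mem' := Or.inl (by simp)
  mul_mem' := by
    intro a b ha hb
    simp only [Set.mem_setOf_eq] at ha hb ⊢
    have e : a * b * J * (a * b)⁻¹ = a * (b * J * b⁻¹) * a⁻¹ := by group
    have e' : a * J⁻¹ * a⁻¹ = (a * J * a⁻¹)⁻¹ := by group
    rcases hb with hb | hb <;> rcases ha with ha | ha <;> rw [e, hb]
    · exact Or.inl ha
    · exact Or.inr ha
    · exact Or.inr (by rw [e', ha])
    · exact Or.inl (by rw [e', ha, inv_inv])
  inv_mem' := by
    intro a ha
    simp only [Set.mem_setOf_eq, inv_inv] at ha ⊢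
    rcases ha with ha | ha
    · left; conv_lhs => rw [← ha]
      group
    · right
      have : a * J⁻¹ * a⁻¹ = J := by
        rw [show a * J⁻¹ * a⁻¹ = (a * J * a⁻¹)⁻¹ by group, ha, inv_inv]
      conv_lhs => rw [← this]
      group

variable {ι : Type} [Fintype ι] [DecidableEq ι] {F : Type*} [Field F] [Fintype F]

lemma pur_kron {n₁ n₂ : ℕ} (e : ι ≃ Fin n₁ × Fin n₂) (P : GL ι F) (a : GL (Fin n₁) F) :
    ∃ J : GL ι F, ∀ x v,
      (J : Matrix ι ι F) *ᵥ pur e P x v = pur e P ((a : Matrix (Fin n₁) (Fin n₁) F) *ᵥ x) v := by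
  have h1 : ((a : Matrix (Fin n₁) (Fin n₁) F) ⊗ₖ (1 : Matrix (Fin n₂) (Fin n₂) F)) *
      (((a⁻¹ : GL (Fin n₁) F) : Matrix (Fin n₁) (Fin n₁) F) ⊗ₖ (1 : Matrix (Fin n₂) (Fin n₂) F)) = 1 := by
    rw [← Matrix.mul_kronecker_mul, mul_one, ← Units.val_mul, mul_inv_cancel, Units.val_one,
      Matrix.one_kronecker_one]
  let w : GL (Fin n₁ × Fin n₂) F := ⟨_, _, h1, mul_eq_one_comm.mp h1⟩
  refine ⟨P * Cfsg.Geo.glReindex e.symm w * P⁻¹, fun x v => ?_⟩
  show ((P * _ * P⁻¹ : GL ι F) : Matrix ι ι F) *ᵥ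
      ((P : Matrix ι ι F) *ᵥ ((fun a : Fin n₁ × Fin n₂ => x a.1 * v a.2) ∘ e)) = (P : Matrix ι ι F) *ᵥ _
  rw [mulVec_mulVec, ← Units.val_mul, inv_mul_cancel_right, Units.val_mul, ← mulVec_mulVec]
  congr 1
  show (Matrix.reindex e.symm e.symm (w : Matrix (Fin n₁ × Fin n₂) (Fin n₁ × Fin n₂) F)) *ᵥ _ = _
  rw [Matrix.reindex_apply, Equiv.symm_symm, Matrix.submatrix_mulVec_equiv, Function.comp_assoc,
    Equiv.self_comp_symm, Function.comp_id]
  funext i
  show ∑ p : Fin n₁ × Fin n₂, ((a : Matrix (Fin n₁) (Fin n₁) F) ⊗ₖ (1 : Matrix (Fin n₂) (Fin n₂) F)) (e i) p *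
    (x p.1 * v p.2) = _
  simp [Matrix.kroneckerMap_apply, Fintype.sum_prod_type, Matrix.one_apply, Matrix.mulVec, dotProduct,
    Finset.sum_mul, mul_assoc]

lemma pur_ext {n₁ n₂ : ℕ} {e : ι ≃ Fin n₁ × Fin n₂} {P : GL ι F} {A B : GL ι F}
    (h : ∀ x v, (A : Matrix ι ι F) *ᵥ pur e P x v = (B : Matrix ι ι F) *ᵥ pur e P x v) : A = B := by
  refine gl_ext_mulVec fun y => ?_
  obtain ⟨z, rfl⟩ : ∃ z, (P : Matrix ι ι F) *ᵥ z = y := ⟨((P⁻¹ : GL ι F) : Matrix ι ι F) *ᵥ y, by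
    rw [mulVec_mulVec, ← Units.val_mul, mul_inv_cancel, Units.val_one, one_mulVec]⟩
  have hz : (P : Matrix ι ι F) *ᵥ z =
      ∑ j, pur e P (Pi.single j 1) (fun c => z (e.symm (j, c))) := by
    show _ = ∑ j, (P : Matrix ι ι F) *ᵥ _
    rw [← Matrix.mulVec_sum]
    congr 1
    funext i
    rw [Finset.sum_apply, Finset.sum_eq_single (e i).1 (fun j _ hj => by simp [hj.symm]) (by simp)]
    simp
  rw [hz, Matrix.mulVec_sum, Matrix.mulVec_sum]
  exact Finset.sum_congr rfl fun j _ => h _ _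

theorem exists_between {n₂ : ℕ} (hq : Fintype.card F = 2) (h5 : 5 ≤ Fintype.card ι) (h3 : 3 ≤ n₂)
    (e : ι ≃ Fin 2 × Fin n₂) (P : GL ι F) {Q : (ι → F) → F} (hQ : Cfsg.Geo.IsNondegenerateQuadraticForm Q)
    {f₁ : (Fin 2 → F) → (Fin 2 → F) → F} {f₂ : (Fin n₂ → F) → (Fin n₂ → F) → F}
    (hf₁ : Cfsg.Geo.IsSymplecticForm f₁) (hf₂ : Cfsg.Geo.IsSymplecticForm f₂) {c : F} (hc : c ≠ 0)
    (hE : ∀ x v x' v', QuadraticMap.polar Q (pur e P x v) (pur e P x' v') = c * (f₁ x x' * f₂ v v'))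
    (hpure : ∀ x v, Q (pur e P x v) = 0) :
    ∃ K : Subgroup (GL ι F), Cfsg.Geo.tensorProductSubgroup 2 n₂ e P ⊓ Cfsg.Geo.omegaGL Q < K ∧
      K < Cfsg.Geo.omegaGL Q := by
  have htwo : (2 : F) = 0 := by
    have := Nat.cast_card_eq_zero F; rw [hq] at this; exact_mod_cast this
  have hbit : ∀ s : F, s = 0 ∨ s = 1 := fun s => by
    by_cases hs : s = 0
    · exact Or.inl hs
    · refine Or.inr ?_
      have := FiniteField.pow_card_sub_one_eq_one s hs
      rwa [hq, show 2 - 1 = 1 from rfl, pow_one] at this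
  have h11 : (1 : F) + 1 = 0 := by linear_combination htwo
  have hneg : (-1 : F) = 1 := by linear_combination -htwo
  have hc1 : c = 1 := (hbit c).resolve_left hc
  subst hc1
  -- the small factor
  have hw : !![(0 : F), 1; 1, 1] * !![(1 : F), 1; 1, 0] = 1 := by
    ext i j; fin_cases i <;> fin_cases j <;> simp [Matrix.mul_apply, Fin.sum_univ_two, h11]
  let om : GL (Fin 2) F := ⟨_, _, hw, mul_eq_one_comm.mp hw⟩
  obtain ⟨x0, hx0⟩ : ∃ x0 : Fin 2 → F, x0 = ![1, 0] := ⟨_, rfl⟩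
  obtain ⟨y, hy⟩ : ∃ y : Fin 2 → F, y = ![0, 1] := ⟨_, rfl⟩
  have hx0y : f₁ x0 y = 1 := by
    refine (hbit _).resolve_left fun h0 => ?_
    have hne : x0 ≠ 0 := fun e => by simpa [hx0] using congrFun e 0
    obtain ⟨z, hz⟩ := (hf₁.nondegenerate x0 hne).2
    refine hz ?_
    have : z = z 0 • x0 + z 1 • y := by rw [hx0, hy]; ext i; fin_cases i <;> simp
    rw [this, hf₁.bilinear.add_right, hf₁.bilinear.smul_right, hf₁.bilinear.smul_right, hf₁.alternating, h0]
    simp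
  have hyx0 : f₁ y x0 = 1 := by rw [hf₁.skew, hx0y, hneg]
  have homx : (om : Matrix (Fin 2) (Fin 2) F) *ᵥ x0 = y := by
    rw [hx0, hy]; show !![(0 : F), 1; 1, 1] *ᵥ _ = _
    ext i; fin_cases i <;> simp
  have homy : (om : Matrix (Fin 2) (Fin 2) F) *ᵥ y = x0 + y := by
    rw [hx0, hy]; show !![(0 : F), 1; 1, 1] *ᵥ _ = _
    ext i; fin_cases i <;> simp
  obtain ⟨J, hJ⟩ := pur_kron e P om
  -- vectors of the large factor
  obtain ⟨u1, hu1⟩ : ∃ u : Fin n₂ → F, u ≠ 0 := ⟨Pi.single ⟨0, by omega⟩ 1, by simp⟩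
  obtain ⟨v, hv⟩ : ∃ v, f₂ v u1 = 1 := by
    obtain ⟨v, hv⟩ := (hf₂.nondegenerate u1 hu1).1
    exact ⟨v, (hbit _).resolve_left hv⟩
  obtain ⟨u2, hu20, hu21, hu2v⟩ : ∃ u : Fin n₂ → F, u ≠ 0 ∧ f₂ u1 u = 0 ∧ f₂ v u = 0 := by
    let φ : (Fin n₂ → F) →ₗ[F] (Fin 2 → F) := LinearMap.pi ![toBil hf₂.bilinear u1, toBil hf₂.bilinear v]
    have : 0 < Module.finrank F (LinearMap.ker φ) := by
      have h1 := LinearMap.finrank_range_add_finrank_ker φ
      have h2 := Submodule.finrank_le (LinearMap.range φ)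
      simp only [Module.finrank_pi, Fintype.card_fin] at h1 h2
      omega
    obtain ⟨u, hu⟩ := Module.finrank_pos_iff_exists_ne_zero.mp this
    refine ⟨u, fun e => hu (Subtype.ext e), ?_, ?_⟩
    · exact congrFun (LinearMap.mem_ker.mp u.2) 0
    · exact congrFun (LinearMap.mem_ker.mp u.2) 1
  have hu12 : f₂ u2 u1 = 0 := by rw [hf₂.skew, hu21, neg_zero]
  -- pairings
  have hEE : ∀ x v x' v', QuadraticMap.polar Q ((pur e P) x v) ((pur e P) x' v') = f₁ x x' * f₂ v v' := fun x v x' v' => by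
    rw [hE, one_mul]
  have hEE' : ∀ x v x' v', QuadraticMap.polar Q (pur e P x v) (pur e P x' v') = f₁ x x' * f₂ v v' := hEE
  -- the overgroup
  let K := twist J ⊓ Cfsg.Geo.omegaGL Q
  have hTK : Cfsg.Geo.tensorProductSubgroup 2 n₂ e P ⊓ Cfsg.Geo.omegaGL Q ≤ K := by
    rintro g ⟨hg, hgΩ⟩
    refine ⟨?_, hgΩ⟩
    obtain ⟨a, b, hab⟩ := exists_pur_map hg
    have hdet : (a : Matrix (Fin 2) (Fin 2) F).det ≠ 0 :=
      ((Matrix.isUnit_iff_isUnit_det _).mp a.isUnit).ne_zero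
    have key : (a : Matrix (Fin 2) (Fin 2) F) * om = (om : Matrix (Fin 2) (Fin 2) F) * a ∨
        (a : Matrix (Fin 2) (Fin 2) F) * om = ((om⁻¹ : GL (Fin 2) F) : Matrix (Fin 2) (Fin 2) F) * a := by
      show _ * !![(0 : F), 1; 1, 1] = !![(0 : F), 1; 1, 1] * _ ∨
        _ * !![(0 : F), 1; 1, 1] = !![(1 : F), 1; 1, 0] * _
      obtain ⟨A, hA⟩ : ∃ A, A = (a : Matrix (Fin 2) (Fin 2) F) := ⟨_, rfl⟩
      rw [← hA] at hdet ⊢
      rw [Matrix.det_fin_two] at hdet
      rcases hbit (A 0 0) with e00 | e00 <;> rcases hbit (A 0 1) with e01 | e01 <;>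
        rcases hbit (A 1 0) with e10 | e10 <;> rcases hbit (A 1 1) with e11 | e11 <;>
        simp [e00, e01, e10, e11, h11] at hdet ⊢ <;>
        first
        | (left; ext i j; fin_cases i <;> fin_cases j <;>
            simp [Matrix.mul_apply, Matrix.vecMul, dotProduct, Fin.sum_univ_two, e00, e01, e10, e11, h11] <;> done)
        | (right; ext i j; fin_cases i <;> fin_cases j <;>
            simp [Matrix.mul_apply, Matrix.vecMul, dotProduct, Fin.sum_univ_two, e00, e01, e10, e11, h11] <;> done)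
    rcases key with h | h
    · refine Or.inl (mul_inv_eq_iff_eq_mul.mpr (pur_ext (e := e) (P := P) fun x v => ?_))
      rw [Units.val_mul, Units.val_mul, ← mulVec_mulVec, ← mulVec_mulVec, hJ, hab, hab, hJ,
        mulVec_mulVec, h, ← mulVec_mulVec]
    · have hJi : ∀ x v, ((J⁻¹ : GL ι F) : Matrix ι ι F) *ᵥ (pur e P) x v =
          (pur e P) (((om⁻¹ : GL (Fin 2) F) : Matrix (Fin 2) (Fin 2) F) *ᵥ x) v := fun x v => by
        refine mulVec_injective J ?_
        show (J : Matrix ι ι F) *ᵥ _ = (J : Matrix ι ι F) *ᵥ _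
        rw [hJ, mulVec_mulVec, ← Units.val_mul, mul_inv_cancel, Units.val_one, one_mulVec, mulVec_mulVec,
          ← Units.val_mul, mul_inv_cancel, Units.val_one, one_mulVec]
      refine Or.inr (mul_inv_eq_iff_eq_mul.mpr (pur_ext (e := e) (P := P) fun x v => ?_))
      rw [Units.val_mul, Units.val_mul, ← mulVec_mulVec, ← mulVec_mulVec, hJ, hab, hab, hJi,
        mulVec_mulVec, h, ← mulVec_mulVec]
  -- the unitary transvection
  obtain ⟨U, hU⟩ : ∃ U, U = (pur e P) x0 u1 + (pur e P) y u2 := ⟨_, rfl⟩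
  obtain ⟨W, hW⟩ : ∃ W, W = (pur e P) y u1 + (pur e P) (x0 + y) u2 := ⟨_, rfl⟩
  have hJU : (J : Matrix ι ι F) *ᵥ U = W := by rw [hU, hW, mulVec_add, hJ, hJ, homx, homy]
  have hJW : (J : Matrix ι ι F) *ᵥ W = U + W := by
    rw [hW, hU, mulVec_add, hJ, hJ, homy, mulVec_add, homx, homy]
    simp only [map_add, LinearMap.add_apply]
    abel
  have hQU : Q U = 0 := by rw [hU, q_add hQ, hpure, hpure, hEE, hu21, mul_zero, add_zero, add_zero]
  have hQW : Q W = 0 := by rw [hW, q_add hQ, hpure, hpure, hEE, hu21, mul_zero, add_zero, add_zero]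
  have hWU : QuadraticMap.polar Q W U = 0 := by
    rw [hW, hU]
    simp [hQ.polar_bilinear.add_left, hQ.polar_bilinear.add_right, hEE, hf₂.alternating, hu21, hu12]
  have hUW : QuadraticMap.polar Q U W = 0 := (pf_comm hQ _ _).trans hWU
  have hJiso : ∀ p r, QuadraticMap.polar Q ((J : Matrix ι ι F) *ᵥ (pur e P) p r) W =
      QuadraticMap.polar Q ((pur e P) p r) U := fun p r => by
    rw [hJ, hW, hU, hQ.polar_bilinear.add_right, hQ.polar_bilinear.add_right, hEE, hEE, hEE, hEE, ← homy, ← homx]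
    have hf : ∀ p p', f₁ ((om : Matrix (Fin 2) (Fin 2) F) *ᵥ p) ((om : Matrix (Fin 2) (Fin 2) F) *ᵥ p') =
        f₁ p p' := fun p p' => by
      have hpz : ∀ p : Fin 2 → F, p = p 0 • x0 + p 1 • y := fun p => by
        rw [hx0, hy]; ext i; fin_cases i <;> simp
      conv_lhs => rw [hpz p, hpz p']
      conv_rhs => rw [hpz p, hpz p']
      simp only [mulVec_add, mulVec_smul, homx, homy, hf₁.bilinear.add_left, hf₁.bilinear.add_right,
        hf₁.bilinear.smul_left, hf₁.bilinear.smul_right, hf₁.alternating, hx0y, hyx0]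
      linear_combination (p 1 * p' 1) * htwo
    rw [hf, hf]
  have hgfix : ∀ x, ((qE Q U W : GL ι F) : Matrix ι ι F) *ᵥ x =
      x + (QuadraticMap.polar Q x W) • U - (QuadraticMap.polar Q x U) • W := fun x => by
    rw [qE_mulVec hQ hQU hWU, hQW, zero_mul, sub_zero]
  have hnegv : ∀ z : ι → F, -z = z := fun z => by
    rw [← neg_one_smul F z, hneg, one_smul]
  have hgK : qE Q U W ∈ K := by
    refine ⟨Or.inl (mul_inv_eq_iff_eq_mul.mpr (pur_ext (e := e) (P := P) fun p r => ?_)),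
      qE_mem_omega hQ h5 hQU hWU⟩
    obtain ⟨z, hz⟩ : ∃ z, z = (pur e P) p r := ⟨_, rfl⟩
    rw [Units.val_mul, Units.val_mul, ← mulVec_mulVec, ← mulVec_mulVec]
    show _ *ᵥ ((J : Matrix ι ι F) *ᵥ (pur e P) p r) = (J : Matrix ι ι F) *ᵥ (_ *ᵥ (pur e P) p r)
    rw [hgfix, hgfix, mulVec_sub, mulVec_add, mulVec_smul, mulVec_smul, hJU, hJW]
    have h1 : QuadraticMap.polar Q ((J : Matrix ι ι F) *ᵥ (pur e P) p r) U =
        QuadraticMap.polar Q ((pur e P) p r) U + QuadraticMap.polar Q ((pur e P) p r) W := by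
      have hsum : QuadraticMap.polar Q ((J : Matrix ι ι F) *ᵥ (pur e P) p r) (U + W) =
          QuadraticMap.polar Q ((pur e P) p r) W := by
        rw [← hJW, hJ, hW, mulVec_add, hJ, hJ, hQ.polar_bilinear.add_right, hQ.polar_bilinear.add_right,
          hEE, hEE, hEE, hEE]
        have hf : ∀ p p', f₁ ((om : Matrix (Fin 2) (Fin 2) F) *ᵥ p) ((om : Matrix (Fin 2) (Fin 2) F) *ᵥ p') =
            f₁ p p' := fun p p' => by
          have hpz : ∀ p : Fin 2 → F, p = p 0 • x0 + p 1 • y := fun p => by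
            rw [hx0, hy]; ext i; fin_cases i <;> simp
          conv_lhs => rw [hpz p, hpz p']
          conv_rhs => rw [hpz p, hpz p']
          simp only [mulVec_add, mulVec_smul, homx, homy, hf₁.bilinear.add_left, hf₁.bilinear.add_right,
            hf₁.bilinear.smul_left, hf₁.bilinear.smul_right, hf₁.alternating, hx0y, hyx0]
          linear_combination (p 1 * p' 1) * htwo
        rw [hf, hf]
      rw [hQ.polar_bilinear.add_right, hJiso] at hsum
      linear_combination hsum - QuadraticMap.polar Q ((pur e P) p r) U * htwo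
    rw [hJiso, h1]
    simp only [sub_eq_add_neg, hnegv, add_smul, smul_add]
    abel
  have hgT : qE Q U W ∉ Cfsg.Geo.tensorProductSubgroup 2 n₂ e P := fun hg => by
    obtain ⟨a, b, hab⟩ := exists_pur_map hg
    have h := hab x0 v
    rw [hgfix] at h
    have hpU : QuadraticMap.polar Q ((pur e P) x0 v) U = 0 := by
      rw [hU, hQ.polar_bilinear.add_right, hEE, hEE, hf₁.alternating, hu2v]; simp
    have hpW : QuadraticMap.polar Q ((pur e P) x0 v) W = 1 := by
      rw [hW, hQ.polar_bilinear.add_right, hEE, hEE, hu2v, hv, hx0y]; simp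
    rw [hpU, hpW, zero_smul, sub_zero, one_smul, hU] at h
    obtain ⟨A, hA⟩ : ∃ A, A = (a : Matrix (Fin 2) (Fin 2) F) *ᵥ x0 := ⟨_, rfl⟩
    obtain ⟨B, hB⟩ : ∃ B, B = (b : Matrix (Fin n₂) (Fin n₂) F) *ᵥ v := ⟨_, rfl⟩
    rw [← hA, ← hB] at h
    have hp : ∀ p r, f₁ x0 p * f₂ v r + (f₁ x0 p * f₂ u1 r + f₁ y p * f₂ u2 r) = f₁ A p * f₂ B r := fun p r => by
      have := congrArg (fun z => QuadraticMap.polar Q z ((pur e P) p r)) h
      simpa only [hQ.polar_bilinear.add_left, hEE, hEE'] using this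
    have hv1 : f₂ u1 v = 1 := by rw [hf₂.skew, hv, hneg]
    have h2v : f₂ u2 v = 0 := by rw [hf₂.skew, hu2v, neg_zero]
    have e1 := hp y v
    rw [hf₂.alternating, hv1, hx0y, h2v, hf₁.alternating] at e1
    simp at e1
    have e2 := hp x0 v
    rw [hf₁.alternating, h2v, mul_zero, zero_mul, zero_mul, add_zero, add_zero] at e2
    have hB : f₂ B v ≠ 0 := fun e0 => by rw [e0, mul_zero] at e1; exact one_ne_zero e1
    have hAx : f₁ A x0 = 0 := (mul_eq_zero.mp e2.symm).resolve_right hB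
    obtain ⟨r, hr⟩ := (hf₂.nondegenerate u2 hu20).2
    have e3 := hp x0 r
    rw [hf₁.alternating, hyx0, hAx, zero_mul, zero_mul, zero_mul, zero_add, zero_add, one_mul] at e3
    exact hr e3
  -- a root element outside the overgroup
  obtain ⟨u, hu⟩ : ∃ u, u = (pur e P) x0 u1 := ⟨_, rfl⟩
  obtain ⟨w, hw'⟩ : ∃ w, w = (pur e P) y u2 := ⟨_, rfl⟩
  have hQu : Q u = 0 := hu ▸ hpure _ _
  have hQw : Q w = 0 := hw' ▸ hpure _ _
  have hwu : QuadraticMap.polar Q w u = 0 := by rw [hw', hu, hEE, hu12, mul_zero]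
  have hhfix : ∀ x, ((qE Q u w : GL ι F) : Matrix ι ι F) *ᵥ x =
      x + (QuadraticMap.polar Q x w) • u - (QuadraticMap.polar Q x u) • w := fun x => by
    rw [qE_mulVec hQ hQu hwu, hQw, zero_mul, sub_zero]
  refine ⟨K, lt_of_le_not_ge hTK fun hle => hgT (hle hgK).1, lt_of_le_not_ge inf_le_right fun hle => ?_⟩
  have hh0 : ((qE Q u w : GL ι F) : Matrix ι ι F) *ᵥ (pur e P) x0 v = (pur e P) x0 v := by
    rw [hhfix, hu, hw', hEE, hEE, hu2v, hf₁.alternating]; simp
  have hh1 : ((qE Q u w : GL ι F) : Matrix ι ι F) *ᵥ (pur e P) y v = (pur e P) y v + w := by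
    rw [hhfix, hu, hw', hEE, hEE, hu2v, hv, hyx0, mul_zero, zero_smul, add_zero, one_mul, one_smul,
      sub_eq_add_neg, hnegv]
  rcases (hle (qE_mem_omega hQ h5 hQu hwu)).1 with h | h
  · have h' := congrArg (fun g : GL ι F => (g : Matrix ι ι F) *ᵥ (pur e P) x0 v) (mul_inv_eq_iff_eq_mul.mp h)
    simp only [Units.val_mul, ← mulVec_mulVec] at h'
    rw [hh0, hJ, homx, hh1] at h'
    have := congrArg (fun z => QuadraticMap.polar Q z ((pur e P) x0 v)) h'
    obtain ⟨r, hr⟩ := (hf₂.nondegenerate u2 hu20).2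
    have := congrArg (fun z => QuadraticMap.polar Q z ((pur e P) x0 r)) h'
    simp only [hw', hQ.polar_bilinear.add_left, hEE, hEE', hyx0, one_mul] at this
    exact hr (by linear_combination this)
  · have h' := congrArg (fun g : GL ι F => (g : Matrix ι ι F) *ᵥ (pur e P) x0 v) (mul_inv_eq_iff_eq_mul.mp h)
    simp only [Units.val_mul, ← mulVec_mulVec] at h'
    rw [hh0, hJ, homx, hh1] at h'
    have h'' := congrArg (fun z => (J : Matrix ι ι F) *ᵥ z) h'
    rw [hw'] at h''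
    simp only [mulVec_add, mulVec_mulVec, ← Units.val_mul, mul_inv_cancel, Units.val_one, one_mulVec] at h''
    rw [hJ, hJ, homy] at h''
    have := congrArg (fun z => QuadraticMap.polar Q z ((pur e P) x0 u1)) h''
    simp only [hQ.polar_bilinear.add_left, hEE, hEE', hf₁.bilinear.add_left, hyx0, hf₁.alternating, hv, hu12] at this
    simp at this

end CfsgLib.NonMaxTensorOmega
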