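import Mathlib.FieldTheory.Finite.Basic
import Cfsg.Prelude.Def_GeometricClasses

/-! Over two elements a tensor factor of dimension two normalises a field with four elements. -/

set_option autoImplicit false

namespace CfsgLib.NonMaxTensorTwo

open Matrix
open scoped Kronecker

variable {F : Type*} [Field F] [Fintype F]

/-- an element of order three -/
def om (F : Type*) [Field F] : Matrix (Fin 2) (Fin 2) F := !![0, 1; 1, 1]

theorem exists_between_gl (hq : Fintype.card F = 2) {m : ℕ} (hm : 2 ≤ m) :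
    ∃ K : Subgroup (GL (Fin 2 × Fin m) F), Cfsg.Geo.kroneckerSubgroup 2 m F < K ∧ K < ⊤ := by
  classical
  have htwo : (2 : F) = 0 := by
    have := Nat.cast_card_eq_zero F; rw [hq] at this; exact_mod_cast this
  have hbit : ∀ s : F, s = 0 ∨ s = 1 := fun s => by
    by_cases hs : s = 0
    · exact Or.inl hs
    · refine Or.inr ?_
      have := FiniteField.pow_card_sub_one_eq_one s hs
      rwa [hq, show 2 - 1 = 1 from rfl, pow_one] at this
  have h11 : (1 : F) + 1 = 0 := by linear_combination htwo
  have hw3 : om F * (om F * om F) = 1 := by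
    ext i j; fin_cases i <;> fin_cases j <;>
      simp [om, Matrix.mul_apply, Fin.sum_univ_two, h11]
  let J : Matrix (Fin 2 × Fin m) (Fin 2 × Fin m) F := om F ⊗ₖ (1 : Matrix (Fin m) (Fin m) F)
  have hJ2 : J * J = (om F * om F) ⊗ₖ (1 : Matrix (Fin m) (Fin m) F) := by
    show _ * _ = _
    rw [← Matrix.mul_kronecker_mul, mul_one]
  let K : Subgroup (GL (Fin 2 × Fin m) F) :=
    { carrier := {g | (g : Matrix _ _ F) * J = J * (g : Matrix _ _ F) ∨ (g : Matrix _ _ F) * J = J * J * (g : Matrix _ _ F)}
      one_mem' := Or.inl (by simp)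
      mul_mem' := by
        rintro a b ha hb
        simp only [Set.mem_setOf_eq, Units.val_mul] at ha hb ⊢
        have h4 : J * J * (J * J) = J := by
          have : J * (J * J) = 1 := by
            rw [hJ2]; show _ * _ = _
            rw [← Matrix.mul_kronecker_mul, hw3, mul_one, Matrix.one_kronecker_one]
          rw [mul_assoc, ← mul_assoc J J J, mul_assoc J J J, this, mul_one]
        rcases ha with ha | ha <;> rcases hb with hb | hb
        · left; rw [mul_assoc, hb, ← mul_assoc, ha, mul_assoc]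
        · right; rw [mul_assoc, hb, ← mul_assoc, ← mul_assoc, ha, mul_assoc J _ J, ha, ← mul_assoc, mul_assoc (J * J)]
        · right; rw [mul_assoc, hb, ← mul_assoc, ha, mul_assoc]
        · left; rw [mul_assoc, hb, ← mul_assoc, ← mul_assoc, ha, mul_assoc (J * J) _ J, ha, ← mul_assoc, h4,
            mul_assoc]
      inv_mem' := by
        rintro a ha
        simp only [Set.mem_setOf_eq] at ha ⊢
        have h4 : J * J * (J * J) = J := by
          have : J * (J * J) = 1 := by
            rw [hJ2]; show _ * _ = _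
            rw [← Matrix.mul_kronecker_mul, hw3, mul_one, Matrix.one_kronecker_one]
          rw [mul_assoc, ← mul_assoc J J J, mul_assoc J J J, this, mul_one]
        have e1 : ∀ X Y : Matrix (Fin 2 × Fin m) (Fin 2 × Fin m) F, (a : Matrix _ _ F) * X = Y * (a : Matrix _ _ F) →
            ((a⁻¹ : GL (Fin 2 × Fin m) F) : Matrix _ _ F) * Y =
              X * ((a⁻¹ : GL (Fin 2 × Fin m) F) : Matrix _ _ F) := fun X Y h => by
          calc ((a⁻¹ : GL (Fin 2 × Fin m) F) : Matrix _ _ F) * Y
              = ((a⁻¹ : GL (Fin 2 × Fin m) F) : Matrix _ _ F) *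
                  (Y * (a : Matrix _ _ F)) * ((a⁻¹ : GL (Fin 2 × Fin m) F) : Matrix _ _ F) := by
                simp only [mul_assoc, ← Units.val_mul, mul_inv_cancel, Units.val_one, mul_one]
            _ = _ := by
                rw [← h, ← mul_assoc, ← Units.val_mul, inv_mul_cancel, Units.val_one, one_mul]
        rcases ha with ha | ha
        · left; exact e1 _ _ ha
        · right
          have h2 : (a : Matrix _ _ F) * (J * J) = J * (a : Matrix _ _ F) := by
            rw [← mul_assoc, ha, mul_assoc _ _ J, ha, ← mul_assoc, h4]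
          exact e1 _ _ h2 }
  have hTK : Cfsg.Geo.kroneckerSubgroup 2 m F ≤ K := by
    rintro g ⟨a, b, hg⟩
    have hdet : (a : Matrix (Fin 2) (Fin 2) F).det ≠ 0 :=
      ((Matrix.isUnit_iff_isUnit_det _).mp a.isUnit).ne_zero
    have key : (a : Matrix (Fin 2) (Fin 2) F) * om F = om F * a ∨
        (a : Matrix (Fin 2) (Fin 2) F) * om F = om F * om F * a := by
      obtain ⟨A, hA⟩ : ∃ A, A = (a : Matrix (Fin 2) (Fin 2) F) := ⟨_, rfl⟩
      rw [← hA] at hdet ⊢
      rw [Matrix.det_fin_two] at hdet
      rcases hbit (A 0 0) with e00 | e00 <;> rcases hbit (A 0 1) with e01 | e01 <;>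
        rcases hbit (A 1 0) with e10 | e10 <;> rcases hbit (A 1 1) with e11 | e11 <;>
        simp [e00, e01, e10, e11, h11] at hdet ⊢ <;>
        first
        | (left; ext i j; fin_cases i <;> fin_cases j <;>
            simp [om, Matrix.mul_apply, Fin.sum_univ_two, e00, e01, e10, e11, h11] <;> done)
        | (right; ext i j; fin_cases i <;> fin_cases j <;>
            simp [om, Matrix.mul_apply, Fin.sum_univ_two, e00, e01, e10, e11, h11] <;> done)
    rcases key with h | h
    · left; show _ * _ = _ * _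
      rw [hg, ← Matrix.mul_kronecker_mul, ← Matrix.mul_kronecker_mul, mul_one, one_mul, h]
    · right; show _ * _ = _ * _
      rw [hg, hJ2, ← Matrix.mul_kronecker_mul, ← Matrix.mul_kronecker_mul, mul_one, one_mul, h]
  let i0 : Fin m := ⟨0, by omega⟩
  let i1 : Fin m := ⟨1, by omega⟩
  have h01 : i0 ≠ i1 := by simp [i0, i1]
  let N : Matrix (Fin m) (Fin m) F := Matrix.single i0 i1 1
  have hN : N * N = 0 := by simp [N, h01.symm]
  have hunit : ∀ X : Matrix (Fin 2) (Fin 2) F,
      ∃ g : GL (Fin 2 × Fin m) F, (g : Matrix _ _ F) = 1 + X ⊗ₖ N := fun X => by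
    have hsq : (1 + X ⊗ₖ N) * (1 + X ⊗ₖ N) = (1 : Matrix (Fin 2 × Fin m) (Fin 2 × Fin m) F) := by
      rw [add_mul, one_mul, mul_add, mul_one, ← Matrix.mul_kronecker_mul, hN, Matrix.kronecker_zero, add_zero,
        add_assoc]
      convert add_zero (1 : Matrix (Fin 2 × Fin m) (Fin 2 × Fin m) F)
      ext p r
      simp only [Matrix.add_apply, Matrix.zero_apply]
      linear_combination (X ⊗ₖ N) p r * htwo
    exact ⟨⟨_, _, hsq, hsq⟩, rfl⟩
  obtain ⟨g, hg⟩ := hunit (om F)
  obtain ⟨h, hh⟩ := hunit (Matrix.single 0 0 1)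
  refine ⟨K, lt_of_le_not_ge hTK fun hle => ?_, lt_top_iff_ne_top.mpr fun hK => ?_⟩
  · have hgK : g ∈ K := by
      left; show _ * _ = _ * _
      rw [hg, add_mul, mul_add, one_mul, mul_one]
      show J + om F ⊗ₖ N * J = J + J * (om F ⊗ₖ N)
      show _ + _ * (om F ⊗ₖ _) = _ + (om F ⊗ₖ _) * _
      rw [← Matrix.mul_kronecker_mul, ← Matrix.mul_kronecker_mul, mul_one, one_mul]
    obtain ⟨a, b, hab⟩ := hle hgK
    rw [hg] at hab
    have e1 := congrFun (congrFun hab (0, i1)) (0, i1)
    have e2 := congrFun (congrFun hab (1, i0)) (0, i1)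
    have e3 := congrFun (congrFun hab (0, i0)) (0, i1)
    simp [Matrix.kroneckerMap_apply, N, om, h01, h01.symm] at e1 e2 e3
    rcases e3 with e | e
    · rw [e, zero_mul] at e1; exact one_ne_zero e1
    · rw [e, mul_zero] at e2; exact one_ne_zero e2
  · have hhK : h ∈ K := hK ▸ Subgroup.mem_top h
    rcases hhK with e | e
    · have e1 := congrFun (congrFun e (0, i0)) (1, i1)
      rw [hh] at e1
      simp [J, Matrix.mul_apply, Matrix.kroneckerMap_apply, N, om, h01, h01.symm, Fintype.sum_prod_type,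
        Fin.sum_univ_two, Matrix.one_apply] at e1
    · have e1 := congrFun (congrFun e (0, i0)) (0, i0)
      rw [hh, hJ2] at e1
      simp [J, Matrix.mul_apply, Matrix.kroneckerMap_apply, N, om, h01, h01.symm, Fintype.sum_prod_type,
        Fin.sum_univ_two, Matrix.one_apply] at e1

theorem exists_between {ι : Type} [Fintype ι] [DecidableEq ι] (hq : Fintype.card F = 2) {m : ℕ} (hm : 2 ≤ m)
    (e : ι ≃ Fin 2 × Fin m) (P : GL ι F) :
    ∃ K : Subgroup (GL ι F), Cfsg.Geo.tensorProductSubgroup 2 m e P ⊓ Cfsg.Geo.specialLinear ι F < K ∧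
      K < Cfsg.Geo.specialLinear ι F := by
  have htop : Cfsg.Geo.specialLinear ι F = ⊤ := by
    ext g
    simp only [Subgroup.mem_top, iff_true]
    show Matrix.GeneralLinearGroup.det g = 1
    classical
    haveI : Subsingleton Fˣ := Fintype.card_le_one_iff_subsingleton.mp (by rw [Fintype.card_units, hq])
    exact Subsingleton.elim _ _
  obtain ⟨K, hK1, hK2⟩ := exists_between_gl hq hm
  let Φ : GL (Fin 2 × Fin m) F ≃* GL ι F := (Cfsg.Geo.glReindex e.symm).trans (MulAut.conj P)
  have hinj : Function.Injective Φ.toMonoidHom := Φ.injective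
  have hT : Cfsg.Geo.tensorProductSubgroup 2 m e P = (Cfsg.Geo.kroneckerSubgroup 2 m F).map Φ.toMonoidHom := by
    rw [Cfsg.Geo.tensorProductSubgroup, Subgroup.map_map]; rfl
  refine ⟨K.map Φ.toMonoidHom, ?_, ?_⟩
  · rw [htop, inf_top_eq, hT]
    exact (Subgroup.map_lt_map_iff_of_injective hinj).mpr hK1
  · have h2 := (Subgroup.map_lt_map_iff_of_injective hinj).mpr hK2
    rwa [Subgroup.map_top_of_surjective _ Φ.surjective, ← htop] at h2

end CfsgLib.NonMaxTensorTwo
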