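import Cfsg.Agent.Lib.ClassicalUnitary
import Cfsg.Agent.Lib.ClassicalDiag
import Cfsg.Prelude.Def_GeometricClasses

/-! Unitary planes over four elements refine into orthonormal axes. -/

set_option autoImplicit false

namespace CfsgLib.NonMaxUnitaryPlanes

open Matrix CfsgLib.Classical

attribute [local instance] _root_.Classical.propDecidable

variable {ι : Type} [Fintype ι] [DecidableEq ι] {F : Type*} [Field F] [Fintype F] {σ : F ≃+* F}
  {f : (ι → F) → (ι → F) → F} (hf : Cfsg.Geo.IsUnitaryForm σ f)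
include hf

/-- the refinement -/
theorem exists_between_unitary_planes (hq : Fintype.card F = 4) (hN : ∀ x : F, x ≠ 0 → x * σ x = 1)
    {t : ℕ} (ht4 : 4 ≤ Fintype.card ι) {D : Fin t → Submodule F (ι → F)}
    (hD : Cfsg.Geo.IsNondegenerateMDecomposition f 2 D) :
    ∃ K : Subgroup (GL ι F), Cfsg.Geo.decompositionStabilizer D ⊓ hSU f < K ∧ K < hSU f := by
  have h2 : (2 : F) = 0 := by
    have := Nat.cast_card_eq_zero F; rw [hq] at this
    have h4 : (2 : F) * 2 = 0 := by rw [← this]; norm_num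
    exact (mul_eq_zero.mp h4).elim id id
  have hdec := hD.decomp
  have ht : 2 ≤ t := hdec.two_le
  let B : (ι → F) →ₛₗ[(σ : F →+* F)] (ι → F) →ₗ[F] F :=
    LinearMap.mk₂'ₛₗ (σ : F →+* F) (RingHom.id F) (fun u v => f v u)
      (fun u u' v => herm_add_right hf v u u') (fun c u v => herm_smul_right hf v c u)
      (fun u v v' => hf.add_left v v' u) (fun c u v => hf.smul_left c v u)
  have hσne : (σ : F →+* F) ≠ RingHom.id F := fun h =>
    hf.ne_refl (RingEquiv.ext fun x => RingHom.congr_fun h x)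
  have hnd : ∀ i, CfsgLib.Classical.Diag.NdOn B (D i) := fun i w hw h => by
    by_contra h0
    obtain ⟨x, hx, hne⟩ := (hD.nondegenerate i w hw h0).1
    exact hne (h x hx)
  have hex : ∀ i, ∃ v : Fin 2 → ι → F, (∀ a, v a ∈ D i) ∧ ∀ a a', f (v a) (v a') = if a = a' then 1 else 0 := by
    intro i
    obtain ⟨b, hb⟩ := CfsgLib.Classical.Diag.exists_orthonormal_basis hσne (fun a => hf.involutive a) B
      (fun u v => (hf.herm u v).symm) (D i) (hnd i)
    have hk : Module.finrank F (D i) = 2 := hdec.finrank_eq i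
    refine ⟨fun a => (b (a.cast hk.symm) : ι → F), fun a => (b _).2, fun a a' => ?_⟩
    have := hb (a'.cast hk.symm) (a.cast hk.symm)
    change f (b (a.cast hk.symm) : ι → F) (b (a'.cast hk.symm) : ι → F) = _ at this
    rw [this]
    by_cases h : a = a'
    · simp [h]
    · rw [if_neg h, if_neg (fun e => h (by simpa [Fin.ext_iff] using e.symm))]
  choose v hvm hvo using hex
  let bv : Fin t × Fin 2 → ι → F := fun p => v p.1 p.2
  have hbm : ∀ p : Fin t × Fin 2, bv p ∈ D p.1 := fun p => hvm p.1 p.2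
  have hbQ : ∀ p, f (bv p) (bv p) = 1 := fun p => by simp [bv, hvo]
  have hbo : ∀ p p', p ≠ p' → f (bv p) (bv p') = 0 := by
    rintro ⟨i, a⟩ ⟨i', a'⟩ hne
    by_cases hi : i = i'
    · subst hi
      have ha : a ≠ a' := fun h => hne (h ▸ rfl)
      simp [bv, hvo, ha]
    · exact hD.orthogonal i i' hi _ (hbm (i, a)) _ (hbm (i', a'))
  have hsum : ∀ (x : Fin t × Fin 2 → F) (s : Finset (Fin t × Fin 2)) (w : ι → F),
      f (∑ p ∈ s, x p • bv p) w = ∑ p ∈ s, x p * f (bv p) w := fun x s w => by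
    show leftLin hf w _ = _
    rw [map_sum]
    exact Finset.sum_congr rfl fun p _ => by rw [map_smul, smul_eq_mul]; rfl
  have hli : LinearIndependent F bv := by
    rw [Fintype.linearIndependent_iff]
    intro g hg p
    have h := hsum g Finset.univ (bv p)
    rw [hg, herm_zero_left hf, Finset.sum_eq_single p (fun q _ hq' => by rw [hbo q p hq', mul_zero]) (by simp),
      hbQ, mul_one] at h
    exact h.symm
  have hcard : Fintype.card (Fin t × Fin 2) = Module.finrank F (ι → F) := by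
    have hi := DirectSum.isInternal_submodule_of_iSupIndep_of_iSup_eq_top hdec.indep hdec.iSup_eq_top
    let e := LinearEquiv.ofBijective (DirectSum.coeLinearMap D) hi
    rw [← e.finrank_eq, Module.finrank_directSum]
    simp [hdec.finrank_eq]
  let b := basisOfLinearIndependentOfCardEqFinrank' bv hli hcard
  have hb : ∀ p, b p = bv p := fun p => by simp [b]
  have hrepr : ∀ x p, b.repr x p = f x (bv p) := fun x p => by
    conv_rhs => rw [← b.sum_repr x]
    simp only [hb]
    rw [hsum, Finset.sum_eq_single p (fun q _ hq' => by rw [hbo q p hq', mul_zero]) (by simp), hbQ, mul_one]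
  have hform : ∀ x y, f x y = ∑ p, f x (bv p) * σ (f y (bv p)) := fun x y => by
    conv_lhs => rw [← b.sum_repr x]
    simp only [hb, hrepr]
    rw [hsum]
    exact Finset.sum_congr rfl fun p _ => by rw [← hf.herm]
  let S : Set (ι → F) := {x | ∃ p, ∃ s : F, s ≠ 0 ∧ x = s • bv p}
  -- vectors of norm one in a block are axes
  have haxis : ∀ i, ∀ x ∈ D i, f x x = 1 → x ∈ S := by
    intro i x hx hx1
    have hout : ∀ p : Fin t × Fin 2, p.1 ≠ i → f x (bv p) = 0 := fun p hp =>
      hD.orthogonal i p.1 (Ne.symm hp) _ hx _ (hbm p)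
    have hxs : x = f x (bv (i, 0)) • bv (i, 0) + f x (bv (i, 1)) • bv (i, 1) := by
      conv_lhs => rw [← b.sum_repr x]
      simp only [hb, hrepr]
      rw [Fintype.sum_prod_type, Finset.sum_eq_single i (fun j _ hj => by
        simp [Fin.sum_univ_two, hout (j, 0) hj, hout (j, 1) hj]) (by simp), Fin.sum_univ_two]
    have hn1 : f x (bv (i, 0)) * σ (f x (bv (i, 0))) + f x (bv (i, 1)) * σ (f x (bv (i, 1))) = 1 := by
      rw [← hx1, hform x x, Fintype.sum_prod_type, Finset.sum_eq_single i (fun j _ hj => by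
        simp [Fin.sum_univ_two, hout (j, 0) hj, hout (j, 1) hj]) (by simp), Fin.sum_univ_two]
    obtain ⟨s0, hs0⟩ : ∃ s, s = f x (bv (i, 0)) := ⟨_, rfl⟩
    obtain ⟨s1, hs1⟩ : ∃ s, s = f x (bv (i, 1)) := ⟨_, rfl⟩
    rw [← hs0, ← hs1] at hxs hn1
    by_cases e0 : s0 = 0
    · by_cases e1 : s1 = 0
      · simp [e0, e1] at hn1
      · exact ⟨(i, 1), s1, e1, by rw [hxs, e0, zero_smul, zero_add]⟩
    · by_cases e1 : s1 = 0
      · exact ⟨(i, 0), s0, e0, by rw [hxs, e1, zero_smul, add_zero]⟩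
      · rw [hN s0 e0, hN s1 e1] at hn1
        exact absurd (show (1 : F) = 0 by linear_combination h2 - hn1) one_ne_zero
  -- permutation isometries
  have hperm : ∀ π : Equiv.Perm (Fin t × Fin 2), ∃ g : GL ι F, g ∈ hIso f ∧
      ∀ p, (g : Matrix ι ι F) *ᵥ bv p = bv (π p) := by
    intro π
    let φ : GL ι F ≃* ((ι → F) ≃ₗ[F] (ι → F)) :=
      (Matrix.GeneralLinearGroup.toLin : GL ι F ≃* _).trans
        (LinearMap.GeneralLinearGroup.generalLinearEquiv F (ι → F))
    have hval : ∀ x, ((φ.symm (b.equiv b π) : GL ι F) : Matrix ι ι F) *ᵥ x = b.equiv b π x := fun x => by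
      have : φ (φ.symm (b.equiv b π)) x = b.equiv b π x := by rw [φ.apply_symm_apply]
      exact this
    have hbe : ∀ p, b.equiv b π (bv p) = bv (π p) := fun p => by rw [← hb, Module.Basis.equiv_apply, hb]
    refine ⟨φ.symm (b.equiv b π), fun x y => ?_, fun p => by rw [hval, hbe]⟩
    have hc : ∀ x p, f (b.equiv b π x) (bv (π p)) = f x (bv p) := fun x p => by
      conv_lhs => rw [← b.sum_repr x, map_sum]
      simp only [map_smul, hb, hbe, hrepr]
      rw [← Equiv.sum_comp π.symm]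
      simp only [Equiv.apply_symm_apply]
      rw [hsum, Finset.sum_eq_single (π p) (fun q _ hq' => by rw [hbo q _ hq', mul_zero]) (by simp), hbQ, mul_one,
        Equiv.symm_apply_apply]
    show f (((φ.symm (b.equiv b π) : GL ι F) : Matrix ι ι F) *ᵥ x)
      (((φ.symm (b.equiv b π) : GL ι F) : Matrix ι ι F) *ᵥ y) = f x y
    rw [hval, hval, hform x y, hform (b.equiv b π x), ← Equiv.sum_comp π]
    simp only [hc]
  let K := Cfsg.stabilizing (Cfsg.glToMat ι F) S ⊓ hSU f
  have hmap : ∀ g ∈ Cfsg.Geo.decompositionStabilizer D ⊓ hSU f, ∀ x ∈ S, (g : Matrix ι ι F) *ᵥ x ∈ S := by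
    rintro g ⟨⟨τ, hτ⟩, hgG⟩ x ⟨p, s, hs, rfl⟩
    obtain ⟨q, r, hr, hq'⟩ := haxis (τ p.1) ((g : Matrix ι ι F) *ᵥ bv p)
      (by rw [← hτ p.1, ← Matrix.toLin'_apply]; exact Submodule.mem_map_of_mem (hbm p))
      (by rw [mem_hIso.mp hgG.1, hbQ])
    exact ⟨q, s * r, mul_ne_zero hs hr, by rw [mulVec_smul, hq', smul_smul]⟩
  have hHK : Cfsg.Geo.decompositionStabilizer D ⊓ hSU f ≤ K := fun g hg =>
    ⟨fun x => ⟨hmap g hg x, fun hx => by
      have := hmap g⁻¹ (inv_mem hg) _ hx
      change ((g⁻¹ : GL ι F) : Matrix ι ι F) *ᵥ ((g : Matrix ι ι F) *ᵥ x) ∈ _ at this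
      rwa [mulVec_mulVec, ← Units.val_mul, inv_mul_cancel, Units.val_one, one_mulVec] at this⟩, hg.2⟩
  -- a three-cycle across two blocks
  let i : Fin t := ⟨0, by omega⟩
  let j : Fin t := ⟨1, by omega⟩
  have hij : i ≠ j := by simp [i, j]
  let s1 := Equiv.swap (i, (0 : Fin 2)) (i, 1)
  let s2 := Equiv.swap (i, (1 : Fin 2)) (j, 0)
  obtain ⟨g1, hg1, hg1b⟩ := hperm s1
  obtain ⟨g2, hg2, hg2b⟩ := hperm s2
  have hinv : ∀ (g : GL ι F) (π : Equiv.Perm (Fin t × Fin 2)), (∀ p, (g : Matrix ι ι F) *ᵥ bv p = bv (π p)) →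
      ∀ p, ((g⁻¹ : GL ι F) : Matrix ι ι F) *ᵥ bv p = bv (π.symm p) := fun g π h p => by
    conv_lhs => rw [← π.apply_symm_apply p, ← h, mulVec_mulVec, ← Units.val_mul, inv_mul_cancel, Units.val_one,
      one_mulVec]
  set g := g1 * g2 * g1⁻¹ * g2⁻¹ with hgdef
  have hgb : ∀ p, (g : Matrix ι ι F) *ᵥ bv p = bv (s1 (s2 (s1.symm (s2.symm p)))) := fun p => by
    rw [hgdef, Units.val_mul, Units.val_mul, Units.val_mul, ← mulVec_mulVec, ← mulVec_mulVec, ← mulVec_mulVec,
      hinv g2 s2 hg2b, hinv g1 s1 hg1b, hg2b, hg1b]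
  have hg0 : g ∈ hIso f := by
    rw [hgdef]; exact mul_mem (mul_mem (mul_mem hg1 hg2) (inv_mem hg1)) (inv_mem hg2)
  have hgG : g ∈ hSU f := ⟨hg0, by
    show Matrix.GeneralLinearGroup.det g = 1
    rw [hgdef, map_mul, map_mul, map_mul, map_inv, map_inv, mul_comm (Matrix.GeneralLinearGroup.det g1)]
    group⟩
  let π' : Equiv.Perm (Fin t × Fin 2) := ((s2.symm.trans s1.symm).trans s2).trans s1
  have hgb' : ∀ p, (g : Matrix ι ι F) *ᵥ bv p = bv (π' p) := hgb
  have hgK : g ∈ K := by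
    refine ⟨fun x => ⟨?_, fun hx => ?_⟩, hgG⟩
    · rintro ⟨p, s, hs, rfl⟩
      exact ⟨π' p, s, hs, by rw [← hgb', ← mulVec_smul]; rfl⟩
    · obtain ⟨q, s, hs, hq'⟩ := hx
      refine ⟨π'.symm q, s, hs, mulVec_injective g ?_⟩
      show (g : Matrix ι ι F) *ᵥ x = (g : Matrix ι ι F) *ᵥ (s • bv (π'.symm q))
      rw [mulVec_smul, hgb', Equiv.apply_symm_apply]; exact hq'
  have hgH : g ∉ Cfsg.Geo.decompositionStabilizer D := by
    rintro ⟨τ, hτ⟩
    have hm : ∀ a, (g : Matrix ι ι F) *ᵥ bv (i, a) ∈ D (τ i) := fun a => by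
      rw [← hτ i, ← Matrix.toLin'_apply]; exact Submodule.mem_map_of_mem (hbm (i, a))
    have e0 : s1 (s2 (s1.symm (s2.symm (i, 0)))) = (j, (0 : Fin 2)) := by
      simp [s1, s2, Equiv.swap_apply_def, hij, hij.symm]
    have e1 : s1 (s2 (s1.symm (s2.symm (i, 1)))) = (i, (0 : Fin 2)) := by
      simp [s1, s2, Equiv.swap_apply_def, hij, hij.symm]
    have h0 := hm 0
    have h1 := hm 1
    rw [hgb, e0] at h0
    rw [hgb, e1] at h1
    have hd : ∀ (l : Fin t) (p : Fin t × Fin 2), bv p ∈ D l → p.1 = l := fun l p h => by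
      by_contra hne
      have := Submodule.disjoint_def.mp (hdec.indep.pairwiseDisjoint hne) _ (hbm p) h
      exact one_ne_zero (show (1 : F) = 0 by rw [← hbQ p, this, herm_zero_left hf])
    exact hij ((hd _ (i, 0) h1).trans (hd _ (j, 0) h0).symm)
  -- a transvection moving an axis off the axes
  have hcard4 : 4 ≤ Fintype.card (Fin t × Fin 2) := by rw [hcard, Module.finrank_pi]; exact ht4
  obtain ⟨e⟩ : Nonempty (Fin 4 ↪ Fin t × Fin 2) :=
    Function.Embedding.nonempty_of_card_le (by rwa [Fintype.card_fin])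
  set u := bv (e 0) + bv (e 1) + bv (e 2) + bv (e 3) with hu
  have hue : ∀ a : Fin 4, f u (bv (e a)) = 1 := fun a => by
    rw [hu, hf.add_left, hf.add_left, hf.add_left]
    fin_cases a <;> simp [hbQ, hbo _ _ (e.injective.ne (show (0 : Fin 4) ≠ 1 by decide)),
      hbo _ _ (e.injective.ne (show (0 : Fin 4) ≠ 2 by decide)),
      hbo _ _ (e.injective.ne (show (0 : Fin 4) ≠ 3 by decide)),
      hbo _ _ (e.injective.ne (show (1 : Fin 4) ≠ 0 by decide)),
      hbo _ _ (e.injective.ne (show (1 : Fin 4) ≠ 2 by decide)),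
      hbo _ _ (e.injective.ne (show (1 : Fin 4) ≠ 3 by decide)),
      hbo _ _ (e.injective.ne (show (2 : Fin 4) ≠ 0 by decide)),
      hbo _ _ (e.injective.ne (show (2 : Fin 4) ≠ 1 by decide)),
      hbo _ _ (e.injective.ne (show (2 : Fin 4) ≠ 3 by decide)),
      hbo _ _ (e.injective.ne (show (3 : Fin 4) ≠ 0 by decide)),
      hbo _ _ (e.injective.ne (show (3 : Fin 4) ≠ 1 by decide)),
      hbo _ _ (e.injective.ne (show (3 : Fin 4) ≠ 2 by decide))]
  have heu : ∀ a : Fin 4, f (bv (e a)) u = 1 := fun a => by rw [hf.herm, hue, map_one]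
  have huu : f u u = 0 := by
    conv_lhs => arg 1; rw [hu]
    rw [hf.add_left, hf.add_left, hf.add_left, heu, heu, heu, heu]
    linear_combination 2 * h2
  have hμ : σ (1 : F) = -1 := by rw [map_one]; linear_combination h2
  refine ⟨K, lt_of_le_not_ge hHK fun hle => hgH (hle hgK).1, lt_of_le_not_ge inf_le_right fun hle => ?_⟩
  have hmem := ((hle (utv_mem_hSU hf huu hμ)).1 (bv (e 0))).mp ⟨e 0, 1, one_ne_zero, (one_smul F _).symm⟩
  change (utv f u 1 : Matrix ι ι F) *ᵥ bv (e 0) ∈ S at hmem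
  rw [utv_mulVec hf huu, heu, one_mul, one_smul] at hmem
  obtain ⟨p, s, hs, hp⟩ := hmem
  have hne : ∀ a : Fin 4, a ≠ 0 → p = e a := fun a ha => by
    by_contra hpa
    have h := congrArg (fun y => f y (bv (e a))) hp
    simp only [hf.add_left, hf.smul_left, hue, hbo p _ hpa, mul_zero,
      hbo _ _ (e.injective.ne (Ne.symm ha)), zero_add] at h
    exact one_ne_zero h
  exact absurd (e.injective ((hne 1 (by decide)).symm.trans (hne 2 (by decide)))) (by decide)

end CfsgLib.NonMaxUnitaryPlanes
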