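import Cfsg.Agent.Lib.ClassicalTransvec
import Cfsg.Agent.Lib.ClassicalMaxParabolic
import Cfsg.Prelude.Def_Classical
import Mathlib.FieldTheory.Finite.Basic

/-! Decomposition stabilisers contained in the group of an invariant function: the number of
non-zero components, counted in the field. -/

set_option autoImplicit false

namespace CfsgLib.Classical

open Matrix

variable {ι : Type} [Fintype ι] [DecidableEq ι] {F : Type*} [Field F] {t : ℕ}
  {D : Fin t → Submodule F (ι → F)}

lemma isCompl_block (hind : iSupIndep D) (htop : iSup D = ⊤) (i : Fin t) :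
    IsCompl (D i) (⨆ (j) (_ : j ≠ i), D j) := by
  refine ⟨hind i, ?_⟩
  rw [codisjoint_iff, eq_top_iff, ← htop]
  exact iSup_le fun l => by
    by_cases h : l = i
    · exact h ▸ le_sup_left
    · exact le_trans (le_iSup₂ (f := fun l (_ : l ≠ i) => D l) l h) le_sup_right

/-- the component of a vector in a block -/
noncomputable def bcomp (hind : iSupIndep D) (htop : iSup D = ⊤) (i : Fin t) :
    (ι → F) →ₗ[F] D i :=
  (D i).projectionOnto (⨆ (j) (_ : j ≠ i), D j) (isCompl_block hind htop i)

variable (hind : iSupIndep D) (htop : iSup D = ⊤)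

lemma bcomp_self {i : Fin t} {x : ι → F} (hx : x ∈ D i) : bcomp hind htop i x = ⟨x, hx⟩ :=
  Submodule.projectionOnto_apply_left (isCompl_block hind htop i) ⟨x, hx⟩

lemma bcomp_other {i j : Fin t} (h : j ≠ i) {x : ι → F} (hx : x ∈ D j) :
    bcomp hind htop i x = 0 :=
  (Submodule.projectionOnto_apply_eq_zero_iff _).mpr
    (le_iSup₂ (f := fun l (_ : l ≠ i) => D l) j h hx)

/-- the number of non-zero components, in the field -/
noncomputable def blockCount (x : ι → F) : F :=
  ∑ i : Fin t, @ite _ (bcomp hind htop i x = 0) (_root_.Classical.propDecidable _) 0 1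

lemma sum_bcomp (x : ι → F) : ∑ i, (bcomp hind htop i x : ι → F) = x := by
  classical
  have hx : x ∈ iSup D := htop ▸ Submodule.mem_top
  induction hx using Submodule.iSup_induction' with
  | mem i y hy =>
    rw [Finset.sum_eq_single i (fun j _ hj => by rw [bcomp_other hind htop (Ne.symm hj) hy]; rfl)
      (fun h => absurd (Finset.mem_univ i) h), bcomp_self hind htop hy]
  | zero => simp
  | add a b _ _ ha hb =>
    simp only [map_add, Submodule.coe_add, Finset.sum_add_distrib, ha, hb]

lemma decompStab_le_count {g : GL ι F} (hg : g ∈ Cfsg.Geo.decompositionStabilizer D) :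
    g ∈ Cfsg.isometryGroup F (blockCount hind htop) := by
  classical
  intro x _
  change blockCount hind htop ((g : Matrix ι ι F) *ᵥ x) = blockCount hind htop x
  obtain ⟨σ, hσ⟩ := hg
  have hmap : ∀ i, ∀ y ∈ D i, (g : Matrix ι ι F) *ᵥ y ∈ D (σ i) := fun i y hy => by
    rw [← hσ i, ← Matrix.toLin'_apply]; exact Submodule.mem_map_of_mem hy
  have hcomp : ∀ i, (bcomp hind htop (σ i) ((g : Matrix ι ι F) *ᵥ x) : ι → F) =
      (g : Matrix ι ι F) *ᵥ (bcomp hind htop i x : ι → F) := by
    intro i
    conv_lhs => rw [← sum_bcomp hind htop x, Matrix.mulVec_sum, map_sum]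
    rw [Finset.sum_eq_single i (fun j _ hj => bcomp_other hind htop
      (fun h => hj (σ.injective h)) (hmap j _ (bcomp hind htop j x).2))
      (fun h => absurd (Finset.mem_univ i) h), bcomp_self hind htop (hmap i _ (bcomp hind htop i x).2)]
  rw [blockCount, blockCount, ← Equiv.sum_comp σ]
  refine Finset.sum_congr rfl fun i _ => ?_
  have hiff : bcomp hind htop (σ i) ((g : Matrix ι ι F) *ᵥ x) = 0 ↔ bcomp hind htop i x = 0 := by
    constructor
    · intro h
      refine Subtype.ext (mulVec_injective g ?_)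
      change (g : Matrix ι ι F) *ᵥ _ = (g : Matrix ι ι F) *ᵥ (0 : ι → F)
      rw [← hcomp, h, mulVec_zero]
      rfl
    · intro h
      refine Subtype.ext ?_
      rw [hcomp, h]
      exact mulVec_zero _
  by_cases h : bcomp hind htop i x = 0
  · rw [if_pos h, if_pos (hiff.mpr h)]
  · rw [if_neg h, if_neg (mt hiff.mp h)]

/-- a functional given by its values -/
lemma exists_vec (l : (ι → F) →ₗ[F] F) : ∃ φ : ι → F, ∀ x, φ ⬝ᵥ x = l x :=
  ⟨fun i => l (Pi.single i 1), fun x => by
    conv_rhs => rw [pi_eq_sum_univ' x, map_sum]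
    exact Finset.sum_congr rfl fun i _ => by simp [mul_comm]⟩

lemma count_pair (hne : (2 : F) ≠ 1) {i j : Fin t} (hij : i ≠ j) {x y : ι → F} (hx : x ∈ D i)
    (hy : y ∈ D j) (hx0 : x ≠ 0) (hy0 : y ≠ 0) :
    blockCount hind htop (x + y) ≠ blockCount hind htop x := by
  classical
  have e1 : blockCount hind htop x = 1 := by
    rw [blockCount, Finset.sum_eq_single i (fun l _ hl => by
      rw [if_pos (bcomp_other hind htop (Ne.symm hl) hx)])
      (fun h => absurd (Finset.mem_univ i) h), bcomp_self hind htop hx,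
      if_neg (fun h => hx0 (congrArg Subtype.val h))]
  have e2 : blockCount hind htop (x + y) = 2 := by
    rw [blockCount, ← Finset.sum_subset (Finset.subset_univ {i, j}) (fun l _ hl => by
      simp only [Finset.mem_insert, Finset.mem_singleton, not_or] at hl
      rw [if_pos]
      rw [map_add, bcomp_other hind htop (Ne.symm hl.1) hx, bcomp_other hind htop (Ne.symm hl.2) hy,
        add_zero]), Finset.sum_pair hij, map_add, map_add, bcomp_self hind htop hx,
      bcomp_other hind htop hij.symm hy, bcomp_self hind htop hy, bcomp_other hind htop hij hx,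
      add_zero, zero_add, if_neg (fun h => hx0 (congrArg Subtype.val h)),
      if_neg (fun h => hy0 (congrArg Subtype.val h))]
    norm_num
  rw [e1, e2]
  exact hne

/-- a witness makes the stabiliser non-maximal in SL -/
theorem exists_between_count (ht : 2 ≤ t) (hne : ∀ i, D i ≠ ⊥)
    {g : GL ι F} (hgSL : g ∈ Cfsg.Geo.specialLinear ι F)
    (hgK : g ∈ Cfsg.isometryGroup F (blockCount hind htop))
    (hgH : g ∉ Cfsg.Geo.decompositionStabilizer D) :
    ∃ K : Subgroup (GL ι F),
      Cfsg.Geo.decompositionStabilizer D ⊓ Cfsg.Geo.specialLinear ι F < K ∧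
      K < Cfsg.Geo.specialLinear ι F := by
  refine ⟨Cfsg.isometryGroup F (blockCount hind htop) ⊓ Cfsg.Geo.specialLinear ι F,
    lt_of_le_not_ge (fun x hx => ⟨decompStab_le_count hind htop hx.1, hx.2⟩)
      (fun h => hgH (h ⟨hgK, hgSL⟩).1), lt_of_le_not_ge inf_le_right fun h => ?_⟩
  let i : Fin t := ⟨0, by omega⟩
  let j : Fin t := ⟨1, by omega⟩
  have hij : i ≠ j := fun h => by simp [i, j] at h
  obtain ⟨x, hx, hx0⟩ := Submodule.exists_mem_ne_zero_of_ne_bot (hne i)
  obtain ⟨y, hy, hy0⟩ := Submodule.exists_mem_ne_zero_of_ne_bot (hne j)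
  obtain ⟨φ, hφx, hφ⟩ := exists_annihilator (D j) (z := x) fun hm => hx0 (by
    have h0 := bcomp_other hind htop hij.symm hm
    rw [bcomp_self hind htop hx] at h0
    exact congrArg Subtype.val h0)
  have hk := (h (tv_mem_specialLinear y φ)).1 x x
  change blockCount hind htop ((tv y φ : Matrix ι ι F) *ᵥ x) = blockCount hind htop x at hk
  rw [tv_mulVec (hφ y hy), hφx, one_smul] at hk
  refine count_pair hind htop (fun h2 => ?_) hij hx hy hx0 hy0 hk
  exact one_ne_zero (show (1 : F) = 0 by linear_combination h2)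

section involution


variable [Fintype F]

/-- `1 + a φᵀ` with `φ a = 4`, an involution when `6 = 0` -/
def invUnit (h6 : (6 : F) = 0) (a φ : ι → F) (h : φ ⬝ᵥ a = 4) : GL ι F where
  val := 1 + vecMulVec a φ
  inv := 1 + vecMulVec a φ
  val_inv := by
    have h1 : vecMulVec a φ * vecMulVec a φ = (4 : F) • vecMulVec a φ := by
      rw [vecMulVec_mul_vecMulVec, h, vecMulVec_smul]
    rw [mul_add, add_mul, add_mul, one_mul, one_mul, mul_one, h1]
    have : vecMulVec a φ + (vecMulVec a φ + (4 : F) • vecMulVec a φ) = (6 : F) • vecMulVec a φ := by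
      module
    rw [add_assoc, this, h6, zero_smul, add_zero]
  inv_val := by
    have h1 : vecMulVec a φ * vecMulVec a φ = (4 : F) • vecMulVec a φ := by
      rw [vecMulVec_mul_vecMulVec, h, vecMulVec_smul]
    rw [mul_add, add_mul, add_mul, one_mul, one_mul, mul_one, h1]
    have : vecMulVec a φ + (vecMulVec a φ + (4 : F) • vecMulVec a φ) = (6 : F) • vecMulVec a φ := by
      module
    rw [add_assoc, this, h6, zero_smul, add_zero]

lemma invUnit_mulVec (h6 : (6 : F) = 0) {a φ : ι → F} (h : φ ⬝ᵥ a = 4) (x : ι → F) :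
    (invUnit h6 a φ h : Matrix ι ι F) *ᵥ x = x + (φ ⬝ᵥ x) • a := by
  change (1 + vecMulVec a φ) *ᵥ x = _
  rw [add_mulVec, one_mulVec, vecMulVec_mulVec]
  ext i; simp [mul_comm]

lemma det_invUnit (h6 : (6 : F) = 0) {a φ : ι → F} (h : φ ⬝ᵥ a = 4) :
    ((GeneralLinearGroup.det (invUnit h6 a φ h)) : F) = 5 := by
  rw [GeneralLinearGroup.val_det_apply]
  change (1 + vecMulVec a φ).det = 5
  rw [vecMulVec_eq Unit, det_one_add_mul_comm]
  have : (replicateRow Unit φ * replicateCol Unit a) () () = 4 := by
    simpa [replicateRow, replicateCol, Matrix.mul_apply, dotProduct] using h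
  rw [det_unique, Matrix.add_apply, Matrix.one_apply_eq, show (default : Unit) = () from rfl, this]
  norm_num

lemma small_field (hq : Fintype.card F ≤ 4) (s : F) :
    (6 : F) = 0 ∧ ((Fintype.card F = 2 ∧ (2 : F) = 0 ∧ s * s = s) ∨
      (Fintype.card F = 3 ∧ (3 : F) = 0) ∨ (Fintype.card F = 4 ∧ (2 : F) = 0)) := by
  have h1 : 1 < Fintype.card F := Fintype.one_lt_card
  have hz := Nat.cast_card_eq_zero F
  have hp : s ^ Fintype.card F = s := FiniteField.pow_card s
  rcases (by omega : Fintype.card F = 2 ∨ Fintype.card F = 3 ∨ Fintype.card F = 4) with h | h | h <;>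
    rw [h] at hz hp
  · push_cast at hz
    exact ⟨by linear_combination 3 * hz, Or.inl ⟨h, hz, by rw [← sq]; exact hp⟩⟩
  · push_cast at hz
    exact ⟨by linear_combination 2 * hz, Or.inr (Or.inl ⟨h, hz⟩)⟩
  · push_cast at hz
    have h2 : (2 : F) = 0 := by
      have : (2 : F) * 2 = 0 := by linear_combination hz
      exact (mul_self_eq_zero).mp this
    exact ⟨by linear_combination 3 * h2, Or.inr (Or.inr ⟨h, h2⟩)⟩

lemma four_indicator (hq : Fintype.card F ≤ 4) (s₀ s₁ s₂ s₃ c : F)
    (hc : c = s₀ + s₁ + s₂ + s₃) :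
    (s₀ + c) ^ (Fintype.card F - 1) + (s₁ + c) ^ (Fintype.card F - 1) +
        (s₂ + c) ^ (Fintype.card F - 1) + (s₃ + c) ^ (Fintype.card F - 1) =
      s₀ ^ (Fintype.card F - 1) + s₁ ^ (Fintype.card F - 1) + s₂ ^ (Fintype.card F - 1) +
        s₃ ^ (Fintype.card F - 1) := by
  obtain ⟨-, ⟨h, h2, -⟩ | ⟨h, h3⟩ | ⟨h, h2⟩⟩ := small_field hq c <;>
    rw [h] <;> subst hc <;> norm_num
  · linear_combination 2 * (s₀ + s₁ + s₂ + s₃) * h2
  · linear_combination 2 * (s₀ + s₁ + s₂ + s₃) ^ 2 * h3
  · linear_combination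
      (2 * (s₀ + s₁ + s₂ + s₃) ^ 3 +
        ((s₀ + s₁ + s₂ + s₃) ^ 2 * (s₀ + s₁ + s₂ + s₃)) +
        (s₀ * s₀ + s₁ * s₁ + s₂ * s₂ + s₃ * s₃) * (s₀ + s₁ + s₂ + s₃) +
        (s₀ + s₁ + s₂ + s₃) ^ 2 * (s₀ + s₁ + s₂ + s₃) -
        (s₀ * s₁ + s₀ * s₂ + s₀ * s₃ + s₁ * s₂ + s₁ * s₃ + s₂ * s₃) * (s₀ + s₁ + s₂ + s₃)) * h2

include hind htop in
/-- monomial stabilisers over at most four elements -/
theorem exists_between_monomial (hq : Fintype.card F ≤ 4) (h8 : 8 ≤ t)
    (h1 : ∀ i, Module.finrank F (D i) = 1) :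
    ∃ K : Subgroup (GL ι F),
      Cfsg.Geo.decompositionStabilizer D ⊓ Cfsg.Geo.specialLinear ι F < K ∧
      K < Cfsg.Geo.specialLinear ι F := by
  classical
  have hne : ∀ i, D i ≠ ⊥ := fun i h => by
    have := h1 i; rw [h, finrank_bot] at this; omega
  choose e heD he0 using fun i => Submodule.exists_mem_ne_zero_of_ne_bot (hne i)
  have hspan : ∀ i, ∀ y ∈ D i, ∃ s : F, y = s • e i := by
    intro i y hy
    have : D i = Submodule.span F {e i} :=
      (Submodule.eq_of_le_of_finrank_eq (Submodule.span_le.mpr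
        (Set.singleton_subset_iff.mpr (heD i))) (by rw [finrank_span_singleton (he0 i), h1])).symm
    rw [this, Submodule.mem_span_singleton] at hy
    obtain ⟨s, hs⟩ := hy
    exact ⟨s, hs.symm⟩
  choose co hco using fun i x => hspan i _ (bcomp hind htop i x).2
  let cl : Fin t → ((ι → F) →ₗ[F] F) := fun i =>
    { toFun := co i
      map_add' := fun x y => by
        refine smul_left_injective F (he0 i) ?_
        change co i (x + y) • e i = (co i x + co i y) • e i
        rw [add_smul, ← hco, ← hco, ← hco, map_add, Submodule.coe_add]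
      map_smul' := fun s x => by
        refine smul_left_injective F (he0 i) ?_
        change co i (s • x) • e i = (s * co i x) • e i
        rw [mul_smul, ← hco, ← hco, map_smul, Submodule.coe_smul] }
  have hcl : ∀ i j, cl i (e j) = if i = j then 1 else 0 := by
    intro i j
    refine smul_left_injective F (he0 i) ?_
    change co i (e j) • e i = _ • e i
    rw [← hco]
    by_cases h : i = j
    · subst h; rw [if_pos rfl, one_smul, bcomp_self hind htop (heD i)]
    · rw [if_neg h, zero_smul, bcomp_other hind htop (Ne.symm h) (heD j)]; rfl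
  have hind' : ∀ i x, (@ite _ (bcomp hind htop i x = 0) (_root_.Classical.propDecidable _)
      (0 : F) 1) = co i x ^ (Fintype.card F - 1) := by
    intro i x
    by_cases h : bcomp hind htop i x = 0
    · have : co i x = 0 := by
        have h' := hco i x
        rw [h] at h'
        exact (smul_eq_zero.mp h'.symm).resolve_right (he0 i)
      rw [if_pos h, this, zero_pow (by have := Fintype.one_lt_card (α := F); omega)]
    · have hc : co i x ≠ 0 := fun h0 => h (Subtype.ext (by rw [hco, h0, zero_smul]; rfl))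
      rw [if_neg h, FiniteField.pow_card_sub_one_eq_one _ hc]
  have h6 : (6 : F) = 0 := (small_field hq 0).1
  -- the quadruples
  have hquad : ∀ p : Fin 4 → Fin t, Function.Injective p →
      ∃ u : GL ι F, (GeneralLinearGroup.det u : F) = 5 ∧
        u ∈ Cfsg.isometryGroup F (blockCount hind htop) ∧
        ∀ j, (u : Matrix ι ι F) *ᵥ e j = if j ∈ Set.range p then
          e j + ∑ k, e (p k) else e j := by
    intro p hp
    obtain ⟨φ, hφ⟩ := exists_vec (∑ k, cl (p k))
    obtain ⟨a, ha⟩ : ∃ a, a = ∑ k, e (p k) := ⟨_, rfl⟩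
    have hφa : φ ⬝ᵥ a = 4 := by
      rw [hφ, ha, map_sum]
      simp [LinearMap.sum_apply, hcl, hp.eq_iff]
    refine ⟨invUnit h6 a φ hφa, det_invUnit h6 hφa, fun x _ => ?_, fun j => ?_⟩
    · change blockCount hind htop ((invUnit h6 a φ hφa : Matrix ι ι F) *ᵥ x) = blockCount hind htop x
      obtain ⟨c, hc⟩ : ∃ c, c = φ ⬝ᵥ x := ⟨_, rfl⟩
      rw [invUnit_mulVec, ← hc, blockCount, blockCount]
      simp only [hind']
      have hca : ∀ i, co i (x + c • a) = co i x + c * ∑ k, (if i = p k then 1 else 0) := fun i => by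
        change cl i (x + c • a) = cl i x + _
        rw [map_add, map_smul, ha, map_sum, smul_eq_mul]
        simp only [hcl]
      rw [← Finset.sum_add_sum_compl (Finset.univ.image p),
        ← Finset.sum_add_sum_compl (Finset.univ.image p)]
      congr 1
      · rw [Finset.sum_image fun a _ b _ h => hp h, Finset.sum_image fun a _ b _ h => hp h,
          Fin.sum_univ_four, Fin.sum_univ_four]
        simp only [hca, hp.eq_iff, Finset.sum_ite_eq, Finset.mem_univ, if_true, mul_one]
        refine four_indicator hq _ _ _ _ c ?_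
        rw [hc, hφ, LinearMap.sum_apply, Fin.sum_univ_four]
        rfl
      · refine Finset.sum_congr rfl fun i hi => ?_
        simp only [Finset.mem_compl, Finset.mem_image, Finset.mem_univ, true_and, not_exists] at hi
        rw [hca, Finset.sum_eq_zero fun k _ => if_neg fun h => hi k h.symm, mul_zero, add_zero]
    · rw [invUnit_mulVec, hφ, LinearMap.sum_apply]
      simp only [hcl]
      by_cases hj : j ∈ Set.range p
      · obtain ⟨k, rfl⟩ := hj
        rw [if_pos ⟨k, rfl⟩]
        simp [hp.eq_iff, ha]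
      · rw [if_neg hj, Finset.sum_eq_zero fun k _ => if_neg fun h => hj ⟨k, h⟩]
        simp
  obtain ⟨u, hu, huK, hue⟩ := hquad (fun k => ⟨k.1, by omega⟩)
    (fun a b h => Fin.ext (by simpa using congrArg Fin.val h))
  obtain ⟨v, hv, hvK, hve⟩ := hquad (fun k => ⟨k.1 + 4, by omega⟩)
    (fun a b h => Fin.ext (by simpa using congrArg Fin.val h))
  refine exists_between_count hind htop (by omega) hne (g := u * v) ?_ (Subgroup.mul_mem _ huK hvK) ?_
  · change GeneralLinearGroup.det (u * v) = 1
    refine Units.ext ?_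
    rw [map_mul, Units.val_mul, hu, hv, Units.val_one]
    linear_combination 4 * h6
  · rintro ⟨σ, hσ⟩
    let i0 : Fin t := ⟨0, by omega⟩
    have hv0 : (v : Matrix ι ι F) *ᵥ e i0 = e i0 := by
      rw [hve, if_neg]
      rintro ⟨k, hk⟩
      have := congrArg Fin.val hk
      simp [i0] at this
    have hmem : (((u * v : GL ι F)) : Matrix ι ι F) *ᵥ e i0 ∈ D (σ i0) := by
      rw [← hσ i0, ← Matrix.toLin'_apply]; exact Submodule.mem_map_of_mem (heD i0)
    rw [Units.val_mul, ← mulVec_mulVec, hv0, hue, if_pos ⟨0, rfl⟩] at hmem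
    have h12 : ∃ k : Fin 4, k ≠ 0 ∧ (⟨k.1, by omega⟩ : Fin t) ≠ σ i0 := by
      by_contra! h
      have e1 := congrArg Fin.val (h 1 (by decide))
      have e2 := congrArg Fin.val (h 2 (by decide))
      change (1 : ℕ) = _ at e1
      change (2 : ℕ) = _ at e2
      omega
    obtain ⟨k, hk0, hk⟩ := h12
    have h0 : cl ⟨k.1, by omega⟩ (e i0 + ∑ l : Fin 4, e ⟨l.1, by omega⟩) = 0 := by
      refine smul_left_injective F (he0 ⟨k.1, by omega⟩) ?_
      change co _ _ • _ = (0 : F) • _
      rw [← hco, bcomp_other hind htop hk.symm hmem, zero_smul]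
      rfl
    rw [map_add, map_sum, hcl, if_neg (fun h => hk0 (Fin.ext (by simpa [i0] using congrArg Fin.val h))),
      zero_add, Finset.sum_eq_single k (fun l _ hl => by
        rw [hcl, if_neg fun h => hl (Fin.ext (by simpa using congrArg Fin.val h.symm))])
        (fun h => absurd (Finset.mem_univ k) h), hcl, if_pos rfl] at h0
    exact one_ne_zero h0

include hind htop in
/-- blocks of dimension two over two elements -/
theorem exists_between_planes (hq : Fintype.card F = 2) (h3 : 3 ≤ t)
    (h2 : ∀ i, Module.finrank F (D i) = 2) :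
    ∃ K : Subgroup (GL ι F),
      Cfsg.Geo.decompositionStabilizer D ⊓ Cfsg.Geo.specialLinear ι F < K ∧
      K < Cfsg.Geo.specialLinear ι F := by
  classical
  have hne : ∀ i, D i ≠ ⊥ := fun i h => by
    have := h2 i; rw [h, finrank_bot] at this; omega
  have hbit : ∀ s : F, s = 0 ∨ s = 1 := fun s => by
    by_cases hs : s = 0
    · exact Or.inl hs
    · refine Or.inr ?_
      have := FiniteField.pow_card_sub_one_eq_one s hs
      rwa [hq, show 2 - 1 = 1 from rfl, pow_one] at this
  have htwo : (2 : F) = 0 := by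
    have := Nat.cast_card_eq_zero F; rw [hq] at this; exact_mod_cast this
  choose e heD he0 using fun i => Submodule.exists_mem_ne_zero_of_ne_bot (hne i)
  have hf : ∀ i, ∃ f ∈ D i, f ∉ Submodule.span F {e i} := fun i => by
    by_contra! h
    have := Submodule.finrank_mono (show D i ≤ Submodule.span F {e i} from h)
    rw [h2, finrank_span_singleton (he0 i)] at this
    omega
  choose f hfD hfe using hf
  have hext : ∀ i, ∃ φ : ι → F, φ ⬝ᵥ f i = 1 ∧ φ ⬝ᵥ e i = 0 ∧
      ∀ j, j ≠ i → ∀ y ∈ D j, φ ⬝ᵥ y = 0 := by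
    intro i
    obtain ⟨φ, hφf, hφ⟩ := exists_annihilator
      (Submodule.span F {e i} ⊔ ⨆ (j) (_ : j ≠ i), D j) (z := f i) (fun h => by
        obtain ⟨y, hy, z, hz, hyz⟩ := Submodule.mem_sup.mp h
        refine hfe i ?_
        have hzi : z ∈ D i := by
          have := (D i).sub_mem (hfD i) ((Submodule.span_le.mpr
            (Set.singleton_subset_iff.mpr (heD i))) hy)
          rwa [← hyz, add_sub_cancel_left] at this
        have := (hind i).le_bot ⟨hzi, hz⟩
        rw [Submodule.mem_bot] at this
        rw [← hyz, this, add_zero]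
        exact hy)
    exact ⟨φ, hφf, hφ _ (Submodule.mem_sup_left (Submodule.mem_span_singleton_self _)),
      fun j hj y hy => hφ y
        (Submodule.mem_sup_right (le_iSup₂ (f := fun l (_ : l ≠ i) => D l) j hj hy))⟩
  choose φ hφf hφe hφo using hext
  let p : Fin 3 → Fin t := fun k => ⟨k.1, by omega⟩
  have hp : Function.Injective p := fun a b h => Fin.ext (by simpa [p] using congrArg Fin.val h)
  obtain ⟨a, ha⟩ : ∃ a, a = ∑ k, e (p k) := ⟨_, rfl⟩
  obtain ⟨Φ, hΦ⟩ : ∃ Φ, Φ = ∑ k, φ (p k) := ⟨_, rfl⟩
  have hΦe : ∀ k, Φ ⬝ᵥ e (p k) = 0 := fun k => by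
    rw [hΦ, sum_dotProduct]
    refine Finset.sum_eq_zero fun l _ => ?_
    by_cases h : l = k
    · subst h; exact hφe _
    · exact hφo _ _ (fun h' => h (hp h').symm) _ (heD _)
  have hok : Φ ⬝ᵥ a = 0 := by
    rw [ha, dotProduct_sum]; exact Finset.sum_eq_zero fun k _ => hΦe k
  refine exists_between_count hind htop (by omega) hne (g := tv a Φ) (tv_mem_specialLinear a Φ)
    (fun x _ => ?_) ?_
  · change blockCount hind htop ((tv a Φ : Matrix ι ι F) *ᵥ x) = blockCount hind htop x
    rw [tv_mulVec hok]
    rcases hbit (Φ ⬝ᵥ x) with hc | hc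
    · rw [hc, zero_smul, add_zero]
    rw [hc, one_smul, blockCount, blockCount, ← Finset.sum_add_sum_compl (Finset.univ.image p),
      ← Finset.sum_add_sum_compl (Finset.univ.image p)]
    have hrest : ∀ i ∈ (Finset.univ.image p)ᶜ, bcomp hind htop i a = 0 := by
      intro i hi
      simp only [Finset.mem_compl, Finset.mem_image, Finset.mem_univ, true_and, not_exists] at hi
      rw [ha, map_sum]
      exact Finset.sum_eq_zero fun k _ => bcomp_other hind htop (hi k) (heD _)
    congr 1
    swap
    · refine Finset.sum_congr rfl fun i hi => ?_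
      rw [map_add, hrest i hi, add_zero]
    rw [Finset.sum_image fun a _ b _ h => hp h, Finset.sum_image fun a _ b _ h => hp h]
    have hblock : ∀ k, (@ite _ (bcomp hind htop (p k) (x + a) = 0) (_root_.Classical.propDecidable _)
        (0 : F) 1) = (@ite _ (bcomp hind htop (p k) x = 0) (_root_.Classical.propDecidable _)
        (0 : F) 1) + 1 + φ (p k) ⬝ᵥ x := by
      intro k
      obtain ⟨y, hy⟩ : ∃ y, y = bcomp hind htop (p k) x := ⟨_, rfl⟩
      have hak : bcomp hind htop (p k) a = ⟨e (p k), heD _⟩ := by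
        rw [ha, map_sum, Finset.sum_eq_single k (fun l _ hl => bcomp_other hind htop
          (fun h => hl (hp h)) (heD _)) (fun h => absurd (Finset.mem_univ k) h),
          bcomp_self hind htop (heD _)]
      have hφx : φ (p k) ⬝ᵥ x = φ (p k) ⬝ᵥ (y : ι → F) := by
        conv_lhs => rw [← sum_bcomp hind htop x, dotProduct_sum]
        rw [Finset.sum_eq_single (p k) (fun l _ hl => hφo _ l hl _ (bcomp hind htop l x).2)
          (fun h => absurd (Finset.mem_univ _) h), hy]
      rw [map_add, hak, ← hy, hφx]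
      have hsp : (y : ι → F) ∈ Submodule.span F {e (p k), f (p k)} := by
        have : Submodule.span F {e (p k), f (p k)} = D (p k) := by
          refine Submodule.eq_of_le_of_finrank_le (Submodule.span_le.mpr (Set.insert_subset_iff.mpr
            ⟨heD _, Set.singleton_subset_iff.mpr (hfD _)⟩)) ?_
          rw [h2, Submodule.span_insert, sup_comm]
          have hlt : Submodule.span F {e (p k)} <
              Submodule.span F {f (p k)} ⊔ Submodule.span F {e (p k)} :=
            lt_of_le_not_ge le_sup_right fun h => hfe _ (h (Submodule.mem_sup_left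
              (Submodule.mem_span_singleton_self _)))
          have := Submodule.finrank_lt_finrank_of_lt hlt
          rw [finrank_span_singleton (he0 _)] at this
          omega
        rw [this]; exact y.2
      obtain ⟨s, r, hsr⟩ := Submodule.mem_span_pair.mp hsp
      rw [← hsr, dotProduct_add, dotProduct_smul, dotProduct_smul, hφe, hφf, smul_zero, zero_add,
        smul_eq_mul, mul_one]
      have hz : ∀ s r : F, s • e (p k) + r • f (p k) = 0 → s = 0 ∧ r = 0 := by
        intro s r h
        have hr : r = 0 := by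
          have := congrArg (φ (p k) ⬝ᵥ ·) h
          simpa [dotProduct_add, dotProduct_smul, hφe, hφf] using this
        rw [hr, zero_smul, add_zero] at h
        exact ⟨(smul_eq_zero.mp h).resolve_right (he0 _), hr⟩
      have hy0 : y = 0 ↔ s = 0 ∧ r = 0 :=
        ⟨fun h => hz s r (by rw [hsr, h]; rfl),
          fun h => Subtype.ext (by rw [← hsr, h.1, h.2]; simp)⟩
      have hy1 : y + ⟨e (p k), heD _⟩ = 0 ↔ s + 1 = 0 ∧ r = 0 :=
        ⟨fun h => hz (s + 1) r (by
          rw [add_smul, one_smul, add_right_comm, hsr]; exact congrArg Subtype.val h),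
          fun h => Subtype.ext (by
            change (y : ι → F) + e (p k) = 0
            rw [← hsr, h.2, zero_smul, add_zero]
            nth_rewrite 2 [← one_smul F (e (p k))]
            rw [← add_smul, h.1, zero_smul])⟩
      have h11 : (1 : F) + 1 = 0 := by linear_combination htwo
      rcases hbit s with hs | hs <;> rcases hbit r with hr | hr <;> subst hs <;> subst hr <;>
        simp [hy0, hy1, h11]
    simp only [hblock, Finset.sum_add_distrib]
    rw [show ∑ k, φ (p k) ⬝ᵥ x = Φ ⬝ᵥ x by rw [hΦ, sum_dotProduct], hc]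
    simp only [Finset.sum_const, Finset.card_univ, Fintype.card_fin, nsmul_eq_mul, mul_one]
    push_cast
    linear_combination 2 * htwo
  · rintro ⟨σ, hσ⟩
    have hmem : (tv a Φ : Matrix ι ι F) *ᵥ f (p 0) ∈ D (σ (p 0)) := by
      rw [← hσ, ← Matrix.toLin'_apply]; exact Submodule.mem_map_of_mem (hfD _)
    have hΦf : Φ ⬝ᵥ f (p 0) = 1 := by
      rw [hΦ, sum_dotProduct, Finset.sum_eq_single 0 (fun l _ hl => hφo _ _
        (fun h => hl (hp h).symm) _ (hfD _)) (fun h => absurd (Finset.mem_univ _) h), hφf]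
    rw [tv_mulVec hok, hΦf, one_smul] at hmem
    obtain ⟨k, hk0, hk⟩ : ∃ k : Fin 3, k ≠ 0 ∧ p k ≠ σ (p 0) := by
      by_contra! h
      exact absurd (hp ((h 1 (by decide)).trans (h 2 (by decide)).symm)) (by decide)
    have h0 := bcomp_other hind htop hk.symm hmem
    rw [map_add, bcomp_other hind htop (fun h => hk0 (hp h).symm) (hfD _), zero_add, ha, map_sum,
      Finset.sum_eq_single k (fun l _ hl => bcomp_other hind htop (fun h => hl (hp h)) (heD _))
        (fun h => absurd (Finset.mem_univ _) h), bcomp_self hind htop (heD _)] at h0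
    exact he0 _ (congrArg Subtype.val h0)

end involution

end CfsgLib.Classical
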