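import Cfsg.Agent.Lib.ClassicalReflections

/-! Orthogonal sums of quadratic spaces and their commutator subgroups. -/

set_option autoImplicit false

namespace CfsgLib.OrthSum

open Matrix

variable {F : Type*} [Field F] {k l : ℕ}

/-- The orthogonal sum as a function. -/
def sumQ (Q₁ : QuadraticForm F (Fin k → F)) (Q₂ : QuadraticForm F (Fin l → F)) : (Fin k ⊕ Fin l → F) → F :=
  fun v => Q₁ (v ∘ Sum.inl) + Q₂ (v ∘ Sum.inr)

variable (Q₁ : QuadraticForm F (Fin k → F)) (Q₂ : QuadraticForm F (Fin l → F))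

theorem polar_sumQ (v w : Fin k ⊕ Fin l → F) :
    QuadraticMap.polar (sumQ Q₁ Q₂) v w =
      QuadraticMap.polar (⇑Q₁) (v ∘ Sum.inl) (w ∘ Sum.inl) + QuadraticMap.polar (⇑Q₂) (v ∘ Sum.inr) (w ∘ Sum.inr) := by
  simp only [QuadraticMap.polar, sumQ]
  have e1 : (v + w) ∘ Sum.inl = v ∘ Sum.inl + w ∘ Sum.inl := rfl
  have e2 : (v + w) ∘ Sum.inr = v ∘ Sum.inr + w ∘ Sum.inr := rfl
  rw [e1, e2]; ring

theorem sumQ_nondeg (h₁ : (QuadraticMap.polarBilin Q₁).Nondegenerate) (h₂ : (QuadraticMap.polarBilin Q₂).Nondegenerate) :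
    Cfsg.Geo.IsNondegenerateQuadraticForm (sumQ Q₁ Q₂) where
  smul c v := by
    show Q₁ (c • (v ∘ Sum.inl)) + Q₂ (c • (v ∘ Sum.inr)) = c ^ 2 * (Q₁ (v ∘ Sum.inl) + Q₂ (v ∘ Sum.inr))
    simp only [QuadraticMap.map_smul, smul_eq_mul, sq]; ring
  polar_bilinear :=
    { add_left := fun x y v => by
        simp only [polar_sumQ]
        show QuadraticMap.polar (⇑Q₁) (x ∘ Sum.inl + y ∘ Sum.inl) _ + QuadraticMap.polar (⇑Q₂) (x ∘ Sum.inr + y ∘ Sum.inr) _ = _
        simp only [QuadraticMap.polar_add_left]; ring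
      smul_left := fun c x v => by
        simp only [polar_sumQ]
        show QuadraticMap.polar (⇑Q₁) (c • (x ∘ Sum.inl)) _ + QuadraticMap.polar (⇑Q₂) (c • (x ∘ Sum.inr)) _ = _
        simp only [QuadraticMap.polar_smul_left, smul_eq_mul]; ring
      add_right := fun v x y => by
        simp only [polar_sumQ]
        show QuadraticMap.polar (⇑Q₁) _ (x ∘ Sum.inl + y ∘ Sum.inl) + QuadraticMap.polar (⇑Q₂) _ (x ∘ Sum.inr + y ∘ Sum.inr) = _
        simp only [QuadraticMap.polar_add_right]; ring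
      smul_right := fun c v x => by
        simp only [polar_sumQ]
        show QuadraticMap.polar (⇑Q₁) _ (c • (x ∘ Sum.inl)) + QuadraticMap.polar (⇑Q₂) _ (c • (x ∘ Sum.inr)) = _
        simp only [QuadraticMap.polar_smul_right, smul_eq_mul]; ring }
  nondegenerate v hv := by
    have key : ∃ w, QuadraticMap.polar (sumQ Q₁ Q₂) v w ≠ 0 := by
      by_contra! h
      apply hv
      have e1 : v ∘ Sum.inl = 0 := h₁.1 _ fun a => by
        have h0 := h (Sum.elim a 0)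
        simpa [polar_sumQ, Sum.elim_comp_inl, Sum.elim_comp_inr] using h0
      have e2 : v ∘ Sum.inr = 0 := h₂.1 _ fun b => by
        have h0 := h (Sum.elim 0 b)
        simpa [polar_sumQ, Sum.elim_comp_inl, Sum.elim_comp_inr] using h0
      ext (i | i)
      · exact congrFun e1 i
      · exact congrFun e2 i
    obtain ⟨w, hw⟩ := key
    exact ⟨⟨w, by rwa [QuadraticMap.polar_comm]⟩, w, hw⟩

/-- The block diagonal matrix of two isometries. -/
def blockGL (g₁ : GL (Fin k) F) (g₂ : GL (Fin l) F) : GL (Fin k ⊕ Fin l) F where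
  val := fromBlocks (g₁ : Matrix (Fin k) (Fin k) F) 0 0 (g₂ : Matrix (Fin l) (Fin l) F)
  inv := fromBlocks ((g₁⁻¹ : GL (Fin k) F) : Matrix (Fin k) (Fin k) F) 0 0 ((g₂⁻¹ : GL (Fin l) F) : Matrix (Fin l) (Fin l) F)
  val_inv := by rw [fromBlocks_multiply]; simp
  inv_val := by rw [fromBlocks_multiply]; simp

theorem blockGL_mem {g₁ : GL (Fin k) F} {g₂ : GL (Fin l) F} (h₁ : g₁ ∈ Cfsg.isometryGroup F ⇑Q₁) (h₂ : g₂ ∈ Cfsg.isometryGroup F ⇑Q₂) :
    blockGL g₁ g₂ ∈ Cfsg.isometryGroup F (sumQ Q₁ Q₂) := by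
  intro u v
  show sumQ Q₁ Q₂ (fromBlocks (g₁ : Matrix (Fin k) (Fin k) F) 0 0 (g₂ : Matrix (Fin l) (Fin l) F) *ᵥ u) = sumQ Q₁ Q₂ u
  rw [fromBlocks_mulVec]
  have e1 : ∀ a : Fin k → F, Q₁ ((g₁ : Matrix (Fin k) (Fin k) F) *ᵥ a) = Q₁ a := fun a => h₁ a a
  have e2 : ∀ a : Fin l → F, Q₂ ((g₂ : Matrix (Fin l) (Fin l) F) *ᵥ a) = Q₂ a := fun a => h₂ a a
  simp [sumQ, Sum.elim_comp_inl, Sum.elim_comp_inr, e1, e2]

/-- The block embedding. -/
def blockHom : ↥(Cfsg.isometryGroup F ⇑Q₁) × ↥(Cfsg.isometryGroup F ⇑Q₂) →* ↥(Cfsg.isometryGroup F (sumQ Q₁ Q₂)) where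
  toFun p := ⟨blockGL p.1.1 p.2.1, blockGL_mem Q₁ Q₂ p.1.2 p.2.2⟩
  map_one' := by
    refine Subtype.ext (Units.ext ?_)
    show fromBlocks (1 : Matrix (Fin k) (Fin k) F) 0 0 (1 : Matrix (Fin l) (Fin l) F) = 1
    exact fromBlocks_one
  map_mul' p p' := by
    refine Subtype.ext (Units.ext ?_)
    show fromBlocks _ 0 0 _ = fromBlocks _ 0 0 _ * fromBlocks _ 0 0 _
    rw [fromBlocks_multiply]; simp

theorem hom_commutator {G H : Type*} [Group G] [Group H] (f : G →* H) {g : G} (hg : g ∈ commutator G) :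
    f g ∈ commutator H := by
  have h1 : (commutator G).map f ≤ commutator H := by
    rw [commutator_def, commutator_def, Subgroup.map_commutator]
    exact Subgroup.commutator_mono le_top le_top
  exact h1 (Subgroup.mem_map_of_mem f hg)

theorem block_omega {g₁ : ↥(Cfsg.isometryGroup F ⇑Q₁)} {g₂ : ↥(Cfsg.isometryGroup F ⇑Q₂)}
    (h₁ : g₁ ∈ Cfsg.Omega F ⇑Q₁) (h₂ : g₂ ∈ Cfsg.Omega F ⇑Q₂) :
    blockHom Q₁ Q₂ (g₁, g₂) ∈ Cfsg.Omega F (sumQ Q₁ Q₂) := by
  have e : blockHom Q₁ Q₂ (g₁, g₂) = (blockHom Q₁ Q₂).comp (MonoidHom.inl _ _) g₁ * (blockHom Q₁ Q₂).comp (MonoidHom.inr _ _) g₂ := by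
    simp [← map_mul]
  rw [e]
  exact mul_mem (hom_commutator _ h₁) (hom_commutator _ h₂)

/-- The swap of the two summands. -/
def swapGL (k : ℕ) : GL (Fin k ⊕ Fin k) F where
  val := fromBlocks 0 1 1 0
  inv := fromBlocks 0 1 1 0
  val_inv := by rw [fromBlocks_multiply]; simp
  inv_val := by rw [fromBlocks_multiply]; simp

theorem diag_omega [Finite F] (Q : QuadraticForm F (Fin k → F)) (hQ : (QuadraticMap.polarBilin Q).Nondegenerate)
    (h : Nat.card F ≠ 2 ∨ k ≠ 2) (g : ↥(Cfsg.isometryGroup F ⇑Q)) :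
    blockHom Q Q (g, g) ∈ Cfsg.Omega F (sumQ Q Q) := by
  classical
  have hN := sumQ_nondeg Q Q hQ hQ
  have hgen := CfsgLib.Classical.closure_reflSet hN (h.imp id fun hk => by
    rw [Fintype.card_sum, Fintype.card_fin]; omega)
  let φ : ↥(Cfsg.isometryGroup F (sumQ Q Q)) →* Abelianization ↥(Cfsg.isometryGroup F (sumQ Q Q)) := Abelianization.of
  have hexp : ∀ x, φ x * φ x = 1 := by
    intro x
    have hx : x ∈ Subgroup.closure (CfsgLib.Classical.reflSet hN) := hgen ▸ Subgroup.mem_top x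
    induction hx using Subgroup.closure_induction with
    | mem y hy =>
      obtain ⟨d, hd, rfl⟩ := hy
      rw [← map_mul, CfsgLib.Classical.rI_sq, map_one]
    | one => simp
    | mul a b _ _ ha hb => rw [map_mul, mul_mul_mul_comm, ha, hb, one_mul]
    | inv a _ ha => rw [map_inv, ← mul_inv, ha, inv_one]
  let s : ↥(Cfsg.isometryGroup F (sumQ Q Q)) := ⟨swapGL k, fun u v => by
    show sumQ Q Q (fromBlocks (0 : Matrix (Fin k) (Fin k) F) 1 1 0 *ᵥ u) = sumQ Q Q u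
    rw [fromBlocks_mulVec]
    simp [sumQ, Sum.elim_comp_inl, Sum.elim_comp_inr, add_comm]⟩
  have hconj : blockHom Q Q (1, g) = s * blockHom Q Q (g, 1) * s⁻¹ := by
    refine Subtype.ext (Units.ext ?_)
    show fromBlocks (1 : Matrix (Fin k) (Fin k) F) 0 0 ((g : GL (Fin k) F) : Matrix (Fin k) (Fin k) F) =
      fromBlocks 0 1 1 0 * fromBlocks ((g : GL (Fin k) F) : Matrix (Fin k) (Fin k) F) 0 0 1 * fromBlocks 0 1 1 0
    rw [fromBlocks_multiply, fromBlocks_multiply]; simp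
  have e : blockHom Q Q (g, g) = blockHom Q Q (g, 1) * blockHom Q Q (1, g) := by
    rw [← map_mul]; simp
  rw [Cfsg.Omega, ← Abelianization.ker_of, MonoidHom.mem_ker]
  show φ _ = 1
  rw [e, map_mul, hconj, map_mul, map_mul, map_inv, mul_right_comm (φ s), mul_inv_cancel, one_mul, hexp]

end CfsgLib.OrthSum
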