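import Cfsg.Agent.Lib.ClassicalMaxParabolic
import Cfsg.Prelude.Def_ClassicalGeometry
import Mathlib.Algebra.BigOperators.Fin

/-! The stabilisers of the coordinate subspaces in `GL_n`. -/

set_option autoImplicit false

namespace CfsgLib.Classical

open Matrix

variable {F : Type*} [Field F]

/-- the span of the first `k` coordinate vectors -/
def firstCoords (F : Type*) [Field F] (n k : ℕ) : Submodule F (Fin n → F) where
  carrier := {v | ∀ i : Fin n, k ≤ (i : ℕ) → v i = 0}
  add_mem' := fun {v w} hv hw i hi => by simp [hv i hi, hw i hi]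
  zero_mem' := fun i _ => rfl
  smul_mem' := fun c v hv i hi => by simp [hv i hi]

lemma finrank_firstCoords (n k : ℕ) (hk : k ≤ n) :
    Module.finrank F (firstCoords F n k) = k := by
  let e : firstCoords F n k ≃ₗ[F] (Fin k → F) :=
    { toFun := fun v i => v.1 (Fin.castLE hk i)
      map_add' := fun _ _ => rfl
      map_smul' := fun _ _ => rfl
      invFun := fun x => ⟨fun i => if h : (i : ℕ) < k then x ⟨i, h⟩ else 0,
        fun i hi => dif_neg (by omega)⟩
      left_inv := fun v => Subtype.ext (funext fun i => by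
        by_cases h : (i : ℕ) < k
        · simp [h]
        · simp [h, v.2 i (by omega)])
      right_inv := fun x => funext fun i => by simp }
  rw [e.finrank_eq, Module.finrank_fin_fun]

lemma firstCoords_ne_bot {n k : ℕ} (hk0 : 0 < k) (hk : k ≤ n) : firstCoords F n k ≠ ⊥ := fun h => by
  have := finrank_firstCoords (F := F) n k hk
  rw [h, finrank_bot] at this
  omega

lemma firstCoords_ne_top {n k : ℕ} (hk : k < n) : firstCoords F n k ≠ ⊤ := fun h => by
  have := finrank_firstCoords (F := F) n k hk.le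
  rw [h, finrank_top, Module.finrank_fin_fun] at this
  omega

theorem isCoatom_firstCoords (n k : ℕ) (hk0 : 0 < k) (hkn : k < n) :
    IsCoatom (Cfsg.Geo.subspaceStabilizer (firstCoords F n k)) := by
  obtain ⟨hlt, hmax⟩ := isMaximalIn_subspaceStabilizer (firstCoords F n k)
    (firstCoords_ne_bot hk0 hkn.le) (firstCoords_ne_top hkn)
  -- the stabiliser covers every determinant
  have hcover : ∀ c : Fˣ, ∃ d ∈ Cfsg.Geo.subspaceStabilizer (firstCoords F n k),
      GeneralLinearGroup.det d = c := by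
    intro c
    obtain ⟨m, rfl⟩ : ∃ m, n = m + 1 := ⟨n - 1, by omega⟩
    obtain ⟨D, hD⟩ : ∃ D : Matrix (Fin (m + 1)) (Fin (m + 1)) F,
        D = diagonal (Fin.cons (c : F) fun _ : Fin m => (1 : F)) := ⟨_, rfl⟩
    have hdet : D.det = c := by
      simp [hD, det_diagonal, Fin.prod_univ_succ]
    refine ⟨GeneralLinearGroup.mkOfDetNeZero D (by rw [hdet]; exact c.ne_zero),
      mem_stab_of_maps _ _ fun x hx i hi => ?_, Units.ext hdet⟩
    rw [GeneralLinearGroup.val_mkOfDetNeZero, hD, mulVec_diagonal, hx i hi, mul_zero]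
  have hSL : ∀ M : Subgroup (GL (Fin n) F), Cfsg.Geo.subspaceStabilizer (firstCoords F n k) ≤ M →
      ∀ g : GL (Fin n) F, ∃ d ∈ Cfsg.Geo.subspaceStabilizer (firstCoords F n k),
        g * d⁻¹ ∈ Cfsg.Geo.specialLinear (Fin n) F := by
    intro M _ g
    obtain ⟨d, hd, hdet⟩ := hcover (GeneralLinearGroup.det g)
    exact ⟨d, hd, MonoidHom.mem_ker.mpr (by rw [map_mul, map_inv, hdet, mul_inv_cancel])⟩
  refine ⟨fun h => hlt.not_ge (by rw [h, top_inf_eq]), fun M hM => ?_⟩
  rcases hmax (M ⊓ Cfsg.Geo.specialLinear (Fin n) F) (inf_le_inf_right _ hM.le) inf_le_right with h | h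
  · refine absurd (fun g hg => ?_) hM.not_ge
    obtain ⟨d, hd, hgd⟩ := hSL M hM.le g
    have h1 : g * d⁻¹ ∈ M ⊓ Cfsg.Geo.specialLinear (Fin n) F :=
      ⟨M.mul_mem hg (M.inv_mem (hM.le hd)), hgd⟩
    rw [h] at h1
    simpa using Subgroup.mul_mem _ h1.1 hd
  · refine eq_top_iff.mpr fun g _ => ?_
    obtain ⟨d, hd, hgd⟩ := hSL M hM.le g
    rw [← h] at hgd
    simpa using M.mul_mem hgd.1 (hM.le hd)

/-- block upper triangular matrices stabilising the first coordinates -/
theorem card_stab_firstCoords [Fintype F] (k l : ℕ) :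
    Nat.card (Cfsg.Geo.subspaceStabilizer (firstCoords F (k + l) k)) =
      Fintype.card F ^ (k * l) * (∏ i : Fin k, (Fintype.card F ^ k - Fintype.card F ^ (i : ℕ))) *
        ∏ i : Fin l, (Fintype.card F ^ l - Fintype.card F ^ (i : ℕ)) := by
  classical
  rw [← Matrix.card_GL_field, ← Matrix.card_GL_field,
    show Fintype.card F ^ (k * l) = Nat.card (Matrix (Fin k) (Fin l) F) by
      rw [Nat.card_eq_fintype_card, show Fintype.card (Matrix (Fin k) (Fin l) F) = Fintype.card (Fin k → Fin l → F) from rfl,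
        Fintype.card_fun, Fintype.card_fun, Fintype.card_fin, Fintype.card_fin, ← pow_mul, mul_comm l k],
    ← Nat.card_prod, ← Nat.card_prod]
  let r := Matrix.reindexAlgEquiv F F (finSumFinEquiv (m := k) (n := l))
  have key : ∀ g : GL (Fin (k + l)) F, g ∈ Cfsg.Geo.subspaceStabilizer (firstCoords F (k + l) k) ↔
      (r.symm (g : Matrix (Fin (k + l)) (Fin (k + l)) F)).toBlocks₂₁ = 0 := by
    intro g
    constructor
    · intro hg
      ext i j
      have hx : (Pi.single (Fin.castAdd l j) (1 : F) : Fin (k + l) → F) ∈ firstCoords F (k + l) k :=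
        fun t ht => Pi.single_eq_of_ne (fun h => by rw [h] at ht; simp at ht; omega) _
      have := maps_of_mem_stab hg hx (Fin.natAdd k i) (by simp)
      simpa [r, toBlocks₂₁, mulVec_single] using this
    · intro h
      refine mem_stab_of_maps _ _ fun x hx t ht => ?_
      obtain ⟨i, rfl⟩ : ∃ i : Fin l, t = Fin.natAdd k i :=
        ⟨⟨(t : ℕ) - k, by omega⟩, Fin.ext (by simp; omega)⟩
      rw [mulVec, dotProduct, Fin.sum_univ_add]
      have h1 : ∀ j : Fin k, (g : Matrix (Fin (k + l)) (Fin (k + l)) F) (Fin.natAdd k i) (Fin.castAdd l j) = 0 := fun j => by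
        simpa [r, toBlocks₂₁] using congrFun (congrFun h i) j
      have h2 : ∀ j : Fin l, x (Fin.natAdd k j) = 0 := fun j => hx _ (by simp)
      simp [h1, h2]
  have hblk : ∀ g : GL (Fin (k + l)) F, g ∈ Cfsg.Geo.subspaceStabilizer (firstCoords F (k + l) k) →
      r.symm (g : Matrix (Fin (k + l)) (Fin (k + l)) F) = fromBlocks
        (r.symm (g : Matrix (Fin (k + l)) (Fin (k + l)) F)).toBlocks₁₁
        (r.symm (g : Matrix (Fin (k + l)) (Fin (k + l)) F)).toBlocks₁₂ 0
        (r.symm (g : Matrix (Fin (k + l)) (Fin (k + l)) F)).toBlocks₂₂ := fun g hg => by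
    conv_lhs => rw [← fromBlocks_toBlocks (r.symm (g : Matrix (Fin (k + l)) (Fin (k + l)) F))]
    rw [(key g).mp hg]
  have hne : ∀ g : GL (Fin (k + l)) F, g ∈ Cfsg.Geo.subspaceStabilizer (firstCoords F (k + l) k) →
      ((r.symm (g : Matrix (Fin (k + l)) (Fin (k + l)) F)).toBlocks₁₁).det ≠ 0 ∧
      ((r.symm (g : Matrix (Fin (k + l)) (Fin (k + l)) F)).toBlocks₂₂).det ≠ 0 := fun g hg => by
    have h := ((g.isUnit.map r.symm).map (Matrix.detMonoidHom)).ne_zero
    rw [coe_detMonoidHom, hblk g hg, det_fromBlocks_zero₂₁] at h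
    exact mul_ne_zero_iff.mp h
  refine Nat.card_congr
    { toFun := fun g => (((r.symm ((g : GL (Fin (k + l)) F) : Matrix (Fin (k + l)) (Fin (k + l)) F)).toBlocks₁₂,
          GeneralLinearGroup.mkOfDetNeZero _ (hne g.1 g.2).1), GeneralLinearGroup.mkOfDetNeZero _ (hne g.1 g.2).2)
      invFun := fun t => ⟨GeneralLinearGroup.mkOfDetNeZero
          (r (fromBlocks (t.1.2 : Matrix (Fin k) (Fin k) F) t.1.1 0 (t.2 : Matrix (Fin l) (Fin l) F)))
          (by
            rw [Matrix.det_reindexAlgEquiv, det_fromBlocks_zero₂₁]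
            exact mul_ne_zero (det_ne_zero_of_right_inverse (t.1.2.mul_inv))
              (det_ne_zero_of_right_inverse (t.2.mul_inv))),
        (key _).mpr (by
          rw [GeneralLinearGroup.val_mkOfDetNeZero, AlgEquiv.symm_apply_apply, toBlocks_fromBlocks₂₁])⟩
      left_inv := fun g => Subtype.ext (Units.ext (by
        simp only [GeneralLinearGroup.val_mkOfDetNeZero]
        rw [← hblk g.1 g.2, AlgEquiv.apply_symm_apply]))
      right_inv := fun t => by
        refine Prod.ext (Prod.ext ?_ (Units.ext ?_)) (Units.ext ?_)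
        all_goals simp }

variable {n : ℕ}

lemma invariant_eq (W X : Submodule F (Fin n → F))
    (h : ∀ g ∈ Cfsg.Geo.subspaceStabilizer W, ∀ x ∈ X, ((g : GL (Fin n) F) : Matrix (Fin n) (Fin n) F) *ᵥ x ∈ X) :
    X = ⊥ ∨ X = W ∨ X = ⊤ := by
  by_cases hXW : X ≤ W
  · by_cases hX : X = ⊥
    · exact Or.inl hX
    refine Or.inr (Or.inl (le_antisymm hXW fun w hw => ?_))
    obtain ⟨x, hx, hx0⟩ := Submodule.exists_mem_ne_zero_of_ne_bot hX
    by_cases hws : w ∈ Submodule.span F {x}
    · exact (Submodule.span_le.mpr (by simpa using hx) : Submodule.span F {x} ≤ X) hws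
    obtain ⟨φ, hφx, hφ⟩ := exists_annihilator (Submodule.span F {w}) (z := x) (fun hmem => by
      obtain ⟨c, hc⟩ := Submodule.mem_span_singleton.mp hmem
      have hc0 : c ≠ 0 := fun h0 => hx0 (by rw [← hc, h0, zero_smul])
      exact hws (Submodule.mem_span_singleton.mpr ⟨c⁻¹, by rw [← hc, inv_smul_smul₀ hc0]⟩))
    have hok : φ ⬝ᵥ w = 0 := hφ w (Submodule.mem_span_singleton_self w)
    have := h (tv w φ) (mem_stab_of_maps W _ fun y hy => by
      rw [tv_mulVec hok]; exact W.add_mem hy (W.smul_mem _ hw)) x hx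
    rw [tv_mulVec hok, hφx, one_smul] at this
    simpa using X.sub_mem this hx
  · refine Or.inr (Or.inr (eq_top_iff.mpr fun v _ => ?_))
    obtain ⟨x, hx, hxW⟩ := SetLike.not_le_iff_exists.mp hXW
    obtain ⟨φ, hφx, hφ⟩ := exists_annihilator W hxW
    have hmove : ∀ u, φ ⬝ᵥ u = 0 → u ∈ X := fun u hu => by
      have := h (tv u φ) (mem_stab_of_maps W _ fun y hy => by
        rw [tv_mulVec hu, hφ y hy, zero_smul, add_zero]; exact hy) x hx
      rw [tv_mulVec hu, hφx, one_smul] at this
      simpa using X.sub_mem this hx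
    have := X.add_mem (hmove (v - (φ ⬝ᵥ v) • x) (by
      rw [dotProduct_sub, dotProduct_smul, hφx]; simp)) (X.smul_mem (φ ⬝ᵥ v) hx)
    simpa using this

theorem not_conj_firstCoords (k : ℕ) (hk0 : 0 < k) (hkn : k < n) (h2 : 2 * k ≠ n) (g : GL (Fin n) F) :
    (Cfsg.Geo.subspaceStabilizer (firstCoords F n k)).map (MulAut.conj g).toMonoidHom ≠
      Cfsg.Geo.subspaceStabilizer (firstCoords F n (n - k)) := by
  intro heq
  obtain ⟨X, hX⟩ : ∃ X, X = (firstCoords F n k).map (Matrix.toLin' (g : Matrix (Fin n) (Fin n) F)) := ⟨_, rfl⟩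
  have hrank : Module.finrank F X = k := by
    rw [hX, ← (Submodule.equivMapOfInjective _ (fun a b hab => mulVec_injective g
      (by simpa [Matrix.toLin'_apply] using hab)) _).finrank_eq, finrank_firstCoords n k hkn.le]
  rcases invariant_eq (firstCoords F n (n - k)) X (fun s hs x hx => by
      rw [← heq] at hs
      obtain ⟨t, ht, rfl⟩ := hs
      rw [hX] at hx ⊢
      obtain ⟨y, hy, rfl⟩ := hx
      refine ⟨((t : GL (Fin n) F) : Matrix (Fin n) (Fin n) F) *ᵥ y, maps_of_mem_stab ht hy, ?_⟩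
      show Matrix.toLin' _ _ = ((g * t * g⁻¹ : GL (Fin n) F) : Matrix (Fin n) (Fin n) F) *ᵥ Matrix.toLin' _ _
      rw [Matrix.toLin'_apply, Matrix.toLin'_apply, Units.val_mul, Units.val_mul,
        ← mulVec_mulVec, ← mulVec_mulVec, mulVec_mulVec y ((g⁻¹ : GL (Fin n) F) : Matrix (Fin n) (Fin n) F),
        ← Units.val_mul, inv_mul_cancel, Units.val_one, one_mulVec]) with h | h | h
  · rw [h, finrank_bot] at hrank; omega
  · rw [h, finrank_firstCoords n (n - k) (by omega)] at hrank; omega
  · rw [h, finrank_top, Module.finrank_fin_fun] at hrank; omega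

/-- inverse transpose followed by reversal of the coordinates -/
def dualRev (n : ℕ) (g : GL (Fin n) F) : GL (Fin n) F where
  val := ((g⁻¹ : GL (Fin n) F) : Matrix (Fin n) (Fin n) F)ᵀ.submatrix Fin.rev Fin.rev
  inv := (g : Matrix (Fin n) (Fin n) F)ᵀ.submatrix Fin.rev Fin.rev
  val_inv := by
    rw [← submatrix_mul _ _ _ _ _ Fin.rev_involutive.bijective, ← transpose_mul, ← Units.val_mul,
      mul_inv_cancel, Units.val_one, transpose_one, submatrix_one _ Fin.rev_injective]
  inv_val := by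
    rw [← submatrix_mul _ _ _ _ _ Fin.rev_involutive.bijective, ← transpose_mul, ← Units.val_mul,
      inv_mul_cancel, Units.val_one, transpose_one, submatrix_one _ Fin.rev_injective]

lemma dualRev_dualRev (g : GL (Fin n) F) : dualRev n (dualRev n g) = g := by
  refine Units.ext ?_
  show ((dualRev n g)⁻¹ : GL (Fin n) F).valᵀ.submatrix Fin.rev Fin.rev = g.val
  show ((g : Matrix (Fin n) (Fin n) F)ᵀ.submatrix Fin.rev Fin.rev)ᵀ.submatrix Fin.rev Fin.rev = g.val
  ext i j
  simp

lemma dualRev_mem {k : ℕ} (hk : k ≤ n) {g : GL (Fin n) F}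
    (hg : g ∈ Cfsg.Geo.subspaceStabilizer (firstCoords F n k)) :
    dualRev n g ∈ Cfsg.Geo.subspaceStabilizer (firstCoords F n (n - k)) := by
  refine mem_stab_of_maps _ _ fun x hx t ht => ?_
  show (((g⁻¹ : GL (Fin n) F) : Matrix (Fin n) (Fin n) F)ᵀ.submatrix Fin.rev Fin.rev *ᵥ x) t = 0
  simp only [mulVec, dotProduct, submatrix_apply, transpose_apply]
  refine Finset.sum_eq_zero fun j _ => ?_
  by_cases hj : n - k ≤ (j : ℕ)
  · rw [hx j hj, mul_zero]
  · have hmem : (Pi.single (Fin.rev t) (1 : F) : Fin n → F) ∈ firstCoords F n k := fun s hs =>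
      Pi.single_eq_of_ne (fun e => by rw [e, Fin.val_rev] at hs; omega) _
    have := maps_of_mem_stab (inv_mem hg) hmem (Fin.rev j) (by rw [Fin.val_rev]; omega)
    rw [mulVec_single_one, col_apply] at this
    rw [this, zero_mul]

theorem nonempty_equiv_firstCoords (k : ℕ) (hk : k ≤ n) :
    Nonempty (Cfsg.Geo.subspaceStabilizer (firstCoords F n k) ≃*
      Cfsg.Geo.subspaceStabilizer (firstCoords F n (n - k))) := by
  refine ⟨{ toFun := fun g => ⟨dualRev n g.1, dualRev_mem hk g.2⟩
            invFun := fun g => ⟨dualRev n g.1, by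
              have h := dualRev_mem (Nat.sub_le n k) g.2
              rwa [Nat.sub_sub_self hk] at h⟩
            left_inv := fun g => Subtype.ext (dualRev_dualRev _)
            right_inv := fun g => Subtype.ext (dualRev_dualRev _)
            map_mul' := fun g h => Subtype.ext (Units.ext ?_) }⟩
  show (((g.1 * h.1)⁻¹ : GL (Fin n) F) : Matrix (Fin n) (Fin n) F)ᵀ.submatrix Fin.rev Fin.rev =
    ((g.1⁻¹ : GL (Fin n) F) : Matrix (Fin n) (Fin n) F)ᵀ.submatrix Fin.rev Fin.rev *
      ((h.1⁻¹ : GL (Fin n) F) : Matrix (Fin n) (Fin n) F)ᵀ.submatrix Fin.rev Fin.rev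
  rw [← submatrix_mul _ _ _ _ _ Fin.rev_involutive.bijective, ← transpose_mul, ← Units.val_mul,
    ← _root_.mul_inv_rev]

end CfsgLib.Classical
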