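import Cfsg.Agent.Lib.ClassicalSpStd

/-! The deleted permutation module of `S_n` as a classical geometry: homomorphisms from symmetric groups
into symplectic and orthogonal groups, and transport of isometry groups along field isomorphisms. -/

set_option autoImplicit false

namespace CfsgLib.Classical.PermModule

open Matrix

/-- the sum of all coordinates vanishes -/
def InE {n : ℕ} {F : Type*} [Field F] (x : Fin n → F) : Prop := ∑ i, x i = 0

/-- coordinates on the heart of the permutation module -/
structure Model (n : ℕ) (κ : Type) [Fintype κ] (F : Type*) [Field F] where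
  L : (κ → F) →ₗ[F] (Fin n → F)
  π : (Fin n → F) →ₗ[F] (κ → F)
  hLE : ∀ v, InE (L v)
  hπL : ∀ v, π (L v) = v
  hK : ∀ x, InE x → ∃ c : F, x = L (π x) + fun _ => c
  hπ1 : ∀ c : F, InE (fun _ : Fin n => c) → π (fun _ => c) = 0

variable {n : ℕ} {κ : Type} [Fintype κ] [DecidableEq κ] {F : Type*} [Field F]

/-- permutation of coordinates -/
def act (σ : Equiv.Perm (Fin n)) : (Fin n → F) →ₗ[F] (Fin n → F) := LinearMap.funLeft F F σ.symm

lemma act_apply (σ : Equiv.Perm (Fin n)) (x : Fin n → F) (i : Fin n) : act σ x i = x (σ.symm i) := rfl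

lemma act_mul (σ τ : Equiv.Perm (Fin n)) (x : Fin n → F) : act (σ * τ) x = act σ (act τ x) := rfl

lemma act_one (x : Fin n → F) : act 1 x = x := rfl

lemma inE_act {σ : Equiv.Perm (Fin n)} {x : Fin n → F} (h : InE x) : InE (act σ x) := by
  unfold InE at *
  simp only [act_apply]
  rw [Equiv.sum_comp σ.symm x]; exact h

lemma inE_sub {x y : Fin n → F} (hx : InE x) (hy : InE y) : InE (x - y) := by
  unfold InE at *
  simp [Finset.sum_sub_distrib, hx, hy]

/-- the matrices of the permutations -/
def Model.mat (M : Model n κ F) : Equiv.Perm (Fin n) →* Matrix κ κ F where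
  toFun σ := LinearMap.toMatrix' (M.π ∘ₗ act σ ∘ₗ M.L)
  map_one' := by
    have : M.π ∘ₗ act (1 : Equiv.Perm (Fin n)) ∘ₗ M.L = LinearMap.id := by
      refine LinearMap.ext fun v => ?_
      simp only [LinearMap.comp_apply, act_one, M.hπL, LinearMap.id_apply]
    rw [this, LinearMap.toMatrix'_id]
  map_mul' σ τ := by
    rw [← LinearMap.toMatrix'_comp]
    congr 1
    refine LinearMap.ext fun v => ?_
    simp only [LinearMap.comp_apply]
    obtain ⟨c, hc⟩ := M.hK (act τ (M.L v)) (inE_act (M.hLE v))
    have hcE : InE (fun _ : Fin n => c) := by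
      have := inE_sub (inE_act (σ := τ) (M.hLE v)) (M.hLE (M.π (act τ (M.L v))))
      conv at this => arg 1; arg 1; rw [hc]
      simpa using this
    conv_lhs => rw [act_mul, hc, map_add, map_add, show act σ (fun _ : Fin n => c) = fun _ => c from rfl, M.hπ1 c hcE, add_zero]

/-- the homomorphism into the general linear group -/
def Model.rho (M : Model n κ F) : Equiv.Perm (Fin n) →* GL κ F := M.mat.toHomUnits

lemma Model.rho_mulVec (M : Model n κ F) (σ : Equiv.Perm (Fin n)) (v : κ → F) :
    (M.rho σ : Matrix κ κ F) *ᵥ v = M.π (act σ (M.L v)) := by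
  show LinearMap.toMatrix' (M.π ∘ₗ act σ ∘ₗ M.L) *ᵥ v = _
  rw [← Matrix.toLin'_apply, Matrix.toLin'_toMatrix']
  rfl

theorem Model.rho_injective (M : Model n κ F) (hn : 5 ≤ n) (h2 : (2 : F) = 0) : Function.Injective M.rho := by
  classical
  rw [injective_iff_map_eq_one]
  intro σ hσ
  have hfix : ∀ x, InE x → ∃ c : F, act σ x = x + fun _ => c := by
    intro x hx
    obtain ⟨c, hc⟩ := M.hK x hx
    obtain ⟨d, hd⟩ := M.hK (act σ (M.L (M.π x))) (inE_act (M.hLE _))
    have hv : M.π (act σ (M.L (M.π x))) = M.π x := by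
      rw [← M.rho_mulVec, hσ, Units.val_one, one_mulVec]
    rw [hv] at hd
    refine ⟨d, ?_⟩
    conv_lhs => rw [hc, map_add, hd]
    conv_rhs => rw [hc]
    rw [show act σ (fun _ : Fin n => c) = fun _ => c from rfl]
    abel
  refine Equiv.ext fun a => ?_
  rw [Equiv.Perm.one_apply]
  have hpair : ∀ b, b ≠ a → σ a = a ∨ σ a = b := by
    intro b hb
    by_contra hcon
    push Not at hcon
    obtain ⟨c, hc⟩ := hfix (Pi.single a 1 + Pi.single b 1) (by
      unfold InE
      simp [Finset.sum_add_distrib, one_add_one_eq_two, h2])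
    -- a point outside the four relevant ones
    obtain ⟨e, he⟩ : ∃ e : Fin n, e ∉ ({a, b, σ a, σ b} : Finset (Fin n)) := by
      by_contra! hall
      have h4 := Finset.card_le_four (a := a) (b := b) (c := σ a) (d := σ b)
      have h5 := Finset.card_le_card (s := (Finset.univ : Finset (Fin n))) (t := {a, b, σ a, σ b}) (fun e _ => hall e)
      simp only [Finset.card_univ, Fintype.card_fin] at h5
      omega
    simp only [Finset.mem_insert, Finset.mem_singleton, not_or] at he
    have h1 := congrFun hc e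
    have hee : σ.symm e ≠ a ∧ σ.symm e ≠ b := ⟨fun h => he.2.2.1 (by rw [← h, Equiv.apply_symm_apply]),
      fun h => he.2.2.2 (by rw [← h, Equiv.apply_symm_apply])⟩
    simp [act_apply, Pi.single_apply, hee.1, hee.2, he.1, he.2.1] at h1
    have h3 := congrFun hc (σ a)
    simp [act_apply, Pi.single_apply, hb, hb.symm, hcon.1, hcon.2, ← h1] at h3
  obtain ⟨b, hb, b', hb', hbb⟩ : ∃ b, b ≠ a ∧ ∃ b', b' ≠ a ∧ b ≠ b' := by
    obtain ⟨b, hb, b', hb', hne⟩ := Finset.one_lt_card.1 (show 1 < (Finset.univ.erase a).card by rw [Finset.card_erase_of_mem (Finset.mem_univ a), Finset.card_univ, Fintype.card_fin]; omega)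
    exact ⟨b, (Finset.mem_erase.1 hb).1, b', (Finset.mem_erase.1 hb').1, hne⟩
  rcases hpair b hb with h | h
  · exact h
  · exact (hpair b' hb').resolve_right fun h' => hbb (h.symm.trans h')

/-- functions invariant on the heart are preserved -/
theorem Model.rho_preserves (M : Model n κ F) (Φ : (κ → F) → (κ → F) → F)
    (h : ∀ (σ : Equiv.Perm (Fin n)) (x y : Fin n → F), InE x → InE y →
      Φ (M.π (act σ x)) (M.π (act σ y)) = Φ (M.π x) (M.π y)) (σ : Equiv.Perm (Fin n)) :
    M.rho σ ∈ Cfsg.preserving (Units.coeHom (Matrix κ κ F)) Φ := by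
  intro u v
  show Φ ((M.rho σ : Matrix κ κ F) *ᵥ u) ((M.rho σ : Matrix κ κ F) *ᵥ v) = _
  rw [M.rho_mulVec, M.rho_mulVec, h σ _ _ (M.hLE u) (M.hLE v), M.hπL, M.hπL]

/-- invariance under adjacent transpositions suffices -/
theorem inv_of_swaps {k : ℕ} {α : Type*} (P : (Fin (k + 1) → F) → α)
    (h : ∀ (i : Fin k) (x : Fin (k + 1) → F), InE x → P (act (Equiv.swap i.castSucc i.succ) x) = P x)
    (σ : Equiv.Perm (Fin (k + 1))) : ∀ x, InE x → P (act σ x) = P x := by
  have hσ : σ ∈ Submonoid.closure (Set.range fun i : Fin k => Equiv.swap i.castSucc i.succ) := by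
    rw [Equiv.Perm.mclosure_swap_castSucc_succ]; trivial
  induction hσ using Submonoid.closure_induction with
  | mem g hg => obtain ⟨i, rfl⟩ := hg; exact h i
  | one => exact fun x _ => by rw [act_one]
  | mul a b _ _ ha hb => exact fun x hx => by rw [act_mul, ha _ (inE_act hx), hb x hx]

/-- transport of a group of isometries along a field isomorphism -/
theorem preserving_congr {K : Type*} [Field K] (φ : F ≃+* K) (f : (κ → F) → (κ → F) → F) (g : (κ → K) → (κ → K) → K)
    (hfg : ∀ u v, g (φ ∘ u) (φ ∘ v) = φ (f u v)) :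
    Nonempty (↥(Cfsg.preserving (Units.coeHom (Matrix κ κ F)) f) ≃* ↥(Cfsg.preserving (Units.coeHom (Matrix κ κ K)) g)) := by
  let Φ : GL κ F ≃* GL κ K := Units.mapEquiv (RingEquiv.mapMatrix φ).toMulEquiv
  have hΦ : ∀ (M : GL κ F) (u : κ → F), (Φ M : Matrix κ κ K) *ᵥ (φ ∘ u) = φ ∘ ((M : Matrix κ κ F) *ᵥ u) := by
    intro M u
    ext i
    exact (RingHom.map_mulVec φ.toRingHom (M : Matrix κ κ F) u i).symm
  have key : (Cfsg.preserving (Units.coeHom (Matrix κ κ F)) f).map Φ.toMonoidHom = Cfsg.preserving (Units.coeHom (Matrix κ κ K)) g := by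
    ext N
    constructor
    · rintro ⟨M, hM, rfl⟩ u v
      have hu : u = φ ∘ (φ.symm ∘ u) := funext fun i => by simp
      have hv : v = φ ∘ (φ.symm ∘ v) := funext fun i => by simp
      show g ((Φ M : Matrix κ κ K) *ᵥ u) ((Φ M : Matrix κ κ K) *ᵥ v) = _
      rw [hu, hv, hΦ, hΦ, hfg, hfg]
      exact congrArg φ (hM _ _)
    · intro hN
      refine ⟨Φ.symm N, fun u v => ?_, Φ.apply_symm_apply N⟩
      apply φ.injective
      show φ (f ((Φ.symm N : Matrix κ κ F) *ᵥ u) ((Φ.symm N : Matrix κ κ F) *ᵥ v)) = _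
      rw [← hfg, ← hfg, ← hΦ, ← hΦ, Φ.apply_symm_apply]
      exact hN _ _
  exact ⟨(Φ.subgroupMap _).trans (MulEquiv.subgroupCongr key)⟩

/-- an injective homomorphism between finite groups of equal order is bijective -/
theorem equiv_of_card {G H : Type*} [Group G] [Group H] [Finite H] (f : G →* H) (hf : Function.Injective f)
    (hc : Nat.card G = Nat.card H) : Nonempty (H ≃* G) :=
  haveI : Finite G := Finite.of_injective f hf
  ⟨(MulEquiv.ofBijective f ((Nat.bijective_iff_injective_and_card f).2 ⟨hf, hc⟩)).symm⟩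

end CfsgLib.Classical.PermModule

namespace CfsgLib.Classical.PermModule

section symplecticModel

variable {R : Type*} [Field R] (h2 : (2 : R) = 0) (m : ℕ)

/-- the points: `m` pairs and one extra pair -/
noncomputable def pts : (Fin m × Fin 2) ⊕ Fin 2 ≃ Fin (2 * m + 2) :=
  Fintype.equivFinOfCardEq (by simp; ring)

/-- sum of the later second coordinates -/
noncomputable def tailSum (w : Fin m ⊕ Fin m → R) (i : Fin m) : R :=
  ∑ j ∈ Finset.univ.filter (fun j => i < j), w (.inr j)

/-- coordinates of a heart vector on the points -/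
noncomputable def embFun (w : Fin m ⊕ Fin m → R) : (Fin m × Fin 2) ⊕ Fin 2 → R
  | .inl (i, t) => w (.inl i) + tailSum m w i + if t = 1 then w (.inr i) else 0
  | .inr t => if t = 1 then ∑ j, w (.inr j) else 0

/-- the symplectic coordinates on the heart -/
noncomputable def sympL : (Fin m ⊕ Fin m → R) →ₗ[R] (Fin (2 * m + 2) → R) where
  toFun w a := embFun m w ((pts m).symm a)
  map_add' u v := by
    funext a
    rcases h : (pts m).symm a with ⟨i, t⟩ | t <;>
      simp only [Pi.add_apply, h, embFun, tailSum, Finset.sum_add_distrib] <;> split_ifs <;> ring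
  map_smul' c v := by
    funext a
    rcases h : (pts m).symm a with ⟨i, t⟩ | t <;>
      simp only [Pi.smul_apply, h, embFun, tailSum, smul_eq_mul, RingHom.id_apply, ← Finset.mul_sum] <;> split_ifs <;> ring

/-- the projection to the symplectic coordinates -/
noncomputable def sympπ : (Fin (2 * m + 2) → R) →ₗ[R] (Fin m ⊕ Fin m → R) where
  toFun x := Sum.elim
    (fun i => x (pts m (.inl (i, 1))) + x (pts m (.inr 1)) +
      ∑ j ∈ Finset.univ.filter (fun j => j < i), (x (pts m (.inl (j, 0))) + x (pts m (.inl (j, 1)))))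
    (fun i => x (pts m (.inl (i, 0))) + x (pts m (.inl (i, 1))))
  map_add' u v := by
    funext a
    rcases a with i | i <;>
      simp only [Sum.elim_inl, Sum.elim_inr, Pi.add_apply, Finset.sum_add_distrib] <;> ring
  map_smul' c v := by
    funext a
    rcases a with i | i <;>
      simp only [Sum.elim_inl, Sum.elim_inr, Pi.smul_apply, smul_eq_mul, RingHom.id_apply, ← Finset.mul_sum, ← mul_add]

lemma sum_pts (g : Fin (2 * m + 2) → R) :
    ∑ a, g a = (∑ i, (g (pts m (.inl (i, 0))) + g (pts m (.inl (i, 1))))) + (g (pts m (.inr 0)) + g (pts m (.inr 1))) := by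
  rw [← Equiv.sum_comp (pts m) g, Fintype.sum_sum_type, Fintype.sum_prod_type]
  simp [Fin.sum_univ_two]

lemma split_lt_gt (g : Fin m → R) (i : Fin m) :
    ∑ j, g j = g i + (∑ j ∈ Finset.univ.filter (fun j => j < i), g j) + ∑ j ∈ Finset.univ.filter (fun j => i < j), g j := by
  rw [← Finset.sum_filter_add_sum_filter_not Finset.univ (fun j => j < i) g,
    show Finset.univ.filter (fun j => ¬ j < i) = insert i (Finset.univ.filter fun j => i < j) from by
      ext j; simp only [Finset.mem_filter, Finset.mem_univ, true_and, Finset.mem_insert, not_lt]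
      rw [le_iff_eq_or_lt, eq_comm],
    Finset.sum_insert (by simp)]
  ring

lemma sympL_pts (w : Fin m ⊕ Fin m → R) (p : (Fin m × Fin 2) ⊕ Fin 2) : sympL m w (pts m p) = embFun m w p := by
  show embFun m w ((pts m).symm (pts m p)) = _
  rw [Equiv.symm_apply_apply]

include h2

/-- the heart of the permutation module of `S_{2m+2}` as a symplectic space -/
noncomputable def sympModel : Model (2 * m + 2) (Fin m ⊕ Fin m) R where
  L := sympL m
  π := sympπ m
  hLE v := by
    unfold InE
    rw [sum_pts]
    simp only [sympL_pts, embFun, show ((0 : Fin 2) = 1) = False by simp, if_false, if_true, Finset.sum_add_distrib, Finset.sum_const_zero]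
    linear_combination ((∑ i, v (.inl i)) + (∑ i, tailSum m v i) + ∑ i, v (.inr i)) * h2
  hπL v := by
    funext a
    rcases a with i | i
    · simp only [sympπ, LinearMap.coe_mk, AddHom.coe_mk, Sum.elim_inl, sympL_pts, embFun, show ((0 : Fin 2) = 1) = False by simp, if_false, if_true]
      have e : ∀ j, v (.inl j) + tailSum m v j + 0 + (v (.inl j) + tailSum m v j + v (.inr j)) = v (.inr j) := fun j => by
        linear_combination (v (.inl j) + tailSum m v j) * h2
      simp only [add_zero] at e ⊢
      simp only [e]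
      rw [split_lt_gt m (fun j => v (.inr j)) i]
      unfold tailSum
      linear_combination (v (.inr i) + (∑ j ∈ Finset.univ.filter (fun j => i < j), v (.inr j)) + (∑ j ∈ Finset.univ.filter (fun j => j < i), v (.inr j))) * h2
    · simp only [sympπ, LinearMap.coe_mk, AddHom.coe_mk, Sum.elim_inr, sympL_pts, embFun, show ((0 : Fin 2) = 1) = False by simp, if_false, if_true]
      linear_combination (v (.inl i) + tailSum m v i) * h2
  hK x hx := by
    refine ⟨x (pts m (.inr 0)), funext fun a => ?_⟩
    obtain ⟨p, rfl⟩ := (pts m).surjective a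
    unfold InE at hx
    rw [sum_pts] at hx
    rw [Pi.add_apply, sympL_pts]
    rcases p with ⟨i, t⟩ | t
    · simp only [embFun, tailSum, sympπ, LinearMap.coe_mk, AddHom.coe_mk, Sum.elim_inl, Sum.elim_inr]
      rw [split_lt_gt m _ i] at hx
      fin_cases t <;> simp
      · linear_combination -hx + (x (pts m (.inl (i, 0)))) * h2
      · linear_combination -hx
    · simp only [embFun, sympπ, LinearMap.coe_mk, AddHom.coe_mk, Sum.elim_inr]
      fin_cases t <;> simp
      linear_combination -hx + (x (pts m (.inr 1))) * h2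
  hπ1 c _ := by
    funext a
    rcases a with i | i
    · simp only [sympπ, LinearMap.coe_mk, AddHom.coe_mk, Sum.elim_inl, Pi.zero_apply]
      rw [Finset.sum_eq_zero fun j _ => by linear_combination c * h2]
      linear_combination c * h2
    · simp only [sympπ, LinearMap.coe_mk, AddHom.coe_mk, Sum.elim_inr, Pi.zero_apply]
      linear_combination c * h2

omit h2 in
lemma sum_mul_sum_split (b b' : Fin m → R) :
    (∑ i, b i) * (∑ i, b' i) = (∑ i, b i * b' i) +
      ∑ i, ((∑ j ∈ Finset.univ.filter (fun j => i < j), b j) * b' i + b i * ∑ j ∈ Finset.univ.filter (fun j => i < j), b' j) := by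
  have hcomm : ∑ i, b i * ∑ j ∈ Finset.univ.filter (fun j => j < i), b' j =
      ∑ i, (∑ j ∈ Finset.univ.filter (fun j => i < j), b j) * b' i := by
    simp only [Finset.mul_sum, Finset.sum_mul, Finset.sum_filter, mul_ite, ite_mul, mul_zero, zero_mul]
    rw [Finset.sum_comm]
  rw [Finset.sum_mul, Finset.sum_congr rfl fun i _ => by rw [split_lt_gt m b' i, mul_add, mul_add],
    Finset.sum_add_distrib, Finset.sum_add_distrib, hcomm, Finset.sum_add_distrib]
  ring

lemma dot_eq_sympForm (u v : Fin m ⊕ Fin m → R) :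
    ∑ a, sympL m u a * sympL m v a = Cfsg.sympForm m R u v := by
  rw [sum_pts, sympForm_apply]
  simp only [sympL_pts, embFun, show ((0 : Fin 2) = 1) = False by simp, if_false, if_true, zero_mul, add_zero, zero_add]
  rw [sum_mul_sum_split m (fun j => u (.inr j)) (fun j => v (.inr j)), ← Finset.sum_add_distrib, ← Finset.sum_add_distrib]
  refine Finset.sum_congr rfl fun i _ => ?_
  unfold tailSum
  linear_combination (u (.inl i) * v (.inl i) + (∑ j ∈ Finset.univ.filter (fun j => i < j), u (.inr j)) * (∑ j ∈ Finset.univ.filter (fun j => i < j), v (.inr j))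
    + u (.inl i) * (∑ j ∈ Finset.univ.filter (fun j => i < j), v (.inr j)) + v (.inl i) * (∑ j ∈ Finset.univ.filter (fun j => i < j), u (.inr j))
    + u (.inr i) * v (.inr i) + (∑ j ∈ Finset.univ.filter (fun j => i < j), u (.inr j)) * v (.inr i) + u (.inr i) * (∑ j ∈ Finset.univ.filter (fun j => i < j), v (.inr j))
    + u (.inl i) * v (.inr i)) * h2

/-- `S_{2m+2}` acts on the heart by symplectic maps -/
theorem sympModel_mem (σ : Equiv.Perm (Fin (2 * m + 2))) : (sympModel h2 m).rho σ ∈ Cfsg.spGL m R := by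
  have hform : ∀ x y : Fin (2 * m + 2) → R, InE x → InE y →
      Cfsg.sympForm m R (sympπ m x) (sympπ m y) = ∑ a, x a * y a := by
    intro x y hx hy
    obtain ⟨c, hc⟩ := (sympModel h2 m).hK x hx
    obtain ⟨d, hd⟩ := (sympModel h2 m).hK y hy
    have hL : InE (sympL m (sympπ m y)) := (sympModel h2 m).hLE _
    have hL' : InE (sympL m (sympπ m x)) := (sympModel h2 m).hLE _
    rw [← dot_eq_sympForm h2]
    conv_rhs => rw [hc, hd]
    show _ = ∑ a, (sympL m (sympπ m x) a + c) * (sympL m (sympπ m y) a + d)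
    simp only [add_mul, mul_add, Finset.sum_add_distrib, ← Finset.mul_sum, ← Finset.sum_mul]
    unfold InE at hL hL'
    rw [hL, hL', Finset.sum_const, Finset.card_univ, Fintype.card_fin, nsmul_eq_mul, Nat.cast_add, Nat.cast_mul, Nat.cast_ofNat, h2]
    ring
  refine (sympModel h2 m).rho_preserves (Cfsg.sympForm m R) (fun τ x y hx hy => ?_) σ
  show Cfsg.sympForm m R (sympπ m (act τ x)) (sympπ m (act τ y)) = Cfsg.sympForm m R (sympπ m x) (sympπ m y)
  rw [hform _ _ (inE_act hx) (inE_act hy), hform _ _ hx hy]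
  exact Equiv.sum_comp τ.symm (fun a => x a * y a)

/-- `S_{2m+2}` embeds in `Sp_{2m}(2)` -/
theorem exists_symp_embedding (hm : 2 ≤ m) :
    ∃ f : Equiv.Perm (Fin (2 * m + 2)) →* Matrix.symplecticGroup (Fin m) R, Function.Injective f := by
  refine ⟨(spToGL m R).symm.toMonoidHom.comp ((sympModel h2 m).rho.codRestrict _ (sympModel_mem h2 m)), ?_⟩
  refine (spToGL m R).symm.injective.comp fun a b hab => ?_
  exact (sympModel h2 m).rho_injective (by omega) h2 (congrArg Subtype.val hab)

end symplecticModel

end CfsgLib.Classical.PermModule
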