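import Cfsg.Agent.Lib.ClassicalPermModule
import Cfsg.Agent.Lib.ClassicalOrdersO
import Cfsg.Agent.Lib.ClassicalOrdersOMinus

/-! The exceptional isomorphisms `O⁺₆(2) ≅ S₈` and `O⁻₄(2) ≅ S₅` from the permutation modules. -/

set_option autoImplicit false
set_option maxRecDepth 100000

namespace CfsgLib.Classical.PermOrth

open Matrix PermModule

local notation "𝔽" => ZMod 2

/-- indicator of a list of points -/
def ind {n : ℕ} (l : List (Fin n)) : Fin n → 𝔽 := fun i => if i ∈ l then 1 else 0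

/-- linear combination of given vectors -/
def comb {n : ℕ} {κ : Type} [Fintype κ] (e : κ → Fin n → 𝔽) : (κ → 𝔽) →ₗ[𝔽] (Fin n → 𝔽) where
  toFun w a := ∑ k, w k * e k a
  map_add' u v := by funext a; simp [add_mul, Finset.sum_add_distrib]
  map_smul' c v := by funext a; simp [Finset.mul_sum, mul_assoc]

/-- scalar products with given vectors -/
def dual {n : ℕ} {κ : Type} (e : κ → Fin n → 𝔽) : (Fin n → 𝔽) →ₗ[𝔽] (κ → 𝔽) where
  toFun x k := ∑ a, x a * e k a
  map_add' u v := by funext a; simp [add_mul, Finset.sum_add_distrib]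
  map_smul' c v := by funext a; simp [Finset.mul_sum, mul_assoc]

/-- a hyperbolic basis of the heart on eight points -/
def vec8 : Fin 3 ⊕ Fin 3 → Fin 8 → 𝔽 :=
  Sum.elim ![ind [0, 1, 2, 3], ind [0, 1, 5, 6], ind [0, 2, 6, 7]] ![ind [0, 1, 2, 4], ind [0, 1, 5, 7], ind [0, 3, 4, 5]]

/-- its dual basis -/
def dvec8 : Fin 3 ⊕ Fin 3 → Fin 8 → 𝔽 := fun k => vec8 k.swap

/-- a basis of the heart on five points -/
def vec5 : (Fin 1 ⊕ Fin 1) ⊕ Fin 2 → Fin 5 → 𝔽 :=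
  Sum.elim (Sum.elim ![ind [0, 1, 2, 3]] ![ind [0, 1, 2, 4]]) ![ind [0, 1], ind [1, 2]]

/-- its dual basis -/
def dvec5 : (Fin 1 ⊕ Fin 1) ⊕ Fin 2 → Fin 5 → 𝔽 :=
  Sum.elim (Sum.elim ![ind [0, 1, 2, 4]] ![ind [0, 1, 2, 3]]) ![ind [1, 2], ind [0, 1]]

theorem k8 : (∀ v, ∑ i, comb vec8 v i = 0) ∧ (∀ v, dual dvec8 (comb vec8 v) = v) ∧
    (∀ c : 𝔽, (∑ _i : Fin 8, c) = 0 → dual dvec8 (fun _ => c) = 0) := by decide +kernel

theorem e8 : ∀ x : Fin 8 → 𝔽, (∑ i, x i = 0) → ∀ a, x a = comb vec8 (dual dvec8 x) a + (x 0 + comb vec8 (dual dvec8 x) 0) := by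
  decide +kernel

theorem q8 : ∀ (i : Fin 7) (x : Fin 8 → 𝔽), (∑ a, x a = 0) →
    Cfsg.quadFormPlus 3 𝔽 (dual dvec8 (fun a => x ((Equiv.swap i.castSucc i.succ).symm a))) = Cfsg.quadFormPlus 3 𝔽 (dual dvec8 x) := by
  unfold Cfsg.quadFormPlus
  decide +kernel

theorem k5 : (∀ v, ∑ i, comb vec5 v i = 0) ∧ (∀ v, dual dvec5 (comb vec5 v) = v) ∧
    (∀ c : 𝔽, (∑ _i : Fin 5, c) = 0 → dual dvec5 (fun _ => c) = 0) := by decide +kernel

theorem e5 : ∀ x : Fin 5 → 𝔽, (∑ i, x i = 0) → ∀ a, x a = comb vec5 (dual dvec5 x) a + (x 0 + comb vec5 (dual dvec5 x) 0) := by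
  decide +kernel

theorem q5 : ∀ (i : Fin 4) (x : Fin 5 → 𝔽), (∑ a, x a = 0) →
    Cfsg.quadFormMinus 1 𝔽 1 1 (dual dvec5 (fun a => x ((Equiv.swap i.castSucc i.succ).symm a))) = Cfsg.quadFormMinus 1 𝔽 1 1 (dual dvec5 x) := by
  unfold Cfsg.quadFormMinus
  decide +kernel

/-- the heart on eight points -/
def M8 : Model 8 (Fin 3 ⊕ Fin 3) 𝔽 :=
  ⟨comb vec8, dual dvec8, k8.1, k8.2.1, fun x hx => ⟨x 0 + comb vec8 (dual dvec8 x) 0, funext fun a => e8 x hx a⟩, k8.2.2⟩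

/-- the heart on five points -/
def M5 : Model 5 ((Fin 1 ⊕ Fin 1) ⊕ Fin 2) 𝔽 :=
  ⟨comb vec5, dual dvec5, k5.1, k5.2.1, fun x hx => ⟨x 0 + comb vec5 (dual dvec5 x) 0, funext fun a => e5 x hx a⟩, k5.2.2⟩

theorem nonempty_sym_equiv {κ : Type} [Fintype κ] [DecidableEq κ] {k : ℕ} (M : Model (k + 1) κ 𝔽) (Q : (κ → 𝔽) → 𝔽)
    (hk : 4 ≤ k) (h : ∀ (i : Fin k) (x : Fin (k + 1) → 𝔽), InE x → Q (M.π (act (Equiv.swap i.castSucc i.succ) x)) = Q (M.π x))
    {F : Type*} [Field F] [Finite F] (φ : 𝔽 ≃+* F) (Q' : (κ → F) → F) (hQ : ∀ v, Q' (φ ∘ v) = φ (Q v))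
    (hcard : Nat.card (Cfsg.isometryGroup F Q') = (k + 1).factorial) :
    Nonempty (↥(Cfsg.isometryGroup F Q') ≃* Equiv.Perm (Fin (k + 1))) := by
  have hinv := inv_of_swaps (fun x => Q (M.π x)) h
  obtain ⟨e⟩ := preserving_congr φ (fun u _ => Q u) (fun u _ => Q' u) (fun u v => hQ u)
  refine equiv_of_card (e.toMonoidHom.comp (M.rho.codRestrict _ fun σ => M.rho_preserves (fun u _ => Q u) (fun τ x y hx _ => hinv τ x hx) σ)) ?_ ?_
  · exact e.injective.comp fun a b hab => M.rho_injective (by omega) rfl (congrArg Subtype.val hab)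
  · rw [hcard, Nat.card_perm, Nat.card_fin]

theorem oplus_six {F : Type*} [Field F] [Fintype F] (hF : Fintype.card F = 2) :
    Nonempty (↥(Cfsg.isometryGroup F (Cfsg.quadFormPlus 3 F)) ≃* Equiv.Perm (Fin 8)) := by
  refine nonempty_sym_equiv M8 (Cfsg.quadFormPlus 3 𝔽) (by norm_num) q8
    (FiniteField.ringEquivOfCardEq (by simp [hF])) _ (fun v => ?_) ?_
  · simp [Cfsg.quadFormPlus]
  · rw [Orders.card_O_plus (by norm_num), hF]
    decide

theorem ominus_four {F : Type*} [Field F] [Fintype F] (hF : Fintype.card F = 2) :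
    Nonempty (↥(Cfsg.isometryGroup F (Cfsg.quadFormMinus 1 F 1 1)) ≃* Equiv.Perm (Fin 5)) := by
  refine nonempty_sym_equiv M5 (Cfsg.quadFormMinus 1 𝔽 1 1) (by norm_num) q5
    (FiniteField.ringEquivOfCardEq (by simp [hF])) _ (fun v => ?_) ?_
  · simp only [Cfsg.quadFormMinus, Function.comp_apply, map_add, map_mul, map_sum, map_pow, map_one]
  · rw [Orders.card_O_minus ?_ 1, hF]
    · decide
    · intro z w h
      have hz : ∀ t : F, t = 0 ∨ t = 1 := by
        classical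
        intro t
        by_contra! hc
        have := Finset.card_le_univ ({0, 1, t} : Finset F)
        rw [Finset.card_eq_three.2 ⟨0, 1, t, zero_ne_one, hc.1.symm, hc.2.symm, rfl⟩, hF] at this
        omega
      have h2 : (2 : F) = 0 := by
        have h0 := FiniteField.cast_card_eq_zero F
        rw [hF] at h0
        exact_mod_cast h0
      rcases hz z with rfl | rfl <;> rcases hz w with rfl | rfl
      · exact ⟨rfl, rfl⟩
      all_goals
        refine absurd (?_ : (1 : F) = 0) one_ne_zero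
        first | linear_combination h | linear_combination h - h2

end CfsgLib.Classical.PermOrth
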