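import Cfsg.Agent.Lib.ClassicalDiag
import Cfsg.Agent.Lib.ClassicalDiscriminant

/-! Plus type of a symmetric form in even dimension is detected by its discriminant; forms on tensor products. -/

set_option autoImplicit false

namespace CfsgLib.PlusType

open Module

variable {F : Type*} [Field F] {V : Type*} [AddCommGroup V] [Module F V]

theorem det_change [FiniteDimensional F V] (B : LinearMap.BilinForm F V) {κ ι : Type*} [Fintype κ] [DecidableEq κ] [Fintype ι]
    [DecidableEq ι] (b : Basis κ F V) (c : Basis ι F V) :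
    ∃ d : F, d ≠ 0 ∧ (LinearMap.BilinForm.toMatrix c B).det = d ^ 2 * (LinearMap.BilinForm.toMatrix b B).det := by
  let b' := b.reindex (b.indexEquiv c)
  have hb : (LinearMap.BilinForm.toMatrix b' B).det = (LinearMap.BilinForm.toMatrix b B).det := by
    rw [← Matrix.det_submatrix_equiv_self (b.indexEquiv c).symm (LinearMap.BilinForm.toMatrix b B)]
    congr 1
    ext i j
    simp [b', LinearMap.BilinForm.toMatrix_apply]
  haveI : Invertible (b'.toMatrix c) := b'.invertibleToMatrix c
  refine ⟨(b'.toMatrix c).det, (Matrix.isUnit_det_of_invertible _).ne_zero, ?_⟩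
  rw [← hb, ← LinearMap.BilinForm.toMatrix_mul_basis_toMatrix (b := b') (c := c) B, Matrix.det_mul, Matrix.det_mul, Matrix.det_transpose]
  ring

variable [Finite F]

omit [Finite F] in
theorem span_pair_iso (B : LinearMap.BilinForm F V) {x y : V} (hxx : B x x = 0) (hyy : B y y = 0) (hxy : B x y = 0) (hyx : B y x = 0) :
    ∀ u ∈ Submodule.span F ({x, y} : Set V), ∀ v ∈ Submodule.span F ({x, y} : Set V), B u v = 0 := by
  intro u hu v hv
  obtain ⟨a, b, rfl⟩ := Submodule.mem_span_pair.1 hu
  obtain ⟨c, d, rfl⟩ := Submodule.mem_span_pair.1 hv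
  simp [hxx, hyy, hxy, hyx]

theorem exists_three_squares (h2 : (2 : F) ≠ 0) : ∃ s t : F, s * s + t * t = -1 := by
  have := Fintype.ofFinite F
  have hch : ringChar F ≠ 2 := fun h => h2 (by
    have := ringChar.Nat.cast_ringChar (R := F); rw [h] at this; exact_mod_cast this)
  obtain ⟨x, y, hxy⟩ := FiniteField.exists_root_sum_quadratic
    (f := (Polynomial.X : Polynomial F) ^ 2) (g := (Polynomial.X : Polynomial F) ^ 2 + 1)
    (by compute_degree!) (by compute_degree!) (FiniteField.odd_card_of_char_ne_two hch)
  simp at hxy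
  exact ⟨x, y, by linear_combination hxy⟩

/-- totally isotropic half-dimensional subspace from an orthogonal family with values 1,...,1,a -/
theorem exists_half [FiniteDimensional F V] (h2 : (2 : F) ≠ 0) (B : LinearMap.BilinForm F V) :
    ∀ (N : ℕ) (v : Fin (2 * N) → V) (a : F), LinearIndependent F v → (∀ i j, i ≠ j → B (v i) (v j) = 0) →
      (∀ i : Fin (2 * N), (i : ℕ) + 1 < 2 * N → B (v i) (v i) = 1) →
      (∀ i : Fin (2 * N), (i : ℕ) + 1 = 2 * N → B (v i) (v i) = a) → IsSquare ((-1) ^ N * a) → a ≠ 0 →
      ∃ X : Submodule F V, X ≤ Submodule.span F (Set.range v) ∧ finrank F X = N ∧ ∀ x ∈ X, ∀ y ∈ X, B x y = 0 := by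
  intro N
  induction N using Nat.strong_induction_on with
  | _ N ih =>
    intro v a hli ho h1 ha hsq ha0
    have hmem : ∀ i, v i ∈ Submodule.span F (Set.range v) := fun i => Submodule.subset_span ⟨i, rfl⟩
    match N, ih with
    | 0, _ => exact ⟨⊥, bot_le, finrank_bot F V, by simp⟩
    | 1, _ =>
      obtain ⟨r, hr⟩ := hsq
      have h01 : B (v ⟨0, by omega⟩) (v ⟨0, by omega⟩) = 1 := h1 ⟨0, by omega⟩ (by simp)
      have h11 : B (v ⟨1, by omega⟩) (v ⟨1, by omega⟩) = a := ha ⟨1, by omega⟩ (by simp)
      let x := r • v ⟨0, by omega⟩ + v ⟨1, by omega⟩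
      have hxx : B x x = 0 := by
        simp only [x, map_add, map_smul, LinearMap.add_apply, LinearMap.smul_apply, smul_eq_mul, h01, h11,
          ho ⟨0, by omega⟩ ⟨1, by omega⟩ (by simp [Fin.ext_iff]), ho ⟨1, by omega⟩ ⟨0, by omega⟩ (by simp [Fin.ext_iff])]
        linear_combination -hr
      have hx0 : x ≠ 0 := fun h => by
        have := congrArg (fun u => B u (v ⟨1, by omega⟩)) h
        simp only [x, map_add, map_smul, LinearMap.add_apply, LinearMap.smul_apply, map_zero, LinearMap.zero_apply, smul_eq_mul, h11,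
          ho ⟨0, by omega⟩ ⟨1, by omega⟩ (by simp [Fin.ext_iff]), mul_zero, zero_add] at this
        exact ha0 this
      refine ⟨Submodule.span F {x}, (Submodule.span_singleton_le_iff_mem _ _).2
        (Submodule.add_mem _ (Submodule.smul_mem _ _ (hmem _)) (hmem _)), finrank_span_singleton hx0, ?_⟩
      intro p hp p' hp'
      obtain ⟨c, rfl⟩ := Submodule.mem_span_singleton.1 hp
      obtain ⟨c', rfl⟩ := Submodule.mem_span_singleton.1 hp'
      simp [hxx]
    | (N + 2), ih =>
      let i0 : Fin (2 * (N + 2)) := ⟨0, by omega⟩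
      let i1 : Fin (2 * (N + 2)) := ⟨1, by omega⟩
      let i2 : Fin (2 * (N + 2)) := ⟨2, by omega⟩
      let i3 : Fin (2 * (N + 2)) := ⟨3, by omega⟩
      obtain ⟨c, hc, hc3⟩ : ∃ c : F, c ≠ 0 ∧ c * c * B (v i3) (v i3) = 1 := by
        by_cases hN : N = 0
        · subst hN
          obtain ⟨r, hr⟩ := hsq
          have hr' : a = r * r := by linear_combination hr
          have hr0 : r ≠ 0 := fun h => ha0 (by rw [hr', h, zero_mul])
          exact ⟨r⁻¹, inv_ne_zero hr0, by rw [ha i3 (by simp [i3]), hr']; field_simp⟩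
        · exact ⟨1, one_ne_zero, by rw [h1 i3 (by simp [i3]; omega)]; ring⟩
      obtain ⟨s, t, hst⟩ := exists_three_squares (F := F) h2
      have e0 : B (v i0) (v i0) = 1 := h1 i0 (by simp only [i0]; omega)
      have e1 : B (v i1) (v i1) = 1 := h1 i1 (by simp only [i1]; omega)
      have e2 : B (v i2) (v i2) = 1 := h1 i2 (by simp only [i2]; omega)
      have o : ∀ {i j : Fin (2 * (N + 2))}, (i : ℕ) ≠ j → B (v i) (v j) = 0 := fun h => ho _ _ (fun e => h (by rw [e]))
      have o01 := o (i := i0) (j := i1) (by simp [i0, i1]); have o10 := o (i := i1) (j := i0) (by simp [i0, i1])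
      have o02 := o (i := i0) (j := i2) (by simp [i0, i2]); have o20 := o (i := i2) (j := i0) (by simp [i0, i2])
      have o03 := o (i := i0) (j := i3) (by simp [i0, i3]); have o30 := o (i := i3) (j := i0) (by simp [i0, i3])
      have o12 := o (i := i1) (j := i2) (by simp [i1, i2]); have o21 := o (i := i2) (j := i1) (by simp [i1, i2])
      have o13 := o (i := i1) (j := i3) (by simp [i1, i3]); have o31 := o (i := i3) (j := i1) (by simp [i1, i3])
      have o23 := o (i := i2) (j := i3) (by simp [i2, i3]); have o32 := o (i := i3) (j := i2) (by simp [i2, i3])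
      let x := v i0 + s • v i1 + t • v i2
      let y := t • v i1 - s • v i2 + c • v i3
      have hxx : B x x = 0 := by
        simp only [x, map_add, map_smul, LinearMap.add_apply, LinearMap.smul_apply, smul_eq_mul, e0, e1, e2, o01, o10, o02, o20, o12, o21]
        linear_combination hst
      have hyy : B y y = 0 := by
        simp only [y, map_add, map_sub, map_smul, LinearMap.add_apply, LinearMap.sub_apply, LinearMap.smul_apply, smul_eq_mul,
          e1, e2, o12, o21, o13, o31, o23, o32]
        linear_combination hst + hc3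
      have hxy : B x y = 0 := by
        simp only [x, y, map_add, map_sub, map_smul, LinearMap.add_apply, LinearMap.sub_apply, LinearMap.smul_apply, smul_eq_mul,
          e1, e2, o01, o02, o03, o12, o21, o13, o23]
        ring
      have hyx : B y x = 0 := by
        simp only [x, y, map_add, map_sub, map_smul, LinearMap.add_apply, LinearMap.sub_apply, LinearMap.smul_apply, smul_eq_mul,
          e1, e2, o10, o20, o30, o12, o21, o31, o32]
        ring
      let P : Submodule F V := Submodule.span F {x, y}
      let emb : Fin (2 * N) → Fin (2 * (N + 2)) := fun j => ⟨(j : ℕ) + 4, by omega⟩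
      have hemb : Function.Injective emb := fun i j h => Fin.ext (by simpa [emb] using congrArg Fin.val h)
      let w : Fin (2 * N) → V := v ∘ emb
      -- the recursive part
      obtain ⟨X, hX, hXd, hXi⟩ : ∃ X : Submodule F V, X ≤ Submodule.span F (Set.range w) ∧ finrank F X = N ∧
          ∀ x ∈ X, ∀ y ∈ X, B x y = 0 := by
        refine ih N (by omega) w a (hli.comp _ hemb) (fun i j h => ho _ _ (fun e => h (hemb e))) (fun i hi => h1 _ (by simp [emb]; omega))
          (fun i hi => ha _ (by simp [emb]; omega)) ?_ ha0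
        rwa [pow_add, neg_one_sq, mul_one] at hsq
      have hP : P ≤ Submodule.span F (v '' ({i0, i1, i2, i3} : Set (Fin (2 * (N + 2))))) := by
        have m : ∀ i ∈ ({i0, i1, i2, i3} : Set (Fin (2 * (N + 2)))),
            v i ∈ Submodule.span F (v '' ({i0, i1, i2, i3} : Set (Fin (2 * (N + 2))))) := fun i hi => Submodule.subset_span ⟨i, hi, rfl⟩
        rw [Submodule.span_le, Set.insert_subset_iff, Set.singleton_subset_iff]
        exact ⟨Submodule.add_mem _ (Submodule.add_mem _ (m _ (by simp)) (Submodule.smul_mem _ _ (m _ (by simp)))) (Submodule.smul_mem _ _ (m _ (by simp))),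
          Submodule.add_mem _ (Submodule.sub_mem _ (Submodule.smul_mem _ _ (m _ (by simp))) (Submodule.smul_mem _ _ (m _ (by simp)))) (Submodule.smul_mem _ _ (m _ (by simp)))⟩
      have hdis : Disjoint P X := by
        refine Disjoint.mono hP (hX.trans_eq (by rw [Set.range_comp])) (hli.disjoint_span_image ?_)
        rw [Set.disjoint_left]
        rintro i hi ⟨j, rfl⟩
        simp only [Set.mem_insert_iff, Set.mem_singleton_iff, emb, i0, i1, i2, i3, Fin.ext_iff] at hi
        omega
      have hPd : finrank F P = 2 := by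
        have hxyli : LinearIndependent F ![x, y] := LinearIndependent.pair_iff.2 fun p q h => by
          have g0 := congrArg (fun u => B u (v i0)) h
          have g3 := congrArg (fun u => B u (v i3)) h
          simp [x, y, e0, o10, o20, o30, o03, o13, o23] at g0 g3
          refine ⟨g0, ?_⟩
          have hb : B (v i3) (v i3) ≠ 0 := fun e => by rw [e, mul_zero] at hc3; exact zero_ne_one hc3
          rcases g3 with g | g | g
          · exact g
          · exact absurd g hc
          · exact absurd g hb
        have := finrank_span_eq_card hxyli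
        rw [Matrix.range_cons, Matrix.range_cons, Matrix.range_empty, Set.union_empty, ← Set.insert_eq] at this
        rw [this, Fintype.card_fin]
      have hcross : ∀ p ∈ P, ∀ q ∈ X, B p q = 0 ∧ B q p = 0 := by
        intro p hp q hq
        have h1' : ∀ i ∈ ({i0, i1, i2, i3} : Set (Fin (2 * (N + 2)))), ∀ j, B (v i) (w j) = 0 ∧ B (w j) (v i) = 0 := by
          intro i hi j
          have hne : i ≠ emb j := fun e => by
            subst e
            simp only [Set.mem_insert_iff, Set.mem_singleton_iff, emb, i0, i1, i2, i3, Fin.ext_iff] at hi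
            omega
          exact ⟨ho _ _ hne, ho _ _ (Ne.symm hne)⟩
        constructor
        · have hk : ∀ i ∈ ({i0, i1, i2, i3} : Set (Fin (2 * (N + 2)))), X ≤ LinearMap.ker (B (v i)) := fun i hi =>
            hX.trans (Submodule.span_le.2 (by rintro _ ⟨j, rfl⟩; exact (h1' i hi j).1))
          have : P ≤ LinearMap.ker (B.flip q) := hP.trans (Submodule.span_le.2 (by
            rintro _ ⟨i, hi, rfl⟩; simpa using hk i hi hq))
          simpa using this hp
        · have hk : ∀ i ∈ ({i0, i1, i2, i3} : Set (Fin (2 * (N + 2)))), X ≤ LinearMap.ker (B.flip (v i)) := fun i hi =>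
            hX.trans (Submodule.span_le.2 (by rintro _ ⟨j, rfl⟩; simpa using (h1' i hi j).2))
          have : P ≤ LinearMap.ker (B q) := hP.trans (Submodule.span_le.2 (by
            rintro _ ⟨i, hi, rfl⟩; simpa using hk i hi hq))
          exact this hp
      refine ⟨P ⊔ X, sup_le (hP.trans (Submodule.span_mono (Set.image_subset_range _ _)))
        (hX.trans (Submodule.span_mono (Set.range_comp_subset_range _ _))), ?_, ?_⟩
      · have := Submodule.finrank_sup_add_finrank_inf_eq P X
        rw [hdis.eq_bot, finrank_bot, hPd, hXd] at this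
        omega
      · intro p hp q hq
        obtain ⟨p1, hp1, p2, hp2, rfl⟩ := Submodule.mem_sup.1 hp
        obtain ⟨q1, hq1, q2, hq2, rfl⟩ := Submodule.mem_sup.1 hq
        simp [span_pair_iso B hxx hyy hxy hyx p1 hp1 q1 hq1, (hcross p1 hp1 q2 hq2).1, (hcross q1 hq1 p2 hp2).2, hXi p2 hp2 q2 hq2]

/-- A non-degenerate symmetric form in dimension 2N with square signed discriminant is hyperbolic. -/
theorem exists_isotropic_of_disc [FiniteDimensional F V] (h2 : (2 : F) ≠ 0) (B : LinearMap.BilinForm F V) (hs : ∀ u v, B u v = B v u)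
    (hB : B.Nondegenerate) {N : ℕ} (hV : finrank F V = 2 * N) {κ : Type*} [Fintype κ] [DecidableEq κ] (b : Basis κ F V)
    (hsq : IsSquare ((-1) ^ N * (LinearMap.BilinForm.toMatrix b B).det)) :
    ∃ X : Submodule F V, finrank F X = N ∧ ∀ x ∈ X, ∀ y ∈ X, B x y = 0 := by
  classical
  rcases Nat.eq_zero_or_pos N with rfl | hN
  · exact ⟨⊥, finrank_bot F V, by simp⟩
  obtain ⟨n, hn⟩ : ∃ n, 2 * N = n + 1 := ⟨2 * N - 1, by omega⟩
  have := Fintype.ofFinite F
  have hch : ringChar F ≠ 2 := fun h => h2 (by
    have := ringChar.Nat.cast_ringChar (R := F); rw [h] at this; exact_mod_cast this)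
  obtain ⟨α, hα⟩ := FiniteField.exists_nonsquare hch
  have hnd : CfsgLib.Classical.Diag.NdOn B (⊤ : Submodule F V) :=
    CfsgLib.Classical.Diag.ndOn_top fun w hw => hB.1 w hw
  obtain ⟨c, hco, hc1, hca⟩ := CfsgLib.Classical.Diag.exists_diag_basis h2 B hs hα ⊤ hnd (n := n) (by rw [finrank_top, hV, hn])
  let c' : Basis (Fin (n + 1)) F V := c.map Submodule.topEquiv
  have hc' : ∀ i, c' i = (c i : V) := fun i => rfl
  obtain ⟨d, hd, hdet⟩ := det_change B b c'
  set a := B (c (Fin.last n) : V) (c (Fin.last n) : V) with haDef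
  have hca' : a ≠ 0 := by
    rcases hca with h | h
    · exact h ▸ one_ne_zero
    · rw [h]; exact fun e => hα (e ▸ IsSquare.zero)
  have hdiag : (LinearMap.BilinForm.toMatrix c' B).det = a := by
    have e : LinearMap.BilinForm.toMatrix c' B = Matrix.diagonal fun i => if i = Fin.last n then a else 1 := by
      ext i j
      rw [LinearMap.BilinForm.toMatrix_apply, hc', hc']
      by_cases hij : i = j
      · subst hij
        rw [Matrix.diagonal_apply_eq]
        split_ifs with h
        · rw [h]
        · exact hc1 i h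
      · rw [Matrix.diagonal_apply_ne _ hij]; exact hco i j hij
    rw [e, Matrix.det_diagonal, Finset.prod_ite_eq']
    simp
  rw [hdiag] at hdet
  have hsq' : IsSquare ((-1) ^ N * a) := by
    obtain ⟨r, hr⟩ := hsq
    exact ⟨d * r, by rw [hdet]; linear_combination d ^ 2 * hr⟩
  obtain ⟨X, -, h1, h3⟩ := exists_half h2 B N (c' ∘ Fin.cast hn) a (c'.linearIndependent.comp _ (Fin.cast_injective _))
    (fun i j h => by
      simp only [Function.comp, hc']
      exact hco _ _ fun e => h (Fin.cast_injective _ e))
    (fun i hi => by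
      simp only [Function.comp, hc']
      exact hc1 _ fun e => by have := congrArg Fin.val e; simp at this; omega)
    (fun i hi => by
      simp only [Function.comp, hc']
      rw [show Fin.cast hn i = Fin.last n from Fin.ext (by simp; omega)])
    hsq' hca'
  exact ⟨X, h1, h3⟩

omit [Finite F] in
/-- A form with a totally isotropic half-dimensional subspace has square signed discriminant. -/
theorem disc_of_isotropic [FiniteDimensional F V] (B : LinearMap.BilinForm F V) (hs : ∀ u v, B u v = B v u) {N : ℕ} (hV : finrank F V = 2 * N)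
    {X : Submodule F V} (hX : finrank F X = N) (hXi : ∀ x ∈ X, ∀ y ∈ X, B x y = 0) {κ : Type*} [Fintype κ] [DecidableEq κ]
    (b : Basis κ F V) : IsSquare ((-1) ^ N * (LinearMap.BilinForm.toMatrix b B).det) := by
  classical
  obtain ⟨Y, hY⟩ := Submodule.exists_isCompl X
  have hYd : finrank F Y = N := by
    have := Submodule.finrank_add_eq_of_isCompl hY; omega
  let bX := Module.finBasisOfFinrankEq F X hX
  let bY := Module.finBasisOfFinrankEq F Y hYd
  let c : Basis (Fin N ⊕ Fin N) F V := (bX.prod bY).map (Submodule.prodEquivOfIsCompl X Y hY)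
  have hcl : ∀ i, c (.inl i) = (bX i : V) := fun i => by simp [c]
  have hcr : ∀ i, c (.inr i) = (bY i : V) := fun i => by simp [c]
  let C : Matrix (Fin N) (Fin N) F := Matrix.of fun i j => B (bX i : V) (bY j : V)
  let D : Matrix (Fin N) (Fin N) F := Matrix.of fun i j => B (bY i : V) (bY j : V)
  have e : LinearMap.BilinForm.toMatrix c B = Matrix.fromBlocks 0 C C.transpose D := by
    ext i j
    rcases i with i | i <;> rcases j with j | j <;>
      simp [LinearMap.BilinForm.toMatrix_apply, hcl, hcr, C, D, hXi _ (bX _).2 _ (bX _).2, hs (bY _ : V) (bX _ : V)]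
  obtain ⟨d, hd, hdet⟩ := det_change B c b
  have hm := Matrix.det_mul (Matrix.fromBlocks 0 C C.transpose D)
    (Matrix.fromBlocks (0 : Matrix (Fin N) (Fin N) F) 1 1 0)
  rw [Matrix.fromBlocks_multiply, CfsgLib.Classical.det_hyperbolic, Fintype.card_fin] at hm
  simp only [Matrix.zero_mul, Matrix.mul_one, Matrix.mul_zero, zero_add, add_zero] at hm
  rw [Matrix.det_fromBlocks_zero₁₂, Matrix.det_transpose] at hm
  refine ⟨d * C.det, ?_⟩
  rw [hdet, e]
  linear_combination -(d ^ 2) * hm

omit [Finite F] in
theorem tmul_facts {U W : Type*} [AddCommGroup U] [Module F U] [FiniteDimensional F U] [AddCommGroup W] [Module F W]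
    [FiniteDimensional F W] (B₁ : LinearMap.BilinForm F U) (B₂ : LinearMap.BilinForm F W) (h₁ : B₁.Nondegenerate) (h₂ : B₂.Nondegenerate)
    (hS₁ : B₁.IsSymm) (hS₂ : B₂.IsSymm) :
    (∀ x y, B₁.tmul B₂ x y = B₁.tmul B₂ y x) ∧ (B₁.tmul B₂).Nondegenerate ∧
      (LinearMap.BilinForm.toMatrix ((Module.finBasis F U).tensorProduct (Module.finBasis F W)) (B₁.tmul B₂)).det =
        (LinearMap.BilinForm.toMatrix (Module.finBasis F U) B₁).det ^ finrank F W *
          (LinearMap.BilinForm.toMatrix (Module.finBasis F W) B₂).det ^ finrank F U := by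
  classical
  let bU := Module.finBasis F U
  let bW := Module.finBasis F W
  have e : LinearMap.BilinForm.toMatrix (bU.tensorProduct bW) (B₁.tmul B₂) =
      Matrix.kroneckerMap (· * ·) (LinearMap.BilinForm.toMatrix bU B₁) (LinearMap.BilinForm.toMatrix bW B₂) := by
    ext ⟨i, j⟩ ⟨i', j'⟩
    simp [LinearMap.BilinForm.toMatrix_apply, Basis.tensorProduct_apply, LinearMap.BilinForm.tensorDistrib_tmul, smul_eq_mul, mul_comm]
  have hd : (LinearMap.BilinForm.toMatrix (bU.tensorProduct bW) (B₁.tmul B₂)).det =
      (LinearMap.BilinForm.toMatrix bU B₁).det ^ finrank F W * (LinearMap.BilinForm.toMatrix bW B₂).det ^ finrank F U := by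
    rw [e, Matrix.det_kronecker, Fintype.card_fin, Fintype.card_fin]
  refine ⟨fun x y => ?_, ?_, hd⟩
  · induction x using TensorProduct.induction_on with
    | zero => simp
    | add a b ha hb => simp_all [map_add]
    | tmul u w =>
      induction y using TensorProduct.induction_on with
      | zero => simp
      | add a b ha hb => simp_all [map_add]
      | tmul u' w' => simp [LinearMap.BilinForm.tensorDistrib_tmul, hS₁.eq u' u, hS₂.eq w' w, smul_eq_mul]
  refine (LinearMap.BilinForm.nondegenerate_toMatrix_iff (bU.tensorProduct bW)).1 ?_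
  rw [Matrix.nondegenerate_iff_det_ne_zero, hd]
  refine mul_ne_zero (pow_ne_zero _ ?_) (pow_ne_zero _ ?_) <;> rw [← Matrix.nondegenerate_iff_det_ne_zero]
  · exact (LinearMap.BilinForm.nondegenerate_toMatrix_iff bU).2 h₁
  · exact (LinearMap.BilinForm.nondegenerate_toMatrix_iff bW).2 h₂

end CfsgLib.PlusType
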