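import Mathlib

set_option autoImplicit false

/-! Primitive linear representations: abelian normal subgroups act semiregularly; the 3/4 bound for fixed spaces
of soluble primitive groups. -/

namespace CfsgLib.PrimLinear

open Module
open scoped commutatorElement

variable {Γ : Type*} [Group Γ] {F : Type*} [Field F] {V : Type*} [AddCommGroup V] [Module F V]

/-- irreducibility -/
def Irr (ρ : Γ →* End F V) : Prop := ∀ W : Submodule F V, (∀ s, W.map (ρ s) ≤ W) → W = ⊥ ∨ W = ⊤

/-- primitivity: no system of imprimitivity -/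
def Prim (ρ : Γ →* End F V) : Prop :=
  ∀ (t m : ℕ) (D : Fin t → Submodule F V), 2 ≤ t → 0 < m → (∀ i, finrank F (D i) = m) → iSupIndep D → iSup D = ⊤ →
    ¬ ∀ s, ∃ σ : Equiv.Perm (Fin t), ∀ i, (D i).map (ρ s) = D (σ i)

theorem exists_common_kernel [Nontrivial V] (S : Finset (End F V)) (hc : ∀ x ∈ S, ∀ y ∈ S, Commute x y)
    (hn : ∀ x ∈ S, IsNilpotent x) : ∃ v : V, v ≠ 0 ∧ ∀ x ∈ S, x v = 0 := by
  classical
  induction S using Finset.induction_on with
  | empty => exact ⟨_, (exists_ne (0 : V)).choose_spec, by simp⟩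
  | @insert a S ha ih =>
    obtain ⟨v, hv0, hv⟩ := ih (fun x hx y hy => hc x (Finset.mem_insert_of_mem hx) y (Finset.mem_insert_of_mem hy))
      (fun x hx => hn x (Finset.mem_insert_of_mem hx))
    obtain ⟨k, hk⟩ := hn a (Finset.mem_insert_self _ _)
    have hex : ∃ j, (a ^ j) v = 0 := ⟨k, by rw [hk]; rfl⟩
    set j := Nat.find hex with hj
    have hj0 : j ≠ 0 := fun h => hv0 (by have := Nat.find_spec hex; rw [← hj, h, pow_zero] at this; exact this)
    obtain ⟨i, hi⟩ := Nat.exists_eq_succ_of_ne_zero hj0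
    refine ⟨(a ^ i) v, Nat.find_min hex (by omega), fun x hx => ?_⟩
    rcases Finset.mem_insert.1 hx with rfl | hx'
    · have := Nat.find_spec hex
      rw [← hj, hi, pow_succ'] at this
      exact this
    · have hcx : Commute x (a ^ i) := (hc x hx a (Finset.mem_insert_self _ _)).pow_right i
      show (x * a ^ i) v = 0
      rw [hcx.eq, Module.End.mul_apply, hv x hx', map_zero]

theorem exists_idem_pow {M : Type*} [Monoid M] [Finite M] (r : M) : ∃ k, 0 < k ∧ r ^ k * r ^ k = r ^ k := by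
  obtain ⟨i, j, hne, he⟩ := Finite.exists_ne_map_eq_of_infinite (fun k : ℕ => r ^ k)
  wlog hij : i < j generalizing i j
  · exact this j i (Ne.symm hne) he.symm (by omega)
  obtain ⟨d, rfl⟩ : ∃ d, j = i + (d + 1) := ⟨j - i - 1, by omega⟩
  have hper : ∀ m, r ^ (i + m * (d + 1)) = r ^ i := by
    intro m
    induction m with
    | zero => simp
    | succ m ih => rw [show i + (m + 1) * (d + 1) = (i + m * (d + 1)) + (d + 1) by ring, pow_add, ih, ← pow_add]; exact he.symm
  refine ⟨(i + 1) * (d + 1), by positivity, ?_⟩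
  obtain ⟨c, hc⟩ : ∃ c, (i + 1) * (d + 1) = i + c := ⟨(i + 1) * (d + 1) - i, by
    have : i + 1 ≤ (i + 1) * (d + 1) := Nat.le_mul_of_pos_right _ (by omega)
    omega⟩
  rw [← pow_add]
  calc r ^ ((i + 1) * (d + 1) + (i + 1) * (d + 1)) = r ^ c * r ^ (i + (i + 1) * (d + 1)) := by
        rw [← pow_add]; congr 1; omega
    _ = r ^ c * r ^ i := by rw [hper]
    _ = r ^ ((i + 1) * (d + 1)) := by rw [← pow_add]; congr 1; omega

section adjoin

variable (ρ : Γ →* End F V) (A : Subgroup Γ)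

/-- the algebra generated by a subgroup -/
def alg : Subalgebra F (End F V) := Algebra.adjoin F (ρ '' (A : Set Γ))

theorem commute_alg (hA : ∀ a ∈ A, ∀ b ∈ A, Commute a b) {x y : End F V} (hx : x ∈ alg ρ A) (hy : y ∈ alg ρ A) :
    Commute x y := by
  have h1 : ∀ b ∈ A, ∀ z ∈ alg ρ A, Commute (ρ b) z := by
    intro b hb z hz
    induction hz using Algebra.adjoin_induction with
    | mem z hz => obtain ⟨a, ha, rfl⟩ := hz; exact (hA b hb a ha).map ρ
    | algebraMap c => exact (Algebra.commutes c _).symm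
    | add _ _ _ _ h h' => exact h.add_right h'
    | mul _ _ _ _ h h' => exact h.mul_right h'
  induction hx using Algebra.adjoin_induction with
  | mem x hx => obtain ⟨a, ha, rfl⟩ := hx; exact h1 a ha y hy
  | algebraMap c => exact Algebra.commutes c _
  | add _ _ _ _ h h' => exact h.add_left h'
  | mul _ _ _ _ h h' => exact h.mul_left h'

theorem conj_mul_conj (s : Γ) (x y : End F V) :
    (ρ s * x * ρ s⁻¹) * (ρ s * y * ρ s⁻¹) = ρ s * (x * y) * ρ s⁻¹ := by
  have h : ρ s⁻¹ * ρ s = 1 := by rw [← map_mul, inv_mul_cancel, map_one]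
  simp only [mul_assoc]
  rw [← mul_assoc (ρ s⁻¹) (ρ s), h, one_mul]

theorem conj_mem_alg [hN : A.Normal] (s : Γ) {x : End F V} (hx : x ∈ alg ρ A) : ρ s * x * ρ s⁻¹ ∈ alg ρ A := by
  induction hx using Algebra.adjoin_induction with
  | mem x hx =>
    obtain ⟨a, ha, rfl⟩ := hx
    rw [← map_mul, ← map_mul]
    exact Algebra.subset_adjoin ⟨_, hN.conj_mem a ha s, rfl⟩
  | algebraMap c =>
    rw [← Algebra.commutes, mul_assoc, ← map_mul, mul_inv_cancel, map_one, mul_one]
    exact Subalgebra.algebraMap_mem _ c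
  | add _ _ _ _ h h' => rw [mul_add, add_mul]; exact add_mem h h'
  | mul x y _ _ h h' => rw [← conj_mul_conj]; exact mul_mem h h'

theorem conj_pow (s : Γ) (x : End F V) (k : ℕ) : (ρ s * x * ρ s⁻¹) ^ k = ρ s * x ^ k * ρ s⁻¹ := by
  induction k with
  | zero => rw [pow_zero, pow_zero, mul_one, ← map_mul, mul_inv_cancel, map_one]
  | succ k ih => rw [pow_succ (ρ s * x * ρ s⁻¹), ih, conj_mul_conj, pow_succ x]

theorem eq_one_of_fixed [Finite F] [FiniteDimensional F V] (hirr : Irr ρ) (hprim : Prim ρ) [A.Normal]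
    (hA : ∀ a ∈ A, ∀ b ∈ A, Commute a b) {a : Γ} (ha : a ∈ A) {v : V} (hv : v ≠ 0) (hav : ρ a v = v) : ρ a = 1 := by
  classical
  have : Finite (End F V) := Module.finite_of_finite F
  have := Fintype.ofFinite (End F V)
  have : Nontrivial V := ⟨⟨v, 0, hv⟩⟩
  -- no nilpotent elements
  have hred : ∀ x ∈ alg ρ A, IsNilpotent x → x = 0 := by
    intro x hx hnx
    let S : Finset (End F V) := Finset.univ.filter fun z => z ∈ alg ρ A ∧ IsNilpotent z
    obtain ⟨w, hw0, hw⟩ := exists_common_kernel S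
      (fun p hp r hr => commute_alg ρ A hA (Finset.mem_filter.1 hp).2.1 (Finset.mem_filter.1 hr).2.1)
      (fun p hp => (Finset.mem_filter.1 hp).2.2)
    let W : Submodule F V := ⨅ z ∈ S, LinearMap.ker z
    have hmem : ∀ u, u ∈ W ↔ ∀ z ∈ S, z u = 0 := fun u => by simp [W, Submodule.mem_iInf]
    have hW : W = ⊥ ∨ W = ⊤ := by
      refine hirr W fun s => ?_
      rintro _ ⟨u, hu, rfl⟩
      refine (hmem _).2 fun z hz => ?_
      have hz' : ρ s⁻¹ * z * ρ s⁻¹⁻¹ ∈ S := by
        refine Finset.mem_filter.2 ⟨Finset.mem_univ _, conj_mem_alg ρ A _ (Finset.mem_filter.1 hz).2.1, ?_⟩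
        obtain ⟨k, hk⟩ := (Finset.mem_filter.1 hz).2.2
        exact ⟨k, by rw [conj_pow, hk, mul_zero, zero_mul]⟩
      have h0 := (hmem u).1 hu _ hz'
      rw [inv_inv] at h0
      have h1 : ρ s ((ρ s⁻¹ * z * ρ s) u) = z (ρ s u) := by
        show (ρ s * (ρ s⁻¹ * z * ρ s)) u = _
        rw [← mul_assoc, ← mul_assoc, ← map_mul, mul_inv_cancel, map_one, one_mul]; rfl
      rw [← h1, h0, map_zero]
    rcases hW with h | h
    · exact absurd ((Submodule.eq_bot_iff W).1 h w ((hmem w).2 hw)) hw0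
    · refine LinearMap.ext fun u => ?_
      exact (hmem u).1 (h ▸ Submodule.mem_top) x (Finset.mem_filter.2 ⟨Finset.mem_univ _, hx, hnx⟩)
  let E : Finset (End F V) := Finset.univ.filter fun z => z ∈ alg ρ A ∧ z * z = z ∧ z ≠ 0
  have hE : ∀ z, z ∈ E ↔ z ∈ alg ρ A ∧ z * z = z ∧ z ≠ 0 := fun z => by simp [E]
  obtain ⟨e0, he0, hmin⟩ := E.exists_min_image (fun z => finrank F (LinearMap.range z))
    ⟨1, (hE 1).2 ⟨one_mem _, one_mul _, one_ne_zero⟩⟩
  -- products with a minimal idempotent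
  have key : ∀ e ∈ E, finrank F (LinearMap.range e) = finrank F (LinearMap.range e0) →
      ∀ f ∈ alg ρ A, f * f = f → e * f = 0 ∨ e * f = e := by
    intro e he hr f hf hff
    obtain ⟨hem, hee, -⟩ := (hE e).1 he
    by_cases h0 : e * f = 0
    · exact Or.inl h0
    right
    have hc : Commute e f := commute_alg ρ A hA hem hf
    have hefi : e * f * (e * f) = e * f := by
      rw [mul_assoc, ← mul_assoc f e, ← hc.eq, mul_assoc e f f, hff, ← mul_assoc, hee]
    have hle : LinearMap.range (e * f) ≤ LinearMap.range e := LinearMap.range_comp_le_range f e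
    have heq := Submodule.eq_of_le_of_finrank_le hle (hr.trans_le (hmin _ ((hE _).2 ⟨mul_mem hem hf, hefi, h0⟩)))
    refine LinearMap.ext fun u => ?_
    obtain ⟨w, hw⟩ : e u ∈ LinearMap.range (e * f) := heq ▸ ⟨u, rfl⟩
    calc (e * f) u = f (e u) := by rw [hc.eq]; rfl
      _ = f ((e * f) w) := by rw [hw]
      _ = (f * (e * f)) w := rfl
      _ = (e * f) w := by rw [hc.eq, ← mul_assoc, hff]
      _ = e u := hw
  have hconjE : ∀ s, ρ s * e0 * ρ s⁻¹ ∈ E ∧
      finrank F (LinearMap.range (ρ s * e0 * ρ s⁻¹)) = finrank F (LinearMap.range e0) := by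
    intro s
    obtain ⟨hem, hee, hne⟩ := (hE e0).1 he0
    have hr : ∀ s, finrank F (LinearMap.range (ρ s * e0 * ρ s⁻¹)) ≤ finrank F (LinearMap.range e0) := by
      intro s
      rw [Module.End.mul_eq_comp, Module.End.mul_eq_comp, LinearMap.comp_assoc, LinearMap.range_comp]
      exact (Submodule.finrank_map_le _ _).trans (Submodule.finrank_mono (LinearMap.range_comp_le_range _ _))
    have hne' : ρ s * e0 * ρ s⁻¹ ≠ 0 := fun h => hne (by
      have := congrArg (fun z => ρ s⁻¹ * z * ρ s) h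
      simp only [← mul_assoc, ← map_mul, inv_mul_cancel, map_one, one_mul] at this
      rwa [mul_assoc, ← map_mul, inv_mul_cancel, map_one, mul_one, mul_zero, zero_mul] at this)
    have hmem' : ρ s * e0 * ρ s⁻¹ ∈ E :=
      (hE _).2 ⟨conj_mem_alg ρ A s hem, by rw [conj_mul_conj, hee], hne'⟩
    exact ⟨hmem', le_antisymm (hr s) (hmin _ hmem')⟩
  let O : Finset (End F V) := Finset.univ.filter fun z => ∃ s, z = ρ s * e0 * ρ s⁻¹
  have hO : ∀ z, z ∈ O ↔ ∃ s, z = ρ s * e0 * ρ s⁻¹ := fun z => by simp [O]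
  have hOE : ∀ z ∈ O, z ∈ E ∧ finrank F (LinearMap.range z) = finrank F (LinearMap.range e0) := fun z hz => by
    obtain ⟨s, rfl⟩ := (hO z).1 hz; exact hconjE s
  have horth : ∀ e ∈ O, ∀ f ∈ O, e ≠ f → e * f = 0 := by
    intro e he f hf hne
    rcases key e (hOE e he).1 (hOE e he).2 f ((hE f).1 (hOE f hf).1).1 ((hE f).1 (hOE f hf).1).2.1 with h | h
    · exact h
    rcases key f (hOE f hf).1 (hOE f hf).2 e ((hE e).1 (hOE e he).1).1 ((hE e).1 (hOE e he).1).2.1 with h' | h'
    · rw [(commute_alg ρ A hA ((hE e).1 (hOE e he).1).1 ((hE f).1 (hOE f hf).1).1).eq]; exact h'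
    · exact absurd (by rw [← h, (commute_alg ρ A hA ((hE e).1 (hOE e he).1).1 ((hE f).1 (hOE f hf).1).1).eq, h']) hne
  have hself : e0 ∈ O := (hO e0).2 ⟨1, by simp⟩
  have hOconj : ∀ s, ∀ z ∈ O, ρ s * z * ρ s⁻¹ ∈ O := by
    intro s z hz
    obtain ⟨s', rfl⟩ := (hO z).1 hz
    refine (hO _).2 ⟨s * s', ?_⟩
    simp only [mul_assoc, map_mul, mul_inv_rev]
  let T : End F V := ∑ z ∈ O, z
  have hTe : ∀ z ∈ O, z * T = z ∧ T * z = z := by
    intro z hz
    refine ⟨?_, ?_⟩
    · rw [Finset.mul_sum, Finset.sum_eq_single z (fun f hf hne => horth z hz f hf (Ne.symm hne)) (fun h => absurd hz h),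
        ((hE z).1 (hOE z hz).1).2.1]
    · rw [Finset.sum_mul, Finset.sum_eq_single z (fun f hf hne => horth f hf z hz hne) (fun h => absurd hz h),
        ((hE z).1 (hOE z hz).1).2.1]
  have hTT : T * T = T := by
    show (∑ z ∈ O, z) * T = _
    rw [Finset.sum_mul]; exact Finset.sum_congr rfl fun z hz => (hTe z hz).1
  have hT1 : T = 1 := by
    rcases hirr (LinearMap.ker T) (fun s => by
      rintro _ ⟨u, hu, rfl⟩
      rw [SetLike.mem_coe, LinearMap.mem_ker] at hu
      rw [LinearMap.mem_ker]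
      have hTs : ρ s * T * ρ s⁻¹ = T := by
        rw [show ρ s * T * ρ s⁻¹ = ∑ z ∈ O, ρ s * z * ρ s⁻¹ from by rw [Finset.mul_sum, Finset.sum_mul]]
        refine Finset.sum_bij' (fun z _ => ρ s * z * ρ s⁻¹) (fun z _ => ρ s⁻¹ * z * ρ s⁻¹⁻¹) (hOconj s) (hOconj s⁻¹)
          ?_ ?_ (fun _ _ => rfl) <;> intro z _ <;>
          simp only [inv_inv, mul_assoc, ← map_mul, inv_mul_cancel, mul_inv_cancel, map_one, mul_one] <;>
          simp only [← mul_assoc, ← map_mul, inv_mul_cancel, mul_inv_cancel, map_one, one_mul]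
      calc T (ρ s u) = (ρ s * T * ρ s⁻¹) (ρ s u) := by rw [hTs]
        _ = (ρ s * T * (ρ s⁻¹ * ρ s)) u := rfl
        _ = 0 := by rw [← map_mul, inv_mul_cancel, map_one, mul_one, Module.End.mul_apply, hu, map_zero]) with h | h
    · refine LinearMap.ext fun u => ?_
      have : T u - u ∈ LinearMap.ker T := by
        rw [LinearMap.mem_ker, map_sub, ← Module.End.mul_apply, hTT, sub_self]
      rw [h, Submodule.mem_bot, sub_eq_zero] at this
      exact this
    · exfalso
      refine ((hE e0).1 he0).2.2 ?_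
      rw [← (hTe e0 hself).1, LinearMap.ker_eq_top.1 h, mul_zero]
  have hsingle : O = {e0} := by
    by_contra hcon
    have ht : 2 ≤ O.card := by
      rcases Nat.lt_or_ge O.card 2 with h | h
      · exact absurd (Finset.eq_singleton_iff_unique_mem.2 ⟨hself, fun z hz => Finset.card_le_one.1 (by omega) z hz e0 hself⟩) hcon
      · exact h
    let D : Fin O.card → Submodule F V := fun i => LinearMap.range (O.equivFin.symm i).1
    have hfix : ∀ (i : Fin O.card) u, u ∈ D i → (O.equivFin.symm i).1 u = u := by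
      rintro i _ ⟨w, rfl⟩
      rw [← Module.End.mul_apply, ((hE _).1 (hOE _ (O.equivFin.symm i).2).1).2.1]
    refine hprim O.card (finrank F (LinearMap.range e0)) D ht ?_ (fun i => (hOE _ (O.equivFin.symm i).2).2) ?_ ?_ ?_
    · rw [Nat.pos_iff_ne_zero]
      intro h
      exact ((hE e0).1 he0).2.2 (LinearMap.range_eq_bot.1 (Submodule.finrank_eq_zero.1 h))
    · rw [iSupIndep_def]
      intro i
      rw [Submodule.disjoint_def]
      intro u hu hu'
      have h0 : (⨆ (j) (_ : j ≠ i), D j) ≤ LinearMap.ker (O.equivFin.symm i).1 := by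
        refine iSup₂_le fun j hj => ?_
        intro w hw
        rw [LinearMap.mem_ker, ← hfix j w hw, ← Module.End.mul_apply,
          horth _ (O.equivFin.symm i).2 _ (O.equivFin.symm j).2
            (fun e => hj (O.equivFin.symm.injective (Subtype.ext e)).symm)]
        rfl
      rw [← hfix i u hu]
      exact h0 hu'
    · rw [eq_top_iff]
      intro u _
      have : u = ∑ z ∈ O, z u := by
        rw [← LinearMap.sum_apply]; exact (LinearMap.congr_fun hT1 u).symm
      rw [this]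
      refine Submodule.sum_mem _ fun z hz => Submodule.mem_iSup_of_mem (O.equivFin ⟨z, hz⟩) ?_
      simp [D]
    · intro s
      let c : O → O := fun z => ⟨ρ s * z.1 * ρ s⁻¹, hOconj s z.1 z.2⟩
      have hcinj : Function.Injective c := by
        intro z w h
        have := congrArg (fun x : O => ρ s⁻¹ * x.1 * ρ s) h
        simp only [c, mul_assoc, ← map_mul, inv_mul_cancel, map_one, mul_one] at this
        simp only [← mul_assoc, ← map_mul, inv_mul_cancel, map_one, one_mul] at this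
        exact Subtype.ext this
      refine ⟨(O.equivFin.symm.trans (Equiv.ofBijective c (Finite.injective_iff_bijective.1 hcinj))).trans O.equivFin,
        fun i => ?_⟩
      simp only [D, Equiv.trans_apply, Equiv.symm_apply_apply, Equiv.ofBijective_apply]
      show _ = LinearMap.range (ρ s * (O.equivFin.symm i).1 * ρ s⁻¹)
      have hsurj : LinearMap.range (ρ s⁻¹) = ⊤ := LinearMap.range_eq_top.2 fun w =>
        ⟨ρ s w, by rw [← Module.End.mul_apply, ← map_mul, inv_mul_cancel, map_one]; rfl⟩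
      rw [Module.End.mul_eq_comp, Module.End.mul_eq_comp, LinearMap.range_comp_of_range_eq_top _ hsurj, LinearMap.range_comp]
  have he01 : e0 = 1 := by
    have h := hT1
    rw [show T = ∑ z ∈ O, z from rfl, hsingle, Finset.sum_singleton] at h
    exact h
  by_contra hne
  obtain ⟨k, hk, hkk⟩ := exists_idem_pow (ρ a - 1)
  have hr : ρ a - 1 ∈ alg ρ A := sub_mem (Algebra.subset_adjoin ⟨a, ha, rfl⟩) (one_mem _)
  have hrk0 : (ρ a - 1) ^ k ≠ 0 := fun h => sub_ne_zero.2 hne (hred _ hr ⟨k, h⟩)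
  rcases key e0 he0 rfl _ (pow_mem hr k) hkk with h | h <;> rw [he01, one_mul] at h
  · exact hrk0 h
  · obtain ⟨k', rfl⟩ := Nat.exists_eq_succ_of_ne_zero hk.ne'
    refine hv ?_
    have h2 := LinearMap.congr_fun h v
    rw [pow_succ, Module.End.mul_apply, LinearMap.sub_apply, hav, Module.End.one_apply, sub_self, map_zero] at h2
    exact h2.symm

end adjoin

/-- the fixed space -/
def fix (ρ : Γ →* End F V) (s : Γ) : Submodule F V := LinearMap.ker (ρ s - 1)

theorem mem_fix (ρ : Γ →* End F V) (s : Γ) (v : V) : v ∈ fix ρ s ↔ ρ s v = v := by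
  simp [fix, LinearMap.mem_ker, sub_eq_zero]

theorem finrank_fix_mul [FiniteDimensional F V] (ρ : Γ →* End F V) (a b : Γ) :
    finrank F (fix ρ a) + finrank F (fix ρ b) ≤ finrank F (fix ρ (a * b)) + finrank F V := by
  have h := Submodule.finrank_sup_add_finrank_inf_eq (fix ρ a) (fix ρ b)
  have h1 := Submodule.finrank_le (fix ρ a ⊔ fix ρ b)
  have h2 : finrank F ↥(fix ρ a ⊓ fix ρ b) ≤ finrank F (fix ρ (a * b)) := Submodule.finrank_mono fun v hv => by
    rw [Submodule.mem_inf, mem_fix, mem_fix] at hv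
    rw [mem_fix, map_mul, Module.End.mul_apply, hv.2, hv.1]
  omega

theorem finrank_fix_conj [FiniteDimensional F V] (ρ : Γ →* End F V) (a y : Γ) :
    finrank F (fix ρ a) ≤ finrank F (fix ρ (y * a⁻¹ * y⁻¹)) := by
  have hinj : Function.Injective (ρ y) := fun u w h => by
    have := congrArg (ρ y⁻¹) h
    simpa [← Module.End.mul_apply, ← map_mul] using this
  refine le_trans (Submodule.equivMapOfInjective _ hinj (fix ρ a)).finrank_eq.le (Submodule.finrank_mono ?_)
  rintro _ ⟨v, hv, rfl⟩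
  rw [SetLike.mem_coe, mem_fix] at hv
  rw [mem_fix, ← Module.End.mul_apply, ← map_mul, inv_mul_cancel_right, map_mul, Module.End.mul_apply]
  congr 1
  conv_lhs => rw [← hv]
  rw [← Module.End.mul_apply, ← map_mul, inv_mul_cancel, map_one]; rfl

/-- the derived series of a subgroup, inside the ambient group -/
def dSeries (K : Subgroup Γ) : ℕ → Subgroup Γ
  | 0 => K
  | i + 1 => ⁅dSeries K i, dSeries K i⁆

theorem exists_class_two_self_centralizing [Finite Γ] (hsol : Group.IsSolvable Γ) :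
    ∃ E : Subgroup Γ, E.Normal ∧ (∀ a ∈ E, ∀ b ∈ E, ∀ c ∈ E, Commute ⁅a, b⁆ c) ∧ Subgroup.centralizer (E : Set Γ) ≤ E := by
  classical
  let P : Subgroup Γ → Prop := fun E => E.Normal ∧ ∀ a ∈ E, ∀ b ∈ E, ∀ c ∈ E, Commute ⁅a, b⁆ c
  obtain ⟨E, hE⟩ := Set.Finite.exists_maximal (Set.toFinite {E | P E}) ⟨⊥, inferInstance, fun a _ b _ c hc => by
    rw [Subgroup.mem_bot] at hc; subst hc; exact Commute.one_right _⟩
  obtain ⟨hEn, hEc⟩ := hE.prop
  refine ⟨E, hEn, hEc, ?_⟩
  let S : ℕ → Subgroup Γ := dSeries (Subgroup.centralizer (E : Set Γ))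
  have hS : ∀ i, S i ≤ derivedSeries Γ i ∧ (S i).Normal ∧ S i ≤ Subgroup.centralizer (E : Set Γ) := by
    intro i
    induction i with
    | zero => exact ⟨le_top, inferInstanceAs (Subgroup.centralizer (E : Set Γ)).Normal, le_rfl⟩
    | succ i ih =>
      have := ih.2.1
      exact ⟨Subgroup.commutator_mono ih.1 ih.1, Subgroup.commutator_normal _ _, (Subgroup.commutator_le_left _ _).trans ih.2.2⟩
  obtain ⟨N, hN⟩ := hsol.solvable
  suffices hstep : ∀ j, S (j + 1) ≤ E → S j ≤ E by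
    have hall : ∀ k, S k ≤ E → S 0 ≤ E := by
      intro k
      induction k with
      | zero => exact id
      | succ k ih => exact fun h => ih (hstep k h)
    exact hall N (le_trans (le_trans (hS N).1 hN.le) bot_le)
  intro j hj1
  have : (S j).Normal := (hS j).2.1
  have hSC : ∀ n ∈ S j, ∀ e ∈ E, e * n = n * e := fun n hn e he => Subgroup.mem_centralizer_iff.1 ((hS j).2.2 hn) e he
  have hn' : (E ⊔ S j).Normal := Subgroup.sup_normal E (S j)
  refine le_trans le_sup_right (hE.le_of_ge (y := E ⊔ S j) ⟨hn', ?_⟩ le_sup_left)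
  intro a ha b hb c hc
  obtain ⟨e, he, m, hm, rfl⟩ := Subgroup.mem_sup_of_normal_right.1 ha
  obtain ⟨e', he', m', hm', rfl⟩ := Subgroup.mem_sup_of_normal_right.1 hb
  obtain ⟨e'', he'', m'', hm'', rfl⟩ := Subgroup.mem_sup_of_normal_right.1 hc
  have hmm : ⁅m, m'⁆ ∈ S (j + 1) := Subgroup.commutator_mem_commutator hm hm'
  have hmm' : ⁅m, m'⁆ ∈ S j := Subgroup.commutator_le_left _ _ hmm
  have h1 : ⁅e * m, e' * m'⁆ = ⁅e, e'⁆ * ⁅m, m'⁆ := by
    have c1 : Commute e' m := hSC m hm e' he'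
    have c2 : Commute m' e := (hSC m' hm' e he).symm
    have c3 : Commute e m := hSC m hm e he
    have c4 : Commute e' m' := hSC m' hm' e' he'
    have hx1 : Commute m (e' * e⁻¹ * e'⁻¹) := ((c1.symm.mul_right c3.symm.inv_right).mul_right c1.symm.inv_right)
    rw [commutatorElement_def, commutatorElement_def, commutatorElement_def, mul_inv_rev, mul_inv_rev]
    calc e * m * (e' * m') * (m⁻¹ * e⁻¹) * (m'⁻¹ * e'⁻¹)
        = e * (m * e') * m' * (m⁻¹ * e⁻¹) * (m'⁻¹ * e'⁻¹) := by simp only [mul_assoc]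
      _ = e * (e' * m) * m' * (e⁻¹ * m⁻¹) * (e'⁻¹ * m'⁻¹) := by
          rw [c1.eq, (c3.inv_inv).eq, (c4.inv_inv).eq]
      _ = e * e' * ((m * m') * e⁻¹) * m⁻¹ * e'⁻¹ * m'⁻¹ := by simp only [mul_assoc]
      _ = e * e' * (e⁻¹ * (m * m')) * m⁻¹ * e'⁻¹ * m'⁻¹ := by rw [((c3.symm.mul_left c2).inv_right).eq]
      _ = e * e' * e⁻¹ * ((m * m' * m⁻¹) * e'⁻¹) * m'⁻¹ := by simp only [mul_assoc]
      _ = e * e' * e⁻¹ * (e'⁻¹ * (m * m' * m⁻¹)) * m'⁻¹ := by
          rw [(((c1.symm.mul_left c4.symm).mul_left c1.symm.inv_left).inv_right).eq]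
      _ = e * e' * e⁻¹ * e'⁻¹ * (m * m' * m⁻¹ * m'⁻¹) := by simp only [mul_assoc]
  rw [h1]
  have hmE : ⁅m, m'⁆ ∈ E := hj1 hmm
  refine Commute.mul_right (Commute.mul_left (hEc e he e' he' e'' he'') ?_) (Commute.mul_left ?_ ?_)
  · exact (hSC _ hmm' e'' he'').symm
  · have : ⁅e, e'⁆ ∈ E := by
      rw [commutatorElement_def]; exact mul_mem (mul_mem (mul_mem he he') (inv_mem he)) (inv_mem he')
    exact hSC m'' hm'' _ this
  · exact hSC m'' hm'' _ hmE

theorem finrank_fix_le [Finite Γ] [Finite F] [FiniteDimensional F V] (hsol : Group.IsSolvable Γ) (ρ : Γ →* End F V)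
    (hinj : Function.Injective ρ) (hirr : Irr ρ) (hprim : Prim ρ) {g : Γ} (hg : g ≠ 1) :
    4 * finrank F (fix ρ g) ≤ 3 * finrank F V := by
  by_contra hlt
  rw [not_le] at hlt
  have pos : ∀ (A : Subgroup Γ), A.Normal → (∀ a ∈ A, ∀ b ∈ A, Commute a b) → ∀ a ∈ A, 0 < finrank F (fix ρ a) → a = 1 := by
    intro A hAn hA a ha hpos
    obtain ⟨v, hv, hv0⟩ := Submodule.exists_mem_ne_zero_of_ne_bot (p := fix ρ a) (fun h => by rw [h, finrank_bot] at hpos; exact lt_irrefl 0 hpos)
    exact hinj (by rw [map_one]; exact eq_one_of_fixed ρ A hirr hprim hA ha hv0 ((mem_fix ρ a v).1 hv))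
  obtain ⟨E, hEn, hEc, hEC⟩ := exists_class_two_self_centralizing hsol
  let Z : Subgroup Γ := E ⊓ Subgroup.centralizer (E : Set Γ)
  have hZn : Z.Normal := inferInstanceAs (E ⊓ Subgroup.centralizer (E : Set Γ)).Normal
  have hZ : ∀ a ∈ Z, ∀ b ∈ Z, Commute a b := fun a ha b hb => Subgroup.mem_centralizer_iff.1 hb.2 a ha.1
  have hmemE : ∀ z, ∀ y ∈ E, ⁅z, y⁆ ∈ E := fun z y hy => by
    rw [commutatorElement_def]; exact mul_mem (hEn.conj_mem y hy z) (inv_mem hy)
  have hcent : ∀ y ∈ E, ⁅g, y⁆ = 1 := by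
    intro y hy
    have hd := finrank_fix_mul ρ g (y * g⁻¹ * y⁻¹)
    have hd' := finrank_fix_conj ρ g y
    have he : g * (y * g⁻¹ * y⁻¹) = ⁅g, y⁆ := by rw [commutatorElement_def]; group
    rw [he] at hd
    have hcE : ⁅g, y⁆ ∈ E := hmemE g y hy
    refine pos Z hZn hZ _ ⟨hcE, Subgroup.mem_centralizer_iff.2 fun z hz => ?_⟩ (by omega)
    have hd2 := finrank_fix_mul ρ ⁅g, y⁆ (z * ⁅g, y⁆⁻¹ * z⁻¹)
    have hd2' := finrank_fix_conj ρ ⁅g, y⁆ z
    have he2 : ⁅g, y⁆ * (z * ⁅g, y⁆⁻¹ * z⁻¹) = ⁅⁅g, y⁆, z⁆ := by rw [commutatorElement_def ⁅g, y⁆]; group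
    rw [he2] at hd2
    have h1 : ⁅⁅g, y⁆, z⁆ = 1 := pos Z hZn hZ _ ⟨hmemE _ _ hz,
      Subgroup.mem_centralizer_iff.2 fun w hw => (hEc _ hcE z hz w hw).eq.symm⟩ (by omega)
    exact (commutatorElement_eq_one_iff_mul_comm.1 h1).symm
  have hgC : g ∈ Subgroup.centralizer (E : Set Γ) :=
    Subgroup.mem_centralizer_iff.2 fun y hy => (commutatorElement_eq_one_iff_mul_comm.1 (hcent y hy)).symm
  exact hg (pos Z hZn hZ g ⟨hEC hgC, hgC⟩ (by omega))

end CfsgLib.PrimLinear
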