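import Cfsg.Agent.Lib.ClassicalOrth

/-! Standard bases of non-degenerate quadratic spaces over finite fields. -/

set_option autoImplicit false
set_option linter.unusedSectionVars false

namespace CfsgLib.QuadBasis

open QuadraticMap

variable {F V : Type*} [Field F] [AddCommGroup V] [Module F V] (Q : QuadraticForm F V)

/-- The polar form is non-degenerate on a subspace. -/
def NdP (S : Submodule F V) : Prop := ∀ x ∈ S, (∀ y ∈ S, polar (⇑Q) x y = 0) → x = 0

/-- The vectors of `S` orthogonal to a pair. -/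
def cut (S : Submodule F V) (e f : V) : Submodule F V :=
  S ⊓ (LinearMap.ker (Q.polarBilin e) ⊓ LinearMap.ker (Q.polarBilin f))

variable {Q}

theorem mem_cut {S : Submodule F V} {e f x : V} :
    x ∈ cut Q S e f ↔ x ∈ S ∧ polar (⇑Q) e x = 0 ∧ polar (⇑Q) f x = 0 := Iff.rfl

theorem polar_self' (x : V) : polar (⇑Q) x x = 2 * Q x := by
  rw [QuadraticMap.polar_self, two_smul, two_mul]

theorem exists_singular [Finite F] [FiniteDimensional F V] {S : Submodule F V} (hS : NdP Q S)
    (h3 : 3 ≤ Module.finrank F S) : ∃ x ∈ S, x ≠ 0 ∧ Q x = 0 := by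
  classical
  set b := Module.finBasis F S
  let L : (Fin (Module.finrank F S) → F) →ₗ[F] V := S.subtype.comp b.equivFun.symm.toLinearMap
  have hL : Function.Injective L := Subtype.val_injective.comp b.equivFun.symm.injective
  have hmem : ∀ x, L x ∈ S := fun x => (b.equivFun.symm x).2
  have hp : ∀ x y, polar (fun v => Q (L v)) x y = polar (⇑Q) (L x) (L y) := fun x y => by
    simp [polar]
  have hN : Cfsg.Geo.IsNondegenerateQuadraticForm (fun v => Q (L v)) := by
    refine ⟨fun c v => by simp [QuadraticMap.map_smul, _root_.sq], ⟨fun x y v => ?_, fun c x v => ?_, fun v x y => ?_, fun c v x => ?_⟩, fun v hv => ?_⟩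
    · rw [hp, hp, hp, map_add, polar_add_left]
    · rw [hp, hp, map_smul, polar_smul_left, smul_eq_mul]
    · rw [hp, hp, hp, map_add, polar_add_right]
    · rw [hp, hp, map_smul, polar_smul_right, smul_eq_mul]
    · suffices h : ∃ x, polar (fun v => Q (L v)) v x ≠ 0 by
        obtain ⟨x, hx⟩ := h
        exact ⟨⟨x, by rwa [QuadraticMap.polar_comm]⟩, x, hx⟩
      by_contra! h
      exact hv (hL (by
        rw [map_zero]
        refine hS _ (hmem v) fun y hy => ?_
        have := h (b.equivFun ⟨y, hy⟩)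
        rw [hp] at this
        simpa [L] using this))
  obtain ⟨x, -, hx0, hx⟩ := CfsgLib.Classical.exists_sing hN ⊤ (by rwa [finrank_top, Module.finrank_fintype_fun_eq_card, Fintype.card_fin])
  exact ⟨L x, hmem x, fun e => hx0 (hL (e.trans L.map_zero.symm)), hx⟩

/-- Splitting off a hyperbolic pair at a singular vector. -/
theorem exists_pair [FiniteDimensional F V] {S : Submodule F V} (hS : NdP Q S) {x : V} (hx : x ∈ S) (hx0 : x ≠ 0) (hQx : Q x = 0) :
    ∃ e f : V, e ∈ S ∧ f ∈ S ∧ Q e = 0 ∧ Q f = 0 ∧ polar (⇑Q) e f = 1 ∧ NdP Q (cut Q S e f) ∧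
      Module.finrank F (cut Q S e f) + 2 = Module.finrank F S := by
  obtain ⟨y, hy, hxy⟩ : ∃ y ∈ S, polar (⇑Q) x y ≠ 0 := by
    by_contra! h; exact hx0 (hS x hx h)
  obtain ⟨z, hxz, hzS⟩ : ∃ z, polar (⇑Q) x z = 1 ∧ z ∈ S :=
    ⟨(polar (⇑Q) x y)⁻¹ • y, by rw [polar_smul_right, smul_eq_mul, inv_mul_cancel₀ hxy], S.smul_mem _ hy⟩
  set f := z + (- Q z) • x with hf
  have hfS : f ∈ S := S.add_mem hzS (S.smul_mem _ hx)
  have hxx : polar (⇑Q) x x = 0 := by rw [polar_self', hQx, mul_zero]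
  have hxf : polar (⇑Q) x f = 1 := by
    rw [hf, polar_add_right, polar_smul_right, hxx, hxz, smul_zero, add_zero]
  have hQf : Q f = 0 := by
    rw [hf, QuadraticMap.map_add (⇑Q), QuadraticMap.map_smul, hQx, polar_smul_right, QuadraticMap.polar_comm _ z x, hxz]
    simp
  have hff : polar (⇑Q) f f = 0 := by rw [polar_self', hQf, mul_zero]
  have hfx : polar (⇑Q) f x = 1 := by rw [QuadraticMap.polar_comm, hxf]
  have hproj : ∀ w ∈ S, w + (- polar (⇑Q) f w) • x + (- polar (⇑Q) x w) • f ∈ cut Q S x f := fun w hw => by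
    refine mem_cut.2 ⟨S.add_mem (S.add_mem hw (S.smul_mem _ hx)) (S.smul_mem _ hfS), ?_, ?_⟩ <;>
      simp [polar_add_right, polar_smul_right, hxx, hxf, hfx, hff]
  refine ⟨x, f, hx, hfS, hQx, hQf, hxf, fun u hu h => ?_, ?_⟩
  · obtain ⟨huS, hux, huf⟩ := mem_cut.1 hu
    refine hS u huS fun w hw => ?_
    have := h _ (hproj w hw)
    simpa [polar_add_right, polar_smul_right, QuadraticMap.polar_comm _ u x, hux, QuadraticMap.polar_comm _ u f, huf] using this
  · let T : S →ₗ[F] (F × F) := ((Q.polarBilin x).prod (Q.polarBilin f)).comp S.subtype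
    have hT : LinearMap.range T = ⊤ := LinearMap.range_eq_top.2 fun p => ⟨⟨p.1 • f + p.2 • x, S.add_mem (S.smul_mem _ hfS) (S.smul_mem _ hx)⟩, by
      refine Prod.ext ?_ ?_
      · show polar (⇑Q) x (p.1 • f + p.2 • x) = p.1
        simp [polar_add_right, polar_smul_right, hxx, hxf]
      · show polar (⇑Q) f (p.1 • f + p.2 • x) = p.2
        simp [polar_add_right, polar_smul_right, hff, hfx]⟩
    have h1 := LinearMap.finrank_range_add_finrank_ker T
    rw [hT, finrank_top, Module.finrank_prod, Module.finrank_self] at h1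
    have h2 : (LinearMap.ker T).map S.subtype = cut Q S x f := by
      ext w
      constructor
      · rintro ⟨w, hw, rfl⟩
        exact ⟨w.2, (Prod.ext_iff.1 (LinearMap.mem_ker.1 hw)).1, (Prod.ext_iff.1 (LinearMap.mem_ker.1 hw)).2⟩
      · rintro ⟨hw, h1, h2⟩
        exact ⟨⟨w, hw⟩, LinearMap.mem_ker.2 (Prod.ext h1 h2), rfl⟩
    rw [← h2, (Submodule.equivMapOfInjective S.subtype S.injective_subtype (LinearMap.ker T)).symm.finrank_eq]
    omega

/-- A family of hyperbolic pairs in `S` with orthogonal remainder `R`. -/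
def IsDecomp (S : Submodule F V) {j : ℕ} (e f : Fin j → V) (R : Submodule F V) : Prop :=
  R ≤ S ∧ NdP Q R ∧ (∀ i, e i ∈ S ∧ f i ∈ S) ∧ (∀ i, Q (e i) = 0 ∧ Q (f i) = 0) ∧
    (∀ i k, polar (⇑Q) (e i) (f k) = if i = k then 1 else 0) ∧
    (∀ i k, polar (⇑Q) (e i) (e k) = 0 ∧ polar (⇑Q) (f i) (f k) = 0) ∧
    ∀ i, ∀ r ∈ R, polar (⇑Q) (e i) r = 0 ∧ polar (⇑Q) (f i) r = 0

theorem decomp_cons {S : Submodule F V} {e₀ f₀ : V} (he : e₀ ∈ S) (hf : f₀ ∈ S) (hQe : Q e₀ = 0) (hQf : Q f₀ = 0)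
    (hef : polar (⇑Q) e₀ f₀ = 1) {j : ℕ} {e f : Fin j → V} {R : Submodule F V} (h : IsDecomp (Q := Q) (cut Q S e₀ f₀) e f R) :
    IsDecomp (Q := Q) S (Fin.cons e₀ e : Fin (j + 1) → V) (Fin.cons f₀ f) R := by
  obtain ⟨hR, hNd, hm, hs, hp, hz, ho⟩ := h
  have hee : polar (⇑Q) e₀ e₀ = 0 := by rw [polar_self', hQe, mul_zero]
  have hff : polar (⇑Q) f₀ f₀ = 0 := by rw [polar_self', hQf, mul_zero]
  have me : ∀ i, polar (⇑Q) e₀ (e i) = 0 ∧ polar (⇑Q) f₀ (e i) = 0 := fun i => (mem_cut.1 (hm i).1).2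
  have mf : ∀ i, polar (⇑Q) e₀ (f i) = 0 ∧ polar (⇑Q) f₀ (f i) = 0 := fun i => (mem_cut.1 (hm i).2).2
  refine ⟨fun r hr => (mem_cut.1 (hR hr)).1, hNd, ?_, ?_, ?_, ?_, ?_⟩
  · exact Fin.cases ⟨he, hf⟩ (fun i => ⟨(mem_cut.1 (hm i).1).1, (mem_cut.1 (hm i).2).1⟩)
  · exact Fin.cases ⟨hQe, hQf⟩ hs
  · intro i k
    refine Fin.cases ?_ (fun i => ?_) i <;> refine Fin.cases ?_ (fun k => ?_) k
    · simp [hef]
    · simp [(mf k).1, (Fin.succ_ne_zero k).symm]
    · simp [QuadraticMap.polar_comm _ (e i) f₀, (me i).2, Fin.succ_ne_zero i]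
    · simpa using hp i k
  · intro i k
    refine Fin.cases ?_ (fun i => ?_) i <;> refine Fin.cases ?_ (fun k => ?_) k
    · simp [hee, hff]
    · simp [(me k).1, (mf k).2]
    · simp [QuadraticMap.polar_comm _ (e i) e₀, (me i).1, QuadraticMap.polar_comm _ (f i) f₀, (mf i).2]
    · simpa using hz i k
  · exact Fin.cases (fun r hr => (mem_cut.1 (hR hr)).2) ho

theorem exists_decomp [Finite F] [FiniteDimensional F V] : ∀ (j r : ℕ), 1 ≤ r → ∀ S : Submodule F V, NdP Q S →
    Module.finrank F S = 2 * j + r →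
    ∃ (e f : Fin j → V) (R : Submodule F V), IsDecomp (Q := Q) S e f R ∧ Module.finrank F R = r := by
  intro j
  induction j with
  | zero =>
    intro r _ S hS h
    refine ⟨Fin.elim0, Fin.elim0, S, ⟨le_rfl, hS, fun i => i.elim0, fun i => i.elim0, fun i => i.elim0, fun i => i.elim0, fun i => i.elim0⟩, by omega⟩
  | succ j ih =>
    intro r hr S hS h
    obtain ⟨x, hx, hx0, hQx⟩ := exists_singular hS (by omega)
    obtain ⟨e₀, f₀, he, hf, hQe, hQf, hef, hNd, hd⟩ := exists_pair hS hx hx0 hQx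
    obtain ⟨e, f, R, hdec, hRr⟩ := ih r hr _ hNd (by omega)
    exact ⟨_, _, R, decomp_cons he hf hQe hQf hef hdec, hRr⟩

theorem IsDecomp.independent {S : Submodule F V} {j : ℕ} {e f : Fin j → V} {R : Submodule F V}
    (h : IsDecomp (Q := Q) S e f R) {κ : Type*} {w : κ → V} (hw : ∀ k, w k ∈ R) (hwi : LinearIndependent F w) :
    LinearIndependent F (Sum.elim (Sum.elim e f) w) := by
  classical
  obtain ⟨-, -, -, -, hp, hz, ho⟩ := h
  have hef : LinearIndependent F (Sum.elim e f) := by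
    refine Fintype.linearIndependent_iff.2 fun g hg => ?_
    rw [Fintype.sum_sum_type] at hg
    rintro (i | i)
    · have := congrArg (Q.polarBilin (f i)) hg
      simp only [map_add, map_sum, map_smul, map_zero] at this
      simpa [QuadraticMap.polar_comm _ (f i) (e _), hp, (hz _ _).2] using this
    · have := congrArg (Q.polarBilin (e i)) hg
      simp only [map_add, map_sum, map_smul, map_zero] at this
      simpa [hp, (hz _ _).1] using this
  refine hef.sum_type hwi (Submodule.disjoint_def.2 fun x hx hx' => ?_)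
  have hxR : x ∈ R := (Submodule.span_le.2 (Set.range_subset_iff.2 hw)) hx'
  rw [Submodule.mem_span_range_iff_exists_fun] at hx
  obtain ⟨g, rfl⟩ := hx
  refine Finset.sum_eq_zero fun k _ => ?_
  rcases k with i | i
  · have := (ho i _ hxR).2
    have hc : g (Sum.inl i) = 0 := by
      rw [← QuadraticMap.polarBilin_apply_apply, map_sum] at this
      simp only [map_smul] at this
      simpa [Fintype.sum_sum_type, QuadraticMap.polar_comm _ (f i) (e _), hp, (hz _ _).2] using this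
    simp [hc]
  · have := (ho i _ hxR).1
    have hc : g (Sum.inr i) = 0 := by
      rw [← QuadraticMap.polarBilin_apply_apply, map_sum] at this
      simp only [map_smul] at this
      simpa [Fintype.sum_sum_type, hp, (hz _ _).1] using this
    simp [hc]

theorem decomp_snoc {S : Submodule F V} {j : ℕ} {e f : Fin j → V} {R : Submodule F V} (h : IsDecomp (Q := Q) S e f R)
    {e₀ f₀ : V} (he : e₀ ∈ R) (hf : f₀ ∈ R) (hQe : Q e₀ = 0) (hQf : Q f₀ = 0)
    (hef : polar (⇑Q) e₀ f₀ = 1) (hN : NdP Q (cut Q R e₀ f₀)) :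
    IsDecomp (Q := Q) S (Fin.snoc e e₀ : Fin (j + 1) → V) (Fin.snoc f f₀) (cut Q R e₀ f₀) := by
  obtain ⟨hR, hNd, hm, hs, hp, hz, ho⟩ := h
  have hee : polar (⇑Q) e₀ e₀ = 0 := by rw [polar_self', hQe, mul_zero]
  have hff : polar (⇑Q) f₀ f₀ = 0 := by rw [polar_self', hQf, mul_zero]
  refine ⟨fun r hr => hR (mem_cut.1 hr).1, hN, ?_, ?_, ?_, ?_, ?_⟩
  · exact Fin.lastCases (by simpa using ⟨hR he, hR hf⟩) (fun i => by simpa using hm i)
  · exact Fin.lastCases (by simpa using ⟨hQe, hQf⟩) (fun i => by simpa using hs i)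
  · intro i k
    refine Fin.lastCases ?_ (fun i => ?_) i <;> refine Fin.lastCases ?_ (fun k => ?_) k
    · simp [hef]
    · simp [QuadraticMap.polar_comm _ e₀ (f k), (ho k _ he).2, (Fin.castSucc_lt_last k).ne']
    · simp [(ho i _ hf).1, (Fin.castSucc_lt_last i).ne]
    · simpa using hp i k
  · intro i k
    refine Fin.lastCases ?_ (fun i => ?_) i <;> refine Fin.lastCases ?_ (fun k => ?_) k
    · simp [hee, hff]
    · simp [QuadraticMap.polar_comm _ e₀ (e k), (ho k _ he).1, QuadraticMap.polar_comm _ f₀ (f k), (ho k _ hf).2]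
    · simp [(ho i _ he).1, (ho i _ hf).2]
    · simpa using hz i k
  · exact Fin.lastCases (fun r hr => by simpa using (mem_cut.1 hr).2) (fun i r hr => by simpa using ho i r (mem_cut.1 hr).1)

theorem exists_anisotropic_pair [Finite F] {R : Submodule F V} (hN : NdP Q R) (hR : Module.finrank F R = 2)
    (han : ∀ x ∈ R, x ≠ 0 → Q x ≠ 0) :
    ∃ v w : V, v ∈ R ∧ w ∈ R ∧ Q v = 1 ∧ polar (⇑Q) v w = 1 ∧ LinearIndependent F ![v, w] ∧
      ∀ t : F, t ^ 2 + t + Q w ≠ 0 := by
  classical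
  haveI := Fintype.ofFinite F
  have hout : ∀ x : V, ∃ y ∈ R, y ∉ Submodule.span F {x} := by
    intro x
    by_contra! h
    have h1 : R ≤ Submodule.span F {x} := h
    have h2 := Submodule.finrank_mono h1
    have h3 : Module.finrank F (Submodule.span F ({x} : Set V)) ≤ 1 := (finrank_span_le_card _).trans (by simp)
    omega
  obtain ⟨v, hv, hQv⟩ : ∃ v ∈ R, Q v = 1 := by
    obtain ⟨x, hx, hx'⟩ := hout 0
    have hx0 : x ≠ 0 := fun e => hx' (by rw [e]; exact Submodule.zero_mem _)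
    have ha := han x hx hx0
    by_cases h2 : ringChar F = 2
    · obtain ⟨c, hc⟩ := FiniteField.isSquare_of_char_two h2 (Q x)⁻¹
      exact ⟨c • x, R.smul_mem _ hx, by rw [QuadraticMap.map_smul, smul_eq_mul, ← hc, inv_mul_cancel₀ ha]⟩
    · have h20 : (2 : F) ≠ 0 := Ring.two_ne_zero h2
      obtain ⟨y, hy, hy'⟩ := hout x
      set z := y + (- polar (⇑Q) x y / (2 * Q x)) • x with hz
      have hzR : z ∈ R := R.add_mem hy (R.smul_mem _ hx)
      have hz0 : z ≠ 0 := by
        intro e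
        apply hy'
        rw [hz, add_eq_zero_iff_eq_neg] at e
        rw [e]
        exact neg_mem (Submodule.smul_mem _ _ (Submodule.mem_span_singleton_self x))
      have hxz : polar (⇑Q) x z = 0 := by
        rw [hz, polar_add_right, polar_smul_right, polar_self', smul_eq_mul, div_mul_cancel₀ _ (mul_ne_zero h20 ha), add_neg_cancel]
      obtain ⟨s, t, hst⟩ := FiniteField.exists_root_sum_quadratic (f := Polynomial.C (Q x) * Polynomial.X ^ 2)
        (g := Polynomial.C (Q z) * Polynomial.X ^ 2 - Polynomial.C 1)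
        (Polynomial.degree_C_mul_X_pow 2 ha)
        (by rw [Polynomial.degree_sub_C (by rw [Polynomial.degree_C_mul_X_pow 2 (han z hzR hz0)]; norm_num),
          Polynomial.degree_C_mul_X_pow 2 (han z hzR hz0)]; norm_num)
        (FiniteField.odd_card_of_char_ne_two h2)
      refine ⟨s • x + t • z, R.add_mem (R.smul_mem _ hx) (R.smul_mem _ hzR), ?_⟩
      simp only [Polynomial.eval_sub, Polynomial.eval_mul, Polynomial.eval_pow, Polynomial.eval_C, Polynomial.eval_X] at hst
      rw [QuadraticMap.map_add (⇑Q), polar_smul_left, polar_smul_right, hxz, smul_zero, smul_zero, add_zero, QuadraticMap.map_smul, QuadraticMap.map_smul, smul_eq_mul, smul_eq_mul]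
      linear_combination hst
  have hv0 : v ≠ 0 := fun e => one_ne_zero (by rw [← hQv, e, QuadraticMap.map_zero] : (1 : F) = 0)
  obtain ⟨y₀, hy₀, hvy⟩ : ∃ y₀ ∈ R, polar (⇑Q) v y₀ = 1 := by
    obtain ⟨y, hy, hne⟩ : ∃ y ∈ R, polar (⇑Q) v y ≠ 0 := by
      by_contra! h; exact hv0 (hN v hv h)
    exact ⟨(polar (⇑Q) v y)⁻¹ • y, R.smul_mem _ hy, by rw [polar_smul_right, smul_eq_mul, inv_mul_cancel₀ hne]⟩
  obtain ⟨w, hw, hvw, hwv⟩ : ∃ w ∈ R, polar (⇑Q) v w = 1 ∧ w ∉ Submodule.span F {v} := by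
    by_cases h : y₀ ∈ Submodule.span F {v}
    · obtain ⟨y, hy, hy'⟩ := hout v
      refine ⟨y₀ + (y + (- polar (⇑Q) v y) • y₀), R.add_mem hy₀ (R.add_mem hy (R.smul_mem _ hy₀)), ?_, fun hh => hy' ?_⟩
      · simp [polar_add_right, polar_smul_right, hvy]
      · have := sub_mem (sub_mem hh h) (Submodule.smul_mem _ (- polar (⇑Q) v y) h)
        simpa using this
    · exact ⟨y₀, hy₀, hvy, h⟩
  refine ⟨v, w, hv, hw, hQv, hvw, ?_, fun t ht => ?_⟩
  · rw [LinearIndependent.pair_iff' hv0]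
    exact fun a e => hwv (Submodule.mem_span_singleton.2 ⟨a, e⟩)
  · refine han (t • v + w) (R.add_mem (R.smul_mem _ hv) hw) (fun e => hwv ?_) ?_
    · rw [add_eq_zero_iff_eq_neg'] at e
      rw [e]
      exact neg_mem (Submodule.smul_mem _ _ (Submodule.mem_span_singleton_self v))
    · rw [QuadraticMap.map_add (⇑Q), polar_smul_left, hvw, QuadraticMap.map_smul, hQv]
      simp only [smul_eq_mul, mul_one]
      linear_combination ht

theorem ndP_top (h : Q.polarBilin.Nondegenerate) : NdP Q (⊤ : Submodule F V) :=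
  fun x _ hx => h.1 x fun y => hx y trivial

end CfsgLib.QuadBasis
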