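import Cfsg.Agent.Lib.ClassicalSpinorFacts

/-! The subgroup of an orthogonal group generated by the reflections of one class. -/

set_option autoImplicit false

namespace CfsgLib.ReflClass

open Matrix CfsgLib.Classical

attribute [local instance] _root_.Classical.propDecidable

variable {ι : Type} [Fintype ι] [DecidableEq ι] {F : Type*} [Field F] [Fintype F] {Q : (ι → F) → F}
variable (hQ : Cfsg.Geo.IsNondegenerateQuadraticForm Q) (h2 : (2 : F) ≠ 0)
include hQ h2

local notation "pf" => QuadraticMap.polar Q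

/-- a non-singular vector orthogonal to a small subspace which contains one -/
lemma exists_nonsing_perp (S : Submodule F (ι → F)) (h : 2 * Module.finrank F S ≤ Fintype.card ι)
    {v : ι → F} (hv : v ∈ S) (hQv : Q v ≠ 0) : ∃ a, (∀ s ∈ S, pf a s = 0) ∧ Q a ≠ 0 := by
  by_contra! h0
  have hle : qorth hQ S ≤ S := fun x hx => by
    rw [← qorth_qorth hQ S, mem_qorth hQ]
    intro s hs
    have hxQ := h0 x ((mem_qorth hQ).mp hx)
    have hsQ := h0 s ((mem_qorth hQ).mp hs)
    have hxs := h0 (x + s) ((mem_qorth hQ).mp (add_mem hx hs))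
    rw [q_add hQ, hxQ, hsQ, zero_add, zero_add] at hxs
    exact hxs
  have hd := finrank_qorth hQ S
  have := Submodule.finrank_mono hle
  have heq : qorth hQ S = S := Submodule.eq_of_le_of_finrank_eq hle (by omega)
  exact hQv (h0 v ((mem_qorth hQ).mp (heq.symm ▸ hv)))

variable (c : F) (hc : c ≠ 0) (N : Subgroup ↥(Cfsg.isometryGroup F Q))
  (hN : ∀ d (hd : Q d ≠ 0), IsSquare (Q d / c) → rI hQ d hd ∈ N)
include hc hN

/-- a rotation of a non-degenerate plane is a product of two reflections of the class `c` -/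
lemma mem_of_plane {d : F} {v w : ι → F} (hv : Q v = d) (hw : Q w = d) (hd : d ≠ 0)
    (hne : pf v w * pf v w ≠ 4 * d * d) :
    rI hQ v (hv.symm ▸ hd) * rI hQ w (hw.symm ▸ hd) ∈ N := by
  set s := pf v w / (2 * d) with hs
  set v' := w - s • v with hv'
  have hvv' : pf v v' = 0 := by
    rw [hv', pf_sub_right hQ, hQ.polar_bilinear.smul_right, pf_self hQ, hv, hs,
      div_mul_cancel₀ _ (mul_ne_zero h2 hd), sub_self]
  have hw' : w = s • v + v' := by rw [hv']; abel
  set e := (1 - s * s) with he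
  have hv'Q : Q v' = d * e := by
    have h := hw
    rw [hw', q_add hQ, hQ.smul, hQ.polar_bilinear.smul_left, hvv', hv, mul_zero, add_zero] at h
    rw [he]; linear_combination h
  have he0 : e ≠ 0 := fun h0 => hne (by
    rw [he, hs] at h0
    field_simp at h0
    linear_combination -h0)
  obtain ⟨α, β, hab⟩ := binary_universal h2 one_ne_zero he0 (c / d)
  have hab' : α * α + e * (β * β) = c / d := by linear_combination hab
  set a := α • v + β • v' with hadef
  set b := (α * s - e * β) • v + (α + β * s) • v' with hbdef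
  have hQc : ∀ x y : F, Q (x • v + y • v') = d * (x * x + e * (y * y)) := fun x y => by
    rw [q_add hQ, hQ.smul, hQ.smul, hQ.polar_bilinear.smul_left, hQ.polar_bilinear.smul_right, hvv', hv, hv'Q]
    ring
  have hQa : Q a = c := by rw [hadef, hQc, hab', mul_div_cancel₀ _ hd]
  have hQb : Q b = c := by
    rw [hbdef, hQc, ← mul_div_cancel₀ c hd, ← hab', he]; ring
  have hsq : IsSquare (c / c) := by rw [div_self hc]; exact IsSquare.one
  have hamem := hN a (hQa.symm ▸ hc) (by rw [hQa]; exact hsq)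
  have hbmem := hN b (hQb.symm ▸ hc) (by rw [hQb]; exact hsq)
  suffices heq : rI hQ v (hv.symm ▸ hd) * rI hQ w (hw.symm ▸ hd) =
      rI hQ a (hQa.symm ▸ hc) * rI hQ b (hQb.symm ▸ hc) by
    rw [heq]; exact mul_mem hamem hbmem
  have hqa : Q a ≠ 0 := hQa.symm ▸ hc
  have hqb : Q b ≠ 0 := hQb.symm ▸ hc
  have hqv : Q v ≠ 0 := hv.symm ▸ hd
  have hqw : Q w ≠ 0 := hw.symm ▸ hd
  suffices h3 : rI hQ a hqa * (rI hQ v hqv * rI hQ w hqw) = rI hQ b hqb by
    rw [← h3, ← mul_assoc, rI_sq hQ hqa, one_mul]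
  refine Subtype.ext (gl_ext_mulVec fun x => ?_)
  show ((qR hQ a * (qR hQ v * qR hQ w) : GL ι F) : Matrix ι ι F) *ᵥ x = (qR hQ b : Matrix ι ι F) *ᵥ x
  rw [Units.val_mul, Units.val_mul, ← mulVec_mulVec, ← mulVec_mulVec, qR_mulVec hQ hqw, qR_mulVec hQ hqv,
    qR_mulVec hQ hqa, qR_mulVec hQ hqb, hv, hw, hQa, hQb]
  have hvvf : pf v v = 2 * d := by rw [pf_self hQ, hv]
  have hv'v' : pf v' v' = 2 * (d * e) := by rw [pf_self hQ, hv'Q]
  have hv'v : pf v' v = 0 := by rw [pf_comm hQ]; exact hvv'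
  rw [hw', hadef, hbdef]
  simp only [pf_sub_left hQ, hQ.polar_bilinear.smul_left, hQ.polar_bilinear.smul_right,
    hQ.polar_bilinear.add_right, hQ.polar_bilinear.add_left, hvvf, hv'v', hv'v, hvv']
  set p := pf x v
  set p' := pf x v'
  have hcd : c = d * (α * α + e * (β * β)) := by rw [hab', mul_div_cancel₀ _ hd]
  have hN0 : α * α + e * (β * β) ≠ 0 := by rw [hab']; exact div_ne_zero hc hd
  funext i
  simp only [Pi.sub_apply, Pi.smul_apply, Pi.add_apply, smul_eq_mul]
  field_simp
  rw [hcd, he]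
  ring

/-- reflections of one value differ by an element of `N` -/
lemma mem_of_value (hn : Even (Fintype.card ι)) (h43 : ¬ (Fintype.card ι = 4 ∧ Fintype.card F = 3))
    {d : F} {v w : ι → F} (hv : Q v = d) (hw : Q w = d) (hd : d ≠ 0) :
    rI hQ v (hv.symm ▸ hd) * rI hQ w (hw.symm ▸ hd) ∈ N := by
  have hqv : Q v ≠ 0 := hv.symm ▸ hd
  have hqw : Q w ≠ 0 := hw.symm ▸ hd
  by_cases hne : pf v w * pf v w ≠ 4 * d * d
  · exact mem_of_plane hQ h2 c hc N hN hv hw hd hne
  push Not at hne
  -- normalise the sign of `w`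
  obtain ⟨w1, hw1, hrw, hB⟩ : ∃ w1, ∃ hw1 : Q w1 = d,
      rI hQ w hqw = rI hQ w1 (hw1.symm ▸ hd) ∧ pf v w1 = 2 * d := by
    have : (pf v w - 2 * d) * (pf v w + 2 * d) = 0 := by linear_combination hne
    rcases mul_eq_zero.mp this with h | h
    · exact ⟨w, hw, rfl, sub_eq_zero.mp h⟩
    · refine ⟨(-1 : F) • w, by rw [hQ.smul, hw]; ring,
        Subtype.ext (qR_smul hQ hqw (neg_ne_zero.mpr one_ne_zero)).symm, ?_⟩
      rw [hQ.polar_bilinear.smul_right]; linear_combination -h
  rw [hrw]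
  set z := w1 - v with hz
  by_cases hz0 : z = 0
  · have hwv : w1 = v := sub_eq_zero.mp hz0
    subst hwv
    rw [rI_sq hQ hqv]; exact one_mem N
  have hzv : pf z v = 0 := by rw [hz, pf_sub_left hQ, pf_comm hQ, hB, pf_self hQ, hv, sub_self]
  have hQz : Q z = 0 := by rw [hz, q_sub hQ, hw1, hv, pf_comm hQ, hB]; ring
  have hzz : pf z z = 0 := by rw [pf_self hQ, hQz, mul_zero]
  obtain ⟨y0, hy0⟩ := (hQ.nondegenerate z hz0).2
  obtain ⟨y1, hy1⟩ : ∃ y1, y1 = (pf z y0)⁻¹ • y0 := ⟨_, rfl⟩
  obtain ⟨y2, hy2⟩ : ∃ y2, y2 = y1 - (pf v y1 / (2 * d)) • v := ⟨_, rfl⟩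
  have hvy2 : pf v y2 = 0 := by
    rw [hy2, pf_sub_right hQ, hQ.polar_bilinear.smul_right, pf_self hQ, hv,
      div_mul_cancel₀ _ (mul_ne_zero h2 hd), sub_self]
  have hzy2 : pf z y2 = 1 := by
    rw [hy2, pf_sub_right hQ, hQ.polar_bilinear.smul_right, hzv, mul_zero, sub_zero, hy1,
      hQ.polar_bilinear.smul_right, inv_mul_cancel₀ hy0]
  obtain ⟨y, hy⟩ : ∃ y, y = y2 - Q y2 • z := ⟨_, rfl⟩
  have hvy : pf v y = 0 := by
    rw [hy, pf_sub_right hQ, hQ.polar_bilinear.smul_right, hvy2, pf_comm hQ v z, hzv, mul_zero, sub_zero]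
  have hzy : pf z y = 1 := by
    rw [hy, pf_sub_right hQ, hQ.polar_bilinear.smul_right, hzy2, hzz, mul_zero, sub_zero]
  have hQy : Q y = 0 := by
    rw [hy, q_sub hQ, hQ.smul, hQz, hQ.polar_bilinear.smul_right, pf_comm hQ y2 z, hzy2]; ring
  -- an intermediate vector
  suffices hu : ∃ u, Q u = d ∧ pf v u * pf v u ≠ 4 * d * d ∧ pf u w1 * pf u w1 ≠ 4 * d * d by
    obtain ⟨u, hQu, hvu, huw⟩ := hu
    have hqu : Q u ≠ 0 := hQu.symm ▸ hd
    have h1 := mem_of_plane hQ h2 c hc N hN hv hQu hd hvu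
    have h3 := mem_of_plane hQ h2 c hc N hN hQu hw1 hd huw
    have := mul_mem h1 h3
    rwa [mul_assoc, ← mul_assoc (rI hQ u hqu) (rI hQ u hqu), rI_sq hQ hqu, one_mul] at this
  have hw1' : w1 = v + z := by rw [hz]; abel
  have h4d : (4 : F) * d * d ≠ 0 := by
    have : (4 : F) = 2 * 2 := by norm_num
    rw [this]; exact mul_ne_zero (mul_ne_zero (mul_ne_zero h2 h2) hd) hd
  by_cases hq : 4 ≤ Fintype.card F
  · obtain ⟨γ, -, hγ⟩ := Finset.exists_mem_notMem_of_card_lt_card
      (s := ({0, 2 * d, -(2 * d)} : Finset F)) (t := Finset.univ)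
      (lt_of_le_of_lt Finset.card_le_three (by rw [Finset.card_univ]; omega))
    simp only [Finset.mem_insert, Finset.mem_singleton, not_or] at hγ
    obtain ⟨hγ0, hγ1, hγ2⟩ := hγ
    refine ⟨γ • y + (d / γ) • z, ?_, ?_, ?_⟩
    · rw [q_add hQ, hQ.smul, hQ.smul, hQy, hQz, hQ.polar_bilinear.smul_left, hQ.polar_bilinear.smul_right,
        pf_comm hQ y z, hzy]
      field_simp
      ring
    · rw [hQ.polar_bilinear.add_right, hQ.polar_bilinear.smul_right, hQ.polar_bilinear.smul_right, hvy,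
        pf_comm hQ v z, hzv, mul_zero, mul_zero, add_zero, mul_zero]
      exact fun h => h4d h.symm
    · rw [hw1', hQ.polar_bilinear.add_left, hQ.polar_bilinear.smul_left, hQ.polar_bilinear.smul_left,
        hQ.polar_bilinear.add_right, hQ.polar_bilinear.add_right, pf_comm hQ y v, hvy, pf_comm hQ y z, hzy, hzv, hzz]
      intro h
      have : (γ - 2 * d) * (γ + 2 * d) = 0 := by linear_combination h
      rcases mul_eq_zero.mp this with h | h
      · exact hγ1 (sub_eq_zero.mp h)
      · exact hγ2 (eq_neg_of_add_eq_zero_left h)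
  · -- three elements
    have hq3 : Fintype.card F = 3 := by
      have h1 := Fintype.one_lt_card (α := F)
      have h2' : Fintype.card F ≠ 2 := fun h => by
        have := FiniteField.odd_card_of_char_ne_two (F := F) (fun hr => h2 (by
          haveI := ringChar.of_eq hr
          exact CharTwo.two_eq_zero))
        omega
      omega
    let S := Submodule.span F ({v, z} : Set (ι → F))
    have hS2 : Module.finrank F S ≤ 2 := span_le_two v z
    have hvS : v ∈ S := Submodule.subset_span (by simp)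
    have hzS : z ∈ S := Submodule.subset_span (by simp)
    have hcard : 6 ≤ Fintype.card ι := by
      by_contra hlt
      obtain ⟨m, hm⟩ := hn
      have hm1 : 1 ≤ m := by
        by_contra h
        haveI : IsEmpty ι := Fintype.card_eq_zero_iff.mp (by omega)
        exact hz0 (funext fun i => isEmptyElim i)
      have hm2 : m ≠ 2 := fun h => h43 ⟨by omega, hq3⟩
      have hli : LinearIndependent F ![v, z] := by
        rw [LinearIndependent.pair_iff]
        intro s t hst
        have h1 : pf v (s • v + t • z) = 0 := by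
          rw [hst, pf_comm hQ]; exact f_zero_left hQ.polar_bilinear v
        rw [hQ.polar_bilinear.add_right, hQ.polar_bilinear.smul_right, hQ.polar_bilinear.smul_right,
          pf_self hQ, hv, pf_comm hQ v z, hzv, mul_zero, add_zero] at h1
        have hs : s = 0 := (mul_eq_zero.mp h1).resolve_right (mul_ne_zero h2 hd)
        rw [hs, zero_smul, zero_add, smul_eq_zero] at hst
        exact ⟨hs, hst.resolve_right hz0⟩
      have hsp := hli.span_eq_top_of_card_eq_finrank' (by rw [Module.finrank_pi, Fintype.card_fin]; omega)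
      obtain ⟨f, hf⟩ := (Submodule.mem_span_range_iff_exists_fun F).mp (hsp ▸ Submodule.mem_top (x := y))
      simp [Fin.sum_univ_two] at hf
      rw [← hf, hQ.polar_bilinear.add_right, hQ.polar_bilinear.smul_right, hQ.polar_bilinear.smul_right, hzv, hzz,
        mul_zero, mul_zero, add_zero] at hzy
      exact zero_ne_one hzy
    obtain ⟨x1, hx1, hQx1⟩ := exists_nonsing_perp hQ h2 S (by omega) hvS hqv
    obtain ⟨x2, hx2, hQx2⟩ := exists_nonsing_perp hQ h2 (S ⊔ Submodule.span F {x1}) (by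
      have := Submodule.finrank_add_le_finrank_add_finrank S (Submodule.span F {x1})
      have := span_le_one (F := F) x1
      omega) (Submodule.mem_sup_left hvS) hqv
    obtain ⟨s, t, hst⟩ := binary_universal h2 hQx1 hQx2 d
    have hx21 : pf x1 x2 = 0 := by
      rw [pf_comm hQ]; exact hx2 x1 (Submodule.mem_sup_right (Submodule.mem_span_singleton_self x1))
    have hperp : ∀ r ∈ S, pf (s • x1 + t • x2) r = 0 := fun r hr => by
      rw [hQ.polar_bilinear.add_left, hQ.polar_bilinear.smul_left, hQ.polar_bilinear.smul_left, hx1 r hr,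
        hx2 r (Submodule.mem_sup_left hr), mul_zero, mul_zero, add_zero]
    refine ⟨s • x1 + t • x2, ?_, ?_, ?_⟩
    · rw [q_add hQ, hQ.smul, hQ.smul, hQ.polar_bilinear.smul_left, hQ.polar_bilinear.smul_right, hx21]
      linear_combination hst
    · rw [pf_comm hQ v, hperp v hvS, mul_zero]
      exact h4d.symm
    · rw [hw1', hperp _ (add_mem hvS hzS), mul_zero]
      exact h4d.symm

omit hN in
/-- the closure of one class of reflections has index two -/
theorem index_closure (hn : Even (Fintype.card ι)) (hn2 : 2 ≤ Fintype.card ι)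
    (h43 : ¬ (Fintype.card ι = 4 ∧ Fintype.card F = 3))
    (S : Set ↥(Cfsg.isometryGroup F Q))
    (hS : ∀ g, g ∈ S ↔ ∃ d, ∃ hd : Q d ≠ 0, IsSquare (Q d / c) ∧ g = rI hQ d hd) :
    (Subgroup.closure S).index = 2 := by
  set N := Subgroup.closure S
  have hN : ∀ d (hd : Q d ≠ 0), IsSquare (Q d / c) → rI hQ d hd ∈ N := fun d hd h =>
    Subgroup.subset_closure ((hS _).mpr ⟨d, hd, h, rfl⟩)
  have hchar : ringChar F ≠ 2 := fun h => h2 (by
    haveI := ringChar.of_eq h
    exact CharTwo.two_eq_zero)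
  obtain ⟨ν, hν⟩ := FiniteField.exists_nonsquare hchar
  have hν0 : ν ≠ 0 := fun h => hν ⟨0, by simp [h]⟩
  obtain ⟨u₀, hu₀⟩ := exists_value hQ h2 hn2 (c * ν)
  have hu₀0 : Q u₀ ≠ 0 := by rw [hu₀]; exact mul_ne_zero hc hν0
  have hu₀ns : ¬ IsSquare (Q u₀ / c) := by rwa [hu₀, mul_div_cancel_left₀ _ hc]
  have hcard2 : Nat.card F ≠ 2 ∨ Fintype.card ι ≠ 4 := Or.inl fun h => by
    rw [Nat.card_eq_fintype_card] at h
    have := FiniteField.odd_card_of_char_ne_two (F := F) hchar
    omega
  -- every other reflection lies in the coset of `r₀`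
  set r₀ := rI hQ u₀ hu₀0
  have hcoset : ∀ d (hd : Q d ≠ 0), rI hQ d hd ∈ N ∨ r₀ * rI hQ d hd ∈ N := fun d hd => by
    by_cases h : IsSquare (Q d / c)
    · exact Or.inl (hN d hd h)
    · right
      obtain ⟨t, ht⟩ : IsSquare (Q u₀ / Q d) := by
        rw [show Q u₀ / Q d = (Q u₀ / c) / (Q d / c) by field_simp]
        rw [FiniteField.isSquare_iff hchar (div_ne_zero (div_ne_zero hu₀0 hc) (div_ne_zero hd hc)), div_pow,
          (FiniteField.pow_dichotomy hchar (div_ne_zero hu₀0 hc)).resolve_left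
            (fun h' => hu₀ns ((FiniteField.isSquare_iff hchar (div_ne_zero hu₀0 hc)).mpr h')),
          (FiniteField.pow_dichotomy hchar (div_ne_zero hd hc)).resolve_left
            (fun h' => h ((FiniteField.isSquare_iff hchar (div_ne_zero hd hc)).mpr h')),
          div_self (neg_ne_zero.mpr one_ne_zero)]
      have ht0 : t ≠ 0 := fun h => by rw [h, mul_zero, div_eq_zero_iff] at ht; exact ht.elim hu₀0 hd
      have htd : Q (t • d) = Q u₀ := by rw [hQ.smul, sq, ← ht, div_mul_cancel₀ _ hd]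
      have heq : rI hQ d hd = rI hQ (t • d) (htd.symm ▸ hu₀0) := Subtype.ext (qR_smul hQ hd ht0).symm
      rw [heq]
      exact mem_of_value hQ h2 c hc N hN hn h43 (d := Q u₀) rfl htd hu₀0
  have hr₀ : r₀ * r₀ = 1 := rI_sq hQ hu₀0
  haveI hNn : N.Normal := by
    refine Subgroup.Normal.mk fun g hg k => ?_
    have hle : N ≤ N.comap (MulAut.conj k).toMonoidHom := (Subgroup.closure_le _).mpr fun g hg => by
      obtain ⟨d, hd, hsq, rfl⟩ := (hS g).mp hg
      refine Subgroup.subset_closure ((hS _).mpr ⟨(k : GL ι F).1 *ᵥ d, ?_, ?_, ?_⟩)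
      · rw [iso_Q k.2]; exact hd
      · rw [iso_Q k.2]; exact hsq
      · exact Subtype.ext (conj_qR hQ k.2 hd)
    exact hle hg
  let T : Subgroup ↥(Cfsg.isometryGroup F Q) :=
    { carrier := {g | g ∈ N ∨ r₀ * g ∈ N}
      one_mem' := Or.inl (one_mem N)
      mul_mem' := fun {a b} ha hb => by
        rcases ha with ha | ha <;> rcases hb with hb | hb
        · exact Or.inl (mul_mem ha hb)
        · right
          have := mul_mem (hNn.conj_mem a ha r₀) hb
          rw [inv_eq_of_mul_eq_one_right hr₀] at this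
          rwa [mul_assoc (r₀ * a), ← mul_assoc r₀ r₀, hr₀, one_mul, mul_assoc] at this
        · right; rw [← mul_assoc]; exact mul_mem ha hb
        · left
          have h1 := hNn.conj_mem _ ha r₀
          rw [inv_eq_of_mul_eq_one_right hr₀, ← mul_assoc r₀ r₀, hr₀, one_mul] at h1
          have := mul_mem h1 hb
          rwa [mul_assoc a, ← mul_assoc r₀, hr₀, one_mul] at this
      inv_mem' := fun {a} ha => by
        rcases ha with ha | ha
        · exact Or.inl (inv_mem ha)
        · right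
          have := hNn.conj_mem _ (inv_mem ha) r₀
          rwa [_root_.mul_inv_rev, inv_eq_of_mul_eq_one_right hr₀, mul_assoc r₀, mul_assoc a⁻¹, hr₀, mul_one] at this }
  have hT : ∀ g, g ∈ T := fun g => by
    have hle : Subgroup.closure (reflSet hQ) ≤ T := (Subgroup.closure_le _).mpr (by
      rintro _ ⟨d, hd, rfl⟩; exact hcoset d hd)
    rw [closure_reflSet hQ hcard2] at hle
    exact hle (Subgroup.mem_top g)
  -- a character separating the classes
  obtain ⟨θ, hθ⟩ := exists_spinor hQ h2 hn2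
  obtain ⟨D, hD⟩ := exists_dickson hQ hcard2
  obtain ⟨χ, hχ⟩ : ∃ χ : ↥(Cfsg.isometryGroup F Q) →* ℤˣ,
      ∀ d (hd : Q d ≠ 0), χ (rI hQ d hd) = 1 ↔ IsSquare (Q d / c) := by
    by_cases hcs : IsSquare c
    · refine ⟨θ, fun d hd => ?_⟩
      have h1 : IsSquare (Q d / c) ↔ IsSquare (Q d) := by
        obtain ⟨r, rfl⟩ := hcs
        constructor
        · rintro ⟨t, ht⟩; exact ⟨t * r, by rw [div_eq_iff hc] at ht; linear_combination ht⟩
        · rintro ⟨t, ht⟩; exact ⟨t / r, by rw [ht]; field_simp⟩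
      rw [h1]
      rcases Int.units_eq_one_or (θ (rI hQ d hd)) with h | h
      · simp only [h, true_iff]
        by_contra hns
        rw [(hθ d hd).mpr hns] at h
        exact absurd h (by decide)
      · simp only [h]
        exact iff_of_false (by decide) ((hθ d hd).mp h)
    · refine ⟨θ * D, fun d hd => ?_⟩
      rw [MonoidHom.mul_apply, hD d hd]
      have h1 : IsSquare (Q d / c) ↔ ¬ IsSquare (Q d) := by
        have e1 := (FiniteField.pow_dichotomy hchar hc).resolve_left
          (fun h' => hcs ((FiniteField.isSquare_iff hchar hc).mpr h'))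
        rw [FiniteField.isSquare_iff hchar (div_ne_zero hd hc), FiniteField.isSquare_iff hchar hd, div_pow, e1]
        rcases FiniteField.pow_dichotomy hchar hd with e | e <;> rw [e]
        · simp [div_neg, Ring.neg_one_ne_one_of_char_ne_two hchar]
        · simp [Ring.neg_one_ne_one_of_char_ne_two hchar]
      rw [h1, ← hθ d hd]
      rcases Int.units_eq_one_or (θ (rI hQ d hd)) with h | h <;> simp [h]
  have hle : N ≤ χ.ker := (Subgroup.closure_le _).mpr fun g hg => by
    obtain ⟨d, hd, hsq, rfl⟩ := (hS g).mp hg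
    exact MonoidHom.mem_ker.mpr ((hχ d hd).mpr hsq)
  have hr₀N : r₀ ∉ N := fun h => hu₀ns ((hχ u₀ hu₀0).mp (MonoidHom.mem_ker.mp (hle h)))
  rw [Subgroup.index_eq_two_iff]
  refine ⟨r₀, fun b => ?_⟩
  rcases hT b with h | h
  · refine Or.inr ⟨h, fun h' => hr₀N ?_⟩
    have := mul_mem (inv_mem h) h'
    rwa [← mul_assoc, inv_mul_cancel, one_mul] at this
  · have hb : b * r₀ ∈ N := by
      have := hNn.conj_mem _ h r₀
      rwa [inv_eq_of_mul_eq_one_right hr₀, ← mul_assoc r₀ r₀, hr₀, one_mul] at this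
    refine Or.inl ⟨hb, fun h' => hr₀N ?_⟩
    have := mul_mem (inv_mem h') hb
    rwa [← mul_assoc, inv_mul_cancel, one_mul] at this

end CfsgLib.ReflClass
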