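import Mathlib

/-! Regular nilpotent endomorphisms: invariant subspaces and intertwiners. -/

set_option autoImplicit false
set_option linter.unusedSectionVars false

namespace CfsgLib.RegUnip

open Module

variable {F V : Type*} [Field F] [AddCommGroup V] [Module F V] [FiniteDimensional F V]

/-- A single nilpotent Jordan block of size `n`. -/
structure IsReg (N : Module.End F V) (n : ℕ) : Prop where
  pow_eq : N ^ n = 0
  dim : finrank F V = n
  range_eq : finrank F (LinearMap.range N) + 1 ≥ n

theorem IsReg.ker_one {N : Module.End F V} {n : ℕ} (h : IsReg N n) : finrank F (LinearMap.ker N) ≤ 1 := by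
  have h1 := LinearMap.finrank_range_add_finrank_ker N
  rw [h.dim] at h1
  have h2 := h.range_eq
  omega

theorem IsReg.ker_pow_le {N : Module.End F V} {n : ℕ} (h : IsReg N n) :
    ∀ k, finrank F (LinearMap.ker (N ^ k)) ≤ k := by
  intro k
  induction k with
  | zero => simp [Module.End.one_eq_id]
  | succ k ih =>
    let T : LinearMap.ker (N ^ (k + 1)) →ₗ[F] LinearMap.ker (N ^ k) :=
      (N.comp (LinearMap.ker (N ^ (k + 1))).subtype).codRestrict _ fun x => by
        rw [LinearMap.mem_ker, LinearMap.comp_apply, ← Module.End.mul_apply, ← pow_succ]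
        exact x.2
    have h1 := LinearMap.finrank_range_add_finrank_ker T
    have h2 : finrank F (LinearMap.range T) ≤ k := (Submodule.finrank_le _).trans ih
    have h3 : finrank F (LinearMap.ker T) ≤ 1 := by
      refine le_trans ?_ h.ker_one
      let U : LinearMap.ker T →ₗ[F] LinearMap.ker N :=
        ((LinearMap.ker (N ^ (k + 1))).subtype.comp (LinearMap.ker T).subtype).codRestrict _ fun x =>
          LinearMap.mem_ker.2 (congrArg Subtype.val (LinearMap.mem_ker.1 x.2))
      exact LinearMap.finrank_le_finrank_of_injective (f := U) fun x y hxy => Subtype.ext (Subtype.ext (congrArg (fun z : LinearMap.ker N => (z : V)) hxy))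
    omega

theorem IsReg.invariant_eq {N : Module.End F V} {n : ℕ} (h : IsReg N n) (W : Submodule F V)
    (hW : ∀ x ∈ W, N x ∈ W) : W = LinearMap.ker (N ^ finrank F W) := by
  have hle : W ≤ LinearMap.ker (N ^ finrank F W) := by
    intro x hx
    let M : Module.End F W := N.restrict hW
    have hMn : M ^ n = 0 := by
      rw [Module.End.pow_restrict n]
      ext y
      simp [h.pow_eq]
    have h0 : (⟨x, hx⟩ : W) ∈ LinearMap.ker (M ^ n) := by simp [hMn]
    have h1 := Module.End.ker_pow_le_ker_pow_finrank M n h0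
    rw [LinearMap.mem_ker, Module.End.pow_restrict] at h1
    exact LinearMap.mem_ker.2 (congrArg Subtype.val h1)
  exact Submodule.eq_of_le_of_finrank_le hle (h.ker_pow_le _)

theorem IsReg.ker_pow_pred {N : Module.End F V} {n : ℕ} (h : IsReg N n) (hn : 1 ≤ n) :
    finrank F (LinearMap.ker (N ^ (n - 1))) = n - 1 := by
  refine le_antisymm (h.ker_pow_le _) ?_
  have hle : LinearMap.range N ≤ LinearMap.ker (N ^ (n - 1)) := by
    rintro x ⟨y, rfl⟩
    rw [LinearMap.mem_ker, ← Module.End.mul_apply, ← pow_succ, Nat.sub_add_cancel hn, h.pow_eq]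
    rfl
  have := Submodule.finrank_mono hle
  have := h.range_eq
  omega

theorem IsReg.exists_cyclic {N : Module.End F V} {n : ℕ} (h : IsReg N n) (hn : 1 ≤ n) :
    ∃ v : V, (N ^ (n - 1)) v ≠ 0 := by
  by_contra! h0
  have hker : LinearMap.ker (N ^ (n - 1)) = ⊤ := eq_top_iff.2 fun x _ => LinearMap.mem_ker.2 (h0 x)
  have := h.ker_pow_pred hn
  rw [hker, finrank_top, h.dim] at this
  omega

theorem IsReg.span_eq_top {N : Module.End F V} {n : ℕ} (h : IsReg N n) {v : V} (hv : (N ^ (n - 1)) v ≠ 0) :
    Submodule.span F (Set.range fun i : Fin n => (N ^ (i : ℕ)) v) = ⊤ := by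
  set S := Submodule.span F (Set.range fun i : Fin n => (N ^ (i : ℕ)) v) with hS
  have hmem : ∀ j, (N ^ j) v ∈ S := by
    intro j
    by_cases hj : j < n
    · exact Submodule.subset_span ⟨⟨j, hj⟩, rfl⟩
    · rw [pow_eq_zero_of_le (not_lt.1 hj) h.pow_eq]
      exact S.zero_mem
  have hinv : ∀ x ∈ S, N x ∈ S := by
    intro x hx
    have hmap : S.map N ≤ S := by
      rw [hS, Submodule.map_span_le]
      rintro _ ⟨i, rfl⟩
      show N ((N ^ (i : ℕ)) v) ∈ S
      rw [← Module.End.mul_apply, ← pow_succ']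
      exact hmem _
    exact hmap (Submodule.mem_map_of_mem hx)
  have he := h.invariant_eq S hinv
  have hv' : v ∈ LinearMap.ker (N ^ finrank F S) := he ▸ (by simpa using hmem 0)
  refine Submodule.eq_top_of_finrank_eq (le_antisymm (Submodule.finrank_le _) ?_)
  by_contra hlt
  rw [h.dim] at hlt
  apply hv
  rw [show n - 1 = (n - 1 - finrank F S) + finrank F S by omega, pow_add, Module.End.mul_apply, LinearMap.mem_ker.1 hv', map_zero]

theorem IsReg.exists_equiv {N N' : Module.End F V} {n : ℕ} (h : IsReg N n) (h' : IsReg N' n) {v v' : V}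
    (hv : (N ^ (n - 1)) v ≠ 0) (hv' : (N' ^ (n - 1)) v' ≠ 0) :
    ∃ e : V ≃ₗ[F] V, (∀ x, e (N x) = N' (e x)) ∧ e v = v' := by
  have hb : ∀ {M : Module.End F V} (hM : IsReg M n) {w : V}, (M ^ (n - 1)) w ≠ 0 →
      ∃ b : Basis (Fin n) F V, ∀ i : Fin n, b i = (M ^ (i : ℕ)) w := by
    intro M hM w hw
    refine ⟨Basis.mk (linearIndependent_of_top_le_span_of_card_eq_finrank (hM.span_eq_top hw).ge ?_) (hM.span_eq_top hw).ge, fun i => Basis.mk_apply _ _ i⟩
    rw [Fintype.card_fin, hM.dim]
  obtain ⟨b, hb1⟩ := hb h hv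
  obtain ⟨b', hb2⟩ := hb h' hv'
  refine ⟨b.equiv b' (Equiv.refl _), ?_, ?_⟩
  · have hj : ∀ j, b.equiv b' (Equiv.refl _) ((N ^ j) v) = (N' ^ j) v' := by
      intro j
      by_cases hj : j < n
      · have := b.equiv_apply (i := ⟨j, hj⟩) b' (Equiv.refl _)
        rwa [hb1, Equiv.refl_apply, hb2] at this
      · rw [pow_eq_zero_of_le (not_lt.1 hj) h.pow_eq, pow_eq_zero_of_le (not_lt.1 hj) h'.pow_eq]
        simp
    have heq : (b.equiv b' (Equiv.refl _)).toLinearMap ∘ₗ N = N' ∘ₗ (b.equiv b' (Equiv.refl _)).toLinearMap := by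
      refine b.ext fun i => ?_
      simp only [LinearMap.comp_apply, LinearEquiv.coe_coe]
      rw [hb1, ← Module.End.mul_apply, ← pow_succ', hj, hj, ← Module.End.mul_apply N', ← pow_succ']
    exact fun x => LinearMap.congr_fun heq x
  · have hn : 0 < n := by
      by_contra h0
      apply hv
      have := h.pow_eq
      rw [show n - 1 = n by omega, this]; rfl
    have := b.equiv_apply (i := ⟨0, hn⟩) b' (Equiv.refl _)
    simpa [hb1, hb2] using this

theorem IsReg.eq_of_apply {N : Module.End F V} {n : ℕ} (h : IsReg N n) {v : V} (hv : (N ^ (n - 1)) v ≠ 0)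
    {f g : Module.End F V} (hf : Commute f N) (hg : Commute g N) (hfg : f v = g v) : f = g := by
  refine LinearMap.ext_on (h.span_eq_top hv) ?_
  rintro _ ⟨i, rfl⟩
  show f ((N ^ (i : ℕ)) v) = g ((N ^ (i : ℕ)) v)
  rw [← Module.End.mul_apply, (hf.pow_right _).eq, ← Module.End.mul_apply g, (hg.pow_right _).eq, Module.End.mul_apply, Module.End.mul_apply, hfg]

/-- The matrix version of the hypothesis. -/
theorem isReg_of_matrix {n : ℕ} {ι : Type*} [Fintype ι] [DecidableEq ι] (hc : Fintype.card ι = n)
    {M : Matrix ι ι F} (h1 : M ^ n = 0) (h2 : M.rank = n - 1) : IsReg (Matrix.toLinAlgEquiv' M : Module.End F (ι → F)) n where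
  pow_eq := by rw [← map_pow, h1, map_zero]
  dim := by rw [finrank_fintype_fun_eq_card, hc]
  range_eq := by
    have : finrank F (LinearMap.range (Matrix.toLinAlgEquiv' M : Module.End F (ι → F))) = M.rank := rfl
    omega

end CfsgLib.RegUnip

namespace CfsgLib.RegUnip

open Module

variable {F : Type*} [Field F] {n : ℕ}

/-- The endomorphism of a matrix. -/
noncomputable def toEnd (M : Matrix (Fin n) (Fin n) F) : Module.End F (Fin n → F) := Matrix.toLinAlgEquiv' M

theorem isReg_toEnd {M : Matrix (Fin n) (Fin n) F} (h1 : M ^ n = 0) (h2 : M.rank = n - 1) : IsReg (toEnd M) n :=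
  isReg_of_matrix (Fintype.card_fin n) h1 h2

theorem toEnd_mul (A B : Matrix (Fin n) (Fin n) F) : toEnd (A * B) = toEnd A * toEnd B :=
  map_mul Matrix.toLinAlgEquiv' A B

theorem toEnd_injective : Function.Injective (toEnd : Matrix (Fin n) (Fin n) F → _) :=
  (Matrix.toLinAlgEquiv').injective

/-- Any two regular unipotent matrices are conjugate, with prescribed image of a cyclic vector. -/
theorem exists_conj {U U' : Matrix (Fin n) (Fin n) F} (h1 : (U - 1) ^ n = 0) (h2 : (U - 1).rank = n - 1)
    (h1' : (U' - 1) ^ n = 0) (h2' : (U' - 1).rank = n - 1) {v v' : Fin n → F}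
    (hv : (toEnd (U - 1) ^ (n - 1)) v ≠ 0) (hv' : (toEnd (U' - 1) ^ (n - 1)) v' ≠ 0) :
    ∃ g : GL (Fin n) F, (g : Matrix (Fin n) (Fin n) F) * U = U' * (g : Matrix (Fin n) (Fin n) F) ∧
      toEnd (g : Matrix (Fin n) (Fin n) F) v = v' := by
  obtain ⟨e, he, hev⟩ := (isReg_toEnd h1 h2).exists_equiv (isReg_toEnd h1' h2') hv hv'
  let A : Matrix (Fin n) (Fin n) F := Matrix.toLinAlgEquiv'.symm e.toLinearMap
  let B : Matrix (Fin n) (Fin n) F := Matrix.toLinAlgEquiv'.symm e.symm.toLinearMap
  have hA : toEnd A = e.toLinearMap := Matrix.toLinAlgEquiv'.apply_symm_apply _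
  have hAB : A * B = 1 := toEnd_injective (by
    rw [toEnd_mul, hA]
    refine LinearMap.ext fun x => ?_
    simp [toEnd, B])
  refine ⟨⟨A, B, hAB, mul_eq_one_comm.1 hAB⟩, ?_, ?_⟩
  · have h3 : A * (U - 1) = (U' - 1) * A := toEnd_injective (by
      rw [toEnd_mul, toEnd_mul, hA]
      exact LinearMap.ext he)
    rw [mul_sub, sub_mul, mul_one, one_mul] at h3
    exact sub_left_inj.1 h3
  · show toEnd A v = v'
    rw [hA]; exact hev

/-- Counting the centraliser of a regular unipotent element. -/
theorem card_centraliser [Fintype F] (hn : 1 ≤ n) (u : GL (Fin n) F)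
    (h1 : ((u : Matrix (Fin n) (Fin n) F) - 1) ^ n = 0) (h2 : ((u : Matrix (Fin n) (Fin n) F) - 1).rank = n - 1) :
    Nat.card (Subgroup.centralizer ({u} : Set (GL (Fin n) F))) = (Fintype.card F - 1) * Fintype.card F ^ (n - 1) := by
  classical
  set N := toEnd ((u : Matrix (Fin n) (Fin n) F) - 1) with hN
  have h := isReg_toEnd h1 h2
  obtain ⟨v, hv⟩ := h.exists_cyclic hn
  have hcom : ∀ g : Subgroup.centralizer ({u} : Set (GL (Fin n) F)), Commute (toEnd ((g : GL (Fin n) F) : Matrix (Fin n) (Fin n) F)) N := by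
    rintro ⟨g, hg⟩
    have h0 : u * g = g * u := (Subgroup.mem_centralizer_iff.1 hg) u rfl
    have h3 := congrArg (fun x : GL (Fin n) F => (x : Matrix (Fin n) (Fin n) F)) h0
    simp only [Units.val_mul] at h3
    show _ * _ = _ * _
    rw [hN, ← toEnd_mul, ← toEnd_mul, mul_sub, sub_mul, mul_one, one_mul, h3]
  let φ : Subgroup.centralizer ({u} : Set (GL (Fin n) F)) → {w : Fin n → F // w ∉ LinearMap.ker (N ^ (n - 1))} :=
    fun g => ⟨toEnd ((g : GL (Fin n) F) : Matrix (Fin n) (Fin n) F) v, fun hmem => by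
      rw [LinearMap.mem_ker, ← Module.End.mul_apply, ← ((hcom g).pow_right _).eq, Module.End.mul_apply] at hmem
      apply hv
      have hinj : ((((g : GL (Fin n) F)⁻¹ : GL (Fin n) F) : Matrix (Fin n) (Fin n) F)) * ((g : GL (Fin n) F) : Matrix (Fin n) (Fin n) F) = 1 := by simp
      have h4 := congrArg (toEnd ((((g : GL (Fin n) F)⁻¹ : GL (Fin n) F) : Matrix (Fin n) (Fin n) F))) hmem
      rw [← Module.End.mul_apply, ← toEnd_mul, hinj, map_zero] at h4
      rwa [show toEnd (1 : Matrix (Fin n) (Fin n) F) = 1 from map_one _, Module.End.one_apply] at h4⟩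
  have hφ : Function.Bijective φ := by
    constructor
    · intro g g' hgg
      have := h.eq_of_apply hv (hcom g) (hcom g') (congrArg Subtype.val hgg)
      exact Subtype.ext (Units.ext (toEnd_injective this))
    · rintro ⟨w, hw⟩
      obtain ⟨g, hg, hgv⟩ := exists_conj h1 h2 h1 h2 hv (fun e => hw (LinearMap.mem_ker.2 e))
      refine ⟨⟨g, Subgroup.mem_centralizer_iff.2 fun x hx => ?_⟩, Subtype.ext hgv⟩
      rw [Set.mem_singleton_iff] at hx
      subst hx
      exact Units.ext hg.symm
  rw [Nat.card_congr (Equiv.ofBijective φ hφ), Nat.card_eq_fintype_card, Fintype.card_subtype_compl,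
    Module.card_eq_pow_finrank (K := F) (V := Fin n → F)]
  have hker : Fintype.card (LinearMap.ker (N ^ (n - 1))) = Fintype.card F ^ (n - 1) := by
    rw [Module.card_eq_pow_finrank (K := F), h.ker_pow_pred hn]
  simp only [Module.finrank_fintype_fun_eq_card, Fintype.card_fin]
  rw [show Fintype.card {x // x ∈ LinearMap.ker (N ^ (n - 1))} = Fintype.card F ^ (n - 1) from hker, Nat.sub_mul, one_mul, ← pow_succ', Nat.sub_add_cancel hn]

end CfsgLib.RegUnip

namespace CfsgLib.RegUnip

open Module

variable {F : Type*} [Field F] {n : ℕ}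

theorem det_scalar_add_nil (c : F) {M : Matrix (Fin n) (Fin n) F} (h : M ^ n = 0) :
    (Matrix.scalar (Fin n) c + M).det = c ^ n := by
  have h1 : IsNilpotent (-M) := ⟨n, by rw [neg_pow, h, mul_zero]⟩
  have h2 := (Matrix.isNilpotent_charpoly_sub_pow_of_isNilpotent h1).eq_zero
  rw [sub_eq_zero] at h2
  have h3 := Matrix.eval_charpoly (-M) c
  rw [h2, Fintype.card_fin, Polynomial.eval_pow, Polynomial.eval_X, sub_neg_eq_add] at h3
  exact h3.symm

/-- Determinants on the centraliser of a regular unipotent element are `n`-th powers. -/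
theorem det_eq_pow {U g : Matrix (Fin n) (Fin n) F} (hn : 1 ≤ n) (h1 : (U - 1) ^ n = 0) (h2 : (U - 1).rank = n - 1)
    (hg : g * U = U * g) : ∃ c : F, g.det = c ^ n := by
  classical
  set N := toEnd (U - 1) with hN
  have h := isReg_toEnd h1 h2
  obtain ⟨v, hv⟩ := h.exists_cyclic hn
  have hcom : Commute (toEnd g) N := by
    show _ * _ = _ * _
    rw [hN, ← toEnd_mul, ← toEnd_mul, mul_sub, sub_mul, mul_one, one_mul, hg]
  set z := (N ^ (n - 1)) v with hz
  have hzker : N z = 0 := by
    rw [hz, ← Module.End.mul_apply, ← pow_succ', Nat.sub_add_cancel hn, h.pow_eq]; rfl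
  have hker : LinearMap.ker N = Submodule.span F {z} := by
    refine (Submodule.eq_of_le_of_finrank_le ((Submodule.span_singleton_le_iff_mem _ _).2 (LinearMap.mem_ker.2 hzker)) ?_).symm
    rw [finrank_span_singleton hv]
    exact h.ker_one
  have hgz : toEnd g z ∈ LinearMap.ker N := by
    rw [LinearMap.mem_ker, ← Module.End.mul_apply, ← hcom.eq, Module.End.mul_apply, hzker, map_zero]
  rw [hker, Submodule.mem_span_singleton] at hgz
  obtain ⟨c, hc⟩ := hgz
  refine ⟨c, ?_⟩
  set M := g - Matrix.scalar (Fin n) c with hM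
  have hMapp : ∀ x, toEnd M x = toEnd g x - c • x := by
    intro x
    show (g - Matrix.scalar (Fin n) c).mulVec x = g.mulVec x - c • x
    rw [Matrix.sub_mulVec]
    congr 1
    ext i
    simp [Matrix.scalar_apply, Matrix.mulVec_diagonal]
  have hcomM : Commute (toEnd M) N := by
    refine LinearMap.ext fun x => ?_
    rw [Module.End.mul_apply, Module.End.mul_apply, hMapp, hMapp, map_sub, map_smul, ← Module.End.mul_apply, hcom.eq, Module.End.mul_apply]
  have hstep : ∀ k x, (N ^ (k + 1)) x = 0 → (N ^ k) (toEnd M x) = 0 := by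
    intro k x hx
    have hy : (N ^ k) x ∈ LinearMap.ker N := by
      rw [LinearMap.mem_ker, ← Module.End.mul_apply, ← pow_succ']; exact hx
    rw [hker, Submodule.mem_span_singleton] at hy
    obtain ⟨a, ha⟩ := hy
    rw [← Module.End.mul_apply, ← (hcomM.pow_right k).eq, Module.End.mul_apply, hMapp, ← ha, map_smul, ← hc]
    simp [smul_comm a c]
  have hnil : ∀ k x, (N ^ k) x = 0 → (toEnd M ^ k) x = 0 := by
    intro k
    induction k with
    | zero => intro x hx; exact hx
    | succ k ih => intro x hx; rw [pow_succ, Module.End.mul_apply]; exact ih _ (hstep k x hx)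
  have hMn : M ^ n = 0 := by
    apply toEnd_injective
    rw [show toEnd (M ^ n) = toEnd M ^ n from map_pow Matrix.toLinAlgEquiv' M n,
      show toEnd (0 : Matrix (Fin n) (Fin n) F) = 0 from map_zero _]
    exact LinearMap.ext fun x => hnil n x (by rw [h.pow_eq]; rfl)
  have h4 := det_scalar_add_nil c hMn
  rwa [hM, add_sub_cancel] at h4

/-- The upper shift matrix. -/
def upShift (n : ℕ) (F : Type*) [Zero F] [One F] : Matrix (Fin n) (Fin n) F :=
  fun i j => if (i : ℕ) + 1 = (j : ℕ) then 1 else 0

theorem upShift_pow : upShift n F ^ n = 0 := by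
  classical
  have h : ∀ k, ∀ i j : Fin n, (i : ℕ) + k ≠ (j : ℕ) → (upShift n F ^ k) i j = 0 := by
    intro k
    induction k with
    | zero =>
      intro i j hij
      rw [pow_zero, Matrix.one_apply_ne (fun e => hij (by simp [e]))]
    | succ k ih =>
      intro i j hij
      rw [pow_succ, Matrix.mul_apply]
      refine Finset.sum_eq_zero fun l _ => ?_
      by_cases hl : (i : ℕ) + k = (l : ℕ)
      · rw [upShift, if_neg (by omega), mul_zero]
      · rw [ih i l hl, zero_mul]
  ext i j
  exact h n i j (by omega)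

theorem upShift_rank : (upShift n F).rank = n - 1 := by
  classical
  rcases Nat.eq_zero_or_pos n with hn | hn
  · subst hn
    have := (upShift 0 F).rank_le_card_height
    rw [Fintype.card_fin] at this
    omega
  have h1 := LinearMap.finrank_range_add_finrank_ker (upShift n F).mulVecLin
  rw [finrank_fintype_fun_eq_card, Fintype.card_fin] at h1
  have h2 : finrank F (LinearMap.ker (upShift n F).mulVecLin) = 1 := by
    refine finrank_eq_one (⟨Pi.single ⟨0, hn⟩ 1, ?_⟩) ?_ fun w => ⟨w.1 ⟨0, hn⟩, Subtype.ext ?_⟩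
    · rw [LinearMap.mem_ker]
      ext i
      simp [Matrix.mulVec_single, upShift]
    · intro e
      have := congrFun (congrArg Subtype.val e) ⟨0, hn⟩
      simp at this
    · ext i
      rcases i with ⟨i, hi⟩
      cases i with
      | zero => simp
      | succ i =>
        have h3 := congrFun (LinearMap.mem_ker.1 w.2) ⟨i, by omega⟩
        have h4 : (∑ j : Fin n, upShift n F ⟨i, by omega⟩ j * w.1 j) = w.1 ⟨i + 1, hi⟩ := by
          rw [Finset.sum_eq_single ⟨i + 1, hi⟩]
          · simp [upShift]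
          · intro j _ hj
            rw [upShift, if_neg (fun e => hj (Fin.ext e.symm)), zero_mul]
          · simp
        have h5 : w.1 ⟨i + 1, hi⟩ = 0 := by rw [← h4]; exact h3
        simp [h5]
  show finrank F (LinearMap.range (upShift n F).mulVecLin) = n - 1
  omega

end CfsgLib.RegUnip
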