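import Mathlib

/-! Determinants on the centraliser of a semisimple endomorphism over a finite field. -/

set_option autoImplicit false

namespace CfsgLib.SemisimpleDet

open Polynomial Module
open scoped DirectSum

variable {F : Type*} [Field F]

theorem exists_norm [Finite F] {q : F[X]} (hq : Irreducible q) {d : F} :
    ∃ b : F[X] ⧸ F[X] ∙ q, Algebra.norm F b = d := by
  haveI hm : Ideal.IsMaximal (F[X] ∙ q : Ideal F[X]) := PrincipalIdealRing.isMaximal_of_irreducible hq
  letI := Ideal.Quotient.field (F[X] ∙ q : Ideal F[X])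
  haveI : Module.Finite F (F[X] ⧸ F[X] ∙ q) := (AdjoinRoot.powerBasis hq.ne_zero).finite
  haveI : Finite (F[X] ⧸ F[X] ∙ q) := Module.finite_of_finite F
  exact FiniteField.norm_surjective F (F[X] ⧸ F[X] ∙ q) d

theorem det_one_add {V K : Type*} [AddCommGroup V] [Module F V] [AddCommGroup K] [Module F K]
    [FiniteDimensional F V] [FiniteDimensional F K] (A : K →ₗ[F] V) (B : V →ₗ[F] K) :
    LinearMap.det (1 + A ∘ₗ B) = LinearMap.det (1 + B ∘ₗ A) := by
  classical
  let b := Module.finBasis F V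
  let c := Module.finBasis F K
  rw [← LinearMap.det_toMatrix b, ← LinearMap.det_toMatrix c, map_add, map_add, LinearMap.toMatrix_one,
    LinearMap.toMatrix_one, LinearMap.toMatrix_comp b c b, LinearMap.toMatrix_comp c b c, Matrix.det_one_add_mul_comm]

/-- Some commuting endomorphism has any prescribed determinant. -/
theorem exists_commute_det [Finite F] {V : Type*} [AddCommGroup V] [Module F V] [FiniteDimensional F V] [Nontrivial V]
    (f : Module.End F V) {N : ℕ} (hN : (N : F) ≠ 0) (hf : f ^ N = 1) (d : F) :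
    ∃ z : Module.End F V, z * f = f * z ∧ LinearMap.det z = d := by
  classical
  obtain ⟨ι, _, p, hp, e, ⟨φ⟩⟩ :=
    Module.equiv_directSum_of_isTorsion (R := F[X]) (M := Module.AEval' f) (Module.AEval.isTorsion_of_finiteDimensional F V f)
  have he : ∀ i, e i ≤ 1 := by
    intro i
    have h0 : ∀ y : Module.AEval' f, ((X : F[X]) ^ N - 1) • y = 0 := by
      intro y
      obtain ⟨v, rfl⟩ := (Module.AEval'.of f).surjective y
      rw [sub_smul, one_smul, Module.AEval'.X_pow_smul_of, hf]
      simp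
    have h1 := congrArg (DirectSum.component F[X] ι (fun i => F[X] ⧸ F[X] ∙ p i ^ e i) i)
      (show ((X : F[X]) ^ N - 1) • DirectSum.lof F[X] ι (fun i => F[X] ⧸ F[X] ∙ p i ^ e i) i (Ideal.Quotient.mk _ 1) = 0 by
        obtain ⟨y, hy⟩ := φ.surjective (DirectSum.lof F[X] ι (fun i => F[X] ⧸ F[X] ∙ p i ^ e i) i (Ideal.Quotient.mk _ 1))
        rw [← hy, ← map_smul, h0, map_zero])
    rw [map_smul, DirectSum.component.lof_self, map_zero] at h1
    change Ideal.Quotient.mk (F[X] ∙ p i ^ e i) (((X : F[X]) ^ N - 1) * 1) = 0 at h1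
    rw [mul_one, Ideal.Quotient.eq_zero_iff_mem] at h1
    have h2 := Ideal.mem_span_singleton.1 h1
    have hsq : Squarefree ((X : F[X]) ^ N - 1) := (Polynomial.X_pow_sub_one_separable_iff.2 hN).squarefree
    by_contra hlt
    exact (hp i).not_isUnit (hsq (p i) (((pow_dvd_pow (p i) (by omega : 2 ≤ e i)).trans h2) |> fun h => by rwa [← pow_two]))
  obtain ⟨i, hi⟩ : ∃ i, e i ≠ 0 := by
    by_contra! h
    haveI : ∀ i, Subsingleton (F[X] ⧸ F[X] ∙ p i ^ e i) := fun i => by
      rw [Ideal.Quotient.subsingleton_iff]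
      simp [h i]
    haveI : Subsingleton (⨁ i, F[X] ⧸ F[X] ∙ p i ^ e i) := ⟨fun a b => DirectSum.ext_component F[X] fun i => Subsingleton.elim _ _⟩
    exact not_subsingleton V ((Module.AEval'.of f).toEquiv.trans φ.toEquiv).subsingleton
  have hi1 : e i = 1 := by have := he i; omega
  have hirr : Irreducible (p i ^ e i) := by rw [hi1, pow_one]; exact hp i
  obtain ⟨b, hb⟩ := exists_norm hirr (d := d)
  haveI : Module.Finite F (F[X] ⧸ F[X] ∙ p i ^ e i) := (AdjoinRoot.powerBasis hirr.ne_zero).finite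
  let B : V →ₗ[F] F[X] ⧸ F[X] ∙ p i ^ e i :=
    ((DirectSum.component F[X] ι (fun i => F[X] ⧸ F[X] ∙ p i ^ e i) i).comp φ.toLinearMap).restrictScalars F ∘ₗ (Module.AEval'.of f).toLinearMap
  let A : (F[X] ⧸ F[X] ∙ p i ^ e i) →ₗ[F] V :=
    (Module.AEval'.of f).symm.toLinearMap ∘ₗ
      ((φ.symm.toLinearMap.comp (DirectSum.lof F[X] ι (fun i => F[X] ⧸ F[X] ∙ p i ^ e i) i)).restrictScalars F) ∘ₗ LinearMap.mulLeft F (b - 1)
  refine ⟨1 + A ∘ₗ B, ?_, ?_⟩
  · have hB : ∀ x, B (f x) = (X : F[X]) • B x := by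
      intro x
      show DirectSum.component F[X] ι _ i (φ (Module.AEval'.of f (f x))) = _
      rw [← Module.AEval'.X_smul_of, map_smul, map_smul]
      rfl
    have hA : ∀ w, A ((X : F[X]) • w) = f (A w) := by
      intro w
      show (Module.AEval'.of f).symm (φ.symm (DirectSum.lof F[X] ι _ i ((b - 1) * ((X : F[X]) • w)))) = _
      rw [mul_smul_comm, map_smul, map_smul, Module.AEval'.of_symm_X_smul]
      rfl
    refine LinearMap.ext fun x => ?_
    simp only [Module.End.mul_apply, LinearMap.add_apply, Module.End.one_apply, LinearMap.comp_apply, map_add]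
    rw [hB, hA]
  · rw [det_one_add]
    have h1 : (1 : Module.End F (F[X] ⧸ F[X] ∙ p i ^ e i)) + B ∘ₗ A = Algebra.lmul F _ b := by
      refine LinearMap.ext fun w => ?_
      have h2 : B (A w) = (b - 1) * w := by
        simp [A, B]
      rw [LinearMap.add_apply, Module.End.one_apply, LinearMap.comp_apply, h2, Algebra.coe_lmul_eq_mul, LinearMap.mul_apply']
      ring
    rw [h1, ← Algebra.norm_apply, hb]

end CfsgLib.SemisimpleDet
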