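import Mathlib

/-! Elementary algebra of twisted conjugation by an automorphism. -/

set_option autoImplicit false

namespace CfsgLib.Shintani

variable {X : Type*} [Group X] (σ : MulAut X)

theorem mem_fix {τ : MulAut X} {x : X} : x ∈ (MulEquiv.toMonoidHom τ).eqLocus (MonoidHom.id X) ↔ τ x = x := Iff.rfl

theorem pow_comm_apply (e : ℕ) (x : X) : (σ ^ e) (σ x) = σ ((σ ^ e) x) := by
  rw [← MulAut.mul_apply, ← MulAut.mul_apply, ← pow_succ, ← pow_succ']

theorem pow_fix {x : X} (h : σ x = x) : ∀ e : ℕ, (σ ^ e) x = x := by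
  intro e
  induction e with
  | zero => rfl
  | succ e ih => rw [pow_succ, MulAut.mul_apply, h, ih]

theorem prod_range {g a : X} (ha : g = a * (σ a)⁻¹) : ∀ d : ℕ,
    ((List.range d).map (fun i => (σ ^ i) g)).prod = a * ((σ ^ d) a)⁻¹ := by
  intro d
  induction d with
  | zero => simp
  | succ d ih =>
    rw [List.range_succ, List.map_append, List.prod_append, ih, List.map_singleton, List.prod_singleton, ha, map_mul, map_inv, pow_succ, MulAut.mul_apply]
    group

theorem desc_fix {g a : X} (ha : g = a * (σ a)⁻¹) (e : ℕ) (hg : (σ ^ e) g = g) :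
    σ (((σ ^ e) a)⁻¹ * a) = ((σ ^ e) a)⁻¹ * a := by
  have h1 : σ a = g⁻¹ * a := by rw [ha]; group
  rw [map_mul, map_inv, ← pow_comm_apply, h1, map_mul, map_inv, hg]
  group

end CfsgLib.Shintani
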