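import Cfsg.Agent.Lib.ClassicalSpinorFacts

/-! Siegel transformations as commutators, and `Ω` generated by them, in dimension at least five
and odd characteristic. -/

set_option autoImplicit false

namespace CfsgLib.Classical

open Matrix
open scoped commutatorElement

variable {ι : Type} [Fintype ι] [DecidableEq ι] {F : Type*} [Field F] {Q : (ι → F) → F}

local notation "pf" => QuadraticMap.polar Q

lemma siegelMatrix_mulVec (Q' : QuadraticForm F (ι → F)) (u v x : ι → F) (c : F) :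
    Cfsg.siegelMatrix ⇑Q' u v c *ᵥ x =
      x + c • (QuadraticMap.polar ⇑Q' u x • v - QuadraticMap.polar ⇑Q' v x • u) := by
  rw [Cfsg.siegelMatrix, add_mulVec, one_mulVec, smul_mulVec, sub_mulVec, vecMulVec_mulVec,
    vecMulVec_mulVec, polarVec_dot, polarVec_dot, op_smul_eq_smul, op_smul_eq_smul]

variable (hQ : Cfsg.Geo.IsNondegenerateQuadraticForm Q)
include hQ

lemma qE_val_siegel {u v : ι → F} (hu : Q u = 0) (hv : Q v = 0) (huv : pf u v = 0) (c : F) :
    (qE Q u ((-c) • v) : Matrix ι ι F) = Cfsg.siegelMatrix Q u v c := by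
  have hvu : pf ((-c) • v) u = 0 := by
    rw [hQ.polar_bilinear.smul_left, pf_comm hQ, huv, mul_zero]
  obtain ⟨Q', hQ', -⟩ := exists_quadraticForm hQ
  subst hQ'
  refine Matrix.ext_of_mulVec_single fun i => ?_
  rw [qE_mulVec hQ hu hvu, siegelMatrix_mulVec, QuadraticMap.map_smul, hv, smul_zero,
    QuadraticMap.polar_smul_right, QuadraticMap.polar_comm _ (Pi.single i 1) v,
    QuadraticMap.polar_comm _ (Pi.single i 1) u]
  simp only [smul_eq_mul]
  module

/-- a Siegel transformation with singular parameters is a commutator of isometries -/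
theorem siegel_mem_commutatorSet (h2 : (2 : F) ≠ 0) {u a : ι → F} (hu : Q u = 0) (ha : Q a = 0)
    (hau : pf a u = 0) :
    (⟨qE Q u a, qE_mem_isometry hQ hu hau⟩ : ↥(Cfsg.isometryGroup F Q)) ∈
      commutatorSet ↥(Cfsg.isometryGroup F Q) := by
  by_cases hspan : a ∈ Submodule.span F {u}
  · obtain ⟨t, rfl⟩ := Submodule.mem_span_singleton.mp hspan
    refine ⟨1, 1, Subtype.ext ?_⟩
    show ((⁅(1 : ↥(Cfsg.isometryGroup F Q)), 1⁆ : ↥(Cfsg.isometryGroup F Q)) : GL ι F) = qE Q u (t • u)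
    rw [← zero_add (t • u), qE_add_smul hQ hu (pf_zero_left hQ u), qE_zero hQ hu,
      commutatorElement_self, Subgroup.coe_one]
  obtain ⟨c, hcS, hca⟩ := exists_qval hQ (Submodule.span F {u}) hspan 1
  have hcu : pf c u = 0 := hcS u (Submodule.mem_span_singleton_self u)
  obtain ⟨b, hb⟩ : ∃ b, b = c - Q c • a := ⟨_, rfl⟩
  have hQb : Q b = 0 := by
    rw [hb, q_sub hQ, hQ.smul, ha, hQ.polar_bilinear.smul_right, hca]; ring
  have hbu : pf b u = 0 := by rw [hb, pf_sub_left hQ, hQ.polar_bilinear.smul_left, hcu, hau]; ring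
  have hba : pf b a = 1 := by
    rw [hb, pf_sub_left hQ, hQ.polar_bilinear.smul_left, hca, pf_self hQ a, ha]; ring
  have hd1 : Q (a + b) ≠ 0 := by rw [q_add hQ, ha, hQb, pf_comm hQ, hba]; simp
  have hd2 : Q (a - b) ≠ 0 := by rw [q_sub hQ, ha, hQb, pf_comm hQ, hba]; simp
  obtain ⟨g, hg⟩ : ∃ g : ↥(Cfsg.isometryGroup F Q), g = rI hQ (a + b) hd1 * rI hQ (a - b) hd2 :=
    ⟨_, rfl⟩
  have hv : ∀ x, ((g : GL ι F) : Matrix ι ι F) *ᵥ x =
      (qR hQ (a + b) : Matrix ι ι F) *ᵥ ((qR hQ (a - b) : Matrix ι ι F) *ᵥ x) := fun x => by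
    rw [hg, Subgroup.coe_mul, Units.val_mul, ← mulVec_mulVec]; rfl
  have hga : ((g : GL ι F) : Matrix ι ι F) *ᵥ a = -a := by
    have h1 : (qR hQ (a - b) : Matrix ι ι F) *ᵥ a = b := by
      rw [qR_mulVec hQ hd2, q_sub hQ, ha, hQb, pf_sub_right hQ, pf_self hQ a, ha, pf_comm hQ a b, hba]
      norm_num
    rw [hv, h1, qR_mulVec hQ hd1, q_add hQ, ha, hQb, hQ.polar_bilinear.add_right, pf_self hQ b, hQb,
      pf_comm hQ a b, hba]
    simp
  have hgu : ((g : GL ι F) : Matrix ι ι F) *ᵥ u = u := by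
    rw [hv, qR_mulVec hQ hd2, pf_sub_right hQ, pf_comm hQ u a, hau, pf_comm hQ u b, hbu]
    simp only [sub_zero, mul_zero, zero_smul]
    rw [qR_mulVec hQ hd1, hQ.polar_bilinear.add_right, pf_comm hQ u a, hau, pf_comm hQ u b, hbu]
    simp
  obtain ⟨s, hs⟩ : ∃ s : F, s = -(1 / 2) := ⟨_, rfl⟩
  have hsu : pf (s • a) u = 0 := by rw [hQ.polar_bilinear.smul_left, hau, mul_zero]
  refine ⟨g, ⟨qE Q u (s • a), qE_mem_isometry hQ hu hsu⟩, Subtype.ext ?_⟩
  show (g : GL ι F) * qE Q u (s • a) * (g : GL ι F)⁻¹ * (qE Q u (s • a))⁻¹ = qE Q u a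
  rw [conj_qE hQ g.2 hu hsu, hgu, mulVec_smul, hga, qE_inv hQ hu hsu,
    qE_mul hQ hu (by rw [hQ.polar_bilinear.smul_left, pf_neg_left hQ, hau, neg_zero, mul_zero])
      (by rw [pf_neg_left hQ, hsu, neg_zero])]
  congr 1
  rw [hs]
  match_scalars
  field_simp
  ring

section gen

variable [Finite F] (h2 : (2 : F) ≠ 0) (h5 : 5 ≤ Fintype.card ι)
include h2 h5

/-- a singular vector with product one with two given singular vectors -/
lemma exists_sing_two {x y : ι → F} (hx : Q x = 0) (hy : Q y = 0) (hx0 : x ≠ 0)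
    (hyx : y ∉ Submodule.span F {x}) : ∃ w, Q w = 0 ∧ pf x w = 1 ∧ pf y w = 1 := by
  obtain ⟨c₁, hc₁x, hc₁y⟩ := exists_qval hQ (Submodule.span F {x}) hyx 1
  obtain ⟨c₂, -, hc₂⟩ := exists_qval hQ ⊥ (q := x) (by simpa using hx0) 1
  have hc1 : pf c₁ x = 0 := hc₁x x (Submodule.mem_span_singleton_self x)
  obtain ⟨c, hc⟩ : ∃ c, c = c₂ + (1 - pf c₂ y) • c₁ := ⟨_, rfl⟩
  have hcx : pf c x = 1 := by
    rw [hc, hQ.polar_bilinear.add_left, hQ.polar_bilinear.smul_left, hc1, hc₂]; ring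
  have hcy : pf c y = 1 := by
    rw [hc, hQ.polar_bilinear.add_left, hQ.polar_bilinear.smul_left, hc₁y]; ring
  by_cases hxy : pf x y = 0
  · refine ⟨c - Q c • x, ?_, ?_, ?_⟩
    · rw [q_sub hQ, hQ.smul, hx, hQ.polar_bilinear.smul_right, hcx]; ring
    · rw [pf_sub_right hQ, hQ.polar_bilinear.smul_right, pf_comm hQ, hcx, pf_self hQ, hx]; ring
    · rw [pf_sub_right hQ, hQ.polar_bilinear.smul_right, pf_comm hQ, hcy, pf_comm hQ y x, hxy]; ring
  · obtain ⟨p, hp⟩ : ∃ p, p = pf x y := ⟨_, rfl⟩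
    have hp0 : p ≠ 0 := hp ▸ hxy
    -- two orthogonal non-singular vectors orthogonal to `x`, `y`
    obtain ⟨z₁, hz₁S, hz₁⟩ := exists_nonsing_orth hQ (Submodule.span F {x, y})
      (by have := span_le_two (F := F) x y; omega)
    have hz1x : pf z₁ x = 0 := hz₁S x (Submodule.mem_span_of_mem (by simp))
    have hz1y : pf z₁ y = 0 := hz₁S y (Submodule.mem_span_of_mem (by simp))
    obtain ⟨z₂, hz₂, hz2x, hz2y, hz21⟩ : ∃ z₂, Q z₂ ≠ 0 ∧ pf z₂ x = 0 ∧ pf z₂ y = 0 ∧ pf z₁ z₂ = 0 := by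
      obtain ⟨U, hU⟩ : ∃ U, U = qorth hQ (Submodule.span F {x, y}) ⊓ qorth hQ (Submodule.span F {z₁}) :=
        ⟨_, rfl⟩
      by_contra! hno
      have hz : ∀ t ∈ U, Q t = 0 := fun t ht => by
        rw [hU] at ht
        by_contra h
        exact hno t h ((qorth_span_pair hQ).mp ht.1).1 ((qorth_span_pair hQ).mp ht.1).2
          (by rw [pf_comm hQ]; exact (mem_qorth hQ).mp ht.2 z₁ (Submodule.mem_span_singleton_self _))
      have hts : Cfsg.Geo.IsTotallySingularQuad Q U := hz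
      have h1 := finrank_qorth hQ (Submodule.span F {x, y})
      have h2' := finrank_qorth hQ (Submodule.span F {z₁})
      have h3 := finrank_inf_ge (qorth hQ (Submodule.span F {x, y})) (qorth hQ (Submodule.span F {z₁}))
      have h4 := span_le_two (F := F) x y
      have h4' := span_le_one (F := F) z₁
      obtain ⟨t, htU, ht0⟩ := Submodule.exists_mem_ne_zero_of_ne_bot (show U ≠ ⊥ from fun h => by
        rw [← hU, h, finrank_bot] at h3; omega)
      -- `t` would be orthogonal to everything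
      obtain ⟨e, he⟩ := (hQ.nondegenerate t ht0).2
      have ht1 : pf t x = 0 ∧ pf t y = 0 := by
        rw [hU] at htU; exact (qorth_span_pair hQ).mp htU.1
      have htz : pf t z₁ = 0 := by
        rw [hU] at htU; exact (mem_qorth hQ).mp htU.2 z₁ (Submodule.mem_span_singleton_self _)
      obtain ⟨e', he'⟩ : ∃ e', e' = e - (pf e y / p) • x - (pf e x / p) • y - (pf e z₁ / (2 * Q z₁)) • z₁ :=
        ⟨_, rfl⟩
      have he'U : e' ∈ U := by
        rw [hU]
        refine ⟨(qorth_span_pair hQ).mpr ⟨?_, ?_⟩, (mem_qorth hQ).mpr (pf_span_singleton hQ ?_)⟩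
        · rw [he', pf_sub_left hQ, pf_sub_left hQ, pf_sub_left hQ, hQ.polar_bilinear.smul_left,
            hQ.polar_bilinear.smul_left, hQ.polar_bilinear.smul_left, pf_self hQ, hx,
            pf_comm hQ y x, ← hp, hz1x]
          field_simp; ring
        · rw [he', pf_sub_left hQ, pf_sub_left hQ, pf_sub_left hQ, hQ.polar_bilinear.smul_left,
            hQ.polar_bilinear.smul_left, hQ.polar_bilinear.smul_left, pf_self hQ y, hy,
            ← hp, hz1y]
          field_simp; ring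
        · rw [he', pf_sub_left hQ, pf_sub_left hQ, pf_sub_left hQ, hQ.polar_bilinear.smul_left,
            hQ.polar_bilinear.smul_left, hQ.polar_bilinear.smul_left, pf_self hQ z₁,
            pf_comm hQ x z₁, hz1x, pf_comm hQ y z₁, hz1y]
          field_simp; ring
      have := hz (t + e') (U.add_mem htU he'U)
      rw [q_add hQ, hz t htU, hz e' he'U, he'] at this
      simp only [pf_sub_right hQ, hQ.polar_bilinear.smul_right, ht1.1, ht1.2, htz] at this
      exact he (by linear_combination this)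
    obtain ⟨s, t, hst⟩ := binary_universal h2 hz₁ hz₂ (-(1 / p))
    obtain ⟨z, hz⟩ : ∃ z, z = s • z₁ + t • z₂ := ⟨_, rfl⟩
    refine ⟨(1 / p) • x + (1 / p) • y + z, ?_, ?_, ?_⟩
    · rw [hz]
      simp only [q_add hQ, hQ.smul, hx, hy, hQ.polar_bilinear.add_left, hQ.polar_bilinear.add_right,
        hQ.polar_bilinear.smul_left, hQ.polar_bilinear.smul_right, ← hp, pf_comm hQ x z₁, hz1x,
        pf_comm hQ x z₂, hz2x, pf_comm hQ y z₁, hz1y, pf_comm hQ y z₂, hz2y, hz21]
      field_simp at hst ⊢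
      linear_combination p * hst
    · rw [hz]
      simp only [hQ.polar_bilinear.add_right, hQ.polar_bilinear.smul_right, pf_self hQ x, hx, ← hp,
        pf_comm hQ x z₁, hz1x, pf_comm hQ x z₂, hz2x]
      field_simp; ring
    · rw [hz]
      simp only [hQ.polar_bilinear.add_right, hQ.polar_bilinear.smul_right, pf_self hQ y, hy,
        pf_comm hQ y x, ← hp, pf_comm hQ y z₁, hz1y, pf_comm hQ y z₂, hz2y]
      field_simp; ring

theorem exists_qGen_map5 {x y : ι → F} (hx : Q x = 0) (hx0 : x ≠ 0) (hy : Q y = 0) (hy0 : y ≠ 0) :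
    ∃ e ∈ qGen Q, (e : Matrix ι ι F) *ᵥ x = y := by
  have step : ∀ x y : ι → F, Q x = 0 → x ≠ 0 → Q y = 0 → y ∉ Submodule.span F {x} →
      ∃ e ∈ qGen Q, (e : Matrix ι ι F) *ᵥ x = y := by
    intro x y hx hx0 hy hyx
    obtain ⟨w, hw, hwx, hwy⟩ := exists_sing_two hQ h2 h5 hx hy hx0 hyx
    obtain ⟨a, ha, hmap, -⟩ := qE_map hQ hw hx hy (by rw [hwx]; exact one_ne_zero)
      (by rw [hwy, hwx])
    exact ⟨_, qE_mem_qGen hQ hw ha, hmap⟩
  by_cases hyx : y ∈ Submodule.span F {x}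
  · obtain ⟨z, hz, -, hzx⟩ := exists_sing_out hQ (Submodule.span F {x})
      (by have := span_le_one (F := F) x; omega)
    have hz0 : z ≠ 0 := fun h => hzx (h ▸ Submodule.zero_mem _)
    obtain ⟨e, he, hex⟩ := step x z hx hx0 hz hzx
    obtain ⟨e', he', hez⟩ := step z y hz hz0 hy (fun h => by
      obtain ⟨t, ht⟩ := Submodule.mem_span_singleton.mp h
      obtain ⟨s, hs⟩ := Submodule.mem_span_singleton.mp hyx
      have ht0 : t ≠ 0 := fun h0 => hy0 (by rw [← ht, h0, zero_smul])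
      exact hzx (Submodule.mem_span_singleton.mpr ⟨t⁻¹ * s, by
        rw [mul_smul, hs, ← ht, inv_smul_smul₀ ht0]⟩))
    exact ⟨e' * e, Subgroup.mul_mem _ he' he, by
      rw [Units.val_mul, ← mulVec_mulVec, hex, hez]⟩
  · exact step x y hx hx0 hy hyx

/-- transitivity of the Siegel group on a level set -/
theorem exists_qGen_map_nonsing5 {b b' : ι → F} (hb : Q b ≠ 0) (he : Q b' = Q b) :
    ∃ e ∈ qGen Q, (e : Matrix ι ι F) *ᵥ b = b' := by
  have coords : ∀ b : ι → F, Q b ≠ 0 → ∃ u w, Q u = 0 ∧ Q w = 0 ∧ pf u w = 1 ∧ b = w + Q b • u := by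
    intro b hb
    obtain ⟨c, -, hc⟩ := exists_qval hQ ⊥ (q := b)
      (by simpa using fun h : b = 0 => hb (by rw [h, q_zero hQ])) 1
    obtain ⟨u, hu, huS⟩ := exists_sing_dual hQ (Submodule.span F {b})
      (by have := span_le_one (F := F) b; omega) c
    have hub : pf u b = 1 := by rw [huS b (Submodule.mem_span_singleton_self b), hc]
    refine ⟨u, b - Q b • u, hu, ?_, ?_, by abel⟩
    · rw [q_sub hQ, hQ.smul, hu, hQ.polar_bilinear.smul_right, pf_comm hQ, hub]; ring
    · rw [pf_sub_right hQ, hub, hQ.polar_bilinear.smul_right, pf_self hQ, hu]; ring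
  obtain ⟨x, w, hx, hw, hxw, hbe⟩ := coords b hb
  obtain ⟨x', w', hx', hw', hxw', hbe'⟩ := coords b' (he ▸ hb : Q b' ≠ 0)
  obtain ⟨e, he', hex⟩ := exists_qGen_map5 hQ h2 h5 hx
    (fun h => by simp [h, pf_zero_left hQ] at hxw) hx'
    (fun h => by simp [h, pf_zero_left hQ] at hxw')
  have hgI := qGen_le_isometry hQ he'
  obtain ⟨a, ha, hmap, -⟩ := qE_map hQ hx' (x := (e : Matrix ι ι F) *ᵥ w) (x' := w')
    (by rw [iso_Q hgI, hw]) hw'
    (by rw [← hex, iso_pf hgI, pf_comm hQ, hxw]; exact one_ne_zero)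
    (by rw [pf_comm hQ, hxw', ← hex, iso_pf hgI, pf_comm hQ, hxw])
  have h1 : (qE Q x' a : Matrix ι ι F) *ᵥ x' = x' := by
    rw [qE_mulVec hQ hx' ha, pf_self hQ x', hx', pf_comm hQ x' a, ha]; simp
  refine ⟨qE Q x' a * e, Subgroup.mul_mem _ (qE_mem_qGen hQ hx' ha) he', ?_⟩
  rw [Units.val_mul, ← mulVec_mulVec, hbe, mulVec_add, mulVec_smul, hex, mulVec_add, mulVec_smul,
    hmap, h1, hbe', he]

/-- the singular parameters suffice -/
lemma qGen_le_of_siegel {K : Subgroup (GL ι F)}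
    (hK : ∀ u a, Q u = 0 → Q a = 0 → pf a u = 0 → qE Q u a ∈ K) : qGen Q ≤ K := by
  refine qGen_le hQ fun u a hu hau => ?_
  by_cases ha : Q a = 0
  · exact hK u a hu ha hau
  by_cases hu0 : u = 0
  · subst hu0
    rw [show qE Q 0 a = 1 from gl_ext_mulVec fun y => by
      rw [qE_mulVec hQ hu (pf_zero_right hQ a), pf_zero_right hQ, Units.val_one, one_mulVec]
      simp]
    exact K.one_mem
  -- a singular vector orthogonal to `u` but not to `a`
  obtain ⟨s, hs, hsu, hsa⟩ : ∃ s, Q s = 0 ∧ pf s u = 0 ∧ pf s a ≠ 0 := by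
    have hli : a ∉ Submodule.span F {u} := fun h => by
      obtain ⟨t, rfl⟩ := Submodule.mem_span_singleton.mp h
      exact ha (by rw [hQ.smul, hu, mul_zero])
    obtain ⟨w, hwS, hw⟩ : ∃ w, (∀ t ∈ Submodule.span F {u}, pf w t = 0) ∧ pf w a = 1 := exists_qval hQ _ hli 1
    have hwu : pf w u = 0 := hwS u (Submodule.mem_span_singleton_self u)
    -- a singular vector orthogonal to `u` outside its span
    obtain ⟨z, hz, hzS, hzn⟩ := exists_sing_out hQ (Submodule.span F {u})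
      (by have := span_le_one (F := F) u; omega)
    have hzu : pf z u = 0 := hzS u (Submodule.mem_span_singleton_self u)
    by_cases hza : pf z a = 0
    swap
    · exact ⟨z, hz, hzu, hza⟩
    obtain ⟨y, hyS, hy⟩ := exists_qval hQ (Submodule.span F {u}) hzn 1
    have hyu : pf y u = 0 := hyS u (Submodule.mem_span_singleton_self u)
    obtain ⟨z', hz'⟩ : ∃ z', z' = y - Q y • z := ⟨_, rfl⟩
    have hQz' : Q z' = 0 := by
      rw [hz', q_sub hQ, hQ.smul, hz, hQ.polar_bilinear.smul_right, hy]; ring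
    have hz'u : pf z' u = 0 := by
      rw [hz', pf_sub_left hQ, hQ.polar_bilinear.smul_left, hyu, hzu]; ring
    by_cases hz'a : pf z' a = 0
    swap
    · exact ⟨z', hQz', hz'u, hz'a⟩
    have hzz' : pf z' z = 1 := by
      rw [hz', pf_sub_left hQ, hQ.polar_bilinear.smul_left, hy, pf_self hQ, hz]; ring
    -- move `w` onto the cone
    obtain ⟨w', hw'⟩ : ∃ w', w' = w - pf w z' • z - pf w z • z' := ⟨_, rfl⟩
    have hwz : pf w' z = 0 := by
      rw [hw', pf_sub_left hQ, pf_sub_left hQ, hQ.polar_bilinear.smul_left,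
        hQ.polar_bilinear.smul_left, pf_self hQ z, hz, hzz']; ring
    have hwz' : pf w' z' = 0 := by
      rw [hw', pf_sub_left hQ, pf_sub_left hQ, hQ.polar_bilinear.smul_left,
        hQ.polar_bilinear.smul_left, pf_self hQ z', hQz', pf_comm hQ z z', hzz']; ring
    refine ⟨w' + z - Q w' • z', ?_, ?_, ?_⟩
    · rw [q_sub hQ, q_add hQ, hQ.smul, hz, hQz', hQ.polar_bilinear.smul_right,
        hQ.polar_bilinear.add_left, hwz', pf_comm hQ z z', hzz', hwz]
      ring
    · rw [pf_sub_left hQ, hQ.polar_bilinear.add_left, hQ.polar_bilinear.smul_left, hz'u, hzu, hw',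
        pf_sub_left hQ, pf_sub_left hQ, hQ.polar_bilinear.smul_left, hQ.polar_bilinear.smul_left, hwu,
        hzu, hz'u]
      ring
    · rw [pf_sub_left hQ, hQ.polar_bilinear.add_left, hQ.polar_bilinear.smul_left, hz'a, hza, hw',
        pf_sub_left hQ, pf_sub_left hQ, hQ.polar_bilinear.smul_left, hQ.polar_bilinear.smul_left, hw,
        hza, hz'a]
      simp
  -- `a` is a sum of two singular vectors orthogonal to `u`
  obtain ⟨t, ht⟩ : ∃ t, t = Q a / pf s a := ⟨_, rfl⟩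
  have e1 : pf (t • s) u = 0 := by rw [hQ.polar_bilinear.smul_left, hsu, mul_zero]
  have e2 : pf (a - t • s) u = 0 := by rw [pf_sub_left hQ, hau, e1, sub_zero]
  have h1 := hK u (t • s) hu (by rw [hQ.smul, hs, mul_zero]) e1
  have h3 := hK u (a - t • s) hu (by
    rw [q_sub hQ, hQ.smul, hs, hQ.polar_bilinear.smul_right, pf_comm hQ a s, ht,
      div_mul_cancel₀ _ hsa]; ring) e2
  have := K.mul_mem h1 h3
  rwa [qE_mul hQ hu e1 e2, add_sub_cancel] at this

/-- `Ω` is generated by the Siegel transformations with singular parameters -/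
theorem omega_eq_closure_siegel :
    Cfsg.Omega F Q = Subgroup.closure {g : ↥(Cfsg.isometryGroup F Q) | ∃ (u v : ι → F) (c : F),
      Q u = 0 ∧ Q v = 0 ∧ pf u v = 0 ∧
        ((g : GL ι F) : Matrix ι ι F) = Cfsg.siegelMatrix Q u v c} := by
  obtain ⟨N, hN⟩ : ∃ N, N = Subgroup.closure {g : ↥(Cfsg.isometryGroup F Q) | ∃ (u v : ι → F) (c : F),
      Q u = 0 ∧ Q v = 0 ∧ pf u v = 0 ∧
        ((g : GL ι F) : Matrix ι ι F) = Cfsg.siegelMatrix Q u v c} := ⟨_, rfl⟩
  rw [← hN]
  refine le_antisymm ?_ ?_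
  swap
  · rw [hN, Subgroup.closure_le]
    rintro g ⟨u, v, c, hu, hv, huv, hg⟩
    have hvu : pf ((-c) • v) u = 0 := by
      rw [hQ.polar_bilinear.smul_left, pf_comm hQ, huv, mul_zero]
    have e : g = ⟨qE Q u ((-c) • v), qE_mem_isometry hQ hu hvu⟩ :=
      Subtype.ext (Units.ext (hg.trans (qE_val_siegel hQ hu hv huv c).symm))
    rw [e, SetLike.mem_coe, Cfsg.Omega, commutator_eq_closure]
    exact Subgroup.subset_closure (siegel_mem_commutatorSet hQ h2 hu (by rw [hQ.smul, hv, mul_zero]) hvu)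
  have hqN : ∀ e (he : e ∈ qGen Q), (⟨e, qGen_le_isometry hQ he⟩ : ↥(Cfsg.isometryGroup F Q)) ∈ N := by
    intro e he
    have hle : qGen Q ≤ N.map (Cfsg.isometryGroup F Q).subtype := qGen_le_of_siegel hQ h2 h5
      fun u a hu ha hau => by
        refine ⟨⟨qE Q u a, qE_mem_isometry hQ hu hau⟩, ?_, rfl⟩
        rw [hN]
        refine Subgroup.subset_closure ⟨u, a, -1, hu, ha, by rw [pf_comm hQ]; exact hau, ?_⟩
        rw [← qE_val_siegel hQ hu ha (by rw [pf_comm hQ]; exact hau) (-1), neg_neg, one_smul]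
    obtain ⟨x, hx, hxe⟩ := hle he
    rwa [show (⟨e, qGen_le_isometry hQ he⟩ : ↥(Cfsg.isometryGroup F Q)) = x from Subtype.ext hxe.symm]
  haveI hnor : N.Normal := ⟨fun n hn g => by
    have hle : N ≤ N.comap (MulAut.conj g).toMonoidHom := by
      conv_lhs => rw [hN]
      rw [Subgroup.closure_le]
      rintro x ⟨u, v, c, hu, hv, huv, hx⟩
      have hvu : pf ((-c) • v) u = 0 := by
        rw [hQ.polar_bilinear.smul_left, pf_comm hQ, huv, mul_zero]
      show g * x * g⁻¹ ∈ N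
      have hmem : (g : GL ι F) * qE Q u ((-c) • v) * (g : GL ι F)⁻¹ ∈ qGen Q :=
        conj_mem_qGen hQ g.2 (qE_mem_qGen hQ hu hvu)
      have e : g * x * g⁻¹ = ⟨_, qGen_le_isometry hQ hmem⟩ := Subtype.ext (by
        rw [Subgroup.coe_mul, Subgroup.coe_mul, Subgroup.coe_inv,
          show (x : GL ι F) = qE Q u ((-c) • v) from Units.ext (hx.trans (qE_val_siegel hQ hu hv huv c).symm)])
      rw [e]
      exact hqN _ hmem
    exact hle hn⟩
  obtain ⟨π, hπ⟩ : ∃ π : ↥(Cfsg.isometryGroup F Q) →* ↥(Cfsg.isometryGroup F Q) ⧸ N,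
      π = QuotientGroup.mk' N := ⟨_, rfl⟩
  have hconj : ∀ a (ha : Q a ≠ 0) b (hb : Q b ≠ 0), Q b = Q a → π (rI hQ a ha) = π (rI hQ b hb) := by
    intro a ha b hb hab
    obtain ⟨e, he, heab⟩ := exists_qGen_map_nonsing5 hQ h2 h5 ha hab
    have h1 : π ⟨e, qGen_le_isometry hQ he⟩ = 1 := by
      rw [hπ, QuotientGroup.mk'_apply, QuotientGroup.eq_one_iff]; exact hqN e he
    have h : rI hQ b hb = ⟨e, qGen_le_isometry hQ he⟩ * rI hQ a ha * (⟨e, qGen_le_isometry hQ he⟩)⁻¹ :=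
      Subtype.ext (by
        show qR hQ b = e * qR hQ a * e⁻¹
        rw [conj_qR hQ (qGen_le_isometry hQ he) ha, heab])
    rw [h, map_mul, map_mul, map_inv, h1, inv_one, one_mul, mul_one]
  have hgen : Subgroup.closure (π '' reflSet hQ) = ⊤ := by
    rw [← MonoidHom.map_closure, closure_reflSet hQ (Or.inr (by omega)),
      Subgroup.map_top_of_surjective _ (hπ ▸ QuotientGroup.mk'_surjective N)]
  have hpair : ∀ a (ha : Q a ≠ 0) b (hb : Q b ≠ 0),
      π (rI hQ a ha) * π (rI hQ b hb) = π (rI hQ b hb) * π (rI hQ a ha) := by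
    intro a ha b hb
    have hQd : Q ((qR hQ a : Matrix ι ι F) *ᵥ b) = Q b := iso_Q (qR_mem_isometry hQ ha) b
    have hd : Q ((qR hQ a : Matrix ι ι F) *ᵥ b) ≠ 0 := by rw [hQd]; exact hb
    have h : rI hQ a ha * rI hQ b hb * (rI hQ a ha)⁻¹ = rI hQ ((qR hQ a : Matrix ι ι F) *ᵥ b) hd :=
      Subtype.ext (conj_qR hQ (qR_mem_isometry hQ ha) hb)
    have h' := congrArg π h
    rw [map_mul, map_mul, map_inv, ← hconj b hb _ hd hQd, mul_inv_eq_iff_eq_mul] at h'
    exact h'
  rw [Cfsg.Omega, commutator, Subgroup.commutator_le]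
  intro x _ y _
  rw [← QuotientGroup.eq_one_iff, ← QuotientGroup.mk'_apply, ← hπ, map_commutatorElement,
    commutatorElement_eq_one_iff_mul_comm]
  have hcen : ∀ d (hd : Q d ≠ 0), ∀ z, z * π (rI hQ d hd) = π (rI hQ d hd) * z := by
    intro d hd z
    have : Subgroup.closure (π '' reflSet hQ) ≤ Subgroup.centralizer {π (rI hQ d hd)} := by
      rw [Subgroup.closure_le]
      rintro _ ⟨_, ⟨e, he, rfl⟩, rfl⟩
      exact Subgroup.mem_centralizer_singleton_iff.mpr (hpair e he d hd)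
    exact Subgroup.mem_centralizer_singleton_iff.mp (this (hgen ▸ Subgroup.mem_top z))
  have : Subgroup.closure (π '' reflSet hQ) ≤ Subgroup.centralizer {π y} := by
    rw [Subgroup.closure_le]
    rintro _ ⟨_, ⟨e, he, rfl⟩, rfl⟩
    exact Subgroup.mem_centralizer_singleton_iff.mpr (hcen e he (π y)).symm
  exact Subgroup.mem_centralizer_singleton_iff.mp (this (hgen ▸ Subgroup.mem_top (π x)))

end gen

end CfsgLib.Classical
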