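import Mathlib

/-! Similitudes from images of a basis. -/

set_option autoImplicit false

namespace CfsgLib.Similitude

variable {F V W : Type*} [Field F] [AddCommGroup V] [Module F V] [AddCommGroup W] [Module F W]

theorem map_of_basis (Q : QuadraticForm F V) (Q' : QuadraticForm F W) {ι : Type*} (b : Module.Basis ι F V) (u : ι → W) (c : F)
    (h1 : ∀ i, Q' (u i) = c * Q (b i))
    (h2 : ∀ i j, QuadraticMap.polar (⇑Q') (u i) (u j) = c * QuadraticMap.polar (⇑Q) (b i) (b j)) :
    ∀ x, Q' (b.constr F u x) = c * Q x := by
  let D : QuadraticForm F V := Q'.comp (b.constr F u) - c • Q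
  have hD : ∀ x, D x = Q' (b.constr F u x) - c * Q x := fun x => by simp [D]
  have hp : ∀ x y, QuadraticMap.polar (⇑D) x y = 0 := by
    have : QuadraticMap.polarBilin D = 0 := b.ext fun i => b.ext fun j => by
      rw [QuadraticMap.polarBilin_apply_apply]
      simp only [QuadraticMap.polar, hD, map_add, b.constr_basis, LinearMap.zero_apply]
      have := h2 i j
      simp only [QuadraticMap.polar] at this
      linear_combination this
    intro x y
    exact LinearMap.congr_fun (LinearMap.congr_fun this x) y
  intro x
  have hx : x ∈ Submodule.span F (Set.range b) := b.mem_span x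
  suffices D x = 0 by rw [hD] at this; exact sub_eq_zero.1 this
  induction hx using Submodule.span_induction with
  | mem y hy =>
    obtain ⟨i, rfl⟩ := hy
    rw [hD, b.constr_basis, h1, sub_self]
  | zero => exact QuadraticMap.map_zero D
  | add y z _ _ hy hz => rw [QuadraticMap.map_add (⇑D), hy, hz, hp, add_zero, add_zero]
  | smul a y _ hy => rw [QuadraticMap.map_smul, hy, smul_zero]

theorem exists_equiv [FiniteDimensional F V] [FiniteDimensional F W] (Q : QuadraticForm F V) (Q' : QuadraticForm F W)
    (hQ : (QuadraticMap.polarBilin Q).Nondegenerate) (hd : Module.finrank F V = Module.finrank F W)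
    {ι : Type*} (b : Module.Basis ι F V) (u : ι → W) {c : F} (hc : c ≠ 0)
    (h1 : ∀ i, Q' (u i) = c * Q (b i))
    (h2 : ∀ i j, QuadraticMap.polar (⇑Q') (u i) (u j) = c * QuadraticMap.polar (⇑Q) (b i) (b j)) :
    ∃ g : V ≃ₗ[F] W, ∀ x, Q' (g x) = c * Q x := by
  have h := map_of_basis Q Q' b u c h1 h2
  have hinj : Function.Injective (b.constr F u) := by
    rw [← LinearMap.ker_eq_bot, LinearMap.ker_eq_bot']
    intro x hx
    refine hQ.1 x fun y => ?_
    have h3 : QuadraticMap.polar (⇑Q') (b.constr F u x) (b.constr F u y) = c * QuadraticMap.polar (⇑Q) x y := by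
      simp only [QuadraticMap.polar, ← map_add, h]; ring
    rw [hx, QuadraticMap.polar_zero_left] at h3
    exact (mul_eq_zero.1 h3.symm).resolve_left hc
  exact ⟨LinearEquiv.ofBijective _ ⟨hinj, (LinearMap.injective_iff_surjective_of_finrank_eq_finrank hd).1 hinj⟩, h⟩

end CfsgLib.Similitude
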