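import Mathlib

/-! Centralisers of irreducible elements of prime order. -/

set_option autoImplicit false

namespace CfsgLib.SingerCentraliser

open Matrix

variable {F : Type*} [Field F]

theorem small_trivial [Fintype F] {d n r : ℕ} (hr : r.Prime) (hd : d < n)
    (hi : orderOf ((Fintype.card F : ℕ) : ZMod r) = n) (M : Matrix (Fin d) (Fin d) F) (hM : M ^ r = 1) : M = 1 := by
  classical
  haveI : Fact r.Prime := ⟨hr⟩
  by_contra hne
  let u : GL (Fin d) F := Units.ofPowEqOne M r hM hr.ne_zero
  have hu : orderOf u = r := orderOf_eq_prime (Units.ext (by simpa [u] using hM)) (fun e => hne (by simpa [u] using congrArg (fun y : GL (Fin d) F => (y : Matrix (Fin d) (Fin d) F)) e))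
  have h1 : r ∣ Nat.card (GL (Fin d) F) := hu ▸ orderOf_dvd_natCard u
  rw [Matrix.card_GL_field] at h1
  obtain ⟨i, -, hi'⟩ := (Prime.dvd_finset_prod_iff hr.prime _).1 h1
  have h2 : ((Fintype.card F : ℕ) : ZMod r) ^ d = ((Fintype.card F : ℕ) : ZMod r) ^ (i : ℕ) := by
    have hle : Fintype.card F ^ (i : ℕ) ≤ Fintype.card F ^ d := Nat.pow_le_pow_right Fintype.card_pos i.2.le
    have h3 : ((Fintype.card F ^ d - Fintype.card F ^ (i : ℕ) : ℕ) : ZMod r) = 0 := (ZMod.natCast_eq_zero_iff _ _).2 hi'
    rw [Nat.cast_sub hle] at h3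
    push_cast at h3
    exact sub_eq_zero.1 h3
  have hq0 : ((Fintype.card F : ℕ) : ZMod r) ≠ 0 := by
    intro e
    have : orderOf (0 : ZMod r) = n := e ▸ hi
    rw [orderOf_zero] at this
    omega
  have h4 : ((Fintype.card F : ℕ) : ZMod r) ^ (d - (i : ℕ)) = 1 := by
    have := h2
    conv_lhs at this => rw [← Nat.sub_add_cancel i.2.le, pow_add]
    exact mul_right_cancel₀ (pow_ne_zero _ hq0) (by rwa [one_mul])
  have h5 := orderOf_dvd_of_pow_eq_one h4
  rw [hi] at h5
  have h6 := Nat.le_of_dvd (by omega) h5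
  omega

theorem end_small_trivial [Fintype F] {W : Type*} [AddCommGroup W] [Module F W] [FiniteDimensional F W] {n r : ℕ}
    (hr : r.Prime) (hd : Module.finrank F W < n) (hi : orderOf ((Fintype.card F : ℕ) : ZMod r) = n)
    (T : Module.End F W) (hT : T ^ r = 1) : T = 1 := by
  let b := Module.finBasis F W
  apply (LinearMap.toMatrixAlgEquiv b).injective
  rw [map_one]
  exact small_trivial hr hd hi _ (by rw [← map_pow, hT, map_one])

/-- The centraliser of an irreducible element of prime order. -/
theorem centraliser [Fintype F] {n r : ℕ} (hn : 1 ≤ n) (hr : r.Prime) (hrF : (r : F) ≠ 0)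
    (hi : orderOf ((Fintype.card F : ℕ) : ZMod r) = n) (x : GL (Fin n) F) (hx : orderOf x = r) :
    IsCyclic (Subgroup.centralizer ({x} : Set (GL (Fin n) F))) ∧
      Nat.card (Subgroup.centralizer ({x} : Set (GL (Fin n) F))) = Fintype.card F ^ n - 1 := by
  classical
  set M : Matrix (Fin n) (Fin n) F := (x : Matrix (Fin n) (Fin n) F) with hM
  have hMr : M ^ r = 1 := by
    rw [hM, ← Units.val_pow_eq_pow_val, ← hx, pow_orderOf_eq_one, Units.val_one]
  let f : Module.End F (Fin n → F) := Matrix.toLinAlgEquiv' M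
  have hfr : f ^ r = 1 := by rw [← map_pow, hMr, map_one]
  have hirr : ∀ W : Submodule F (Fin n → F), (∀ w ∈ W, M *ᵥ w ∈ W) → W = ⊥ ∨ W = ⊤ := by
    intro W hW
    by_contra hcon
    push Not at hcon
    have hW' : ∀ w ∈ W, f w ∈ W := hW
    have hdim : Module.finrank F W < n := by
      have := Submodule.finrank_lt hcon.2
      rwa [Module.finrank_fintype_fun_eq_card, Fintype.card_fin] at this
    have h1 : f.restrict hW' = 1 := end_small_trivial hr hdim hi _ (by
      rw [Module.End.pow_restrict]
      ext w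
      simp [hfr])
    have hdim' : Module.finrank F ((Fin n → F) ⧸ W) < n := by
      have h := W.finrank_quotient_add_finrank
      rw [Module.finrank_fintype_fun_eq_card, Fintype.card_fin] at h
      have hpos : 0 < Module.finrank F W := Nat.pos_of_ne_zero fun e => hcon.1 (Submodule.finrank_eq_zero.1 e)
      omega
    have h2 : W.mapQ W f hW' = 1 := end_small_trivial hr hdim' hi _ (by
      rw [← Submodule.mapQ_pow]
      ext w
      simp [hfr])
    have h3 : ∀ v, f v - v ∈ W := by
      intro v
      rw [← Submodule.Quotient.eq]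
      exact LinearMap.congr_fun h2 (Submodule.Quotient.mk v)
    have h4 : (f - 1) * (f - 1) = 0 := by
      refine LinearMap.ext fun v => ?_
      have h5 := congrArg Subtype.val (LinearMap.congr_fun h1 ⟨f v - v, h3 v⟩)
      simp only [LinearMap.restrict_apply, Module.End.one_apply] at h5
      simp [h5]
    have h6 : ∀ k : ℕ, f ^ k = 1 + k • (f - 1) := by
      intro k
      induction k with
      | zero => simp
      | succ k ih =>
        rw [pow_succ, ih]
        have : f = 1 + (f - 1) := by abel
        conv_lhs => rw [show (1 + k • (f - 1)) * f = (1 + k • (f - 1)) * (1 + (f - 1)) by rw [← this]]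
        rw [mul_add, mul_one, add_mul, one_mul, smul_mul_assoc, h4, smul_zero, add_zero, succ_nsmul, add_assoc]
    have h7 := h6 r
    rw [hfr, left_eq_add, ← Nat.cast_smul_eq_nsmul F, smul_eq_zero] at h7
    have h8 : f = 1 := sub_eq_zero.1 (h7.resolve_left hrF)
    have h9 : x = 1 := Units.ext (Matrix.toLinAlgEquiv'.injective (h8.trans (map_one _).symm))
    rw [h9, orderOf_one] at hx
    exact hr.one_lt.ne hx
  haveI : NeZero n := ⟨by omega⟩
  obtain ⟨v, hv⟩ : ∃ v : Fin n → F, v ≠ 0 := exists_ne 0
  let A := Algebra.adjoin F ({M} : Set (Matrix (Fin n) (Fin n) F))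
  let Φ : A →ₗ[F] (Fin n → F) :=
    { toFun := fun a => (a : Matrix (Fin n) (Fin n) F) *ᵥ v
      map_add' := fun a b => by simp [Matrix.add_mulVec]
      map_smul' := fun c a => by simp [Matrix.smul_mulVec] }
  have hMA : M ∈ A := Algebra.self_mem_adjoin_singleton F M
  have hsurj : Function.Surjective Φ := by
    rw [← LinearMap.range_eq_top]
    refine (hirr _ ?_).resolve_left fun e => hv ?_
    · rintro _ ⟨a, rfl⟩
      exact ⟨⟨M * a, mul_mem hMA a.2⟩, (Matrix.mulVec_mulVec v M a).symm⟩
    · have h1 : v ∈ LinearMap.range Φ := ⟨1, by simp [Φ]⟩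
      rw [e, Submodule.mem_bot] at h1
      exact h1
  -- elements commuting with `M` are determined by their value at `v`
  have hdet : ∀ a b : Matrix (Fin n) (Fin n) F, Commute a M → Commute b M → a *ᵥ v = b *ᵥ v → a = b := by
    intro a b ha hb hab
    let K : Submodule F (Fin n → F) := LinearMap.ker (Matrix.mulVecLin (a - b))
    have hK : K = ⊤ := by
      refine (hirr K fun w hw => ?_).resolve_left fun e => hv ?_
      · simp only [K, LinearMap.mem_ker, Matrix.mulVecLin_apply] at hw ⊢
        rw [Matrix.mulVec_mulVec, (ha.sub_left hb).eq, ← Matrix.mulVec_mulVec, hw, Matrix.mulVec_zero]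
      · have h1 : v ∈ K := by simp [K, Matrix.sub_mulVec, hab]
        rw [e, Submodule.mem_bot] at h1
        exact h1
    refine sub_eq_zero.1 (Matrix.ext_of_mulVec_single fun i => ?_)
    have h1 : Pi.single i (1 : F) ∈ K := hK ▸ trivial
    exact (show (a - b) *ᵥ _ = 0 from h1).trans (Matrix.zero_mulVec _).symm
  have hAcomm : ∀ a : A, Commute (a : Matrix (Fin n) (Fin n) F) M := fun a => by
    have hc : A ≤ Subalgebra.centralizer F ({M} : Set (Matrix (Fin n) (Fin n) F)) :=
      Algebra.adjoin_le (by simp [Set.mem_centralizer_iff])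
    exact ((Subalgebra.mem_centralizer_iff F).1 (hc a.2) M rfl).symm
  have hmemA : ∀ a : Matrix (Fin n) (Fin n) F, Commute a M → a ∈ A := by
    intro a ha
    obtain ⟨b, hb⟩ := hsurj (a *ᵥ v)
    rw [hdet a b ha (hAcomm b) hb.symm]
    exact b.2
  letI : CommRing A := { (inferInstance : Ring A) with
    mul_comm := fun a b => Subtype.ext (by
      have hcm : ∀ c ∈ A, Commute (a : Matrix (Fin n) (Fin n) F) c := fun c hc => by
        have h1 : A ≤ Subalgebra.centralizer F ({(a : Matrix (Fin n) (Fin n) F)} : Set (Matrix (Fin n) (Fin n) F)) :=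
          Algebra.adjoin_le (by simpa [Set.mem_centralizer_iff] using (hAcomm a).eq)
        exact (Subalgebra.mem_centralizer_iff F).1 (h1 hc) _ rfl
      exact hcm _ b.2) }
  haveI : Nontrivial A := ⟨⟨1, 0, fun e => hv (by
    have := congrArg (fun a : A => (a : Matrix (Fin n) (Fin n) F) *ᵥ v) e
    simpa using this)⟩⟩
  haveI : IsDomain A := by
    haveI : NoZeroDivisors A := ⟨fun {a b} hab => by
      by_contra hcon
      push Not at hcon
      obtain ⟨ha, hb⟩ := hcon
      have hab' : (a : Matrix (Fin n) (Fin n) F) * (b : Matrix (Fin n) (Fin n) F) = 0 := congrArg Subtype.val hab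
      let K : Submodule F (Fin n → F) := LinearMap.ker (Matrix.mulVecLin (a : Matrix (Fin n) (Fin n) F))
      rcases hirr K (fun w hw => by
          simp only [K, LinearMap.mem_ker, Matrix.mulVecLin_apply] at hw ⊢
          rw [Matrix.mulVec_mulVec, (hAcomm a).eq, ← Matrix.mulVec_mulVec, hw, Matrix.mulVec_zero]) with hK | hK
      · refine hb (Subtype.ext (Matrix.ext_of_mulVec_single fun i => ?_))
        have h1 : (b : Matrix (Fin n) (Fin n) F) *ᵥ Pi.single i 1 ∈ K := by
          show (a : Matrix (Fin n) (Fin n) F) *ᵥ _ = 0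
          rw [Matrix.mulVec_mulVec, hab', Matrix.zero_mulVec]
        rw [hK, Submodule.mem_bot] at h1
        exact h1.trans (Matrix.zero_mulVec _).symm
      · refine ha (Subtype.ext (Matrix.ext_of_mulVec_single fun i => ?_))
        have h1 : Pi.single i (1 : F) ∈ K := hK ▸ trivial
        exact (show (a : Matrix (Fin n) (Fin n) F) *ᵥ _ = 0 from h1).trans (Matrix.zero_mulVec _).symm⟩
    exact NoZeroDivisors.to_isDomain _
  have hmem : ∀ g : Subgroup.centralizer ({x} : Set (GL (Fin n) F)), Commute ((g : GL (Fin n) F) : Matrix (Fin n) (Fin n) F) M := fun g => by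
    have h1 := congrArg (fun y : GL (Fin n) F => (y : Matrix (Fin n) (Fin n) F)) (Subgroup.mem_centralizer_iff.1 g.2 x rfl)
    exact h1.symm
  let ι : Subgroup.centralizer ({x} : Set (GL (Fin n) F)) →* A :=
    { toFun := fun g => ⟨((g : GL (Fin n) F) : Matrix (Fin n) (Fin n) F), hmemA _ (hmem g)⟩
      map_one' := rfl
      map_mul' := fun _ _ => rfl }
  refine ⟨isCyclic_of_subgroup_isDomain ι (fun a b e => Subtype.ext (Units.ext (congrArg Subtype.val e))), ?_⟩
  let ψ : Subgroup.centralizer ({x} : Set (GL (Fin n) F)) → {w : Fin n → F // w ≠ 0} := fun g =>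
    ⟨((g : GL (Fin n) F) : Matrix (Fin n) (Fin n) F) *ᵥ v, fun e => hv (Matrix.mulVec_injective_of_isUnit (Units.isUnit (g : GL (Fin n) F)) (e.trans (Matrix.mulVec_zero _).symm))⟩
  have hψ : Function.Bijective ψ := by
    constructor
    · intro a b e
      exact Subtype.ext (Units.ext (hdet _ _ (hmem a) (hmem b) (congrArg Subtype.val e)))
    · rintro ⟨w, hw⟩
      obtain ⟨a, ha⟩ := hsurj w
      have ha0 : a ≠ 0 := fun e => hw (by rw [← ha, e]; simp [Φ])
      have hdet0 : (a : Matrix (Fin n) (Fin n) F).det ≠ 0 := by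
        intro e
        obtain ⟨u, hu0, hu⟩ := Matrix.exists_mulVec_eq_zero_iff.2 e
        let K : Submodule F (Fin n → F) := LinearMap.ker (Matrix.mulVecLin (a : Matrix (Fin n) (Fin n) F))
        rcases hirr K (fun w hw => by
            simp only [K, LinearMap.mem_ker, Matrix.mulVecLin_apply] at hw ⊢
            rw [Matrix.mulVec_mulVec, (hAcomm a).eq, ← Matrix.mulVec_mulVec, hw, Matrix.mulVec_zero]) with hK | hK
        · have h1 : u ∈ K := hu
          rw [hK, Submodule.mem_bot] at h1
          exact hu0 h1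
        · refine ha0 (Subtype.ext (Matrix.ext_of_mulVec_single fun i => ?_))
          have h1 : Pi.single i (1 : F) ∈ K := hK ▸ trivial
          exact (show (a : Matrix (Fin n) (Fin n) F) *ᵥ _ = 0 from h1).trans (Matrix.zero_mulVec _).symm
      refine ⟨⟨Matrix.GeneralLinearGroup.mkOfDetNeZero _ hdet0, Subgroup.mem_centralizer_iff.2 fun y hy => ?_⟩, Subtype.ext ha⟩
      rw [Set.mem_singleton_iff] at hy
      subst hy
      exact Units.ext (hAcomm a).eq.symm
  rw [Nat.card_congr (Equiv.ofBijective ψ hψ), Nat.card_eq_fintype_card, Fintype.card_subtype_compl, Fintype.card_subtype_eq, Fintype.card_fun, Fintype.card_fin]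

end CfsgLib.SingerCentraliser
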