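import Cfsg.Agent.Lib.ClassicalSpParabolic
import Mathlib.LinearAlgebra.Matrix.GeneralLinearGroup.Card
import Mathlib.FieldTheory.Finite.Extension

/-!
Elements of odd prime order of `Sp_{2d}(q)` fixing no pair of complementary Lagrangian subspaces.
-/

set_option autoImplicit false

namespace CfsgLib.SpDer

attribute [local instance] _root_.Classical.propDecidable

open Matrix CfsgLib.Classical

variable {F : Type*} [Field F] [Fintype F] {d : ℕ}

local notation "VV" => Fin d ⊕ Fin d → F
local notation "Sp" => Matrix.symplecticGroup (Fin d) F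

/-- ordered pairs of complementary totally isotropic subspaces -/
abbrev Pairs (F : Type*) [Field F] (d : ℕ) :=
  {P : Submodule F (Fin d ⊕ Fin d → F) × Submodule F (Fin d ⊕ Fin d → F) // IsCompl P.1 P.2 ∧
    (∀ u ∈ P.1, ∀ v ∈ P.1, Cfsg.sympForm d F u v = 0) ∧
    (∀ u ∈ P.2, ∀ v ∈ P.2, Cfsg.sympForm d F u v = 0)}

variable (F d) in
/-- the symplectic form, bundled -/
noncomputable abbrev sB : LinearMap.BilinForm F VV :=
  toBil (isSymplecticForm_sympForm (F := F) (m := d)).bilinear

/-- standard left vectors -/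
def eL (i : Fin d) : VV := Pi.single (Sum.inl i) 1
/-- standard right vectors -/
def eR (i : Fin d) : VV := Pi.single (Sum.inr i) 1

lemma B_apply (u v : VV) : (sB F d) u v = Cfsg.sympForm d F u v := rfl

lemma form_LL (i k : Fin d) : Cfsg.sympForm d F (eL i) (eL k) = 0 := by
  simp [sympForm_apply, eL, Pi.single_apply]

lemma form_RR (i k : Fin d) : Cfsg.sympForm d F (eR i) (eR k) = 0 := by
  simp [sympForm_apply, eR, Pi.single_apply]

lemma form_eL (i : Fin d) (v : VV) : Cfsg.sympForm d F v (eL i) = v (Sum.inr i) := by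
  simp [sympForm_apply, eL, Pi.single_apply]

lemma form_span {S : Set VV} (h : ∀ a ∈ S, ∀ b ∈ S, Cfsg.sympForm d F a b = 0) :
    ∀ u ∈ Submodule.span F S, ∀ v ∈ Submodule.span F S, Cfsg.sympForm d F u v = 0 := by
  intro u hu v hv
  show (sB F d) u v = 0
  induction hu using Submodule.span_induction with
  | mem x hx =>
    induction hv using Submodule.span_induction with
    | mem y hy => exact h x hx y hy
    | zero => exact map_zero _
    | add a b _ _ ha hb => simp only [map_add, ha, hb, add_zero]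
    | smul c a _ ha => simp only [map_smul, ha, smul_zero]
  | zero => simp
  | add a b _ _ ha hb => simp only [map_add, LinearMap.add_apply, ha, hb, add_zero]
  | smul c a _ ha => simp only [map_smul, LinearMap.smul_apply, ha, smul_zero]

/-- basis indexed by the images of the standard vectors under a symplectic matrix -/
noncomputable def gEquiv (g : Sp) : VV ≃ₗ[F] VV :=
  LinearEquiv.ofInjectiveEndo (Matrix.mulVecLin g.1) (CfsgLib.SpPar.mulVec_injective g)

lemma gEquiv_apply (g : Sp) (v : VV) : gEquiv g v = g.1 *ᵥ v := rfl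

variable (F d) in
/-- the standard subspaces -/
def stdL : Submodule F VV := Submodule.span F (Set.range eL)
variable (F d) in
/-- the standard subspaces -/
def stdR : Submodule F VV := Submodule.span F (Set.range eR)

lemma stdL_supp {x : VV} (hx : x ∈ stdL F d) (i : Fin d) : x (Sum.inr i) = 0 := by
  unfold stdL at hx
  induction hx using Submodule.span_induction with
  | mem y hy' => obtain ⟨k, rfl⟩ := hy'; simp [eL]
  | zero => rfl
  | add a b _ _ ha hb => simp [ha, hb]
  | smul c a _ ha => simp [ha]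

lemma stdR_supp {x : VV} (hx : x ∈ stdR F d) (i : Fin d) : x (Sum.inl i) = 0 := by
  unfold stdR at hx
  induction hx using Submodule.span_induction with
  | mem y hy' => obtain ⟨k, rfl⟩ := hy'; simp [eR]
  | zero => rfl
  | add a b _ _ ha hb => simp [ha, hb]
  | smul c a _ ha => simp [ha]

lemma isCompl_std : IsCompl (stdL F d) (stdR F d) := by
  constructor
  · rw [Submodule.disjoint_def]
    intro x hx hy
    ext s
    rcases s with i | i
    · exact stdR_supp hy i
    · exact stdL_supp hx i
  · rw [codisjoint_iff, eq_top_iff]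
    intro x _
    rw [pi_eq_sum_univ x, Fintype.sum_sum_type]
    refine Submodule.add_mem_sup (Submodule.sum_mem _ fun i _ => ?_) (Submodule.sum_mem _ fun i _ => ?_)
    · refine Submodule.smul_mem _ _ ?_
      have : (fun s => if Sum.inl i = s then (1 : F) else 0) = eL i := by
        ext s; simp [eL, Pi.single_apply, eq_comm]
      rw [this]; exact Submodule.subset_span ⟨i, rfl⟩
    · refine Submodule.smul_mem _ _ ?_
      have : (fun s => if Sum.inr i = s then (1 : F) else 0) = eR i := by
        ext s; simp [eR, Pi.single_apply, eq_comm]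
      rw [this]; exact Submodule.subset_span ⟨i, rfl⟩

/-- A pair with a basis of the first member. -/
abbrev Framed (F : Type*) [Field F] (d : ℕ) :=
  Σ P : Pairs F d, {e : Fin d → P.1.1 // LinearIndependent F e}

lemma finrank_fst (P : Pairs F d) : Module.finrank F P.1.1 = d := by
  have hB : (sB F d).Nondegenerate := by
    constructor <;> intro x hx <;> by_contra h0
    · obtain ⟨-, y, hy⟩ := isSymplecticForm_sympForm.nondegenerate x h0
      exact hy (hx y)
    · obtain ⟨⟨y, hy⟩, -⟩ := isSymplecticForm_sympForm.nondegenerate x h0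
      exact hy (hx y)
  have hsum : Module.finrank F P.1.1 + Module.finrank F P.1.2 = 2 * d := by
    rw [Submodule.finrank_add_eq_of_isCompl P.2.1, Module.finrank_fintype_fun_eq_card]
    simp; omega
  have aux : ∀ X : Submodule F VV, (∀ u ∈ X, ∀ v ∈ X, Cfsg.sympForm d F u v = 0) →
      Module.finrank F X ≤ d := by
    intro X hX
    have hle : X ≤ LinearMap.BilinForm.orthogonal (sB F d) X := fun x hx y hy => hX y hy x hx
    have h := Submodule.finrank_mono hle
    rw [LinearMap.BilinForm.finrank_orthogonal hB, Module.finrank_fintype_fun_eq_card] at h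
    simp at h; omega
  have := aux _ P.2.2.1
  have := aux _ P.2.2.2
  omega

/-- the framed pair of a symplectic matrix -/
noncomputable def ofSp (g : Sp) : Framed F d :=
  ⟨⟨((stdL F d).map (gEquiv g : VV →ₗ[F] VV), (stdR F d).map (gEquiv g : VV →ₗ[F] VV)),
    by
      refine ⟨(isCompl_std.map (Submodule.orderIsoMapComap (gEquiv g))), ?_, ?_⟩
      · rintro _ ⟨u, hu, rfl⟩ _ ⟨v, hv, rfl⟩
        exact (CfsgLib.SpPar.apply_form g u v).trans
          (form_span (by rintro _ ⟨i, rfl⟩ _ ⟨k, rfl⟩; exact form_LL i k) u hu v hv)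
      · rintro _ ⟨u, hu, rfl⟩ _ ⟨v, hv, rfl⟩
        exact (CfsgLib.SpPar.apply_form g u v).trans
          (form_span (by rintro _ ⟨i, rfl⟩ _ ⟨k, rfl⟩; exact form_RR i k) u hu v hv)⟩,
   ⟨fun i => ⟨gEquiv g (eL i), Submodule.mem_map_of_mem (Submodule.subset_span ⟨i, rfl⟩)⟩, by
      refine LinearIndependent.of_comp (Submodule.subtype _) ?_
      have : LinearIndependent F (eL : Fin d → VV) := by
        have h := (Pi.basisFun F (Fin d ⊕ Fin d)).linearIndependent.comp _
          (Sum.inl_injective : Function.Injective (Sum.inl : Fin d → Fin d ⊕ Fin d))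
        have he : (eL : Fin d → VV) = (Pi.basisFun F (Fin d ⊕ Fin d)) ∘ Sum.inl := by
          funext i; simp [eL]
        rw [he]; exact h
      exact this.map' (gEquiv g : VV →ₗ[F] VV) (LinearEquiv.ker _)⟩⟩

theorem ofSp_injective : Function.Injective (ofSp (F := F) (d := d)) := by
  intro g g' h
  have hL : ∀ i, g.1 *ᵥ eL i = g'.1 *ᵥ eL i := fun i =>
    congrArg (fun s : Framed F d => ((s.2.1 i : s.1.1.1) : VV)) h
  have hR : (stdR F d).map (gEquiv g : VV →ₗ[F] VV) = (stdR F d).map (gEquiv g' : VV →ₗ[F] VV) :=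
    congrArg (fun s : Framed F d => s.1.1.2) h
  have key : ∀ v ∈ stdR F d, g.1 *ᵥ v = g'.1 *ᵥ v := by
    intro v hv
    obtain ⟨w, hw, hwe⟩ := hR ▸ (Submodule.mem_map_of_mem (f := (gEquiv g : VV →ₗ[F] VV)) hv)
    change g'.1 *ᵥ w = g.1 *ᵥ v at hwe
    have : v = w := by
      ext s
      rcases s with i | i
      · rw [stdR_supp hv, stdR_supp hw]
      · have e1 : Cfsg.sympForm d F (g.1 *ᵥ v) (g.1 *ᵥ eL i) =
            Cfsg.sympForm d F (g'.1 *ᵥ w) (g'.1 *ᵥ eL i) := by rw [hwe, hL]
        rwa [CfsgLib.SpPar.apply_form, CfsgLib.SpPar.apply_form, form_eL, form_eL] at e1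
    rw [← hwe, this]
  refine Subtype.ext (Matrix.toLin'.injective ?_)
  refine (Pi.basisFun F (Fin d ⊕ Fin d)).ext fun s => ?_
  rw [Pi.basisFun_apply, Matrix.toLin'_apply, Matrix.toLin'_apply]
  rcases s with i | i
  · exact hL i
  · exact key _ (Submodule.subset_span ⟨i, rfl⟩)

theorem ofSp_surjective : Function.Surjective (ofSp (F := F) (d := d)) := by
  rintro ⟨⟨⟨U, W⟩, hc, hU, hW⟩, ⟨e, he⟩⟩
  let P : Pairs F d := ⟨(U, W), hc, hU, hW⟩
  have hdU : Module.finrank F U = d := finrank_fst P
  have hdW : Module.finrank F W = d := finrank_fst ⟨(W, U), hc.symm, hW, hU⟩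
  -- pairing of `W` with the chosen basis of `U`
  let T : W →ₗ[F] Fin d → F := LinearMap.pi fun i => ((sB F d).flip (e i : VV)).comp W.subtype
  have hT : Function.Injective T := by
    rw [injective_iff_map_eq_zero]
    intro w hw
    by_contra h0
    have h0' : (w : VV) ≠ 0 := fun h => h0 (Subtype.ext h)
    obtain ⟨-, y, hy⟩ := isSymplecticForm_sympForm.nondegenerate (w : VV) h0'
    apply hy
    have hspan : Submodule.span F (Set.range e) = ⊤ :=
      he.span_eq_top_of_card_eq_finrank' (by simp [hdU])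
    have hUw : ∀ u : U, (sB F d) (w : VV) (u : VV) = 0 := by
      intro u
      have hu : u ∈ Submodule.span F (Set.range e) := hspan ▸ Submodule.mem_top
      induction hu using Submodule.span_induction with
      | mem x hx => obtain ⟨i, rfl⟩ := hx; exact congrFun hw i
      | zero => exact map_zero _
      | add a b _ _ ha hb => simp only [Submodule.coe_add, map_add, ha, hb, add_zero]
      | smul c a _ ha => simp only [Submodule.coe_smul, map_smul, ha, smul_zero]
    have hy' : y ∈ U ⊔ W := hc.sup_eq_top ▸ Submodule.mem_top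
    obtain ⟨a, ha, b, hb, rfl⟩ := Submodule.mem_sup.mp hy'
    show (sB F d) (w : VV) (a + b) = 0
    rw [map_add, hUw ⟨a, ha⟩, B_apply, hW _ w.2 b hb, add_zero]
  let Te := LinearEquiv.ofInjectiveOfFinrankEq T hT (by rw [hdW, Module.finrank_fintype_fun_eq_card, Fintype.card_fin])
  let f : Fin d → VV := fun i => (Te.symm (Pi.single i 1) : W)
  have hf : ∀ i k, Cfsg.sympForm d F (f i) (e k : VV) = if k = i then 1 else 0 := by
    intro i k
    have : Cfsg.sympForm d F (f i) (e k : VV) = (Pi.single i (1 : F) : Fin d → F) k :=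
      congrFun (Te.apply_symm_apply (Pi.single i 1)) k
    rw [Pi.single_apply] at this
    exact this
  let c : Fin d ⊕ Fin d → VV := Sum.elim (fun i => (e i : VV)) f
  let A : VV →ₗ[F] VV := (Pi.basisFun F (Fin d ⊕ Fin d)).constr F c
  have hA : ∀ s, A (Pi.single s 1) = c s := fun s => by
    rw [← Pi.basisFun_apply]; exact Module.Basis.constr_basis _ _ _ _
  have hpair : ∀ s t, Cfsg.sympForm d F (c s) (c t) =
      Cfsg.sympForm d F (Pi.single s 1) (Pi.single t 1) := by
    rintro (i | i) (k | k)
    · exact (hU _ (e i).2 _ (e k).2).trans (form_LL i k).symm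
    · show Cfsg.sympForm d F (e i : VV) (f k) = _
      rw [isSymplecticForm_sympForm.skew, hf, isSymplecticForm_sympForm.skew (Pi.single _ _)]
      exact congrArg _ ((form_eL i (eR k)).trans (by simp [eR, Pi.single_apply, eq_comm])).symm
    · show Cfsg.sympForm d F (f i) (e k : VV) = _
      rw [hf]
      exact ((form_eL k (eR i)).trans (by simp [eR, Pi.single_apply])).symm
    · exact (hW _ (Te.symm _).2 _ (Te.symm _).2).trans (form_RR i k).symm
  have hiso : ∀ u v, Cfsg.sympForm d F (A u) (A v) = Cfsg.sympForm d F u v := by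
    intro u v
    have : ((sB F d).comp A A) = (sB F d) := by
      refine LinearMap.BilinForm.ext_basis (Pi.basisFun F (Fin d ⊕ Fin d)) fun s t => ?_
      rw [LinearMap.BilinForm.comp_apply, Pi.basisFun_apply, Pi.basisFun_apply, hA, hA]
      exact hpair s t
    exact congrArg (fun X : LinearMap.BilinForm F VV => X u v) this
  have hm : LinearMap.toMatrix' A ∈ Sp := mem_symplecticGroup_iff.2 fun u v => by
    rw [LinearMap.toMatrix'_mulVec, LinearMap.toMatrix'_mulVec]; exact hiso u v
  let g : Sp := ⟨_, hm⟩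
  have hg : ∀ v, g.1 *ᵥ v = A v := fun v => LinearMap.toMatrix'_mulVec _ _
  refine ⟨g, ?_⟩
  have hge : ∀ s, gEquiv g (Pi.single s 1) = c s := fun s => (hg _).trans (hA s)
  have hUm : (stdL F d).map (gEquiv g : VV →ₗ[F] VV) = U := by
    refine Submodule.eq_of_le_of_finrank_eq ?_ ?_
    · rw [stdL, Submodule.map_span_le]
      rintro _ ⟨i, rfl⟩
      show gEquiv g (Pi.single (Sum.inl i) 1) ∈ U
      rw [hge]; exact (e i).2
    · exact (finrank_fst (ofSp g).1).trans hdU.symm
  have hWm : (stdR F d).map (gEquiv g : VV →ₗ[F] VV) = W := by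
    refine Submodule.eq_of_le_of_finrank_eq ?_ ?_
    · rw [stdR, Submodule.map_span_le]
      rintro _ ⟨i, rfl⟩
      show gEquiv g (Pi.single (Sum.inr i) 1) ∈ W
      rw [hge]; exact (Te.symm _).2
    · refine (finrank_fst (⟨((ofSp g).1.1.2, (ofSp g).1.1.1), (ofSp g).1.2.1.symm,
        (ofSp g).1.2.2.2, (ofSp g).1.2.2.1⟩ : Pairs F d)).trans hdW.symm
  have hsig : ∀ (P₁ P₂ : Pairs F d) (h : P₁ = P₂)
      (e₁ : {e : Fin d → P₁.1.1 // LinearIndependent F e})
      (e₂ : {e : Fin d → P₂.1.1 // LinearIndependent F e}),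
      (∀ i, (e₁.1 i : VV) = e₂.1 i) → (⟨P₁, e₁⟩ : Framed F d) = ⟨P₂, e₂⟩ := by
    rintro P₁ _ rfl e₁ e₂ hee
    exact Sigma.ext rfl (heq_of_eq (Subtype.ext (funext fun i => Subtype.ext (hee i))))
  exact hsig _ _ (Subtype.ext (Prod.ext hUm hWm)) _ _ fun i => hge (Sum.inl i)

/-- `|pairs| * |GL_d(q)| = |Sp_{2d}(q)|` -/
theorem card_pairs_mul :
    Nat.card (Pairs F d) * ∏ i : Fin d, (Fintype.card F ^ d - Fintype.card F ^ i.val) =
      Nat.card Sp := by
  classical
  haveI : Fintype (Pairs F d) := Fintype.ofFinite _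
  rw [Nat.card_congr (Equiv.ofBijective _ ⟨ofSp_injective, ofSp_surjective⟩), Nat.card_sigma,
    Finset.sum_eq_card_nsmul (b := ∏ i : Fin d, (Fintype.card F ^ d - Fintype.card F ^ i.val)),
    smul_eq_mul, Nat.card_eq_fintype_card, Finset.card_univ]
  intro P _
  have h := card_linearIndependent (K := F) (V := P.1.1) (k := d) (finrank_fst P).ge
  rw [h, finrank_fst P]

theorem exists_pow_add_one (r : ℕ) (hr : r.Prime) (hrq : ¬ r ∣ Fintype.card F)
    (h : r ∣ Nat.card (Pairs F d)) :
    ∃ j, 1 ≤ j ∧ j ≤ d ∧ r ∣ Fintype.card F ^ j + 1 := by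
  set q := Fintype.card F with hq
  have hq1 : 1 < q := Fintype.one_lt_card
  have h1 := card_pairs_mul (F := F) (d := d)
  rw [CfsgLib.SpPar.card_symplectic q rfl] at h1
  have hden : ∏ i : Fin d, (q ^ d - q ^ i.val) =
      (∏ i ∈ Finset.range d, q ^ i) * ∏ i ∈ Finset.range d, (q ^ (i + 1) - 1) := by
    rw [Fin.prod_univ_eq_prod_range (fun i => q ^ d - q ^ i) d]
    conv_rhs => rw [← Finset.prod_range_reflect (fun i => q ^ (i + 1) - 1) d]
    rw [← Finset.prod_mul_distrib]
    refine Finset.prod_congr rfl fun i hi => ?_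
    rw [Finset.mem_range] at hi
    rw [Nat.mul_sub, mul_one, ← pow_add]
    congr 2
    omega
  have hnum : ∏ i ∈ Finset.range d, (q ^ (2 * (i + 1)) - 1) =
      (∏ i ∈ Finset.range d, (q ^ (i + 1) - 1)) * ∏ i ∈ Finset.range d, (q ^ (i + 1) + 1) := by
    rw [← Finset.prod_mul_distrib]
    refine Finset.prod_congr rfl fun i _ => ?_
    rw [mul_comm 2, pow_mul, mul_comm (q ^ (i + 1) - 1), ← Nat.sq_sub_sq, one_pow]
  rw [hden, hnum] at h1
  have hpos : 0 < ∏ i ∈ Finset.range d, (q ^ (i + 1) - 1) := Finset.prod_pos fun i _ => by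
    have : 1 < q ^ (i + 1) := Nat.one_lt_pow (by omega) hq1
    omega
  have h2 : Nat.card (Pairs F d) * (∏ i ∈ Finset.range d, q ^ i) =
      q ^ (d ^ 2) * ∏ i ∈ Finset.range d, (q ^ (i + 1) + 1) :=
    Nat.eq_of_mul_eq_mul_right hpos (by rw [mul_assoc, h1]; ring)
  have h3 : r ∣ q ^ (d ^ 2) * ∏ i ∈ Finset.range d, (q ^ (i + 1) + 1) := h2 ▸ h.mul_right _
  rcases hr.prime.dvd_or_dvd h3 with h4 | h4
  · exact absurd (hr.dvd_of_dvd_pow h4) hrq
  · obtain ⟨i, hi, hri⟩ := (hr.prime.dvd_finsetProd_iff _).mp h4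
    exact ⟨i + 1, by omega, by simp at hi; omega, hri⟩

section Element

variable {K : Type*} [Field K] [Fintype K] [Algebra F K]

/-- a group element of prime order `r` not dividing `|GL_k(q)|` for `k < n` acts trivially on smaller spaces -/
theorem eq_one_of_small {N : Type*} [AddCommGroup N] [Module F N] [Finite N] (r : ℕ) (hr : r.Prime)
    (hrq : ¬ r ∣ Fintype.card F) (hprim : ∀ s, 0 < s → s ≤ Module.finrank F N → ¬ r ∣ Fintype.card F ^ s - 1)
    (T : N ≃ₗ[F] N) (hT : T ^ r = 1) : T = 1 := by
  haveI : Fintype N := Fintype.ofFinite N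
  haveI : Module.Finite F N := Module.Finite.of_finite
  by_contra hne
  haveI := Fact.mk hr
  have hord : orderOf T = r := orderOf_eq_prime hT hne
  set k := Module.finrank F N with hk
  let e : (N ≃ₗ[F] N) ≃* GL (Fin k) F :=
    ((LinearMap.GeneralLinearGroup.generalLinearEquiv F N).symm).trans
      (Units.mapEquiv (LinearMap.toMatrixAlgEquiv (Module.finBasis F N)).toMulEquiv)
  have hd : r ∣ Nat.card (GL (Fin k) F) := by
    rw [← hord, ← e.orderOf_eq]
    exact orderOf_dvd_natCard _
  rw [Matrix.card_GL_field] at hd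
  obtain ⟨i, -, hi⟩ := (hr.prime.dvd_finsetProd_iff _).mp hd
  have h' : r ∣ Fintype.card F ^ (i : ℕ) * (Fintype.card F ^ (k - i) - 1) := by
    rw [Nat.mul_sub, mul_one, ← pow_add, Nat.add_sub_cancel' i.2.le]
    exact hi
  rcases hr.prime.dvd_or_dvd h' with h4 | h4
  · exact hrq (hr.dvd_of_dvd_pow h4)
  · exact hprim (k - i) (by omega) (by omega) h4

/-- `Tr_{K/F}` of the standard alternating form on `K × K` -/
noncomputable def ωK (a c : K × K) : F := Algebra.trace F K (a.2 * c.1 - a.1 * c.2)

/-- the action of a `2 × 2` matrix on `K × K` -/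
noncomputable def actK (g : Matrix (Fin 2) (Fin 2) K) : K × K →ₗ[F] K × K where
  toFun a := (g 0 0 * a.1 + g 0 1 * a.2, g 1 0 * a.1 + g 1 1 * a.2)
  map_add' a c := Prod.ext (by simp; ring) (by simp; ring)
  map_smul' t a := Prod.ext (by simp [Algebra.smul_def]; ring) (by simp [Algebra.smul_def]; ring)

lemma actK_mul (g h : Matrix (Fin 2) (Fin 2) K) (a : K × K) :
    actK (F := F) (g * h) a = actK (F := F) g (actK (F := F) h a) := by
  simp only [actK, LinearMap.coe_mk, AddHom.coe_mk, Matrix.mul_apply, Fin.sum_univ_two]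
  exact Prod.ext (by ring) (by ring)

lemma actK_one (a : K × K) : actK (F := F) (1 : Matrix (Fin 2) (Fin 2) K) a = a := by
  simp [actK]

lemma ωK_act (g : Matrix (Fin 2) (Fin 2) K) (hg : g.det = 1) (a c : K × K) :
    ωK (F := F) (actK (F := F) g a) (actK (F := F) g c) = ωK (F := F) a c := by
  rw [Matrix.det_fin_two] at hg
  simp only [ωK, actK, LinearMap.coe_mk, AddHom.coe_mk]
  congr 1
  linear_combination (a.2 * c.1 - a.1 * c.2) * hg

/-- an element of prime order `r ≠ p` of `SL_2` has no non-zero fixed vector -/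
lemma fix_eq_zero (g : Matrix (Fin 2) (Fin 2) K) (hg : g.det = 1) (r : ℕ) (hgr : g ^ r = 1)
    (hg1 : g ≠ 1) (hr : (r : K) ≠ 0) (a : K × K) (ha : actK (F := F) g a = a) : a = 0 := by
  simp only [actK, LinearMap.coe_mk, AddHom.coe_mk] at ha
  have e1 := congrArg Prod.fst ha
  have e2 := congrArg Prod.snd ha
  simp only at e1 e2
  rw [Matrix.det_fin_two] at hg
  by_contra hne
  have htr : g 0 0 + g 1 1 = 2 := by
    have k1 : (2 - g 0 0 - g 1 1) * a.1 = 0 := by
      linear_combination (g 1 1 - 1) * e1 - g 0 1 * e2 - a.1 * hg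
    have k2 : (2 - g 0 0 - g 1 1) * a.2 = 0 := by
      linear_combination (g 0 0 - 1) * e2 - g 1 0 * e1 - a.2 * hg
    by_contra h
    apply hne
    have h' : (2 - g 0 0 - g 1 1) ≠ 0 := fun h0 => h (by linear_combination -h0)
    exact Prod.ext ((mul_eq_zero.mp k1).resolve_left h') ((mul_eq_zero.mp k2).resolve_left h')
  have hsq : (g - 1) * (g - 1) = 0 := by
    ext i j
    fin_cases i <;> fin_cases j <;>
      simp [Matrix.mul_apply, Fin.sum_univ_two] <;>
      first
        | linear_combination g 0 0 * htr - hg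
        | linear_combination g 1 1 * htr - hg
        | linear_combination g 0 1 * htr
        | linear_combination g 1 0 * htr
  have hpow : ∀ n : ℕ, g ^ n = 1 + (n : K) • (g - 1) := by
    intro n
    induction n with
    | zero => simp
    | succ n ih =>
      have : g ^ (n + 1) = (1 + (n : K) • (g - 1)) * (1 + (g - 1)) := by
        rw [pow_succ, ih, add_sub_cancel]
      rw [this, add_mul, one_mul, smul_mul_assoc, mul_add, mul_one, hsq, add_zero, add_assoc,
        Nat.cast_succ, add_smul, one_smul, add_comm (g - 1)]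
  have h0 := hpow r
  rw [hgr, left_eq_add, smul_eq_zero, sub_eq_zero] at h0
  rcases h0 with h0 | h0
  · exact hr h0
  · exact hg1 h0

variable {j : ℕ} (b : Module.Basis (Fin j) F K) (hjd : j ≤ d)

/-- the dual basis for the trace form -/
noncomputable def bD : Module.Basis (Fin j) F K :=
  LinearMap.BilinForm.dualBasis (Algebra.traceForm F K) (traceForm_nondegenerate F K) b

lemma trace_bD (i k : Fin j) : Algebra.trace F K (b i * bD b k) = if i = k then 1 else 0 := by
  rw [mul_comm, ← Algebra.traceForm_apply]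
  exact LinearMap.BilinForm.apply_dualBasis_left _ _ k i

/-- projection to `K × K` -/
noncomputable def projK : VV →ₗ[F] K × K where
  toFun v := (∑ i, v (Sum.inl (Fin.castLE hjd i)) • b i, ∑ i, v (Sum.inr (Fin.castLE hjd i)) • bD b i)
  map_add' u v := by simp [add_smul, Finset.sum_add_distrib]
  map_smul' t u := by simp [smul_smul, Finset.smul_sum]

/-- section of `projK` -/
noncomputable def embK : K × K →ₗ[F] VV where
  toFun a := (∑ i, b.repr a.1 i • eL (Fin.castLE hjd i)) + ∑ i, (bD b).repr a.2 i • eR (Fin.castLE hjd i)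
  map_add' a c := by simp [add_smul, Finset.sum_add_distrib]; abel
  map_smul' t a := by simp [smul_smul, Finset.smul_sum, smul_add]

lemma projK_embK (a : K × K) : projK b hjd (embK b hjd a) = a := by
  have key : ∀ i k : Fin j, (Fin.castLE hjd i = Fin.castLE hjd k) ↔ i = k :=
    fun i k => (Fin.castLE_injective hjd).eq_iff
  refine Prod.ext ?_ ?_
  · conv_rhs => rw [← b.sum_repr a.1]
    simp only [projK, embK, LinearMap.coe_mk, AddHom.coe_mk, Pi.add_apply, Finset.sum_apply,
      Pi.smul_apply, smul_eq_mul]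
    refine Finset.sum_congr rfl fun i _ => ?_
    congr 1
    simp [eL, eR, Pi.single_apply, key]
  · conv_rhs => rw [← (bD b).sum_repr a.2]
    simp only [projK, embK, LinearMap.coe_mk, AddHom.coe_mk, Pi.add_apply, Finset.sum_apply,
      Pi.smul_apply, smul_eq_mul]
    refine Finset.sum_congr rfl fun i _ => ?_
    congr 1
    simp [eL, eR, Pi.single_apply, key]

lemma form_embK (a : K × K) (v : VV) :
    Cfsg.sympForm d F (embK b hjd a) v = ωK a (projK b hjd v) := by
  have hL : ∀ (i : Fin d) (v : VV), (sB F d) (eL i) v = -v (Sum.inr i) := by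
    intro i v
    show Cfsg.sympForm d F (eL i) v = _
    simp [sympForm_apply, eL, Pi.single_apply]
  have hR : ∀ (i : Fin d) (v : VV), (sB F d) (eR i) v = v (Sum.inl i) := by
    intro i v
    show Cfsg.sympForm d F (eR i) v = _
    simp [sympForm_apply, eR, Pi.single_apply]
  have t1 : ∀ (i : Fin j) (c : Fin j → F),
      Algebra.trace F K (bD b i * ∑ k, c k • b k) = c i := by
    intro i c
    rw [Finset.mul_sum, map_sum]
    simp [mul_smul_comm, mul_comm (bD b i), trace_bD]
  have t2 : ∀ (i : Fin j) (c : Fin j → F),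
      Algebra.trace F K (b i * ∑ k, c k • bD b k) = c i := by
    intro i c
    rw [Finset.mul_sum, map_sum]
    simp [mul_smul_comm, trace_bD]
  show (sB F d) (embK b hjd a) v = _
  unfold ωK
  rw [map_sub]
  conv_rhs => rw [← b.sum_repr a.1, ← (bD b).sum_repr a.2]
  simp only [embK, projK, LinearMap.coe_mk, AddHom.coe_mk, map_add, map_sum, map_smul,
    LinearMap.add_apply, LinearMap.sum_apply, LinearMap.smul_apply, hL, hR, Finset.sum_mul,
    smul_mul_assoc, t1, t2, smul_eq_mul, mul_neg, Finset.sum_neg_distrib]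
  ring

/-- the element of `Sp_{2d}(q)` induced by a matrix of determinant one over `K` -/
noncomputable def liftX (g : Matrix (Fin 2) (Fin 2) K) : VV →ₗ[F] VV :=
  LinearMap.id + (embK b hjd).comp ((actK (F := F) g - LinearMap.id).comp (projK b hjd))

lemma liftX_apply (g : Matrix (Fin 2) (Fin 2) K) (v : VV) : liftX b hjd g v =
    v + embK b hjd (actK (F := F) g (projK b hjd v) - projK b hjd v) := rfl

lemma projK_liftX (g : Matrix (Fin 2) (Fin 2) K) (v : VV) :
    projK b hjd (liftX b hjd g v) = actK (F := F) g (projK b hjd v) := by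
  rw [liftX_apply, map_add, projK_embK, add_sub_cancel]

lemma liftX_mul (g h : Matrix (Fin 2) (Fin 2) K) :
    (liftX b hjd g).comp (liftX b hjd h) = liftX b hjd (g * h) := by
  refine LinearMap.ext fun v => ?_
  rw [LinearMap.comp_apply, liftX_apply b hjd g, projK_liftX, liftX_apply, liftX_apply, actK_mul]
  simp only [map_sub]
  abel

lemma liftX_form (g : Matrix (Fin 2) (Fin 2) K) (hg : g.det = 1) (u v : VV) :
    Cfsg.sympForm d F (liftX b hjd g u) (liftX b hjd g v) = Cfsg.sympForm d F u v := by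
  have hskew : ∀ z : K × K, (sB F d) u (embK b hjd z) = - ωK (F := F) z (projK b hjd u) := fun z =>
    (isSymplecticForm_sympForm.skew u _).trans (congrArg Neg.neg (form_embK b hjd z u))
  have hemb : ∀ (z : K × K) (w : VV), (sB F d) (embK b hjd z) w = ωK (F := F) z (projK b hjd w) :=
    form_embK b hjd
  show (sB F d) (liftX b hjd g u) (liftX b hjd g v) = (sB F d) u v
  conv_lhs => rw [liftX_apply b hjd g u, map_add, LinearMap.add_apply, hemb, projK_liftX,
    liftX_apply, map_add, hskew]
  rw [add_assoc, add_eq_left, neg_add_eq_sub]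
  unfold ωK
  rw [← map_sub]
  convert map_zero (Algebra.trace F K) using 2
  rw [Matrix.det_fin_two] at hg
  simp only [actK, LinearMap.coe_mk, AddHom.coe_mk, Prod.fst_sub, Prod.snd_sub]
  linear_combination ((projK b hjd u).2 * (projK b hjd v).1 - (projK b hjd u).1 * (projK b hjd v).2) * hg

end Element

theorem lt_not_dvd (q r j : ℕ) (hr : r.Prime) (hr2 : r ≠ 2) (hq : 0 < q)
    (hj : r ∣ q ^ j + 1) (hmin : ∀ i, 1 ≤ i → i < j → ¬ r ∣ q ^ i + 1) :
    ∀ s, 0 < s → s < 2 * j → ¬ r ∣ q ^ s - 1 := by
  haveI := Fact.mk hr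
  intro s hs hsj hd
  have h2 : (2 : ZMod r) ≠ 0 := by
    intro h
    have : r ∣ 2 := (ZMod.natCast_eq_zero_iff 2 r).mp (by exact_mod_cast h) |>.trans dvd_rfl
    exact hr2 ((Nat.prime_dvd_prime_iff_eq hr Nat.prime_two).mp this)
  have hj' : (q : ZMod r) ^ j = -1 := by
    have := (ZMod.natCast_eq_zero_iff (q ^ j + 1) r).mpr hj
    push_cast at this
    exact eq_neg_of_add_eq_zero_left this
  have hs' : (q : ZMod r) ^ s = 1 := by
    have := (ZMod.natCast_eq_zero_iff (q ^ s - 1) r).mpr hd
    rw [Nat.cast_sub (Nat.one_le_pow _ _ hq)] at this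
    push_cast at this
    exact sub_eq_zero.mp this
  set o := orderOf (q : ZMod r) with ho
  have ho2 : o ∣ 2 * j := orderOf_dvd_of_pow_eq_one (by rw [mul_comm, pow_mul, hj', neg_one_sq])
  have hoj : ¬ o ∣ j := fun h => by
    rw [orderOf_dvd_iff_pow_eq_one, hj'] at h
    exact h2 (by linear_combination -h)
  have hpos : 0 < o := Nat.pos_of_dvd_of_pos ho2 (by omega)
  have hlt : o < 2 * j := (Nat.le_of_dvd hs (orderOf_dvd_of_pow_eq_one hs')).trans_lt hsj
  rcases Nat.even_or_odd o with ⟨t, ht⟩ | hodd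
  · have h1 : ((q : ZMod r) ^ t) ^ 2 = 1 := by
      rw [← pow_mul, show t * 2 = o by omega, ho, pow_orderOf_eq_one]
    rcases sq_eq_one_iff.mp h1 with h | h
    · exact pow_ne_one_of_lt_orderOf (show t ≠ 0 by omega) (show t < orderOf (q : ZMod r) by omega) h
    · refine hmin t (by omega) (by omega) ?_
      rw [← ZMod.natCast_eq_zero_iff]
      push_cast
      rw [h, neg_add_cancel]
  · exact hoj ((Nat.Coprime.dvd_mul_left hodd.coprime_two_right).mp ho2)

theorem exists_derangement (p : ℕ) [Fact p.Prime] [CharP F p] (r : ℕ) (hr : r.Prime) (hr2 : r ≠ 2)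
    (hrp : r ≠ p) (hΩ : r ∣ Nat.card (Pairs F d)) :
    ∃ x : Sp, x ^ r = 1 ∧ (∀ z : F, (x : Matrix (Fin d ⊕ Fin d) (Fin d ⊕ Fin d) F) ≠ z • 1) ∧
      ¬ ∃ P : Pairs F d,
        ((P.1.1.map (Matrix.toLin' x.1) = P.1.1 ∧ P.1.2.map (Matrix.toLin' x.1) = P.1.2) ∨
          (P.1.1.map (Matrix.toLin' x.1) = P.1.2 ∧ P.1.2.map (Matrix.toLin' x.1) = P.1.1)) := by
  have hrq : ¬ r ∣ Fintype.card F := by
    obtain ⟨k, hp, hk⟩ := FiniteField.card F p
    rw [hk]
    exact fun h => hrp ((Nat.prime_dvd_prime_iff_eq hr hp).mp (hr.dvd_of_dvd_pow h))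
  have hex : ∃ j, 1 ≤ j ∧ j ≤ d ∧ r ∣ Fintype.card F ^ j + 1 := exists_pow_add_one r hr hrq hΩ
  set j := Nat.find hex with hjdef
  obtain ⟨hj1, hjd, hjr⟩ := Nat.find_spec hex
  have hprim := lt_not_dvd (Fintype.card F) r j hr hr2 Fintype.card_pos hjr
    (fun i h1 h2 h3 => Nat.find_min hex h2 ⟨h1, by omega, h3⟩)
  haveI : NeZero j := ⟨by omega⟩
  let K := FiniteField.Extension F p j
  have hdim : Module.finrank F K = j := FiniteField.finrank_extension F p j
  haveI : Fintype K := Fintype.ofFinite K
  haveI : FiniteDimensional F K := Module.Finite.of_finite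
  have hcK : Fintype.card K = Fintype.card F ^ j := by
    rw [Module.card_eq_pow_finrank (K := F) (V := K), hdim]
  have hqj : 1 ≤ Fintype.card F ^ j := Nat.one_le_pow _ _ Fintype.card_pos
  have hrK : (r : K) ≠ 0 := by
    haveI : CharP K p := charP_of_injective_algebraMap (algebraMap F K).injective p
    intro h
    exact hrp.symm ((Nat.prime_dvd_prime_iff_eq Fact.out hr).mp ((CharP.cast_eq_zero_iff K p r).mp h))
  haveI := Fact.mk hr
  have hrG : r ∣ Nat.card (GL (Fin 2) K) := by
    rw [Matrix.card_GL_field, Fin.prod_univ_two, hcK]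
    refine Dvd.dvd.mul_right ?_ _
    simp only [Fin.val_zero, pow_zero]
    rw [show (Fintype.card F ^ j) ^ 2 - 1 = (Fintype.card F ^ j + 1) * (Fintype.card F ^ j - 1) by
      rw [← Nat.sq_sub_sq, one_pow]]
    exact hjr.mul_right _
  obtain ⟨g, hg⟩ := exists_prime_orderOf_dvd_card' r hrG
  have hgr : (g : Matrix (Fin 2) (Fin 2) K) ^ r = 1 := by
    rw [← Units.val_pow_eq_pow_val, ← hg, pow_orderOf_eq_one, Units.val_one]
  have hg1 : (g : Matrix (Fin 2) (Fin 2) K) ≠ 1 := fun h => by
    rw [Units.val_eq_one.mp h, orderOf_one] at hg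
    exact hr.ne_one hg.symm
  have hdet : (g : Matrix (Fin 2) (Fin 2) K).det = 1 := by
    have hδ : (Matrix.GeneralLinearGroup.det g) ^ r = 1 := by
      rw [← map_pow, ← hg, pow_orderOf_eq_one, map_one]
    by_contra hne
    have : orderOf (Matrix.GeneralLinearGroup.det g) = r :=
      orderOf_eq_prime hδ fun h => hne (by
        simpa using congrArg (fun u : Kˣ => (u : K)) h)
    have h := orderOf_dvd_card (x := Matrix.GeneralLinearGroup.det g)
    rw [this, Fintype.card_units, hcK] at h
    exact hprim j (by omega) (by omega) h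
  let b : Module.Basis (Fin j) F K := Module.finBasisOfFinrankEq F K hdim
  let L := liftX (d := d) b hjd (g : Matrix (Fin 2) (Fin 2) K)
  let x : Sp := ⟨LinearMap.toMatrix' L, mem_symplecticGroup_iff.2 fun u v => by
    rw [LinearMap.toMatrix'_mulVec, LinearMap.toMatrix'_mulVec]
    exact liftX_form b hjd _ hdet u v⟩
  have hL : ∀ v, Matrix.toLin' x.1 v = L v := fun v => by
    rw [Matrix.toLin'_apply]; exact LinearMap.toMatrix'_mulVec _ _
  have hxv : ∀ (n : ℕ) v, (x ^ n).1 *ᵥ v = liftX b hjd ((g : Matrix (Fin 2) (Fin 2) K) ^ n) v := by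
    intro n
    induction n with
    | zero =>
      intro v
      rw [pow_zero, pow_zero, liftX_apply, actK_one, sub_self, map_zero, add_zero]
      exact one_mulVec v
    | succ n ih =>
      intro v
      rw [pow_succ, pow_succ, ← liftX_mul, LinearMap.comp_apply, ← ih]
      show ((x ^ n).1 * x.1) *ᵥ v = _
      rw [← mulVec_mulVec]
      congr 1
      exact LinearMap.toMatrix'_mulVec _ _
  have hxr : x ^ r = 1 := by
    refine Subtype.ext (Matrix.ext_iff_mulVec.mpr fun v => ?_)
    rw [hxv, hgr, liftX_apply, actK_one, sub_self, map_zero, add_zero]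
    exact (one_mulVec v).symm
  have hfix : ¬ ∀ v, L v = v := by
    intro h
    have : ∀ a : K × K, a = 0 := fun a => by
      refine fix_eq_zero (F := F) _ hdet r hgr hg1 hrK a ?_
      have := congrArg (projK b hjd) (h (embK b hjd a))
      rwa [projK_liftX, projK_embK] at this
    exact one_ne_zero (congrArg Prod.fst (this (1, 0)))
  refine ⟨x, hxr, fun z hz => ?_, ?_⟩
  · have hzv : ∀ v : VV, L v = z • v := fun v => by
      rw [← hL, Matrix.toLin'_apply, hz, smul_mulVec, one_mulVec]
    have hz2 : z * z = 1 := by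
      have h := CfsgLib.SpPar.apply_form x (eR ⟨0, by omega⟩) (eL ⟨0, by omega⟩)
      simp only [show ∀ v, x.1 *ᵥ v = z • v from fun v => by rw [hz, smul_mulVec, one_mulVec]] at h
      rw [isSymplecticForm_sympForm.bilinear.smul_left, isSymplecticForm_sympForm.bilinear.smul_right,
        form_eL] at h
      simpa [eR] using h
    have hzr : z ^ r = 1 := by
      have hm : ((x.1) ^ r) = (1 : Matrix (Fin d ⊕ Fin d) (Fin d ⊕ Fin d) F) := by
        rw [← SubmonoidClass.coe_pow, hxr]; rfl
      rw [hz, smul_pow, one_pow] at hm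
      have := congrFun (congrFun hm (Sum.inl ⟨0, by omega⟩)) (Sum.inl ⟨0, by omega⟩)
      simpa using this
    obtain ⟨t, ht⟩ := hr.odd_of_ne_two hr2
    rw [ht, pow_succ, pow_mul, pow_two, hz2, one_pow, one_mul] at hzr
    exact hfix fun v => by rw [hzv, hzr, one_smul]
  rintro ⟨⟨⟨U, W⟩, hc, hU, hW⟩, hcase⟩
  simp only at hcase
  rcases hcase with ⟨hUx, hWx⟩ | ⟨hUx, hWx⟩
  · have fixes : ∀ X : Submodule F VV, (∀ u ∈ X, ∀ v ∈ X, Cfsg.sympForm d F u v = 0) →
        X.map (Matrix.toLin' x.1) = X → ∀ u ∈ X, L u = u := by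
      intro X hX hXx u hu
      have hinv : ∀ w ∈ X, L w ∈ X := fun w hw => by
        rw [← hL]; exact hXx ▸ Submodule.mem_map_of_mem hw
      let N : Submodule F (K × K) := X.comap (embK b hjd)
      have hN : ∀ a ∈ N, actK (F := F) (g : Matrix (Fin 2) (Fin 2) K) a ∈ N := fun a ha => by
        have h1 : L (embK b hjd a) ∈ X := hinv _ ha
        have h2 : embK b hjd (actK (F := F) (g : Matrix (Fin 2) (Fin 2) K) a) = L (embK b hjd a) := by
          show _ = liftX b hjd _ _
          rw [liftX_apply, projK_embK, map_sub, add_sub_cancel]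
        show embK b hjd _ ∈ X
        rw [h2]; exact h1
      have hNbot : N = ⊥ := by
        by_contra hne
        by_cases htop : N = ⊤
        · obtain ⟨y, hy⟩ := Algebra.trace_surjective F K 1
          have h0 := hX _ (show embK b hjd ((0 : K), (1 : K)) ∈ X from
            (htop.symm ▸ Submodule.mem_top : ((0 : K), (1 : K)) ∈ N)) _
            (show embK b hjd (y, (0 : K)) ∈ X from (htop.symm ▸ Submodule.mem_top : (y, (0 : K)) ∈ N))
          rw [form_embK, projK_embK] at h0
          simp [ωK, hy] at h0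
        · have hlt : Module.finrank F N < 2 * j := by
            have h := Submodule.finrank_lt htop
            rw [Module.finrank_prod, hdim] at h
            omega
          let T₀ : N →ₗ[F] N := (actK (F := F) (g : Matrix (Fin 2) (Fin 2) K)).restrict hN
          have hT0 : ∀ n : ℕ, ∀ a : N, ((T₀ ^ n) a : K × K) =
              actK (F := F) ((g : Matrix (Fin 2) (Fin 2) K) ^ n) a := by
            intro n
            induction n with
            | zero => intro a; simp [actK_one]
            | succ n ih =>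
              intro a
              rw [pow_succ, Module.End.mul_apply, ih, pow_succ, actK_mul]
              rfl
          have hTr : T₀ ^ r = 1 := LinearMap.ext fun a => Subtype.ext (by
            rw [hT0, hgr, actK_one]; rfl)
          let u₀ : (Module.End F N)ˣ := Units.ofPowEqOne T₀ r hTr hr.ne_zero
          let T : N ≃ₗ[F] N := LinearMap.GeneralLinearGroup.generalLinearEquiv F N u₀
          have hT : T ^ r = 1 := by
            rw [← map_pow, Units.pow_ofPowEqOne, map_one]
          have h1 := eq_one_of_small r hr hrq (fun s h0 hs => hprim s h0 (by omega)) T hT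
          obtain ⟨a, ha, ha0⟩ := Submodule.exists_mem_ne_zero_of_ne_bot hne
          have h2 : T ⟨a, ha⟩ = (⟨a, ha⟩ : N) := by rw [h1]; rfl
          exact ha0 (fix_eq_zero (F := F) _ hdet r hgr hg1 hrK a (congrArg Subtype.val h2))
      have hd : L u - u ∈ X := X.sub_mem (hinv u hu) hu
      have he : L u - u = embK b hjd
          (actK (F := F) (g : Matrix (Fin 2) (Fin 2) K) (projK b hjd u) - projK b hjd u) := by
        show liftX b hjd _ u - u = _
        rw [liftX_apply, add_sub_cancel_left]
      rw [he] at hd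
      have h0 := (Submodule.mem_bot F).mp (hNbot ▸ (show _ ∈ N from hd))
      rw [h0, map_zero, sub_eq_zero] at he
      exact he
    refine hfix fun v => ?_
    obtain ⟨a, ha, c, hc', rfl⟩ :=
      Submodule.mem_sup.mp (hc.sup_eq_top ▸ Submodule.mem_top : v ∈ U ⊔ W)
    rw [map_add, fixes U hU hUx a ha, fixes W hW hWx c hc']
  · have hodd : ∀ k : ℕ, U.map (Matrix.toLin' ((x ^ (2 * k + 1)).1)) = W := by
      intro k
      induction k with
      | zero => rw [mul_zero, zero_add, pow_one]; exact hUx
      | succ k ih =>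
        rw [show 2 * (k + 1) + 1 = 1 + (1 + (2 * k + 1)) by ring, pow_add, pow_add, pow_one]
        show U.map (Matrix.toLin' (x.1 * (x.1 * (x ^ (2 * k + 1)).1))) = W
        rw [Matrix.toLin'_mul, Matrix.toLin'_mul, Submodule.map_comp, Submodule.map_comp, ih, hWx, hUx]
    obtain ⟨t, ht⟩ := hr.odd_of_ne_two hr2
    have h := hodd t
    rw [← ht, hxr] at h
    have h' : U = W := by
      rw [← h]
      show U = U.map (Matrix.toLin' (1 : Matrix (Fin d ⊕ Fin d) (Fin d ⊕ Fin d) F))
      rw [Matrix.toLin'_one, Submodule.map_id]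
    have hU0 : U = ⊥ := by
      have := hc.inf_eq_bot
      rwa [← h', inf_idem] at this
    have hWtop : U = ⊤ := by
      have := hc.sup_eq_top
      rwa [← h', sup_idem] at this
    have hd0 := congrArg (fun S : Submodule F VV => (eL ⟨0, by omega⟩ : VV) ∈ S) (hU0.symm.trans hWtop)
    simp at hd0
    have := congrFun hd0 (Sum.inl ⟨0, by omega⟩)
    simp [eL] at this

end CfsgLib.SpDer

namespace CfsgLib.SpDer

attribute [local instance] _root_.Classical.propDecidable

open Matrix CfsgLib.Classical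

variable {F : Type*} [Field F] [Fintype F] {d : ℕ}

theorem even_card_pairs (hd : 0 < d) : Even (Nat.card (Pairs F d)) := by
  classical
  haveI : Fintype (Pairs F d) := Fintype.ofFinite _
  let σ : Equiv.Perm (Pairs F d) :=
    { toFun := fun P => ⟨(P.1.2, P.1.1), P.2.1.symm, P.2.2.2, P.2.2.1⟩
      invFun := fun P => ⟨(P.1.2, P.1.1), P.2.1.symm, P.2.2.2, P.2.2.1⟩
      left_inv := fun P => rfl
      right_inv := fun P => rfl }
  haveI : Fact (Nat.Prime 2) := ⟨Nat.prime_two⟩
  have hfix : IsEmpty (Function.fixedPoints σ) := ⟨fun ⟨P, hP⟩ => by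
    have h : P.1.2 = P.1.1 := congrArg (fun Q : Pairs F d => Q.1.1) hP
    have h1 := P.2.1.inf_eq_bot
    rw [h, inf_idem] at h1
    have h2 := finrank_fst P
    rw [h1, finrank_bot] at h2
    omega⟩
  have h := Equiv.Perm.card_fixedPoints_modEq (p := 2) (n := 1) (f := (⇑σ : Function.End (Pairs F d))) (by
    funext P; rfl)
  rw [Fintype.card_eq_zero_iff.mpr hfix] at h
  rw [Nat.card_eq_fintype_card, Nat.even_iff]
  exact h

end CfsgLib.SpDer
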