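import Cfsg.Agent.Lib.ClassicalSpinorFacts
import Cfsg.Agent.Lib.ClassicalQuadStd2

/-! Evaluating the spinor norm on products of reflections. -/

set_option autoImplicit false

namespace CfsgLib.Classical

open Matrix

variable {ι : Type} [Fintype ι] [DecidableEq ι] {F : Type*} [Field F] {Q : (ι → F) → F}

theorem units_mul_eq_one (x y : ℤˣ) : x * y = 1 ↔ (x = 1 ↔ y = 1) := by
  rcases Int.units_eq_one_or x with rfl | rfl <;> rcases Int.units_eq_one_or y with rfl | rfl <;> simp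

theorem isSquare_mul_iff_iff [Fintype F] (h2 : (2 : F) ≠ 0) {x y : F} (hx : x ≠ 0) (hy : y ≠ 0) :
    IsSquare (x * y) ↔ (IsSquare x ↔ IsSquare y) := by
  classical
  have hc : ringChar F ≠ 2 := fun h => h2 (by rw [← Nat.cast_two, ← h, ringChar.Nat.cast_ringChar])
  rw [← quadraticChar_one_iff_isSquare (mul_ne_zero hx hy), ← quadraticChar_one_iff_isSquare hx,
    ← quadraticChar_one_iff_isSquare hy, map_mul]
  rcases quadraticChar_dichotomy hx with h | h <;> rcases quadraticChar_dichotomy hy with h' | h' <;> rw [h, h'] <;> norm_num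

/-- Membership in `Ω` of a product of reflections. -/
theorem mem_omega_reflections [Fintype F] (hQ : Cfsg.Geo.IsNondegenerateQuadraticForm Q) (h2 : (2 : F) ≠ 0)
    (hn : 2 ≤ Fintype.card ι) (g : ↥(Cfsg.isometryGroup F Q)) (vs : List (ι → F)) (hvs : ∀ v ∈ vs, Q v ≠ 0)
    (hg : ((g : GL ι F) : Matrix ι ι F) = (vs.map (fun v => Cfsg.reflectionMatrix Q v)).prod) :
    g ∈ Cfsg.Omega F Q ↔ (Even vs.length ∧ IsSquare (vs.map (fun v => Q v)).prod) := by
  classical
  obtain ⟨θ, hθ⟩ := exists_spinor hQ h2 hn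
  obtain ⟨D, hD⟩ := exists_dickson hQ (Or.inl fun h => by
    have h0 := FiniteField.cast_card_eq_zero F
    rw [← Nat.card_eq_fintype_card, h, Nat.cast_ofNat] at h0
    exact h2 h0)
  rw [omega_eq_inf hQ h2 hn hD hθ, Subgroup.mem_inf, MonoidHom.mem_ker, MonoidHom.mem_ker]
  have hDlen : ∀ (l : List (ι → F)) (x : ↥(Cfsg.isometryGroup F Q)), (∀ v ∈ l, Q v ≠ 0) →
      ((x : GL ι F) : Matrix ι ι F) = (l.map (fun v => Cfsg.reflectionMatrix Q v)).prod →
      (D x = 1 ↔ Even l.length) ∧ (θ x = 1 ↔ IsSquare (l.map (fun v => Q v)).prod) := by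
    intro l
    induction l with
    | nil =>
      intro x _ hx
      have : x = 1 := Subtype.ext (Units.ext (by simpa using hx))
      subst this
      simp
    | cons e l ihl =>
      intro x hl hx
      have he : Q e ≠ 0 := hl e (List.mem_cons_self ..)
      have hx' : ((( rI hQ e he * x : ↥(Cfsg.isometryGroup F Q)) : GL ι F) : Matrix ι ι F) = (l.map (fun v => Cfsg.reflectionMatrix Q v)).prod := by
        have h1 : (qR hQ e : Matrix ι ι F) * (qR hQ e : Matrix ι ι F) = 1 := by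
          rw [← Units.val_mul, show qR hQ e * qR hQ e = 1 from congrArg Subtype.val (rI_sq hQ he), Units.val_one]
        show ((qR hQ e * (x : GL ι F) : GL ι F) : Matrix ι ι F) = _
        rw [Units.val_mul, hx, List.map_cons, List.prod_cons, ← qR_val hQ he, ← mul_assoc, h1, one_mul]
      obtain ⟨i1, i2⟩ := ihl _ (fun v hv => hl v (List.mem_cons_of_mem _ hv)) hx'
      have hlne : (l.map (fun v => Q v)).prod ≠ 0 := List.prod_ne_zero (by
        intro hm; obtain ⟨v, hv, e'⟩ := List.mem_map.1 hm; exact hl v (List.mem_cons_of_mem _ hv) e')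
      have hxeq : x = rI hQ e he * (rI hQ e he * x) := by rw [← mul_assoc, rI_sq, one_mul]
      refine ⟨?_, ?_⟩
      · rw [hxeq, map_mul, hD, units_mul_eq_one, List.length_cons, Nat.even_add_one, i1]
        simp
      · rw [hxeq, map_mul, units_mul_eq_one, List.map_cons, List.prod_cons, isSquare_mul_iff_iff h2 he hlne, i2]
        have h3 : θ (rI hQ e he) = 1 ↔ IsSquare (Q e) := by
          rw [← not_iff_not, ← hθ e he]
          rcases Int.units_eq_one_or (θ (rI hQ e he)) with h | h <;> simp [h]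
        rw [h3]
  obtain ⟨i1, i2⟩ := hDlen vs g hvs hg
  rw [i1, i2]

/-- The product of the two reflections of a hyperbolic pair negates that pair. -/
theorem pair_reflections (hQ : Cfsg.Geo.IsNondegenerateQuadraticForm Q) (h2 : (2 : F) ≠ 0) {a b : ι} (hab : a ≠ b)
    (ha : ∀ x, QuadraticMap.polar Q x (Pi.single a 1) = x b) (hb : ∀ x, QuadraticMap.polar Q x (Pi.single b 1) = x a) :
    Q (Pi.single a 1 + Pi.single b 1) = 1 ∧ Q (Pi.single a 1 - Pi.single b 1) = -1 ∧
      Cfsg.reflectionMatrix Q (Pi.single a 1 + Pi.single b 1) * Cfsg.reflectionMatrix Q (Pi.single a 1 - Pi.single b 1) =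
        diagonal (fun k => if k = a ∨ k = b then (-1 : F) else 1) := by
  have qa : Q (Pi.single a 1) = 0 := by
    have := ha (Pi.single a 1)
    rw [pf_self hQ, Pi.single_eq_of_ne hab.symm] at this
    exact (mul_eq_zero.1 this).resolve_left h2
  have qb : Q (Pi.single b 1) = 0 := by
    have := hb (Pi.single b 1)
    rw [pf_self hQ, Pi.single_eq_of_ne hab] at this
    exact (mul_eq_zero.1 this).resolve_left h2
  have hs : Q (Pi.single a 1 + Pi.single b 1) = 1 := by
    rw [q_add hQ, qa, qb, hb, Pi.single_eq_same]; ring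
  have hd : Q (Pi.single a 1 - Pi.single b 1) = -1 := by
    rw [q_sub hQ, qa, qb, hb, Pi.single_eq_same]; ring
  refine ⟨hs, hd, ?_⟩
  have hs0 : Q (Pi.single a 1 + Pi.single b 1) ≠ 0 := by rw [hs]; exact one_ne_zero
  have hd0 : Q (Pi.single a 1 - Pi.single b 1) ≠ 0 := by rw [hd]; exact neg_ne_zero.2 one_ne_zero
  rw [← qR_val hQ hs0, ← qR_val hQ hd0]
  refine Matrix.ext_of_mulVec_single fun k => funext fun j => ?_
  rw [← mulVec_mulVec, qR_mulVec hQ hd0, qR_mulVec hQ hs0, hs, hd, mulVec_diagonal]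
  simp only [hQ.polar_bilinear.add_right, pf_sub_right hQ, ha, hb, pf_sub_left hQ, hQ.polar_bilinear.smul_left, inv_one, one_mul, inv_neg,
    Pi.sub_apply, Pi.add_apply, Pi.smul_apply, smul_eq_mul]
  by_cases hja : j = a <;> by_cases hjb : j = b <;> by_cases hka : k = a <;> by_cases hkb : k = b
  all_goals (try subst hja) <;> (try subst hjb) <;> (try subst hka) <;> (try subst hkb)
  all_goals simp_all [Pi.single_apply, hab, hab.symm, Ne.symm]
  all_goals ring

/-- Negating `i` hyperbolic pairs. -/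
theorem negPairs_omega_iff [Fintype F] (hQ : Cfsg.Geo.IsNondegenerateQuadraticForm Q) (h2 : (2 : F) ≠ 0)
    (hn : 2 ≤ Fintype.card ι) {m : ℕ} (a b : Fin m → ι) (hab : ∀ j, a j ≠ b j)
    (hdis : ∀ j k, j ≠ k → a j ≠ a k ∧ a j ≠ b k ∧ b j ≠ a k ∧ b j ≠ b k)
    (ha : ∀ j x, QuadraticMap.polar Q x (Pi.single (a j) 1) = x (b j))
    (hb : ∀ j x, QuadraticMap.polar Q x (Pi.single (b j) 1) = x (a j))
    (i : ℕ) (him : i ≤ m) (w : ι → ℕ) (hw : ∀ k, w k < i ↔ ∃ j : Fin m, (j : ℕ) < i ∧ (k = a j ∨ k = b j)) :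
    (∃ g : ↥(Cfsg.isometryGroup F Q), g ∈ Cfsg.Omega F Q ∧
      ((g : GL ι F) : Matrix ι ι F) = diagonal (fun k => if w k < i then (-1 : F) else 1)) ↔ IsSquare ((-1 : F) ^ i) := by
  classical
  have key : ∀ s : ℕ, s ≤ m → ∃ (g : ↥(Cfsg.isometryGroup F Q)) (vs : List (ι → F)),
      (∀ v ∈ vs, Q v ≠ 0) ∧ Even vs.length ∧ (vs.map (fun v => Q v)).prod = (-1) ^ s ∧
      ((g : GL ι F) : Matrix ι ι F) = (vs.map (fun v => Cfsg.reflectionMatrix Q v)).prod ∧
      ((g : GL ι F) : Matrix ι ι F) = diagonal (fun k => if ∃ j : Fin m, (j : ℕ) < s ∧ (k = a j ∨ k = b j) then (-1 : F) else 1) := by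
    intro s
    induction s with
    | zero =>
      intro _
      exact ⟨1, [], by simp, by simp, by simp, by simp, by simp⟩
    | succ s ih =>
      intro hs
      obtain ⟨g, vs, h1, h3, h4, h5, h6⟩ := ih (by omega)
      obtain ⟨e1, e2, e3⟩ := pair_reflections hQ h2 (hab ⟨s, hs⟩) (ha _) (hb _)
      have hv1 : Q (Pi.single (a ⟨s, hs⟩) 1 + Pi.single (b ⟨s, hs⟩) 1) ≠ 0 := by rw [e1]; exact one_ne_zero
      have hv2 : Q (Pi.single (a ⟨s, hs⟩) 1 - Pi.single (b ⟨s, hs⟩) 1) ≠ 0 := by rw [e2]; exact neg_ne_zero.2 one_ne_zero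
      have hval : (((rI hQ _ hv1 * rI hQ _ hv2 * g : ↥(Cfsg.isometryGroup F Q)) : GL ι F) : Matrix ι ι F) =
          Cfsg.reflectionMatrix Q (Pi.single (a ⟨s, hs⟩) 1 + Pi.single (b ⟨s, hs⟩) 1) * Cfsg.reflectionMatrix Q (Pi.single (a ⟨s, hs⟩) 1 - Pi.single (b ⟨s, hs⟩) 1) * ((g : GL ι F) : Matrix ι ι F) := by
        rw [← qR_val hQ hv1, ← qR_val hQ hv2]; rfl
      refine ⟨rI hQ _ hv1 * rI hQ _ hv2 * g, (Pi.single (a ⟨s, hs⟩) 1 + Pi.single (b ⟨s, hs⟩) 1) :: (Pi.single (a ⟨s, hs⟩) 1 - Pi.single (b ⟨s, hs⟩) 1) :: vs, ?_, ?_, ?_, ?_, ?_⟩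
      · intro v hv
        rcases List.mem_cons.1 hv with rfl | hv
        · exact hv1
        rcases List.mem_cons.1 hv with rfl | hv
        · exact hv2
        exact h1 v hv
      · simpa [Nat.even_add_one] using h3
      · simp only [List.map_cons, List.prod_cons, e1, e2, h4, pow_succ]; ring
      · rw [hval, h5]; simp only [List.map_cons, List.prod_cons, mul_assoc]
      · rw [hval, e3, h6, diagonal_mul_diagonal]
        refine congrArg diagonal (funext fun k => ?_)
        by_cases hk : k = a ⟨s, hs⟩ ∨ k = b ⟨s, hs⟩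
        · rw [if_pos hk, if_neg, if_pos ⟨⟨s, hs⟩, Nat.lt_succ_self s, hk⟩, mul_one]
          rintro ⟨j, hj, hj'⟩
          have hne : j ≠ ⟨s, hs⟩ := fun e => by rw [e] at hj; exact lt_irrefl _ hj
          obtain ⟨d1, d2, d3, d4⟩ := hdis j _ hne
          rcases hj' with rfl | rfl <;> rcases hk with hk | hk
          exacts [d1 hk, d2 hk, d3 hk, d4 hk]
        · rw [if_neg hk, one_mul]
          refine if_congr ⟨fun ⟨j, hj, hj'⟩ => ⟨j, Nat.lt_succ_of_lt hj, hj'⟩, fun ⟨j, hj, hj'⟩ => ?_⟩ rfl rfl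
          rcases Nat.lt_succ_iff_lt_or_eq.1 hj with hj | hj
          · exact ⟨j, hj, hj'⟩
          · exact absurd (show k = a ⟨s, hs⟩ ∨ k = b ⟨s, hs⟩ by rwa [show j = ⟨s, hs⟩ from Fin.ext hj] at hj') hk
  obtain ⟨g, vs, h1, h3, h4, h5, h6⟩ := key i him
  have hmat : ((g : GL ι F) : Matrix ι ι F) = diagonal (fun k => if w k < i then (-1 : F) else 1) := by
    rw [h6]; exact congrArg diagonal (funext fun k => if_congr (hw k).symm rfl rfl)
  have hmem := mem_omega_reflections hQ h2 hn g vs h1 h5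
  rw [h4] at hmem
  constructor
  · rintro ⟨g', hg', e⟩
    rw [show g' = g from Subtype.ext (Units.ext (e.trans hmat.symm))] at hg'
    exact (hmem.1 hg').2
  · exact fun h => ⟨g, hmem.2 ⟨h3, h⟩, hmat⟩

end CfsgLib.Classical

namespace CfsgLib.Classical

theorem isSquare_neg_one_pow_mod {F : Type*} [Field F] [Fintype F] {q : ℕ} (hF : Fintype.card F = q) (hq : Odd q) (i : ℕ) :
    IsSquare ((-1 : F) ^ i) ↔ q ^ i % 4 = 1 := by
  obtain ⟨j, rfl | rfl⟩ := Nat.even_or_odd' i
  · refine iff_of_true ⟨(-1) ^ j, by rw [← pow_add, two_mul]⟩ ?_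
    rw [pow_mul, Nat.pow_mod]
    have : q ^ 2 % 4 = 1 := by
      obtain ⟨k, rfl⟩ := hq
      rw [show (2 * k + 1) ^ 2 = 4 * (k * k + k) + 1 by ring]; omega
    rw [this, one_pow]; norm_num
  · rw [Odd.neg_one_pow ⟨j, rfl⟩, FiniteField.isSquare_neg_one_iff, hF, pow_succ, pow_mul, Nat.mul_mod, Nat.pow_mod]
    have : q ^ 2 % 4 = 1 := by
      obtain ⟨k, rfl⟩ := hq
      rw [show (2 * k + 1) ^ 2 = 4 * (k * k + k) + 1 by ring]; omega
    rw [this, one_pow, Nat.one_mod, one_mul, Nat.mod_mod]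
    rw [Nat.odd_iff] at hq
    omega

theorem two_ne_zero_of_oddCard {F : Type*} [Field F] [Fintype F] {q : ℕ} (hF : Fintype.card F = q) (hq : Odd q) : (2 : F) ≠ 0 :=
  Ring.two_ne_zero fun h => by
    have := FiniteField.even_card_of_char_two h
    rw [hF] at this; rw [Nat.odd_iff] at hq; omega

end CfsgLib.Classical
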