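import Mathlib
import Cfsg.Prelude.Def_LieClassical
import Cfsg.Prelude.Def_ClassicalGeometry

/-! The stabiliser of a subspace with an orthogonal complement is the product of the two isometry groups. -/

set_option autoImplicit false

namespace CfsgLib.StabProd

open Matrix

variable {F : Type*} [Field F] {ι κ₁ κ₂ : Type} [Fintype ι] [DecidableEq ι] [Fintype κ₁] [DecidableEq κ₁] [Fintype κ₂] [DecidableEq κ₂]

/-- isometry group in GL -/
abbrev Iso (f : (ι → F) → (ι → F) → F) : Subgroup (GL ι F) := Cfsg.preserving (Units.coeHom (Matrix ι ι F)) f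

theorem mulVec_inv_cancel (g : GL ι F) (v : ι → F) :
    (g : Matrix ι ι F) *ᵥ (((g⁻¹ : GL ι F) : Matrix ι ι F) *ᵥ v) = v := by
  rw [Matrix.mulVec_mulVec, Units.mul_inv, Matrix.one_mulVec]

theorem inv_mulVec_cancel (g : GL ι F) (v : ι → F) :
    ((g⁻¹ : GL ι F) : Matrix ι ι F) *ᵥ ((g : Matrix ι ι F) *ᵥ v) = v := by
  rw [Matrix.mulVec_mulVec, Units.inv_mul, Matrix.one_mulVec]

/-- the block map -/
def blk (Φ : ((κ₁ → F) × (κ₂ → F)) ≃ₗ[F] (ι → F)) (a : GL κ₁ F) (b : GL κ₂ F) : Module.End F (ι → F) :=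
  Φ.toLinearMap ∘ₗ ((Matrix.toLin' (a : Matrix κ₁ κ₁ F)).prodMap (Matrix.toLin' (b : Matrix κ₂ κ₂ F))) ∘ₗ Φ.symm.toLinearMap

theorem blk_apply (Φ : ((κ₁ → F) × (κ₂ → F)) ≃ₗ[F] (ι → F)) (a : GL κ₁ F) (b : GL κ₂ F) (u : κ₁ → F) (v : κ₂ → F) :
    blk Φ a b (Φ (u, v)) = Φ ((a : Matrix κ₁ κ₁ F) *ᵥ u, (b : Matrix κ₂ κ₂ F) *ᵥ v) := by
  simp [blk]

theorem blk_mul (Φ : ((κ₁ → F) × (κ₂ → F)) ≃ₗ[F] (ι → F)) (a a' : GL κ₁ F) (b b' : GL κ₂ F) :
    blk Φ (a * a') (b * b') = blk Φ a b * blk Φ a' b' := by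
  refine LinearMap.ext fun w => ?_
  obtain ⟨⟨u, v⟩, rfl⟩ := Φ.surjective w
  rw [Module.End.mul_apply, blk_apply, blk_apply, blk_apply, Matrix.mulVec_mulVec, Matrix.mulVec_mulVec]
  rfl

theorem blk_one (Φ : ((κ₁ → F) × (κ₂ → F)) ≃ₗ[F] (ι → F)) : blk Φ 1 1 = 1 := by
  refine LinearMap.ext fun w => ?_
  obtain ⟨⟨u, v⟩, rfl⟩ := Φ.surjective w
  rw [blk_apply]; simp

/-- the block embedding -/
noncomputable def blkHom (Φ : ((κ₁ → F) × (κ₂ → F)) ≃ₗ[F] (ι → F)) : GL κ₁ F × GL κ₂ F →* GL ι F :=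
  MonoidHom.toHomUnits
    { toFun := fun x => LinearMap.toMatrix' (blk Φ x.1 x.2)
      map_one' := by rw [Prod.fst_one, Prod.snd_one, blk_one, Module.End.one_eq_id, LinearMap.toMatrix'_id]
      map_mul' := fun x y => by rw [Prod.fst_mul, Prod.snd_mul, blk_mul, Module.End.mul_eq_comp, LinearMap.toMatrix'_comp] }

theorem blkHom_mulVec (Φ : ((κ₁ → F) × (κ₂ → F)) ≃ₗ[F] (ι → F)) (a : GL κ₁ F) (b : GL κ₂ F) (w : ι → F) :
    ((blkHom Φ (a, b) : GL ι F) : Matrix ι ι F) *ᵥ w = blk Φ a b w := by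
  show LinearMap.toMatrix' (blk Φ a b) *ᵥ w = _
  rw [← Matrix.toLin'_apply, Matrix.toLin'_toMatrix']

/-- the main isomorphism -/
theorem stab_equiv (f : (ι → F) → (ι → F) → F) (f₁ : (κ₁ → F) → (κ₁ → F) → F) (f₂ : (κ₂ → F) → (κ₂ → F) → F)
    (Φ : ((κ₁ → F) × (κ₂ → F)) ≃ₗ[F] (ι → F))
    (hΦ : ∀ u v u' v', f (Φ (u, v)) (Φ (u', v')) = f₁ u u' + f₂ v v')
    (h10 : ∀ u, f₁ 0 u = 0 ∧ f₁ u 0 = 0) (h20 : ∀ v, f₂ 0 v = 0 ∧ f₂ v 0 = 0)
    (h1n : ∀ u, (∀ u', f₁ u u' = 0) → u = 0) (W : Submodule F (ι → F))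
    (hW : ∀ u v, Φ (u, v) ∈ W ↔ v = 0) :
    Nonempty (↥((Cfsg.stabilizing (Units.coeHom (Matrix ι ι F)) (W : Set (ι → F))).subgroupOf (Iso f)) ≃*
      ↥(Iso f₁) × ↥(Iso f₂)) := by
  classical
  let ψ : ↥(Iso f₁) × ↥(Iso f₂) →* GL ι F := (blkHom Φ).comp ((Iso f₁).subtype.prodMap (Iso f₂).subtype)
  have hψ : ∀ (x : ↥(Iso f₁) × ↥(Iso f₂)) u v, ((ψ x : GL ι F) : Matrix ι ι F) *ᵥ Φ (u, v) =
      Φ (((x.1 : GL κ₁ F) : Matrix κ₁ κ₁ F) *ᵥ u, ((x.2 : GL κ₂ F) : Matrix κ₂ κ₂ F) *ᵥ v) := fun x u v =>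
    (blkHom_mulVec Φ _ _ _).trans (blk_apply Φ _ _ u v)
  have hψI : ∀ x, ψ x ∈ Iso f := by
    intro x w w'
    obtain ⟨⟨u, v⟩, rfl⟩ := Φ.surjective w
    obtain ⟨⟨u', v'⟩, rfl⟩ := Φ.surjective w'
    rw [Units.coeHom_apply, hψ, hψ, hΦ, hΦ]
    exact congrArg₂ (· + ·) (x.1.2 u u') (x.2.2 v v')
  let ψ' : ↥(Iso f₁) × ↥(Iso f₂) →* ↥(Iso f) := ψ.codRestrict _ hψI
  have hinj : Function.Injective ψ' := by
    rw [injective_iff_map_eq_one]
    intro x hx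
    have hx' : (ψ x : GL ι F) = 1 := congrArg Subtype.val hx
    refine Prod.ext (Subtype.ext (Units.ext ?_)) (Subtype.ext (Units.ext ?_)) <;> refine Matrix.mulVec_injective ?_ <;>
      funext u
    · have h := hψ x u 0
      rw [hx', Units.val_one, Matrix.one_mulVec] at h
      rw [show ((1 : ↥(Iso f₁) × ↥(Iso f₂)).1 : GL κ₁ F) = 1 from rfl, Units.val_one, Matrix.one_mulVec]
      exact ((Prod.ext_iff.1 (Φ.injective h)).1).symm
    · have h := hψ x 0 u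
      rw [hx', Units.val_one, Matrix.one_mulVec] at h
      rw [show ((1 : ↥(Iso f₁) × ↥(Iso f₂)).2 : GL κ₂ F) = 1 from rfl, Units.val_one, Matrix.one_mulVec]
      exact ((Prod.ext_iff.1 (Φ.injective h)).2).symm
  have hrange : ψ'.range = (Cfsg.stabilizing (Units.coeHom (Matrix ι ι F)) (W : Set (ι → F))).subgroupOf (Iso f) := by
    refine le_antisymm ?_ ?_
    · rintro _ ⟨x, rfl⟩
      rw [Subgroup.mem_subgroupOf]
      intro w
      obtain ⟨⟨u, v⟩, rfl⟩ := Φ.surjective w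
      show Φ (u, v) ∈ W ↔ ((ψ x : GL ι F) : Matrix ι ι F) *ᵥ Φ (u, v) ∈ W
      rw [hψ, hW, hW]
      refine ⟨fun h => by rw [h, Matrix.mulVec_zero], fun h => ?_⟩
      rw [← inv_mulVec_cancel (x.2 : GL κ₂ F) v, h, Matrix.mulVec_zero]
    · rintro ⟨g, hg⟩ hgW
      rw [Subgroup.mem_subgroupOf] at hgW
      let G : Module.End F ((κ₁ → F) × (κ₂ → F)) :=
        Φ.symm.toLinearMap ∘ₗ Matrix.toLin' (g : Matrix ι ι F) ∘ₗ Φ.toLinearMap
      have hG : ∀ z, Φ (G z) = (g : Matrix ι ι F) *ᵥ Φ z := fun z => by simp [G]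
      have hG1 : ∀ u, (G (u, 0)).2 = 0 := fun u => by
        refine (hW (G (u, 0)).1 _).1 ?_
        rw [Prod.mk.eta, hG]
        exact (hgW _).1 ((hW u 0).2 rfl)
      have hginv : ∀ w ∈ W, ((g⁻¹ : GL ι F) : Matrix ι ι F) *ᵥ w ∈ W := fun w hw => by
        refine (hgW _).2 ?_
        show (g : Matrix ι ι F) *ᵥ _ ∈ W
        rw [mulVec_inv_cancel]; exact hw
      have hG2 : ∀ v, (G (0, v)).1 = 0 := fun v => by
        refine h1n _ fun u' => ?_
        have hw : ((g⁻¹ : GL ι F) : Matrix ι ι F) *ᵥ Φ (u', 0) ∈ W := hginv _ ((hW u' 0).2 rfl)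
        obtain ⟨⟨a, b⟩, hab⟩ := Φ.surjective (((g⁻¹ : GL ι F) : Matrix ι ι F) *ᵥ Φ (u', 0))
        rw [← hab, hW] at hw
        subst hw
        have e := hg (Φ (0, v)) (Φ (a, 0))
        rw [hΦ 0 v a 0, Units.coeHom_apply, ← hG, hab, mulVec_inv_cancel, ← Prod.mk.eta (p := G (0, v)), hΦ, (h10 a).1, (h20 v).2,
          (h20 _).2, add_zero, add_zero] at e
        exact e
      let A : Module.End F (κ₁ → F) := LinearMap.fst F _ _ ∘ₗ G ∘ₗ LinearMap.inl F _ _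
      let B : Module.End F (κ₂ → F) := LinearMap.snd F _ _ ∘ₗ G ∘ₗ LinearMap.inr F _ _
      have hGuv : ∀ u v, G (u, v) = (A u, B v) := fun u v => by
        have : ((u, v) : (κ₁ → F) × (κ₂ → F)) = (u, 0) + (0, v) := by simp
        rw [this, map_add]
        refine Prod.ext ?_ ?_
        · show (G (u, 0)).1 + (G (0, v)).1 = A u
          rw [hG2, add_zero]; rfl
        · show (G (u, 0)).2 + (G (0, v)).2 = B v
          rw [hG1, zero_add]; rfl
      have hGinj : Function.Injective G := fun z z' h => by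
        have := congrArg Φ h
        rw [hG, hG] at this
        have := congrArg (((g⁻¹ : GL ι F) : Matrix ι ι F) *ᵥ ·) this
        simp only [inv_mulVec_cancel] at this
        exact Φ.injective this
      have hAinj : Function.Injective A := fun u u' h => (Prod.ext_iff.1 (hGinj (show G (u, 0) = G (u', 0) by rw [hGuv, hGuv, h]))).1
      have hBinj : Function.Injective B := fun v v' h => (Prod.ext_iff.1 (hGinj (show G (0, v) = G (0, v') by rw [hGuv, hGuv, h]))).2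
      have hAu : IsUnit (LinearMap.toMatrix' A) := Matrix.mulVec_injective_iff_isUnit.1 fun u u' h => hAinj (by
        simpa [← Matrix.toLin'_apply] using h)
      have hBu : IsUnit (LinearMap.toMatrix' B) := Matrix.mulVec_injective_iff_isUnit.1 fun u u' h => hBinj (by
        simpa [← Matrix.toLin'_apply] using h)
      have hA : ∀ u, (hAu.unit : Matrix κ₁ κ₁ F) *ᵥ u = A u := fun u => by
        rw [IsUnit.unit_spec, ← Matrix.toLin'_apply, Matrix.toLin'_toMatrix']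
      have hB : ∀ v, (hBu.unit : Matrix κ₂ κ₂ F) *ᵥ v = B v := fun v => by
        rw [IsUnit.unit_spec, ← Matrix.toLin'_apply, Matrix.toLin'_toMatrix']
      have hAI : hAu.unit ∈ Iso f₁ := fun u u' => by
        have e := hg (Φ (u, 0)) (Φ (u', 0))
        rw [Units.coeHom_apply, ← hG, ← hG, hGuv, hGuv, hΦ, hΦ, map_zero, (h20 0).1, add_zero, add_zero] at e
        rw [Units.coeHom_apply, hA, hA]; exact e
      have hBI : hBu.unit ∈ Iso f₂ := fun v v' => by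
        have e := hg (Φ (0, v)) (Φ (0, v'))
        rw [Units.coeHom_apply, ← hG, ← hG, hGuv, hGuv, hΦ, hΦ, map_zero, (h10 0).1, zero_add, zero_add] at e
        rw [Units.coeHom_apply, hB, hB]; exact e
      refine ⟨(⟨_, hAI⟩, ⟨_, hBI⟩), Subtype.ext (Units.ext (Matrix.mulVec_injective (funext fun w => ?_)))⟩
      obtain ⟨⟨u, v⟩, rfl⟩ := Φ.surjective w
      show ((ψ _ : GL ι F) : Matrix ι ι F) *ᵥ _ = _
      rw [hψ]
      show Φ ((hAu.unit : Matrix κ₁ κ₁ F) *ᵥ u, (hBu.unit : Matrix κ₂ κ₂ F) *ᵥ v) = (g : Matrix ι ι F) *ᵥ Φ (u, v)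
      rw [hA, hB, ← hGuv, hG]
  exact ⟨((MonoidHom.ofInjective hinj).trans (MulEquiv.subgroupCongr hrange)).symm⟩

end CfsgLib.StabProd
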