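import Cfsg.Agent.Lib.ClassicalSympInvol
import Cfsg.Agent.Lib.ClassicalCardLinear

/-!
Elements of `SL_n(q)` squaring to scalars and their conjugacy into a subfield subgroup.
-/

set_option autoImplicit false

namespace CfsgLib.SubfieldInvol

open Matrix Module CfsgLib.SympInvol

attribute [local instance] _root_.Classical.propDecidable

variable {F : Type*} [Field F] {n : ℕ} (F₀ : Subfield F)

local notation "VV" => Fin n → F

lemma mem_subfield_iff (g : GL (Fin n) F) :
    g ∈ Cfsg.Geo.subfieldSubgroup F₀ 1 ↔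
      g ∈ (Matrix.GeneralLinearGroup.map (n := Fin n) (F₀.subtype : F₀ →+* F)).range ⊔ Cfsg.Geo.scalars (Fin n) F := by
  unfold Cfsg.Geo.subfieldSubgroup
  rw [Subgroup.mem_map]
  constructor
  · rintro ⟨y, hy, rfl⟩; simpa using hy
  · exact fun h => ⟨g, h, by simp⟩

/-- a matrix `a • M` with `M` over the subfield gives a conjugate in the subfield subgroup -/
theorem conj_of_basis (x : Matrix.SpecialLinearGroup (Fin n) F) {ι : Type*} [Fintype ι] [DecidableEq ι]
    (b : Basis ι F VV) (a : F) (ha : a ≠ 0) (M : Matrix ι ι F) (hM : ∀ i j, M i j ∈ F₀)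
    (hx : ∀ j, (x : Matrix (Fin n) (Fin n) F) *ᵥ b j = ∑ i, (a * M i j) • b i)
    (hc : ∀ D : F, D ≠ 0 → ∃ C : Matrix ι ι F, C * M = M * C ∧ C.det = D) :
    ∃ P : Matrix.SpecialLinearGroup (Fin n) F, P⁻¹ * x * P ∈ ((Cfsg.Geo.subfieldSubgroup F₀ 1).comap
      (Matrix.SpecialLinearGroup.toGL : Matrix.SpecialLinearGroup (Fin n) F →* GL (Fin n) F)) := by
  let e : ι ≃ Fin n := Fintype.equivFinOfCardEq (by
    have := Module.finrank_eq_card_basis b; simp at this; omega)
  let b' := b.reindex e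
  let M' : Matrix (Fin n) (Fin n) F := M.submatrix e.symm e.symm
  let B : Matrix (Fin n) (Fin n) F := LinearMap.toMatrix' b'.equivFun.symm.toLinearMap
  have hB : ∀ v, B *ᵥ v = b'.equivFun.symm v := fun v => LinearMap.toMatrix'_mulVec _ _
  have hBdet : B.det ≠ 0 := by
    show (LinearMap.toMatrix' b'.equivFun.symm.toLinearMap).det ≠ 0
    rw [LinearMap.det_toMatrix']
    exact b'.equivFun.symm.isUnit_det'.ne_zero
  obtain ⟨C, hC, hCdet⟩ := hc B.det⁻¹ (inv_ne_zero hBdet)
  let C' : Matrix (Fin n) (Fin n) F := C.submatrix e.symm e.symm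
  have hC' : C' * M' = M' * C' := by
    rw [Matrix.submatrix_mul_equiv, Matrix.submatrix_mul_equiv, hC]
  have hXB : (x : Matrix (Fin n) (Fin n) F) * B = B * (a • M') := by
    refine Matrix.ext_iff_mulVec.mpr fun v => ?_
    rw [← mulVec_mulVec, ← mulVec_mulVec, hB, hB, Basis.equivFun_symm_apply, Basis.equivFun_symm_apply,
      mulVec_sum]
    simp only [mulVec_smul, b', Basis.coe_reindex, Function.comp_apply, hx, Finset.smul_sum, smul_smul]
    rw [Finset.sum_comm]
    refine Fintype.sum_equiv e _ _ fun i => ?_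
    rw [Equiv.symm_apply_apply, ← Finset.sum_smul]
    congr 1
    simp [M', Matrix.mulVec, dotProduct, mul_comm, mul_left_comm]
  let P : Matrix.SpecialLinearGroup (Fin n) F := ⟨B * C', by
    rw [Matrix.det_mul, Matrix.det_submatrix_equiv_self, hCdet, mul_inv_cancel₀ hBdet]⟩
  refine ⟨P, (mem_subfield_iff F₀ _).mpr ?_⟩
  have hY : ((P⁻¹ * x * P : Matrix.SpecialLinearGroup (Fin n) F) : Matrix (Fin n) (Fin n) F) = a • M' := by
    rw [Matrix.SpecialLinearGroup.coe_mul, Matrix.SpecialLinearGroup.coe_mul, mul_assoc,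
      show (x : Matrix (Fin n) (Fin n) F) * (P : Matrix (Fin n) (Fin n) F) = (P : Matrix (Fin n) (Fin n) F) * (a • M') by
        show _ * (B * C') = B * C' * _
        simp only [← mul_assoc, hXB]
        simp only [mul_assoc, Matrix.smul_mul, Matrix.mul_smul, hC'],
      ← mul_assoc, ← Matrix.SpecialLinearGroup.coe_mul, inv_mul_cancel, Matrix.SpecialLinearGroup.coe_one, one_mul]
  let M0 : Matrix (Fin n) (Fin n) F₀ := fun i j => ⟨M' i j, hM _ _⟩
  have hM0 : M0.map F₀.subtype = M' := by ext i j; rfl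
  have hdet0 : M0.det ≠ 0 := by
    intro h
    have h1 := congrArg Matrix.det hY
    rw [(P⁻¹ * x * P).2, Matrix.det_smul, ← hM0, ← RingHom.mapMatrix_apply, ← RingHom.map_det, h, map_zero,
      mul_zero] at h1
    exact one_ne_zero h1
  have heq : Matrix.SpecialLinearGroup.toGL (P⁻¹ * x * P) =
      Units.map (Matrix.scalar (Fin n)).toMonoidHom (Units.mk0 a ha) *
        Matrix.GeneralLinearGroup.map (F₀.subtype : F₀ →+* F) (Matrix.GeneralLinearGroup.mkOfDetNeZero M0 hdet0) := by
    refine Units.ext ?_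
    show ((P⁻¹ * x * P : Matrix.SpecialLinearGroup (Fin n) F) : Matrix (Fin n) (Fin n) F) =
      Matrix.scalar (Fin n) a * M0.map F₀.subtype
    rw [hY, hM0]
    ext i j
    simp [Matrix.scalar]
  rw [heq]
  exact mul_mem (Subgroup.mem_sup_right ⟨Units.mk0 a ha, rfl⟩) (Subgroup.mem_sup_left ⟨_, rfl⟩)

/-- the square case in odd characteristic -/
theorem elusive_square_odd (x : Matrix.SpecialLinearGroup (Fin n) F) (a : F) (ha0 : a ≠ 0) (h2 : (2 : F) ≠ 0)
    (hn : 0 < n) (hX : (x : Matrix (Fin n) (Fin n) F) * (x : Matrix (Fin n) (Fin n) F) = (a * a) • 1) :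
    ∃ P : Matrix.SpecialLinearGroup (Fin n) F, P⁻¹ * x * P ∈ ((Cfsg.Geo.subfieldSubgroup F₀ 1).comap
      (Matrix.SpecialLinearGroup.toGL : Matrix.SpecialLinearGroup (Fin n) F →* GL (Fin n) F)) := by
  let T := Matrix.toLin' (x : Matrix (Fin n) (Fin n) F)
  let U := Module.End.eigenspace T a
  let W := Module.End.eigenspace T (-a)
  have hT : ∀ v, T (T v) = (a * a) • v := fun v => by
    simp [T, mulVec_mulVec, hX, smul_mulVec]
  have hUW : IsCompl U W := by
    constructor
    · rw [Submodule.disjoint_def]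
      intro v hu hw
      rw [Module.End.mem_eigenspace_iff] at hu hw
      rw [hu, ← sub_eq_zero, ← sub_smul, smul_eq_zero] at hw
      exact hw.resolve_left (by rw [sub_neg_eq_add, ← two_mul]; exact mul_ne_zero h2 ha0)
    · rw [codisjoint_iff, eq_top_iff]
      intro v _
      have hv : v = (2 * a)⁻¹ • (a • v + T v) + (2 * a)⁻¹ • (a • v - T v) := by
        rw [← smul_add, show a • v + T v + (a • v - T v) = (2 * a) • v by module, smul_smul,
          inv_mul_cancel₀ (mul_ne_zero h2 ha0), one_smul]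
      rw [hv]
      refine Submodule.add_mem_sup (Submodule.smul_mem _ _ ?_) (Submodule.smul_mem _ _ ?_) <;>
        rw [Module.End.mem_eigenspace_iff]
      · rw [map_add, map_smul, hT]; module
      · rw [map_sub, map_smul, hT]; module
  let b0 : Basis (Fin (finrank F U) ⊕ Fin (finrank F W)) F VV :=
    ((Module.finBasis F U).prod (Module.finBasis F W)).map (Submodule.prodEquivOfIsCompl U W hUW)
  let d : Fin (finrank F U) ⊕ Fin (finrank F W) → F := Sum.elim (fun _ => 1) (fun _ => -1)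
  have hrs := Module.finrank_eq_card_basis b0
  simp at hrs
  obtain ⟨i₀⟩ : Nonempty (Fin (finrank F U) ⊕ Fin (finrank F W)) := Fintype.card_pos_iff.mp (by simp; omega)
  refine conj_of_basis F₀ x b0 a ha0 (Matrix.diagonal d) (fun i j => ?_) (fun j => ?_) fun D hD => ?_
  · rw [Matrix.diagonal_apply]
    split
    · rcases i with i | i <;> simp [d, one_mem, neg_mem]
    · exact zero_mem _
  · rw [Finset.sum_eq_single j (fun i _ h => by simp [Matrix.diagonal_apply_ne _ h]) (by simp),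
      Matrix.diagonal_apply_eq, ← Matrix.toLin'_apply]
    rcases j with j | j
    · have h : b0 (.inl j) = ((Module.finBasis F U) j : VV) := by simp [b0]
      rw [h]; simpa [d, T] using Module.End.mem_eigenspace_iff.mp (Module.finBasis F U j).2
    · have h : b0 (.inr j) = ((Module.finBasis F W) j : VV) := by simp [b0]
      rw [h]; simpa [d, T] using Module.End.mem_eigenspace_iff.mp (Module.finBasis F W j).2
  · refine ⟨Matrix.diagonal (Function.update 1 i₀ D), ?_, ?_⟩
    · rw [Matrix.diagonal_mul_diagonal, Matrix.diagonal_mul_diagonal]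
      exact congrArg _ (funext fun i => mul_comm _ _)
    · rw [Matrix.det_diagonal, Finset.prod_eq_single i₀ (fun i _ h => by simp [Function.update_of_ne h]) (by simp)]
      simp

/-- the case of characteristic two -/
theorem elusive_two [Fintype F] (x : Matrix.SpecialLinearGroup (Fin n) F) (a : F) (ha0 : a ≠ 0) (h2 : (2 : F) = 0)
    (hX : (x : Matrix (Fin n) (Fin n) F) * (x : Matrix (Fin n) (Fin n) F) = (a * a) • 1)
    (hns : ∀ z : F, (x : Matrix (Fin n) (Fin n) F) ≠ z • 1) :
    ∃ P : Matrix.SpecialLinearGroup (Fin n) F, P⁻¹ * x * P ∈ ((Cfsg.Geo.subfieldSubgroup F₀ 1).comap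
      (Matrix.SpecialLinearGroup.toGL : Matrix.SpecialLinearGroup (Fin n) F →* GL (Fin n) F)) := by
  haveI : CharP F 2 := CharTwo.of_one_ne_zero_of_two_eq_zero one_ne_zero h2
  let X := (x : Matrix (Fin n) (Fin n) F)
  let N : VV →ₗ[F] VV := a⁻¹ • Matrix.toLin' X - LinearMap.id
  have hN2 : ∀ v, N (N v) = 0 := fun v => by
    simp only [N, LinearMap.sub_apply, LinearMap.smul_apply, LinearMap.id_apply, Matrix.toLin'_apply, map_sub,
      map_smul, mulVec_mulVec, X, hX, smul_mulVec, one_mulVec, smul_smul]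
    funext i
    simp only [Pi.sub_apply, Pi.smul_apply, smul_eq_mul, Pi.zero_apply]
    field_simp
    linear_combination (a * v i - ((x : Matrix (Fin n) (Fin n) F) *ᵥ v) i) * h2
  have hXN : ∀ v, X *ᵥ v = a • v + a • N v := fun v => by
    simp only [N, LinearMap.sub_apply, LinearMap.smul_apply, LinearMap.id_apply, Matrix.toLin'_apply, smul_sub,
      smul_smul, mul_inv_cancel₀ ha0, one_smul]
    abel
  have hle : LinearMap.range N ≤ LinearMap.ker N := by
    rintro _ ⟨v, rfl⟩; exact hN2 v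
  obtain ⟨W, hW⟩ := (LinearMap.ker N).exists_isCompl
  obtain ⟨C, hC⟩ := (LinearMap.range N).exists_isCompl
  let U := LinearMap.ker N ⊓ C
  have hdW := Submodule.finrank_sup_add_finrank_inf_eq (LinearMap.ker N) W
  rw [hW.codisjoint.eq_top, hW.disjoint.eq_bot, finrank_bot, finrank_top, Module.finrank_fintype_fun_eq_card,
    Fintype.card_fin] at hdW
  have hrank := LinearMap.finrank_range_add_finrank_ker N
  rw [Module.finrank_fintype_fun_eq_card, Fintype.card_fin] at hrank
  have hdU := Submodule.finrank_sup_add_finrank_inf_eq (LinearMap.range N) U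
  rw [show LinearMap.range N ⊔ U = LinearMap.ker N by
      rw [show U = C ⊓ LinearMap.ker N from inf_comm _ _, ← sup_inf_assoc_of_le _ hle, hC.codisjoint.eq_top,
        top_inf_eq],
    show LinearMap.range N ⊓ U = ⊥ from eq_bot_iff.mpr fun v hv =>
      (Submodule.mem_bot F).mpr (Submodule.disjoint_def.mp hC.disjoint v hv.1 hv.2.2),
    finrank_bot] at hdU
  let s := finrank F W
  let u := finrank F U
  let bW := Module.finBasis F W
  let bU := Module.finBasis F U
  have hs0 : 0 < s := by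
    by_contra h
    refine hns a (Matrix.ext_iff_mulVec.mpr fun v => ?_)
    have hN : N v = 0 := by
      have hr : finrank F (LinearMap.range N) = 0 := by omega
      have := Submodule.finrank_eq_zero.mp hr
      exact (Submodule.mem_bot F).mp (this ▸ LinearMap.mem_range_self N v)
    show X *ᵥ v = _
    rw [hXN, hN, smul_zero, add_zero, smul_mulVec, one_mulVec]
  let v : (Fin 2 × Fin s) ⊕ Fin u → VV :=
    Sum.elim (fun p => if p.1 = 0 then (bW p.2 : VV) else N (bW p.2)) (fun k => (bU k : VV))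
  have hv : LinearIndependent F v := by
    rw [Fintype.linearIndependent_iff]
    intro c hc
    simp only [Fintype.sum_prod_type, Fin.sum_univ_two, Fintype.sum_sum_type, v, Sum.elim_inl, Sum.elim_inr,
      ↓reduceIte, one_ne_zero] at hc
    set A : W := ∑ k, c (.inl (0, k)) • bW k with hA
    set B : W := ∑ k, c (.inl (1, k)) • bW k with hB
    set K : U := ∑ k, c (.inr k) • bU k with hK
    have hsum : (A : VV) + N (B : VV) + (K : VV) = 0 := by
      rw [← hc, hA, hB, hK]
      simp only [Submodule.coe_sum, Submodule.coe_smul, map_sum, map_smul]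
    have hKk : N (K : VV) = 0 := K.2.1
    have hA0 : (A : VV) = 0 := by
      refine Submodule.disjoint_def.mp hW.disjoint _ ?_ A.2
      have := congrArg N hsum
      simpa [hN2, hKk] using this
    rw [hA0, zero_add] at hsum
    have hNB : N (B : VV) = 0 := by
      refine Submodule.disjoint_def.mp hC.disjoint _ ⟨_, rfl⟩ ?_
      rw [eq_neg_of_add_eq_zero_left hsum]
      exact neg_mem K.2.2
    have hB0 : (B : VV) = 0 := Submodule.disjoint_def.mp hW.disjoint _ hNB B.2
    rw [hNB, zero_add] at hsum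
    have hcA := (Fintype.linearIndependent_iff.mp bW.linearIndependent) _ (show A = 0 from Subtype.ext hA0)
    have hcB := (Fintype.linearIndependent_iff.mp bW.linearIndependent) _ (show B = 0 from Subtype.ext hB0)
    have hcK := (Fintype.linearIndependent_iff.mp bU.linearIndependent) _ (show K = 0 from Subtype.ext hsum)
    rintro (⟨i, k⟩ | k)
    · fin_cases i
      · exact hcA k
      · exact hcB k
    · exact hcK k
  let b := basisOfLinearIndependentOfCardEqFinrank' v hv (by simp [s, u, U] at *; omega)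
  let M : Matrix ((Fin 2 × Fin s) ⊕ Fin u) ((Fin 2 × Fin s) ⊕ Fin u) F :=
    Matrix.fromBlocks (Matrix.blockDiagonal fun _ => !![1, 0; 1, 1]) 0 0 1
  refine conj_of_basis F₀ x b a ha0 M (fun i j => ?_) (fun j => ?_) fun D hD => ?_
  · rcases i with ⟨i, k⟩ | i <;> rcases j with ⟨j, l⟩ | j
    · simp only [M, Matrix.fromBlocks_apply₁₁, Matrix.blockDiagonal_apply]
      split
      · fin_cases i <;> fin_cases j <;> simp [one_mem, zero_mem]
      · exact zero_mem _
    · exact zero_mem _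
    · exact zero_mem _
    · simp only [M, Matrix.fromBlocks_apply₂₂, Matrix.one_apply]
      split
      · exact one_mem _
      · exact zero_mem _
  · rw [show (x : Matrix (Fin n) (Fin n) F) *ᵥ b j = a • b j + a • N (b j) from hXN _]
    simp only [b, coe_basisOfLinearIndependentOfCardEqFinrank']
    rw [Fintype.sum_sum_type]
    rcases j with ⟨j, l⟩ | j
    · simp only [M, Matrix.fromBlocks_apply₁₁, Matrix.fromBlocks_apply₂₁, Matrix.zero_apply, mul_zero, zero_smul,
        Finset.sum_const_zero, add_zero, Matrix.blockDiagonal_apply, Fintype.sum_prod_type, Fin.sum_univ_two]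
      fin_cases j <;> simp [v, hN2, mul_ite, ite_smul]
    · have hK0 : N (bU j : VV) = 0 := (bU j).2.1
      simp [M, v, Matrix.one_apply, mul_ite, ite_smul, hK0]
  · obtain ⟨d, hd⟩ := (isSquare_of_charTwo' D : IsSquare D)
    refine ⟨Matrix.fromBlocks (Matrix.blockDiagonal (Function.update 1 ⟨0, hs0⟩ (d • 1))) 0 0 1, ?_, ?_⟩
    · simp only [M, Matrix.fromBlocks_multiply, Matrix.zero_mul, Matrix.mul_zero, add_zero, zero_add,
        Matrix.mul_one, Matrix.one_mul, ← Matrix.blockDiagonal_mul]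
      refine congrArg (fun A => Matrix.fromBlocks A 0 0 1) (congrArg Matrix.blockDiagonal (funext fun k => ?_))
      by_cases h : k = ⟨0, hs0⟩
      · subst h; simp
      · simp [Function.update_of_ne h]
    · rw [Matrix.det_fromBlocks_zero₁₂, Matrix.det_one, mul_one, Matrix.det_blockDiagonal,
        Finset.prod_eq_single (⟨0, hs0⟩ : Fin s) (fun k _ h => by simp [Function.update_of_ne h]) (by simp),
        Function.update_self, Matrix.det_smul, Matrix.det_one, Fintype.card_fin, mul_one, hd, pow_two]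

section finite

variable [Fintype F]

lemma sq_of_mem (q₀ : ℕ) (hF₀ : Nat.card ↥F₀ = q₀) (hq : Fintype.card F = q₀ ^ 2) (hodd : Odd q₀)
    {c : F} (hc : c ∈ F₀) : IsSquare c := by
  haveI : Fintype F₀ := Fintype.ofFinite _
  by_cases h0 : c = 0
  · exact ⟨0, by simp [h0]⟩
  have h2 : ringChar F ≠ 2 := fun h => by
    have := FiniteField.even_card_iff_char_two.mp h
    rw [hq] at this
    exact Nat.not_even_iff_odd.mpr (hodd.pow : Odd (q₀ ^ 2)) (Nat.even_iff.mpr this)
  rw [FiniteField.isSquare_iff h2 h0]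
  have h1 : (⟨c, hc⟩ : F₀) ^ (q₀ - 1) = 1 := by
    rw [← hF₀, Nat.card_eq_fintype_card]
    exact FiniteField.pow_card_sub_one_eq_one _ fun h => h0 (congrArg Subtype.val h)
  have h1' : c ^ (q₀ - 1) = 1 := congrArg Subtype.val h1
  obtain ⟨t, ht⟩ := hodd
  have hdiv : Fintype.card F / 2 = (q₀ - 1) * (t + 1) := by
    rw [hq, ht, show (2 * t + 1) ^ 2 = 1 + 2 * (2 * t * (t + 1)) by ring, Nat.add_mul_div_left _ _ two_pos]
    simp
  rw [hdiv, pow_mul, h1', one_pow]

lemma not_mem_of_nonsquare (q₀ : ℕ) (hF₀ : Nat.card ↥F₀ = q₀) (hq : Fintype.card F = q₀ ^ 2) (hodd : Odd q₀)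
    (x : Matrix.SpecialLinearGroup (Fin n) F) (z : F) (hn : 0 < n)
    (hX : (x : Matrix (Fin n) (Fin n) F) * (x : Matrix (Fin n) (Fin n) F) = z • 1) (hz : ¬ IsSquare z)
    (P : Matrix.SpecialLinearGroup (Fin n) F) :
    P⁻¹ * x * P ∉ ((Cfsg.Geo.subfieldSubgroup F₀ 1).comap
      (Matrix.SpecialLinearGroup.toGL : Matrix.SpecialLinearGroup (Fin n) F →* GL (Fin n) F)) := by
  intro hP
  haveI : (Cfsg.Geo.scalars (Fin n) F).Normal := ⟨fun a ha g => by
    obtain ⟨c, rfl⟩ := ha
    have h : g * Units.map (Matrix.scalar (Fin n) : F →+* Matrix (Fin n) (Fin n) F).toMonoidHom c =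
        Units.map (Matrix.scalar (Fin n) : F →+* Matrix (Fin n) (Fin n) F).toMonoidHom c * g :=
      Units.ext (Matrix.scalar_commute (c : F) (fun r => mul_comm _ _) (g : Matrix (Fin n) (Fin n) F)).symm.eq
    rw [h, mul_inv_cancel_right]
    exact ⟨c, rfl⟩⟩
  rw [Subgroup.mem_comap, mem_subfield_iff, Subgroup.mem_sup_of_normal_right] at hP
  · obtain ⟨_, ⟨g, rfl⟩, _, ⟨c, rfl⟩, hgc⟩ := hP
    have hY2 : ((P⁻¹ * x * P : Matrix.SpecialLinearGroup (Fin n) F) : Matrix (Fin n) (Fin n) F) *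
        ((P⁻¹ * x * P : Matrix.SpecialLinearGroup (Fin n) F) : Matrix (Fin n) (Fin n) F) = z • 1 := by
      rw [← Matrix.SpecialLinearGroup.coe_mul, show P⁻¹ * x * P * (P⁻¹ * x * P) = P⁻¹ * (x * x) * P by group,
        Matrix.SpecialLinearGroup.coe_mul, Matrix.SpecialLinearGroup.coe_mul, Matrix.SpecialLinearGroup.coe_mul, hX,
        Matrix.mul_smul, mul_one, Matrix.smul_mul, ← Matrix.SpecialLinearGroup.coe_mul, inv_mul_cancel,
        Matrix.SpecialLinearGroup.coe_one]
    have hY : ((P⁻¹ * x * P : Matrix.SpecialLinearGroup (Fin n) F) : Matrix (Fin n) (Fin n) F) =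
        (g : Matrix (Fin n) (Fin n) F₀).map F₀.subtype * Matrix.scalar (Fin n) (c : F) :=
      (congrArg (fun t : GL (Fin n) F => (t : Matrix (Fin n) (Fin n) F)) hgc).symm
    let i : Fin n := ⟨0, hn⟩
    rw [hY] at hY2
    have hii := congrFun (congrFun hY2 i) i
    simp [Matrix.mul_apply, Matrix.scalar, Matrix.diagonal_apply] at hii
    set S := ((g : Matrix (Fin n) (Fin n) F₀) * (g : Matrix (Fin n) (Fin n) F₀)) i i with hS
    have hzS : z = (S : F) * ((c : F) * (c : F)) := by
      rw [← hii, hS, Matrix.mul_apply]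
      push_cast
      rw [Finset.sum_mul]
      exact Finset.sum_congr rfl fun j _ => by ring
    exact hz (hzS ▸ (sq_of_mem F₀ q₀ hF₀ hq hodd S.2).mul ⟨(c : F), rfl⟩)

lemma exists_odd_factor (q₀ k n : ℕ) (hq : 2 ≤ q₀) (hodd : Odd q₀) (hk : Odd k) :
    ∃ M, Odd M ∧ (∏ i : Fin n, ((q₀ ^ k) ^ n - (q₀ ^ k) ^ (i : ℕ))) =
      (∏ i : Fin n, (q₀ ^ n - q₀ ^ (i : ℕ))) * M := by
  have h1 : ∀ i : Fin n, ∃ M, Odd M ∧
      (q₀ ^ k) ^ n - (q₀ ^ k) ^ (i : ℕ) = (q₀ ^ n - q₀ ^ (i : ℕ)) * M := by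
    intro i
    obtain ⟨j, hj⟩ : ∃ j, n = (i : ℕ) + j := ⟨n - i, by omega⟩
    obtain ⟨y, hy⟩ : ∃ y, q₀ ^ j = y + 1 := ⟨q₀ ^ j - 1, by have := Nat.one_le_pow j q₀ (by omega); omega⟩
    obtain ⟨l, rfl⟩ : ∃ l, k = l + 1 := ⟨k - 1, by rcases hk with ⟨t, rfl⟩; omega⟩
    refine ⟨(q₀ ^ l) ^ (i : ℕ) * ∑ t ∈ Finset.range (l + 1), (y + 1) ^ t, (hodd.pow.pow).mul ?_, ?_⟩
    · rw [← hy, Nat.odd_iff, Finset.sum_nat_mod]
      have : ∀ t ∈ Finset.range (l + 1), (q₀ ^ j) ^ t % 2 = 1 := fun t _ => Nat.odd_iff.mp hodd.pow.pow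
      rw [Finset.sum_congr rfl this]
      simpa using Nat.odd_iff.mp hk
    · have hsum := geom_sum_mul_add y (l + 1)
      have hL : (q₀ ^ (l + 1)) ^ n - (q₀ ^ (l + 1)) ^ (i : ℕ) =
          (q₀ ^ (l + 1)) ^ (i : ℕ) * ((∑ t ∈ Finset.range (l + 1), (y + 1) ^ t) * y) := by
        rw [show ((q₀ ^ (l + 1)) ^ n) = (q₀ ^ (l + 1)) ^ ((i : ℕ) + j) by rw [← hj], pow_add, ← pow_mul q₀ (l + 1) j, mul_comm (l + 1) j, pow_mul q₀ j, hy, ← hsum, mul_add, mul_one,
          Nat.add_sub_cancel]
      rw [hL, show q₀ ^ n = q₀ ^ ((i : ℕ) + j) by rw [← hj], pow_add q₀ (i : ℕ) j, hy, mul_add, mul_one, Nat.add_sub_cancel, pow_succ q₀ l, mul_pow]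
      ring
  choose M hM hM' using h1
  refine ⟨∏ i, M i, ?_, ?_⟩
  · exact Finset.prod_induction _ Odd (fun a b ha hb => ha.mul hb) odd_one fun i _ => hM i
  · rw [← Finset.prod_mul_distrib]
    exact Finset.prod_congr rfl fun i _ => hM' i

lemma odd_index (q₀ k : ℕ) (hF₀ : Nat.card ↥F₀ = q₀) (hq : Fintype.card F = q₀ ^ k) (hn : 0 < n)
    (hodd : Odd q₀) (hk : Odd k) :
    ¬ 2 ∣ ((Cfsg.Geo.subfieldSubgroup F₀ 1).comap
      (Matrix.SpecialLinearGroup.toGL : Matrix.SpecialLinearGroup (Fin n) F →* GL (Fin n) F)).index := by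
  intro h2
  haveI : Nonempty (Fin n) := ⟨⟨0, hn⟩⟩
  haveI : Fintype F₀ := Fintype.ofFinite _
  let ψ := Matrix.SpecialLinearGroup.map (n := Fin n) (F₀.subtype : F₀ →+* F)
  have hψ : Function.Injective ψ := fun a b h => by
    ext i j
    exact congrFun (congrFun (congrArg (fun t : Matrix.SpecialLinearGroup (Fin n) F =>
      (t : Matrix (Fin n) (Fin n) F)) h) i) j
  have hle : ψ.range ≤ (Cfsg.Geo.subfieldSubgroup F₀ 1).comap
      (Matrix.SpecialLinearGroup.toGL : Matrix.SpecialLinearGroup (Fin n) F →* GL (Fin n) F) := by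
    rintro _ ⟨g, rfl⟩
    exact (mem_subfield_iff F₀ _).mpr (Subgroup.mem_sup_left ⟨Matrix.SpecialLinearGroup.toGL g, Units.ext rfl⟩)
  have hidx : 2 ∣ ψ.range.index := h2.trans (Subgroup.index_dvd_of_le hle)
  have hcard := Subgroup.card_mul_index ψ.range
  rw [← Nat.card_congr (MonoidHom.ofInjective hψ).toEquiv] at hcard
  have hg := CfsgLib.Classical.card_units_mul_card_sl (ι := Fin n) (F := F)
  have hg0 := CfsgLib.Classical.card_units_mul_card_sl (ι := Fin n) (F := F₀)
  rw [Matrix.card_GL_field] at hg hg0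
  rw [← Nat.card_eq_fintype_card (α := F₀), hF₀] at hg0
  have hq0 : 2 ≤ q₀ := by rw [← hF₀]; exact Finite.one_lt_card
  obtain ⟨M, hM, hMeq⟩ := exists_odd_factor q₀ k n hq0 hodd hk
  rw [hq] at hg
  rw [hMeq, ← hg0, ← hcard] at hg
  obtain ⟨u, hu⟩ : ∃ u, q₀ ^ k - 1 = (q₀ - 1) * u := by
    obtain ⟨u, hu⟩ := Nat.sub_dvd_pow_sub_pow q₀ 1 k
    exact ⟨u, by simpa using hu⟩
  rw [hu] at hg
  have hpos : 0 < (q₀ - 1) * Nat.card (Matrix.SpecialLinearGroup (Fin n) F₀) := Nat.mul_pos (by omega) Nat.card_pos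
  have heq : u * ψ.range.index = M := by
    refine Nat.eq_of_mul_eq_mul_left hpos ?_
    rw [← hg]; ring
  exact Nat.not_even_iff_odd.mpr hM (heq ▸ (even_iff_two_dvd.mpr (dvd_mul_of_dvd_right hidx u)))

/-- no determinant-one element with non-square square when `v₂ n ≤ v₂ (q-1)` -/
lemma square_of_le (x : Matrix.SpecialLinearGroup (Fin n) F) (z : F) (hn : 0 < n) (h2 : (2 : F) ≠ 0)
    (hneg : IsSquare (-1 : F)) (hX : (x : Matrix (Fin n) (Fin n) F) * (x : Matrix (Fin n) (Fin n) F) = z • 1)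
    (hle : padicValNat 2 n ≤ padicValNat 2 (Fintype.card F - 1)) : IsSquare z := by
  haveI := Fact.mk Nat.prime_two
  by_contra hz
  have hz' : ∀ t : F, t * t ≠ z := fun t h => hz ⟨t, h.symm⟩
  rcases Nat.even_or_odd n with ⟨m, hm⟩ | ⟨m, hm⟩
  · obtain ⟨v, hv⟩ := pair_basis_nonsquare (x : Matrix (Fin n) (Fin n) F) z hX hz' m (by omega)
    let b := basisOfLinearIndependentOfCardEqFinrank' _ hv (by simp; omega)
    have hb := coords_of_basis (x : Matrix (Fin n) (Fin n) F) b (fun _ => !![0, z; 1, 0]) (fun i k => by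
      simp only [b, coe_basisOfLinearIndependentOfCardEqFinrank']
      fin_cases i
      · simp
      · simp [mulVec_mulVec, hX, smul_mulVec])
    have hmat : LinearMap.toMatrix b b (Matrix.toLin' (x : Matrix (Fin n) (Fin n) F)) =
        Matrix.blockDiagonal (fun _ : Fin m => !![0, z; 1, 0]) := by
      refine Matrix.ext_iff_mulVec.mpr fun a => ?_
      have h : ∀ c, (⇑(b.repr (b.equivFun.symm c)) : Fin 2 × Fin m → F) = c := fun c => by
        rw [← Basis.equivFun_apply, LinearEquiv.apply_symm_apply]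
      have h2 := LinearMap.toMatrix_mulVec_repr b b (Matrix.toLin' (x : Matrix (Fin n) (Fin n) F)) (b.equivFun.symm a)
      rw [Matrix.toLin'_apply, hb] at h2
      rwa [h, h] at h2
    have hdet := LinearMap.det_toMatrix b (Matrix.toLin' (x : Matrix (Fin n) (Fin n) F))
    rw [hmat, LinearMap.det_toLin', x.2, Matrix.det_blockDiagonal, Finset.prod_const, Finset.card_univ,
      Fintype.card_fin, Matrix.det_fin_two_of] at hdet
    obtain ⟨s, o, ho, hmso⟩ : ∃ s o, Odd o ∧ m = 2 ^ s * o := Nat.exists_eq_two_pow_mul_odd (by omega)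
    have hval : padicValNat 2 n = s + 1 := by
      rw [hm, hmso, show 2 ^ s * o + 2 ^ s * o = 2 ^ (s + 1) * o by rw [pow_succ]; ring,
        padicValNat.mul (by positivity) ho.pos.ne', padicValNat.prime_pow,
        padicValNat.eq_zero_of_not_dvd (by rw [← even_iff_two_dvd]; exact Nat.not_even_iff_odd.mpr ho), add_zero]
    have hq1 : Fintype.card F - 1 ≠ 0 := by have := Fintype.one_lt_card (α := F); omega
    have hdvd : 2 ^ (s + 1) ∣ Fintype.card F - 1 := (padicValNat_dvd_iff_le hq1).mpr (by omega)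
    obtain ⟨c, hc⟩ := hdvd
    have hr : ringChar F ≠ 2 := fun h => h2 (by
      haveI := ringChar.of_eq h
      exact CharTwo.two_eq_zero)
    set w : F := 0 * 0 - z * 1 with hw
    have hw0 : w ≠ 0 := fun h => hz ⟨0, by rw [hw] at h; linear_combination -h⟩
    have hwns : ¬ IsSquare (w ^ o) := fun h => by
      obtain ⟨t, ht⟩ := hneg
      obtain ⟨o', ho'⟩ := ho
      obtain ⟨r, hr'⟩ := h
      refine hz ⟨t * r / w ^ o', ?_⟩
      have hwz : w = -z := by rw [hw]; ring
      field_simp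
      rw [ho', pow_succ, pow_mul'] at hr'
      linear_combination t * t * hr' - (w ^ o') ^ 2 * hwz + (w ^ o') ^ 2 * w * ht
    apply hwns
    rw [FiniteField.isSquare_iff hr (pow_ne_zero _ hw0)]
    have hhalf : Fintype.card F / 2 = 2 ^ s * c := by
      have hodd := FiniteField.odd_card_of_char_ne_two hr
      rw [show 2 ^ (s + 1) * c = 2 * (2 ^ s * c) by rw [pow_succ]; ring] at hc
      omega
    rw [hhalf, ← pow_mul, show o * (2 ^ s * c) = m * c by rw [hmso]; ring, pow_mul, hdet, one_pow]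
  · have hdet := congrArg Matrix.det hX
    rw [Matrix.det_mul, x.2, mul_one, Matrix.det_smul, Matrix.det_one, mul_one, Fintype.card_fin] at hdet
    refine hz ⟨z ^ (m + 1), ?_⟩
    rw [← pow_add, show m + 1 + (m + 1) = n + 1 by omega, pow_succ, ← hdet, one_mul]

/-- the element with non-square square when `v₂ (q-1) < v₂ n` -/
lemma exists_nonsquare (h2 : (2 : F) ≠ 0) (hneg : IsSquare (-1 : F))
    (hlt : padicValNat 2 (Fintype.card F - 1) < padicValNat 2 n) :
    ∃ (x : Matrix.SpecialLinearGroup (Fin n) F) (z : F),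
      (x : Matrix (Fin n) (Fin n) F) * (x : Matrix (Fin n) (Fin n) F) = z • 1 ∧ ¬ IsSquare z ∧
      ∀ t : F, (x : Matrix (Fin n) (Fin n) F) ≠ t • 1 := by
  haveI := Fact.mk Nat.prime_two
  have hn0 : n ≠ 0 := fun h => by rw [h] at hlt; simp at hlt
  have hdn : 2 ∣ n := dvd_of_one_le_padicValNat (by omega)
  obtain ⟨m, hm⟩ := hdn
  have hq1 : Fintype.card F - 1 ≠ 0 := by have := Fintype.one_lt_card (α := F); omega
  obtain ⟨t, c, hc, hqc⟩ : ∃ t c, Odd c ∧ Fintype.card F - 1 = 2 ^ t * c := Nat.exists_eq_two_pow_mul_odd hq1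
  have hvt : padicValNat 2 (Fintype.card F - 1) = t := by
    rw [hqc, padicValNat.mul (by positivity) hc.pos.ne', padicValNat.prime_pow,
      padicValNat.eq_zero_of_not_dvd (by rw [← even_iff_two_dvd]; exact Nat.not_even_iff_odd.mpr hc), add_zero]
  have htm : 2 ^ t ∣ m := by
    have h : 2 ^ (t + 1) ∣ n := (padicValNat_dvd_iff_le hn0).mpr (by omega)
    rw [hm, pow_succ, mul_comm] at h
    exact Nat.dvd_of_mul_dvd_mul_left two_pos h
  obtain ⟨η, hη⟩ := IsCyclic.exists_generator (α := Fˣ)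
  have hord : orderOf η = Fintype.card F - 1 := by
    rw [orderOf_eq_card_of_forall_mem_zpowers hη, Nat.card_units, Nat.card_eq_fintype_card]
  have hr : ringChar F ≠ 2 := fun h => h2 (by
    haveI := ringChar.of_eq h
    exact CharTwo.two_eq_zero)
  have hodd := FiniteField.odd_card_of_char_ne_two hr
  have ht0 : 1 ≤ t := by
    rcases Nat.eq_zero_or_pos t with h | h
    · rw [h, pow_zero, one_mul] at hqc
      rcases hc with ⟨c', rfl⟩; omega
    · exact h
  set w : F := ((η ^ c : Fˣ) : F) with hwdef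
  have hwns : ¬ IsSquare w := by
    rw [FiniteField.isSquare_iff hr (Units.ne_zero _)]
    intro h
    have h' : η ^ (c * (Fintype.card F / 2)) = 1 := by
      rw [pow_mul]; exact Units.ext (by rw [Units.val_pow_eq_pow_val, Units.val_one]; exact h)
    have hd := orderOf_dvd_of_pow_eq_one h'
    rw [hord, show Fintype.card F / 2 = 2 ^ (t - 1) * c by
      rw [show t = (t - 1) + 1 by omega, pow_succ] at hqc
      rw [mul_right_comm] at hqc
      omega, hqc, show c * (2 ^ (t - 1) * c) = 2 ^ (t - 1) * (c * c) by ring] at hd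
    have h3 : 2 ^ t ∣ 2 ^ (t - 1) * (c * c) := (dvd_mul_right _ _).trans hd
    have h4 := (Nat.Coprime.dvd_of_dvd_mul_right
      ((Nat.coprime_two_left.mpr (hc.mul hc)).pow_left t) h3)
    have := Nat.le_of_dvd (by positivity) h4
    have := Nat.pow_lt_pow_right (show 1 < 2 by norm_num) (show t - 1 < t by omega)
    omega
  have hwm : w ^ m = 1 := by
    obtain ⟨e, he⟩ := htm
    rw [hwdef, ← Units.val_pow_eq_pow_val, ← pow_mul, he, show c * (2 ^ t * e) = orderOf η * e by rw [hord, hqc]; ring,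
      pow_mul, pow_orderOf_eq_one, one_pow, Units.val_one]
  let σ : Fin 2 × Fin m ≃ Fin n := finProdFinEquiv.trans (finCongr (by omega))
  let G := (Matrix.blockDiagonal (fun _ : Fin m => !![0, -w; 1, 0])).submatrix σ.symm σ.symm
  have hdet : G.det = 1 := by
    rw [Matrix.det_submatrix_equiv_self, Matrix.det_blockDiagonal, Finset.prod_const, Finset.card_univ,
      Fintype.card_fin, Matrix.det_fin_two_of, zero_mul, zero_sub, mul_one, neg_neg, hwm]
  have hsq : G * G = (-w) • 1 := by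
    rw [Matrix.submatrix_mul_equiv, ← Matrix.blockDiagonal_mul,
      show (fun _ : Fin m => !![0, -w; 1, 0] * !![0, -w; 1, 0]) = (-w) • (1 : Fin m → Matrix (Fin 2) (Fin 2) F) by
        funext k; ext i j; fin_cases i <;> fin_cases j <;> simp,
      Matrix.blockDiagonal_smul, Matrix.blockDiagonal_one, Matrix.submatrix_smul]
    simp
  refine ⟨⟨G, hdet⟩, -w, hsq, fun ⟨r, hr'⟩ => ?_, fun s hs => ?_⟩
  · obtain ⟨i, hi⟩ := hneg
    exact hwns ⟨i * r, by linear_combination r * r * hi - hr'⟩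
  · have := congrFun (congrFun hs (σ (1, ⟨0, by omega⟩))) (σ (0, ⟨0, by omega⟩))
    simp [G] at this

end finite

theorem main [Fintype F] (k q₀ : ℕ) (hn : 2 ≤ n) (hk : k.Prime) (hF₀ : Nat.card ↥F₀ = q₀)
    (hqk : Fintype.card F = q₀ ^ k)
    (hΩ : 2 ∣ ((Cfsg.Geo.subfieldSubgroup F₀ 1).comap
      (Matrix.SpecialLinearGroup.toGL : Matrix.SpecialLinearGroup (Fin n) F →* GL (Fin n) F)).index) :
    (∀ x : Matrix.SpecialLinearGroup (Fin n) F,
      (∃ z : F, ((x ^ 2 : Matrix.SpecialLinearGroup (Fin n) F) : Matrix (Fin n) (Fin n) F) = z • (1 : Matrix (Fin n) (Fin n) F)) →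
      (∀ z : F, (x : Matrix (Fin n) (Fin n) F) ≠ z • (1 : Matrix (Fin n) (Fin n) F)) →
      ∃ P : Matrix.SpecialLinearGroup (Fin n) F, P⁻¹ * x * P ∈ ((Cfsg.Geo.subfieldSubgroup F₀ 1).comap (Matrix.SpecialLinearGroup.toGL : Matrix.SpecialLinearGroup (Fin n) F →* GL (Fin n) F))) ↔
    (Odd (Fintype.card F) → (k = 2 ∧ padicValNat 2 n ≤ padicValNat 2 (Fintype.card F - 1))) := by
  constructor
  · intro h hodd
    have hodd0 : Odd q₀ := (Nat.odd_pow_iff hk.ne_zero).mp (hqk ▸ hodd)
    have hk2 : k = 2 := hk.eq_two_or_odd'.resolve_right fun hko => odd_index F₀ q₀ k hF₀ hqk (by omega) hodd0 hko hΩ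
    subst hk2
    refine ⟨rfl, ?_⟩
    by_contra hlt
    push Not at hlt
    have h2 : (2 : F) ≠ 0 := fun h2 => by
      haveI : CharP F 2 := CharTwo.of_one_ne_zero_of_two_eq_zero one_ne_zero h2
      have := FiniteField.even_card_iff_char_two.mp (ringChar.eq F 2)
      rw [Nat.odd_iff] at hodd; omega
    obtain ⟨x, z, hX, hz, hns⟩ := exists_nonsquare h2
      (sq_of_mem F₀ q₀ hF₀ hqk hodd0 (neg_mem (one_mem _))) hlt
    obtain ⟨P, hP⟩ := h x ⟨z, by rw [pow_two, Matrix.SpecialLinearGroup.coe_mul, hX]⟩ hns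
    exact not_mem_of_nonsquare F₀ q₀ hF₀ hqk hodd0 x z (by omega) hX hz P hP
  · intro h x ⟨z, hz⟩ hns
    rw [pow_two, Matrix.SpecialLinearGroup.coe_mul] at hz
    have hz0 : z ≠ 0 := by
      haveI : Nonempty (Fin n) := ⟨⟨0, by omega⟩⟩
      intro h
      have := congrArg Matrix.det hz
      rw [h, zero_smul, Matrix.det_mul, x.2, mul_one, Matrix.det_zero] at this
      exact one_ne_zero this
    by_cases h2 : (2 : F) = 0
    · haveI : CharP F 2 := CharTwo.of_one_ne_zero_of_two_eq_zero one_ne_zero h2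
      obtain ⟨a, rfl⟩ := (isSquare_of_charTwo' z : IsSquare z)
      exact elusive_two F₀ x a (left_ne_zero_of_mul hz0) h2 hz hns
    · have hodd : Odd (Fintype.card F) := by
        rw [Nat.odd_iff]
        exact FiniteField.odd_card_of_char_ne_two fun hr => h2 (by
          haveI := ringChar.of_eq hr
          exact CharTwo.two_eq_zero)
      obtain ⟨hk2, hle⟩ := h hodd
      subst hk2
      have hodd0 : Odd q₀ := (Nat.odd_pow_iff two_ne_zero).mp (hqk ▸ hodd)
      obtain ⟨a, rfl⟩ := square_of_le x z (by omega) h2 (sq_of_mem F₀ q₀ hF₀ hqk hodd0 (neg_mem (one_mem _))) hz hle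
      exact elusive_square_odd F₀ x a (left_ne_zero_of_mul hz0) h2 (by omega) hz

end CfsgLib.SubfieldInvol
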