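import Cfsg.Agent.Lib.ClassicalSubfieldInvol

/-!
Elements of order three in characteristic three and their conjugacy into a subfield subgroup of `SL_n(q)`.
-/

set_option autoImplicit false

namespace CfsgLib.SubfieldThree

open Matrix Module CfsgLib.SubfieldInvol

attribute [local instance] _root_.Classical.propDecidable

section decomposition

variable {L : Type*} [Field L] {n : ℕ}

/-- a chain basis for a map whose cube vanishes -/
theorem exists_chain_basis (N : (Fin n → L) →ₗ[L] (Fin n → L)) (hN : ∀ v, N (N (N v)) = 0) :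
    ∃ (a b c : ℕ) (v : Basis ((Fin a ⊕ Fin a ⊕ Fin a) ⊕ (Fin b ⊕ Fin b) ⊕ Fin c) L (Fin n → L)),
      (∀ i, N (v (.inl (.inl i))) = v (.inl (.inr (.inl i)))) ∧
      (∀ i, N (v (.inl (.inr (.inl i)))) = v (.inl (.inr (.inr i)))) ∧
      (∀ i, N (v (.inl (.inr (.inr i)))) = 0) ∧
      (∀ i, N (v (.inr (.inl (.inl i)))) = v (.inr (.inl (.inr i)))) ∧
      (∀ i, N (v (.inr (.inl (.inr i)))) = 0) ∧
      (∀ i, N (v (.inr (.inr i))) = 0) := by
  let K1 := LinearMap.ker N
  let K2 := LinearMap.ker (N ∘ₗ N)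
  have hK12 : K1 ≤ K2 := fun v hv => by
    show N (N v) = 0
    rw [show N v = 0 from hv, map_zero]
  obtain ⟨W3, hW3⟩ := K2.exists_isCompl
  let S2 := W3.map N ⊔ K1
  have hS2 : S2 ≤ K2 := sup_le (by rintro _ ⟨w, -, rfl⟩; exact hN w) hK12
  obtain ⟨C2, hC2⟩ := S2.exists_isCompl
  let W2 := K2 ⊓ C2
  have hW2sup : S2 ⊔ W2 = K2 := by
    rw [show W2 = C2 ⊓ K2 from inf_comm _ _, ← sup_inf_assoc_of_le _ hS2, hC2.codisjoint.eq_top, top_inf_eq]
  let S1 := W3.map (N ∘ₗ N) ⊔ W2.map N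
  have hS1 : S1 ≤ K1 := sup_le (by rintro _ ⟨w, -, rfl⟩; exact hN w) (by rintro _ ⟨w, hw, rfl⟩; exact hw.1)
  obtain ⟨C1, hC1⟩ := S1.exists_isCompl
  let W1 := K1 ⊓ C1
  have hW1sup : S1 ⊔ W1 = K1 := by
    rw [show W1 = C1 ⊓ K1 from inf_comm _ _, ← sup_inf_assoc_of_le _ hS1, hC1.codisjoint.eq_top, top_inf_eq]
  let Φ : (W3 × W3 × W3) × (W2 × W2) × W1 →ₗ[L] (Fin n → L) :=
    LinearMap.coprod (LinearMap.coprod W3.subtype (LinearMap.coprod (N ∘ₗ W3.subtype) (N ∘ₗ N ∘ₗ W3.subtype)))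
      (LinearMap.coprod (LinearMap.coprod W2.subtype (N ∘ₗ W2.subtype)) W1.subtype)
  have hinj : Function.Injective Φ := by
    rw [injective_iff_map_eq_zero]
    rintro ⟨⟨x, y, z⟩, ⟨d, e⟩, f⟩ h
    have h' : (x : Fin n → L) + (N y + N (N z)) + ((d : Fin n → L) + N e + f) = 0 := h
    have hd2 : N (N (d : Fin n → L)) = 0 := d.2.1
    have hf1 : N (f : Fin n → L) = 0 := f.2.1
    have hx : (x : Fin n → L) = 0 := by
      refine Submodule.disjoint_def.mp hW3.disjoint _ ?_ x.2
      have := congrArg (fun v => N (N v)) h'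
      simpa [K2, hN, hd2, hf1] using this
    rw [hx, zero_add] at h'
    have hd : (d : Fin n → L) = 0 := by
      refine Submodule.disjoint_def.mp hC2.disjoint _ ?_ d.2.2
      have hd' : (d : Fin n → L) = -(N y + (N (N z) + N e + f)) := by
        rw [eq_neg_iff_add_eq_zero, ← h']; abel
      rw [hd']
      refine neg_mem (Submodule.add_mem_sup ⟨y, y.2, rfl⟩ ?_)
      exact add_mem (add_mem (hN z) (e.2.1)) f.2.1
    have hy : (y : Fin n → L) = 0 := by
      refine Submodule.disjoint_def.mp hW3.disjoint _ ?_ y.2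
      have he2 : N (N (e : Fin n → L)) = 0 := e.2.1
      have := congrArg N h'
      simp only [map_add, map_zero, hd, hf1, hN, he2, add_zero, zero_add] at this
      exact this
    rw [hy, map_zero, zero_add] at h'
    rw [hd, zero_add] at h'
    have hf : (f : Fin n → L) = 0 := by
      refine Submodule.disjoint_def.mp hC1.disjoint _ ?_ f.2.2
      have hf' : (f : Fin n → L) = -(N (N z) + N e) := by
        rw [eq_neg_iff_add_eq_zero, ← h']; abel
      rw [hf']
      exact neg_mem (Submodule.add_mem_sup ⟨z, z.2, rfl⟩ ⟨e, e.2, rfl⟩)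
    rw [hf, add_zero] at h'
    have he : (e : Fin n → L) = 0 := by
      refine Submodule.disjoint_def.mp hC2.disjoint _ ?_ e.2.2
      have hker : (e : Fin n → L) + N z ∈ K1 := by
        show N _ = 0
        rw [map_add, add_comm]; exact h'
      have hez : (e : Fin n → L) = -N z + ((e : Fin n → L) + N z) := by abel
      rw [hez]
      exact Submodule.add_mem_sup (neg_mem ⟨z, z.2, rfl⟩) hker
    rw [he, map_zero, add_zero] at h'
    have hz : (z : Fin n → L) = 0 := Submodule.disjoint_def.mp hW3.disjoint _ h' z.2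
    simp [Submodule.coe_eq_zero.mp hx, Submodule.coe_eq_zero.mp hy, Submodule.coe_eq_zero.mp hz,
      Submodule.coe_eq_zero.mp hd, Submodule.coe_eq_zero.mp he, Submodule.coe_eq_zero.mp hf]
  have hsurj : Function.Surjective Φ := by
    rw [← LinearMap.range_eq_top, eq_top_iff]
    have hW3le : W3 ≤ LinearMap.range Φ := fun v hv => ⟨((⟨v, hv⟩, 0, 0), (0, 0), 0), by simp [Φ]⟩
    have hN3 : W3.map N ≤ LinearMap.range Φ := by
      rintro _ ⟨v, hv, rfl⟩; exact ⟨((0, ⟨v, hv⟩, 0), (0, 0), 0), by simp [Φ]⟩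
    have hNN3 : W3.map (N ∘ₗ N) ≤ LinearMap.range Φ := by
      rintro _ ⟨v, hv, rfl⟩; exact ⟨((0, 0, ⟨v, hv⟩), (0, 0), 0), by simp [Φ]⟩
    have hW2le : W2 ≤ LinearMap.range Φ := fun v hv => ⟨((0, 0, 0), (⟨v, hv⟩, 0), 0), by simp [Φ]⟩
    have hN2 : W2.map N ≤ LinearMap.range Φ := by
      rintro _ ⟨v, hv, rfl⟩; exact ⟨((0, 0, 0), (0, ⟨v, hv⟩), 0), by simp [Φ]⟩
    have hW1le : W1 ≤ LinearMap.range Φ := fun v hv => ⟨((0, 0, 0), (0, 0), ⟨v, hv⟩), by simp [Φ]⟩
    have hK1le : K1 ≤ LinearMap.range Φ := hW1sup ▸ sup_le (sup_le hNN3 hN2) hW1le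
    have hK2le : K2 ≤ LinearMap.range Φ := hW2sup ▸ sup_le (sup_le hN3 hK1le) hW2le
    exact hW3.codisjoint.eq_top ▸ sup_le hK2le hW3le
  let b3 := Module.finBasis L W3
  let b2 := Module.finBasis L W2
  obtain ⟨E, hE⟩ : ∃ E : ((W3 × W3 × W3) × (W2 × W2) × W1) ≃ₗ[L] (Fin n → L), ∀ p, E p = Φ p :=
    ⟨LinearEquiv.ofBijective Φ ⟨hinj, hsurj⟩, fun p => rfl⟩
  let v : Basis _ L (Fin n → L) := ((b3.prod (b3.prod b3)).prod ((b2.prod b2).prod (Module.finBasis L W1))).map E
  refine ⟨_, _, _, v, ?_⟩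
  refine ⟨fun i => ?_, fun i => ?_, fun i => ?_, fun i => ?_, fun i => ?_, fun i => ?_⟩
  · simp [v, hE, Φ]
  · simp [v, hE, Φ]
  · simp [v, hE, Φ, hN]
  · simp [v, hE, Φ]
  · have h : N (N (b2 i : Fin n → L)) = 0 := (b2 i).2.1
    simpa [v, hE, Φ] using h
  · have h : N (Module.finBasis L W1 i : Fin n → L) = 0 := (Module.finBasis L W1 i).2.1
    simpa [v, hE, Φ] using h

end decomposition

variable {F : Type*} [Field F] [Fintype F] {n : ℕ} (F₀ : Subfield F)

local notation "VV" => Fin n → F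

omit [Fintype F] in
/-- variant allowing a diagonal correction over the subfield -/
theorem conj_of_basis' (x : Matrix.SpecialLinearGroup (Fin n) F) {ι : Type*} [Fintype ι] [DecidableEq ι]
    (b : Basis ι F VV) (a : F) (ha : a ≠ 0) (M : Matrix ι ι F) (hM : ∀ i j, M i j ∈ F₀)
    (hx : ∀ j, (x : Matrix (Fin n) (Fin n) F) *ᵥ b j = ∑ i, (a * M i j) • b i) (i₀ : ι)
    (hc : ∀ D : F, D ≠ 0 → ∃ (C : Matrix ι ι F) (e : F), e ∈ F₀ ∧ e ≠ 0 ∧ C * M = M * C ∧ C.det * e = D) :
    ∃ P : Matrix.SpecialLinearGroup (Fin n) F, P⁻¹ * x * P ∈ ((Cfsg.Geo.subfieldSubgroup F₀ 1).comap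
      (Matrix.SpecialLinearGroup.toGL : Matrix.SpecialLinearGroup (Fin n) F →* GL (Fin n) F)) := by
  let σ : ι ≃ Fin n := Fintype.equivFinOfCardEq (by
    have := Module.finrank_eq_card_basis b; simp at this; omega)
  let B : Matrix (Fin n) (Fin n) F := LinearMap.toMatrix' (b.reindex σ).equivFun.symm.toLinearMap
  have hB : ∀ v, B *ᵥ v = (b.reindex σ).equivFun.symm v := fun v => LinearMap.toMatrix'_mulVec _ _
  have hBdet : B.det ≠ 0 := by
    show (LinearMap.toMatrix' (b.reindex σ).equivFun.symm.toLinearMap).det ≠ 0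
    rw [LinearMap.det_toMatrix']
    exact (b.reindex σ).equivFun.symm.isUnit_det'.ne_zero
  obtain ⟨C, e, heF, he0, hC, hCe⟩ := hc B.det⁻¹ (inv_ne_zero hBdet)
  -- move to the basis twisted by the correction
  let ε : ι → F := Function.update 1 i₀ e
  let E := Matrix.diagonal ε
  let Ei := Matrix.diagonal fun i => (ε i)⁻¹
  have hεF : ∀ i, ε i ∈ F₀ := fun i => by
    by_cases h : i = i₀
    · subst h; simpa [ε] using heF
    · simp [ε, Function.update_of_ne h, one_mem]
  have hε0 : ∀ i, ε i ≠ 0 := fun i => by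
    by_cases h : i = i₀
    · subst h; simpa [ε] using he0
    · simp [ε, Function.update_of_ne h]
  have hEEi : E * Ei = 1 := by
    rw [Matrix.diagonal_mul_diagonal, ← Matrix.diagonal_one]
    congr 1; funext i; exact mul_inv_cancel₀ (hε0 i)
  let M' := Ei * M * E
  have hM' : ∀ i j, M' i j ∈ F₀ := fun i j => by
    simp only [M', E, Ei, Matrix.diagonal_mul, Matrix.mul_diagonal]
    exact mul_mem (mul_mem (inv_mem (hεF i)) (hM i j)) (hεF j)
  let C' : Matrix (Fin n) (Fin n) F := (C * E).submatrix σ.symm σ.symm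
  have hdetC : C'.det = B.det⁻¹ := by
    rw [Matrix.det_submatrix_equiv_self, Matrix.det_mul, Matrix.det_diagonal,
      Finset.prod_eq_single i₀ (fun i _ h => by simp [ε, Function.update_of_ne h]) (by simp), ← hCe]
    simp [ε]
  let P : Matrix.SpecialLinearGroup (Fin n) F := ⟨B * C', by rw [Matrix.det_mul, hdetC, mul_inv_cancel₀ hBdet]⟩
  refine ⟨P, (mem_subfield_iff F₀ _).mpr ?_⟩
  have hXB : (x : Matrix (Fin n) (Fin n) F) * B = B * (a • M.submatrix σ.symm σ.symm) := by
    refine Matrix.ext_iff_mulVec.mpr fun v => ?_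
    rw [← mulVec_mulVec, ← mulVec_mulVec, hB, hB, Basis.equivFun_symm_apply, Basis.equivFun_symm_apply,
      mulVec_sum]
    simp only [mulVec_smul, Basis.coe_reindex, Function.comp_apply, hx, Finset.smul_sum, smul_smul]
    rw [Finset.sum_comm]
    refine Fintype.sum_equiv σ _ _ fun i => ?_
    rw [Equiv.symm_apply_apply, ← Finset.sum_smul]
    congr 1
    simp [Matrix.mulVec, dotProduct, mul_comm, mul_left_comm]
  have hMC : M.submatrix σ.symm σ.symm * C' = C' * M'.submatrix σ.symm σ.symm := by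
    rw [Matrix.submatrix_mul_equiv, Matrix.submatrix_mul_equiv]
    congr 1
    calc M * (C * E) = C * M * E := by rw [← mul_assoc, hC]
      _ = C * (E * Ei) * M * E := by rw [hEEi, mul_one]
      _ = C * E * M' := by simp only [M', mul_assoc]
  have hY : ((P⁻¹ * x * P : Matrix.SpecialLinearGroup (Fin n) F) : Matrix (Fin n) (Fin n) F) =
      a • M'.submatrix σ.symm σ.symm := by
    rw [Matrix.SpecialLinearGroup.coe_mul, Matrix.SpecialLinearGroup.coe_mul, mul_assoc,
      show (x : Matrix (Fin n) (Fin n) F) * (P : Matrix (Fin n) (Fin n) F) =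
          (P : Matrix (Fin n) (Fin n) F) * (a • M'.submatrix σ.symm σ.symm) by
        show _ * (B * C') = B * C' * _
        simp only [← mul_assoc, hXB]
        simp only [mul_assoc, Matrix.smul_mul, Matrix.mul_smul, hMC],
      ← mul_assoc, ← Matrix.SpecialLinearGroup.coe_mul, inv_mul_cancel, Matrix.SpecialLinearGroup.coe_one, one_mul]
  let M0 : Matrix (Fin n) (Fin n) F₀ := fun i j => ⟨M' (σ.symm i) (σ.symm j), hM' _ _⟩
  have hM0 : M0.map F₀.subtype = M'.submatrix σ.symm σ.symm := by ext i j; rfl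
  have hdet0 : M0.det ≠ 0 := by
    intro h
    have h1 := congrArg Matrix.det hY
    rw [(P⁻¹ * x * P).2, Matrix.det_smul, ← hM0, ← RingHom.mapMatrix_apply, ← RingHom.map_det, h, map_zero,
      mul_zero] at h1
    exact one_ne_zero h1
  have heq : Matrix.SpecialLinearGroup.toGL (P⁻¹ * x * P) =
      Units.map (Matrix.scalar (Fin n)).toMonoidHom (Units.mk0 a ha) *
        Matrix.GeneralLinearGroup.map (F₀.subtype : F₀ →+* F) (Matrix.GeneralLinearGroup.mkOfDetNeZero M0 hdet0) := by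
    refine Units.ext ?_
    show ((P⁻¹ * x * P : Matrix.SpecialLinearGroup (Fin n) F) : Matrix (Fin n) (Fin n) F) =
      Matrix.scalar (Fin n) a * M0.map F₀.subtype
    rw [hY, hM0]
    ext i j
    simp [Matrix.scalar]
  rw [heq]
  exact mul_mem (Subgroup.mem_sup_right ⟨Units.mk0 a ha, rfl⟩) (Subgroup.mem_sup_left ⟨_, rfl⟩)

lemma exists_cube [CharP F 3] (z : F) : ∃ a : F, a ^ 3 = z := by
  haveI : ExpChar F 3 := ExpChar.prime Nat.prime_three
  exact ((Finite.injective_iff_bijective).mp (frobenius_inj F 3)).2 z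

lemma exists_mem_nonsquare [CharP F 3] (q₀ k : ℕ) (hF₀ : Nat.card ↥F₀ = q₀) (hqk : Fintype.card F = q₀ ^ k)
    (hk : Odd k) : ∃ ν ∈ F₀, ν ≠ 0 ∧ ¬ IsSquare ν := by
  haveI : Fintype F₀ := Fintype.ofFinite _
  haveI : CharP F₀ 3 := (RingHom.charP_iff F₀.subtype Subtype.val_injective 3).mpr inferInstance
  have hr0 : ringChar F₀ ≠ 2 := by rw [ringChar.eq F₀ 3]; omega
  have hr : ringChar F ≠ 2 := by rw [ringChar.eq F 3]; omega
  obtain ⟨⟨ν, hν⟩, hns⟩ := FiniteField.exists_nonsquare hr0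
  have hν0 : (⟨ν, hν⟩ : F₀) ≠ 0 := fun h => hns ⟨0, by rw [h, mul_zero]⟩
  refine ⟨ν, hν, fun h => hν0 (Subtype.ext h), fun hsq => ?_⟩
  rw [FiniteField.isSquare_iff hr (fun h => hν0 (Subtype.ext h))] at hsq
  have h0 := FiniteField.pow_dichotomy hr0 hν0
  rcases h0 with h0 | h0
  · exact hns ((FiniteField.isSquare_iff hr0 hν0).mpr h0)
  · rw [← Nat.card_eq_fintype_card, hF₀] at h0
    obtain ⟨t, ht⟩ : Odd q₀ := by
      rw [← hF₀, Nat.card_eq_fintype_card, Nat.odd_iff]; exact FiniteField.odd_card_of_char_ne_two hr0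
    obtain ⟨l, rfl⟩ := hk
    have h1 : ν ^ t = -1 := by
      have := congrArg Subtype.val h0
      rw [ht, show (2 * t + 1) / 2 = t by omega] at this
      simpa using this
    have hhalf : ∃ o, Odd o ∧ Fintype.card F / 2 = t * o := by
      refine ⟨∑ i ∈ Finset.range (2 * l + 1), (2 * t + 1) ^ i, ?_, ?_⟩
      · rw [Nat.odd_iff, Finset.sum_nat_mod]
        have : ∀ i ∈ Finset.range (2 * l + 1), (2 * t + 1) ^ i % 2 = 1 := fun i _ =>
          Nat.odd_iff.mp (Odd.pow (odd_two_mul_add_one t))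
        rw [Finset.sum_congr rfl this]
        simp
      · rw [hqk, ht, ← geom_sum_mul_add (2 * t) (2 * l + 1),
          show (∑ i ∈ Finset.range (2 * l + 1), (2 * t + 1) ^ i) * (2 * t) + 1 =
            1 + 2 * (t * ∑ i ∈ Finset.range (2 * l + 1), (2 * t + 1) ^ i) by ring,
          Nat.add_mul_div_left _ _ two_pos]
        simp
    obtain ⟨o, ho, hoe⟩ := hhalf
    rw [hoe, pow_mul, h1, ho.neg_one_pow] at hsq
    exact Ring.neg_one_ne_one_of_char_ne_two hr hsq

theorem elusive [CharP F 3] (q₀ k : ℕ) (hn : 2 ≤ n) (hk : k.Prime) (hF₀ : Nat.card ↥F₀ = q₀)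
    (hqk : Fintype.card F = q₀ ^ k) (hcond : Odd n ∨ (Even n ∧ 2 < k))
    (x : Matrix.SpecialLinearGroup (Fin n) F) (z : F)
    (hX : (x : Matrix (Fin n) (Fin n) F) ^ 3 = z • 1) :
    ∃ P : Matrix.SpecialLinearGroup (Fin n) F, P⁻¹ * x * P ∈ ((Cfsg.Geo.subfieldSubgroup F₀ 1).comap
      (Matrix.SpecialLinearGroup.toGL : Matrix.SpecialLinearGroup (Fin n) F →* GL (Fin n) F)) := by
  obtain ⟨a, rfl⟩ := exists_cube z
  haveI : Nonempty (Fin n) := ⟨⟨0, by omega⟩⟩
  have ha : a ≠ 0 := by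
    intro h
    have := congrArg Matrix.det hX
    rw [h, zero_pow three_ne_zero, zero_smul, Matrix.det_pow, x.2, one_pow, Matrix.det_zero] at this
    exact one_ne_zero this
  haveI : CharP (Matrix (Fin n) (Fin n) F) 3 := inferInstance
  haveI := Fact.mk Nat.prime_three
  let Nm : Matrix (Fin n) (Fin n) F := a⁻¹ • (x : Matrix (Fin n) (Fin n) F) - 1
  have hNm : Nm ^ 3 = 0 := by
    rw [sub_pow_char_of_commute 3 (Commute.one_right _), smul_pow, hX, smul_smul, ← mul_pow, inv_mul_cancel₀ ha,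
      one_pow, one_smul, one_pow, sub_self]
  let N := Matrix.toLin' Nm
  obtain ⟨A, B, C, v, h1, h2, h3, h4, h5, h6⟩ := exists_chain_basis N (fun u => by
    simp only [N, Matrix.toLin'_apply, mulVec_mulVec]
    rw [show Nm * (Nm * Nm) = Nm ^ 3 by simp [pow_succ, mul_assoc], hNm, zero_mulVec])
  have hxN : ∀ u, (x : Matrix (Fin n) (Fin n) F) *ᵥ u = a • u + a • N u := fun u => by
    simp only [N, Nm, Matrix.toLin'_apply, sub_mulVec, smul_mulVec, one_mulVec, smul_sub, smul_smul,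
      mul_inv_cancel₀ ha, one_smul]
    abel
  -- block form
  let J3 : Matrix (Fin A ⊕ Fin A ⊕ Fin A) (Fin A ⊕ Fin A ⊕ Fin A) F :=
    Matrix.fromBlocks 1 0 (Matrix.fromRows 1 0) (Matrix.fromBlocks 1 0 1 1)
  let J2 : Matrix (Fin B ⊕ Fin B) (Fin B ⊕ Fin B) F := Matrix.fromBlocks 1 0 1 1
  let M := Matrix.fromBlocks J3 0 0 (Matrix.fromBlocks J2 0 0 (1 : Matrix (Fin C) (Fin C) F))
  have hone : ∀ {α : Type} [DecidableEq α] (i j : α), ((1 : Matrix α α F) i j) ∈ F₀ := fun {α} _ i j => by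
    rw [Matrix.one_apply]; split
    · exact one_mem _
    · exact zero_mem _
  have hM : ∀ i j, M i j ∈ F₀ := by
    intro i j
    rcases i with (i | i | i) | (i | i) | i <;> rcases j with (j | j | j) | (j | j) | j <;>
      simp [M, J3, J2, hone, zero_mem]
  have hcard : 3 * A + 2 * B + C = n := by
    have := Module.finrank_eq_card_basis v
    simp at this; omega
  obtain ⟨i₀⟩ : Nonempty ((Fin A ⊕ Fin A ⊕ Fin A) ⊕ (Fin B ⊕ Fin B) ⊕ Fin C) :=
    Fintype.card_pos_iff.mp (by simp; omega)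
  refine conj_of_basis' F₀ x v a ha M hM (fun j => ?_) i₀ fun D hD => ?_
  · rw [hxN]
    simp only [Fintype.sum_sum_type]
    rcases j with (j | j | j) | (j | j) | j <;>
      simp [M, J3, J2, h1, h2, h3, h4, h5, h6, Matrix.one_apply]
  · -- scale one chain
    let sc : (m : ℕ) → F → Matrix (Fin m) (Fin m) F := fun m d =>
      Matrix.diagonal fun i => if (i : ℕ) = 0 then d else 1
    have hscdet : ∀ m d, 0 < m → (sc m d).det = d := fun m d hm => by
      rw [Matrix.det_diagonal, Finset.prod_eq_single (⟨0, hm⟩ : Fin m) (fun i _ h => by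
        rw [if_neg (fun h' => h (Fin.ext h'))]) (by simp)]
      simp
    by_cases hC : 0 < C
    · refine ⟨Matrix.fromBlocks 1 0 0 (Matrix.fromBlocks 1 0 0 (sc C D)), 1, one_mem _, one_ne_zero, ?_, ?_⟩
      · simp [M, Matrix.fromBlocks_multiply]
      · rw [Matrix.det_fromBlocks_zero₁₂, Matrix.det_one, one_mul, Matrix.det_fromBlocks_zero₁₂, Matrix.det_one,
          one_mul, hscdet C D hC, mul_one]
    by_cases hA : 0 < A
    · obtain ⟨d, hd⟩ := exists_cube D
      refine ⟨Matrix.fromBlocks (Matrix.fromBlocks (sc A d) 0 0 (Matrix.fromBlocks (sc A d) 0 0 (sc A d))) 0 0 1, 1,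
        one_mem _, one_ne_zero, ?_, ?_⟩
      · simp [M, J3, Matrix.fromBlocks_multiply, Matrix.fromBlocks_mul_fromRows, Matrix.fromRows_mul]
      · rw [Matrix.det_fromBlocks_zero₁₂, Matrix.det_one, mul_one, Matrix.det_fromBlocks_zero₁₂,
          Matrix.det_fromBlocks_zero₁₂, hscdet A d hA, mul_one, ← hd]
        ring
    have hn2 : Even n := ⟨B, by omega⟩
    have hk2 : Odd k := hk.eq_two_or_odd'.resolve_left (by
      rcases hcond with h | ⟨-, h⟩
      · exact absurd hn2 (Nat.not_even_iff_odd.mpr h)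
      · omega)
    have hB : 0 < B := by omega
    obtain ⟨ν, hν, hν0, hνns⟩ := exists_mem_nonsquare F₀ q₀ k hF₀ hqk hk2
    obtain ⟨e, he, he0, d, hd⟩ : ∃ e ∈ F₀, e ≠ 0 ∧ ∃ d, d * d * e = D := by
      by_cases hsq : IsSquare D
      · obtain ⟨d, hd⟩ := hsq
        exact ⟨1, one_mem _, one_ne_zero, d, by rw [mul_one, hd]⟩
      · have hr : ringChar F ≠ 2 := by rw [ringChar.eq F 3]; omega
        obtain ⟨d, hd⟩ : IsSquare (D / ν) := by
          rw [FiniteField.isSquare_iff hr (div_ne_zero hD hν0), div_pow]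
          have e1 := (FiniteField.pow_dichotomy hr hD).resolve_left
            (fun h => hsq ((FiniteField.isSquare_iff hr hD).mpr h))
          have e2 := (FiniteField.pow_dichotomy hr hν0).resolve_left
            (fun h => hνns ((FiniteField.isSquare_iff hr hν0).mpr h))
          rw [e1, e2, div_self (neg_ne_zero.mpr one_ne_zero)]
        exact ⟨ν, hν, hν0, d, by rw [← hd, div_mul_cancel₀ _ hν0]⟩
    refine ⟨Matrix.fromBlocks 1 0 0 (Matrix.fromBlocks (Matrix.fromBlocks (sc B d) 0 0 (sc B d)) 0 0 1), e, he, he0, ?_, ?_⟩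
    · simp [M, J2, Matrix.fromBlocks_multiply]
    · rw [Matrix.det_fromBlocks_zero₁₂, Matrix.det_one, one_mul, Matrix.det_fromBlocks_zero₁₂, Matrix.det_one,
        mul_one, Matrix.det_fromBlocks_zero₁₂, hscdet B d hB, hd]

/-- the derangement for quadratic extensions in even dimension -/
theorem derangement [CharP F 3] (q₀ : ℕ) (hF₀ : Nat.card ↥F₀ = q₀) (hq : Fintype.card F = q₀ ^ 2) (m : ℕ)
    (hm : 0 < m) (σ : Fin m ⊕ Fin m ≃ Fin n) :
    ∃ x : Matrix.SpecialLinearGroup (Fin n) F, (x : Matrix (Fin n) (Fin n) F) ^ 3 = 1 ∧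
      (∀ t : F, (x : Matrix (Fin n) (Fin n) F) ≠ t • 1) ∧
      ∀ P : Matrix.SpecialLinearGroup (Fin n) F, P⁻¹ * x * P ∉ ((Cfsg.Geo.subfieldSubgroup F₀ 1).comap
        (Matrix.SpecialLinearGroup.toGL : Matrix.SpecialLinearGroup (Fin n) F →* GL (Fin n) F)) := by
  haveI := Fact.mk Nat.prime_three
  haveI : Nonempty (Fin n) := ⟨σ (.inl ⟨0, hm⟩)⟩
  haveI : Fintype F₀ := Fintype.ofFinite _
  have hr : ringChar F ≠ 2 := by rw [ringChar.eq F 3]; omega
  obtain ⟨δ, hδ⟩ := FiniteField.exists_nonsquare hr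
  have hδ0 : δ ≠ 0 := fun h => hδ ⟨0, by simp [h]⟩
  have hodd : Odd q₀ := by
    have := FiniteField.odd_card_of_char_ne_two hr
    rw [← Nat.odd_iff, hq] at this
    exact (Nat.odd_pow_iff two_ne_zero).mp this
  let E0 : Matrix (Fin m ⊕ Fin m) (Fin m ⊕ Fin m) F := Matrix.fromBlocks 0 0 1 0
  let H0 : Matrix (Fin m ⊕ Fin m) (Fin m ⊕ Fin m) F := Matrix.fromBlocks 0 1 0 0
  let dd : Fin m ⊕ Fin m → F := Function.update 1 (.inl ⟨0, hm⟩) δ
  let D := Matrix.diagonal dd
  let Di := Matrix.diagonal fun i => (dd i)⁻¹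
  have hdd : ∀ i, dd i ≠ 0 := fun i => by
    by_cases h : i = .inl ⟨0, hm⟩
    · subst h; simpa [dd] using hδ0
    · simp [dd, Function.update_of_ne h]
  have hDDi : D * Di = 1 := by
    rw [Matrix.diagonal_mul_diagonal, ← Matrix.diagonal_one]
    congr 1; funext i; exact mul_inv_cancel₀ (hdd i)
  have hDiD : Di * D = 1 := by
    rw [Matrix.diagonal_mul_diagonal, ← Matrix.diagonal_one]
    congr 1; funext i; exact inv_mul_cancel₀ (hdd i)
  have hDdet : D.det = δ := by
    rw [Matrix.det_diagonal, Finset.prod_eq_single (.inl ⟨0, hm⟩)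
      (fun i _ h => by simp [dd, Function.update_of_ne h]) (by simp)]
    simp [dd]
  let f := Matrix.reindexAlgEquiv F F σ
  let G := f (D * (1 + E0) * Di)
  have hGdet : G.det = 1 := by
    rw [show G = Matrix.reindex σ σ (D * (1 + E0) * Di) from rfl, Matrix.det_reindex_self, Matrix.det_mul,
      Matrix.det_mul, mul_comm, ← mul_assoc, ← Matrix.det_mul, hDiD, Matrix.det_one, one_mul,
      show (1 + E0) = Matrix.fromBlocks 1 0 1 1 by rw [← Matrix.fromBlocks_one, Matrix.fromBlocks_add]; simp,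
      Matrix.det_fromBlocks_zero₁₂, Matrix.det_one, mul_one]
  have hE2 : E0 * E0 = 0 := by simp [E0, Matrix.fromBlocks_multiply]
  have hG3 : G ^ 3 = 1 := by
    haveI : CharP (Matrix (Fin m ⊕ Fin m) (Fin m ⊕ Fin m) F) 3 := by
      haveI : Nonempty (Fin m ⊕ Fin m) := ⟨.inl ⟨0, hm⟩⟩
      infer_instance
    have h1 : (1 + E0) ^ 3 = 1 := by
      rw [add_pow_char_of_commute 3 (Commute.one_left E0), one_pow, pow_succ, pow_two, hE2, zero_mul, add_zero]
    rw [← map_pow, pow_succ, pow_two,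
      show D * (1 + E0) * Di * (D * (1 + E0) * Di) * (D * (1 + E0) * Di) =
        D * ((1 + E0) * (1 + E0) * (1 + E0)) * Di by
        simp only [mul_assoc, ← mul_assoc Di D, hDiD, one_mul],
      ← pow_two, ← pow_succ, h1, mul_one, hDDi, map_one]
  refine ⟨⟨G, hGdet⟩, hG3, fun t ht => ?_, fun P hP => ?_⟩
  · have ht' : D * (1 + E0) * Di = t • 1 := f.injective (by rw [map_smul, map_one]; exact ht)
    have h2 : 1 + E0 = t • 1 := by
      calc 1 + E0 = Di * (D * (1 + E0) * Di) * D := by simp only [mul_assoc, hDiD, mul_one, ← mul_assoc Di D, one_mul]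
        _ = t • 1 := by rw [ht', Matrix.mul_smul, mul_one, Matrix.smul_mul, hDiD]
    have := congrFun (congrFun h2 (.inr ⟨0, hm⟩)) (.inl ⟨0, hm⟩)
    simp [E0] at this
  haveI : (Cfsg.Geo.scalars (Fin n) F).Normal := ⟨fun a ha g => by
    obtain ⟨c, rfl⟩ := ha
    have h : g * Units.map (Matrix.scalar (Fin n) : F →+* Matrix (Fin n) (Fin n) F).toMonoidHom c =
        Units.map (Matrix.scalar (Fin n) : F →+* Matrix (Fin n) (Fin n) F).toMonoidHom c * g :=
      Units.ext (Matrix.scalar_commute (c : F) (fun r => mul_comm _ _) (g : Matrix (Fin n) (Fin n) F)).symm.eq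
    rw [h, mul_inv_cancel_right]
    exact ⟨c, rfl⟩⟩
  rw [Subgroup.mem_comap, mem_subfield_iff, Subgroup.mem_sup_of_normal_right] at hP
  obtain ⟨_, ⟨g, rfl⟩, _, ⟨c, rfl⟩, hgc⟩ := hP
  let Y : Matrix (Fin n) (Fin n) F :=
    ((P⁻¹ * ⟨G, hGdet⟩ * P : Matrix.SpecialLinearGroup (Fin n) F) : Matrix (Fin n) (Fin n) F)
  have hY : Y = (c : F) • (g : Matrix (Fin n) (Fin n) F₀).map F₀.subtype := by
    have := congrArg (fun t : GL (Fin n) F => (t : Matrix (Fin n) (Fin n) F)) hgc
    rw [show Y = _ from this.symm]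
    ext i j
    simp [Matrix.scalar, Matrix.mul_diagonal, mul_comm]
  let Q : Matrix (Fin n) (Fin n) F := ((P⁻¹ : Matrix.SpecialLinearGroup (Fin n) F) : Matrix (Fin n) (Fin n) F)
  have hQP : (P : Matrix (Fin n) (Fin n) F) * Q = 1 := congrArg Subtype.val (mul_inv_cancel P)
  have hPQ : Q * (P : Matrix (Fin n) (Fin n) F) = 1 := congrArg Subtype.val (inv_mul_cancel P)
  have hYval : Y = Q * G * (P : Matrix (Fin n) (Fin n) F) := rfl
  have hY3 : Y ^ 3 = 1 := by
    rw [hYval, pow_succ, pow_two]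
    calc _ = Q * (G * G * G) * (P : Matrix (Fin n) (Fin n) F) := by
          simp only [mul_assoc, ← mul_assoc (P : Matrix (Fin n) (Fin n) F) Q, hQP, one_mul]
      _ = 1 := by rw [← pow_two, ← pow_succ, hG3, mul_one, hPQ]
  have hcF : (c : F) ∈ F₀ := by
    let i : Fin n := σ (.inl ⟨0, hm⟩)
    have h := hY3
    rw [hY, smul_pow, show ((g : Matrix (Fin n) (Fin n) F₀).map F₀.subtype) ^ 3 =
      ((g : Matrix (Fin n) (Fin n) F₀) ^ 3).map F₀.subtype from (map_pow (F₀.subtype.mapMatrix) _ 3).symm] at h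
    have hii := congrFun (congrFun h i) i
    simp at hii
    haveI : CharP F₀ 3 := (RingHom.charP_iff F₀.subtype Subtype.val_injective 3).mpr inferInstance
    obtain ⟨e, he⟩ := exists_cube (F := F₀) (((g : Matrix (Fin n) (Fin n) F₀) ^ 3) i i)⁻¹
    have he' : (e : F) ^ 3 = ((((g : Matrix (Fin n) (Fin n) F₀) ^ 3) i i : F₀) : F)⁻¹ := by
      have := congrArg Subtype.val he
      simpa using this
    have hce : (c : F) = e := by
      haveI : ExpChar F 3 := ExpChar.prime Nat.prime_three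
      refine frobenius_inj F 3 ?_
      show (c : F) ^ 3 = (e : F) ^ 3
      rw [he']
      exact eq_inv_of_mul_eq_one_left hii
    rw [hce]; exact e.2
  -- the matrix over the subfield in block coordinates
  let Y0 : Matrix (Fin m ⊕ Fin m) (Fin m ⊕ Fin m) F₀ :=
    (((⟨(c : F), hcF⟩ : F₀) • (g : Matrix (Fin n) (Fin n) F₀)) - 1).submatrix σ σ
  let R0 := f.symm Q * D
  let R0i := Di * f.symm (P : Matrix (Fin n) (Fin n) F)
  have hR : R0i * R0 = 1 := by
    simp only [R0, R0i, mul_assoc, ← mul_assoc (f.symm _) (f.symm Q) D, ← map_mul, hQP, map_one, one_mul, hDiD]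
  have hR' : R0 * R0i = 1 := mul_eq_one_comm.mp hR
  have hY0 : Y0.map F₀.subtype = R0 * E0 * R0i := by
    have h1 : Y0.map F₀.subtype = f.symm Y - 1 := by
      rw [hY]
      ext i j
      rcases eq_or_ne i j with hij | hij
      · subst hij; simp [Y0, f]
      · simp [Y0, f, hij]
    rw [h1, hYval, map_mul, map_mul, show f.symm G = D * (1 + E0) * Di from f.symm_apply_apply _]
    calc _ = R0 * (1 + E0) * R0i - R0 * R0i := by rw [hR']; simp only [R0, R0i, mul_assoc]
      _ = R0 * E0 * R0i := by rw [mul_add, mul_one, add_mul]; abel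
  -- retraction gives a splitting over the subfield
  obtain ⟨π, hπ⟩ := LinearMap.exists_leftInverse_of_injective (Algebra.linearMap F₀ F)
    (LinearMap.ker_eq_bot.mpr (FaithfulSMul.algebraMap_injective F₀ F))
  have hπ1 : ∀ e : F₀, π ((e : F)) = e := fun e => LinearMap.congr_fun hπ e
  have hπs : ∀ (e : F₀) (y : F), π ((e : F) * y) = e * π y := fun e y => π.map_smul e y
  let H := R0 * H0 * R0i
  have hsplit : Y0.map F₀.subtype * H + H * Y0.map F₀.subtype = 1 := by
    rw [hY0]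
    calc _ = R0 * (E0 * (R0i * R0) * H0 + H0 * (R0i * R0) * E0) * R0i := by
          simp only [H, mul_add, add_mul, mul_assoc]
      _ = 1 := by
          rw [hR, mul_one, mul_one, show E0 * H0 + H0 * E0 = 1 by
            simp [E0, H0, Matrix.fromBlocks_multiply, Matrix.fromBlocks_add], mul_one, hR']
  have hsplit0 : Y0 * H.map π + H.map π * Y0 = 1 := by
    ext1 i j
    have h := congrFun (congrFun hsplit i) j
    simp only [Matrix.add_apply, Matrix.mul_apply, Matrix.map_apply] at h ⊢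
    have h' := congrArg π h
    rw [map_add, map_sum, map_sum] at h'
    have e1 : π ((1 : Matrix (Fin m ⊕ Fin m) (Fin m ⊕ Fin m) F) i j) =
        (1 : Matrix (Fin m ⊕ Fin m) (Fin m ⊕ Fin m) F₀) i j := by
      rw [Matrix.one_apply, Matrix.one_apply]; split
      · exact hπ1 1
      · exact map_zero π
    rw [← e1, ← h']
    congr 1 <;> refine Finset.sum_congr rfl fun l _ => ?_
    · exact (hπs _ _).symm
    · rw [mul_comm (H i l)]; rw [show π (F₀.subtype (Y0 l j) * H i l) = Y0 l j * π (H i l) from hπs _ _, mul_comm]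
  have hY02 : Y0 * Y0 = 0 := by
    apply Matrix.map_injective (f := F₀.subtype) Subtype.val_injective
    show (Y0 * Y0).map F₀.subtype = (0 : Matrix (Fin m ⊕ Fin m) (Fin m ⊕ Fin m) F₀).map F₀.subtype
    rw [Matrix.map_mul, hY0, Matrix.map_zero _ (map_zero _)]
    calc _ = R0 * (E0 * (R0i * R0) * E0) * R0i := by simp only [mul_assoc]
      _ = 0 := by rw [hR, mul_one, hE2, mul_zero, zero_mul]
  let N0 := Matrix.toLin' Y0
  have hker : LinearMap.ker N0 = LinearMap.range N0 := by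
    refine le_antisymm ?_ ?_
    · intro v hv
      refine ⟨H.map π *ᵥ v, ?_⟩
      have hv' : Y0 *ᵥ v = 0 := hv
      have h := congrArg (fun A => A *ᵥ v) hsplit0
      simp only [add_mulVec, ← mulVec_mulVec, hv', mulVec_zero, add_zero, one_mulVec] at h
      simpa [N0] using h
    · rintro _ ⟨v, rfl⟩
      simp [N0, mulVec_mulVec, hY02]
  obtain ⟨W, hW⟩ := (LinearMap.ker N0).exists_isCompl
  have hWm : finrank F₀ W = m := by
    have hd := Submodule.finrank_sup_add_finrank_inf_eq (LinearMap.ker N0) W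
    rw [hW.codisjoint.eq_top, hW.disjoint.eq_bot, finrank_bot, finrank_top, Module.finrank_fintype_fun_eq_card,
      Fintype.card_sum, Fintype.card_fin] at hd
    have hrk := LinearMap.finrank_range_add_finrank_ker N0
    rw [Module.finrank_fintype_fun_eq_card, Fintype.card_sum, Fintype.card_fin, hker] at hrk
    rw [hker] at hd
    omega
  let bW := Module.finBasisOfFinrankEq F₀ W hWm
  let cols : Fin m ⊕ Fin m → (Fin m ⊕ Fin m → F₀) := Sum.elim (fun i => (bW i : Fin m ⊕ Fin m → F₀)) (fun i => N0 (bW i))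
  have hli : LinearIndependent F₀ cols := by
    rw [Fintype.linearIndependent_iff]
    intro c' hc'
    rw [Fintype.sum_sum_type] at hc'
    simp only [cols, Sum.elim_inl, Sum.elim_inr] at hc'
    set a' : W := ∑ i, c' (.inl i) • bW i with ha'
    set b' : W := ∑ i, c' (.inr i) • bW i with hb'
    have hs : (a' : Fin m ⊕ Fin m → F₀) + N0 b' = 0 := by
      rw [← hc', ha', hb']; simp [Submodule.coe_sum, map_sum]
    have hmem : N0 (b' : Fin m ⊕ Fin m → F₀) ∈ LinearMap.ker N0 := hker ▸ LinearMap.mem_range_self N0 _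
    have ha0 : (a' : Fin m ⊕ Fin m → F₀) = 0 := Submodule.disjoint_def.mp hW.disjoint _
      (by rw [eq_neg_of_add_eq_zero_left hs]; exact neg_mem hmem) a'.2
    rw [ha0, zero_add] at hs
    have hb0 : (b' : Fin m ⊕ Fin m → F₀) = 0 := Submodule.disjoint_def.mp hW.disjoint _ hs b'.2
    have hA := Fintype.linearIndependent_iff.mp bW.linearIndependent _ (show a' = 0 from Subtype.ext ha0)
    have hB := Fintype.linearIndependent_iff.mp bW.linearIndependent _ (show b' = 0 from Subtype.ext hb0)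
    rintro (i | i)
    · exact hA i
    · exact hB i
  let g0 : Matrix (Fin m ⊕ Fin m) (Fin m ⊕ Fin m) F₀ := Matrix.of fun i j => cols j i
  have hg0 : g0.det ≠ 0 := by
    have : IsUnit g0 := Matrix.linearIndependent_cols_iff_isUnit.mp hli
    exact ((Matrix.isUnit_iff_isUnit_det g0).mp this).ne_zero
  have hYg : Y0 * g0 = g0 * (Matrix.fromBlocks 0 0 1 0) := by
    ext1 i j
    rcases j with j | j
    · rw [Matrix.mul_apply, Matrix.mul_apply, Fintype.sum_sum_type]
      simp [g0, cols, N0, Matrix.mulVec, dotProduct, Matrix.one_apply]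
    · rw [Matrix.mul_apply, Matrix.mul_apply, Fintype.sum_sum_type]
      have : (Y0 * Y0) *ᵥ (bW j : Fin m ⊕ Fin m → F₀) = 0 := by rw [hY02, zero_mulVec]
      rw [← mulVec_mulVec] at this
      have h0 := congrFun this i
      simp [Matrix.mulVec, dotProduct] at h0
      simp [g0, cols, N0, Matrix.mulVec, dotProduct, h0]
  let R := R0i * g0.map F₀.subtype
  have hRcomm : E0 * R = R * E0 := by
    have h := congrArg (fun A => A.map F₀.subtype) hYg
    simp only [Matrix.map_mul, hY0] at h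
    rw [show (Matrix.fromBlocks 0 0 1 0 : Matrix (Fin m ⊕ Fin m) (Fin m ⊕ Fin m) F₀).map F₀.subtype = E0 by
      simp [E0, Matrix.fromBlocks_map, Matrix.map_zero, Matrix.map_one]] at h
    calc E0 * R = R0i * (R0 * E0 * R0i * g0.map F₀.subtype) := by
          simp only [R, ← mul_assoc, hR, one_mul]
      _ = R * E0 := by rw [h, ← mul_assoc]
  have hRsq : IsSquare R.det := by
    have hb : R.toBlocks₁₂ = 0 ∧ R.toBlocks₁₁ = R.toBlocks₂₂ := by
      rw [← Matrix.fromBlocks_toBlocks R] at hRcomm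
      simp [E0, Matrix.fromBlocks_multiply] at hRcomm
      exact ⟨hRcomm.1.symm, hRcomm.2.1⟩
    rw [← Matrix.fromBlocks_toBlocks R, hb.1, Matrix.det_fromBlocks_zero₁₂, ← hb.2]
    exact ⟨_, rfl⟩
  have hdetR : R.det = δ⁻¹ * ((g0.det : F₀) : F) := by
    rw [show R = Di * f.symm (P : Matrix (Fin n) (Fin n) F) * g0.map F₀.subtype from rfl, Matrix.det_mul, Matrix.det_mul,
      ← RingHom.mapMatrix_apply, ← RingHom.map_det,
      show (f.symm (P : Matrix (Fin n) (Fin n) F)).det = 1 by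
        show (Matrix.reindex σ.symm σ.symm (P : Matrix (Fin n) (Fin n) F)).det = 1
        rw [Matrix.det_reindex_self]; exact P.2,
      mul_one, show Di.det = δ⁻¹ from eq_inv_of_mul_eq_one_left (by rw [← hDdet, ← Matrix.det_mul, hDiD, Matrix.det_one])]
    rfl
  rw [hdetR] at hRsq
  obtain ⟨r, hr'⟩ := hRsq
  obtain ⟨s, hs⟩ := sq_of_mem F₀ q₀ hF₀ hq hodd (g0.det).2
  have hs0 : s ≠ 0 := fun h => hg0 (Subtype.ext (by rw [hs, h, mul_zero]; rfl))
  have hr0 : r ≠ 0 := fun h => by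
    rw [h, mul_zero, hs] at hr'
    exact mul_ne_zero (inv_ne_zero hδ0) (mul_ne_zero hs0 hs0) hr'
  refine hδ ⟨s / r, ?_⟩
  rw [hs] at hr'
  field_simp at hr' ⊢
  linear_combination -hr'

theorem main [CharP F 3] (k q₀ : ℕ) (hn : 2 ≤ n) (hk : k.Prime) (hF₀ : Nat.card ↥F₀ = q₀)
    (hqk : Fintype.card F = q₀ ^ k) :
    (∀ x : Matrix.SpecialLinearGroup (Fin n) F,
      (∃ z : F, ((x ^ 3 : Matrix.SpecialLinearGroup (Fin n) F) : Matrix (Fin n) (Fin n) F) = z • (1 : Matrix (Fin n) (Fin n) F)) →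
      (∀ z : F, (x : Matrix (Fin n) (Fin n) F) ≠ z • (1 : Matrix (Fin n) (Fin n) F)) →
      ∃ P : Matrix.SpecialLinearGroup (Fin n) F, P⁻¹ * x * P ∈ ((Cfsg.Geo.subfieldSubgroup F₀ 1).comap (Matrix.SpecialLinearGroup.toGL : Matrix.SpecialLinearGroup (Fin n) F →* GL (Fin n) F))) ↔
    (Odd n ∨ (Even n ∧ 2 < k)) := by
  constructor
  · intro h
    by_contra hne
    push Not at hne
    obtain ⟨hn', hk'⟩ := hne
    have he : Even n := Nat.not_odd_iff_even.mp hn'
    obtain rfl : k = 2 := le_antisymm (hk' he) hk.two_le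
    obtain ⟨m, hm⟩ := he
    obtain ⟨x, hx3, hns, hno⟩ := derangement F₀ q₀ hF₀ hqk m (by omega) (finSumFinEquiv.trans (finCongr hm.symm))
    obtain ⟨P, hP⟩ := h x ⟨1, by rw [Matrix.SpecialLinearGroup.coe_pow, hx3, one_smul]⟩ hns
    exact hno P hP
  · intro hcond x ⟨z, hz⟩ _
    rw [Matrix.SpecialLinearGroup.coe_pow] at hz
    exact elusive F₀ q₀ k hn hk hF₀ hqk hcond x z hz

end CfsgLib.SubfieldThree
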