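import Cfsg.Prelude.Def_GeometricClasses
import Cfsg.Agent.Lib.ClassicalAlt
import Cfsg.Agent.Lib.ClassicalSymp
import Mathlib.FieldTheory.Finite.Basic
import Mathlib.LinearAlgebra.Matrix.ToLin
import Mathlib.NumberTheory.Padics.PadicVal.Basic

/-!
Elements of `SL_n(q)` squaring to scalars and their conjugacy into the symplectic similarity group.
-/

set_option autoImplicit false

namespace CfsgLib.SympInvol

open Matrix Module CfsgLib.Classical

attribute [local instance] _root_.Classical.propDecidable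

variable {F : Type*} [Field F] {n : ℕ}

local notation "VV" => Fin n → F

/-- the standard alternating form on pairs -/
def om {κ : Type*} [Fintype κ] (a b : Fin 2 × κ → F) : F :=
  ∑ k, (a (0, k) * b (1, k) - a (1, k) * b (0, k))

lemma block_mulVec {κ : Type*} [Fintype κ] [DecidableEq κ] (g : κ → Matrix (Fin 2) (Fin 2) F)
    (a : Fin 2 × κ → F) (i : Fin 2) (k : κ) :
    (Matrix.blockDiagonal g *ᵥ a) (i, k) = g k i 0 * a (0, k) + g k i 1 * a (1, k) := by
  simp only [Matrix.mulVec, dotProduct, Fintype.sum_prod_type, Fin.sum_univ_two, Matrix.blockDiagonal_apply]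
  simp [ite_mul]

lemma exists_symp_coords (f : VV → VV → F) (hf : Cfsg.Geo.IsSymplecticForm f) (κ : Type*) [Fintype κ]
    (hc : 2 * Fintype.card κ = n) :
    ∃ bE : (Fin 2 × κ → F) ≃ₗ[F] VV, ∀ a b, f (bE a) (bE b) = om a b := by
  set B := toBil hf.bilinear with hB
  have hA : B.IsAlt := toBil_isAlt hf
  obtain ⟨m, e, h, hh, -, -, hm⟩ := exists_hypFamily hA ⊤ (nondegOn_top hf)
  rw [finrank_top, Module.finrank_fintype_fun_eq_card, Fintype.card_fin] at hm
  let σ : κ ≃ Fin m := Fintype.equivFinOfCardEq (by omega)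
  let v : Fin 2 × κ → VV := fun p => if p.1 = 0 then e (σ p.2) else h (σ p.2)
  let j : Fin 2 × κ → Fin m ⊕ Fin m := fun p => if p.1 = 0 then Sum.inl (σ p.2) else Sum.inr (σ p.2)
  have hv : LinearIndependent F v := by
    have hvj : v = hypVec e h ∘ j := by
      funext ⟨i, k⟩; fin_cases i <;> rfl
    rw [hvj]
    refine (hh.linearIndependent hA).comp j fun p p' hp => ?_
    obtain ⟨i, k⟩ := p; obtain ⟨i', k'⟩ := p'
    fin_cases i <;> fin_cases i' <;> simp [j] at hp ⊢ <;> exact hp
  let b := basisOfLinearIndependentOfCardEqFinrank' v hv (by simp; omega)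
  refine ⟨b.equivFun.symm, fun a c => ?_⟩
  have hexp : ∀ a : Fin 2 × κ → F, b.equivFun.symm a = ∑ k, (a (0, k) • e (σ k) + a (1, k) • h (σ k)) := by
    intro a
    rw [Basis.equivFun_symm_apply, Fintype.sum_prod_type, Fin.sum_univ_two, ← Finset.sum_add_distrib]
    refine Finset.sum_congr rfl fun k _ => ?_
    simp [b, v]
  show B (b.equivFun.symm a) (b.equivFun.symm c) = _
  have hhe : ∀ k l, B (h k) (e l) = -(if l = k then (1 : F) else 0) := fun k l => by
    rw [← alt_neg hA, hh.eh]
  rw [hexp, hexp, om]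
  simp only [map_sum, map_add, map_smul, LinearMap.coe_sum, Finset.sum_apply, LinearMap.add_apply,
    LinearMap.smul_apply, smul_eq_mul, hh.ee, hh.hh, hh.eh, hhe, σ.apply_eq_iff_eq]
  simp [Finset.sum_add_distrib, sub_eq_add_neg, mul_comm]
  abel

variable [Fintype F]

/-- a block-diagonal element with blocks of constant determinant is conjugate to a similitude -/
theorem conj_of_blocks (f : VV → VV → F) (hf : Cfsg.Geo.IsSymplecticForm f)
    (x : Matrix.SpecialLinearGroup (Fin n) F) {κ : Type*} [Fintype κ] [DecidableEq κ] (hcard : 2 * Fintype.card κ = n)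
    (bB : (Fin 2 × κ → F) ≃ₗ[F] VV) (g : κ → Matrix (Fin 2) (Fin 2) F) (μ : F) (hμ : μ ≠ 0)
    (hg : ∀ k, (g k).det = μ)
    (hB : ∀ a, (x : Matrix (Fin n) (Fin n) F) *ᵥ bB a = bB (Matrix.blockDiagonal g *ᵥ a))
    (k₀ : κ) (hc : ∀ D : F, D ≠ 0 → ∃ c : Matrix (Fin 2) (Fin 2) F, c * g k₀ = g k₀ * c ∧ c.det = D) :
    ∃ P : Matrix.SpecialLinearGroup (Fin n) F, P⁻¹ * x * P ∈ ((Cfsg.Geo.similarityGroup f).comap
      (Matrix.SpecialLinearGroup.toGL : Matrix.SpecialLinearGroup (Fin n) F →* GL (Fin n) F)) := by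
  obtain ⟨bE, hE⟩ := exists_symp_coords f hf κ hcard
  let S : VV ≃ₗ[F] VV := bE.symm.trans bB
  have hS0 : LinearMap.det (S : VV →ₗ[F] VV) ≠ 0 := S.isUnit_det'.ne_zero
  obtain ⟨c, hcg, hcD⟩ := hc (LinearMap.det (S : VV →ₗ[F] VV))⁻¹ (inv_ne_zero hS0)
  let C : κ → Matrix (Fin 2) (Fin 2) F := Function.update (fun _ => 1) k₀ c
  have hCg : Matrix.blockDiagonal C * Matrix.blockDiagonal g = Matrix.blockDiagonal g * Matrix.blockDiagonal C := by
    rw [← Matrix.blockDiagonal_mul, ← Matrix.blockDiagonal_mul]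
    congr 1
    funext k
    by_cases h : k = k₀
    · subst h; simp [C, hcg]
    · simp [C, Function.update_of_ne h]
  have hCdet : (Matrix.blockDiagonal C).det = (LinearMap.det (S : VV →ₗ[F] VV))⁻¹ := by
    rw [Matrix.det_blockDiagonal, Finset.prod_eq_single k₀ (fun k _ h => by simp [C, Function.update_of_ne h])
      (by simp)]
    simp [C, hcD]
  let T : VV →ₗ[F] VV := bE.toLinearMap ∘ₗ (Matrix.toLin' (Matrix.blockDiagonal C) ∘ₗ bE.symm.toLinearMap)
  let L : VV →ₗ[F] VV := S.toLinearMap ∘ₗ T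
  have hL : LinearMap.det L = 1 := by
    have hT : LinearMap.det T = (Matrix.blockDiagonal C).det := by
      rw [← LinearMap.det_toLin']; exact LinearMap.det_conj _ bE
    rw [show L = S.toLinearMap ∘ₗ T from rfl, LinearMap.det_comp, hT, hCdet, mul_inv_cancel₀ hS0]
  let P : Matrix.SpecialLinearGroup (Fin n) F := ⟨LinearMap.toMatrix' L, by rw [LinearMap.det_toMatrix', hL]⟩
  refine ⟨P, Units.mk0 μ hμ, fun u v => ?_⟩
  let y : VV → VV := fun w => bE (Matrix.blockDiagonal g *ᵥ bE.symm w)
  have hP : ∀ w, (P : Matrix (Fin n) (Fin n) F) *ᵥ w = L w := fun w => LinearMap.toMatrix'_mulVec _ _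
  have hy : ∀ w, ((P⁻¹ * x * P : Matrix.SpecialLinearGroup (Fin n) F) : Matrix (Fin n) (Fin n) F) *ᵥ w = y w := by
    intro w
    have hxL : (x : Matrix (Fin n) (Fin n) F) *ᵥ L w = L (y w) := by
      simp only [L, T, y, S, LinearMap.comp_apply, LinearEquiv.coe_coe, LinearEquiv.trans_apply,
        LinearEquiv.symm_apply_apply, Matrix.toLin'_apply, hB, Matrix.mulVec_mulVec, hCg]
    rw [Matrix.SpecialLinearGroup.coe_mul, Matrix.SpecialLinearGroup.coe_mul, ← mulVec_mulVec, ← mulVec_mulVec,
      hP, hxL, ← hP, mulVec_mulVec, ← Matrix.SpecialLinearGroup.coe_mul, inv_mul_cancel,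
      Matrix.SpecialLinearGroup.coe_one, one_mulVec]
  show f ((((P⁻¹ * x * P : Matrix.SpecialLinearGroup (Fin n) F)) : Matrix (Fin n) (Fin n) F) *ᵥ u) _ = _
  rw [hy]
  show f (y u) (((P⁻¹ * x * P : Matrix.SpecialLinearGroup (Fin n) F) : Matrix (Fin n) (Fin n) F) *ᵥ v) = μ * f u v
  rw [hy]
  calc f (y u) (y v) = om (Matrix.blockDiagonal g *ᵥ bE.symm u) (Matrix.blockDiagonal g *ᵥ bE.symm v) := hE _ _
    _ = μ * om (bE.symm u) (bE.symm v) := by
      rw [om, om, Finset.mul_sum]
      refine Finset.sum_congr rfl fun k _ => ?_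
      simp only [block_mulVec]
      rw [← hg k, Matrix.det_fin_two]
      ring
    _ = μ * f u v := by rw [← hE, LinearEquiv.apply_symm_apply, LinearEquiv.apply_symm_apply]

omit [Fintype F] in
lemma coords_of_basis {κ : Type*} [Fintype κ] [DecidableEq κ] (X : Matrix (Fin n) (Fin n) F)
    (b : Basis (Fin 2 × κ) F VV) (g : κ → Matrix (Fin 2) (Fin 2) F)
    (h : ∀ i k, X *ᵥ b (i, k) = g k 0 i • b (0, k) + g k 1 i • b (1, k)) :
    ∀ a, X *ᵥ b.equivFun.symm a = b.equivFun.symm (Matrix.blockDiagonal g *ᵥ a) := by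
  intro a
  rw [Basis.equivFun_symm_apply, Basis.equivFun_symm_apply, mulVec_sum, Fintype.sum_prod_type,
    Fintype.sum_prod_type, Fin.sum_univ_two, Fin.sum_univ_two, ← Finset.sum_add_distrib, ← Finset.sum_add_distrib]
  refine Finset.sum_congr rfl fun k _ => ?_
  simp only [mulVec_smul, h, block_mulVec]
  module

omit [Fintype F] in
lemma pair_basis_nonsquare (X : Matrix (Fin n) (Fin n) F) (z : F) (hX : X * X = z • 1)
    (hz : ∀ t : F, t * t ≠ z) : ∀ j : ℕ, 2 * j ≤ n → ∃ v : Fin j → VV,
      LinearIndependent F (fun p : Fin 2 × Fin j => if p.1 = 0 then v p.2 else X *ᵥ v p.2) := by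
  intro j
  induction j with
  | zero => exact fun _ => ⟨Fin.elim0, linearIndependent_empty_type⟩
  | succ j ih =>
    intro hj
    obtain ⟨v, hv⟩ := ih (by omega)
    set W := Submodule.span F (Set.range fun p : Fin 2 × Fin j => if p.1 = 0 then v p.2 else X *ᵥ v p.2) with hW
    have hWrank : finrank F W = 2 * j := by rw [hW, finrank_span_eq_card hv]; simp
    have hne : W ≠ ⊤ := fun h => by
      rw [h, finrank_top, Module.finrank_fintype_fun_eq_card, Fintype.card_fin] at hWrank; omega
    obtain ⟨w, -, hw⟩ := SetLike.exists_of_lt (lt_top_iff_ne_top.mpr hne)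
    have hX2 : ∀ u, X *ᵥ (X *ᵥ u) = z • u := fun u => by rw [mulVec_mulVec, hX, smul_mulVec, one_mulVec]
    have hinv : ∀ u ∈ W, X *ᵥ u ∈ W := by
      intro u hu
      have hle : W ≤ W.comap (Matrix.toLin' X) := by
        rw [hW, Submodule.span_le]
        rintro _ ⟨⟨i, k⟩, rfl⟩
        rw [SetLike.mem_coe, Submodule.mem_comap, Matrix.toLin'_apply]
        fin_cases i
        · exact Submodule.subset_span ⟨(1, k), rfl⟩
        · show X *ᵥ (X *ᵥ v k) ∈ _
          rw [hX2]
          exact Submodule.smul_mem _ _ (Submodule.subset_span ⟨(0, k), rfl⟩)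
      simpa using hle hu
    refine ⟨Fin.snoc v w, ?_⟩
    rw [Fintype.linearIndependent_iff]
    intro c hc
    rw [Fintype.sum_prod_type, Fin.sum_univ_two, Fin.sum_univ_castSucc, Fin.sum_univ_castSucc] at hc
    simp only [↓reduceIte, Fin.snoc_castSucc, Fin.snoc_last, one_ne_zero] at hc
    set R := (∑ k, c (0, Fin.castSucc k) • v k) + ∑ k, c (1, Fin.castSucc k) • (X *ᵥ v k) with hR
    have hRW : R ∈ W := add_mem
      (sum_mem fun k _ => Submodule.smul_mem _ _ (Submodule.subset_span ⟨(0, k), rfl⟩))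
      (sum_mem fun k _ => Submodule.smul_mem _ _ (Submodule.subset_span ⟨(1, k), rfl⟩))
    set α := c (0, Fin.last j)
    set β := c (1, Fin.last j)
    have hsum : α • w + β • (X *ᵥ w) = -R := by rw [eq_neg_iff_add_eq_zero, ← hc, hR]; abel
    have hab : α • w + β • (X *ᵥ w) ∈ W := hsum ▸ neg_mem hRW
    have h2 := hinv _ hab
    rw [mulVec_add, mulVec_smul, mulVec_smul, hX2] at h2
    have hkey : (α * α - z * β * β) • w ∈ W := by
      have := sub_mem (Submodule.smul_mem _ α hab) (Submodule.smul_mem _ β h2)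
      convert this using 1
      module
    have hzero : α * α - z * β * β = 0 := by
      by_contra h
      exact hw ((Submodule.smul_mem_iff _ h).mp hkey)
    have hβ : β = 0 := by
      by_contra h
      exact hz (α / β) (by field_simp; linear_combination hzero)
    have hα : α = 0 := by
      rw [hβ] at hzero
      exact mul_self_eq_zero.mp (by linear_combination hzero)
    have hR0 : R = 0 := by simpa [hα, hβ, eq_comm] using hsum
    have h0 := (Fintype.linearIndependent_iff.mp hv) (fun p => c (p.1, Fin.castSucc p.2)) (by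
      rw [Fintype.sum_prod_type, Fin.sum_univ_two]; simpa [hR] using hR0)
    rintro ⟨i, k⟩
    refine Fin.lastCases ?_ (fun k => h0 (i, k)) k
    fin_cases i
    · exact hα
    · exact hβ

/-- the case of a non-square -/
theorem elusive_nonsquare (f : VV → VV → F) (hf : Cfsg.Geo.IsSymplecticForm f) (hn : 4 ≤ n) (he : Even n)
    (x : Matrix.SpecialLinearGroup (Fin n) F) (z : F) (hz0 : z ≠ 0)
    (hX : (x : Matrix (Fin n) (Fin n) F) * (x : Matrix (Fin n) (Fin n) F) = z • 1) (hz : ∀ t : F, t * t ≠ z) :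
    ∃ P : Matrix.SpecialLinearGroup (Fin n) F, P⁻¹ * x * P ∈ ((Cfsg.Geo.similarityGroup f).comap
      (Matrix.SpecialLinearGroup.toGL : Matrix.SpecialLinearGroup (Fin n) F →* GL (Fin n) F)) := by
  obtain ⟨m, rfl⟩ := he
  obtain ⟨v, hv⟩ := pair_basis_nonsquare (x : Matrix (Fin (m + m)) (Fin (m + m)) F) z hX hz m (by omega)
  let b := basisOfLinearIndependentOfCardEqFinrank' _ hv (by simp; omega)
  refine conj_of_blocks f hf x (κ := Fin m) (by simp; omega) b.equivFun.symm (fun _ => !![0, z; 1, 0]) (-z)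
    (neg_ne_zero.mpr hz0) (fun _ => by simp [Matrix.det_fin_two]) (coords_of_basis _ b _ fun i k => ?_)
    ⟨0, by omega⟩ fun D hD => ?_
  · simp only [b, coe_basisOfLinearIndependentOfCardEqFinrank']
    fin_cases i
    · simp
    · simp [mulVec_mulVec, hX, smul_mulVec]
  · have h2 : ringChar F ≠ 2 := fun h => by
      haveI := ringChar.of_eq h
      obtain ⟨t, ht⟩ := (isSquare_of_charTwo' z : IsSquare z)
      exact hz t ht.symm
    have hodd : Fintype.card F % 2 = 1 := FiniteField.odd_card_of_char_ne_two h2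
    obtain ⟨s, t, hst⟩ := FiniteField.exists_root_sum_quadratic
      (f := Polynomial.X ^ 2) (g := Polynomial.C (-z) * Polynomial.X ^ 2 + Polynomial.C (-D))
      (Polynomial.degree_X_pow 2) (by
        rw [Polynomial.degree_add_C (by rw [Polynomial.degree_C_mul_X_pow 2 (neg_ne_zero.mpr hz0)]; norm_num),
          Polynomial.degree_C_mul_X_pow 2 (neg_ne_zero.mpr hz0)]; rfl) hodd
    refine ⟨!![s, z * t; t, s], ?_, ?_⟩
    · simp only [Matrix.mul_fin_two]
      congr 1
      ext i j; fin_cases i <;> fin_cases j <;> simp <;> ring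
    · simp at hst
      rw [Matrix.det_fin_two_of]
      linear_combination hst

/-- the case of a square in odd characteristic -/
theorem elusive_square_odd (f : VV → VV → F) (hf : Cfsg.Geo.IsSymplecticForm f) (hn : 4 ≤ n) (he : Even n)
    (x : Matrix.SpecialLinearGroup (Fin n) F) (a : F) (ha0 : a ≠ 0) (h2 : (2 : F) ≠ 0)
    (hX : (x : Matrix (Fin n) (Fin n) F) * (x : Matrix (Fin n) (Fin n) F) = (a * a) • 1)
    (hna : a ^ n ≠ -1) :
    ∃ P : Matrix.SpecialLinearGroup (Fin n) F, P⁻¹ * x * P ∈ ((Cfsg.Geo.similarityGroup f).comap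
      (Matrix.SpecialLinearGroup.toGL : Matrix.SpecialLinearGroup (Fin n) F →* GL (Fin n) F)) := by
  let T := Matrix.toLin' (x : Matrix (Fin n) (Fin n) F)
  let U := Module.End.eigenspace T a
  let W := Module.End.eigenspace T (-a)
  have hT : ∀ v, T (T v) = (a * a) • v := fun v => by
    simp [T, mulVec_mulVec, hX, smul_mulVec]
  have hUW : IsCompl U W := by
    constructor
    · rw [Submodule.disjoint_def]
      intro v hu hw
      rw [Module.End.mem_eigenspace_iff] at hu hw
      rw [hu, ← sub_eq_zero, ← sub_smul, smul_eq_zero] at hw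
      exact hw.resolve_left (by rw [sub_neg_eq_add, ← two_mul]; exact mul_ne_zero h2 ha0)
    · rw [codisjoint_iff, eq_top_iff]
      intro v _
      have hv : v = (2 * a)⁻¹ • (a • v + T v) + (2 * a)⁻¹ • (a • v - T v) := by
        rw [← smul_add, show a • v + T v + (a • v - T v) = (2 * a) • v by module, smul_smul,
          inv_mul_cancel₀ (mul_ne_zero h2 ha0), one_smul]
      rw [hv]
      refine Submodule.add_mem_sup (Submodule.smul_mem _ _ ?_) (Submodule.smul_mem _ _ ?_) <;>
        rw [Module.End.mem_eigenspace_iff]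
      · rw [map_add, map_smul, hT]; module
      · rw [map_sub, map_smul, hT]; module
  let r := finrank F U
  let s := finrank F W
  let b0 : Basis (Fin r ⊕ Fin s) F VV :=
    ((Module.finBasis F U).prod (Module.finBasis F W)).map (Submodule.prodEquivOfIsCompl U W hUW)
  have hrs : r + s = n := by
    have := Module.finrank_eq_card_basis b0
    simp at this; omega
  have hbl : ∀ i, T (b0 (.inl i)) = a • b0 (.inl i) := fun i => by
    have : b0 (.inl i) = ((Module.finBasis F U) i : VV) := by simp [b0]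
    rw [this]; exact Module.End.mem_eigenspace_iff.mp (Module.finBasis F U i).2
  have hbr : ∀ i, T (b0 (.inr i)) = (-a) • b0 (.inr i) := fun i => by
    have : b0 (.inr i) = ((Module.finBasis F W) i : VV) := by simp [b0]
    rw [this]; exact Module.End.mem_eigenspace_iff.mp (Module.finBasis F W i).2
  have hmat : LinearMap.toMatrix b0 b0 T = Matrix.diagonal (Sum.elim (fun _ => a) (fun _ => -a)) := by
    ext i j
    rcases j with j | j
    · rw [LinearMap.toMatrix_apply, hbl, map_smul, b0.repr_self, Finsupp.smul_single, smul_eq_mul, mul_one,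
        Finsupp.single_apply, Matrix.diagonal_apply]
      by_cases h : i = Sum.inl j
      · subst h; simp
      · rw [if_neg (Ne.symm h), if_neg h]
    · rw [LinearMap.toMatrix_apply, hbr, map_smul, b0.repr_self, Finsupp.smul_single, smul_eq_mul, mul_one,
        Finsupp.single_apply, Matrix.diagonal_apply]
      by_cases h : i = Sum.inr j
      · subst h; simp
      · rw [if_neg (Ne.symm h), if_neg h]
  have hdet : a ^ r * (-a) ^ s = 1 := by
    have h1 : LinearMap.det T = 1 := by rw [LinearMap.det_toLin']; exact x.2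
    rw [← LinearMap.det_toMatrix b0, hmat, Matrix.det_diagonal, Fintype.prod_sum_type] at h1
    simpa using h1
  have hs : Even s := by
    rw [← Nat.not_odd_iff_even]
    intro hodd
    rw [hodd.neg_pow, mul_neg, ← pow_add, hrs] at hdet
    exact hna (by rw [← hdet, neg_neg])
  have hr : Even r := by
    rw [Nat.even_iff] at he hs ⊢; omega
  obtain ⟨r', hr'⟩ := hr
  obtain ⟨s', hs'⟩ := hs
  let σ : Fin 2 × (Fin r' ⊕ Fin s') ≃ Fin r ⊕ Fin s :=
    (Equiv.prodSumDistrib _ _ _).trans (Equiv.sumCongr (finProdFinEquiv.trans (finCongr (by omega)))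
      (finProdFinEquiv.trans (finCongr (by omega))))
  let b := b0.reindex σ.symm
  let g : Fin r' ⊕ Fin s' → Matrix (Fin 2) (Fin 2) F := Sum.elim (fun _ => a • 1) (fun _ => (-a) • 1)
  obtain ⟨k₀⟩ : Nonempty (Fin r' ⊕ Fin s') := Fintype.card_pos_iff.mp (by simp; omega)
  refine conj_of_blocks f hf x (κ := Fin r' ⊕ Fin s') (by simp; omega) b.equivFun.symm g (a * a)
    (mul_ne_zero ha0 ha0) (fun k => by rcases k with k | k <;> simp [g, Matrix.det_fin_two] <;> ring)
    (coords_of_basis _ b g fun i k => ?_) k₀ fun D hD => ?_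
  · rw [← Matrix.toLin'_apply]
    rcases k with k | k
    · rw [show b (i, .inl k) = b0 (.inl (finCongr (by omega) (finProdFinEquiv (i, k)))) by simp [b, σ], hbl]
      fin_cases i <;> simp [g, b, σ]
    · rw [show b (i, .inr k) = b0 (.inr (finCongr (by omega) (finProdFinEquiv (i, k)))) by simp [b, σ], hbr]
      fin_cases i <;> simp [g, b, σ]
  · refine ⟨!![D, 0; 0, 1], ?_, by simp [Matrix.det_fin_two]⟩
    rcases k₀ with k | k <;> simp [g]

/-- the case of characteristic two -/
theorem elusive_two (f : VV → VV → F) (hf : Cfsg.Geo.IsSymplecticForm f) (hn : 4 ≤ n) (he : Even n)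
    (x : Matrix.SpecialLinearGroup (Fin n) F) (a : F) (ha0 : a ≠ 0) (h2 : (2 : F) = 0)
    (hX : (x : Matrix (Fin n) (Fin n) F) * (x : Matrix (Fin n) (Fin n) F) = (a * a) • 1) :
    ∃ P : Matrix.SpecialLinearGroup (Fin n) F, P⁻¹ * x * P ∈ ((Cfsg.Geo.similarityGroup f).comap
      (Matrix.SpecialLinearGroup.toGL : Matrix.SpecialLinearGroup (Fin n) F →* GL (Fin n) F)) := by
  haveI : CharP F 2 := CharTwo.of_one_ne_zero_of_two_eq_zero one_ne_zero h2
  let X := (x : Matrix (Fin n) (Fin n) F)
  let N : VV →ₗ[F] VV := a⁻¹ • Matrix.toLin' X - LinearMap.id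
  have hN2 : ∀ v, N (N v) = 0 := fun v => by
    simp only [N, LinearMap.sub_apply, LinearMap.smul_apply, LinearMap.id_apply, Matrix.toLin'_apply, map_sub,
      map_smul, mulVec_mulVec, X, hX, smul_mulVec, one_mulVec, smul_smul]
    funext i
    simp only [Pi.sub_apply, Pi.smul_apply, smul_eq_mul, Pi.zero_apply]
    field_simp
    linear_combination (a * v i - ((x : Matrix (Fin n) (Fin n) F) *ᵥ v) i) * h2
  have hXN : ∀ v, X *ᵥ v = a • v + a • N v := fun v => by
    simp only [N, LinearMap.sub_apply, LinearMap.smul_apply, LinearMap.id_apply, Matrix.toLin'_apply, smul_sub,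
      smul_smul, mul_inv_cancel₀ ha0, one_smul]
    abel
  have hle : LinearMap.range N ≤ LinearMap.ker N := by
    rintro _ ⟨v, rfl⟩; exact hN2 v
  obtain ⟨W, hW⟩ := (LinearMap.ker N).exists_isCompl
  obtain ⟨C, hC⟩ := (LinearMap.range N).exists_isCompl
  let U := LinearMap.ker N ⊓ C
  have hdW := Submodule.finrank_sup_add_finrank_inf_eq (LinearMap.ker N) W
  rw [hW.codisjoint.eq_top, hW.disjoint.eq_bot, finrank_bot, finrank_top, Module.finrank_fintype_fun_eq_card,
    Fintype.card_fin] at hdW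
  have hrank := LinearMap.finrank_range_add_finrank_ker N
  rw [Module.finrank_fintype_fun_eq_card, Fintype.card_fin] at hrank
  have hdU := Submodule.finrank_sup_add_finrank_inf_eq (LinearMap.range N) U
  rw [show LinearMap.range N ⊔ U = LinearMap.ker N by
      rw [show U = C ⊓ LinearMap.ker N from inf_comm _ _, ← sup_inf_assoc_of_le _ hle, hC.codisjoint.eq_top,
        top_inf_eq],
    show LinearMap.range N ⊓ U = ⊥ from eq_bot_iff.mpr fun v hv =>
      (Submodule.mem_bot F).mpr (Submodule.disjoint_def.mp hC.disjoint v hv.1 hv.2.2),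
    finrank_bot] at hdU
  have hUe : Even (finrank F U) := by
    rw [Nat.even_iff] at he ⊢; omega
  obtain ⟨u, hu⟩ := hUe
  let bW := Module.finBasis F W
  let bU := Module.finBasisOfFinrankEq F U (show finrank F U = u + u from hu)
  let s := finrank F W
  let τ : Fin 2 × Fin u ≃ Fin (u + u) := finProdFinEquiv.trans (finCongr (by omega))
  let v : Fin 2 × (Fin s ⊕ Fin u) → VV := fun p => Sum.elim
    (fun k => if p.1 = 0 then (bW k : VV) else N (bW k)) (fun k => (bU (τ (p.1, k)) : VV)) p.2
  have hv : LinearIndependent F v := by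
    rw [Fintype.linearIndependent_iff]
    intro c hc
    simp only [Fintype.sum_prod_type, Fin.sum_univ_two, Fintype.sum_sum_type, v, Sum.elim_inl, Sum.elim_inr,
      ↓reduceIte, one_ne_zero] at hc
    set A : W := ∑ k, c (0, .inl k) • bW k with hA
    set B : W := ∑ k, c (1, .inl k) • bW k with hB
    set K : U := (∑ k, c (0, .inr k) • bU (τ (0, k))) + ∑ k, c (1, .inr k) • bU (τ (1, k)) with hK
    have hsum : (A : VV) + N (B : VV) + (K : VV) = 0 := by
      rw [← hc, hA, hB, hK]
      simp only [Submodule.coe_add, Submodule.coe_sum, Submodule.coe_smul, map_sum, map_smul]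
      abel
    have hKk : N (K : VV) = 0 := K.2.1
    have hA0 : (A : VV) = 0 := by
      refine Submodule.disjoint_def.mp hW.disjoint _ ?_ A.2
      have := congrArg N hsum
      simpa [hN2, hKk] using this
    rw [hA0, zero_add] at hsum
    have hNB : N (B : VV) = 0 := by
      refine Submodule.disjoint_def.mp hC.disjoint _ ⟨_, rfl⟩ ?_
      rw [eq_neg_of_add_eq_zero_left hsum]
      exact neg_mem K.2.2
    have hB0 : (B : VV) = 0 := Submodule.disjoint_def.mp hW.disjoint _ hNB B.2
    rw [hNB, zero_add] at hsum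
    have hcA := (Fintype.linearIndependent_iff.mp bW.linearIndependent) _ (show A = 0 from Subtype.ext hA0)
    have hcB := (Fintype.linearIndependent_iff.mp bW.linearIndependent) _ (show B = 0 from Subtype.ext hB0)
    have hcK := (Fintype.linearIndependent_iff.mp (bU.linearIndependent.comp _ τ.injective))
      (fun p => c (p.1, .inr p.2)) (by
        rw [Fintype.sum_prod_type, Fin.sum_univ_two]; exact (Subtype.ext hsum : K = 0))
    rintro ⟨i, k | k⟩
    · fin_cases i
      · exact hcA k
      · exact hcB k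
    · exact hcK (i, k)
  let b := basisOfLinearIndependentOfCardEqFinrank' v hv (by simp [s]; omega)
  let g : Fin s ⊕ Fin u → Matrix (Fin 2) (Fin 2) F := Sum.elim (fun _ => !![a, 0; a, a]) (fun _ => !![a, 0; 0, a])
  obtain ⟨k₀⟩ : Nonempty (Fin s ⊕ Fin u) := Fintype.card_pos_iff.mp (by simp [s]; omega)
  refine conj_of_blocks f hf x (κ := Fin s ⊕ Fin u) (by simp [s]; omega) b.equivFun.symm g (a * a)
    (mul_ne_zero ha0 ha0) (fun k => by rcases k with k | k <;> simp [g, Matrix.det_fin_two])
    (coords_of_basis _ b g fun i k => ?_) k₀ fun D hD => ?_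
  · simp only [b, coe_basisOfLinearIndependentOfCardEqFinrank']
    rcases k with k | k
    · fin_cases i
      · simp [v, g, hXN, X]
      · simp [v, g, hXN, X, hN2]
    · have hK0 : N (bU (τ (i, k)) : VV) = 0 := (bU (τ (i, k))).2.1
      fin_cases i <;> simp [v, g, hXN, X] <;> exact Or.inr hK0
  · obtain ⟨d, hd⟩ := (isSquare_of_charTwo' D : IsSquare D)
    refine ⟨d • 1, by simp, by rw [Matrix.det_smul, Matrix.det_one, Fintype.card_fin, mul_one, hd, pow_two]⟩

omit [Fintype F] in
/-- the derangement -/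
theorem derangement (f : VV → VV → F) (hf : Cfsg.Geo.IsSymplecticForm f) (hn : 4 ≤ n)
    (h2 : (2 : F) ≠ 0) (a : F) (ha0 : a ≠ 0) (ha : a ^ n = -1) :
    ∃ x : Matrix.SpecialLinearGroup (Fin n) F,
      (x : Matrix (Fin n) (Fin n) F) * (x : Matrix (Fin n) (Fin n) F) = (a * a) • 1 ∧
      (∀ z : F, (x : Matrix (Fin n) (Fin n) F) ≠ z • 1) ∧
      ∀ P : Matrix.SpecialLinearGroup (Fin n) F, P⁻¹ * x * P ∉ ((Cfsg.Geo.similarityGroup f).comap
        (Matrix.SpecialLinearGroup.toGL : Matrix.SpecialLinearGroup (Fin n) F →* GL (Fin n) F)) := by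
  let i0 : Fin n := ⟨0, by omega⟩
  let d : Fin n → F := fun i => if i = i0 then -a else a
  have hd : (Matrix.diagonal d).det = 1 := by
    rw [Matrix.det_diagonal, ← Finset.mul_prod_erase _ d (Finset.mem_univ i0),
      Finset.prod_congr rfl (fun i hi => show d i = a from if_neg (Finset.ne_of_mem_erase hi)),
      Finset.prod_const, Finset.card_erase_of_mem (Finset.mem_univ _), Finset.card_univ, Fintype.card_fin,
      show d i0 = -a from if_pos rfl, neg_mul, ← pow_succ', Nat.sub_add_cancel (by omega), ha, neg_neg]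
  have hne : (-a : F) ≠ a := fun h => h2 ((mul_eq_zero.mp (show (2 : F) * a = 0 by linear_combination -h)).resolve_right ha0)
  let i1 : Fin n := ⟨1, by omega⟩
  let i2 : Fin n := ⟨2, by omega⟩
  have h10 : i1 ≠ i0 := by simp [i1, i0]
  have h20 : i2 ≠ i0 := by simp [i2, i0]
  refine ⟨⟨Matrix.diagonal d, hd⟩, ?_, fun z hz => ?_, fun P hP => ?_⟩
  · rw [Matrix.diagonal_mul_diagonal, Matrix.smul_one_eq_diagonal]
    congr 1; funext i; simp only [d]; split <;> ring
  · have e0 := congrFun (congrFun hz i0) i0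
    have e1 := congrFun (congrFun hz i1) i1
    simp [d, h10] at e0 e1
    exact hne (e0.trans e1.symm)
  obtain ⟨μ, hμ⟩ := hP
  let X := Matrix.diagonal d
  let Q : Matrix (Fin n) (Fin n) F := ((P⁻¹ : Matrix.SpecialLinearGroup (Fin n) F) : Matrix (Fin n) (Fin n) F)
  have hQP : (P : Matrix (Fin n) (Fin n) F) * Q = 1 := congrArg Subtype.val (mul_inv_cancel P)
  have hPQ : Q * (P : Matrix (Fin n) (Fin n) F) = 1 := congrArg Subtype.val (inv_mul_cancel P)
  let B := (toBil hf.bilinear).compl₁₂ (Matrix.mulVecLin Q) (Matrix.mulVecLin Q)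
  have hBf : ∀ u v, B u v = f (Q *ᵥ u) (Q *ᵥ v) := fun u v => rfl
  have hBX : ∀ u v, B (X *ᵥ u) (X *ᵥ v) = (μ : F) * B u v := fun u v => by
    have h := hμ (Q *ᵥ u) (Q *ᵥ v)
    have e : ∀ w, ((Matrix.SpecialLinearGroup.toGL (P⁻¹ * ⟨X, hd⟩ * P) : GL (Fin n) F) :
        Matrix (Fin n) (Fin n) F) *ᵥ (Q *ᵥ w) = Q *ᵥ (X *ᵥ w) := fun w => by
      show (Q * X * (P : Matrix (Fin n) (Fin n) F)) *ᵥ (Q *ᵥ w) = _
      rw [mulVec_mulVec, mul_assoc, hQP, mul_one, mulVec_mulVec]
    rw [e, e] at h
    rw [hBf, hBf]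
    exact h
  have hrad : ∀ w, (∀ i, B w (Pi.single i 1) = 0) → w = 0 := by
    intro w hw
    have hall : ∀ v, B w v = 0 := fun v => by
      have : B w = 0 := (Pi.basisFun F (Fin n)).ext fun i => by simpa using hw i
      simp [this]
    by_contra h0
    have hQw : Q *ᵥ w ≠ 0 := fun h => h0 (by rw [← one_mulVec w, ← hQP, ← mulVec_mulVec, h, mulVec_zero])
    obtain ⟨-, y, hy⟩ := hf.nondegenerate _ hQw
    apply hy
    have := hall ((P : Matrix (Fin n) (Fin n) F) *ᵥ y)
    rwa [hBf, mulVec_mulVec, hPQ, one_mulVec] at this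
  have hval : ∀ i j, (d i * d j - (μ : F)) * B (Pi.single i 1) (Pi.single j 1) = 0 := fun i j => by
    have h := hBX (Pi.single i 1) (Pi.single j 1)
    have e : ∀ k, X *ᵥ (Pi.single k 1 : VV) = d k • (Pi.single k 1 : VV) := fun k => by
      funext l
      by_cases h : l = k
      · subst h; simp [X, mulVec_diagonal]
      · simp [X, mulVec_diagonal, h]
    rw [e, e, map_smul, map_smul, LinearMap.smul_apply, smul_eq_mul, smul_eq_mul] at h
    linear_combination h
  have hd0 : d i0 = -a := if_pos rfl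
  have hdi : ∀ i, i ≠ i0 → d i = a := fun i hi => if_neg hi
  have halt : ∀ u, B u u = 0 := fun u => hf.alternating _
  by_cases hμa : (μ : F) = a * a
  · have h0 : (Pi.single i0 1 : VV) = 0 := hrad _ fun j => by
      by_cases hj : j = i0
      · subst hj; exact halt _
      · refine (mul_eq_zero.mp (hval i0 j)).resolve_left ?_
        rw [hd0, hdi j hj, hμa]
        intro h
        exact mul_ne_zero (mul_ne_zero h2 ha0) ha0 (by linear_combination -h)
    simpa using congrFun h0 i0
  · have hoff : ∀ i j, i ≠ i0 → j ≠ i0 → B (Pi.single i 1) (Pi.single j 1) = 0 := fun i j hi hj =>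
      (mul_eq_zero.mp (hval i j)).resolve_left (by rw [hdi i hi, hdi j hj]; exact fun h => hμa (by linear_combination -h))
    set α := B (Pi.single i1 1) (Pi.single i0 1)
    set β := B (Pi.single i2 1) (Pi.single i0 1)
    have hzero : β • (Pi.single i1 1 : VV) - α • Pi.single i2 1 = 0 := hrad _ fun j => by
      rw [map_sub, map_smul, map_smul, LinearMap.sub_apply, LinearMap.smul_apply, LinearMap.smul_apply, smul_eq_mul,
        smul_eq_mul]
      by_cases hj : j = i0
      · subst hj; ring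
      · rw [hoff _ _ h10 hj, hoff _ _ h20 hj]; ring
    have h12 : i1 ≠ i2 := by simp [i1, i2]
    have hα : α = 0 := by simpa [h12, h12.symm] using congrFun hzero i2
    have h1 : (Pi.single i1 1 : VV) = 0 := hrad _ fun j => by
      by_cases hj : j = i0
      · subst hj; exact hα
      · exact hoff _ _ h10 hj
    simpa using congrFun h1 i1

/-- `-1` is an `n`-th power iff the 2-part of `q - 1` exceeds that of `n` -/
theorem exists_pow_neg_one_iff (hn : 0 < n) (h2 : (2 : F) ≠ 0) :
    (∃ a : F, a ^ n = -1) ↔ padicValNat 2 n < padicValNat 2 (Fintype.card F - 1) := by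
  haveI := Fact.mk Nat.prime_two
  have hm1 : (-1 : F) ≠ 1 := fun h => h2 (by linear_combination -h)
  obtain ⟨s, o, ho, hnso⟩ : ∃ s o, Odd o ∧ n = 2 ^ s * o := Nat.exists_eq_two_pow_mul_odd hn.ne'
  have hval : padicValNat 2 n = s := by
    rw [hnso, padicValNat.mul (by positivity) ho.pos.ne', padicValNat.prime_pow,
      padicValNat.eq_zero_of_not_dvd (by rw [← even_iff_two_dvd]; exact Nat.not_even_iff_odd.mpr ho), add_zero]
  have hq : Fintype.card F - 1 ≠ 0 := by have := Fintype.one_lt_card (α := F); omega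
  rw [hval, ← Nat.succ_le_iff, ← padicValNat_dvd_iff_le hq]
  constructor
  · rintro ⟨a, ha⟩
    have hpow : ((a ^ o) ^ 2 ^ s) = -1 := by rw [← pow_mul, mul_comm, ← hnso, ha]
    have hord : orderOf (a ^ o) = 2 ^ (s + 1) := orderOf_eq_prime_pow (by rw [hpow]; exact hm1) (by
      rw [pow_succ, pow_mul, hpow]; ring)
    have ha0 : a ^ o ≠ 0 := fun h => by
      rw [h, zero_pow (by positivity)] at hpow
      exact one_ne_zero (neg_eq_zero.mp hpow.symm)
    rw [← hord]
    exact orderOf_dvd_of_pow_eq_one (FiniteField.pow_card_sub_one_eq_one _ ha0)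
  · intro hdvd
    obtain ⟨η, hη⟩ := IsCyclic.exists_generator (α := Fˣ)
    have hord : orderOf η = Fintype.card F - 1 := by
      rw [orderOf_eq_card_of_forall_mem_zpowers hη, Nat.card_units, Nat.card_eq_fintype_card]
    obtain ⟨c, hc⟩ := hdvd
    have hcd : orderOf η = 2 * (2 ^ s * c) := by rw [hord, hc, pow_succ]; ring
    have hne : η ^ (2 ^ s * c) ≠ 1 := by
      refine pow_ne_one_of_lt_orderOf ?_ ?_
      · intro h; rw [h] at hcd; omega
      · have : 2 ^ s * c ≠ 0 := fun h => by rw [h] at hcd; omega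
        omega
    have hsq : ((η ^ (2 ^ s * c) : Fˣ) : F) * ((η ^ (2 ^ s * c) : Fˣ) : F) = 1 := by
      rw [← Units.val_mul, ← pow_add, ← two_mul, ← hcd, pow_orderOf_eq_one, Units.val_one]
    have hneg : ((η ^ (2 ^ s * c) : Fˣ) : F) = -1 :=
      (mul_self_eq_one_iff.mp hsq).resolve_left (fun h => hne (Units.ext h))
    refine ⟨((η ^ c : Fˣ) : F), ?_⟩
    rw [hnso, pow_mul, ← Units.val_pow_eq_pow_val, ← pow_mul, mul_comm c, hneg]
    exact ho.neg_one_pow

theorem main (hn : 4 ≤ n) (he : Even n) (f : VV → VV → F) (hf : Cfsg.Geo.IsSymplecticForm f) :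
    (∀ x : Matrix.SpecialLinearGroup (Fin n) F,
      (∃ z : F, ((x ^ 2 : Matrix.SpecialLinearGroup (Fin n) F) : Matrix (Fin n) (Fin n) F) = z • (1 : Matrix (Fin n) (Fin n) F)) →
      (∀ z : F, (x : Matrix (Fin n) (Fin n) F) ≠ z • (1 : Matrix (Fin n) (Fin n) F)) →
      ∃ P : Matrix.SpecialLinearGroup (Fin n) F, P⁻¹ * x * P ∈ ((Cfsg.Geo.similarityGroup f).comap (Matrix.SpecialLinearGroup.toGL : Matrix.SpecialLinearGroup (Fin n) F →* GL (Fin n) F))) ↔
    padicValNat 2 (Fintype.card F - 1) ≤ padicValNat 2 n := by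
  haveI := Fact.mk Nat.prime_two
  constructor
  · intro h
    by_cases h2 : (2 : F) = 0
    · haveI : CharP F 2 := CharTwo.of_one_ne_zero_of_two_eq_zero one_ne_zero h2
      have heven : Fintype.card F % 2 = 0 := FiniteField.even_card_iff_char_two.mp (ringChar.eq F 2)
      have := Fintype.one_lt_card (α := F)
      rw [padicValNat.eq_zero_of_not_dvd (n := Fintype.card F - 1) (by omega)]
      exact Nat.zero_le _
    · by_contra hlt
      push Not at hlt
      obtain ⟨a, ha⟩ := (exists_pow_neg_one_iff (by omega) h2).mpr hlt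
      have ha0 : a ≠ 0 := fun h => by
        rw [h, zero_pow (by omega)] at ha; exact one_ne_zero (neg_eq_zero.mp ha.symm)
      obtain ⟨x, hx, hns, hno⟩ := derangement f hf hn h2 a ha0 ha
      obtain ⟨P, hP⟩ := h x ⟨a * a, by rw [pow_two, Matrix.SpecialLinearGroup.coe_mul, hx]⟩ hns
      exact hno P hP
  · intro hle x ⟨z, hz⟩ _
    rw [pow_two, Matrix.SpecialLinearGroup.coe_mul] at hz
    have hz0 : z ≠ 0 := by
      haveI : Nonempty (Fin n) := ⟨⟨0, by omega⟩⟩
      intro h
      have := congrArg Matrix.det hz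
      rw [h, zero_smul, Matrix.det_mul, x.2, mul_one, Matrix.det_zero] at this
      exact one_ne_zero this
    by_cases hsq : ∃ t : F, t * t = z
    · obtain ⟨a, rfl⟩ := hsq
      by_cases h2 : (2 : F) = 0
      · exact elusive_two f hf hn he x a (left_ne_zero_of_mul hz0) h2 hz
      · exact elusive_square_odd f hf hn he x a (left_ne_zero_of_mul hz0) h2 hz fun h =>
          absurd ((exists_pow_neg_one_iff (by omega) h2).mp ⟨a, h⟩) (by omega)
    · push Not at hsq
      exact elusive_nonsquare f hf hn he x z hz0 hz hsq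

end CfsgLib.SympInvol
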