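import Cfsg.Agent.Lib.ClassicalSpParabolic
import Cfsg.Agent.Lib.ClassicalCardLinear
import Cfsg.Agent.Lib.ClassicalAlt
import Mathlib.FieldTheory.Finite.Extension

/-!
Elements of odd prime order of `SL_n(q)` that are similitudes of no symplectic form.
-/

set_option autoImplicit false

namespace CfsgLib.SympSim

attribute [local instance] _root_.Classical.propDecidable

open Matrix CfsgLib.Classical

variable {F : Type*} [Field F] {n : ℕ}

local notation "VV" => Fin n → F

/-- `T` is a similitude of no non-degenerate alternating bilinear form. -/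
def NoForm (T : VV →ₗ[F] VV) : Prop :=
  ∀ B : LinearMap.BilinForm F VV, B.IsAlt → (∀ w, (∀ x, B w x = 0) → w = 0) →
    ∀ μ : F, (∀ u v, B (T u) (T v) = μ * B u v) → False

/-- standard vectors -/
def ev (i : Fin n) : VV := Pi.single i 1

lemma exists_ne (B : LinearMap.BilinForm F VV) (hN : ∀ w, (∀ x, B w x = 0) → w = 0) (w : VV)
    (hw : w ≠ 0) : ∃ j, B w (ev j) ≠ 0 := by
  by_contra h
  push Not at h
  refine hw (hN w fun x => ?_)
  rw [pi_eq_sum_univ x, map_sum]
  refine Finset.sum_eq_zero fun i _ => ?_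
  rw [map_smul]
  have : (fun j => if i = j then (1 : F) else 0) = ev i := by
    ext j; simp [ev, Pi.single_apply, eq_comm]
  rw [this, h, smul_zero]

lemma ev_ne_zero (i : Fin n) : (ev i : VV) ≠ 0 := fun h => by
  have := congrFun h i
  simp [ev] at this

lemma mu_pow (B : LinearMap.BilinForm F VV) (T : VV →ₗ[F] VV) (μ : F)
    (hT : ∀ u v, B (T u) (T v) = μ * B u v) (hne : ∃ u v, B u v ≠ 0) (r : ℕ) (hr : T ^ r = 1) :
    μ ^ r = 1 := by
  have h : ∀ k : ℕ, ∀ u v, B ((T ^ k) u) ((T ^ k) v) = μ ^ k * B u v := by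
    intro k
    induction k with
    | zero => intro u v; simp
    | succ k ih =>
      intro u v
      rw [pow_succ', Module.End.mul_apply, Module.End.mul_apply, hT, ih, pow_succ', mul_assoc]
  obtain ⟨u, v, huv⟩ := hne
  have := h r u v
  rw [hr, Module.End.one_apply, Module.End.one_apply] at this
  exact mul_right_cancel₀ huv (by rw [← this, one_mul])

lemma single_mulVec_ev (a b k : Fin n) :
    Matrix.single a b (1 : F) *ᵥ ev k = if k = b then ev a else 0 := by
  ext i
  rcases eq_or_ne i a with rfl | hi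
  · rcases eq_or_ne k b with rfl | hk
    · simp [Matrix.mulVec, dotProduct, ev, Pi.single_apply]
    · simp [Matrix.mulVec, dotProduct, ev, Pi.single_apply, hk, hk.symm, Matrix.single_apply]
  · rcases eq_or_ne k b with rfl | hk
    · simp [Matrix.mulVec, dotProduct, ev, Pi.single_apply, hi, hi.symm, Matrix.single_apply]
    · simp [Matrix.mulVec, dotProduct, ev, Pi.single_apply, hk, hi, hi.symm, Matrix.single_apply]

/-- a regular unipotent `3 × 3` block -/
def unip (hn : 4 ≤ n) : Matrix (Fin n) (Fin n) F :=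
  1 + Matrix.single ⟨0, by omega⟩ ⟨1, by omega⟩ 1 + Matrix.single ⟨1, by omega⟩ ⟨2, by omega⟩ 1

theorem unip_noForm (hn : 4 ≤ n) (p : ℕ) [Fact p.Prime] [CharP F p]
    (hpow : (Matrix.toLin' (unip (F := F) hn)) ^ p = 1) :
    NoForm (Matrix.toLin' (unip (F := F) hn)) := by
  intro B hA hN μ hT
  set i0 : Fin n := ⟨0, by omega⟩
  set i1 : Fin n := ⟨1, by omega⟩
  set i2 : Fin n := ⟨2, by omega⟩
  obtain ⟨j, hj⟩ := exists_ne B hN (ev i0) (ev_ne_zero _)
  have hμ : μ = 1 := by
    have h := mu_pow B _ μ hT ⟨_, _, hj⟩ p hpow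
    have : frobenius F p μ = frobenius F p 1 := by simpa [frobenius_def] using h
    exact frobenius_inj F p this
  subst hμ
  have hval : ∀ k, Matrix.toLin' (unip (F := F) hn) (ev k) =
      ev k + (if k = i1 then ev i0 else 0) + (if k = i2 then ev i1 else 0) := by
    intro k
    rw [Matrix.toLin'_apply]
    unfold unip
    rw [Matrix.add_mulVec, Matrix.add_mulVec, Matrix.one_mulVec]
    rw [single_mulVec_ev, single_mulVec_ev]
  have h01 : B (ev i0) (ev i1) = 0 := by
    have h := hT (ev i0) (ev i2)
    rw [hval, hval] at h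
    simpa [i0, i1, i2, Fin.ext_iff] using h
  have h02 : B (ev i0) (ev i2) = 0 := by
    have h := hT (ev i1) (ev i2)
    rw [hval, hval] at h
    simpa [i0, i1, i2, Fin.ext_iff, hA (ev i1), h01, hA.self_eq_zero] using h
  have hall : ∀ k, B (ev i0) (ev k) = 0 := by
    intro k
    rcases eq_or_ne k i0 with rfl | h0
    · exact hA _
    rcases eq_or_ne k i1 with rfl | h1
    · exact h01
    rcases eq_or_ne k i2 with rfl | h2
    · exact h02
    have h := hT (ev i1) (ev k)
    rw [hval, hval] at h
    have e1 : ¬ k = i1 := h1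
    have e2 : ¬ k = i2 := h2
    simpa [e1, e2, i1, i2, Fin.ext_iff] using h
  exact hj (hall j)

/-- the diagonal element -/
def dg (ζ : F) (i : Fin n) : F := if (i : ℕ) < 2 then ζ else if (i : ℕ) = 2 then (ζ ^ 2)⁻¹ else 1

theorem diag_noForm (hn : 4 ≤ n) (ζ : F) (r : ℕ) (hr : r.Prime) (hr2 : r ≠ 2)
    (hgap : ¬ (n = 6 ∧ r = 3)) (hζ : orderOf ζ = r) :
    NoForm (Matrix.toLin' (Matrix.diagonal (dg (n := n) ζ))) := by
  classical
  intro B hA hN μ hT
  have hζ0 : ζ ≠ 0 := by
    rintro rfl
    have : (0 : F) ^ r = 1 := hζ ▸ pow_orderOf_eq_one (0 : F)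
    rw [zero_pow hr.ne_zero] at this
    exact zero_ne_one this
  have hk : ∀ k : ℕ, ζ ^ k = 1 → r ∣ k := fun k h => hζ ▸ orderOf_dvd_of_pow_eq_one h
  have hr3 : 3 ≤ r := by have := hr.two_le; omega
  have hpat : ∀ i j, B (ev i) (ev j) ≠ 0 → dg ζ i * dg ζ j = μ := by
    intro i j hij
    have h := hT (ev i) (ev j)
    rw [Matrix.toLin'_apply, Matrix.toLin'_apply] at h
    have e : ∀ i : Fin n, Matrix.diagonal (dg (n := n) ζ) *ᵥ ev i = dg ζ i • ev i := by
      intro i
      ext k
      rw [Matrix.mulVec_diagonal]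
      rcases eq_or_ne k i with rfl | hki
      · simp [ev]
      · simp [ev, hki]
    rw [e, e] at h
    simp only [map_smul, LinearMap.smul_apply, smul_eq_mul] at h
    exact mul_right_cancel₀ hij (by linear_combination h)
  set i0 : Fin n := ⟨0, by omega⟩
  set i1 : Fin n := ⟨1, by omega⟩
  set i2 : Fin n := ⟨2, by omega⟩
  set i3 : Fin n := ⟨3, by omega⟩
  have d0 : dg ζ i0 = ζ := rfl
  have d1 : dg ζ i1 = ζ := rfl
  have d2 : dg ζ i2 = (ζ ^ 2)⁻¹ := rfl
  have d3 : dg ζ i3 = 1 := rfl
  by_cases h5 : r = 3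
  · subst h5
    have h3 : ζ ^ 3 = 1 := hζ ▸ pow_orderOf_eq_one ζ
    have hinv : (ζ ^ 2)⁻¹ = ζ := inv_eq_of_mul_eq_one_right (by rw [← pow_succ]; exact h3)
    have hd : ∀ i : Fin n, ((i : ℕ) < 3 → dg ζ i = ζ) ∧ (3 ≤ (i : ℕ) → dg ζ i = 1) := by
      intro i
      refine ⟨fun h => ?_, fun h => ?_⟩
      · unfold dg
        split_ifs with a b
        · rfl
        · exact hinv
        · omega
      · unfold dg
        rw [if_neg (by omega), if_neg (by omega)]
    have h1 : ζ ≠ 1 := fun h => by
      have := hk 1 (by rw [pow_one, h]); norm_num at this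
    have hμ : μ = ζ := by
      obtain ⟨j, hj⟩ := exists_ne B hN (ev i0) (ev_ne_zero _)
      have hj' := hpat _ _ hj
      rw [d0] at hj'
      rcases lt_or_ge (j : ℕ) 3 with h | h
      · rw [(hd j).1 h] at hj'
        exfalso
        obtain ⟨k, hk'⟩ := exists_ne B hN (ev i3) (ev_ne_zero _)
        have hk'' := hpat _ _ hk'
        rw [d3, one_mul, ← hj'] at hk''
        rcases lt_or_ge (k : ℕ) 3 with h' | h'
        · rw [(hd k).1 h'] at hk''
          exact h1 (mul_left_cancel₀ hζ0 (by rw [mul_one]; exact hk''.symm))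
        · rw [(hd k).2 h'] at hk''
          have := hk 2 (by rw [pow_two]; exact hk''.symm)
          norm_num at this
      · rw [(hd j).2 h, mul_one] at hj'
        exact hj'.symm
    subst hμ
    -- the two eigenspaces are paired, so have equal dimension
    have key : ∀ (a b : Fin n → Prop) [DecidablePred a] [DecidablePred b],
        (∀ i j, a i → B (ev i) (ev j) ≠ 0 → b j) →
        Fintype.card {i // a i} ≤ Fintype.card {i // b i} := by
      intro a b _ _ hab
      let L : ({i // a i} → F) →ₗ[F] ({i // b i} → F) :=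
        LinearMap.pi fun j => ((B).flip (ev j.1)).comp
          (Fintype.linearCombination F fun i : {i // a i} => (ev i.1 : VV))
      have hL : Function.Injective L := by
        rw [injective_iff_map_eq_zero]
        intro c hc
        have hw : ∀ j, B (Fintype.linearCombination F (fun i : {i // a i} => (ev i.1 : VV)) c) (ev j) = 0 := by
          intro j
          by_cases hb : b j
          · exact congrFun hc ⟨j, hb⟩
          · rw [Fintype.linearCombination_apply, map_sum, LinearMap.sum_apply]
            refine Finset.sum_eq_zero fun i _ => ?_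
            rw [map_smul, LinearMap.smul_apply]
            have : B (ev i.1) (ev j) = 0 := by
              by_contra hne
              exact hb (hab _ _ i.2 hne)
            rw [this, smul_zero]
        have h0 : Fintype.linearCombination F (fun i : {i // a i} => (ev i.1 : VV)) c = 0 := by
          by_contra hne
          obtain ⟨j, hj⟩ := exists_ne B hN _ hne
          exact hj (hw j)
        funext i
        have := congrFun h0 i.1
        rw [Fintype.linearCombination_apply, Finset.sum_apply] at this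
        simpa [ev, Pi.single_apply, Subtype.val_inj] using this
      have := LinearMap.finrank_le_finrank_of_injective hL
      simpa [Module.finrank_fintype_fun_eq_card] using this
    have hA' := key (fun i => (i : ℕ) < 3) (fun i => 3 ≤ (i : ℕ)) (fun i j hi hij => by
      by_contra hj
      have := hpat _ _ hij
      rw [(hd i).1 hi, (hd j).1 (by omega)] at this
      exact h1 (mul_left_cancel₀ hζ0 (by rw [mul_one]; exact this)))
    have hB' := key (fun i => 3 ≤ (i : ℕ)) (fun i => (i : ℕ) < 3) (fun i j hi hij => by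
      by_contra hj
      have := hpat _ _ hij
      rw [(hd i).2 hi, (hd j).2 (by omega), one_mul] at this
      exact h1 this.symm)
    have hlt : Fintype.card {i : Fin n // (i : ℕ) < 3} = 3 := by
      rw [Fintype.card_congr (⟨fun i => ⟨i.1.1, i.2⟩, fun i => ⟨⟨i.1, by omega⟩, i.2⟩, fun i => rfl,
        fun i => rfl⟩ : {i : Fin n // (i : ℕ) < 3} ≃ Fin 3), Fintype.card_fin]
    have hsum : Fintype.card {i : Fin n // 3 ≤ (i : ℕ)} = n - 3 := by
      have := Fintype.card_subtype_compl (fun i : Fin n => (i : ℕ) < 3)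
      simp only [not_lt, Fintype.card_fin, hlt] at this
      exact this
    exact hgap ⟨by omega, rfl⟩
  · have hr5 : 5 ≤ r := by
      rcases Nat.lt_or_ge r 5 with h | h
      · exfalso
        interval_cases r
        · exact h5 rfl
        · exact absurd hr (by norm_num)
      · exact h
    have hnk : ∀ k : ℕ, 0 < k → k < 5 → ζ ^ k ≠ 1 := fun k h0 h1 h => by
      have := Nat.le_of_dvd h0 (hk k h); omega
    have hcl : ∀ j : Fin n, dg ζ j = ζ ∨ j = i2 ∨ dg ζ j = 1 := by
      intro j
      unfold dg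
      split_ifs with a b
      · exact Or.inl rfl
      · exact Or.inr (Or.inl (Fin.ext b))
      · exact Or.inr (Or.inr rfl)
    obtain ⟨j, hj⟩ := exists_ne B hN (ev i2) (ev_ne_zero _)
    have hμ := hpat _ _ hj
    rw [d2] at hμ
    rcases hcl j with h | rfl | h
    · rw [h] at hμ
      -- rows 0 and 1 are supported in column 2 only
      have honly : ∀ i, dg ζ i = ζ → ∀ k, k ≠ i2 → B (ev i) (ev k) = 0 := by
        intro i hi k hk2
        by_contra hne
        have hk' := hpat _ _ hne
        rw [hi, ← hμ] at hk'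
        field_simp at hk'
        rcases hcl k with h' | h' | h'
        · rw [h'] at hk'
          exact hnk 3 (by norm_num) (by norm_num) (by linear_combination hk')
        · exact hk2 h'
        · rw [h'] at hk'
          exact hnk 2 (by norm_num) (by norm_num) (by linear_combination hk')
      set c0 := B (ev i0) (ev i2)
      set c1 := B (ev i1) (ev i2)
      have hw : ∀ k, B (c1 • ev i0 - c0 • ev i1) (ev k) = 0 := by
        intro k
        rw [map_sub, LinearMap.sub_apply, map_smul, map_smul, LinearMap.smul_apply,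
          LinearMap.smul_apply]
        rcases eq_or_ne k i2 with rfl | hk2
        · simp only [c0, c1, smul_eq_mul]; ring
        · rw [honly _ d0 k hk2, honly _ d1 k hk2]; simp
      have hw0 : c1 • ev i0 - c0 • ev i1 = (0 : VV) := by
        by_contra hne
        obtain ⟨k, hk'⟩ := exists_ne B hN _ hne
        exact hk' (hw k)
      have hc0 : c0 = 0 := by
        have := congrFun hw0 i1
        simpa [ev, i0, i1, Pi.single_apply, Fin.ext_iff] using this
      obtain ⟨k, hk'⟩ := exists_ne B hN (ev i0) (ev_ne_zero _)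
      rcases eq_or_ne k i2 with rfl | hk2
      · exact hk' hc0
      · exact hk' (honly _ d0 k hk2)
    · exact hj (hA _)
    · rw [h, mul_one] at hμ
      obtain ⟨k, hk'⟩ := exists_ne B hN (ev i0) (ev_ne_zero _)
      have hk'' := hpat _ _ hk'
      rw [d0, ← hμ] at hk''
      rcases hcl k with h' | rfl | h'
      · rw [h'] at hk''
        field_simp at hk''
        exact hnk 4 (by norm_num) (by norm_num) (by linear_combination hk'')
      · rw [d2] at hk''
        field_simp at hk''
        exact hnk 1 (by norm_num) (by norm_num) (by linear_combination hk'')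
      · rw [h', mul_one] at hk''
        field_simp at hk''
        exact hnk 3 (by norm_num) (by norm_num) (by linear_combination hk'')

/-- an isometry of an alternating form of order prime to `p` moves a space of even dimension -/
theorem even_range (B : LinearMap.BilinForm F VV) (hA : B.IsAlt) (hN : ∀ w, (∀ x, B w x = 0) → w = 0)
    (T : VV →ₗ[F] VV) (hT : ∀ u v, B (T u) (T v) = B u v) (r : ℕ) (hr : T ^ r = 1)
    (hr0 : (r : F) ≠ 0) : Even (Module.finrank F (LinearMap.range (T - 1))) := by
  set W := LinearMap.range (T - 1)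
  have hsurj : Function.Surjective T := by
    have hr' : r ≠ 0 := fun h => hr0 (by rw [h, Nat.cast_zero])
    intro v
    refine ⟨(T ^ (r - 1)) v, ?_⟩
    rw [← Module.End.mul_apply, ← pow_succ', Nat.sub_add_cancel (Nat.one_le_iff_ne_zero.mpr hr'), hr]
    rfl
  have hW : NondegOn B W := by
    intro w hw hw0
    by_contra hne
    push Not at hne
    apply hw0
    obtain ⟨v, hv⟩ := hw
    rw [LinearMap.sub_apply, Module.End.one_apply] at hv
    have hTw : T w = w := by
      have hd : ∀ x, B x (T w - w) = 0 := by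
        intro x
        obtain ⟨u, rfl⟩ := hsurj x
        have h1 : B (T u) w = B u w := by
          have := hne _ (⟨u, rfl⟩ : (T - 1) u ∈ W)
          rwa [LinearMap.sub_apply, Module.End.one_apply, map_sub, LinearMap.sub_apply, sub_eq_zero] at this
        rw [map_sub, hT, h1, sub_self]
      refine sub_eq_zero.mp (hN _ fun x => ?_)
      rw [← alt_neg hA x, hd, neg_zero]
    have hk : ∀ k : ℕ, (T ^ k) v = v + (k : F) • w := by
      intro k
      induction k with
      | zero => simp
      | succ k ih =>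
        rw [pow_succ', Module.End.mul_apply, ih, map_add, map_smul, hTw,
          show T v = v + w by rw [← hv]; abel, Nat.cast_succ, add_smul, one_smul]
        abel
    have h := hk r
    rw [hr, Module.End.one_apply, left_eq_add, smul_eq_zero] at h
    exact h.resolve_left hr0
  obtain ⟨m, e, h, -, -, -, hm⟩ := exists_hypFamily hA W hW
  exact ⟨m, by omega⟩

variable [Fintype F]

theorem exists_odd_range (o : ℕ) (ho : 0 < o) (ho' : o ≤ n) (p : ℕ) [Fact p.Prime] [CharP F p]
    (r : ℕ) (hr : r.Prime) (hro : r ∣ Fintype.card F ^ o - 1) :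
    ∃ X : Matrix (Fin n) (Fin n) F, X ^ r = 1 ∧
      Module.finrank F (LinearMap.range (Matrix.toLin' X - 1)) = o := by
  classical
  haveI : NeZero o := ⟨by omega⟩
  let K := FiniteField.Extension F p o
  have hdim : Module.finrank F K = o := FiniteField.finrank_extension F p o
  haveI : Fintype K := Fintype.ofFinite K
  haveI : FiniteDimensional F K := Module.Finite.of_finite
  haveI := Fact.mk hr
  have hcK : Fintype.card Kˣ = Fintype.card F ^ o - 1 := by
    rw [Fintype.card_units, Module.card_eq_pow_finrank (K := F) (V := K), hdim]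
  obtain ⟨ζ, hζ⟩ := exists_prime_orderOf_dvd_card r (hcK ▸ hro : r ∣ Fintype.card Kˣ)
  let b : Module.Basis (Fin o) F K := Module.finBasisOfFinrankEq F K hdim
  let π : VV →ₗ[F] K :=
    { toFun := fun v => ∑ i, v (Fin.castLE ho' i) • b i
      map_add' := fun u v => by simp [add_smul, Finset.sum_add_distrib]
      map_smul' := fun t u => by simp [smul_smul, Finset.smul_sum] }
  let ε : K →ₗ[F] VV :=
    { toFun := fun a => ∑ i, b.repr a i • (ev (Fin.castLE ho' i) : VV)
      map_add' := fun a c => by simp [add_smul, Finset.sum_add_distrib]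
      map_smul' := fun t a => by simp [smul_smul, Finset.smul_sum] }
  have hπε : ∀ a, π (ε a) = a := by
    intro a
    conv_rhs => rw [← b.sum_repr a]
    simp only [π, ε, LinearMap.coe_mk, AddHom.coe_mk, Finset.sum_apply, Pi.smul_apply, smul_eq_mul]
    refine Finset.sum_congr rfl fun i _ => ?_
    congr 1
    simp [ev, Pi.single_apply, (Fin.castLE_injective ho').eq_iff]
  let T : K → (VV →ₗ[F] VV) := fun c => LinearMap.id + ε.comp ((Algebra.lmul F K c - LinearMap.id).comp π)
  have hT : ∀ c v, T c v = v + ε (c * π v - π v) := fun c v => rfl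
  have hTmul : ∀ c d, T c * T d = T (c * d) := by
    intro c d
    refine LinearMap.ext fun v => ?_
    rw [Module.End.mul_apply, hT c, hT d, hT (c * d), map_add, hπε,
      show c * (π v + (d * π v - π v)) - (π v + (d * π v - π v)) = c * d * π v - d * π v by ring,
      map_sub, map_sub]
    simp only [map_sub]
    abel
  have hT1 : T 1 = 1 := LinearMap.ext fun v => by rw [hT, one_mul, sub_self, map_zero, add_zero]; rfl
  have hTpow : ∀ k : ℕ, T (ζ : K) ^ k = T ((ζ : K) ^ k) := by
    intro k
    induction k with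
    | zero => rw [pow_zero, pow_zero, hT1]
    | succ k ih => rw [pow_succ, ih, hTmul, pow_succ]
  refine ⟨LinearMap.toMatrix' (T (ζ : K)), ?_, ?_⟩
  · refine Matrix.toLin'.injective ?_
    have e : ∀ (A : Matrix (Fin n) (Fin n) F) (k : ℕ), Matrix.toLin' (A ^ k) = Matrix.toLin' A ^ k :=
      fun A k => map_pow Matrix.toLinAlgEquiv' A k
    rw [e, Matrix.toLin'_toMatrix', hTpow, ← Units.val_pow_eq_pow_val, ← hζ, pow_orderOf_eq_one,
      Units.val_one, hT1, Matrix.toLin'_one]
    rfl
  · rw [Matrix.toLin'_toMatrix']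
    have hrange : LinearMap.range (T (ζ : K) - 1) = LinearMap.range ε := by
      apply le_antisymm
      · rintro _ ⟨v, rfl⟩
        exact ⟨_, (show ε ((ζ : K) * π v - π v) = T (ζ : K) v - v by rw [hT, add_sub_cancel_left])⟩
      · rintro _ ⟨a, rfl⟩
        have hne : (ζ : K) - 1 ≠ 0 := fun h => by
          rw [sub_eq_zero, Units.val_eq_one] at h
          rw [h, orderOf_one] at hζ
          exact hr.ne_one hζ.symm
        refine ⟨ε (a / ((ζ : K) - 1)), ?_⟩
        rw [LinearMap.sub_apply, Module.End.one_apply, hT, add_sub_cancel_left, hπε]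
        congr 1
        rw [← sub_one_mul, mul_div_cancel₀ _ hne]
    rw [hrange, LinearMap.finrank_range_of_inj (Function.LeftInverse.injective hπε), hdim]

theorem odd_range_noForm (o : ℕ) (ho : Odd o) (T : VV →ₗ[F] VV) (r : ℕ) (hr : r.Prime)
    (hr0 : (r : F) ≠ 0) (hrq : ¬ r ∣ Fintype.card F - 1) (hT : T ^ r = 1)
    (hdim : Module.finrank F (LinearMap.range (T - 1)) = o) : NoForm T := by
  intro B hA hN μ hμ
  have hne : LinearMap.range (T - 1) ≠ ⊥ := fun h => by
    rw [h, finrank_bot] at hdim
    exact (Nat.not_odd_zero) (hdim ▸ ho)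
  obtain ⟨w, hw, hw0⟩ := Submodule.exists_mem_ne_zero_of_ne_bot hne
  obtain ⟨j, hj⟩ := exists_ne B hN w hw0
  have hμr := mu_pow B T μ hμ ⟨_, _, hj⟩ r hT
  have hμ1 : μ = 1 := by
    by_contra h
    haveI := Fact.mk hr
    have h' : μ ≠ 0 := fun h0 => by rw [h0, zero_pow hr.ne_zero] at hμr; exact zero_ne_one hμr
    exact hrq (orderOf_eq_prime hμr h ▸
      orderOf_dvd_of_pow_eq_one (FiniteField.pow_card_sub_one_eq_one μ h'))
  subst hμ1
  simp only [one_mul] at hμ
  have := even_range B hA hN T hμ r hT hr0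
  rw [hdim] at this
  exact (Nat.not_even_iff_odd.mpr ho) this

end CfsgLib.SympSim

namespace CfsgLib.SympSim

attribute [local instance] _root_.Classical.propDecidable

open Matrix CfsgLib.Classical

variable {F : Type*} [Field F] [Fintype F] {n : ℕ}

theorem index_cases (hn : 0 < n) (f : (Fin n → F) → (Fin n → F) → F) (hf : Cfsg.Geo.IsSymplecticForm f)
    (r : ℕ) (hr : r.Prime)
    (hΩ : r ∣ ((Cfsg.Geo.similarityGroup f).comap
      (Matrix.SpecialLinearGroup.toGL : Matrix.SpecialLinearGroup (Fin n) F →* GL (Fin n) F)).index) :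
    r ∣ Fintype.card F ∨ ∃ k, Odd k ∧ 3 ≤ k ∧ k ≤ n ∧ r ∣ Fintype.card F ^ k - 1 := by
  classical
  obtain ⟨m, b, hb, hm⟩ := exists_hypBasis (toBil_isAlt hf) ⊤ (nondegOn_top hf)
  rw [finrank_top, Module.finrank_fintype_fun_eq_card, Fintype.card_fin] at hm
  let c : Module.Basis (Fin m ⊕ Fin m) F (Fin n → F) := b.map Submodule.topEquiv
  let ψ : (Fin m ⊕ Fin m → F) ≃ₗ[F] (Fin n → F) := c.equivFun.symm
  have hψ : ∀ u v, f (ψ u) (ψ v) = - Cfsg.sympForm m F u v := by
    intro u v
    have hBA := toBil_isAlt hf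
    have e : (toBil hf.bilinear).compl₁₂ ψ.toLinearMap ψ.toLinearMap =
        - toBil (isSymplecticForm_sympForm (F := F) (m := m)).bilinear := by
      refine LinearMap.BilinForm.ext_basis (Pi.basisFun F (Fin m ⊕ Fin m)) fun s t => ?_
      have hs : ∀ s, ψ (Pi.basisFun F _ s) = c s := fun s => by
        simp [ψ, Module.Basis.equivFun_symm_apply, Pi.single_apply]
      show (toBil hf.bilinear) (ψ _) (ψ _) = - Cfsg.sympForm m F _ _
      rw [hs, hs]
      show (toBil hf.bilinear) (b s : Fin n → F) (b t : Fin n → F) = _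
      rcases s with i | i <;> rcases t with j | j
      · rw [hb.ee]; simp [sympForm_apply, Pi.single_apply]
      · rw [hb.eh]; simp [sympForm_apply, Pi.single_apply, eq_comm]
      · rw [← alt_neg hBA, hb.eh]; simp [sympForm_apply, Pi.single_apply, eq_comm]
      · rw [hb.hh]; simp [sympForm_apply, Pi.single_apply]
    exact LinearMap.congr_fun₂ e u v
  let H := (Cfsg.Geo.similarityGroup f).comap
      (Matrix.SpecialLinearGroup.toGL : Matrix.SpecialLinearGroup (Fin n) F →* GL (Fin n) F)
  let T : Matrix.symplecticGroup (Fin m) F → ((Fin n → F) →ₗ[F] (Fin n → F)) :=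
    fun g => (ψ.toLinearMap.comp (Matrix.toLin' g.1)).comp ψ.symm.toLinearMap
  have hT : ∀ g u, T g u = ψ (g.1 *ᵥ ψ.symm u) := fun g u => rfl
  let Φ : Matrix.symplecticGroup (Fin m) F →* Matrix.SpecialLinearGroup (Fin n) F :=
    MonoidHom.mk' (fun g => ⟨LinearMap.toMatrix' (T g), by
        rw [LinearMap.det_toMatrix']
        show LinearMap.det ((ψ.toLinearMap.comp (Matrix.toLin' g.1)).comp ψ.symm.toLinearMap) = 1
        rw [LinearMap.comp_assoc, LinearMap.det_conj, LinearMap.det_toLin', SymplecticGroup.det_eq_one g.2]⟩)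
      (fun g h => Subtype.ext (by
        show LinearMap.toMatrix' (T (g * h)) = LinearMap.toMatrix' (T g) * LinearMap.toMatrix' (T h)
        rw [← LinearMap.toMatrix'_mul]
        congr 1
        refine LinearMap.ext fun u => ?_
        rw [Module.End.mul_apply, hT, hT, hT, LinearEquiv.symm_apply_apply, mulVec_mulVec]
        rfl))
  have hΦi : Function.Injective Φ := by
    intro g h hgh
    have e : T g = T h := LinearMap.toMatrix'.injective (congrArg Subtype.val hgh)
    refine Subtype.ext (Matrix.ext_iff_mulVec.mpr fun v => ?_)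
    have := LinearMap.congr_fun e (ψ v)
    rw [hT, hT, LinearEquiv.symm_apply_apply] at this
    exact ψ.injective this
  have hΦH : Φ.range ≤ H := by
    rintro _ ⟨g, rfl⟩
    refine ⟨1, fun u v => ?_⟩
    show f (LinearMap.toMatrix' (T g) *ᵥ u) (LinearMap.toMatrix' (T g) *ᵥ v) = _
    rw [LinearMap.toMatrix'_mulVec, LinearMap.toMatrix'_mulVec, hT, hT, hψ,
      CfsgLib.SpPar.apply_form, ← hψ, LinearEquiv.apply_symm_apply, LinearEquiv.apply_symm_apply,
      Units.val_one, one_mul]
  set q := Fintype.card F with hq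
  have hdvd : Nat.card (Matrix.symplecticGroup (Fin m) F) ∣ Nat.card H := by
    rw [Nat.card_congr (MonoidHom.ofInjective hΦi).toEquiv]
    exact Subgroup.card_dvd_of_le hΦH
  obtain ⟨X, hX⟩ := hdvd
  have hcard := Subgroup.card_mul_index H
  haveI : Nonempty (Fin n) := ⟨⟨0, hn⟩⟩
  have hgl := card_units_mul_card_sl (ι := Fin n) (F := F)
  rw [← hcard, hX, CfsgLib.SpPar.card_symplectic q rfl, Matrix.card_GL_field, ← hq] at hgl
  have hden : ∏ i : Fin n, (q ^ n - q ^ i.val) =
      (∏ i ∈ Finset.range n, q ^ i) * ∏ i ∈ Finset.range n, (q ^ (i + 1) - 1) := by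
    rw [Fin.prod_univ_eq_prod_range (fun i => q ^ n - q ^ i) n]
    conv_rhs => rw [← Finset.prod_range_reflect (fun i => q ^ (i + 1) - 1) n]
    rw [← Finset.prod_mul_distrib]
    refine Finset.prod_congr rfl fun i hi => ?_
    rw [Finset.mem_range] at hi
    rw [Nat.mul_sub, mul_one, ← pow_add]
    congr 2
    omega
  have hsplit : ∀ k, ∏ i ∈ Finset.range (2 * k), (q ^ (i + 1) - 1) =
      (∏ i ∈ Finset.range k, (q ^ (2 * i + 1) - 1)) * ∏ i ∈ Finset.range k, (q ^ (2 * (i + 1)) - 1) := by
    intro k
    induction k with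
    | zero => simp
    | succ k ih =>
      rw [show 2 * (k + 1) = 2 * k + 1 + 1 by ring, Finset.prod_range_succ, Finset.prod_range_succ, ih,
        Finset.prod_range_succ, Finset.prod_range_succ]
      ring_nf
  have hq1 : 1 < q := Fintype.one_lt_card
  have hpos : ∀ k, 0 < k → 0 < q ^ k - 1 := fun k hk => by
    have : 1 < q ^ k := Nat.one_lt_pow hk.ne' hq1
    omega
  obtain ⟨m', rfl⟩ : ∃ m', m = m' + 1 := ⟨m - 1, by omega⟩
  subst hm
  rw [hden, hsplit, Finset.prod_range_succ' (fun i => q ^ (2 * i + 1) - 1)] at hgl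
  have hP : 0 < ∏ i ∈ Finset.range (m' + 1), (q ^ (2 * (i + 1)) - 1) :=
    Finset.prod_pos fun i _ => hpos _ (by omega)
  have h2 : (q ^ ((m' + 1) ^ 2) * X) * H.index =
      (∏ i ∈ Finset.range (2 * (m' + 1)), q ^ i) *
        ∏ i ∈ Finset.range m', (q ^ (2 * (i + 1) + 1) - 1) := by
    refine Nat.eq_of_mul_eq_mul_right (Nat.mul_pos (hpos 1 one_pos) hP) ?_
    simp only [mul_zero, zero_add, pow_one] at hgl ⊢
    linear_combination hgl
  have h3 : r ∣ (∏ i ∈ Finset.range (2 * (m' + 1)), q ^ i) *
      ∏ i ∈ Finset.range m', (q ^ (2 * (i + 1) + 1) - 1) :=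
    h2 ▸ (hΩ.trans (dvd_mul_left _ _))
  rcases hr.prime.dvd_or_dvd h3 with h | h
  · obtain ⟨i, -, hi⟩ := (hr.prime.dvd_finsetProd_iff _).mp h
    exact Or.inl (hr.dvd_of_dvd_pow hi)
  · obtain ⟨i, hi, hi'⟩ := (hr.prime.dvd_finsetProd_iff _).mp h
    rw [Finset.mem_range] at hi
    exact Or.inr ⟨_, ⟨i + 1, rfl⟩, by omega, by omega, hi'⟩

theorem exists_noForm (hn : 4 ≤ n) (f : (Fin n → F) → (Fin n → F) → F) (hf : Cfsg.Geo.IsSymplecticForm f)
    (p : ℕ) [Fact p.Prime] [CharP F p] (r : ℕ) [Fact r.Prime] (hr2 : r ≠ 2)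
    (hgap : ¬ (n = 6 ∧ r = 3))
    (hΩ : r ∣ ((Cfsg.Geo.similarityGroup f).comap
      (Matrix.SpecialLinearGroup.toGL : Matrix.SpecialLinearGroup (Fin n) F →* GL (Fin n) F)).index) :
    ∃ X : Matrix (Fin n) (Fin n) F, X.det = 1 ∧ X ^ r = 1 ∧ (∀ z : F, X ≠ z • 1) ∧
      NoForm (Matrix.toLin' X) := by
  have hr : r.Prime := Fact.out
  have e : ∀ (A : Matrix (Fin n) (Fin n) F) (k : ℕ), Matrix.toLin' (A ^ k) = Matrix.toLin' A ^ k :=
    fun A k => map_pow Matrix.toLinAlgEquiv' A k
  have hp : p.Prime := Fact.out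
  by_cases hrp : r = p
  · subst hrp
    let N : Matrix (Fin n) (Fin n) F :=
      Matrix.single ⟨0, by omega⟩ ⟨1, by omega⟩ 1 + Matrix.single ⟨1, by omega⟩ ⟨2, by omega⟩ 1
    have hX : unip (F := F) hn = 1 + N := by rw [unip, add_assoc]
    have hN3 : N ^ 3 = 0 := by
      simp [N, pow_succ, Matrix.add_mul, Matrix.mul_add, Matrix.single_mul_single_of_ne, Fin.ext_iff]
    have hpow : unip (F := F) hn ^ r = 1 := by
      haveI : Nonempty (Fin n) := ⟨⟨0, by omega⟩⟩
      rw [hX, add_pow_char_of_commute r (Commute.one_left N), one_pow, add_eq_left]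
      have : 3 ≤ r := by have := hr.two_le; omega
      rw [show r = 3 + (r - 3) by omega, pow_add, hN3, zero_mul]
    refine ⟨unip hn, ?_, hpow, ?_, unip_noForm hn r ?_⟩
    · have ht : Matrix.BlockTriangular (unip (F := F) hn) id := by
        intro i j hij
        simp only [id] at hij
        simp [unip, Matrix.one_apply, Matrix.single_apply, Fin.ext_iff]
        have : (j : ℕ) < (i : ℕ) := hij
        split_ifs <;> first | omega | simp
      rw [Matrix.det_of_upperTriangular ht]
      refine Finset.prod_eq_one fun i _ => ?_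
      simp [unip, Matrix.single_apply, Fin.ext_iff]
      rw [if_neg (by omega), if_neg (by omega), add_zero, add_zero]
    · intro z hz
      have := congrFun (congrFun hz ⟨0, by omega⟩) ⟨1, by omega⟩
      simp [unip, Matrix.single_apply, Fin.ext_iff] at this
    · rw [← e, hpow, Matrix.toLin'_one]; rfl
  have hrq : ¬ r ∣ Fintype.card F := by
    obtain ⟨k, hp', hk⟩ := FiniteField.card F p
    rw [hk]
    exact fun h => hrp ((Nat.prime_dvd_prime_iff_eq hr hp').mp (hr.dvd_of_dvd_pow h))
  have hr0 : (r : F) ≠ 0 := fun h =>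
    hrp ((Nat.prime_dvd_prime_iff_eq hp hr).mp ((CharP.cast_eq_zero_iff F p r).mp h)).symm
  by_cases h1 : r ∣ Fintype.card F - 1
  · obtain ⟨ζ, hζ⟩ := exists_prime_orderOf_dvd_card r
      (show r ∣ Fintype.card Fˣ by rwa [Fintype.card_units])
    have hζ' : orderOf (ζ : F) = r := by rw [orderOf_units, hζ]
    refine ⟨Matrix.diagonal (dg (n := n) (ζ : F)), ?_, ?_, ?_, diag_noForm hn _ r hr hr2 hgap hζ'⟩
    · rw [Matrix.det_diagonal, ← Finset.prod_subset (s₁ := ({⟨0, by omega⟩, ⟨1, by omega⟩, ⟨2, by omega⟩} : Finset (Fin n))) (Finset.subset_univ _)]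
      · simp [Fin.ext_iff, dg]
        rw [← mul_assoc, ← pow_two, mul_inv_cancel₀ (pow_ne_zero 2 ζ.ne_zero)]
      · intro i _ hi
        simp [Fin.ext_iff] at hi
        unfold dg
        rw [if_neg (by omega), if_neg (by omega)]
    · rw [Matrix.diagonal_pow]
      rw [← Matrix.diagonal_one]
      congr 1
      funext i
      have hz : (ζ : F) ^ r = 1 := hζ' ▸ pow_orderOf_eq_one _
      simp only [Pi.pow_apply, dg]
      split_ifs
      · exact hz
      · rw [inv_pow, ← pow_mul, mul_comm, pow_mul, hz, one_pow, inv_one]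
      · exact one_pow _
    · intro z hz
      have h0 := congrFun (congrFun hz ⟨0, by omega⟩) ⟨0, by omega⟩
      have h3 := congrFun (congrFun hz ⟨3, by omega⟩) ⟨3, by omega⟩
      simp [dg] at h0 h3
      rw [← h3] at h0
      rw [h0, orderOf_one] at hζ'
      exact hr.ne_one hζ'.symm
  obtain h | ⟨k, hk, hk3, hkn, hkd⟩ := index_cases (by omega) f hf r hr hΩ
  · exact absurd h hrq
  haveI := Fact.mk hr
  set o := orderOf (Fintype.card F : ZMod r)
  have hcast : ∀ s, r ∣ Fintype.card F ^ s - 1 ↔ (Fintype.card F : ZMod r) ^ s = 1 := by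
    intro s
    rw [← ZMod.natCast_eq_zero_iff, Nat.cast_sub (Nat.one_le_pow _ _ Fintype.card_pos)]
    push_cast
    exact sub_eq_zero
  have hok : o ∣ k := orderOf_dvd_of_pow_eq_one ((hcast k).mp hkd)
  have hodd : Odd o := Odd.of_dvd_nat hk hok
  have hon : o ≤ n := (Nat.le_of_dvd (by omega) hok).trans hkn
  obtain ⟨X, hXr, hXdim⟩ := exists_odd_range (F := F) o hodd.pos hon p r hr
    ((hcast o).mpr (pow_orderOf_eq_one _))
  have hT : Matrix.toLin' X ^ r = 1 := by rw [← e, hXr, Matrix.toLin'_one]; rfl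
  have huniq : ∀ z : F, z ^ r = 1 → z = 1 := by
    intro z hz
    by_contra h
    have h' : z ≠ 0 := fun h0 => by rw [h0, zero_pow hr.ne_zero] at hz; exact zero_ne_one hz
    exact h1 (orderOf_eq_prime hz h ▸ orderOf_dvd_of_pow_eq_one (FiniteField.pow_card_sub_one_eq_one z h'))
  refine ⟨X, huniq _ (by rw [← Matrix.det_pow, hXr, Matrix.det_one]), hXr, fun z hz => ?_,
    odd_range_noForm o hodd _ r hr hr0 h1 hT hXdim⟩
  have hz1 : z = 1 := huniq z (by
    have := congrFun (congrFun hXr ⟨0, by omega⟩) ⟨0, by omega⟩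
    rw [hz, smul_pow, one_pow] at this
    simpa using this)
  rw [hz, hz1, one_smul, Matrix.toLin'_one, show (LinearMap.id : (Fin n → F) →ₗ[F] Fin n → F) = 1 from rfl,
    sub_self, LinearMap.range_zero, finrank_bot] at hXdim
  have := hodd.pos
  omega

end CfsgLib.SympSim
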