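import Mathlib

/-! A square matrix over a field is similar to its transpose. -/

set_option autoImplicit false

namespace CfsgLib.Transpose

open Polynomial Module
open scoped DirectSum

variable {F : Type*} [Field F]

/-- A nondegenerate functional on a truncated local polynomial ring. -/
theorem exists_functional {p : F[X]} (hp : Irreducible p) (e : ℕ) :
    ∃ l : (F[X] ⧸ F[X] ∙ p ^ e) →ₗ[F] F,
      ∀ a : F[X] ⧸ F[X] ∙ p ^ e, a ≠ 0 → ∃ b, l (a * b) ≠ 0 := by
  classical
  rcases e with _ | e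
  · refine ⟨0, fun a ha => absurd ?_ ha⟩
    obtain ⟨f, rfl⟩ := Submodule.Quotient.mk_surjective _ a
    exact (Submodule.Quotient.mk_eq_zero _).2 (Submodule.mem_span_singleton.2 ⟨f, by simp⟩)
  let mk : F[X] → F[X] ⧸ F[X] ∙ p ^ (e + 1) := fun f => Ideal.Quotient.mk _ f
  have hz : mk (p ^ e) ≠ 0 := by
    intro h
    have h1 := Ideal.mem_span_singleton.1 (Ideal.Quotient.eq_zero_iff_mem.1 h)
    have h2 := (pow_dvd_pow_iff hp.ne_zero hp.not_isUnit).1 h1
    omega
  obtain ⟨l, hl⟩ : ∃ l : (F[X] ⧸ F[X] ∙ p ^ (e + 1)) →ₗ[F] F, l (mk (p ^ e)) ≠ 0 := by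
    by_contra! h
    exact hz ((Module.forall_dual_apply_eq_zero_iff F _).1 h)
  refine ⟨l, fun a ha => ?_⟩
  obtain ⟨f, rfl⟩ := Ideal.Quotient.mk_surjective a
  have hf0 : f ≠ 0 := fun h => ha (by rw [h, map_zero])
  obtain ⟨k, u, hu, rfl⟩ := WfDvdMonoid.max_power_factor hf0 hp
  have hk : k ≤ e := by
    by_contra hk
    exact ha (Ideal.Quotient.eq_zero_iff_mem.2 (Ideal.mem_span_singleton.2 (Dvd.dvd.mul_right (pow_dvd_pow p (by omega)) u)))
  obtain ⟨s, t, hst⟩ : IsCoprime u (p ^ (e + 1)) := ((hp.coprime_iff_not_dvd.2 hu).symm).pow_right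
  refine ⟨Ideal.Quotient.mk _ (p ^ (e - k) * s), ?_⟩
  rw [← map_mul]
  have heq : Ideal.Quotient.mk (F[X] ∙ p ^ (e + 1)) (p ^ k * u * (p ^ (e - k) * s)) = mk (p ^ e) := by
    refine Ideal.Quotient.eq.2 (Ideal.mem_span_singleton.2 ⟨- (t * p ^ e), ?_⟩)
    have h3 : p ^ k * p ^ (e - k) = p ^ e := by rw [← pow_add, Nat.add_sub_cancel' hk]
    linear_combination p ^ e * hst + (u * s) * h3
  rw [heq]; exact hl

/-- A nondegenerate bilinear form for which an endomorphism is self-adjoint. -/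
theorem exists_selfAdjoint_form {V : Type*} [AddCommGroup V] [Module F V] [FiniteDimensional F V] (f : Module.End F V) :
    ∃ B : V →ₗ[F] V →ₗ[F] F, (∀ x y, B (f x) y = B x (f y)) ∧ ∀ x, (∀ y, B x y = 0) → x = 0 := by
  classical
  obtain ⟨ι, _, p, hp, e, ⟨φ⟩⟩ :=
    Module.equiv_directSum_of_isTorsion (R := F[X]) (M := Module.AEval' f) (Module.AEval.isTorsion_of_finiteDimensional F V f)
  choose l hl using fun i => exists_functional (hp i) (e i)
  let ψ : ∀ i, V →ₗ[F] F[X] ⧸ F[X] ∙ p i ^ e i := fun i =>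
    ((DirectSum.component F[X] ι (fun i => F[X] ⧸ F[X] ∙ p i ^ e i) i).comp φ.toLinearMap).restrictScalars F ∘ₗ (Module.AEval'.of f).toLinearMap
  have hψ : ∀ i x, ψ i (f x) = Ideal.Quotient.mk _ X * ψ i x := by
    intro i x
    show DirectSum.component F[X] ι _ i (φ (Module.AEval'.of f (f x))) = _
    rw [← Module.AEval'.X_smul_of, map_smul, map_smul, Algebra.smul_def]
    rfl
  let B : V →ₗ[F] V →ₗ[F] F := ∑ i, ((LinearMap.mul F (F[X] ⧸ F[X] ∙ p i ^ e i)).compl₁₂ (ψ i) (ψ i)).compr₂ (l i)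
  have hB : ∀ x y, B x y = ∑ i, l i (ψ i x * ψ i y) := fun x y => by simp [B]
  refine ⟨B, fun x y => ?_, fun x hx => ?_⟩
  · rw [hB, hB]
    exact Finset.sum_congr rfl fun i _ => by rw [hψ, hψ, mul_assoc, mul_left_comm]
  · suffices h : ∀ i, ψ i x = 0 by
      have h1 : φ (Module.AEval'.of f x) = 0 := DirectSum.ext_component F[X] fun i => by rw [map_zero]; exact h i
      rwa [map_eq_zero_iff φ φ.injective, map_eq_zero_iff _ (Module.AEval'.of f).injective] at h1
    intro i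
    by_contra hi
    obtain ⟨b, hb⟩ := hl i _ hi
    let y : V := (Module.AEval'.of f).symm (φ.symm (DirectSum.lof F[X] ι (fun i => F[X] ⧸ F[X] ∙ p i ^ e i) i b))
    have hy : ∀ j, ψ j y = DirectSum.component F[X] ι _ j (DirectSum.lof F[X] ι (fun i => F[X] ⧸ F[X] ∙ p i ^ e i) i b) := fun j => by
      simp [ψ, y]
    have h2 := hx y
    rw [hB, Finset.sum_eq_single i] at h2
    · rw [hy, DirectSum.component.lof_self] at h2; exact hb h2
    · intro j _ hj
      rw [hy, DirectSum.component.of, dif_neg (Ne.symm hj), mul_zero, map_zero]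
    · simp

theorem isConj_transpose {n : Type*} [Fintype n] [DecidableEq n] (A : Matrix n n F) : IsConj A A.transpose := by
  obtain ⟨B, hB, hB'⟩ := exists_selfAdjoint_form (Matrix.toLin' A)
  set P := LinearMap.toMatrix₂' F B with hP
  have hdet : P.det ≠ 0 := by
    intro h
    obtain ⟨v, hv0, hv⟩ := Matrix.exists_vecMul_eq_zero_iff.2 h
    refine hv0 (hB' v fun y => ?_)
    have h1 : Matrix.toLinearMap₂' F P = B := Matrix.toLinearMap₂'_toMatrix' B
    rw [← h1, Matrix.toLinearMap₂'_apply', Matrix.dotProduct_mulVec, hv, zero_dotProduct]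
  refine ⟨Matrix.GeneralLinearGroup.mkOfDetNeZero P hdet, ?_⟩
  show P * A = A.transpose * P
  have h2 : B.comp (Matrix.toLin' A) = B.compl₂ (Matrix.toLin' A) := LinearMap.ext fun x => LinearMap.ext fun y => hB x y
  have h3 := congrArg (LinearMap.toMatrix₂' F) h2
  rw [LinearMap.toMatrix₂'_comp, LinearMap.toMatrix₂'_compl₂, LinearMap.toMatrix'_toLin'] at h3
  exact h3.symm

end CfsgLib.Transpose
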