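import Cfsg.Prelude.Def_ClassicalGeometry
import Cfsg.Agent.Lib.ClassicalTransvec
import Mathlib

/-! Classes and centralisers of transvections. -/

set_option autoImplicit false

namespace CfsgLib.TransvecClass

open Matrix Module

variable {F : Type*} [Field F] {n : ℕ}

theorem exists_vec {M : Matrix (Fin n) (Fin n) F} (h : Cfsg.IsTransvection M) :
    ∃ a φ : Fin n → F, a ≠ 0 ∧ φ ≠ 0 ∧ φ ⬝ᵥ a = 0 ∧ M = 1 + vecMulVec a φ := by
  obtain ⟨h1, h2⟩ := h
  obtain ⟨⟨a, ha⟩, ha0, hspan⟩ := finrank_eq_one_iff'.1 (show finrank F (LinearMap.range (M - 1).mulVecLin) = 1 from h1)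
  have hc : ∀ j, ∃ c : F, c • a = (M - 1).col j := by
    intro j
    obtain ⟨c, hc⟩ := hspan ⟨(M - 1).col j, ⟨Pi.single j 1, (mulVecLin_apply _ _).trans (mulVec_single_one _ _)⟩⟩
    exact ⟨c, congrArg Subtype.val hc⟩
  choose φ hφ using hc
  have hM : M - 1 = vecMulVec a φ := by
    ext i j
    have := congrFun (hφ j) i
    rw [Pi.smul_apply, col_apply, smul_eq_mul] at this
    rw [← this, vecMulVec_apply, mul_comm]
  have ha' : a ≠ 0 := fun e => ha0 (Subtype.ext e)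
  have hne : M - 1 ≠ 0 := fun e => by simp [e] at h1
  have hφ0 : φ ≠ 0 := fun e => hne (by rw [hM, e]; simp)
  refine ⟨a, φ, ha', hφ0, ?_, by rw [← hM, add_sub_cancel]⟩
  rw [hM, vecMulVec_mul_vecMulVec] at h2
  obtain ⟨i, hi⟩ := Function.ne_iff.1 ha'
  obtain ⟨j, hj⟩ := Function.ne_iff.1 hφ0
  have := congrFun (congrFun h2 i) j
  simp [vecMulVec_apply] at this
  rcases this with e | e | e
  · exact absurd e hi
  · exact e
  · exact absurd e hj

theorem isTransvection_vec {a φ : Fin n → F} (ha : a ≠ 0) (hφ : φ ≠ 0) (h : φ ⬝ᵥ a = 0) :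
    Cfsg.IsTransvection (1 + vecMulVec a φ) := by
  refine ⟨?_, ?_⟩ <;> rw [add_sub_cancel_left]
  · refine le_antisymm (rank_vecMulVec_le a φ) (Nat.one_le_iff_ne_zero.2 fun h0 => ?_)
    obtain ⟨i, hi⟩ := Function.ne_iff.1 ha
    obtain ⟨j, hj⟩ := Function.ne_iff.1 hφ
    have h1 : LinearMap.range (vecMulVec a φ).mulVecLin = ⊥ := Submodule.finrank_eq_zero.1 h0
    have h2 := congrFun (LinearMap.congr_fun (LinearMap.range_eq_bot.1 h1) (Pi.single j 1)) i
    simp [mulVec_single, vecMulVec_apply] at h2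
    exact h2.elim hi hj
  · simp [vecMulVec_mul_vecMulVec, h]

/-- Standard coordinates for an incident vector and functional. -/
theorem exists_std {a φ : Fin n → F} (ha : a ≠ 0) (hφ : φ ≠ 0) (h : φ ⬝ᵥ a = 0) :
    ∃ e : (Fin n → F) ≃ₗ[F] (F × F) × (Fin (n - 2) → F), e a = ((1, 0), 0) ∧ ∀ x, (e x).1.2 = φ ⬝ᵥ x := by
  classical
  obtain ⟨i, hi⟩ := Function.ne_iff.1 hφ
  obtain ⟨j, hj⟩ := Function.ne_iff.1 ha
  set b : Fin n → F := Pi.single i (φ i)⁻¹
  have hb : φ ⬝ᵥ b = 1 := by simp [b, mul_inv_cancel₀ hi]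
  set ψ₀ : Fin n → F := Pi.single j (a j)⁻¹
  have hψ₀ : ψ₀ ⬝ᵥ a = 1 := by simp [ψ₀, inv_mul_cancel₀ hj]
  set ψ : Fin n → F := ψ₀ - (ψ₀ ⬝ᵥ b) • φ
  have hψa : ψ ⬝ᵥ a = 1 := by simp [ψ, sub_dotProduct, hψ₀, h]
  have hψb : ψ ⬝ᵥ b = 0 := by simp [ψ, sub_dotProduct, hb]
  let T : (Fin n → F) →ₗ[F] F × F := (dotProductBilin F F ψ).prod (dotProductBilin F F φ)
  have hT : ∀ x, T x = (ψ ⬝ᵥ x, φ ⬝ᵥ x) := fun x => rfl
  have hTs : LinearMap.range T = ⊤ := LinearMap.range_eq_top.2 fun p =>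
    ⟨p.1 • a + p.2 • b, by simp [hT, dotProduct_add, hψa, hψb, h, hb]⟩
  have hK : finrank F (LinearMap.ker T) = n - 2 := by
    have := LinearMap.finrank_range_add_finrank_ker T
    rw [hTs, finrank_top, finrank_prod, finrank_self, finrank_fintype_fun_eq_card, Fintype.card_fin] at this
    omega
  let κ : LinearMap.ker T ≃ₗ[F] (Fin (n - 2) → F) := LinearEquiv.ofFinrankEq _ _ (by simp [hK])
  let pr : (Fin n → F) →ₗ[F] LinearMap.ker T :=
    LinearMap.codRestrict _ (LinearMap.id - (LinearMap.fst F F F ∘ₗ T).smulRight a - (LinearMap.snd F F F ∘ₗ T).smulRight b) fun x => by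
      simp [LinearMap.mem_ker, hT, dotProduct_sub, hψa, hψb, h, hb]
  let e : (Fin n → F) →ₗ[F] (F × F) × (Fin (n - 2) → F) := T.prod (κ.toLinearMap ∘ₗ pr)
  have he : Function.Injective e := by
    rw [← LinearMap.ker_eq_bot, LinearMap.ker_eq_bot']
    intro x hx
    have h1 : T x = 0 := congrArg Prod.fst hx
    have h2 : pr x = 0 := κ.injective (by rw [map_zero]; exact congrArg Prod.snd hx)
    have h3 := congrArg Subtype.val h2
    simpa [pr, h1] using h3
  have he' : Function.Surjective e := by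
    rintro ⟨p, k⟩
    refine ⟨p.1 • a + p.2 • b + (κ.symm k : Fin n → F), ?_⟩
    have hk : T (κ.symm k : Fin n → F) = 0 := LinearMap.mem_ker.1 (κ.symm k).2
    have h1 : T (p.1 • a + p.2 • b + (κ.symm k : Fin n → F)) = p := by
      rw [map_add, hk, add_zero]
      simp [hT, dotProduct_add, hψa, hψb, h, hb]
    refine Prod.ext h1 ?_
    show κ (pr _) = k
    rw [← LinearEquiv.eq_symm_apply]
    refine Subtype.ext ?_
    simp only [pr, LinearMap.codRestrict_apply, LinearMap.sub_apply, LinearMap.id_apply, LinearMap.smulRight_apply, LinearMap.comp_apply, h1, LinearMap.fst_apply, LinearMap.snd_apply]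
    abel
  refine ⟨LinearEquiv.ofBijective e ⟨he, he'⟩, ?_, fun x => rfl⟩
  have h1 : T a = (1, 0) := by simp [hT, hψa, h]
  refine Prod.ext h1 ?_
  show κ (pr a) = 0
  rw [map_eq_zero_iff κ κ.injective]
  refine Subtype.ext ?_
  simp [pr, h1]

/-- Transitivity on incident pairs, with any determinant when `n ≥ 3`. -/
theorem exists_gl {a φ a' φ' : Fin n → F} (ha : a ≠ 0) (hφ : φ ≠ 0) (h : φ ⬝ᵥ a = 0)
    (ha' : a' ≠ 0) (hφ' : φ' ≠ 0) (h' : φ' ⬝ᵥ a' = 0) :
    ∃ g : GL (Fin n) F, (g : Matrix (Fin n) (Fin n) F) *ᵥ a = a' ∧ φ' ᵥ* (g : Matrix (Fin n) (Fin n) F) = φ := by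
  obtain ⟨e, he, he2⟩ := exists_std ha hφ h
  obtain ⟨e', he', he2'⟩ := exists_std ha' hφ' h'
  let L := e.trans e'.symm
  have hL : ∀ x, φ' ⬝ᵥ L x = φ ⬝ᵥ x := fun x => by
    rw [← he2', ← he2 x]; simp [L]
  refine ⟨⟨LinearMap.toMatrix' L.toLinearMap, LinearMap.toMatrix' L.symm.toLinearMap, ?_, ?_⟩, ?_, ?_⟩
  · rw [← LinearMap.toMatrix'_comp]; simp
  · rw [← LinearMap.toMatrix'_comp]; simp
  · simp [LinearMap.toMatrix'_mulVec, L, he, ← he']
  · refine dotProduct_eq _ _ fun x => ?_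
    rw [← dotProduct_mulVec]
    simp [LinearMap.toMatrix'_mulVec, hL]

/-- An element fixing an incident pair with prescribed determinant. -/
theorem exists_fix (hn : 3 ≤ n) {a φ : Fin n → F} (ha : a ≠ 0) (hφ : φ ≠ 0) (h : φ ⬝ᵥ a = 0) {d : F} (hd : d ≠ 0) :
    ∃ g : GL (Fin n) F, (g : Matrix (Fin n) (Fin n) F) *ᵥ a = a ∧ φ ᵥ* (g : Matrix (Fin n) (Fin n) F) = φ ∧
      (g : Matrix (Fin n) (Fin n) F).det = d := by
  classical
  obtain ⟨e, he, he2⟩ := exists_std ha hφ h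
  let Δ : Matrix (Fin (n - 2)) (Fin (n - 2)) F := diagonal fun i : Fin (n - 2) => if (i : ℕ) = 0 then d else 1
  have hΔ : Δ.det = d := by
    rw [det_diagonal, Finset.prod_eq_single ⟨0, by omega⟩]
    · simp
    · intro i _ hi; rw [if_neg (fun e => hi (Fin.ext e))]
    · simp
  let P : (F × F) × (Fin (n - 2) → F) →ₗ[F] (F × F) × (Fin (n - 2) → F) := LinearMap.id.prodMap (toLin' Δ)
  let L : (Fin n → F) →ₗ[F] (Fin n → F) := (e.symm : _ →ₗ[F] _) ∘ₗ P ∘ₗ (e : _ →ₗ[F] _)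
  have hdet : (LinearMap.toMatrix' L).det = d := by
    rw [LinearMap.det_toMatrix', show L = (e.symm : _ →ₗ[F] _) ∘ₗ P ∘ₗ (e.symm.symm : _ →ₗ[F] _) from rfl, LinearMap.det_conj, LinearMap.det_prodMap, LinearMap.det_id, one_mul, LinearMap.det_toLin', hΔ]
  refine ⟨GeneralLinearGroup.mkOfDetNeZero (LinearMap.toMatrix' L) (by rw [hdet]; exact hd), ?_, ?_, hdet⟩
  · show LinearMap.toMatrix' L *ᵥ a = a
    rw [LinearMap.toMatrix'_mulVec]
    simp [L, P, he, ← he.symm]
    rw [← he, e.symm_apply_apply]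
  · refine dotProduct_eq _ _ fun x => ?_
    show φ ᵥ* LinearMap.toMatrix' L ⬝ᵥ x = _
    rw [← dotProduct_mulVec, LinearMap.toMatrix'_mulVec, ← he2, ← he2]
    simp [L, P]

theorem conj_vec {g : GL (Fin n) F} {a φ a' φ' : Fin n → F} (h1 : (g : Matrix (Fin n) (Fin n) F) *ᵥ a = a')
    (h2 : φ' ᵥ* (g : Matrix (Fin n) (Fin n) F) = φ) :
    (g : Matrix (Fin n) (Fin n) F) * (1 + vecMulVec a φ) = (1 + vecMulVec a' φ') * (g : Matrix (Fin n) (Fin n) F) := by
  rw [mul_add, add_mul, mul_one, one_mul, mul_vecMulVec, vecMulVec_mul, h1, h2]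

theorem isConj_of_transvection (s t : GL (Fin n) F) (hs : Cfsg.IsTransvection (s : Matrix (Fin n) (Fin n) F))
    (ht : Cfsg.IsTransvection (t : Matrix (Fin n) (Fin n) F)) : IsConj s t := by
  obtain ⟨a, φ, ha, hφ, h, hs⟩ := exists_vec hs
  obtain ⟨a', φ', ha', hφ', h', ht⟩ := exists_vec ht
  obtain ⟨g, h1, h2⟩ := exists_gl ha hφ h ha' hφ' h'
  refine isConj_iff.2 ⟨g, mul_inv_eq_iff_eq_mul.2 (Units.ext ?_)⟩
  rw [Units.val_mul, Units.val_mul, hs, ht, conj_vec h1 h2]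

theorem card_dot_zero [Fintype F] {a : Fin n → F} (ha : a ≠ 0) :
    Nat.card {φ : Fin n → F // φ ≠ 0 ∧ φ ⬝ᵥ a = 0} = Fintype.card F ^ (n - 1) - 1 := by
  classical
  let L : (Fin n → F) →ₗ[F] F := (dotProductBilin F F).flip a
  have hL : ∀ φ, L φ = φ ⬝ᵥ a := fun φ => rfl
  have hs : LinearMap.range L = ⊤ := by
    obtain ⟨j, hj⟩ := Function.ne_iff.1 ha
    refine LinearMap.range_eq_top.2 fun c => ⟨Pi.single j (c * (a j)⁻¹), ?_⟩
    simp [hL, mul_assoc, inv_mul_cancel₀ hj]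
  have hk : finrank F (LinearMap.ker L) = n - 1 := by
    have := LinearMap.finrank_range_add_finrank_ker L
    rw [hs, finrank_top, finrank_self, finrank_fintype_fun_eq_card, Fintype.card_fin] at this
    omega
  let e : {φ : Fin n → F // φ ≠ 0 ∧ φ ⬝ᵥ a = 0} ≃ {x : LinearMap.ker L // x ≠ 0} :=
    { toFun := fun p => ⟨⟨p.1, p.2.2⟩, fun e => p.2.1 (congrArg Subtype.val e)⟩
      invFun := fun p => ⟨p.1.1, fun e => p.2 (Subtype.ext e), p.1.2⟩ }
  rw [Nat.card_congr e, Nat.card_eq_fintype_card, Fintype.card_subtype_compl, Fintype.card_subtype_eq, Module.card_eq_pow_finrank (K := F), hk]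

theorem card_pairs [Fintype F] :
    Nat.card {p : (Fin n → F) × (Fin n → F) // p.1 ≠ 0 ∧ p.2 ≠ 0 ∧ p.2 ⬝ᵥ p.1 = 0} =
      (Fintype.card F ^ n - 1) * (Fintype.card F ^ (n - 1) - 1) := by
  classical
  let e : {p : (Fin n → F) × (Fin n → F) // p.1 ≠ 0 ∧ p.2 ≠ 0 ∧ p.2 ⬝ᵥ p.1 = 0} ≃
      Σ a : {a : Fin n → F // a ≠ 0}, {φ : Fin n → F // φ ≠ 0 ∧ φ ⬝ᵥ a.1 = 0} :=
    { toFun := fun p => ⟨⟨p.1.1, p.2.1⟩, ⟨p.1.2, p.2.2⟩⟩
      invFun := fun s => ⟨(s.1.1, s.2.1), s.1.2, s.2.2⟩ }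
  rw [Nat.card_congr e, Nat.card_sigma, Finset.sum_congr rfl (fun x _ => card_dot_zero x.2), Finset.sum_const, Finset.card_univ, smul_eq_mul, Fintype.card_subtype_compl, Fintype.card_subtype_eq, Fintype.card_fun, Fintype.card_fin]

theorem card_transvection [Fintype F] :
    Nat.card {t : GL (Fin n) F // Cfsg.IsTransvection (t : Matrix (Fin n) (Fin n) F)} * (Fintype.card F - 1) =
      (Fintype.card F ^ n - 1) * (Fintype.card F ^ (n - 1) - 1) := by
  classical
  rw [← card_pairs, ← Fintype.card_units, ← Nat.card_eq_fintype_card, ← Nat.card_prod]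
  choose A Φ hA hΦ hAΦ hT using fun t : {t : GL (Fin n) F // Cfsg.IsTransvection (t : Matrix (Fin n) (Fin n) F)} => exists_vec t.2
  refine Nat.card_congr (Equiv.ofBijective (fun x => ⟨((x.2 : F) • A x.1, ((x.2⁻¹ : Fˣ) : F) • Φ x.1), ?_, ?_, ?_⟩) ⟨?_, ?_⟩)
  · exact smul_ne_zero (Units.ne_zero _) (hA _)
  · exact smul_ne_zero (Units.ne_zero _) (hΦ _)
  · simp [hAΦ]
  · rintro ⟨t, c⟩ ⟨t', c'⟩ hh
    have h1 := congrArg (fun p => p.1.1) hh
    have h2 := congrArg (fun p => p.1.2) hh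
    simp only at h1 h2
    have htt : t = t' := by
      refine Subtype.ext (Units.ext ?_)
      rw [hT t, hT t']
      have := congrArg₂ vecMulVec h1 h2
      simp only [smul_vecMulVec, vecMulVec_smul, smul_smul] at this
      rw [← Units.val_mul, ← Units.val_mul] at this
      simpa using this
    subst htt
    exact Prod.ext rfl (Units.ext (smul_left_injective F (hA t) h1))
  · rintro ⟨⟨a, φ⟩, ha, hφ, h⟩
    let t : GL (Fin n) F := CfsgLib.Classical.tv a φ
    have ht : (t : Matrix (Fin n) (Fin n) F) = 1 + vecMulVec a φ := CfsgLib.Classical.coe_tv h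
    let T : {t : GL (Fin n) F // Cfsg.IsTransvection (t : Matrix (Fin n) (Fin n) F)} := ⟨t, by rw [ht]; exact isTransvection_vec ha hφ h⟩
    have hh : vecMulVec a φ = vecMulVec (A T) (Φ T) := by
      have := hT T
      rw [show (T.1 : Matrix (Fin n) (Fin n) F) = 1 + vecMulVec a φ from ht] at this
      exact add_left_cancel this
    obtain ⟨j, hj⟩ := Function.ne_iff.1 (hΦ T)
    obtain ⟨i, hi⟩ := Function.ne_iff.1 ha
    have hφj : φ j ≠ 0 := by
      intro e
      obtain ⟨k, hk⟩ := Function.ne_iff.1 (hA T)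
      have := congrFun (congrFun hh k) j
      simp only [vecMulVec_apply, e, mul_zero] at this
      exact mul_ne_zero hk hj this.symm
    have hc : Φ T j / φ j ≠ 0 := div_ne_zero hj hφj
    refine ⟨(T, Units.mk0 _ hc), Subtype.ext (Prod.ext ?_ ?_)⟩
    · funext k
      have := congrFun (congrFun hh k) j
      simp only [vecMulVec_apply] at this
      simp only [Units.val_mk0, Pi.smul_apply, smul_eq_mul]
      field_simp
      linear_combination -this
    · funext k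
      have hAi : a i = (Φ T j / φ j) * A T i := by
        have := congrFun (congrFun hh i) j
        simp only [vecMulVec_apply] at this
        field_simp
        linear_combination this
      have := congrFun (congrFun hh i) k
      simp only [vecMulVec_apply, hAi] at this
      have hAT : A T i ≠ 0 := fun e => hi (by simp [hAi, e])
      simp only [Units.val_inv_eq_inv_val, Units.val_mk0, Pi.smul_apply, smul_eq_mul]
      have hj' : Φ T j ≠ 0 := hj
      field_simp at this ⊢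
      linear_combination -this

theorem card_centraliser [Fintype F] (hn : 2 ≤ n) (t : GL (Fin n) F) (ht : Cfsg.IsTransvection (t : Matrix (Fin n) (Fin n) F)) :
    Nat.card (Subgroup.centralizer ({t} : Set (GL (Fin n) F))) =
      Fintype.card F ^ (2 * n - 3) * (Fintype.card F - 1) *
        ∏ i : Fin (n - 2), (Fintype.card F ^ (n - 2) - Fintype.card F ^ (i : ℕ)) := by
  classical
  rw [Subgroup.nat_card_centralizer_nat_card_stabilizer]
  have horb : MulAction.orbit (ConjAct (GL (Fin n) F)) t = {s : GL (Fin n) F | Cfsg.IsTransvection (s : Matrix (Fin n) (Fin n) F)} := by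
    ext s
    rw [ConjAct.mem_orbit_conjAct]
    refine ⟨fun hh => ?_, fun hh => isConj_of_transvection s t hh ht⟩
    obtain ⟨g, hg⟩ := isConj_iff.1 hh.symm
    obtain ⟨a, φ, ha, hφ, h, hte⟩ := exists_vec ht
    have hgi : ((g⁻¹ : GL (Fin n) F) : Matrix (Fin n) (Fin n) F) * (g : Matrix (Fin n) (Fin n) F) = 1 := Units.inv_mul g
    have hgi' : (g : Matrix (Fin n) (Fin n) F) * ((g⁻¹ : GL (Fin n) F) : Matrix (Fin n) (Fin n) F) = 1 := Units.mul_inv g
    show Cfsg.IsTransvection (s : Matrix (Fin n) (Fin n) F)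
    rw [← hg, Units.val_mul, Units.val_mul, hte, mul_add, mul_one, add_mul, hgi', mul_vecMulVec, vecMulVec_mul]
    refine isTransvection_vec (fun e => ha ?_) (fun e => hφ ?_) ?_
    · have := congrArg (((g⁻¹ : GL (Fin n) F) : Matrix (Fin n) (Fin n) F) *ᵥ ·) e
      simpa [mulVec_mulVec, hgi] using this
    · have := congrArg (· ᵥ* (g : Matrix (Fin n) (Fin n) F)) e
      simpa [vecMul_vecMul, hgi] using this
    · rw [← dotProduct_mulVec, mulVec_mulVec, hgi, one_mulVec, h]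
  have h1 := (MulAction.stabilizer (ConjAct (GL (Fin n) F)) t).card_mul_index
  rw [MulAction.index_stabilizer, horb] at h1
  have h2 : Nat.card (ConjAct (GL (Fin n) F)) = Nat.card (GL (Fin n) F) := Nat.card_congr ConjAct.ofConjAct.toEquiv
  rw [h2, Matrix.card_GL_field, ← Nat.card_coe_set_eq] at h1
  have h3 := card_transvection (F := F) (n := n)
  obtain ⟨m, rfl⟩ : ∃ m, n = m + 2 := ⟨n - 2, by omega⟩
  rw [Fin.prod_univ_succ, Fin.prod_univ_succ] at h1
  simp only [Fin.val_zero, pow_zero, Fin.val_succ, zero_add, pow_one] at h1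
  set q := Fintype.card F
  have hq : 2 ≤ q := Fintype.one_lt_card
  have hprod : ∏ i : Fin m, (q ^ (m + 2) - q ^ ((i : ℕ) + 1 + 1)) = q ^ (2 * m) * ∏ i : Fin m, (q ^ m - q ^ (i : ℕ)) := by
    rw [Finset.prod_congr rfl (g := fun i : Fin m => q ^ 2 * (q ^ m - q ^ (i : ℕ))) (fun i _ => by rw [Nat.mul_sub, ← pow_add, ← pow_add]; ring_nf),
      Finset.prod_mul_distrib, Finset.prod_const, Finset.card_univ, Fintype.card_fin, ← pow_mul]
  rw [hprod] at h1
  have hq1 : q ^ (m + 2) - q = q * (q ^ (m + 1) - 1) := by rw [Nat.mul_sub, mul_one, ← pow_succ']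
  rw [hq1] at h1
  have hpos : 0 < (q ^ (m + 2) - 1) * (q ^ (m + 2 - 1) - 1) := by
    refine Nat.mul_pos ?_ ?_ <;> exact Nat.sub_pos_of_lt (Nat.one_lt_pow (by omega) hq)
  refine Nat.eq_of_mul_eq_mul_right hpos ?_
  have h4 : Nat.card {t : GL (Fin (m + 2)) F // Cfsg.IsTransvection (t : Matrix (Fin (m + 2)) (Fin (m + 2)) F)} = Nat.card ↥{s : GL (Fin (m + 2)) F | Cfsg.IsTransvection (s : Matrix (Fin (m + 2)) (Fin (m + 2)) F)} := rfl
  rw [← h4] at h1
  conv_lhs => rw [← h3, ← mul_assoc, h1]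
  change _ = q ^ (2 * (m + 2) - 3) * (q - 1) * (∏ i : Fin m, (q ^ m - q ^ (i : ℕ))) * ((q ^ (m + 2) - 1) * (q ^ (m + 1) - 1))
  simp only [ show 2 * (m + 2) - 3 = 2 * m + 1 by omega]
  ring

end CfsgLib.TransvecClass
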