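import Cfsg.Agent.Lib.ClassicalPSU

/-! Transvections of the special unitary group. -/

set_option autoImplicit false

namespace CfsgLib.Classical

open Matrix

variable {F : Type*} [Field F] [Finite F] {ι : Type} [Fintype ι] [DecidableEq ι] {σ : F ≃+* F}
  {f : (ι → F) → (ι → F) → F} (hf : Cfsg.Geo.IsUnitaryForm σ f)

include hf

/-- A transvection preserving a unitary form is a unitary transvection. -/
theorem exists_utv {g : GL ι F} (hg : g ∈ hIso f) (ht : Cfsg.IsTransvection (g : Matrix ι ι F)) :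
    ∃ (u : ι → F) (μ : F), u ≠ 0 ∧ f u u = 0 ∧ μ ≠ 0 ∧ σ μ = -μ ∧ g = utv f u μ := by
  obtain ⟨hr, hsq⟩ := ht
  obtain ⟨⟨a, ha⟩, ha0, hspan⟩ := finrank_eq_one_iff'.1 hr
  have hφ : ∀ x, ∃ c : F, ((g : Matrix ι ι F) - 1).mulVecLin x = c • a := fun x => by
    obtain ⟨c, hc⟩ := hspan ⟨_, LinearMap.mem_range_self _ x⟩
    exact ⟨c, (congrArg Subtype.val hc).symm⟩
  choose φ hφ using hφ
  have ha' : a ≠ 0 := fun h => ha0 (Subtype.ext h)
  have hgx : ∀ x, (g : Matrix ι ι F) *ᵥ x = x + φ x • a := fun x => by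
    rw [← hφ x, Matrix.mulVecLin_apply, Matrix.sub_mulVec, Matrix.one_mulVec, add_sub_cancel]
  obtain ⟨x0, hx0⟩ := ha
  have hφx0 : φ x0 ≠ 0 := by
    intro h
    apply ha'
    rw [← hx0, hφ, h, zero_smul]
  have hφa : φ a = 0 := by
    have h1 : ((g : Matrix ι ι F) - 1).mulVecLin a = 0 := by
      rw [← hx0, Matrix.mulVecLin_apply, Matrix.mulVecLin_apply, Matrix.mulVec_mulVec, hsq, Matrix.zero_mulVec]
    rw [hφ] at h1
    exact (smul_eq_zero.1 h1).resolve_right ha'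
  have hrel : ∀ x y, φ x * f a y + σ (φ y) * f x a + φ x * σ (φ y) * f a a = 0 := fun x y => by
    have := mem_hIso.1 hg x y
    rw [hgx, hgx] at this
    simp only [hf.add_left, herm_add_right hf, hf.smul_left, herm_smul_right hf] at this
    linear_combination this
  have haa : f a a = 0 := by
    have := hrel a x0
    rw [hφa, zero_mul, zero_add, zero_mul, zero_mul, add_zero] at this
    exact (mul_eq_zero.1 this).resolve_left (by simpa using hφx0)
  obtain ⟨y0, hy0⟩ : ∃ y, f a y ≠ 0 := by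
    obtain ⟨⟨y, hy⟩, y', hy'⟩ := hf.nondegenerate a ha'
    first
      | exact ⟨y, hy⟩
      | exact ⟨y', hy'⟩
  set μ := -σ (φ y0) / f a y0 with hμdef
  have hφμ : ∀ x, φ x = μ * f x a := fun x => by
    have := hrel x y0
    rw [haa, mul_zero, add_zero] at this
    rw [hμdef, div_mul_eq_mul_div, eq_div_iff hy0]
    linear_combination this
  have hμ0 : μ ≠ 0 := fun h => hφx0 (by rw [hφμ, h, zero_mul])
  have hxa : f x0 a ≠ 0 := fun h => hφx0 (by rw [hφμ, h, mul_zero])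
  have hskew : σ μ = -μ := by
    have h1 := hrel x0 y0
    rw [haa, mul_zero, add_zero, hφμ x0, hφμ y0, map_mul, ← hf.herm] at h1
    exact eq_neg_of_add_eq_zero_right ((mul_eq_zero.1 (show (μ + σ μ) * (f x0 a * f a y0) = 0 by linear_combination h1)).resolve_right (mul_ne_zero hxa hy0))
  refine ⟨a, μ, ha', haa, hμ0, hskew, gl_ext_mulVec fun x => ?_⟩
  rw [utv_mulVec hf haa, hgx, hφμ]

theorem exists_hSU_conj (h3 : 3 ≤ Fintype.card ι) {g h : GL ι F} (hg : g ∈ hIso f) (hh : h ∈ hIso f)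
    (ht : Cfsg.IsTransvection (g : Matrix ι ι F)) (ht' : Cfsg.IsTransvection (h : Matrix ι ι F)) :
    ∃ k ∈ hSU f, k * g * k⁻¹ = h := by
  obtain ⟨u, μ, hu0, hu, hμ0, hμ, rfl⟩ := exists_utv hf hg ht
  obtain ⟨w, ν, hw0, hw, hν0, hν, rfl⟩ := exists_utv hf hh ht'
  obtain ⟨a, ha⟩ := exists_norm_eq hf.ne_refl hf.involutive (show σ (ν / μ) = ν / μ by rw [map_div₀, hμ, hν, neg_div_neg_eq])
  have ha0 : a ≠ 0 := fun e => div_ne_zero hν0 hμ0 (by rw [← ha, e, zero_mul])
  have haw : f (a • w) (a • w) = 0 := by rw [hf.smul_left, herm_smul_right hf, hw]; simp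
  obtain ⟨k, hk, hku⟩ := uGen_trans_iso hf (W := ⊤) (hnondeg_top hf) (by rwa [finrank_top, Module.finrank_fintype_fun_eq_card]) (v := u) (v' := a • w) trivial hu0 hu trivial (smul_ne_zero ha0 hw0) haw
  have hk' := uGen_le_hSU hf _ hk
  refine ⟨k, hk', ?_⟩
  rw [utv_conj hf hk'.1 hu, hku, utv_smul hf hw]
  congr 1
  rw [mul_assoc, ha, mul_div_cancel₀ _ hμ0]

end CfsgLib.Classical
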