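import Mathlib.GroupTheory.FiniteAbelian.Basic
import Mathlib.GroupTheory.QuotientGroup.Basic
import Mathlib.Algebra.BigOperators.Pi
import Mathlib.Data.ZMod.Basic
import Cfsg.Prelude.Def_Transfer

/-!
# Invariant complements in abelian groups with a coprime group of operators
-/

set_option autoImplicit false

universe u v

namespace CfsgLib.Core.AbelianSplit

variable {A : Type u} [CommGroup A] {X : Type v} [Group X]

/-- A subgroup whose quotient lifts with the same element orders is a direct factor. -/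
theorem exists_retraction [Finite A] (C : Subgroup A)
    (hlift : ∀ b : A ⧸ C, ∃ a : A, (a : A ⧸ C) = b ∧ a ^ orderOf b = 1) :
    ∃ r : A →* A, (∀ a, r a ∈ C) ∧ ∀ c ∈ C, r c = c := by
  classical
  obtain ⟨ι, _, n, hn, ⟨e⟩⟩ := CommGroup.equiv_prod_multiplicative_zmod_of_finite (A ⧸ C)
  let g : ι → A ⧸ C := fun i => e.symm (Pi.mulSingle i (Multiplicative.ofAdd 1))
  choose z hz hzo using fun i => hlift (g i)
  have hzn : ∀ i, z i ^ n i = 1 := by
    intro i
    have h1 : g i ^ n i = 1 := by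
      rw [← map_pow, ← Pi.mulSingle_pow, ← ofAdd_nsmul, nsmul_one, ZMod.natCast_self, ofAdd_zero,
        Pi.mulSingle_one, map_one]
    obtain ⟨k, hk⟩ := orderOf_dvd_of_pow_eq_one h1
    rw [hk, pow_mul, hzo, one_pow]
  let φ : ∀ i, Multiplicative (ZMod (n i)) →* A := fun i =>
    AddMonoidHom.toMultiplicativeLeft (ZMod.lift (n i) ⟨zmultiplesHom (Additive A) (Additive.ofMul (z i)), by
      rw [zmultiplesHom_apply, natCast_zsmul, ← ofMul_pow, hzn, ofMul_one]⟩)
  let s : (∀ i, Multiplicative (ZMod (n i))) →* A :=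
    MonoidHom.mk' (fun f => ∏ i, φ i (f i)) fun f f' => by
      simp only [Pi.mul_apply, map_mul, Finset.prod_mul_distrib]
  have hs : ∀ b, ((s (e b) : A) : A ⧸ C) = b := by
    have h1 : (QuotientGroup.mk' C).comp s = e.symm.toMonoidHom := by
      refine MonoidHom.functions_ext _ _ _ fun i x => ?_
      have h2 : s (Pi.mulSingle i x) = φ i x := by
        show ∏ j, φ j ((Pi.mulSingle i x : ∀ j, Multiplicative (ZMod (n j))) j) = φ i x
        rw [Finset.prod_eq_single i, Pi.mulSingle_eq_same]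
        · exact fun j _ hj => by rw [Pi.mulSingle_eq_of_ne hj, map_one]
        · exact fun h => absurd (Finset.mem_univ _) h
      show ((s (Pi.mulSingle i x) : A) : A ⧸ C) = e.symm (Pi.mulSingle i x)
      rw [h2]
      obtain ⟨m, rfl⟩ : ∃ m : ℤ, Multiplicative.ofAdd (m : ZMod (n i)) = x :=
        ⟨(Multiplicative.toAdd x).cast, by rw [ZMod.intCast_zmod_cast, ofAdd_toAdd]⟩
      have h3 : φ i (Multiplicative.ofAdd (m : ZMod (n i))) = z i ^ m := by
        show Additive.toMul (ZMod.lift (n i) _ (m : ZMod (n i))) = _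
        rw [ZMod.lift_coe, zmultiplesHom_apply, toMul_zsmul, toMul_ofMul]
      rw [h3, QuotientGroup.mk_zpow, hz]
      show e.symm _ ^ m = _
      rw [← map_zpow, ← Pi.mulSingle_zpow, ← ofAdd_zsmul, zsmul_one]
    intro b
    have := DFunLike.congr_fun h1 (e b)
    simpa using this
  refine ⟨MonoidHom.id A / (s.comp e.toMonoidHom).comp (QuotientGroup.mk' C), fun a => ?_, fun c hc => ?_⟩
  · rw [← QuotientGroup.eq_one_iff]
    show ((a / s (e (a : A ⧸ C)) : A) : A ⧸ C) = 1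
    rw [QuotientGroup.mk_div, hs, div_self']
  · show c / s (e (c : A ⧸ C)) = c
    rw [(QuotientGroup.eq_one_iff c).2 hc, map_one, map_one, div_one]

/-- Averaging a retraction gives an invariant complement. -/
theorem exists_invariant_complement [Finite A] [Finite X] (ρ : X →* MulAut A)
    (hcop : (Nat.card X).Coprime (Nat.card A)) (C : Subgroup A) (hC : ∀ x : X, ∀ c ∈ C, ρ x c ∈ C)
    (hlift : ∀ b : A ⧸ C, ∃ a : A, (a : A ⧸ C) = b ∧ a ^ orderOf b = 1) :
    ∃ B : Subgroup A, (∀ x : X, ∀ b ∈ B, ρ x b ∈ B) ∧ B ⊓ C = ⊥ ∧ B ⊔ C = ⊤ := by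
  classical
  letI := Fintype.ofFinite X
  obtain ⟨r, hr, hrC⟩ := exists_retraction C hlift
  set σ := powCoprime (G := A) (n := Nat.card X) hcop.symm with hσ
  let P : A → A := fun a => ∏ x : X, ρ x (r (ρ x⁻¹ a))
  have hPC : ∀ a, P a ∈ C := fun a => Subgroup.prod_mem _ fun x _ => hC x _ (hr _)
  have hPfix : ∀ c ∈ C, P c = c ^ Nat.card X := fun c hc => by
    show ∏ x : X, ρ x (r (ρ x⁻¹ c)) = _
    rw [Finset.prod_congr rfl fun x _ => by
      rw [hrC _ (hC x⁻¹ c hc), ← MulAut.mul_apply, ← map_mul, mul_inv_cancel, map_one, MulAut.one_apply],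
      Finset.prod_const, Finset.card_univ, Nat.card_eq_fintype_card]
  let Ph : A →* A := MonoidHom.mk' P fun a b => by
    show ∏ x : X, ρ x (r (ρ x⁻¹ (a * b))) = (∏ x : X, ρ x (r (ρ x⁻¹ a))) * ∏ x : X, ρ x (r (ρ x⁻¹ b))
    simp only [map_mul, Finset.prod_mul_distrib]
  have hequiv : ∀ (y : X) (a : A), P (ρ y a) = ρ y (P a) := fun y a => by
    show ∏ x : X, ρ x (r (ρ x⁻¹ (ρ y a))) = ρ y (∏ x : X, ρ x (r (ρ x⁻¹ a)))
    rw [map_prod, ← Equiv.prod_comp (Equiv.mulLeft y) (fun x : X => ρ x (r (ρ x⁻¹ (ρ y a))))]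
    refine Finset.prod_congr rfl fun x _ => ?_
    show ρ (y * x) (r (ρ (y * x)⁻¹ (ρ y a))) = ρ y (ρ x (r (ρ x⁻¹ a)))
    have h1 : ρ (y * x)⁻¹ (ρ y a) = ρ x⁻¹ a := by
      rw [← MulAut.mul_apply, ← map_mul, mul_inv_rev, inv_mul_cancel_right]
    rw [h1, map_mul ρ y x, MulAut.mul_apply]
  refine ⟨Ph.ker, fun x b hb => ?_, ?_, ?_⟩
  · rw [MonoidHom.mem_ker] at hb ⊢
    show P (ρ x b) = 1
    rw [hequiv, show P b = 1 from hb, map_one]
  · rw [Subgroup.eq_bot_iff_forall]
    rintro c ⟨hc1, hc2⟩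
    have h1 : P c = 1 := hc1
    rw [hPfix c hc2] at h1
    exact σ.injective (show c ^ Nat.card X = (1 : A) ^ Nat.card X by rw [h1, one_pow])
  · rw [eq_top_iff]
    intro a _
    obtain ⟨b, hb⟩ := σ.surjective (P a)
    have hb' : b ^ Nat.card X = P a := hb
    have hbC : b ∈ C := by
      obtain ⟨d, hd⟩ := (powCoprime (G := C) (n := Nat.card X)
        (hcop.coprime_dvd_right C.card_subgroup_dvd_card).symm).surjective ⟨_, hPC a⟩
      have hd' : (d : A) ^ Nat.card X = P a := congrArg Subtype.val hd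
      rw [σ.injective (show b ^ Nat.card X = (d : A) ^ Nat.card X by rw [hb', hd'])]
      exact d.2
    rw [← div_mul_cancel a b]
    refine Subgroup.mul_mem _ (Subgroup.mem_sup_left ?_) (Subgroup.mem_sup_right hbC)
    show Ph (a / b) = 1
    rw [map_div]
    show P a / P b = 1
    rw [hPfix b hbC, hb', div_self']

/-- Maschke for elementary abelian groups. -/
theorem exists_invariant_complement_of_elementary [Finite A] [Finite X] (ρ : X →* MulAut A) {p : ℕ}
    (hp : p.Prime) (hA : ∀ a : A, a ^ p = 1) (hcop : (Nat.card X).Coprime (Nat.card A)) (C : Subgroup A)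
    (hC : ∀ x : X, ∀ c ∈ C, ρ x c ∈ C) :
    ∃ B : Subgroup A, (∀ x : X, ∀ b ∈ B, ρ x b ∈ B) ∧ B ⊓ C = ⊥ ∧ B ⊔ C = ⊤ := by
  refine exists_invariant_complement ρ hcop C hC fun b => ?_
  rcases eq_or_ne b 1 with rfl | hb
  · exact ⟨1, rfl, one_pow _⟩
  obtain ⟨a, rfl⟩ := QuotientGroup.mk'_surjective C b
  refine ⟨a, rfl, ?_⟩
  rcases (Nat.dvd_prime hp).1 (orderOf_dvd_of_pow_eq_one
    (show (QuotientGroup.mk' C a) ^ p = 1 by rw [← map_pow, hA, map_one])) with h | h
  · exact absurd (orderOf_eq_one_iff.1 h) hb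
  · rw [h, hA]

end CfsgLib.Core.AbelianSplit
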