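import Mathlib
import Cfsg.Agent.Lib.CoreSZ
import Cfsg.Agent.Lib.CoreFitting

/-!
Baer's lemma on core-free maximal subgroups.
-/

set_option autoImplicit false

namespace CfsgLib.Core

open scoped Pointwise
open Subgroup

variable {G : Type*} [Group G]

theorem sup_eq_top_of_coreFree {U : Subgroup G} (hU : IsCoatom U) (hcore : U.normalCore = ⊥)
    {A : Subgroup G} [A.Normal] (hA : A ≠ ⊥) : U ⊔ A = ⊤ := by
  refine hU.2 _ (lt_of_le_of_ne le_sup_left fun h => hA ?_)
  exact le_bot_iff.1 (hcore ▸ normal_le_normalCore.2 (h ▸ le_sup_right : A ≤ U))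

theorem centralizer_inf_eq_bot {U : Subgroup G} (hU : IsCoatom U) (hcore : U.normalCore = ⊥)
    {A : Subgroup G} [hAn : A.Normal] (hA : A ≠ ⊥) :
    centralizer (A : Set G) ⊓ U = ⊥ := by
  set W := centralizer (A : Set G) ⊓ U with hW
  have hle : U ⊔ A ≤ normalizer (W : Set G) := by
    refine sup_le (fun u hu => ?_) fun a ha => ?_
    · rw [mem_normalizer_iff]
      intro x
      have key : ∀ (v : G), v ∈ U → ∀ y ∈ W, v * y * v⁻¹ ∈ W := fun v hv y hy =>
        ⟨(inferInstance : (centralizer (A : Set G)).Normal).conj_mem y hy.1 v,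
          U.mul_mem (U.mul_mem hv hy.2) (U.inv_mem hv)⟩
      refine ⟨key u hu x, fun h => ?_⟩
      have := key u⁻¹ (U.inv_mem hu) _ h
      simpa [mul_assoc] using this
    · rw [mem_normalizer_iff]
      intro x
      have key : ∀ (b : G), b ∈ A → ∀ y ∈ W, b * y * b⁻¹ = y := fun b hb y hy => by
        rw [mem_centralizer_iff.1 hy.1 b hb, mul_inv_cancel_right]
      refine ⟨fun hx => (key a ha x hx).symm ▸ hx, fun h => ?_⟩
      have h2 := key a⁻¹ (inv_mem ha) _ h
      have : x = a * x * a⁻¹ := by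
        simpa [mul_assoc] using h2
      exact this ▸ h
  rw [sup_eq_top_of_coreFree hU hcore hA, top_le_iff, normalizer_eq_top_iff] at hle
  exact le_bot_iff.1 (hcore ▸ normal_le_normalCore.2 (inf_le_right : W ≤ U))

/-- A normal subgroup centralising `A` and different from `⊥` is the whole centraliser. -/
theorem centralizer_eq_of_coreFree {U : Subgroup G} (hU : IsCoatom U) (hcore : U.normalCore = ⊥)
    {A B : Subgroup G} [A.Normal] [B.Normal] (hA : A ≠ ⊥) (hB : B ≠ ⊥)
    (hBA : B ≤ centralizer (A : Set G)) : centralizer (A : Set G) = B := by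
  refine le_antisymm (fun c hc => ?_) hBA
  have h := sup_eq_top_of_coreFree hU hcore hB
  obtain ⟨u, hu, b, hb, rfl⟩ :=
    (mem_sup_iff_of_le_normalizer (le_normalizer_normal U (N := B))).mp (h ▸ Subgroup.mem_top c)
  have hu' : u ∈ centralizer (A : Set G) ⊓ U :=
    ⟨(mul_mem_cancel_right (hBA hb)).1 hc, hu⟩
  rw [centralizer_inf_eq_bot hU hcore hA, mem_bot] at hu'
  rw [hu', one_mul]
  exact hb

/-- Two complements of a normal subgroup in the same product are isomorphic. -/
theorem nonempty_equiv_of_sup_eq {B X Y : Subgroup G} [B.Normal] (hX : X ⊓ B = ⊥)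
    (hY : Y ⊓ B = ⊥) (h : X ⊔ B = Y ⊔ B) : Nonempty (X ≃* Y) := by
  have key : ∀ Z : Subgroup G, Z ⊓ B = ⊥ →
      Nonempty (Z ≃* ↥((Z ⊔ B).map (QuotientGroup.mk' B))) := by
    intro Z hZ
    have hinj : Function.Injective ((QuotientGroup.mk' B).comp Z.subtype) := by
      rw [injective_iff_map_eq_one]
      intro z hz
      have h1 : (z : G) ∈ Z ⊓ B := ⟨z.2, (QuotientGroup.eq_one_iff _).1 hz⟩
      rw [hZ, mem_bot] at h1
      exact Subtype.ext h1
    have hr : ((QuotientGroup.mk' B).comp Z.subtype).range =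
        (Z ⊔ B).map (QuotientGroup.mk' B) := by
      rw [MonoidHom.range_comp, range_subtype, Subgroup.map_sup, QuotientGroup.map_mk'_self,
        sup_bot_eq]
    exact ⟨(MonoidHom.ofInjective hinj).trans (MulEquiv.subgroupCongr hr)⟩
  obtain ⟨e₁⟩ := key X hX
  obtain ⟨e₂⟩ := key Y hY
  exact ⟨e₁.trans ((MulEquiv.subgroupCongr (by rw [h])).trans e₂.symm)⟩

end CfsgLib.Core
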