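import Mathlib

/-!
A canonical equivariant averaging in groups of class two and odd order (Baer's trick).
-/

set_option autoImplicit false

namespace CfsgLib.Core.BaerTrick

open scoped commutatorElement

variable {U : Type*} [Group U]

/-- Baer's commutative product, for `h` a half modulo the exponent of the commutators. -/
def op (h : ℕ) (a b : U) : U := a * b * ⁅b, a⁆ ^ h

variable (hz : ∀ a b x : U, Commute ⁅a, b⁆ x) {h : ℕ} (hh : ∀ a b : U, ⁅a, b⁆ ^ (h + h) = ⁅a, b⁆)

include hz

theorem comm_mul_left (a b c : U) : ⁅a * b, c⁆ = ⁅a, c⁆ * ⁅b, c⁆ := by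
  have e : ⁅a * b, c⁆ = a * ⁅b, c⁆ * a⁻¹ * ⁅a, c⁆ := by
    simp only [commutatorElement_def]; group
  rw [e, ← (hz b c a).eq, mul_inv_cancel_right, (hz b c _).eq]

theorem comm_mul_right (a b c : U) : ⁅a, b * c⁆ = ⁅a, b⁆ * ⁅a, c⁆ := by
  have e : ⁅a, b * c⁆ = ⁅a, b⁆ * (b * ⁅a, c⁆ * b⁻¹) := by
    simp only [commutatorElement_def]; group
  rw [e, ← (hz a c b).eq, mul_inv_cancel_right]

theorem comm_central_left {z : U} (hzc : ∀ x : U, Commute z x) (a : U) : ⁅z, a⁆ = 1 :=
  commutatorElement_eq_one_iff_mul_comm.2 (hzc a).eq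

theorem comm_central_right {z : U} (hzc : ∀ x : U, Commute z x) (a : U) : ⁅a, z⁆ = 1 :=
  commutatorElement_eq_one_iff_mul_comm.2 (hzc a).eq.symm

theorem op_assoc (h : ℕ) (a b c : U) : op h (op h a b) c = op h a (op h b c) := by
  have k1 : ∀ x, Commute (⁅b, a⁆ ^ h) x := fun x => (hz b a x).pow_left h
  have k2 : ∀ x, Commute (⁅c, b⁆ ^ h) x := fun x => (hz c b x).pow_left h
  simp only [op]
  rw [comm_mul_right hz, comm_mul_right hz, comm_central_right hz k1, mul_one,
    comm_mul_left hz, comm_mul_left hz, comm_central_left hz k2, mul_one,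
    ((hz c a _)).mul_pow, ((hz b a _)).mul_pow]
  calc a * b * ⁅b, a⁆ ^ h * c * (⁅c, a⁆ ^ h * ⁅c, b⁆ ^ h)
      = a * b * c * ⁅b, a⁆ ^ h * (⁅c, a⁆ ^ h * ⁅c, b⁆ ^ h) := by
        rw [mul_assoc (a * b), (k1 c).eq, ← mul_assoc (a * b)]
    _ = a * b * c * (⁅c, b⁆ ^ h * (⁅b, a⁆ ^ h * ⁅c, a⁆ ^ h)) := by
        rw [mul_assoc (a * b * c), ← mul_assoc (⁅b, a⁆ ^ h), (k2 (⁅b, a⁆ ^ h * ⁅c, a⁆ ^ h)).eq]
    _ = a * (b * c * ⁅c, b⁆ ^ h) * (⁅b, a⁆ ^ h * ⁅c, a⁆ ^ h) := by simp only [mul_assoc]

include hh

theorem op_comm (a b : U) : op h a b = op h b a := by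
  simp only [op]
  have e1 : a * b = ⁅a, b⁆ * (b * a) := by simp only [commutatorElement_def]; group
  rw [e1, show ⁅b, a⁆ = ⁅a, b⁆⁻¹ from (commutatorElement_inv a b).symm, (hz a b (b * a)).eq,
    mul_assoc]
  congr 1
  nth_rewrite 1 [← hh a b]
  rw [inv_pow, pow_add, mul_inv_cancel_right]

omit hh

theorem op_mul_central (h : ℕ) {z w : U} (hzc : ∀ x : U, Commute z x) (hwc : ∀ x : U, Commute w x)
    (a b : U) : op h (a * z) (b * w) = op h a b * (z * w) := by
  simp only [op]
  rw [comm_mul_left hz, comm_mul_right hz, comm_central_left hz hwc, comm_central_right hz hzc,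
    mul_one, mul_one]
  calc a * z * (b * w) * ⁅b, a⁆ ^ h = a * (b * z) * w * ⁅b, a⁆ ^ h := by
        rw [← (hzc b).eq]; simp only [mul_assoc]
    _ = a * b * ((z * w) * ⁅b, a⁆ ^ h) := by simp only [mul_assoc]
    _ = _ := by rw [((hzc _).mul_left (hwc _)).eq]; simp only [mul_assoc]

include hh

/-- **Baer's trick**: an equivariant map, insensitive to fixed central factors, which is
`g ↦ g ^ |S| (∏ σ g)⁻¹` modulo commutators. -/
theorem exists_average (S : Finset (MulAut U)) :
    ∃ L : U → U,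
      (∀ g z : U, (∀ x, Commute z x) → (∀ σ ∈ S, σ z = z) → L (g * z) = L g) ∧
      (∀ β : MulAut U, (∀ σ ∈ S, β * σ * β⁻¹ ∈ S) → ∀ g, β (L g) = L (β g)) ∧
      ∀ (V : Type _) [CommGroup V] (π : U →* V) (g : U),
        π (L g) = π g ^ S.card * (∏ σ ∈ S, π (σ g))⁻¹ := by
  classical
  haveI : Std.Commutative (op h : U → U → U) := ⟨op_comm hz hh⟩
  haveI : Std.Associative (op h : U → U → U) := ⟨op_assoc hz h⟩
  set T : U → U := fun g => S.fold (op h) 1 (fun σ => σ g) with hT
  refine ⟨fun g => op h (g ^ S.card) (T g)⁻¹, ?_, ?_, ?_⟩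
  · intro g z hzc hfix
    have key : ∀ R : Finset (MulAut U), R ⊆ S →
        R.fold (op h) 1 (fun σ => σ (g * z)) = R.fold (op h) 1 (fun σ => σ g) * z ^ R.card := by
      intro R
      induction R using Finset.induction_on with
      | empty => simp
      | @insert σ R hσ ih =>
        intro hR
        rw [Finset.fold_insert hσ, Finset.fold_insert hσ, ih fun x hx => hR (Finset.mem_insert_of_mem hx),
          map_mul, hfix σ (hR (Finset.mem_insert_self σ R)),
          op_mul_central hz h hzc (fun x => (hzc x).pow_left _), Finset.card_insert_of_notMem hσ,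
          pow_succ']
    have e1 : T (g * z) = T g * z ^ S.card := key S le_rfl
    show op h ((g * z) ^ S.card) (T (g * z))⁻¹ = op h (g ^ S.card) (T g)⁻¹
    have hzn : ∀ x, Commute (z ^ S.card) x := fun x => (hzc x).pow_left _
    rw [(hzc g).symm.mul_pow, e1, mul_inv_rev, ((hzn (T g)⁻¹).inv_left).eq,
      op_mul_central hz h hzn (fun x => (hzn x).inv_left), mul_inv_cancel, mul_one]
  · intro β hβ g
    have hop : ∀ a b : U, β (op h a b) = op h (β a) (β b) := fun a b => by
      simp [op, map_commutatorElement]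
    have himg : S.image (fun σ => β * σ * β⁻¹) = S :=
      Finset.eq_of_subset_of_card_le (fun x hx => by
        obtain ⟨σ, hσ, rfl⟩ := Finset.mem_image.1 hx
        exact hβ σ hσ)
        (le_of_eq (Finset.card_image_of_injective _ fun a b hab =>
          mul_left_cancel (mul_right_cancel hab)).symm)
    have e1 : β (T g) = T (β g) := by
      have key : ∀ R : Finset (MulAut U), β (R.fold (op h) 1 (fun σ => σ g)) =
          R.fold (op h) 1 (fun σ => (β * σ * β⁻¹) (β g)) := by
        intro R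
        induction R using Finset.induction_on with
        | empty => simp
        | @insert σ R hσ ih =>
          rw [Finset.fold_insert hσ, Finset.fold_insert hσ, hop, ih]
          simp
      show β (S.fold (op h) 1 (fun σ => σ g)) = S.fold (op h) 1 (fun σ => σ (β g))
      conv_rhs => rw [← himg]
      rw [key S, Finset.fold_image (fun a _ b _ hab => mul_left_cancel (mul_right_cancel hab))]
      rfl
    show β (op h (g ^ S.card) (T g)⁻¹) = op h ((β g) ^ S.card) (T (β g))⁻¹
    rw [hop, map_pow, map_inv, e1]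
  · intro V _ π g
    have hop : ∀ a b : U, π (op h a b) = π a * π b := fun a b => by
      simp [op, commutatorElement_def, mul_comm, mul_assoc]
    have key : ∀ R : Finset (MulAut U),
        π (R.fold (op h) 1 (fun σ => σ g)) = ∏ σ ∈ R, π (σ g) := by
      intro R
      induction R using Finset.induction_on with
      | empty => simp
      | @insert σ R hσ ih => rw [Finset.fold_insert hσ, Finset.prod_insert hσ, hop, ih]
    show π (op h (g ^ S.card) (T g)⁻¹) = _
    rw [hop, map_pow, map_inv, key S]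

end CfsgLib.Core.BaerTrick
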