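import Mathlib
import Cfsg.Agent.Lib.CoreSystem

/-!
Carter subgroups of finite soluble groups and their relation to system normalizers.
-/

set_option autoImplicit false
set_option maxHeartbeats 400000

namespace CfsgLib.Core

open scoped Pointwise
open Subgroup

universe u

variable {G : Type u} [Group G] [Finite G]

theorem isNilpotent_of_injective' {H : Type*} [Group H] [h : Group.IsNilpotent H]
    {G₀ : Type*} [Group G₀] (f : G₀ →* H) (hf : Function.Injective f) : Group.IsNilpotent G₀ :=
  Group.nilpotent_of_mulEquiv (MonoidHom.ofInjective hf).symm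

/-- A Hall subgroup of a finite nilpotent group is normal. -/
theorem normal_of_isHall [Group.IsNilpotent G] {π : Set ℕ} {Q : Subgroup G} (hQ : IsHall π Q) :
    Q.Normal := by
  rw [← Subgroup.normalizer_eq_top_iff]
  refine normalizerCondition_iff_only_full_group_self_normalizing.mp
    Group.normalizerCondition_of_isNilpotent _ ?_
  refine le_antisymm (fun g hg => ?_) Subgroup.le_normalizer
  rw [← conj_smul_eq_self_iff] at hg ⊢
  have h1 : MulAut.conj g • Q ≤ Subgroup.normalizer (Q : Set G) :=
    hg ▸ conj_smul_le_conj_smul.mpr Subgroup.le_normalizer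
  have h2 : IsPiNat π (Nat.card ↥(MulAut.conj g • Q ⊔ Q)) :=
    ((hQ.conj_smul g).1.mul hQ.1).of_dvd (card_sup_dvd_mul h1)
  exact ((hQ.conj_smul g).eq_of_le h2 le_sup_left).trans (hQ.eq_of_le h2 le_sup_right).symm

theorem isHallIn_normalizer {π : Set ℕ} {Q H : Subgroup G} [Group.IsNilpotent ↥H]
    (hQ : IsHallIn π Q H) : H ≤ Subgroup.normalizer (Q : Set G) :=
  (Subgroup.normal_subgroupOf_iff_le_normalizer hQ.1).mp (normal_of_isHall hQ.subgroupOf)

/-- In a nilpotent-by-`p` situation the normalizer of a Hall `p'`-subgroup is nilpotent,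
covers the quotient and is self-normalizing. -/
theorem normalizer_hall {p : Nat.Primes} {N : Subgroup G} [N.Normal] (hN : IsPGroup p ↥N)
    [Group.IsNilpotent (G ⧸ N)] [Group.IsSolvable G] {Q : Subgroup G} (hQ : IsHall (co p) Q) :
    Group.IsNilpotent ↥(Subgroup.normalizer (Q : Set G)) ∧
      Subgroup.normalizer (Q : Set G) ⊔ N = ⊤ ∧
      Subgroup.normalizer ((Subgroup.normalizer (Q : Set G)) : Set G) =
        Subgroup.normalizer (Q : Set G) := by
  haveI : Fact (p : ℕ).Prime := ⟨p.2⟩
  set H := Subgroup.normalizer (Q : Set G) with hH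
  set π := QuotientGroup.mk' N
  have hQH : Q ≤ H := Subgroup.le_normalizer
  have hQN : Q ⊓ N = ⊥ := inf_eq_bot_of_coprime
    (hQ.1.coprime (by rw [isPiNat_index_co]; exact isPiNat_card_iff_isPGroup.mpr hN))
  refine ⟨?_, ?_, ?_⟩
  · haveI : (Q.subgroupOf H).Normal := Subgroup.normal_in_normalizer
    have hp : IsPGroup p (↥H ⧸ Q.subgroupOf H) := by
      refine isPiNat_card_iff_isPGroup.mp (IsPiNat.of_dvd ?_ (?_ : _ ∣ Q.index))
      · exact (isPiNat_index_co p).mp hQ.2
      · rw [← Subgroup.index_eq_card]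
        exact Dvd.intro _ (Subgroup.relIndex_mul_index hQH)
    haveI : Group.IsNilpotent (↥H ⧸ Q.subgroupOf H) := isNilpotent_of_isPGroup hp
    refine isNilpotent_of_injective' ((π.comp H.subtype).prod (QuotientGroup.mk' (Q.subgroupOf H)))
      ((injective_iff_map_eq_one _).mpr fun x hx => Subtype.ext ?_)
    have h1 := congrArg Prod.fst hx
    have h2 := congrArg Prod.snd hx
    have h3 : (x : G) ∈ Q ⊓ N :=
      ⟨(QuotientGroup.eq_one_iff x).mp h2, (QuotientGroup.eq_one_iff (x : G)).mp h1⟩
    rwa [hQN, Subgroup.mem_bot] at h3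
  · -- Frattini argument
    have hn : (Q.map π).Normal := normal_of_isHall
      ⟨hQ.1.of_dvd (Subgroup.card_map_dvd _ _),
        hQ.2.of_dvd (Subgroup.index_map_dvd _ (QuotientGroup.mk'_surjective N))⟩
    have hn' : (Q ⊔ N).Normal := by
      have := hn.comap π
      rwa [Subgroup.comap_map_eq, QuotientGroup.ker_mk'] at this
    rw [eq_top_iff]
    intro g _
    have hin : IsHallIn (co p) Q (Q ⊔ N) :=
      ⟨le_sup_left, hQ.1, hQ.2.of_dvd (Dvd.intro _ (Subgroup.relIndex_mul_index le_sup_left))⟩
    have hin' : IsHallIn (co p) (MulAut.conj g • Q) (Q ⊔ N) := by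
      have h := hin.conj_smul g
      rwa [@conj_smul_of_normal _ _ g (Q ⊔ N) hn'] at h
    obtain ⟨m, hm, hmQ⟩ := isHallIn_conj inferInstance hin hin'
    have hgm : m⁻¹ * g ∈ H := by
      rw [hH, ← conj_smul_eq_self_iff, ← conj_smul_conj_smul, ← hmQ, conj_smul_conj_smul,
        inv_mul_cancel, conj_one_smul]
    have hm' : m ∈ H ⊔ N := sup_le_sup_right hQH N hm
    have := mul_mem hm' (Subgroup.mem_sup_left (T := N) hgm)
    rwa [mul_inv_cancel_left] at this
  · refine le_antisymm (fun g hg => ?_) Subgroup.le_normalizer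
    rw [← conj_smul_eq_self_iff] at hg
    have h1 : MulAut.conj g • Q ≤ Subgroup.normalizer (Q : Set G) :=
      (conj_smul_le_conj_smul.mpr hQH).trans_eq hg
    have h2 : IsPiNat (co p) (Nat.card ↥(MulAut.conj g • Q ⊔ Q)) :=
      ((hQ.conj_smul g).1.mul hQ.1).of_dvd (card_sup_dvd_mul h1)
    rw [← conj_smul_eq_self_iff]
    exact ((hQ.conj_smul g).eq_of_le h2 le_sup_left).trans (hQ.eq_of_le h2 le_sup_right).symm

theorem carter_conj_smul {C : Subgroup G} (hC : Cfsg.IsCarterSubgroup C) (g : G) :
    Cfsg.IsCarterSubgroup (MulAut.conj g • C) := by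
  obtain ⟨h1, h2⟩ := hC
  refine ⟨?_, ?_⟩
  · haveI := h1
    exact Group.nilpotent_of_mulEquiv (Subgroup.equivSMul (MulAut.conj g) C)
  · ext x
    rw [← conj_smul_eq_self_iff, mem_conj_smul]
    constructor
    · intro h
      rw [← h2, ← conj_smul_eq_self_iff, ← conj_smul_conj_smul, ← conj_smul_conj_smul, h,
        conj_smul_conj_smul, inv_mul_cancel, conj_one_smul]
    · intro h
      rw [← h2, ← conj_smul_eq_self_iff, ← conj_smul_conj_smul, ← conj_smul_conj_smul] at h
      have h3 := congrArg (fun J => MulAut.conj g • J) h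
      try simp only at h3
      rwa [conj_smul_conj_smul g g⁻¹, mul_inv_cancel, conj_one_smul] at h3

theorem carter_subgroupOf {C H : Subgroup G} (hC : Cfsg.IsCarterSubgroup C) (h : C ≤ H) :
    Cfsg.IsCarterSubgroup (C.subgroupOf H) := by
  obtain ⟨h1, h2⟩ := hC
  refine ⟨?_, ?_⟩
  · haveI := h1
    exact Group.nilpotent_of_mulEquiv (Subgroup.subgroupOfEquivOfLe h).symm
  · refine le_antisymm (fun x hx => ?_) Subgroup.le_normalizer
    rw [Subgroup.mem_subgroupOf, ← h2, Subgroup.mem_normalizer_iff]
    intro y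
    rw [Subgroup.mem_normalizer_iff] at hx
    constructor
    · intro hy
      exact Subgroup.mem_subgroupOf.mp ((hx ⟨y, h hy⟩).mp (Subgroup.mem_subgroupOf.mpr hy))
    · intro hy
      have hy' : y ∈ H := by
        have := mul_mem (mul_mem (inv_mem x.2) (h hy)) x.2
        simpa [mul_assoc] using this
      exact Subgroup.mem_subgroupOf.mp ((hx ⟨y, hy'⟩).mpr (Subgroup.mem_subgroupOf.mpr hy))

/-- Conjugacy inside `C ⊔ N` gives that the image of `C` is a Carter subgroup. -/
theorem carter_map (N : Subgroup G) [N.Normal] {C : Subgroup G} (hC : Cfsg.IsCarterSubgroup C)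
    (hconj : C ⊔ N ≠ ⊤ → ∀ C₁ C₂ : Subgroup ↥(C ⊔ N), Cfsg.IsCarterSubgroup C₁ →
      Cfsg.IsCarterSubgroup C₂ → ∃ h : ↥(C ⊔ N), MulAut.conj h • C₁ = C₂) :
    Cfsg.IsCarterSubgroup (C.map (QuotientGroup.mk' N)) := by
  set π := QuotientGroup.mk' N
  refine ⟨?_, le_antisymm (fun y hy => ?_) Subgroup.le_normalizer⟩
  · haveI := hC.1
    exact Group.nilpotent_of_surjective (π.subgroupMap C) (π.subgroupMap_surjective C)
  obtain ⟨g, rfl⟩ := QuotientGroup.mk'_surjective N y
  by_cases htop : C ⊔ N = ⊤
  · have h : C.map π = ⊤ := by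
      apply Subgroup.comap_injective (QuotientGroup.mk'_surjective N)
      rw [Subgroup.comap_map_eq, QuotientGroup.ker_mk', htop, Subgroup.comap_top]
    rw [h]; trivial
  rw [← conj_smul_eq_self_iff, ← map_conj_smul] at hy
  have hle : MulAut.conj g • C ≤ C ⊔ N := by
    intro x hx
    have h1 : π x ∈ C.map π := hy ▸ Subgroup.mem_map_of_mem π hx
    have h2 : x ∈ (C.map π).comap π := h1
    rwa [Subgroup.comap_map_eq, QuotientGroup.ker_mk'] at h2
  obtain ⟨h, hh⟩ := hconj htop _ _ (carter_subgroupOf hC (le_sup_left : C ≤ C ⊔ N))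
    (carter_subgroupOf (carter_conj_smul hC g) hle)
  have hh' : MulAut.conj (h : G) • C = MulAut.conj g • C :=
    map_subtype_conj_smul_subgroupOf le_sup_left hle hh
  have hgh : (h : G)⁻¹ * g ∈ C := by
    refine hC.2.le ?_
    rw [← conj_smul_eq_self_iff, ← conj_smul_conj_smul, ← hh', conj_smul_conj_smul,
      inv_mul_cancel, conj_one_smul]
  have hg : g ∈ C ⊔ N := by
    have := mul_mem h.2 (Subgroup.mem_sup_left (T := N) hgh)
    rwa [mul_inv_cancel_left] at this
  have h3 : g ∈ (C.map π).comap π := by rwa [Subgroup.comap_map_eq, QuotientGroup.ker_mk']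
  exact h3

theorem carter_conj_aux : ∀ (n : ℕ) (G : Type u) [Group G] [Finite G], Nat.card G ≤ n →
    Group.IsSolvable G → ∀ C D : Subgroup G, Cfsg.IsCarterSubgroup C → Cfsg.IsCarterSubgroup D →
      ∃ g : G, MulAut.conj g • C = D := by
  intro n
  induction n with
  | zero => intro G _ _ h; exact absurd h (by have := Nat.card_pos (α := G); omega)
  | succ n ih =>
    intro G _ _ hn hs C D hC hD
    haveI := hs
    by_cases htriv : (⊤ : Subgroup G) = ⊥
    · haveI : Subsingleton G := ⟨fun a b => by
        have ha : a ∈ (⊥ : Subgroup G) := htriv ▸ Subgroup.mem_top a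
        have hb : b ∈ (⊥ : Subgroup G) := htriv ▸ Subgroup.mem_top b
        rw [Subgroup.mem_bot.mp ha, Subgroup.mem_bot.mp hb]⟩
      exact ⟨1, Subsingleton.elim _ _⟩
    obtain ⟨N, hN, hN0, -, hNmin⟩ := exists_minimal_normal_le (N := (⊤ : Subgroup G)) htriv
    haveI := hN
    obtain ⟨p, hp, hNp⟩ := exists_isPGroup_of_minimal_normal hN0 hNmin
    have hsub : ∀ H : Subgroup G, H ≠ ⊤ → ∀ C₁ C₂ : Subgroup ↥H, Cfsg.IsCarterSubgroup C₁ →
        Cfsg.IsCarterSubgroup C₂ → ∃ h : ↥H, MulAut.conj h • C₁ = C₂ := fun H hH =>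
      ih ↥H (by have := card_lt_of_ne_top hH; omega) inferInstance
    have hCi := carter_map N hC (fun h => hsub _ h)
    have hDi := carter_map N hD (fun h => hsub _ h)
    obtain ⟨y, hy⟩ := ih (G ⧸ N) (by have := card_quotient_lt (N := N) hN0; omega) inferInstance
      _ _ hCi hDi
    obtain ⟨g, rfl⟩ := QuotientGroup.mk'_surjective N y
    rw [← map_conj_smul] at hy
    have hC' := carter_conj_smul hC g
    set C' := MulAut.conj g • C
    have heq : C' ⊔ N = D ⊔ N := by
      have h := congrArg (Subgroup.comap (QuotientGroup.mk' N)) hy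
      rwa [Subgroup.comap_map_eq, Subgroup.comap_map_eq, QuotientGroup.ker_mk'] at h
    by_cases htop : C' ⊔ N = ⊤
    · -- both are normalizers of Hall p'-subgroups
      haveI : Fact p.Prime := ⟨hp⟩
      haveI : Group.IsNilpotent (G ⧸ N) := by
        have h : C'.map (QuotientGroup.mk' N) = ⊤ := by
          apply Subgroup.comap_injective (QuotientGroup.mk'_surjective N)
          rw [Subgroup.comap_map_eq, QuotientGroup.ker_mk', htop, Subgroup.comap_top]
        haveI := hC'.1
        haveI : Group.IsNilpotent ↥(⊤ : Subgroup (G ⧸ N)) :=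
          h ▸ Group.nilpotent_of_surjective ((QuotientGroup.mk' N).subgroupMap C')
            ((QuotientGroup.mk' N).subgroupMap_surjective C')
        exact Group.nilpotent_of_mulEquiv Subgroup.topEquiv
      have key : ∀ E : Subgroup G, Cfsg.IsCarterSubgroup E → E ⊔ N = ⊤ →
          ∃ Q : Subgroup G, IsHall (co ⟨p, hp⟩) Q ∧ E = Subgroup.normalizer (Q : Set G) := by
        intro E hE hEN
        haveI := hE.1
        obtain ⟨Q, hQ⟩ := exists_isHallIn (M := E) inferInstance (co ⟨p, hp⟩)
        have hQG : IsHall (co ⟨p, hp⟩) Q := by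
          refine ⟨hQ.2.1, ?_⟩
          rw [← Subgroup.relIndex_mul_index hQ.1]
          refine hQ.2.2.mul ?_
          refine (isPiNat_index_co ⟨p, hp⟩).mpr ((isPiNat_card_iff_isPGroup.mpr hNp).of_dvd ?_)
          have h := relIndex_sup_eq_of_le_normalizer (A := E) (K := N)
            (le_normalizer_normal E)
          have h' := card_sup_mul_card_inf (A := E) (K := N) (le_normalizer_normal E)
          rw [hEN, Subgroup.card_top] at h'
          refine ⟨Nat.card ↥(E ⊓ N), mul_left_cancel₀ (Nat.card_pos (α := ↥E)).ne' ?_⟩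
          rw [← h', ← E.card_mul_index]
          ring
        obtain ⟨hnil, -, -⟩ := normalizer_hall (p := ⟨p, hp⟩) hNp hQG
        refine ⟨Q, hQG, ?_⟩
        haveI := hnil
        have hle := isHallIn_normalizer hQ
        have hE' := carter_subgroupOf hE hle
        have h1 := normalizerCondition_iff_only_full_group_self_normalizing.mp
          Group.normalizerCondition_of_isNilpotent _ hE'.2
        exact le_antisymm hle (Subgroup.subgroupOf_eq_top.mp h1)
      obtain ⟨Q₁, hQ₁, e₁⟩ := key C' hC' htop
      obtain ⟨Q₂, hQ₂, e₂⟩ := key D hD (heq ▸ htop)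
      obtain ⟨x, hx⟩ := isHall_conj hQ₁ hQ₂
      refine ⟨x * g, ?_⟩
      rw [← conj_smul_conj_smul]
      change MulAut.conj x • C' = D
      rw [e₁, e₂, ← hx]
      ext y
      rw [mem_conj_smul, ← conj_smul_eq_self_iff, ← conj_smul_eq_self_iff,
        ← conj_smul_conj_smul, ← conj_smul_conj_smul]
      constructor
      · intro h
        have h3 := congrArg (fun J => MulAut.conj x • J) h
        try simp only at h3
        rwa [conj_smul_conj_smul x x⁻¹, mul_inv_cancel, conj_one_smul] at h3
      · intro h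
        rw [h, conj_smul_conj_smul, inv_mul_cancel, conj_one_smul]
    · have hle : D ≤ C' ⊔ N := heq ▸ le_sup_left
      obtain ⟨h, hh⟩ := hsub _ htop _ _ (carter_subgroupOf hC' le_sup_left) (carter_subgroupOf hD hle)
      refine ⟨(h : G) * g, ?_⟩
      rw [← conj_smul_conj_smul]
      exact map_subtype_conj_smul_subgroupOf le_sup_left hle hh

/-- Carter subgroups of a soluble group are conjugate. -/
theorem carter_conj [Group.IsSolvable G] {C D : Subgroup G} (hC : Cfsg.IsCarterSubgroup C)
    (hD : Cfsg.IsCarterSubgroup D) : ∃ g : G, MulAut.conj g • C = D :=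
  carter_conj_aux _ G le_rfl inferInstance C D hC hD

theorem carter_map' [Group.IsSolvable G] (N : Subgroup G) [N.Normal] {C : Subgroup G}
    (hC : Cfsg.IsCarterSubgroup C) : Cfsg.IsCarterSubgroup (C.map (QuotientGroup.mk' N)) :=
  carter_map N hC fun _ _ _ h₁ h₂ => carter_conj h₁ h₂

theorem exists_carter_aux : ∀ (n : ℕ) (G : Type u) [Group G] [Finite G], Nat.card G ≤ n →
    Group.IsSolvable G → ∀ K : Nat.Primes → Subgroup G, Cfsg.IsComplementSystem K →
      ∃ C : Subgroup G, Cfsg.IsCarterSubgroup C ∧ Cfsg.systemNormalizer K ≤ C ∧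
        ∀ r, IsHallIn (co r) (K r ⊓ C) C := by
  intro n
  induction n with
  | zero => intro G _ _ h; exact absurd h (by have := Nat.card_pos (α := G); omega)
  | succ n ih =>
    intro G _ _ hn hs K hK
    haveI := hs
    have hKh := system_iff.mp hK
    by_cases htriv : (⊤ : Subgroup G) = ⊥
    · have h1 : Nat.card G = 1 := by rw [← Subgroup.card_top, htriv, Subgroup.card_bot]
      haveI : Subsingleton G := (Nat.card_eq_one_iff_unique.mp h1).1
      refine ⟨⊤, ⟨inferInstance, Subsingleton.elim _ _⟩, le_top, fun r => ⟨le_top, ?_, ?_⟩⟩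
      · rw [inf_top_eq]; exact (hKh r).1
      · rw [inf_top_eq, Subgroup.relIndex_top_right]; exact (hKh r).2
    obtain ⟨N, hN, hN0, -, hNmin⟩ := exists_minimal_normal_le (N := (⊤ : Subgroup G)) htriv
    haveI := hN
    obtain ⟨p, hp, hNp⟩ := exists_isPGroup_of_minimal_normal hN0 hNmin
    haveI : Fact p.Prime := ⟨hp⟩
    set π := QuotientGroup.mk' N
    obtain ⟨Cb, hCb, hDb, hred⟩ := ih (G ⧸ N) (by have := card_quotient_lt (N := N) hN0; omega)
      inferInstance _ (system_quotient hK N)
    rw [systemNormalizer_quotient hK N] at hDb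
    set H := Cb.comap π with hHdef
    have hNH : N ≤ H := fun x hx => by
      show π x ∈ Cb
      rw [show π x = 1 from (QuotientGroup.eq_one_iff x).mpr hx]
      exact one_mem _
    have hmapH : H.map π = Cb := Subgroup.map_comap_eq_self_of_surjective
      (QuotientGroup.mk'_surjective N) Cb
    haveI : Group.IsNilpotent ↥Cb := hCb.1
    set pp : Nat.Primes := ⟨p, hp⟩
    -- images of the system in H
    have himg : ∀ r, IsPiNat (co r)ᶜ (((K r ⊔ N) ⊓ H).relIndex H) := by
      intro r
      have h1 : (K r ⊔ N) ⊓ H = (((K r).map π) ⊓ Cb).comap π := by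
        rw [Subgroup.comap_inf, Subgroup.comap_map_eq, QuotientGroup.ker_mk', ← hHdef]
      rw [h1, Subgroup.relIndex_comap, hmapH]
      exact (hred r).2.2
    have hredH : ∀ r, IsHallIn (co r) (K r ⊓ H) H := by
      intro r
      refine ⟨inf_le_right, (hKh r).1.of_dvd (Subgroup.card_dvd_of_le inf_le_left), ?_⟩
      rw [← Subgroup.relIndex_mul_relIndex (K r ⊓ H) ((K r ⊔ N) ⊓ H) H
        (inf_le_inf_right H le_sup_left) inf_le_right]
      refine IsPiNat.mul ?_ (himg r)
      have h2 : (K r ⊔ N) ⊓ H = (K r ⊓ H) ⊔ N := by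
        refine le_antisymm (fun x hx => ?_)
          (sup_le (inf_le_inf_right H le_sup_left) (le_inf le_sup_right hNH))
        obtain ⟨k, hk, m, hm, rfl⟩ := Subgroup.mem_sup_of_normal_right.mp hx.1
        refine Subgroup.mul_mem_sup ⟨hk, ?_⟩ hm
        have := mul_mem (show k * m ∈ H from hx.2) (inv_mem (show m ∈ H from hNH hm))
        rwa [mul_inv_cancel_right] at this
      rw [h2]
      refine (hKh r).2.of_dvd (dvd_trans ?_ (relIndex_dvd_index_right_normal (K r) N))
      have h3 := card_sup_mul_card_inf (le_normalizer_normal (K r ⊓ H) (N := N))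
      have h4 := card_mul_relIndex (H := K r ⊓ H) (K := K r ⊓ H ⊔ N) le_sup_left
      have h5 := card_inf_mul_relIndex (K r) N
      have h6 : K r ⊓ H ⊓ N = K r ⊓ N := by rw [inf_assoc, inf_eq_right.mpr hNH]
      rw [h6, ← h4] at h3
      refine ⟨1, ?_⟩
      rw [mul_one]
      refine mul_left_cancel₀ (mul_pos (Nat.card_pos (α := ↥(K r ⊓ H)))
        (Nat.card_pos (α := ↥(K r ⊓ N)))).ne' ?_
      rw [mul_assoc, h5, ← h3]
      ring
    set Q := K pp ⊓ H with hQdef
    have hQH : IsHallIn (co pp) Q H := hredH pp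
    haveI : (N.subgroupOf H).Normal := inferInstance
    haveI : Group.IsNilpotent (↥H ⧸ N.subgroupOf H) := by
      refine isNilpotent_of_injective' (H := ↥Cb) ((QuotientGroup.lift (N.subgroupOf H)
        (π.comp H.subtype) fun x hx => (QuotientGroup.eq_one_iff (x : G)).mpr hx).codRestrict Cb ?_) ?_
      · intro x
        induction x using QuotientGroup.induction_on with | _ x => exact x.2
      · rw [injective_iff_map_eq_one]
        intro x
        induction x using QuotientGroup.induction_on with
        | _ x =>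
          intro hx
          have h1 : π (x : G) = 1 := congrArg Subtype.val hx
          exact (QuotientGroup.eq_one_iff x).mpr
            (Subgroup.mem_subgroupOf.mpr ((QuotientGroup.eq_one_iff (x : G)).mp h1))
    have hNp' : IsPGroup (pp : ℕ) ↥(N.subgroupOf H) :=
      hNp.comap_of_injective H.subtype H.subtype_injective
    obtain ⟨hnil, hcov, hself⟩ := normalizer_hall (p := pp) hNp' hQH.subgroupOf
    set C := H ⊓ Subgroup.normalizer (Q : Set G) with hCdef
    have hCeq : C.subgroupOf H = Subgroup.normalizer ((Q.subgroupOf H : Subgroup ↥H) : Set ↥H) := by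
      ext x
      rw [Subgroup.mem_subgroupOf, hCdef, Subgroup.mem_inf, ← conj_smul_eq_self_iff,
        ← conj_smul_eq_self_iff]
      constructor
      · rintro ⟨-, h⟩
        apply Subgroup.map_injective H.subtype_injective
        rw [map_conj_smul, Subgroup.map_subgroupOf_eq_of_le hQH.1]
        exact h
      · intro h
        refine ⟨x.2, ?_⟩
        have h1 := congrArg (Subgroup.map H.subtype) h
        rwa [map_conj_smul, Subgroup.map_subgroupOf_eq_of_le hQH.1] at h1
    haveI hCnil : Group.IsNilpotent ↥C := by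
      haveI : Group.IsNilpotent ↥(C.subgroupOf H) := hCeq ▸ hnil
      exact Group.nilpotent_of_mulEquiv (Subgroup.subgroupOfEquivOfLe inf_le_left)
    have hCN : C ⊔ N = H := by
      refine le_antisymm (sup_le inf_le_left hNH) ?_
      intro x hx
      have h1 : (⟨x, hx⟩ : ↥H) ∈ Subgroup.normalizer ((Q.subgroupOf H : Subgroup ↥H) : Set ↥H) ⊔
          N.subgroupOf H := by rw [hcov]; trivial
      rw [← hCeq] at h1
      have h2 := Subgroup.mem_map_of_mem H.subtype h1
      rwa [Subgroup.map_sup, Subgroup.map_subgroupOf_eq_of_le inf_le_left,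
        Subgroup.map_subgroupOf_eq_of_le hNH] at h2
    refine ⟨C, ⟨hCnil, le_antisymm (fun g hg => ?_) Subgroup.le_normalizer⟩, ?_, ?_⟩
    · have hg' : MulAut.conj g • C = C := conj_smul_eq_self_iff.mpr hg
      have hgH : g ∈ H := by
        show π g ∈ Cb
        rw [← hCb.2, ← conj_smul_eq_self_iff]
        have h1 : C.map π = Cb := by
          rw [← hmapH, ← hCN, Subgroup.map_sup, QuotientGroup.map_mk'_self, sup_bot_eq]
        rw [← h1, ← map_conj_smul, hg']
      have h2 : (⟨g, hgH⟩ : ↥H) ∈ Subgroup.normalizer ((C.subgroupOf H : Subgroup ↥H) : Set ↥H) := by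
        rw [← conj_smul_eq_self_iff]
        apply Subgroup.map_injective H.subtype_injective
        rw [map_conj_smul, Subgroup.map_subgroupOf_eq_of_le inf_le_left]
        exact hg'
      rw [hCeq, hself, ← hCeq] at h2
      exact h2
    · intro x hx
      have hxH : x ∈ H := hDb (Subgroup.mem_map_of_mem π hx)
      refine ⟨hxH, conj_smul_eq_self_iff.mp ?_⟩
      rw [hQdef, Subgroup.smul_inf, mem_systemNormalizer.mp hx pp,
        conj_smul_of_mem_normalizer (Subgroup.le_normalizer hxH)]
    · intro r
      refine ⟨inf_le_right, (hKh r).1.of_dvd (Subgroup.card_dvd_of_le inf_le_left), ?_⟩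
      by_cases hr : r = pp
      · subst hr
        have hQC : Q ≤ C := le_inf inf_le_right Subgroup.le_normalizer
        have e : K pp ⊓ C = Q := le_antisymm (inf_le_inf_left _ inf_le_left)
          (le_inf inf_le_left hQC)
        rw [e]
        exact hQH.2.2.of_dvd (Dvd.intro _ (Subgroup.relIndex_mul_relIndex Q C H hQC inf_le_left))
      · have hNK : N ≤ K r := by
          have h1 : IsPiNat (co r) (Nat.card ↥(K r ⊔ N)) := by
            refine ((hKh r).1.mul ?_).of_dvd (card_sup_dvd_mul (le_normalizer_normal _))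
            intro s hsp hsd hsr
            have := (isPiNat_card_iff_isPGroup.mpr hNp) s hsp hsd
            exact hr (Subtype.ext ((Set.mem_singleton_iff.mp hsr).symm.trans
              (Set.mem_singleton_iff.mp this)))
          exact (hKh r).eq_of_le h1 le_sup_left ▸ le_sup_right
        have hnrm : ((K r ⊓ H).subgroupOf H).Normal := by
          have h1 : K r ⊓ H = (((K r).map π) ⊓ Cb).comap π := by
            rw [Subgroup.comap_inf, Subgroup.comap_map_eq, QuotientGroup.ker_mk', ← hHdef,
              sup_eq_left.mpr hNK]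
          rw [Subgroup.normal_subgroupOf_iff_le_normalizer inf_le_right, h1, hHdef]
          refine le_trans (Subgroup.comap_mono (isHallIn_normalizer (hred r))) ?_
          exact Subgroup.le_normalizer_comap π
        have h2 : (K r ⊓ C).relIndex C = ((K r ⊓ H).subgroupOf H).relIndex (C.subgroupOf H) := by
          rw [Subgroup.relIndex_subgroupOf inf_le_left, ← inf_relIndex_right (K r ⊓ H) C,
            inf_assoc, inf_eq_right.mpr (inf_le_left : C ≤ H)]
        rw [h2]
        exact (hredH r).2.2.of_dvd (Subgroup.relIndex_dvd_index_of_normal _ _)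

/-- Every system normalizer lies in a Carter subgroup into which the system reduces. -/
theorem exists_carter [Group.IsSolvable G] {K : Nat.Primes → Subgroup G}
    (hK : Cfsg.IsComplementSystem K) :
    ∃ C : Subgroup G, Cfsg.IsCarterSubgroup C ∧ Cfsg.systemNormalizer K ≤ C ∧
      ∀ r, IsHallIn (co r) (K r ⊓ C) C :=
  exists_carter_aux _ G le_rfl inferInstance K hK

theorem systemNormalizer_conj (K : Nat.Primes → Subgroup G) (g : G) :
    Cfsg.systemNormalizer (fun p => MulAut.conj g • K p) =
      MulAut.conj g • Cfsg.systemNormalizer K := by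
  ext x
  rw [mem_conj_smul, mem_systemNormalizer, mem_systemNormalizer]
  refine forall_congr' fun p => ⟨fun h => ?_, fun h => ?_⟩
  · rw [← conj_smul_conj_smul, ← conj_smul_conj_smul, h, conj_smul_conj_smul, inv_mul_cancel,
      conj_one_smul]
  · rw [← conj_smul_conj_smul, ← conj_smul_conj_smul] at h
    have h3 := congrArg (fun J => MulAut.conj g • J) h
    try simp only at h3
    rwa [conj_smul_conj_smul g g⁻¹, mul_inv_cancel, conj_one_smul] at h3

end CfsgLib.Core
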