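import Cfsg.Agent.Lib.InvolBasic
import Mathlib.GroupTheory.SpecificGroups.Cyclic
import Mathlib.GroupTheory.Sylow
import Mathlib.RingTheory.Coprime.Lemmas
import Mathlib.Tactic

/-!
# Frobenius's theorem on the number of solutions of `x ^ m = 1`
-/

set_option autoImplicit false

namespace CfsgLib.Core.FrobeniusCount

universe u

variable {G : Type u} [Group G]

/-- `C / ⟨y⟩` and `C` have equally many solutions of `z ^ s = 1`, `s` prime to the order of `y`. -/
theorem card_quotient [Finite G] {y : G} (hy : y ∈ Subgroup.center G) {s : ℕ} (hcop : s.Coprime (orderOf y))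
    [(Subgroup.zpowers y).Normal] :
    Nat.card {z : G // z ^ s = 1} = Nat.card {w : G ⧸ Subgroup.zpowers y // w ^ s = 1} := by
  refine Nat.card_congr (Equiv.ofBijective
    (fun z => ⟨(z.1 : G ⧸ Subgroup.zpowers y), by rw [← QuotientGroup.mk_pow, z.2]; rfl⟩) ⟨?_, ?_⟩)
  · rintro ⟨a, ha⟩ ⟨b, hb⟩ h
    obtain ⟨i, hi⟩ := QuotientGroup.eq.1 (congrArg Subtype.val h)
    have hi' : y ^ i = a⁻¹ * b := hi
    have hab : b = a * y ^ i := by rw [hi', mul_inv_cancel_left]
    have hys : (y ^ i) ^ s = 1 := by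
      have hc : Commute a (y ^ i) := Subgroup.mem_center_iff.1 (zpow_mem hy i) a
      rw [hab, hc.mul_pow, ha, one_mul] at hb
      exact hb
    have h1 : orderOf (y ^ i) = 1 := Nat.eq_one_of_dvd_coprimes hcop (orderOf_dvd_of_pow_eq_one hys)
      (orderOf_dvd_of_pow_eq_one (by rw [← zpow_natCast, ← zpow_mul, mul_comm, zpow_mul, zpow_natCast,
        pow_orderOf_eq_one, one_zpow]))
    rw [orderOf_eq_one_iff] at h1
    refine Subtype.ext ?_
    show a = b
    rw [hab, h1, mul_one]
  · rintro ⟨w, hw⟩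
    obtain ⟨z, rfl⟩ := QuotientGroup.mk_surjective w
    rw [← QuotientGroup.mk_pow, QuotientGroup.eq_one_iff] at hw
    obtain ⟨i, hi⟩ := hw
    have hi' : y ^ i = z ^ s := hi
    obtain ⟨a, b, hab⟩ := Nat.Coprime.isCoprime hcop
    refine ⟨⟨z * y ^ (-(i * a)), ?_⟩, Subtype.ext ?_⟩
    · have hc : Commute z (y ^ (-(i * a))) := Subgroup.mem_center_iff.1 (zpow_mem hy _) z
      rw [hc.mul_pow, ← hi', ← zpow_natCast (y ^ _) s, ← zpow_mul, ← zpow_add]
      refine orderOf_dvd_iff_zpow_eq_one.1 ⟨i * b, ?_⟩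
      linear_combination (-i) * hab
    · show ((z * y ^ (-(i * a)) : G) : G ⧸ Subgroup.zpowers y) = z
      exact QuotientGroup.mk_mul_of_mem z (Subgroup.zpow_mem_zpowers y _)

/-- The generators of the subgroups met by `B` are counted by totients. -/
theorem dvd_card_of_zpowers_closed [Finite G] (B : G → Prop) (d : ℕ)
    (hB : ∀ x y : G, Subgroup.zpowers x = Subgroup.zpowers y → B x → B y)
    (hd : ∀ x, B x → d ∣ (orderOf x).totient) : d ∣ Nat.card {x : G // B x} := by
  classical
  haveI := Fintype.ofFinite G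
  rw [Nat.card_eq_fintype_card, Fintype.card_subtype, Finset.card_eq_sum_card_image Subgroup.zpowers]
  refine Finset.dvd_sum fun C hC => ?_
  obtain ⟨x, hx, rfl⟩ := Finset.mem_image.1 hC
  rw [Finset.mem_filter] at hx
  have h1 : ((Finset.univ.filter B).filter fun y => Subgroup.zpowers y = Subgroup.zpowers x).card =
      (Finset.univ.filter fun y : Subgroup.zpowers x => orderOf y = orderOf x).card := by
    refine Finset.card_bij' (fun y hy => ⟨y, ?_⟩) (fun y _ => (y : G)) (fun y hy => ?_) (fun y hy => ?_)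
      (fun y _ => rfl) (fun y _ => rfl)
    · rw [Finset.mem_filter] at hy
      rw [← hy.2]; exact Subgroup.mem_zpowers y
    · rw [Finset.mem_filter] at hy ⊢
      refine ⟨Finset.mem_univ _, ?_⟩
      rw [Subgroup.orderOf_mk, ← Nat.card_zpowers, hy.2, Nat.card_zpowers]
    · rw [Finset.mem_filter] at hy ⊢
      have he : Subgroup.zpowers (y : G) = Subgroup.zpowers x :=
        Subgroup.eq_of_le_of_card_ge (Subgroup.zpowers_le.2 y.2) (by
          rw [Nat.card_zpowers, Nat.card_zpowers, Subgroup.orderOf_coe, hy.2])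
      exact ⟨Finset.mem_filter.2 ⟨Finset.mem_univ _, hB x y he.symm hx.2⟩, he⟩
  rw [h1, IsCyclic.card_orderOf_eq_totient (by rw [← Nat.card_eq_fintype_card, Nat.card_zpowers])]
  exact hd x hx.2

/-- Divisibility from the induction, for an arbitrary exponent. -/
theorem gcd_dvd_card [Finite G]
    (h : ∀ m, m ∣ Nat.card G → m ∣ Nat.card {g : G // g ^ m = 1}) (s : ℕ) :
    Nat.gcd s (Nat.card G) ∣ Nat.card {g : G // g ^ s = 1} := by
  convert h _ (Nat.gcd_dvd_right s (Nat.card G)) using 2
  refine congrArg Subtype (funext fun g => propext ⟨fun hg => ?_, fun hg => ?_⟩)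
  · exact orderOf_dvd_iff_pow_eq_one.1 (Nat.dvd_gcd (orderOf_dvd_of_pow_eq_one hg) (orderOf_dvd_natCard g))
  · exact orderOf_dvd_iff_pow_eq_one.1 ((orderOf_dvd_of_pow_eq_one hg).trans (Nat.gcd_dvd_left _ _))

/-- The solutions of `x ^ (mp) = 1` that are not solutions of `x ^ m = 1`, `p ∤ s`. -/
theorem dvd_card_new [Finite G]
    (ih : ∀ (H : Type u) [Group H] [Finite H], Nat.card H < Nat.card G →
      ∀ m, m ∣ Nat.card H → m ∣ Nat.card {g : H // g ^ m = 1})
    {p : ℕ} (hp : p.Prime) {e s : ℕ} (hps : ¬ p ∣ s) (hdvd : p ^ (e + 1) * s ∣ Nat.card G) :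
    p ^ e * s ∣ Nat.card {x : G // x ^ (p ^ (e + 1) * s) = 1 ∧ x ^ (p ^ e * s) ≠ 1} := by
  classical
  haveI := Fintype.ofFinite G
  have hcop : (p ^ e).Coprime s := (hp.coprime_iff_not_dvd.2 hps).pow_left e
  refine hcop.mul_dvd_of_dvd_of_dvd ?_ ?_
  · refine dvd_card_of_zpowers_closed _ _ (fun x y hxy hx => ?_) (fun x hx => ?_)
    · have ho : orderOf x = orderOf y := by rw [← Nat.card_zpowers, hxy, Nat.card_zpowers]
      rw [← orderOf_dvd_iff_pow_eq_one, Ne, ← orderOf_dvd_iff_pow_eq_one] at hx ⊢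
      rwa [← ho]
    · rw [← orderOf_dvd_iff_pow_eq_one, Ne, ← orderOf_dvd_iff_pow_eq_one] at hx
      have hpd : p ^ (e + 1) ∣ orderOf x := by
        by_contra hcon
        have h2 : Nat.gcd (orderOf x) (p ^ (e + 1)) ∣ p ^ e := by
          obtain ⟨i, hi, hig⟩ := (Nat.dvd_prime_pow hp).1 (Nat.gcd_dvd_right (orderOf x) (p ^ (e + 1)))
          rw [hig]
          refine pow_dvd_pow p ?_
          by_contra hie
          refine hcon ?_
          rw [show e + 1 = i by omega, ← hig]
          exact Nat.gcd_dvd_left _ _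
        refine hx.2 ((Nat.dvd_gcd dvd_rfl hx.1).trans ((Nat.gcd_mul_right_dvd_mul_gcd _ _ _).trans ?_))
        exact mul_dvd_mul h2 (Nat.gcd_dvd_right _ _)
      refine dvd_trans ?_ (Nat.totient_dvd_of_dvd hpd)
      rw [Nat.totient_prime_pow hp (Nat.succ_pos e)]
      exact dvd_mul_of_dvd_left (pow_dvd_pow p (by omega)) _
  · -- the `p`-part
    set Y := {y : G // orderOf y = p ^ (e + 1)} with hY
    obtain ⟨a, b, hab⟩ : ∃ a b : ℤ, a * (p ^ (e + 1) : ℕ) + b * s = 1 :=
      Nat.Coprime.isCoprime ((hp.coprime_iff_not_dvd.2 hps).pow_left (e + 1))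
    have hord : ∀ x : G, x ^ (p ^ (e + 1) * s) = 1 → ∀ i : ℤ, x ^ (((p ^ (e + 1) * s : ℕ) : ℤ) * i) = 1 := fun x hx i => by
      rw [zpow_mul, zpow_natCast, hx, one_zpow]
    let toY : {x : G // x ^ (p ^ (e + 1) * s) = 1 ∧ x ^ (p ^ e * s) ≠ 1} → Y := fun x => ⟨(x : G) ^ (b * s), by
      haveI := Fact.mk hp
      refine orderOf_eq_prime_pow ?_ ?_
      · intro h
        refine x.2.2 ?_
        have hsplit : (x : G) ^ (((p ^ e * s : ℕ)) : ℤ) = ((x : G) ^ (b * s)) ^ ((p ^ e * s : ℕ) : ℤ) *
            (x : G) ^ (((p ^ (e + 1) * s : ℕ) : ℤ) * (a * (p ^ e : ℕ))) := by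
          rw [← zpow_mul, ← zpow_add]
          congr 1
          push_cast at hab ⊢
          linear_combination (-((p : ℤ) ^ e * s)) * hab
        rw [← zpow_natCast, hsplit, hord _ x.2.1, mul_one, Nat.cast_mul, zpow_mul, zpow_natCast _ s, zpow_natCast, h, one_pow]
      · rw [← zpow_natCast, ← zpow_mul, show b * (s : ℤ) * ((p ^ (e + 1) : ℕ) : ℤ) = ((p ^ (e + 1) * s : ℕ) : ℤ) * b by
          push_cast; ring, hord _ x.2.1]⟩
    have hfib : ∀ y : Y, Nat.card {x // toY x = y} =
        Nat.card {z : Subgroup.centralizer ({(y : G)} : Set G) // z ^ s = 1} := by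
      intro y
      have hy1 : (y : G) ^ (p ^ (e + 1)) = 1 := orderOf_dvd_iff_pow_eq_one.1 y.2.dvd
      refine Nat.card_congr
        { toFun := fun x => ⟨⟨(x.1 : G) ^ (a * (p ^ (e + 1) : ℕ)), Subgroup.mem_centralizer_singleton_iff.2 (by
              rw [← congrArg Subtype.val x.2]
              exact ((Commute.refl (x.1 : G)).zpow_zpow _ _).eq)⟩, Subtype.ext (by
              rw [SubmonoidClass.coe_pow, ← zpow_natCast, ← zpow_mul,
                show a * ((p ^ (e + 1) : ℕ) : ℤ) * (s : ℤ) = ((p ^ (e + 1) * s : ℕ) : ℤ) * a by push_cast; ring,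
                hord _ x.1.2.1]
              rfl)⟩
          invFun := fun z => ⟨⟨(y : G) * (z.1 : G), ?_, ?_⟩, ?_⟩
          left_inv := fun x => Subtype.ext (Subtype.ext (by
            show (y : G) * (x.1 : G) ^ (a * ((p ^ (e + 1) : ℕ) : ℤ)) = (x.1 : G)
            rw [← congrArg Subtype.val x.2]
            show (x.1 : G) ^ (b * (s : ℤ)) * _ = _
            rw [← zpow_add, show b * (s : ℤ) + a * ((p ^ (e + 1) : ℕ) : ℤ) = 1 by linear_combination hab, zpow_one]))
          right_inv := fun z => Subtype.ext (Subtype.ext ?_) }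
      · have hc : Commute (y : G) (z.1 : G) := (Subgroup.mem_centralizer_singleton_iff.1 z.1.2).symm
        have hz : (z.1 : G) ^ s = 1 := by rw [← SubmonoidClass.coe_pow, z.2]; rfl
        rw [hc.mul_pow, pow_mul, hy1, one_pow, one_mul, mul_comm, pow_mul, hz, one_pow]
      · intro h
        have hc : Commute (y : G) (z.1 : G) := (Subgroup.mem_centralizer_singleton_iff.1 z.1.2).symm
        have hz : (z.1 : G) ^ s = 1 := by rw [← SubmonoidClass.coe_pow, z.2]; rfl
        rw [hc.mul_pow, mul_comm, pow_mul _ s, pow_mul (z.1 : G) s, hz, one_pow, mul_one, ← pow_mul] at h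
        have h1 := orderOf_dvd_of_pow_eq_one h
        rw [y.2, pow_succ, mul_comm s, Nat.mul_dvd_mul_iff_left (pow_pos hp.pos e)] at h1
        exact hps h1
      · refine Subtype.ext ?_
        show ((y : G) * (z.1 : G)) ^ (b * (s : ℤ)) = (y : G)
        have hc : Commute (y : G) (z.1 : G) := (Subgroup.mem_centralizer_singleton_iff.1 z.1.2).symm
        have hz : (z.1 : G) ^ s = 1 := by rw [← SubmonoidClass.coe_pow, z.2]; rfl
        rw [hc.mul_zpow, mul_comm b (s : ℤ), zpow_mul (z.1 : G), zpow_natCast, hz, one_zpow, mul_one,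
          show (s : ℤ) * b = ((p ^ (e + 1) : ℕ) : ℤ) * (-a) + 1 by linear_combination hab,
          zpow_add, zpow_mul, zpow_natCast, hy1, one_zpow, one_mul, zpow_one]
      · show ((y : G) * (z.1 : G)) ^ (a * ((p ^ (e + 1) : ℕ) : ℤ)) = (z.1 : G)
        have hc : Commute (y : G) (z.1 : G) := (Subgroup.mem_centralizer_singleton_iff.1 z.1.2).symm
        have hz : (z.1 : G) ^ s = 1 := by rw [← SubmonoidClass.coe_pow, z.2]; rfl
        rw [hc.mul_zpow, mul_comm a, zpow_mul (y : G), zpow_natCast, hy1, one_zpow, one_mul,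
          show ((p ^ (e + 1) : ℕ) : ℤ) * a = (s : ℤ) * (-b) + 1 by linear_combination hab,
          zpow_add, zpow_mul, zpow_natCast, hz, one_zpow, one_mul, zpow_one]
    set f : G → ℕ := fun y => Nat.card {z : Subgroup.centralizer ({y} : Set G) // z ^ s = 1} with hf
    have hsum : Nat.card {x : G // x ^ (p ^ (e + 1) * s) = 1 ∧ x ^ (p ^ e * s) ≠ 1} =
        ∑ y ∈ Finset.univ.filter (fun y : G => orderOf y = p ^ (e + 1)), f y := by
      rw [← Nat.card_congr (Equiv.sigmaFiberEquiv toY), Nat.card_sigma,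
        Finset.sum_subtype _ (p := fun y : G => orderOf y = p ^ (e + 1)) (fun y => by simp)]
      exact Finset.sum_congr rfl fun y _ => hfib y
    rw [hsum, ← Finset.sum_fiberwise_of_maps_to (t := (Finset.univ.filter
      (fun y : G => orderOf y = p ^ (e + 1))).image ConjClasses.mk) (g := ConjClasses.mk)
      (fun y hy => Finset.mem_image_of_mem _ hy)]
    refine Finset.dvd_sum fun c hc => ?_
    obtain ⟨y, hy, rfl⟩ := Finset.mem_image.1 hc
    rw [Finset.mem_filter] at hy
    have hset : ((Finset.univ.filter fun z : G => orderOf z = p ^ (e + 1)).filter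
        fun z => ConjClasses.mk z = ConjClasses.mk y) = Finset.univ.filter fun z => IsConj y z := by
      ext z
      simp only [Finset.mem_filter, Finset.mem_univ, true_and, ConjClasses.mk_eq_mk_iff_isConj]
      exact ⟨fun h => h.2.symm, fun h => ⟨(Invol.isConj_orderOf_eq h).symm.trans hy.2, h.symm⟩⟩
    have hconst : ∀ z, IsConj y z → f z = f y := by
      intro z hz
      obtain ⟨g, rfl⟩ := isConj_iff.1 hz
      refine Nat.card_congr (Equiv.subtypeEquiv ((MulAut.conj g).toEquiv.symm.subtypeEquiv fun w => ?_) fun w => ?_)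
      · show w ∈ Subgroup.centralizer {g * y * g⁻¹} ↔ g⁻¹ * w * g ∈ Subgroup.centralizer {y}
        rw [Subgroup.mem_centralizer_singleton_iff, Subgroup.mem_centralizer_singleton_iff]
        constructor
        · intro h
          calc g⁻¹ * w * g * y = g⁻¹ * (w * (g * y * g⁻¹)) * g := by group
            _ = _ := by rw [h]; group
        · intro h
          calc w * (g * y * g⁻¹) = g * (g⁻¹ * w * g * y) * g⁻¹ := by group
            _ = _ := by rw [h]; group
      · rw [Subtype.ext_iff, Subtype.ext_iff, SubmonoidClass.coe_pow, SubmonoidClass.coe_pow]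
        show (w : G) ^ s = 1 ↔ ((MulAut.conj g).symm (w : G)) ^ s = 1
        rw [← map_pow, MulEquiv.map_eq_one_iff]
    rw [hset, Finset.sum_congr rfl (fun z hz => hconst z (Finset.mem_filter.1 hz).2), Finset.sum_const,
      smul_eq_mul, ← Fintype.card_subtype, ← Nat.card_eq_fintype_card, Invol.card_isConj_eq_index]
    -- induction in `C(y) / ⟨y⟩`
    set C := Subgroup.centralizer ({y} : Set G) with hC
    have hyC : y ∈ C := Subgroup.mem_centralizer_singleton_iff.2 rfl
    set yc : C := ⟨y, hyC⟩ with hyc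
    have hycen : yc ∈ Subgroup.center C := Subgroup.mem_center_iff.2 fun w =>
      Subtype.ext (Subgroup.mem_centralizer_singleton_iff.1 w.2)
    haveI : (Subgroup.zpowers yc).Normal := ⟨fun w hw g => by
      rw [Subgroup.mem_center_iff.1 (Subgroup.zpowers_le.2 hycen hw) g, mul_inv_cancel_right]; exact hw⟩
    have hoy : orderOf yc = p ^ (e + 1) := by rw [hyc, Subgroup.orderOf_mk, hy.2]
    have hfy : f y = Nat.card {w : C ⧸ Subgroup.zpowers yc // w ^ s = 1} := card_quotient hycen
      (hoy ▸ ((hp.coprime_iff_not_dvd.2 hps).symm.pow_right (e + 1)))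
    have hcardC := Subgroup.card_eq_card_quotient_mul_card_subgroup (Subgroup.zpowers yc)
    rw [Nat.card_zpowers, hoy] at hcardC
    have hq : 0 < Nat.card (C ⧸ Subgroup.zpowers yc) := Nat.card_pos
    have hlt : Nat.card (C ⧸ Subgroup.zpowers yc) < Nat.card G := by
      refine lt_of_lt_of_le ?_ (Nat.le_of_dvd Nat.card_pos C.card_subgroup_dvd_card)
      rw [hcardC]
      exact lt_mul_of_one_lt_right hq (Nat.one_lt_pow (Nat.succ_ne_zero e) hp.one_lt)
    refine dvd_trans ?_ (mul_dvd_mul_left _ (hfy ▸ gcd_dvd_card (ih _ hlt) s))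
    rw [← Nat.gcd_mul_left]
    refine Nat.dvd_gcd (dvd_mul_left _ _) ?_
    refine (((hp.coprime_iff_not_dvd.2 hps).symm.pow_right (e + 1)).dvd_of_dvd_mul_right ?_)
    rw [mul_assoc, ← hcardC, C.index_mul_card]
    exact (dvd_mul_left s _).trans hdvd

theorem frobenius : ∀ (n : ℕ) (G : Type u) [Group G] [Finite G], Nat.card G ≤ n →
    ∀ m, m ∣ Nat.card G → m ∣ Nat.card {g : G // g ^ m = 1} := by
  intro n
  induction n with
  | zero => intro G _ _ h; exact absurd h (by simp [Nat.card_pos.ne'])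
  | succ n ih =>
    intro G _ _ hn m hm
    suffices h : ∀ k m : ℕ, m * k = Nat.card G → m ∣ Nat.card {g : G // g ^ m = 1} by
      obtain ⟨k, hk⟩ := hm
      exact h k m hk.symm
    intro k
    induction k using Nat.strong_induction_on with
    | _ k ihk =>
      intro m hmk
      by_cases hk1 : k = 1
      · rw [hk1, mul_one] at hmk
        rw [Nat.card_congr (Equiv.subtypeUnivEquiv fun g : G => by rw [hmk]; exact pow_card_eq_one'), hmk]
      obtain ⟨p, hp, k', rfl⟩ := Nat.exists_prime_and_dvd hk1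
      have hk' : 0 < k' := by
        rcases Nat.eq_zero_or_pos k' with rfl | h
        · simp at hmk; exact absurd hmk.symm Nat.card_pos.ne'
        · exact h
      have h1 := ihk k' (lt_mul_of_one_lt_left hk' hp.one_lt) (m * p) (by rw [mul_assoc, hmk])
      have hm0 : m ≠ 0 := fun e => by rw [e, zero_mul] at hmk; exact Nat.card_pos.ne' hmk.symm
      obtain ⟨e, s, hs, rfl⟩ := Nat.exists_eq_pow_mul_and_not_dvd hm0 p hp.ne_one
      have h2 := dvd_card_new (G := G) (fun H _ _ hlt => ih H (by omega)) hp hs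
        (e := e) ⟨k', by rw [← hmk, pow_succ]; ring⟩
      have hsplit : Nat.card {g : G // g ^ (p ^ (e + 1) * s) = 1} = Nat.card {g : G // g ^ (p ^ e * s) = 1} +
          Nat.card {g : G // g ^ (p ^ (e + 1) * s) = 1 ∧ g ^ (p ^ e * s) ≠ 1} := by
        classical
        haveI := Fintype.ofFinite G
        rw [Nat.card_eq_fintype_card, Nat.card_eq_fintype_card, Nat.card_eq_fintype_card, Fintype.card_subtype,
          Fintype.card_subtype, Fintype.card_subtype,
          ← Finset.card_filter_add_card_filter_not (fun g : G => g ^ (p ^ e * s) = 1), Finset.filter_filter,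
          Finset.filter_filter]
        congr 2
        ext g
        simp only [Finset.mem_filter, Finset.mem_univ, true_and, and_iff_right_iff_imp]
        intro hg
        rw [show p ^ (e + 1) * s = p ^ e * s * p by rw [pow_succ]; ring, pow_mul, hg, one_pow]
      rw [show p ^ e * s * p = p ^ (e + 1) * s by rw [pow_succ]; ring] at h1
      have h3 : p ^ e * s ∣ Nat.card {g : G // g ^ (p ^ (e + 1) * s) = 1} :=
        (mul_dvd_mul_right (pow_dvd_pow p (Nat.le_succ e)) s).trans h1
      rw [hsplit] at h3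
      exact (Nat.dvd_add_left h2).1 h3

end CfsgLib.Core.FrobeniusCount
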