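import Cfsg.Agent.Lib.FgsHallHigman

/-!
# The exceptional case of Hall and Higman for a group of class two

The final stage of the counting argument, for a group whose fixed points are the centre.
-/

set_option autoImplicit false

open scoped Classical commutatorElement

universe u

namespace CfsgLib.HallHigman

variable {k : Type*} [Field k] [IsAlgClosed k]

/-- If the fixed points are the centre and a central weight is faithful, the central index is
`(ℓ - 1) ^ 2`. -/
theorem card_central_quotient {s ℓ : ℕ} [Fact s.Prime] (hℓ : ℓ.Prime) (hsℓ : s ≠ ℓ)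
    (hℓk : (ℓ : k) ≠ 0) {N : Type u} [Group N] [Finite N] {W : Type*} [AddCommGroup W] [Module k W]
    [FiniteDimensional k W] (ρ : N →* Module.End k W) (a : MulAut N) (α : Module.End k W)
    (hper : ∀ x, (⇑a)^[ℓ] x = x) (hs : IsPGroup s N) (hsk : (s : k) ≠ 0)
    (hcompat : ∀ x v, α (ρ x v) = ρ (a x) (α v)) (hα : α ^ ℓ = 1)
    (hsum : ∑ i ∈ Finset.range ℓ, α ^ i = 0) (hcl : ∀ x y : N, ⁅x, y⁆ ∈ Subgroup.center N)
    (hCfix : ∀ x, a x = x → x ∈ Subgroup.center N) (hZfix : ∀ z ∈ Subgroup.center N, a z = z)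
    (hZt : Subgroup.center N ≠ ⊤) (lam : Subgroup.center N →* kˣ) (v₀ : W) (hv₀ : v₀ ≠ 0)
    (hχ₀ : ∀ z : Subgroup.center N, ρ (z : N) v₀ = (lam z : k) • v₀)
    (hlaminj : Function.Injective lam) :
    Nat.card (N ⧸ Subgroup.center N) = (ℓ - 1) * (ℓ - 1) := by
  haveI : Fact ℓ.Prime := ⟨hℓ⟩
  have hcopℓ : ¬ ℓ ∣ Nat.card N := fun h => by
    obtain ⟨e, he⟩ := IsPGroup.iff_card.1 hs
    rw [he] at h
    exact hsℓ ((Nat.prime_dvd_prime_iff_eq hℓ (Fact.out : s.Prime)).1 (hℓ.dvd_of_dvd_pow h)).symm
  let U : Submodule k W :=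
    { carrier := {v | ∀ z : Subgroup.center N, ρ (z : N) v = (lam z : k) • v}
      add_mem' := fun {v w} hv hw z => by rw [map_add, hv z, hw z, smul_add]
      zero_mem' := fun z => by rw [map_zero, smul_zero]
      smul_mem' := fun r v hv z => by rw [map_smul, hv z, smul_comm] }
  have hUρ : ∀ g, ∀ v ∈ U, ρ g v ∈ U := fun g v hv z => by
    rw [← Module.End.mul_apply, ← map_mul, ← Subgroup.mem_center_iff.1 z.2 g, map_mul,
      Module.End.mul_apply, hv z, map_smul]
  have hUα : ∀ v ∈ U, α v ∈ U := fun v hv z => by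
    have e := hcompat (z : N) v
    rw [hZfix _ z.2] at e
    rw [← e, hv z, map_smul]
  let ρU := restrictRep ρ U hUρ
  let αU : Module.End k U := α.restrict hUα
  have hαU : ∀ (i : ℕ) (v : U), (((αU ^ i) v : U) : W) = (α ^ i) (v : W) := by
    intro i
    induction i with
    | zero => intro v; rfl
    | succ i ih =>
      intro v
      rw [pow_succ', Module.End.mul_apply, pow_succ', Module.End.mul_apply, ← ih]
      rfl
  have hUnt : (⟨v₀, hχ₀⟩ : U) ≠ 0 := fun h => hv₀ (congrArg Subtype.val h)
  have hlam : ∀ z : Subgroup.center N, ρU (z : N) = (lam z : k) • (1 : Module.End k U) :=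
    fun z => LinearMap.ext fun v => Subtype.ext (v.2 z)
  have hnd : ∀ x : N, x ∉ Subgroup.center N → ∃ y : N, beta hcl lam y x ≠ 1 := by
    intro x hx
    by_contra hc
    push Not at hc
    refine hx (Subgroup.mem_center_iff.2 fun y => ?_)
    have e : lam ⟨⁅y, x⁆, hcl y x⟩ = lam 1 := (Units.ext (hc y)).trans (map_one lam).symm
    exact commutatorElement_eq_one_iff_mul_comm.1 (congrArg Subtype.val (hlaminj e))
  letI : Fintype (N ⧸ Subgroup.center N) := Fintype.ofFinite _
  set m := Fintype.card (N ⧸ Subgroup.center N) with hm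
  obtain ⟨e, he⟩ : ∃ e, m = s ^ e := by
    obtain ⟨e, he⟩ := IsPGroup.iff_card.1 (hs.to_quotient (Subgroup.center N))
    exact ⟨e, by rw [hm, ← Nat.card_eq_fintype_card, he]⟩
  have hmk : (Fintype.card (N ⧸ Subgroup.center N) : k) ≠ 0 := by
    rw [← hm, he, Nat.cast_pow]; exact pow_ne_zero _ hsk
  -- an irreducible subspace
  obtain ⟨U₀, ⟨hU₀b, hU₀i, hU₀U⟩, hmin⟩ := (IsWellFounded.wf (r := ((· < ·) :
    Submodule k W → Submodule k W → Prop))).has_min
      {V | V ≠ ⊥ ∧ (∀ g, ∀ v ∈ V, ρ g v ∈ V) ∧ V ≤ U}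
      ⟨U, (Submodule.ne_bot_iff U).2 ⟨v₀, hχ₀, hv₀⟩, hUρ, le_rfl⟩
  let ρ₀ := restrictRep ρ U₀ hU₀i
  haveI : Nontrivial U₀ := Submodule.nontrivial_iff_ne_bot.2 hU₀b
  have hlam₀ : ∀ z : Subgroup.center N, ρ₀ (z : N) = (lam z : k) • (1 : Module.End k U₀) :=
    fun z => LinearMap.ext fun v => Subtype.ext (hU₀U v.2 z)
  have hone : Module.finrank k (commutant ρ₀) = 1 := by
    refine finrank_eq_one (⟨1, fun y => by rw [mul_one, one_mul]⟩ : commutant ρ₀)
      (fun h => one_ne_zero (congrArg Subtype.val h)) fun T => ?_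
    obtain ⟨c, hc⟩ := Module.End.exists_eigenvalue (T : Module.End k U₀)
    refine ⟨c, Subtype.ext ?_⟩
    set E := (Module.End.eigenspace (T : Module.End k U₀) c).map U₀.subtype with hE
    have hEU : E = U₀ := by
      by_contra hne'
      refine hmin E ⟨?_, ?_, (Submodule.map_subtype_le _ _).trans hU₀U⟩
        (lt_of_le_of_ne (Submodule.map_subtype_le _ _) hne')
      · intro hb
        obtain ⟨w, hw⟩ := hc.exists_hasEigenvector
        have hm' : (w : W) ∈ E := ⟨w, hw.1, rfl⟩
        rw [hb, Submodule.mem_bot] at hm'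
        exact hw.2 (Subtype.ext hm')
      · rintro g _ ⟨w, hw, rfl⟩
        refine ⟨ρ₀ g w, Module.End.mem_eigenspace_iff.2 ?_, rfl⟩
        rw [← Module.End.mul_apply, ← T.2 g, Module.End.mul_apply,
          Module.End.mem_eigenspace_iff.1 hw, map_smul]
    refine LinearMap.ext fun v => ?_
    obtain ⟨w, hw, hwv⟩ : (v : W) ∈ E := by rw [hEU]; exact v.2
    have hwv' : w = v := Subtype.ext hwv
    subst hwv'
    exact (Module.End.mem_eigenspace_iff.1 hw).symm
  have hsq : Module.finrank k U₀ * Module.finrank k U₀ = m := by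
    rw [finrank_end ρ₀ hcl lam hlam₀ hnd hmk, hone, mul_one]
  -- orbits on the quotient
  have hZinv : (Subgroup.center N).map (a : N →* N) = Subgroup.center N :=
    Subgroup.eq_of_le_of_card_ge
      (by rintro _ ⟨z, hz, rfl⟩; show a z ∈ Subgroup.center N; rw [hZfix z hz]; exact hz)
      (Subgroup.card_map_of_injective a.injective).ge
  let ab : MulAut (N ⧸ Subgroup.center N) := QuotientGroup.congr _ _ a hZinv
  have habmk : ∀ x : N, ab (x : N ⧸ Subgroup.center N) = ((a x : N) : N ⧸ Subgroup.center N) :=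
    fun x => rfl
  have habper : ∀ q, (⇑ab)^[ℓ] q = q := by
    intro q
    obtain ⟨x, rfl⟩ := QuotientGroup.mk_surjective q
    have : ∀ i : ℕ, (⇑ab)^[i] (x : N ⧸ Subgroup.center N) =
        (((⇑a)^[i] x : N) : N ⧸ Subgroup.center N) := by
      intro i
      induction i with
      | zero => rfl
      | succ i ih => rw [Function.iterate_succ_apply', Function.iterate_succ_apply', ih, habmk]
    rw [this, hper]
  have habfix : ∀ q, ab q = q ↔ q = 1 := by
    intro q
    refine ⟨fun h => ?_, fun h => by rw [h, map_one]⟩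
    obtain ⟨x, rfl⟩ := QuotientGroup.mk_surjective q
    rw [habmk] at h
    set z := x⁻¹ * a x with hz
    have hzc : z ∈ Subgroup.center N := QuotientGroup.eq.1 h.symm
    have hit : ∀ i : ℕ, (⇑a)^[i] x = x * z ^ i := by
      intro i
      induction i with
      | zero => simp
      | succ i ih =>
        rw [Function.iterate_succ_apply', ih, map_mul, map_pow, hZfix z hzc, pow_succ',
          show a x = x * z by rw [hz, mul_inv_cancel_left], mul_assoc]
    have h1 := hit ℓ
    rw [hper, left_eq_mul] at h1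
    have e1 := Nat.dvd_gcd (orderOf_dvd_of_pow_eq_one h1) (orderOf_dvd_natCard z)
    rw [(hℓ.coprime_iff_not_dvd.2 hcopℓ).gcd_eq_one, Nat.dvd_one, orderOf_eq_one_iff, hz,
      inv_mul_eq_one] at e1
    exact (QuotientGroup.eq_one_iff x).2 (hCfix x e1.symm)
  obtain ⟨S, hScard, hScov⟩ := exists_transversal (⇑ab) hℓ habper 1 habfix
    (Finset.univ.erase 1)
    (fun x hx => Finset.mem_erase.2 ⟨fun h => (Finset.mem_erase.1 hx).1
      (ab.injective (h.trans (map_one ab).symm)), Finset.mem_univ _⟩)
    (by simp)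
  rw [Finset.card_erase_of_mem (Finset.mem_univ _), Finset.card_univ, ← hm] at hScard
  -- the fixed space of the automorphism on endomorphisms of the weight space
  have hαℓ : αU ^ ℓ = 1 := LinearMap.ext fun v => Subtype.ext (by rw [hαU, hα]; rfl)
  have hαsum : ∑ i ∈ Finset.range ℓ, αU ^ i = 0 := LinearMap.ext fun v => Subtype.ext (by
    rw [LinearMap.sum_apply, Submodule.coe_sum, LinearMap.zero_apply, Submodule.coe_zero,
      Finset.sum_congr rfl fun i _ => hαU i v, ← LinearMap.sum_apply, hsum, LinearMap.zero_apply])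
  have hlow := sq_finrank_le αU hℓ hℓk hαℓ hαsum
  set β := αU ^ (ℓ - 1) with hβ
  have hαβ : αU * β = 1 := by rw [hβ, ← pow_succ', Nat.sub_add_cancel hℓ.pos, hαℓ]
  have hβα : β * αU = 1 := by rw [hβ, ← pow_succ, Nat.sub_add_cancel hℓ.pos, hαℓ]
  have hcU : ∀ x, αU * ρU x = ρU (a x) * αU := fun x =>
    LinearMap.ext fun v => Subtype.ext (hcompat x v)
  let Φ := LinearEquiv.ofBijective _ (assemble_bijective ρU hcl lam hlam hnd hmk)
  let S' := insert 1 S
  let Θ : fixSpace αU →ₗ[k] (S' → commutant ρU) :=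
    LinearMap.pi fun q => (LinearMap.proj (q : N ⧸ Subgroup.center N)).comp
      (Φ.symm.toLinearMap.comp (fixSpace αU).subtype)
  have hΘ : Function.Injective Θ := by
    suffices hzero : ∀ T : fixSpace αU, Θ T = 0 → T = 0 by
      intro T₁ T₂ h
      refine sub_eq_zero.1 (hzero _ ?_)
      funext q
      show Φ.symm ((T₁ : Module.End k U) - (T₂ : Module.End k U)) (q : N ⧸ Subgroup.center N) = 0
      rw [map_sub, Pi.sub_apply, sub_eq_zero]
      exact congrFun h q
    intro T hT
    set C := Φ.symm (T : Module.End k U) with hC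
    have hC0 : ∀ q ∈ S', C q = 0 := fun q hq => by
      have := congrFun hT ⟨q, hq⟩
      exact this
    have hTC : assemble ρU C = (T : Module.End k U) := Φ.apply_symm_apply _
    -- conjugate the components
    have hconjc : ∀ (D : commutant ρU), αU * (D : Module.End k U) * β ∈ commutant ρU := by
      intro D y
      obtain ⟨x, rfl⟩ := a.surjective y
      have e2 : ρU x * β = β * ρU (a x) := by
        calc ρU x * β = β * (αU * ρU x) * β := by rw [← mul_assoc β, hβα, one_mul]
          _ = β * ρU (a x) * (αU * β) := by rw [hcU]; simp only [mul_assoc]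
          _ = _ := by rw [hαβ, mul_one]
      calc ρU (a x) * (αU * (D : Module.End k U) * β)
          = αU * ρU x * (D : Module.End k U) * β := by rw [← mul_assoc, ← mul_assoc, ← hcU]
        _ = αU * (D : Module.End k U) * (ρU x * β) := by
              rw [mul_assoc αU, D.2 x]; simp only [mul_assoc]
        _ = _ := by rw [e2]; simp only [mul_assoc]
    have hz : ∀ q : N ⧸ Subgroup.center N, ∃ z : Subgroup.center N,
        a q.out = (ab q).out * (z : N) := by
      intro q
      refine ⟨⟨(ab q).out⁻¹ * a q.out, QuotientGroup.eq.1 ?_⟩, by rw [mul_inv_cancel_left]⟩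
      rw [QuotientGroup.out_eq', ← habmk, QuotientGroup.out_eq']
    choose zq hzq using hz
    let C' : N ⧸ Subgroup.center N → commutant ρU := fun q =>
      (lam (zq (ab.symm q)) : k) • ⟨_, hconjc (C (ab.symm q))⟩
    have hC' : assemble ρU C' = assemble ρU C := by
      have e : assemble ρU C' = αU * assemble ρU C * β := by
        show ∑ q, ρU q.out * ((C' q : commutant ρU) : Module.End k U) =
          αU * (∑ q, ρU q.out * ((C q : commutant ρU) : Module.End k U)) * β
        rw [Finset.mul_sum, Finset.sum_mul]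
        refine (Fintype.sum_equiv ab.toEquiv _ _ fun q => ?_).symm
        show _ = ρU (ab q).out * ((C' (ab q) : commutant ρU) : Module.End k U)
        rw [← mul_assoc, hcU, hzq, map_mul, hlam, mul_smul_comm, mul_one]
        simp only [C', MulEquiv.symm_apply_apply, Submodule.coe_smul, smul_mul_assoc,
          mul_smul_comm, mul_assoc]
      rw [e, hTC, show αU * (T : Module.End k U) = (T : Module.End k U) * αU from T.2, mul_assoc,
        hαβ, mul_one]
    have hrec : C' = C := (assemble_bijective ρU hcl lam hlam hnd hmk).1 hC'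
    have hstep : ∀ q, C q = 0 → C (ab q) = 0 := by
      intro q hq
      rw [← hrec]
      refine Subtype.ext ?_
      simp only [C', MulEquiv.symm_apply_apply, Submodule.coe_smul, hq, Submodule.coe_zero,
        mul_zero, zero_mul, smul_zero]
    have hall : C = 0 := by
      funext q
      by_cases hq : q = 1
      · exact hC0 q (hq ▸ Finset.mem_insert_self _ _)
      obtain ⟨r, hr, i, rfl⟩ := hScov q (Finset.mem_erase.2 ⟨hq, Finset.mem_univ _⟩)
      clear hq
      induction i with
      | zero => exact hC0 r (Finset.mem_insert_of_mem hr)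
      | succ i ih => rw [Function.iterate_succ_apply']; exact hstep _ ih
    apply Subtype.ext
    rw [← hTC, hall, map_zero]
    rfl
  have hup := LinearMap.finrank_le_finrank_of_injective hΘ
  rw [Module.finrank_pi_fintype, Finset.sum_const, Finset.card_univ, Fintype.card_coe,
    smul_eq_mul] at hup
  have hend := finrank_end ρU hcl lam hlam hnd hmk
  rw [← hm] at hend
  haveI : Nontrivial U := ⟨⟨_, 0, hUnt⟩⟩
  have hUpos : 0 < Module.finrank k U := Module.finrank_pos
  have hD0 : 0 < Module.finrank k (commutant ρU) := by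
    rcases Nat.eq_zero_or_pos (Module.finrank k (commutant ρU)) with h0 | h0
    · rw [h0, mul_zero] at hend
      rcases Nat.mul_eq_zero.1 hend with h | h <;> omega
    · exact h0
  have hle : m ≤ (ℓ - 1) * S'.card := by
    refine Nat.le_of_mul_le_mul_right ?_ hD0
    rw [← hend, mul_assoc]
    exact hlow.trans (Nat.mul_le_mul_left _ hup)
  have hS' : S'.card ≤ S.card + 1 := Finset.card_insert_le _ _
  have hmpos : 1 ≤ m := by rw [he]; exact Nat.one_le_pow _ _ (Fact.out : s.Prime).pos
  have hle2 : m ≤ (ℓ - 1) * (ℓ - 1) := by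
    obtain ⟨l', hl'⟩ : ∃ l', ℓ = l' + 1 := ⟨ℓ - 1, (Nat.sub_add_cancel hℓ.pos).symm⟩
    rw [hl', Nat.add_sub_cancel] at hle ⊢
    rw [hl'] at hScard
    have h1 : m ≤ l' * (S.card + 1) := hle.trans (Nat.mul_le_mul_left _ hS')
    have h2 : (l' + 1) * m ≤ (l' + 1) * (l' * (S.card + 1)) := Nat.mul_le_mul_left _ h1
    have h3 : (l' + 1) * (l' * (S.card + 1)) = l' * (m - 1 + (l' + 1)) := by
      rw [← hScard]; ring
    rw [h3] at h2
    obtain ⟨m', hm'⟩ : ∃ m', m = m' + 1 := ⟨m - 1, (Nat.sub_add_cancel hmpos).symm⟩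
    rw [hm', Nat.add_sub_cancel] at h2
    rw [hm']
    nlinarith
  -- numerical contradiction
  set d := Module.finrank k U₀ with hd
  have hd1 : 1 < d := by
    by_contra hc
    have : m ≤ 1 := by rw [← hsq]; exact Nat.mul_le_mul (not_lt.1 hc) (not_lt.1 hc)
    have hm1 : Nat.card (N ⧸ Subgroup.center N) = 1 := by
      rw [Nat.card_eq_fintype_card, ← hm]; omega
    rw [← Subgroup.index_eq_card, Subgroup.index_eq_one] at hm1
    exact hZt hm1
  have hdle : d ≤ ℓ - 1 := Nat.mul_self_le_mul_self_iff.1 (hsq ▸ hle2)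
  have hdvd : ℓ ∣ (d - 1) * (d + 1) := by
    refine ⟨S.card, ?_⟩
    rw [hScard, ← hsq]
    obtain ⟨d', hd'⟩ : ∃ d', d = d' + 1 := ⟨d - 1, by omega⟩
    rw [hd', Nat.add_sub_cancel]
    have : (d' + 1) * (d' + 1) = d' * (d' + 1 + 1) + 1 := by ring
    omega
  have hdℓ : d = ℓ - 1 := by
    rcases hℓ.dvd_mul.1 hdvd with h | h
    · have := Nat.le_of_dvd (by omega) h
      omega
    · have := Nat.le_of_dvd (by omega) h
      omega
  rw [Nat.card_eq_fintype_card, ← hm, ← hsq, hdℓ]

end CfsgLib.HallHigman
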