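import Cfsg.Agent.Lib.CoreHallHigmanFixed
import Cfsg.Agent.Lib.CoreHallHigmanExtra

/-!
# An extraspecial group with an operator of prime order without fixed vectors
-/

set_option autoImplicit false

universe u

namespace CfsgLib.Core.HallHigmanFixed

open Subgroup
open scoped commutatorElement

variable {L : Type u} [Group L] [Finite L] {V : Type*} [CommGroup V] [Finite V]

/-- The exceptional case: the order of the extraspecial group is determined. -/
theorem card_extraspecial {ℓ : ℕ} [hl : Fact ℓ.Prime] (hV : ∀ v : V, v ^ ℓ = 1)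
    (f : L →* MulAut V) {x : L} {r : ℕ} (hr : r.Prime) (hx : x ^ r = 1) (hrl : r ≠ ℓ)
    (hfix : ∀ v, f x v = v → v = 1) {s : ℕ} [hs : Fact s.Prime] (hsr : s ≠ r) (hsl : s ≠ ℓ)
    (Q : Subgroup L) (hQ : IsPGroup s Q) (hZc : Nat.card (center Q) = s)
    (hcl : ∀ a b : Q, ⁅a, b⁆ ∈ center Q) (hZt : center Q ≠ ⊤)
    (hxQ : ∀ q ∈ Q, x * q * x⁻¹ ∈ Q)
    (hC : ∀ q : Q, x * (q : L) * x⁻¹ = q ↔ q ∈ center Q)
    (hfaith : ∀ q ∈ Q, f q = 1 → q = 1) :
    Nat.card (Q ⧸ center Q) = (r - 1) * (r - 1) := by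
  classical
  let K := AlgebraicClosure (ZMod ℓ)
  haveI : CharP K ℓ := charP_of_injective_algebraMap (algebraMap (ZMod ℓ) K).injective ℓ
  have hne : ∀ {p : ℕ}, p.Prime → p ≠ ℓ → (p : K) ≠ 0 := fun hp hpl h =>
    hpl ((Nat.prime_dvd_prime_iff_eq hl.out hp).mp ((CharP.cast_eq_zero_iff K ℓ _).mp h)).symm
  haveI : FiniteDimensional K (Additive V →+ K) := by
    haveI : Fintype (Additive V) := Fintype.ofFinite _
    exact Module.Finite.of_injective
      ({ toFun := fun φ => (φ : Additive V → K), map_add' := fun _ _ => rfl,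
         map_smul' := fun _ _ => rfl } : (Additive V →+ K) →ₗ[K] (Additive V → K))
      DFunLike.coe_injective
  have hxQ' : ∀ q ∈ Q, x⁻¹ * q * x ∈ Q := by
    intro q hq
    have hmap : Q.map (MulAut.conj x).toMonoidHom = Q := by
      refine Subgroup.eq_of_le_of_card_ge ?_ ?_
      · rintro _ ⟨a, ha, rfl⟩
        exact hxQ a ha
      · exact (Subgroup.card_map_of_injective (MulAut.conj x).injective).ge
    obtain ⟨a, ha, e⟩ := hmap.ge hq
    rw [← e]
    simpa [mul_assoc] using ha
  let a : MulAut Q :=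
    { toFun := fun q => ⟨x * q * x⁻¹, hxQ q q.2⟩
      invFun := fun q => ⟨x⁻¹ * q * x, hxQ' q q.2⟩
      left_inv := fun q => Subtype.ext (by simp [mul_assoc])
      right_inv := fun q => Subtype.ext (by simp [mul_assoc])
      map_mul' := fun q q' => Subtype.ext (by simp [mul_assoc]) }
  have hit : ∀ (i : ℕ) (q : Q), (((⇑a)^[i] q : Q) : L) = x ^ i * q * (x ^ i)⁻¹ := by
    intro i
    induction i with
    | zero => simp
    | succ i ih =>
      intro q
      rw [Function.iterate_succ_apply']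
      show x * _ * x⁻¹ = _
      rw [ih, pow_succ']
      group
  have hper : ∀ q : Q, (⇑a)^[r] q = q := fun q => Subtype.ext (by rw [hit, hx]; group)
  obtain ⟨z₀, hz₀⟩ : ∃ z : center Q, z ≠ 1 := by
    by_contra! h
    haveI : Subsingleton (center Q) := ⟨fun a b => (h a).trans (h b).symm⟩
    rw [Nat.card_unique] at hZc
    exact hs.out.ne_one hZc.symm
  have hm : ((rep K f).comp Q.subtype) (z₀ : Q) ≠ 1 := by
    intro h
    refine hz₀ (Subtype.ext (Subtype.ext (hfaith _ ((z₀ : Q) : Q).2 ?_)))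
    refine MulEquiv.ext fun w => ?_
    by_contra hw
    letI : Module (ZMod ℓ) (Additive V) := AddCommGroup.zmodModule fun v => by
      show Additive.ofMul (v.toMul ^ ℓ) = 0
      rw [hV]; rfl
    set e : Additive V := Additive.ofMul (f ((z₀ : Q) : L) w) - Additive.ofMul w with he
    obtain ⟨ψ, hψ⟩ : ∃ ψ : Additive V →+ ZMod ℓ, ψ e ≠ 0 := by
      by_contra! h
      exact hw (Additive.ofMul.injective
        (sub_eq_zero.mp ((Module.forall_dual_apply_eq_zero_iff (ZMod ℓ) e).mp fun χ => h χ.toAddMonoidHom)))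
    let φ : Additive V →+ K := (algebraMap (ZMod ℓ) K).toAddMonoidHom.comp ψ
    have key' : rep K f ((z₀ : Q) : L) = 1 := h
    have h1 := congrArg (fun T : Module.End K (Additive V →+ K) =>
      T φ (Additive.ofMul (f ((z₀ : Q) : L) w))) key'
    simp only [rep_apply, toMul_ofMul, Module.End.one_apply] at h1
    rw [← MulAut.mul_apply, ← map_mul, inv_mul_cancel, map_one, MulAut.one_apply] at h1
    have h2 : φ e = 0 := by rw [he, map_sub, h1, sub_self]
    exact hψ ((algebraMap (ZMod ℓ) K).injective (h2.trans (map_zero _).symm))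

  obtain ⟨lam, ⟨v₀, hv₀, hχ₀⟩, hlamne⟩ := CfsgLib.S3Fpf.exists_weight_ne ((rep K f).comp Q.subtype)
    (center Q) (fun a _ b hb => mem_center_iff.1 hb a) (by rw [hZc]; exact hne hs.out hsl) z₀ hm
  have hlaminj : Function.Injective lam := by
    rw [← MonoidHom.ker_eq_bot_iff]
    haveI : Fact (Nat.card (center Q)).Prime := ⟨hZc.symm ▸ hs.out⟩
    rcases (lam.ker).eq_bot_or_eq_top_of_prime_card with h | h
    · exact h
    · exact absurd (MonoidHom.mem_ker.mp (h ▸ mem_top z₀ : z₀ ∈ lam.ker)) hlamne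
  refine CfsgLib.HallHigman.card_central_quotient (k := K) (s := s) hr hsr (hne hr hrl)
    ((rep K f).comp Q.subtype) a (rep K f x) hper hQ (hne hs.out hsl) ?_ ?_ ?_ hcl
    (fun q hq => (hC q).mp (congrArg Subtype.val hq)) (fun q hq => Subtype.ext ((hC q).mpr hq)) hZt
    lam v₀ hv₀ hχ₀ hlaminj
  · intro q φ
    show rep K f x (rep K f (q : L) φ) = rep K f (x * q * x⁻¹) (rep K f x φ)
    rw [← Module.End.mul_apply, ← Module.End.mul_apply, ← map_mul, ← map_mul, inv_mul_cancel_right]
  · rw [← map_pow, hx, map_one]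
  · refine LinearMap.ext fun φ => AddMonoidHom.ext fun v => ?_
    rw [LinearMap.sum_apply, AddMonoidHom.finsetSum_apply]
    simp only [← map_pow, rep_apply, LinearMap.zero_apply, AddMonoidHom.zero_apply]
    rw [← map_sum, ← ofMul_prod]
    have hn : ∏ i ∈ Finset.range r, f (x ^ i)⁻¹ v.toMul = 1 := by
      simp only [← inv_pow]
      refine norm_eq_one f (by rw [inv_pow, hx, inv_one]) (fun w hw => hfix w ?_) _
      conv_lhs => rw [← hw]
      rw [← MulAut.mul_apply, ← map_mul, mul_inv_cancel, map_one]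
      rfl
    rw [hn, ofMul_one, map_zero]

end CfsgLib.Core.HallHigmanFixed
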