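import Cfsg.Agent.Lib.FgsS3Fpf
import Mathlib.RingTheory.RootsOfUnity.AlgebraicallyClosed
import Mathlib.RingTheory.RootsOfUnity.EnoughRootsOfUnity
import Mathlib.LinearAlgebra.Dimension.Constructions
import Mathlib.Algebra.Order.Chebyshev
import Mathlib.FieldTheory.IsAlgClosed.Basic

/-!
# An automorphism of prime order without fixed vectors centralises a prime power group

The non-exceptional case of the theorem of Hall and Higman on minimal polynomials, by counting
dimensions in the endomorphism algebra.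
-/

set_option autoImplicit false

open scoped Classical commutatorElement

universe u

namespace CfsgLib.HallHigman

variable {k : Type*} [Field k]

/-- a set meeting every orbit of an automorphism of prime order -/
theorem exists_transversal {X : Type*} [DecidableEq X] (f : X → X) {ℓ : ℕ} (hℓ : ℓ.Prime)
    (hper : ∀ x, f^[ℓ] x = x) (x₀ : X) (hx₀ : ∀ x, f x = x ↔ x = x₀) :
    ∀ (T : Finset X), (∀ x ∈ T, f x ∈ T) → x₀ ∉ T →
      ∃ S : Finset X, ℓ * S.card = T.card ∧ ∀ x ∈ T, ∃ s ∈ S, ∃ i : ℕ, f^[i] s = x := by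
  intro T
  induction T using Finset.strongInduction with
  | H T IH =>
    intro hT h₀
    rcases T.eq_empty_or_nonempty with rfl | ⟨x, hx⟩
    · exact ⟨∅, by simp, by simp⟩
    have hit : ∀ i : ℕ, f^[i] x ∈ T := by
      intro i
      induction i with
      | zero => simpa using hx
      | succ i ih => rw [Function.iterate_succ_apply']; exact hT _ ih
    have hne : f x ≠ x := fun e => h₀ ((hx₀ x).1 e ▸ hx)
    have hinj : Set.InjOn (fun i : ℕ => f^[i] x) (Finset.range ℓ : Set ℕ) := by
      intro i hi j hj hij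
      simp only [Finset.coe_range, Set.mem_Iio] at hi hj
      haveI : Fact ℓ.Prime := ⟨hℓ⟩
      have hp : Function.minimalPeriod f x = ℓ := Function.minimalPeriod_eq_prime
        (by rw [Function.IsPeriodicPt, Function.IsFixedPt]; exact hper x) hne
      exact (Function.iterate_injOn_Iio_minimalPeriod) (by rw [hp]; exact hi) (by rw [hp]; exact hj)
        hij
    set O := (Finset.range ℓ).image fun i => f^[i] x with hO
    have hOT : O ⊆ T := by
      intro y hy
      obtain ⟨i, -, rfl⟩ := Finset.mem_image.1 hy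
      exact hit i
    have hOc : O.card = ℓ := by rw [hO, Finset.card_image_of_injOn hinj, Finset.card_range]
    obtain ⟨S, hS, hcov⟩ := IH (T \ O)
      (Finset.sdiff_ssubset hOT ⟨x, Finset.mem_image.2 ⟨0, Finset.mem_range.2 hℓ.pos, rfl⟩⟩)
      (fun y hy => by
        rw [Finset.mem_sdiff] at hy ⊢
        refine ⟨hT y hy.1, fun h => hy.2 ?_⟩
        obtain ⟨i, -, hi⟩ := Finset.mem_image.1 h
        refine Finset.mem_image.2 ⟨(i + ℓ - 1) % ℓ, Finset.mem_range.2 (Nat.mod_lt _ hℓ.pos), ?_⟩
        have hy' : y = f^[ℓ - 1] (f y) := by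
          rw [← Function.iterate_succ_apply, Nat.succ_eq_add_one, Nat.sub_add_cancel hℓ.pos, hper]
        rw [hy', ← hi, ← Function.iterate_add_apply,
          show ℓ - 1 + i = i + ℓ - 1 by have := hℓ.pos; omega]
        have hper' : Function.IsPeriodicPt f ℓ x := hper x
        exact hper'.iterate_mod_apply _)
      (fun h => h₀ (Finset.mem_sdiff.1 h).1)
    by_cases hxS' : x ∈ S
    · -- cannot be counted twice
      refine ⟨S ∪ {f x}, ?_, ?_⟩
      · by_cases hfx : f x ∈ S
        · exfalso
          have hsub : ∀ y ∈ S, ∀ z ∈ S, (∃ i, f^[i] y = z) → y = z := by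
            intro y hy z hz hyz
            by_contra hne'
            have hcount : (T \ O).card ≤ ℓ * (S.erase z).card := by
              have : T \ O ⊆ (S.erase z).biUnion fun s => (Finset.range ℓ).image fun i => f^[i] s := by
                intro w hw
                obtain ⟨s, hs, i, rfl⟩ := hcov w hw
                by_cases hsz : s = z
                · obtain ⟨j, hj⟩ := hyz
                  refine Finset.mem_biUnion.2 ⟨y, Finset.mem_erase.2 ⟨hne', hy⟩,
                    Finset.mem_image.2 ⟨(i + j) % ℓ, Finset.mem_range.2 (Nat.mod_lt _ hℓ.pos), ?_⟩⟩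
                  have hper' : Function.IsPeriodicPt f ℓ y := hper y
                  rw [hper'.iterate_mod_apply, Function.iterate_add_apply, hj, hsz]
                · refine Finset.mem_biUnion.2 ⟨s, Finset.mem_erase.2 ⟨hsz, hs⟩,
                    Finset.mem_image.2 ⟨i % ℓ, Finset.mem_range.2 (Nat.mod_lt _ hℓ.pos), ?_⟩⟩
                  have hper' : Function.IsPeriodicPt f ℓ s := hper s
                  exact hper'.iterate_mod_apply _
              refine (Finset.card_le_card this).trans (Finset.card_biUnion_le.trans ?_)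
              rw [mul_comm]
              refine (Finset.sum_le_card_nsmul _ _ ℓ fun s _ => ?_).trans (by simp)
              exact Finset.card_image_le.trans (by simp)
            rw [Finset.card_erase_of_mem hz, ← hS] at hcount
            have := Finset.card_pos.2 ⟨z, hz⟩
            have := Nat.le_of_mul_le_mul_left hcount hℓ.pos
            omega
          exact hne (hsub x hxS' (f x) hfx ⟨1, rfl⟩).symm
        · rw [Finset.card_union_of_disjoint (by simpa using hfx), Finset.card_singleton, mul_add,
            hS, mul_one, Finset.card_sdiff_of_subset hOT, hOc]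
          have := Finset.card_le_card hOT
          omega
      · intro y hy
        by_cases hyO : y ∈ O
        · obtain ⟨i, -, rfl⟩ := Finset.mem_image.1 hyO
          exact ⟨x, Finset.mem_union_left _ hxS', i, rfl⟩
        · obtain ⟨s, hs, i, rfl⟩ := hcov y (Finset.mem_sdiff.2 ⟨hy, hyO⟩)
          exact ⟨s, Finset.mem_union_left _ hs, i, rfl⟩
    · refine ⟨insert x S, ?_, ?_⟩
      · rw [Finset.card_insert_of_notMem hxS', mul_add, hS, mul_one,
          Finset.card_sdiff_of_subset hOT, hOc]
        have := Finset.card_le_card hOT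
        omega
      · intro y hy
        by_cases hyO : y ∈ O
        · obtain ⟨i, -, rfl⟩ := Finset.mem_image.1 hyO
          exact ⟨x, Finset.mem_insert_self _ _, i, rfl⟩
        · obtain ⟨s, hs, i, rfl⟩ := hcov y (Finset.mem_sdiff.2 ⟨hy, hyO⟩)
          exact ⟨s, Finset.mem_insert_of_mem hs, i, rfl⟩

/-! ### The endomorphism algebra of a central character -/

section Decomp

variable {N : Type*} [Group N] [Finite N] {W : Type*} [AddCommGroup W] [Module k W]
variable (ρ : N →* Module.End k W)

/-- the commutant -/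
def commutant : Submodule k (Module.End k W) where
  carrier := {T | ∀ y, ρ y * T = T * ρ y}
  add_mem' := fun {S T} hS hT y => by rw [mul_add, add_mul, hS y, hT y]
  zero_mem' := fun y => by rw [mul_zero, zero_mul]
  smul_mem' := fun r T hT y => by rw [mul_smul_comm, smul_mul_assoc, hT y]

variable (hcl : ∀ a b : N, ⁅a, b⁆ ∈ Subgroup.center N) (lam : Subgroup.center N →* kˣ)
variable (hlam : ∀ z : Subgroup.center N, ρ (z : N) = (lam z : k) • (1 : Module.End k W))

/-- the commutator pairing -/
def beta (y u : N) : k := (lam ⟨⁅y, u⁆, hcl y u⟩ : k)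

omit [Finite N] in
theorem beta_mul_left (y z u : N) :
    beta hcl lam (y * z) u = beta hcl lam y u * beta hcl lam z u := by
  simp only [beta, ← Units.val_mul, ← map_mul]
  congr 2
  apply Subtype.ext
  show ⁅y * z, u⁆ = ⁅y, u⁆ * ⁅z, u⁆
  rw [show ⁅y * z, u⁆ = y * ⁅z, u⁆ * y⁻¹ * ⁅y, u⁆ by simp only [commutatorElement_def]; group,
    Subgroup.mem_center_iff.1 (hcl z u) y, mul_inv_cancel_right,
    ← Subgroup.mem_center_iff.1 (hcl z u) ⁅y, u⁆]

omit [Finite N] in
theorem beta_mul_right (y u v : N) :
    beta hcl lam y (u * v) = beta hcl lam y u * beta hcl lam y v := by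
  simp only [beta, ← Units.val_mul, ← map_mul]
  congr 2
  apply Subtype.ext
  show ⁅y, u * v⁆ = ⁅y, u⁆ * ⁅y, v⁆
  rw [show ⁅y, u * v⁆ = ⁅y, u⁆ * (u * ⁅y, v⁆ * u⁻¹) by simp only [commutatorElement_def]; group,
    Subgroup.mem_center_iff.1 (hcl y v) u, mul_inv_cancel_right]

omit [Finite N] in
theorem beta_center_left {z : N} (hz : z ∈ Subgroup.center N) (u : N) : beta hcl lam z u = 1 := by
  have e : (⟨⁅z, u⁆, hcl z u⟩ : Subgroup.center N) = 1 :=
    Subtype.ext (commutatorElement_eq_one_iff_mul_comm.2 (Subgroup.mem_center_iff.1 hz u).symm)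
  rw [beta, e, map_one, Units.val_one]

omit [Finite N] in
theorem beta_center_right {z : N} (hz : z ∈ Subgroup.center N) (y : N) : beta hcl lam y z = 1 := by
  have e : (⟨⁅y, z⁆, hcl y z⟩ : Subgroup.center N) = 1 :=
    Subtype.ext (commutatorElement_eq_one_iff_mul_comm.2 (Subgroup.mem_center_iff.1 hz y))
  rw [beta, e, map_one, Units.val_one]

include hlam in
omit [Finite N] in
theorem rho_swap (y u : N) : ρ y * ρ u = beta hcl lam y u • (ρ u * ρ y) := by
  rw [← map_mul, ← map_mul, show y * u = ⁅y, u⁆ * (u * y) by simp only [commutatorElement_def]; group,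
    map_mul, hlam ⟨_, hcl y u⟩, smul_mul_assoc, one_mul]
  rfl

omit [Finite N] in
theorem beta_ne_zero (y u : N) : beta hcl lam y u ≠ 0 := Units.ne_zero _

variable (hnd : ∀ x : N, x ∉ Subgroup.center N → ∃ y : N, beta hcl lam y x ≠ 1)
variable [Fintype (N ⧸ Subgroup.center N)]

include hnd in
/-- orthogonality -/
theorem sum_beta {x : N} (hx : x ∉ Subgroup.center N) :
    ∑ q : N ⧸ Subgroup.center N, beta hcl lam q.out x = 0 := by
  obtain ⟨y, hy⟩ := hnd x hx
  have hout : ∀ w : N, beta hcl lam (w : N ⧸ Subgroup.center N).out x = beta hcl lam w x := by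
    intro w
    obtain ⟨z, hz⟩ := QuotientGroup.mk_out_eq_mul (Subgroup.center N) w
    rw [hz, beta_mul_left, beta_center_left hcl lam z.2, mul_one]
  have h : ∑ q : N ⧸ Subgroup.center N, beta hcl lam q.out x =
      beta hcl lam y x * ∑ q : N ⧸ Subgroup.center N, beta hcl lam q.out x := by
    rw [Finset.mul_sum]
    refine (Fintype.sum_equiv (Equiv.mulLeft (y : N ⧸ Subgroup.center N)) _ _ fun q => ?_).symm
    obtain ⟨w, rfl⟩ := QuotientGroup.mk_surjective q
    simp only [Equiv.coe_mulLeft, ← QuotientGroup.mk_mul, hout, beta_mul_left]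
  by_contra hne
  exact hy (mul_right_cancel₀ hne ((one_mul _).trans h)).symm

include hnd in
theorem sum_beta' {x : N} (hx : x ∉ Subgroup.center N) :
    ∑ q : N ⧸ Subgroup.center N, beta hcl lam x q.out = 0 := by
  have hx' : x⁻¹ ∉ Subgroup.center N := fun h => hx (by simpa using inv_mem h)
  rw [← sum_beta hcl lam hnd hx']
  refine Finset.sum_congr rfl fun q _ => ?_
  -- `β(x,u) = β(u,x⁻¹)`
  have e : beta hcl lam q.out x⁻¹ * beta hcl lam q.out x = 1 := by
    rw [← beta_mul_right, inv_mul_cancel, beta_center_right hcl lam (one_mem _)]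
  have e2 : beta hcl lam x q.out * beta hcl lam q.out x = 1 := by
    simp only [beta, ← Units.val_mul, ← map_mul]
    have : (⟨⁅x, q.out⁆, hcl _ _⟩ : Subgroup.center N) * ⟨⁅q.out, x⁆, hcl _ _⟩ = 1 :=
      Subtype.ext (by
        show ⁅x, q.out⁆ * ⁅q.out, x⁆ = 1
        rw [← commutatorElement_inv, inv_mul_cancel])
    rw [this, map_one, Units.val_one]
  exact mul_right_cancel₀ (beta_ne_zero hcl lam _ _) (e2.trans e.symm)

/-- reassembling an endomorphism from its components -/
noncomputable def assemble :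
    (N ⧸ Subgroup.center N → commutant ρ) →ₗ[k] Module.End k W where
  toFun C := ∑ q, ρ q.out * (C q : Module.End k W)
  map_add' C D := by
    rw [← Finset.sum_add_distrib]
    exact Finset.sum_congr rfl fun q _ => by rw [Pi.add_apply, Submodule.coe_add, mul_add]
  map_smul' r C := by
    rw [RingHom.id_apply, Finset.smul_sum]
    exact Finset.sum_congr rfl fun q _ => by
      rw [Pi.smul_apply, Submodule.coe_smul, mul_smul_comm]

include hlam in
theorem conj_component (y u : N) (C : commutant ρ) :
    ρ y * (ρ u * (C : Module.End k W)) * ρ y⁻¹ =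
      beta hcl lam y u • (ρ u * (C : Module.End k W)) := by
  rw [← mul_assoc (ρ y), rho_swap ρ hcl lam hlam y u, smul_mul_assoc, smul_mul_assoc,
    mul_assoc (ρ u) (ρ y), C.2 y, ← mul_assoc (ρ u), mul_assoc (ρ u * (C : Module.End k W)),
    ← map_mul, mul_inv_cancel, map_one, mul_one]

include hlam hnd in
theorem assemble_bijective (hm : (Fintype.card (N ⧸ Subgroup.center N) : k) ≠ 0) :
    Function.Bijective (assemble ρ) := by
  set m : k := (Fintype.card (N ⧸ Subgroup.center N) : k)
  -- projection onto a component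
  let P : N → Module.End k W → Module.End k W := fun u T =>
    ∑ p : N ⧸ Subgroup.center N, (beta hcl lam p.out u)⁻¹ • (ρ p.out * T * ρ (p.out)⁻¹)
  have hdelta : ∀ a b : N ⧸ Subgroup.center N, ∑ p : N ⧸ Subgroup.center N,
      (beta hcl lam p.out a.out)⁻¹ * beta hcl lam p.out b.out = if a = b then m else 0 := by
    intro a b
    split_ifs with h
    · subst h
      rw [Finset.sum_congr rfl fun p _ => inv_mul_cancel₀ (beta_ne_zero hcl lam _ _),
        Finset.sum_const, Finset.card_univ, nsmul_eq_mul, mul_one]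
    · have hx : a.out⁻¹ * b.out ∉ Subgroup.center N := fun hmem => h (by
        rw [← QuotientGroup.out_eq' a, ← QuotientGroup.out_eq' b]
        exact QuotientGroup.eq.2 hmem)
      rw [← sum_beta hcl lam hnd hx]
      refine Finset.sum_congr rfl fun p _ => ?_
      rw [beta_mul_right]
      congr 1
      refine inv_eq_of_mul_eq_one_right ?_
      rw [← beta_mul_right, mul_inv_cancel, beta_center_right hcl lam (one_mem _)]
  have hP : ∀ (C : N ⧸ Subgroup.center N → commutant ρ) (a : N ⧸ Subgroup.center N),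
      P a.out (assemble ρ C) = m • (ρ a.out * (C a : Module.End k W)) := by
    intro C a
    show ∑ p : N ⧸ Subgroup.center N, (beta hcl lam p.out a.out)⁻¹ •
      (ρ p.out * (∑ b, ρ b.out * (C b : Module.End k W)) * ρ (p.out)⁻¹) = _
    simp only [Finset.mul_sum, Finset.sum_mul, conj_component ρ hcl lam hlam, Finset.smul_sum,
      smul_smul]
    rw [Finset.sum_comm]
    simp only [← Finset.sum_smul, hdelta, ite_smul, zero_smul, Finset.sum_ite_eq,
      Finset.mem_univ, if_true]
  constructor
  · intro C D h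
    funext a
    apply Subtype.ext
    have e := (hP C a).symm.trans ((congrArg (P a.out) h).trans (hP D a))
    have e' := congrArg (fun T => ρ (a.out)⁻¹ * T) ((smul_right_injective _ hm) e)
    simpa [← mul_assoc, ← map_mul] using e'
  · intro T
    -- the components lie in the commutant
    have hcomp : ∀ a : N ⧸ Subgroup.center N,
        m⁻¹ • (ρ (a.out)⁻¹ * P a.out T) ∈ commutant ρ := by
      intro a y
      set u := a.out
      have hout : ∀ w : N, ∃ z ∈ Subgroup.center N, (w : N ⧸ Subgroup.center N).out = w * z :=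
        fun w => by
          obtain ⟨z, hz⟩ := QuotientGroup.mk_out_eq_mul (Subgroup.center N) w
          exact ⟨z, z.2, hz⟩
      have hPy : ρ y * P u T * ρ y⁻¹ = beta hcl lam y u • P u T := by
        show ρ y * (∑ p : N ⧸ Subgroup.center N, _) * ρ y⁻¹ =
          beta hcl lam y u • ∑ p : N ⧸ Subgroup.center N, _
        rw [Finset.mul_sum, Finset.sum_mul, Finset.smul_sum]
        refine Fintype.sum_equiv (Equiv.mulLeft (y : N ⧸ Subgroup.center N)) _ _ fun p => ?_
        obtain ⟨z, hz, he⟩ := hout (y * p.out)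
        have hp : (Equiv.mulLeft (y : N ⧸ Subgroup.center N)) p =
            ((y * p.out : N) : N ⧸ Subgroup.center N) := by
          rw [Equiv.coe_mulLeft, QuotientGroup.mk_mul, QuotientGroup.out_eq']
        rw [hp, he, beta_mul_left, beta_mul_left, beta_center_left hcl lam hz, mul_one,
          smul_smul, mul_inv, ← mul_assoc, mul_inv_cancel₀ (beta_ne_zero hcl lam _ _), one_mul]
        rw [mul_smul_comm, smul_mul_assoc]
        congr 1
        rw [map_mul, map_mul, hlam ⟨z, hz⟩, mul_inv_rev, map_mul, show (z⁻¹ : N) =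
          ((⟨z, hz⟩⁻¹ : Subgroup.center N) : N) from rfl, hlam, mul_inv_rev, map_mul]
        simp only [mul_smul_comm, smul_mul_assoc, mul_one, one_mul, smul_smul]
        rw [show ((lam ⟨z, hz⟩⁻¹ : kˣ) : k) * (lam ⟨z, hz⟩ : k) = 1 by
          rw [← Units.val_mul, ← map_mul, inv_mul_cancel, map_one, Units.val_one], one_smul]
        simp only [mul_assoc]
      rw [mul_smul_comm, smul_mul_assoc]
      congr 1
      have hswap : ρ y * ρ u⁻¹ = beta hcl lam y u⁻¹ • (ρ u⁻¹ * ρ y) := rho_swap ρ hcl lam hlam y u⁻¹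
      have e1 : ρ y * P u T = beta hcl lam y u • (P u T * ρ y) := by
        have := congrArg (fun S => S * ρ y) hPy
        simpa [mul_assoc, ← map_mul, smul_mul_assoc] using this
      rw [← mul_assoc, hswap, smul_mul_assoc, mul_assoc, e1, mul_smul_comm, smul_smul,
        ← beta_mul_right, inv_mul_cancel, beta_center_right hcl lam (one_mem _), one_smul,
        mul_assoc]
    refine ⟨fun a => ⟨_, hcomp a⟩, ?_⟩
    show ∑ a : N ⧸ Subgroup.center N, ρ a.out * (m⁻¹ • (ρ (a.out)⁻¹ * P a.out T)) = T
    simp only [mul_smul_comm, ← mul_assoc, ← map_mul, mul_inv_cancel, map_one, one_mul]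
    rw [← Finset.smul_sum]
    show m⁻¹ • ∑ a : N ⧸ Subgroup.center N, ∑ p : N ⧸ Subgroup.center N, _ = T
    rw [Finset.sum_comm]
    simp only [← Finset.sum_smul]
    rw [Finset.sum_eq_single (1 : N ⧸ Subgroup.center N)]
    · have hc : (1 : N ⧸ Subgroup.center N).out ∈ Subgroup.center N := by
        rw [← QuotientGroup.eq_one_iff, QuotientGroup.out_eq']
      rw [Finset.sum_congr rfl fun a _ => by rw [beta_center_left hcl lam hc, inv_one],
        Finset.sum_const, Finset.card_univ, nsmul_eq_mul, mul_one, smul_smul,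
        inv_mul_cancel₀ hm, one_smul, hlam ⟨_, hc⟩, show ((1 : N ⧸ Subgroup.center N).out)⁻¹ =
          ((⟨_, hc⟩⁻¹ : Subgroup.center N) : N) from rfl, hlam]
      simp only [mul_smul_comm, smul_mul_assoc, mul_one, one_mul, smul_smul]
      rw [← Units.val_mul, ← map_mul, inv_mul_cancel, map_one, Units.val_one, one_smul]
    · intro p _ hp
      have hpc : (p.out)⁻¹ ∉ Subgroup.center N := fun h => hp (by
        rw [← QuotientGroup.out_eq' p, QuotientGroup.eq_one_iff]
        simpa using inv_mem h)
      rw [Finset.sum_congr rfl fun a _ => (inv_eq_of_mul_eq_one_right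
        (show beta hcl lam p.out a.out * beta hcl lam (p.out)⁻¹ a.out = 1 by
          rw [← beta_mul_left, mul_inv_cancel, beta_center_left hcl lam (one_mem _)])),
        sum_beta' hcl lam hnd hpc, zero_smul]
    · intro h; exact absurd (Finset.mem_univ _) h

include hlam hnd in
theorem finrank_end [FiniteDimensional k W]
    (hm : (Fintype.card (N ⧸ Subgroup.center N) : k) ≠ 0) :
    Module.finrank k W * Module.finrank k W =
      Fintype.card (N ⧸ Subgroup.center N) * Module.finrank k (commutant ρ) := by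
  rw [← Module.finrank_linearMap k k W W, ← (LinearEquiv.ofBijective _
    (assemble_bijective ρ hcl lam hlam hnd hm)).finrank_eq, Module.finrank_pi_fintype,
    Finset.sum_const, Finset.card_univ, smul_eq_mul]

end Decomp

/-! ### Fixed-point-free operators of prime order -/

section Fixed

variable {W : Type*} [AddCommGroup W] [Module k W] [FiniteDimensional k W]

/-- the centraliser of an operator -/
def fixSpace (α : Module.End k W) : Submodule k (Module.End k W) where
  carrier := {T | α * T = T * α}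
  add_mem' := fun {S T} hS hT => by
    show α * (S + T) = (S + T) * α
    rw [mul_add, add_mul, show α * S = S * α from hS, show α * T = T * α from hT]
  zero_mem' := by show α * 0 = 0 * α; rw [mul_zero, zero_mul]
  smul_mem' := fun r T hT => by
    show α * (r • T) = (r • T) * α
    rw [mul_smul_comm, smul_mul_assoc, show α * T = T * α from hT]

variable [IsAlgClosed k]

theorem sq_finrank_le (α : Module.End k W) {ℓ : ℕ} (hℓ : ℓ.Prime) (hℓk : (ℓ : k) ≠ 0)
    (hα : α ^ ℓ = 1) (hsum : ∑ i ∈ Finset.range ℓ, α ^ i = 0) :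
    Module.finrank k W * Module.finrank k W ≤ (ℓ - 1) * Module.finrank k (fixSpace α) := by
  haveI : NeZero (ℓ : k) := ⟨hℓk⟩
  haveI : NeZero ℓ := ⟨hℓ.ne_zero⟩
  obtain ⟨ω, hω⟩ := HasEnoughRootsOfUnity.exists_primitiveRoot k ℓ
  set P : ℕ → Module.End k W :=
    fun j => (ℓ : k)⁻¹ • ∑ i ∈ Finset.range ℓ, (ω ^ j) ^ i • α ^ i with hP
  have hω1 : ∀ j, (ω ^ j) ^ ℓ = 1 := fun j => by
    rw [← pow_mul, mul_comm, pow_mul, hω.pow_eq_one, one_pow]
  have hω0 : ∀ j, ω ^ j ≠ 0 := fun j => pow_ne_zero _ (hω.ne_zero hℓ.ne_zero)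
  have hPα : ∀ j, P j * α = (ω ^ j)⁻¹ • P j := by
    intro j
    rw [hP]
    simp only [smul_mul_assoc, Finset.sum_mul, ← pow_succ]
    rw [smul_comm ((ω ^ j)⁻¹)]
    congr 1
    rw [Finset.smul_sum]
    refine Finset.sum_bij (fun i _ => (i + 1) % ℓ) (fun i _ => Finset.mem_range.2
      (Nat.mod_lt _ hℓ.pos)) ?_ ?_ ?_
    · intro i hi j' hj h
      rw [Finset.mem_range] at hi hj
      exact Nat.ModEq.eq_of_lt_of_lt (Nat.ModEq.add_right_cancel' 1 h) hi hj
    · intro b hb
      rw [Finset.mem_range] at hb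
      refine ⟨(b + ℓ - 1) % ℓ, Finset.mem_range.2 (Nat.mod_lt _ hℓ.pos), ?_⟩
      rw [Nat.mod_add_mod, show b + ℓ - 1 + 1 = b + ℓ by have := hℓ.pos; omega,
        Nat.add_mod_right, Nat.mod_eq_of_lt hb]
    · intro i hi
      rw [← pow_eq_pow_mod _ hα, ← pow_eq_pow_mod _ (hω1 j), smul_smul, pow_succ (ω ^ j),
        mul_comm ((ω ^ j)⁻¹), mul_assoc, mul_inv_cancel₀ (hω0 j), mul_one]
  have hαP : ∀ j, α * P j = (ω ^ j)⁻¹ • P j := by
    intro j
    rw [← hPα j, hP]
    simp only [mul_smul_comm, smul_mul_assoc, Finset.sum_mul, Finset.mul_sum]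
    congr 1
    exact Finset.sum_congr rfl fun i _ => by rw [← pow_succ', ← pow_succ]
  have hPv : ∀ (j l : ℕ) (v : W), α v = (ω ^ l)⁻¹ • v → j < ℓ → l < ℓ →
      P j v = if j = l then v else 0 := by
    intro j l v hv hj hl
    have hpow : ∀ i : ℕ, (α ^ i) v = ((ω ^ l)⁻¹) ^ i • v := by
      intro i
      induction i with
      | zero => simp
      | succ i ih => rw [pow_succ', Module.End.mul_apply, ih, map_smul, hv, smul_smul, pow_succ]
    rw [hP]
    simp only [LinearMap.smul_apply, LinearMap.sum_apply, hpow, smul_smul, ← mul_pow,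
      ← Finset.sum_smul]
    split_ifs with h
    · subst h
      simp only [mul_inv_cancel₀ (hω0 _), one_pow, Finset.sum_const, Finset.card_range,
        nsmul_eq_mul, mul_one, inv_mul_cancel₀ hℓk, one_smul]
    · have hne : ω ^ j * (ω ^ l)⁻¹ ≠ 1 := fun e => h (hω.pow_inj hj hl
        (mul_inv_eq_one₀ (hω0 l) |>.1 e))
      have hg := geom_sum_mul (ω ^ j * (ω ^ l)⁻¹) ℓ
      rw [mul_pow, inv_pow, hω1, hω1, inv_one, mul_one, sub_self] at hg
      rw [(mul_eq_zero.1 hg).resolve_right (sub_ne_zero.2 hne), mul_zero, zero_smul]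
  have hP0 : P 0 = 0 := by
    rw [hP]
    simp only [pow_zero, one_pow, one_smul, hsum, smul_zero]
  have hPsum : ∑ j ∈ Finset.range ℓ, P j = 1 := by
    rw [hP]
    simp only [← Finset.smul_sum]
    rw [Finset.sum_comm, Finset.sum_eq_single 0]
    · simp only [pow_zero, one_smul, Finset.sum_const, Finset.card_range]
      rw [← Nat.cast_smul_eq_nsmul k, smul_smul, inv_mul_cancel₀ hℓk, one_smul]
    · intro i hi hi0
      rw [← Finset.sum_smul]
      have hne : ω ^ i ≠ 1 := hω.pow_ne_one_of_pos_of_lt hi0 (Finset.mem_range.1 hi)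
      have hg := geom_sum_mul (ω ^ i) ℓ
      rw [hω1, sub_self] at hg
      have := (mul_eq_zero.1 hg).resolve_right (sub_ne_zero.2 hne)
      rw [Finset.sum_congr rfl fun j _ => (by rw [← pow_mul, ← pow_mul, mul_comm] :
        (ω ^ j) ^ i = (ω ^ i) ^ j), this, zero_smul]
    · intro h; exact absurd (Finset.mem_range.2 hℓ.pos) h
  -- the eigenspaces
  let R : Fin (ℓ - 1) → Submodule k W := fun j => LinearMap.range (P (j + 1))
  have hR : ∀ (j : Fin (ℓ - 1)), ∀ v ∈ R j, α v = (ω ^ ((j : ℕ) + 1))⁻¹ • v := by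
    rintro j _ ⟨w, rfl⟩
    exact congrArg (fun T : Module.End k W => T w) (hαP _)
  have hspan : Module.finrank k W ≤ ∑ j, Module.finrank k (R j) := by
    let σ : (∀ j, R j) →ₗ[k] W := ∑ j, (R j).subtype.comp (LinearMap.proj j)
    have hσ : Function.Surjective σ := by
      intro v
      refine ⟨fun j => ⟨P (j + 1) v, ⟨v, rfl⟩⟩, ?_⟩
      simp only [σ, LinearMap.sum_apply, LinearMap.comp_apply, LinearMap.proj_apply,
        Submodule.subtype_apply]
      conv_rhs => rw [show v = (∑ j ∈ Finset.range ℓ, P j) v by rw [hPsum, Module.End.one_apply],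
        LinearMap.sum_apply, show ℓ = ℓ - 1 + 1 by have := hℓ.pos; omega, Finset.sum_range_succ',
        hP0, LinearMap.zero_apply, add_zero, ← Fin.sum_univ_eq_sum_range (fun i => P (i + 1) v)]
    calc Module.finrank k W = Module.finrank k (LinearMap.range σ) := by
          rw [LinearMap.range_eq_top.2 hσ, finrank_top]
      _ ≤ Module.finrank k (∀ j, R j) := LinearMap.finrank_range_le σ
      _ = _ := Module.finrank_pi_fintype k
  let Φ : (∀ j, Module.End k (R j)) →ₗ[k] fixSpace α :=
    { toFun := fun T => ⟨∑ j, (R j).subtype.comp ((T j).comp (P (j + 1)).rangeRestrict), by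
        show α * _ = _ * α
        rw [Finset.mul_sum, Finset.sum_mul]
        refine Finset.sum_congr rfl fun j _ => LinearMap.ext fun v => ?_
        show α ((T j ((P (j + 1)).rangeRestrict v) : R j) : W) =
          ((T j ((P (j + 1)).rangeRestrict (α v)) : R j) : W)
        have e : (P (j + 1)).rangeRestrict (α v) =
            (ω ^ ((j : ℕ) + 1))⁻¹ • (P (j + 1)).rangeRestrict v :=
          Subtype.ext (congrArg (fun T : Module.End k W => T v) (hPα _))
        rw [e, map_smul, Submodule.coe_smul, hR j _ (T j _).2]⟩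
      map_add' := fun S T => Subtype.ext (LinearMap.ext fun v => by
        simp [Finset.sum_add_distrib])
      map_smul' := fun r T => Subtype.ext (LinearMap.ext fun v => by
        simp [Finset.smul_sum]) }
  have hΦ : Function.Injective Φ := by
    intro S T h
    funext j
    refine LinearMap.ext fun v => Subtype.ext ?_
    have h' := congrArg (fun U : fixSpace α => (U : Module.End k W) (v : W)) h
    have key : ∀ U : ∀ j, Module.End k (R j), (Φ U : Module.End k W) (v : W) = (U j v : W) := by
      intro U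
      show (∑ l, (R l).subtype.comp ((U l).comp (P (l + 1)).rangeRestrict)) (v : W) = _
      rw [LinearMap.sum_apply, Finset.sum_eq_single j]
      · show ((U j ((P (j + 1)).rangeRestrict (v : W)) : R j) : W) = _
        congr 2
        refine Subtype.ext ?_
        show P (j + 1) (v : W) = v
        rw [hPv _ _ _ (hR j v v.2) (by omega) (by omega), if_pos rfl]
      · intro l _ hl
        show ((U l ((P (l + 1)).rangeRestrict (v : W)) : R l) : W) = 0
        have e : (P (l + 1)).rangeRestrict (v : W) = 0 := Subtype.ext (by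
          show P (l + 1) (v : W) = 0
          rw [hPv _ _ _ (hR j v v.2) (by omega) (by omega),
            if_neg (by intro e; exact hl (Fin.ext (by omega)))])
        rw [e, map_zero, Submodule.coe_zero]
      · intro hne; exact absurd (Finset.mem_univ _) hne
    rw [key, key] at h'
    exact h'
  have hdim := LinearMap.finrank_le_finrank_of_injective hΦ
  rw [Module.finrank_pi_fintype] at hdim
  simp only [Module.finrank_linearMap] at hdim
  calc Module.finrank k W * Module.finrank k W
      ≤ (∑ j, Module.finrank k (R j)) * ∑ j, Module.finrank k (R j) := Nat.mul_le_mul hspan hspan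
    _ ≤ (ℓ - 1) * ∑ j, Module.finrank k (R j) * Module.finrank k (R j) := by
        have := sq_sum_le_card_mul_sum_sq (s := (Finset.univ : Finset (Fin (ℓ - 1))))
          (f := fun j => Module.finrank k (R j))
        simpa [sq] using this
    _ ≤ _ := Nat.mul_le_mul_left _ hdim

end Fixed

/-! ### The theorem -/

section Main

variable [IsAlgClosed k]

/-- the restriction of a representation to an invariant subspace -/
def restrictRep {N : Type*} [Group N] {W : Type*} [AddCommGroup W] [Module k W]
    (ρ : N →* Module.End k W) (U : Submodule k W) (h : ∀ g, ∀ v ∈ U, ρ g v ∈ U) :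
    N →* Module.End k U where
  toFun g := (ρ g).restrict (h g)
  map_one' := LinearMap.ext fun v => Subtype.ext (by
    show ρ 1 (v : W) = v
    rw [map_one, Module.End.one_apply])
  map_mul' x y := LinearMap.ext fun v => Subtype.ext (by
    show ρ (x * y) (v : W) = ρ x (ρ y v)
    rw [map_mul, Module.End.mul_apply])

set_option maxHeartbeats 800000 in
theorem aut_fixed_aux {s ℓ : ℕ} [Fact s.Prime] (hℓ : ℓ.Prime) (hsℓ : s ≠ ℓ) (hℓk : (ℓ : k) ≠ 0)
    (hexc : ∀ j : ℕ, ℓ - 1 = s ^ j → j = 0) :
    ∀ (n : ℕ) (N : Type u) [Group N] [Finite N] (W : Type*) [AddCommGroup W] [Module k W]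
      [FiniteDimensional k W] (ρ : N →* Module.End k W) (a : MulAut N) (α : Module.End k W),
      Nat.card N = n → (∀ x, (⇑a)^[ℓ] x = x) → IsPGroup s N → (s : k) ≠ 0 →
      (∀ x v, α (ρ x v) = ρ (a x) (α v)) → α ^ ℓ = 1 → ∑ i ∈ Finset.range ℓ, α ^ i = 0 →
      ∀ x, ρ (a x) = ρ x := by
  haveI : Fact ℓ.Prime := ⟨hℓ⟩
  intro n
  induction n using Nat.strong_induction_on with
  | h n IH =>
  intro N _ _ W _ _ _ ρ a α hn hper hs hsk hcompat hα hsum
  have hcard : (Nat.card N : k) ≠ 0 := by
    obtain ⟨e, he⟩ := IsPGroup.iff_card.1 hs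
    rw [he, Nat.cast_pow]
    exact pow_ne_zero _ hsk
  -- reduce to a faithful representation
  by_cases hker : ρ.ker = ⊥
  swap
  · have hkinv : ρ.ker.map (a : N →* N) = ρ.ker := by
      refine Subgroup.eq_of_le_of_card_ge ?_
        (Subgroup.card_map_of_injective a.injective).ge
      rintro _ ⟨x, hx, rfl⟩
      refine MonoidHom.mem_ker.2 (LinearMap.ext fun v => ?_)
      have hαbij : ∀ v, ∃ w, α w = v := fun v => ⟨(α ^ (ℓ - 1)) v, by
        rw [← Module.End.mul_apply, ← pow_succ', Nat.sub_add_cancel hℓ.pos, hα, Module.End.one_apply]⟩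
      obtain ⟨w, rfl⟩ := hαbij v
      show ρ (a x) (α w) = α w
      rw [← hcompat, MonoidHom.mem_ker.1 hx, Module.End.one_apply]
    let a' : MulAut (N ⧸ ρ.ker) := QuotientGroup.congr ρ.ker ρ.ker a hkinv
    have hmk : ∀ x : N, a' (x : N ⧸ ρ.ker) = ((a x : N) : N ⧸ ρ.ker) := fun x => rfl
    have hlt : Nat.card (N ⧸ ρ.ker) < n := by
      rw [← hn, Subgroup.card_eq_card_quotient_mul_card_subgroup ρ.ker]
      exact lt_mul_of_one_lt_right Nat.card_pos ((Subgroup.one_lt_card_iff_ne_bot _).2 hker)
    have h := IH _ hlt (N ⧸ ρ.ker) W (QuotientGroup.lift ρ.ker ρ le_rfl) a' α rfl ?_ (hs.to_quotient _) hsk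
      ?_ hα hsum
    · intro x; exact h (x : N ⧸ ρ.ker)
    · intro q
      obtain ⟨x, rfl⟩ := QuotientGroup.mk_surjective q
      have : ∀ i : ℕ, (⇑a')^[i] (x : N ⧸ ρ.ker) = (((⇑a)^[i] x : N) : N ⧸ ρ.ker) := by
        intro i
        induction i with
        | zero => rfl
        | succ i ih => rw [Function.iterate_succ_apply', Function.iterate_succ_apply', ih, hmk]
      rw [this, hper]
    · intro q v
      obtain ⟨x, rfl⟩ := QuotientGroup.mk_surjective q
      exact hcompat x v
  have hinj : Function.Injective ρ := (MonoidHom.ker_eq_bot_iff ρ).1 hker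
  suffices hfix : ∀ x, a x = x by intro x; rw [hfix]
  by_contra hnfix
  push Not at hnfix
  -- proper invariant subgroups are fixed pointwise
  have hsub : ∀ H : Subgroup N, (∀ x ∈ H, a x ∈ H) → H ≠ ⊤ → ∀ x ∈ H, a x = x := by
    intro H hH hHt x hx
    have heq : H.map (a : N →* N) = H := Subgroup.eq_of_le_of_card_ge
      (by rintro _ ⟨y, hy, rfl⟩; exact hH y hy) (Subgroup.card_map_of_injective a.injective).ge
    let aH : MulAut H := (a.subgroupMap H).trans (MulEquiv.subgroupCongr heq)
    have hlt : Nat.card H < n := by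
      rw [← hn]
      exact lt_of_le_of_ne (Subgroup.card_le_card_group H)
        fun e => hHt ((Subgroup.card_eq_iff_eq_top H).1 e)
    have hco : ∀ y : H, (aH y : N) = a y := fun y => rfl
    have h := IH _ hlt H W (ρ.comp H.subtype) aH α rfl (fun y => Subtype.ext ?_) (hs.to_subgroup H)
      hsk (fun y v => hcompat y v) hα hsum ⟨x, hx⟩
    · exact hinj h
    · have : ∀ i : ℕ, (((⇑aH)^[i] y : H) : N) = (⇑a)^[i] (y : N) := by
        intro i
        induction i with
        | zero => rfl
        | succ i ih => rw [Function.iterate_succ_apply', Function.iterate_succ_apply', hco, ih]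
      rw [this, hper]
  have hcopℓ : ¬ ℓ ∣ Nat.card N := fun h => by
    obtain ⟨e, he⟩ := IsPGroup.iff_card.1 hs
    rw [he] at h
    exact hsℓ ((Nat.prime_dvd_prime_iff_eq hℓ (Fact.out : s.Prime)).1 (hℓ.dvd_of_dvd_pow h)).symm
  -- weights of invariant abelian subgroups are fixed
  have hweight : ∀ (M : Subgroup N), ∀ hMi : (∀ x ∈ M, a x ∈ M), ∀ (χ : M →* kˣ) (v : W),
      v ≠ 0 → (∀ m : M, ρ (m : N) v = (χ m : k) • v) → ∀ m : M, χ ⟨a m, hMi m m.2⟩ = χ m := by
    intro M hMi χ v hv hχ
    have hit : ∀ (i : ℕ) (m : M), (⇑a)^[i] (m : N) ∈ M := fun i m => by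
      induction i with
      | zero => exact m.2
      | succ i ih => rw [Function.iterate_succ_apply']; exact hMi _ ih
    -- transported characters
    let T : ℕ → (M →* kˣ) := fun i =>
      { toFun := fun m => χ ⟨(⇑a)^[ℓ - i] (m : N), hit _ m⟩
        map_one' := by
          convert χ.map_one using 2
          exact Subtype.ext (Function.iterate_fixed a.map_one _)
        map_mul' := fun x y => by
          rw [← map_mul]
          congr 1
          refine Subtype.ext ?_
          show (⇑a)^[ℓ - i] ((x : N) * y) = _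
          exact iterate_map_mul a _ _ _ }
    have hT : ∀ i, i ≤ ℓ → ∀ m : M, ρ (m : N) ((α ^ i) v) = (T i m : k) • (α ^ i) v := by
      intro i hi m
      have hpow : ∀ (j : ℕ) (x : N) (w : W),
          (α ^ j) (ρ x w) = ρ ((⇑a)^[j] x) ((α ^ j) w) := by
        intro j
        induction j with
        | zero => intro x w; simp
        | succ j ih =>
          intro x w
          rw [pow_succ', Module.End.mul_apply, Module.End.mul_apply, ih, hcompat,
            Function.iterate_succ_apply']
      have e := hpow i ((⇑a)^[ℓ - i] (m : N)) v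
      rw [← Function.iterate_add_apply, show i + (ℓ - i) = ℓ by omega, hper] at e
      rw [← e]
      show (α ^ i) (ρ ((⟨(⇑a)^[ℓ - i] (m : N), hit _ m⟩ : M) : N) v) = _
      rw [hχ, map_smul]
      rfl
    by_contra hne
    push Not at hne
    obtain ⟨m₀, hm₀⟩ := hne
    have hTinj : Set.InjOn T (Finset.range ℓ : Set ℕ) := by
      have key : ∀ i j, i < j → j < ℓ → T i ≠ T j := by
        intro i j hij hj heq
        -- `χ` is then fixed by a generator
        have hfd : ∀ m : M, χ ⟨(⇑a)^[j - i] (m : N), hit _ m⟩ = χ m := by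
          intro m
          have h := DFunLike.congr_fun heq ⟨(⇑a)^[j] (m : N), hit _ m⟩
          have e1 : (⇑a)^[ℓ - i] ((⇑a)^[j] (m : N)) = (⇑a)^[j - i] (m : N) := by
            rw [← Function.iterate_add_apply, show ℓ - i + j = (j - i) + ℓ by omega,
              Function.iterate_add_apply, hper]
          have e2 : (⇑a)^[ℓ - j] ((⇑a)^[j] (m : N)) = (m : N) := by
            rw [← Function.iterate_add_apply, show ℓ - j + j = ℓ by omega, hper]
          show χ _ = χ m
          calc χ ⟨(⇑a)^[j - i] (m : N), hit _ m⟩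
              = χ ⟨(⇑a)^[ℓ - i] ((⇑a)^[j] (m : N)), hit _ ⟨_, hit _ m⟩⟩ := by
                congr 1; exact Subtype.ext e1.symm
            _ = χ ⟨(⇑a)^[ℓ - j] ((⇑a)^[j] (m : N)), hit _ ⟨_, hit _ m⟩⟩ := h
            _ = χ m := by congr 1; exact Subtype.ext e2
        have hmul : ∀ (c : ℕ) (m : M), χ ⟨(⇑a)^[c * (j - i)] (m : N), hit _ m⟩ = χ m := by
          intro c
          induction c with
          | zero =>
            intro m
            congr 1
            exact Subtype.ext (by rw [Nat.zero_mul]; rfl)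
          | succ c ih =>
            intro m
            rw [← hfd m, ← ih ⟨_, hit (j - i) m⟩]
            congr 1
            refine Subtype.ext ?_
            show (⇑a)^[(c + 1) * (j - i)] (m : N) = (⇑a)^[c * (j - i)] ((⇑a)^[j - i] (m : N))
            rw [← Function.iterate_add_apply, Nat.succ_mul]
        obtain ⟨c, hc⟩ := Nat.exists_mul_mod_eq_one_of_coprime (n := j - i) (k := ℓ)
          ((hℓ.coprime_iff_not_dvd.2 (Nat.not_dvd_of_pos_of_lt (by omega) (by omega))).symm) hℓ.one_lt
        refine hm₀ ?_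
        rw [← hmul c m₀]
        congr 1
        refine Subtype.ext ?_
        show a (m₀ : N) = (⇑a)^[c * (j - i)] (m₀ : N)
        have hper' : Function.IsPeriodicPt (⇑a) ℓ (m₀ : N) := hper _
        rw [← hper'.iterate_mod_apply, mul_comm, hc.2]
        rfl
      intro i hi j hj h
      simp only [Finset.coe_range, Set.mem_Iio] at hi hj
      rcases lt_trichotomy i j with hlt | rfl | hlt
      · exact absurd h (key i j hlt hj)
      · rfl
      · exact absurd h.symm (key j i hlt hi)
    let u : (M →* kˣ) → W := fun φ =>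
      ∑ i ∈ (Finset.range ℓ).filter (fun i => T i = φ), (α ^ i) v
    have hu : ∀ i ∈ Finset.range ℓ, u (T i) = (α ^ i) v := by
      intro i hi
      show ∑ l ∈ (Finset.range ℓ).filter (fun l => T l = T i), (α ^ l) v = _
      refine Finset.sum_eq_single_of_mem i (Finset.mem_filter.2 ⟨hi, rfl⟩) ?_
      intro l hl hli
      exact absurd (hTinj (Finset.mem_coe.2 (Finset.mem_filter.1 hl).1) (Finset.mem_coe.2 hi)
        (Finset.mem_filter.1 hl).2) hli
    have h0 := CfsgLib.S3Fpf.eigen_indep ρ M ((Finset.range ℓ).image T) u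
      (fun φ hφ m => by
        obtain ⟨i, hi, rfl⟩ := Finset.mem_image.1 hφ
        rw [hu i hi]
        exact hT i (Finset.mem_range.1 hi).le m)
      (by rw [Finset.sum_image hTinj, Finset.sum_congr rfl hu, ← LinearMap.sum_apply, hsum,
            LinearMap.zero_apply])
      (T 0) (Finset.mem_image_of_mem _ (Finset.mem_range.2 hℓ.pos))
    rw [hu 0 (Finset.mem_range.2 hℓ.pos), pow_zero, Module.End.one_apply] at h0
    exact hv h0
  -- the group is not abelian
  have hnab : ¬ ∀ x y : N, x * y = y * x := by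
    intro hab
    obtain ⟨x, hx⟩ := hnfix
    obtain ⟨χ, ⟨v, hv, hχ⟩, hne⟩ := CfsgLib.S3Fpf.exists_weight_ne ρ (⊤ : Subgroup N)
      (fun p _ q _ => hab p q) (by rwa [Subgroup.card_top]) ⟨a x * x⁻¹, trivial⟩
      (fun h => hx (mul_inv_eq_one.1 (hinj (h.trans (map_one ρ).symm))))
    refine hne ?_
    rw [show (⟨a x * x⁻¹, trivial⟩ : (⊤ : Subgroup N)) = ⟨a x, trivial⟩ * ⟨x, trivial⟩⁻¹ from rfl,
      map_mul, map_inv]
    exact mul_inv_eq_one.2 (hweight ⊤ (fun _ _ => trivial) χ v hv hχ ⟨x, trivial⟩)
  -- the derived subgroup is central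
  have hNcomm : commutator N ≠ ⊤ := by
    intro h
    haveI : Group.IsNilpotent N := hs.isNilpotent
    haveI : Nontrivial N := by
      by_contra hc
      rw [not_nontrivial_iff_subsingleton] at hc
      exact hnab fun x y => Subsingleton.elim _ _
    exact (IsSolvable.commutator_lt_top_of_nontrivial N).ne h
  have hN'fix : ∀ x ∈ commutator N, a x = x := hsub _ (fun x hx => by
    have : (commutator N).map (a : N →* N) ≤ commutator N := by
      rw [commutator_def, Subgroup.map_commutator]
      exact Subgroup.commutator_mono le_top le_top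
    exact this ⟨x, hx, rfl⟩) hNcomm
  set D := Subgroup.closure (Set.range fun y => y⁻¹ * a y) with hD
  have hDtop : D = ⊤ := by
    by_contra hne
    have hDi : ∀ x ∈ D, a x ∈ D := by
      have : D ≤ D.comap (a : N →* N) := by
        rw [hD, Subgroup.closure_le]
        rintro _ ⟨y, rfl⟩
        exact Subgroup.subset_closure ⟨a y, by simp [map_mul]⟩
      exact fun x hx => this hx
    obtain ⟨x, hx⟩ := hnfix
    refine hx ?_
    set d := x⁻¹ * a x with hd
    have hdfix : a d = d := hsub D hDi hne d (Subgroup.subset_closure ⟨x, rfl⟩)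
    have hit : ∀ i : ℕ, (⇑a)^[i] x = x * d ^ i := by
      intro i
      induction i with
      | zero => simp
      | succ i ih =>
        rw [Function.iterate_succ_apply', ih, map_mul, map_pow, hdfix, pow_succ',
          show a x = x * d by rw [hd, mul_inv_cancel_left], mul_assoc]
    have h1 := hit ℓ
    rw [hper, left_eq_mul] at h1
    have h2 : d = 1 := by
      have e := Nat.dvd_gcd (orderOf_dvd_of_pow_eq_one h1) (orderOf_dvd_natCard d)
      rw [(hℓ.coprime_iff_not_dvd.2 hcopℓ).gcd_eq_one, Nat.dvd_one, orderOf_eq_one_iff] at e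
      exact e
    rw [hd, inv_mul_eq_one] at h2
    exact h2.symm
  have hcl : ∀ x y : N, ⁅x, y⁆ ∈ Subgroup.center N := by
    intro x y
    set z := ⁅x, y⁆
    have hz : z ∈ commutator N :=
      Subgroup.commutator_mem_commutator (Subgroup.mem_top _) (Subgroup.mem_top _)
    refine Subgroup.mem_center_iff.2 fun g => ?_
    have hall : D ≤ Subgroup.centralizer ({z} : Set N) := by
      rw [hD, Subgroup.closure_le]
      rintro _ ⟨w, rfl⟩
      rw [SetLike.mem_coe, Subgroup.mem_centralizer_singleton_iff]
      have e := hN'fix _ ((inferInstance : (commutator N).Normal).conj_mem z hz w)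
      rw [map_mul, map_mul, map_inv, hN'fix z hz] at e
      calc w⁻¹ * a w * z = w⁻¹ * (a w * z * (a w)⁻¹) * a w := by group
        _ = z * (w⁻¹ * a w) := by rw [e]; group
    have := hall (hDtop ▸ Subgroup.mem_top g)
    exact Subgroup.mem_centralizer_singleton_iff.1 this
  -- the fixed points are exactly the centre
  have hCfix : ∀ x, a x = x → x ∈ Subgroup.center N := by
    intro x hx
    refine Subgroup.mem_center_iff.2 fun g => ?_
    have hall : D ≤ Subgroup.centralizer ({x} : Set N) := by
      rw [hD, Subgroup.closure_le]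
      rintro _ ⟨w, rfl⟩
      rw [SetLike.mem_coe, Subgroup.mem_centralizer_singleton_iff]
      have e := hN'fix ⁅w, x⁆ (Subgroup.commutator_mem_commutator (Subgroup.mem_top _)
        (Subgroup.mem_top _))
      rw [map_commutatorElement, hx, commutatorElement_def, commutatorElement_def,
        mul_left_inj] at e
      calc w⁻¹ * a w * x = w⁻¹ * (a w * x * (a w)⁻¹) * a w := by group
        _ = x * (w⁻¹ * a w) := by rw [e]; group
    have := hall (hDtop ▸ Subgroup.mem_top g)
    exact Subgroup.mem_centralizer_singleton_iff.1 this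
  have hZt : Subgroup.center N ≠ ⊤ := fun h => hnab fun x y =>
    (Subgroup.mem_center_iff.1 (h ▸ Subgroup.mem_top y) x)
  have hZfix : ∀ z ∈ Subgroup.center N, a z = z := hsub _ (fun z hz => by
    refine Subgroup.mem_center_iff.2 fun g => ?_
    obtain ⟨g', rfl⟩ := a.surjective g
    rw [← map_mul, ← map_mul, Subgroup.mem_center_iff.1 hz g']) hZt
  -- a weight non-trivial on a commutator
  obtain ⟨x₁, y₁, hxy⟩ : ∃ x y : N, ⁅x, y⁆ ≠ 1 := by
    by_contra hc
    push Not at hc
    exact hnab fun x y => commutatorElement_eq_one_iff_mul_comm.1 (hc x y)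
  obtain ⟨lam, ⟨v₀, hv₀, hχ₀⟩, hlamne⟩ := CfsgLib.S3Fpf.exists_weight_ne ρ (Subgroup.center N)
    (fun p _ q hq => Subgroup.mem_center_iff.1 hq p)
    (fun h0 => hcard (by
      obtain ⟨d, hd⟩ := (Subgroup.center N).card_subgroup_dvd_card
      rw [hd, Nat.cast_mul, h0, zero_mul]))
    ⟨⁅x₁, y₁⁆, hcl _ _⟩ (fun h => hxy (hinj (h.trans (map_one ρ).symm)))
  let U : Submodule k W :=
    { carrier := {v | ∀ z : Subgroup.center N, ρ (z : N) v = (lam z : k) • v}
      add_mem' := fun {v w} hv hw z => by rw [map_add, hv z, hw z, smul_add]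
      zero_mem' := fun z => by rw [map_zero, smul_zero]
      smul_mem' := fun r v hv z => by rw [map_smul, hv z, smul_comm] }
  have hUρ : ∀ g, ∀ v ∈ U, ρ g v ∈ U := fun g v hv z => by
    rw [← Module.End.mul_apply, ← map_mul, ← Subgroup.mem_center_iff.1 z.2 g, map_mul,
      Module.End.mul_apply, hv z, map_smul]
  have hUα : ∀ v ∈ U, α v ∈ U := fun v hv z => by
    have e := hcompat (z : N) v
    rw [hZfix _ z.2] at e
    rw [← e, hv z, map_smul]
  let ρU := restrictRep ρ U hUρ
  let αU : Module.End k U := α.restrict hUα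
  have hαU : ∀ (i : ℕ) (v : U), (((αU ^ i) v : U) : W) = (α ^ i) (v : W) := by
    intro i
    induction i with
    | zero => intro v; rfl
    | succ i ih =>
      intro v
      rw [pow_succ', Module.End.mul_apply, pow_succ', Module.End.mul_apply, ← ih]
      rfl
  have hUnt : (⟨v₀, hχ₀⟩ : U) ≠ 0 := fun h => hv₀ (congrArg Subtype.val h)
  have hlam : ∀ z : Subgroup.center N, ρU (z : N) = (lam z : k) • (1 : Module.End k U) :=
    fun z => LinearMap.ext fun v => Subtype.ext (v.2 z)
  -- the restricted representation is faithful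
  have hUinj : Function.Injective ρU := by
    rw [← MonoidHom.ker_eq_bot_iff]
    by_contra hne
    have hkinv : ρU.ker.map (a : N →* N) = ρU.ker := by
      refine Subgroup.eq_of_le_of_card_ge ?_ (Subgroup.card_map_of_injective a.injective).ge
      rintro _ ⟨x, hx, rfl⟩
      refine MonoidHom.mem_ker.2 (LinearMap.ext fun v => Subtype.ext ?_)
      have hb : ∃ w : U, α (w : W) = v := ⟨(αU ^ (ℓ - 1)) v, by
        rw [hαU, ← Module.End.mul_apply, ← pow_succ', Nat.sub_add_cancel hℓ.pos, hα,
          Module.End.one_apply]⟩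
      obtain ⟨w, hw⟩ := hb
      show ρ (a x) (v : W) = v
      rw [← hw, ← hcompat, show ρ x (w : W) = w from
        congrArg (fun T : Module.End k U => ((T w : U) : W)) (MonoidHom.mem_ker.1 hx)]
    let a' : MulAut (N ⧸ ρU.ker) := QuotientGroup.congr ρU.ker ρU.ker a hkinv
    have hmk : ∀ x : N, a' (x : N ⧸ ρU.ker) = ((a x : N) : N ⧸ ρU.ker) := fun x => rfl
    have hlt : Nat.card (N ⧸ ρU.ker) < n := by
      rw [← hn, Subgroup.card_eq_card_quotient_mul_card_subgroup ρU.ker]
      exact lt_mul_of_one_lt_right Nat.card_pos ((Subgroup.one_lt_card_iff_ne_bot _).2 hne)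
    have h := IH _ hlt (N ⧸ ρU.ker) U (QuotientGroup.lift ρU.ker ρU le_rfl) a' αU rfl ?_ (hs.to_quotient _)
      hsk ?_ ?_ ?_
    · -- then everything lies in the kernel
      have hDk : D ≤ ρU.ker := by
        rw [hD, Subgroup.closure_le]
        rintro _ ⟨y, rfl⟩
        refine MonoidHom.mem_ker.2 ?_
        have e : ρU (a y) = ρU y := h (y : N ⧸ ρU.ker)
        rw [map_mul, e, ← map_mul, inv_mul_cancel, map_one]
      rw [hDtop, top_le_iff] at hDk
      have h1 : ρU ((⟨⁅x₁, y₁⁆, hcl _ _⟩ : Subgroup.center N) : N) = 1 :=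
        MonoidHom.mem_ker.1 (hDk ▸ Subgroup.mem_top _)
      rw [hlam] at h1
      refine hlamne (Units.ext (smul_left_injective k hUnt ?_))
      have := congrArg (fun T : Module.End k U => T ⟨v₀, hχ₀⟩) h1
      simpa using this
    · intro q
      obtain ⟨x, rfl⟩ := QuotientGroup.mk_surjective q
      have : ∀ i : ℕ, (⇑a')^[i] (x : N ⧸ ρU.ker) = (((⇑a)^[i] x : N) : N ⧸ ρU.ker) := by
        intro i
        induction i with
        | zero => rfl
        | succ i ih => rw [Function.iterate_succ_apply', Function.iterate_succ_apply', ih, hmk]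
      rw [this, hper]
    · intro q v
      obtain ⟨x, rfl⟩ := QuotientGroup.mk_surjective q
      exact Subtype.ext (hcompat x v)
    · exact LinearMap.ext fun v => Subtype.ext (by rw [hαU, hα]; rfl)
    · refine LinearMap.ext fun v => Subtype.ext ?_
      rw [LinearMap.sum_apply, Submodule.coe_sum, LinearMap.zero_apply, Submodule.coe_zero,
        Finset.sum_congr rfl fun i _ => hαU i v, ← LinearMap.sum_apply, hsum, LinearMap.zero_apply]
  have hnd : ∀ x : N, x ∉ Subgroup.center N → ∃ y : N, beta hcl lam y x ≠ 1 := by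
    intro x hx
    by_contra hc
    push Not at hc
    refine hx (Subgroup.mem_center_iff.2 fun y => ?_)
    have e : lam ⟨⁅y, x⁆, hcl y x⟩ = 1 := Units.ext (hc y)
    have h1 : ρU ⁅y, x⁆ = ρU 1 := by
      rw [map_one, show ⁅y, x⁆ = ((⟨⁅y, x⁆, hcl y x⟩ : Subgroup.center N) : N) from rfl, hlam, e,
        Units.val_one, one_smul]
    exact commutatorElement_eq_one_iff_mul_comm.1 (hUinj h1)
  letI : Fintype (N ⧸ Subgroup.center N) := Fintype.ofFinite _
  set m := Fintype.card (N ⧸ Subgroup.center N) with hm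
  obtain ⟨e, he⟩ : ∃ e, m = s ^ e := by
    obtain ⟨e, he⟩ := IsPGroup.iff_card.1 (hs.to_quotient (Subgroup.center N))
    exact ⟨e, by rw [hm, ← Nat.card_eq_fintype_card, he]⟩
  have hmk : (Fintype.card (N ⧸ Subgroup.center N) : k) ≠ 0 := by
    rw [← hm, he, Nat.cast_pow]; exact pow_ne_zero _ hsk
  -- an irreducible subspace
  obtain ⟨U₀, ⟨hU₀b, hU₀i, hU₀U⟩, hmin⟩ := (IsWellFounded.wf (r := ((· < ·) :
    Submodule k W → Submodule k W → Prop))).has_min
      {V | V ≠ ⊥ ∧ (∀ g, ∀ v ∈ V, ρ g v ∈ V) ∧ V ≤ U}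
      ⟨U, (Submodule.ne_bot_iff U).2 ⟨v₀, hχ₀, hv₀⟩, hUρ, le_rfl⟩
  let ρ₀ := restrictRep ρ U₀ hU₀i
  haveI : Nontrivial U₀ := Submodule.nontrivial_iff_ne_bot.2 hU₀b
  have hlam₀ : ∀ z : Subgroup.center N, ρ₀ (z : N) = (lam z : k) • (1 : Module.End k U₀) :=
    fun z => LinearMap.ext fun v => Subtype.ext (hU₀U v.2 z)
  have hone : Module.finrank k (commutant ρ₀) = 1 := by
    refine finrank_eq_one (⟨1, fun y => by rw [mul_one, one_mul]⟩ : commutant ρ₀)
      (fun h => one_ne_zero (congrArg Subtype.val h)) fun T => ?_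
    obtain ⟨c, hc⟩ := Module.End.exists_eigenvalue (T : Module.End k U₀)
    refine ⟨c, Subtype.ext ?_⟩
    set E := (Module.End.eigenspace (T : Module.End k U₀) c).map U₀.subtype with hE
    have hEU : E = U₀ := by
      by_contra hne'
      refine hmin E ⟨?_, ?_, (Submodule.map_subtype_le _ _).trans hU₀U⟩
        (lt_of_le_of_ne (Submodule.map_subtype_le _ _) hne')
      · intro hb
        obtain ⟨w, hw⟩ := hc.exists_hasEigenvector
        have hm' : (w : W) ∈ E := ⟨w, hw.1, rfl⟩
        rw [hb, Submodule.mem_bot] at hm'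
        exact hw.2 (Subtype.ext hm')
      · rintro g _ ⟨w, hw, rfl⟩
        refine ⟨ρ₀ g w, Module.End.mem_eigenspace_iff.2 ?_, rfl⟩
        rw [← Module.End.mul_apply, ← T.2 g, Module.End.mul_apply,
          Module.End.mem_eigenspace_iff.1 hw, map_smul]
    refine LinearMap.ext fun v => ?_
    obtain ⟨w, hw, hwv⟩ : (v : W) ∈ E := by rw [hEU]; exact v.2
    have hwv' : w = v := Subtype.ext hwv
    subst hwv'
    exact (Module.End.mem_eigenspace_iff.1 hw).symm
  have hsq : Module.finrank k U₀ * Module.finrank k U₀ = m := by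
    rw [finrank_end ρ₀ hcl lam hlam₀ hnd hmk, hone, mul_one]
  -- orbits on the quotient
  have hZinv : (Subgroup.center N).map (a : N →* N) = Subgroup.center N :=
    Subgroup.eq_of_le_of_card_ge
      (by rintro _ ⟨z, hz, rfl⟩; show a z ∈ Subgroup.center N; rw [hZfix z hz]; exact hz)
      (Subgroup.card_map_of_injective a.injective).ge
  let ab : MulAut (N ⧸ Subgroup.center N) := QuotientGroup.congr _ _ a hZinv
  have habmk : ∀ x : N, ab (x : N ⧸ Subgroup.center N) = ((a x : N) : N ⧸ Subgroup.center N) :=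
    fun x => rfl
  have habper : ∀ q, (⇑ab)^[ℓ] q = q := by
    intro q
    obtain ⟨x, rfl⟩ := QuotientGroup.mk_surjective q
    have : ∀ i : ℕ, (⇑ab)^[i] (x : N ⧸ Subgroup.center N) =
        (((⇑a)^[i] x : N) : N ⧸ Subgroup.center N) := by
      intro i
      induction i with
      | zero => rfl
      | succ i ih => rw [Function.iterate_succ_apply', Function.iterate_succ_apply', ih, habmk]
    rw [this, hper]
  have habfix : ∀ q, ab q = q ↔ q = 1 := by
    intro q
    refine ⟨fun h => ?_, fun h => by rw [h, map_one]⟩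
    obtain ⟨x, rfl⟩ := QuotientGroup.mk_surjective q
    rw [habmk] at h
    set z := x⁻¹ * a x with hz
    have hzc : z ∈ Subgroup.center N := QuotientGroup.eq.1 h.symm
    have hit : ∀ i : ℕ, (⇑a)^[i] x = x * z ^ i := by
      intro i
      induction i with
      | zero => simp
      | succ i ih =>
        rw [Function.iterate_succ_apply', ih, map_mul, map_pow, hZfix z hzc, pow_succ',
          show a x = x * z by rw [hz, mul_inv_cancel_left], mul_assoc]
    have h1 := hit ℓ
    rw [hper, left_eq_mul] at h1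
    have e1 := Nat.dvd_gcd (orderOf_dvd_of_pow_eq_one h1) (orderOf_dvd_natCard z)
    rw [(hℓ.coprime_iff_not_dvd.2 hcopℓ).gcd_eq_one, Nat.dvd_one, orderOf_eq_one_iff, hz,
      inv_mul_eq_one] at e1
    exact (QuotientGroup.eq_one_iff x).2 (hCfix x e1.symm)
  obtain ⟨S, hScard, hScov⟩ := exists_transversal (⇑ab) hℓ habper 1 habfix
    (Finset.univ.erase 1)
    (fun x hx => Finset.mem_erase.2 ⟨fun h => (Finset.mem_erase.1 hx).1
      (ab.injective (h.trans (map_one ab).symm)), Finset.mem_univ _⟩)
    (by simp)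
  rw [Finset.card_erase_of_mem (Finset.mem_univ _), Finset.card_univ, ← hm] at hScard
  -- the fixed space of the automorphism on endomorphisms of the weight space
  have hαℓ : αU ^ ℓ = 1 := LinearMap.ext fun v => Subtype.ext (by rw [hαU, hα]; rfl)
  have hαsum : ∑ i ∈ Finset.range ℓ, αU ^ i = 0 := LinearMap.ext fun v => Subtype.ext (by
    rw [LinearMap.sum_apply, Submodule.coe_sum, LinearMap.zero_apply, Submodule.coe_zero,
      Finset.sum_congr rfl fun i _ => hαU i v, ← LinearMap.sum_apply, hsum, LinearMap.zero_apply])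
  have hlow := sq_finrank_le αU hℓ hℓk hαℓ hαsum
  set β := αU ^ (ℓ - 1) with hβ
  have hαβ : αU * β = 1 := by rw [hβ, ← pow_succ', Nat.sub_add_cancel hℓ.pos, hαℓ]
  have hβα : β * αU = 1 := by rw [hβ, ← pow_succ, Nat.sub_add_cancel hℓ.pos, hαℓ]
  have hcU : ∀ x, αU * ρU x = ρU (a x) * αU := fun x =>
    LinearMap.ext fun v => Subtype.ext (hcompat x v)
  let Φ := LinearEquiv.ofBijective _ (assemble_bijective ρU hcl lam hlam hnd hmk)
  let S' := insert 1 S
  let Θ : fixSpace αU →ₗ[k] (S' → commutant ρU) :=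
    LinearMap.pi fun q => (LinearMap.proj (q : N ⧸ Subgroup.center N)).comp
      (Φ.symm.toLinearMap.comp (fixSpace αU).subtype)
  have hΘ : Function.Injective Θ := by
    suffices hzero : ∀ T : fixSpace αU, Θ T = 0 → T = 0 by
      intro T₁ T₂ h
      refine sub_eq_zero.1 (hzero _ ?_)
      funext q
      show Φ.symm ((T₁ : Module.End k U) - (T₂ : Module.End k U)) (q : N ⧸ Subgroup.center N) = 0
      rw [map_sub, Pi.sub_apply, sub_eq_zero]
      exact congrFun h q
    intro T hT
    set C := Φ.symm (T : Module.End k U) with hC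
    have hC0 : ∀ q ∈ S', C q = 0 := fun q hq => by
      have := congrFun hT ⟨q, hq⟩
      exact this
    have hTC : assemble ρU C = (T : Module.End k U) := Φ.apply_symm_apply _
    -- conjugate the components
    have hconjc : ∀ (D : commutant ρU), αU * (D : Module.End k U) * β ∈ commutant ρU := by
      intro D y
      obtain ⟨x, rfl⟩ := a.surjective y
      have e2 : ρU x * β = β * ρU (a x) := by
        calc ρU x * β = β * (αU * ρU x) * β := by rw [← mul_assoc β, hβα, one_mul]
          _ = β * ρU (a x) * (αU * β) := by rw [hcU]; simp only [mul_assoc]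
          _ = _ := by rw [hαβ, mul_one]
      calc ρU (a x) * (αU * (D : Module.End k U) * β)
          = αU * ρU x * (D : Module.End k U) * β := by rw [← mul_assoc, ← mul_assoc, ← hcU]
        _ = αU * (D : Module.End k U) * (ρU x * β) := by
              rw [mul_assoc αU, D.2 x]; simp only [mul_assoc]
        _ = _ := by rw [e2]; simp only [mul_assoc]
    have hz : ∀ q : N ⧸ Subgroup.center N, ∃ z : Subgroup.center N,
        a q.out = (ab q).out * (z : N) := by
      intro q
      refine ⟨⟨(ab q).out⁻¹ * a q.out, QuotientGroup.eq.1 ?_⟩, by rw [mul_inv_cancel_left]⟩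
      rw [QuotientGroup.out_eq', ← habmk, QuotientGroup.out_eq']
    choose zq hzq using hz
    let C' : N ⧸ Subgroup.center N → commutant ρU := fun q =>
      (lam (zq (ab.symm q)) : k) • ⟨_, hconjc (C (ab.symm q))⟩
    have hC' : assemble ρU C' = assemble ρU C := by
      have e : assemble ρU C' = αU * assemble ρU C * β := by
        show ∑ q, ρU q.out * ((C' q : commutant ρU) : Module.End k U) =
          αU * (∑ q, ρU q.out * ((C q : commutant ρU) : Module.End k U)) * β
        rw [Finset.mul_sum, Finset.sum_mul]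
        refine (Fintype.sum_equiv ab.toEquiv _ _ fun q => ?_).symm
        show _ = ρU (ab q).out * ((C' (ab q) : commutant ρU) : Module.End k U)
        rw [← mul_assoc, hcU, hzq, map_mul, hlam, mul_smul_comm, mul_one]
        simp only [C', MulEquiv.symm_apply_apply, Submodule.coe_smul, smul_mul_assoc,
          mul_smul_comm, mul_assoc]
      rw [e, hTC, show αU * (T : Module.End k U) = (T : Module.End k U) * αU from T.2, mul_assoc,
        hαβ, mul_one]
    have hrec : C' = C := (assemble_bijective ρU hcl lam hlam hnd hmk).1 hC'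
    have hstep : ∀ q, C q = 0 → C (ab q) = 0 := by
      intro q hq
      rw [← hrec]
      refine Subtype.ext ?_
      simp only [C', MulEquiv.symm_apply_apply, Submodule.coe_smul, hq, Submodule.coe_zero,
        mul_zero, zero_mul, smul_zero]
    have hall : C = 0 := by
      funext q
      by_cases hq : q = 1
      · exact hC0 q (hq ▸ Finset.mem_insert_self _ _)
      obtain ⟨r, hr, i, rfl⟩ := hScov q (Finset.mem_erase.2 ⟨hq, Finset.mem_univ _⟩)
      clear hq
      induction i with
      | zero => exact hC0 r (Finset.mem_insert_of_mem hr)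
      | succ i ih => rw [Function.iterate_succ_apply']; exact hstep _ ih
    apply Subtype.ext
    rw [← hTC, hall, map_zero]
    rfl
  have hup := LinearMap.finrank_le_finrank_of_injective hΘ
  rw [Module.finrank_pi_fintype, Finset.sum_const, Finset.card_univ, Fintype.card_coe,
    smul_eq_mul] at hup
  have hend := finrank_end ρU hcl lam hlam hnd hmk
  rw [← hm] at hend
  haveI : Nontrivial U := ⟨⟨_, 0, hUnt⟩⟩
  have hUpos : 0 < Module.finrank k U := Module.finrank_pos
  have hD0 : 0 < Module.finrank k (commutant ρU) := by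
    rcases Nat.eq_zero_or_pos (Module.finrank k (commutant ρU)) with h0 | h0
    · rw [h0, mul_zero] at hend
      rcases Nat.mul_eq_zero.1 hend with h | h <;> omega
    · exact h0
  have hle : m ≤ (ℓ - 1) * S'.card := by
    refine Nat.le_of_mul_le_mul_right ?_ hD0
    rw [← hend, mul_assoc]
    exact hlow.trans (Nat.mul_le_mul_left _ hup)
  have hS' : S'.card ≤ S.card + 1 := Finset.card_insert_le _ _
  have hmpos : 1 ≤ m := by rw [he]; exact Nat.one_le_pow _ _ (Fact.out : s.Prime).pos
  have hle2 : m ≤ (ℓ - 1) * (ℓ - 1) := by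
    obtain ⟨l', hl'⟩ : ∃ l', ℓ = l' + 1 := ⟨ℓ - 1, (Nat.sub_add_cancel hℓ.pos).symm⟩
    rw [hl', Nat.add_sub_cancel] at hle ⊢
    rw [hl'] at hScard
    have h1 : m ≤ l' * (S.card + 1) := hle.trans (Nat.mul_le_mul_left _ hS')
    have h2 : (l' + 1) * m ≤ (l' + 1) * (l' * (S.card + 1)) := Nat.mul_le_mul_left _ h1
    have h3 : (l' + 1) * (l' * (S.card + 1)) = l' * (m - 1 + (l' + 1)) := by
      rw [← hScard]; ring
    rw [h3] at h2
    obtain ⟨m', hm'⟩ : ∃ m', m = m' + 1 := ⟨m - 1, (Nat.sub_add_cancel hmpos).symm⟩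
    rw [hm', Nat.add_sub_cancel] at h2
    rw [hm']
    nlinarith
  -- numerical contradiction
  set d := Module.finrank k U₀ with hd
  have hd1 : 1 < d := by
    by_contra hc
    have : m ≤ 1 := by rw [← hsq]; exact Nat.mul_le_mul (not_lt.1 hc) (not_lt.1 hc)
    have hm1 : Nat.card (N ⧸ Subgroup.center N) = 1 := by
      rw [Nat.card_eq_fintype_card, ← hm]; omega
    rw [← Subgroup.index_eq_card, Subgroup.index_eq_one] at hm1
    exact hZt hm1
  have hdle : d ≤ ℓ - 1 := Nat.mul_self_le_mul_self_iff.1 (hsq ▸ hle2)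
  have hdvd : ℓ ∣ (d - 1) * (d + 1) := by
    refine ⟨S.card, ?_⟩
    rw [hScard, ← hsq]
    obtain ⟨d', hd'⟩ : ∃ d', d = d' + 1 := ⟨d - 1, by omega⟩
    rw [hd', Nat.add_sub_cancel]
    have : (d' + 1) * (d' + 1) = d' * (d' + 1 + 1) + 1 := by ring
    omega
  have hdℓ : d = ℓ - 1 := by
    rcases hℓ.dvd_mul.1 hdvd with h | h
    · have := Nat.le_of_dvd (by omega) h
      omega
    · have := Nat.le_of_dvd (by omega) h
      omega
  obtain ⟨j, -, hj⟩ := (Nat.dvd_prime_pow (Fact.out : s.Prime)).1
    (⟨d, by rw [← he, hsq]⟩ : d ∣ s ^ e)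
  have := hexc j (by rw [← hdℓ, hj])
  rw [this, pow_zero] at hj
  omega

/-- An automorphism of prime order `ℓ` acting without fixed vectors centralises the image of an
`s`-group, unless `ℓ - 1` is a power of `s`. -/
theorem aut_fixed {s ℓ : ℕ} [Fact s.Prime] (hℓ : ℓ.Prime) (hsℓ : s ≠ ℓ) (hℓk : (ℓ : k) ≠ 0)
    (hexc : ∀ j : ℕ, ℓ - 1 = s ^ j → j = 0) {N : Type u} [Group N] [Finite N] {W : Type*}
    [AddCommGroup W] [Module k W] [FiniteDimensional k W] (ρ : N →* Module.End k W) (a : MulAut N)
    (α : Module.End k W) (hper : ∀ x, (⇑a)^[ℓ] x = x) (hs : IsPGroup s N) (hsk : (s : k) ≠ 0)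
    (hcompat : ∀ x v, α (ρ x v) = ρ (a x) (α v)) (hα : α ^ ℓ = 1)
    (hsum : ∑ i ∈ Finset.range ℓ, α ^ i = 0) (x : N) : ρ (a x) = ρ x :=
  aut_fixed_aux hℓ hsℓ hℓk hexc _ N W ρ a α rfl hper hs hsk hcompat hα hsum x

end Main

end CfsgLib.HallHigman
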