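import Cfsg.Prelude.Def_Transfer
import Cfsg.Agent.Lib.FgsHallHigman
import Cfsg.Agent.Lib.CoreCoprime
import Mathlib.FieldTheory.IsAlgClosed.AlgebraicClosure
import Mathlib.LinearAlgebra.Dual.Lemmas
import Mathlib.Algebra.Module.ZMod

/-!
# Fixed points of an operator of prime order on a module of a group it acts on
-/

set_option autoImplicit false

universe u

namespace CfsgLib.Core.HallHigmanFixed

open Subgroup

section Abstract

variable {L : Type u} [Group L] [Finite L] {V : Type*} [CommGroup V] [Finite V]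

/-- The norm of an operator without fixed points is trivial. -/
theorem norm_eq_one (f : L →* MulAut V) {x : L} {r : ℕ} (hx : x ^ r = 1)
    (hfix : ∀ v, f x v = v → v = 1) (v : V) : ∏ i ∈ Finset.range r, f (x ^ i) v = 1 := by
  refine hfix _ ?_
  rw [map_prod]
  have h1 : ∀ i, f x (f (x ^ i) v) = f (x ^ (i + 1)) v := fun i => by
    rw [pow_succ', map_mul, MulAut.mul_apply]
  simp only [h1]
  cases r with
  | zero => simp
  | succ r => rw [Finset.prod_range_succ, Finset.prod_range_succ' (fun i => f (x ^ i) v), hx,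
      pow_zero]

/-- The abelian case: commutators with the operator act trivially. -/
theorem trivial_of_abelian (f : L →* MulAut V) {x : L} {r : ℕ} (hr : r.Prime) (hx : x ^ r = 1)
    (hfix : ∀ v, f x v = v → v = 1) (Q : Subgroup L) (hQ : IsMulCommutative Q)
    (hxQ : ∀ q ∈ Q, x * q * x⁻¹ ∈ Q) (hco : (Nat.card Q).Coprime (Nat.card V)) :
    ∀ t ∈ Q, ∀ v, f (t * x * t⁻¹ * x⁻¹) v = v := by
  classical
  haveI := Fintype.ofFinite Q
  intro t ht v
  set d := t * x * t⁻¹ * x⁻¹ with hd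
  have hxpow : ∀ (j : ℕ), ∀ q ∈ Q, x ^ j * q * (x ^ j)⁻¹ ∈ Q := by
    intro j
    induction j with
    | zero => intro q hq; simpa using hq
    | succ j ih =>
      intro q hq
      have := hxQ _ (ih q hq)
      rw [pow_succ']
      simpa [mul_assoc] using this
  have hcm : ∀ a ∈ Q, ∀ b ∈ Q, a * b = b * a := fun a ha b hb =>
    congrArg Subtype.val (hQ.is_comm.comm (⟨a, ha⟩ : Q) ⟨b, hb⟩)
  have hc : ∀ q ∈ Q, ∀ j, q * x ^ j * q⁻¹ * (x ^ j)⁻¹ ∈ Q := fun q hq j => by
    have := mul_mem hq (hxpow j _ (inv_mem hq))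
    simpa [mul_assoc] using this
  -- each commutator with a power is a commutator with any other nontrivial power
  have htrans : ∀ (j m : ℕ) (q : L), q ∈ Q → ∃ q' ∈ Q,
      q * (x ^ j) ^ m * q⁻¹ * ((x ^ j) ^ m)⁻¹ = q' * x ^ j * q'⁻¹ * (x ^ j)⁻¹ := by
    intro j m
    induction m with
    | zero => exact fun q hq => ⟨1, one_mem Q, by simp⟩
    | succ m ih =>
      intro q hq
      obtain ⟨q', hq', he⟩ := ih q hq
      set y := x ^ j with hy
      set w := y ^ m * q * (y ^ m)⁻¹ with hw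
      have hwQ : w ∈ Q := by rw [hw, hy, ← pow_mul]; exact hxpow _ q hq
      refine ⟨q' * w, mul_mem hq' hwQ, ?_⟩
      calc q * y ^ (m + 1) * q⁻¹ * (y ^ (m + 1))⁻¹
          = (q * y ^ m * q⁻¹ * (y ^ m)⁻¹) * (w * y * w⁻¹ * y⁻¹) := by
            rw [hw, pow_succ]; group
        _ = (q' * y * q'⁻¹ * y⁻¹) * (w * y * w⁻¹ * y⁻¹) := by rw [he]
        _ = q' * (w * y * w⁻¹ * y⁻¹) * (y * q'⁻¹ * y⁻¹) := by
            rw [hcm (q' * y * q'⁻¹ * y⁻¹) (hc q' hq' j) (w * y * w⁻¹ * y⁻¹) (hc w hwQ j)]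
            rw [show q' * y * q'⁻¹ * y⁻¹ = q' * (y * q'⁻¹ * y⁻¹) by group, ← mul_assoc,
              hcm (w * y * w⁻¹ * y⁻¹) (hc w hwQ j) q' hq']
        _ = q' * w * y * (q' * w)⁻¹ * y⁻¹ := by group
  -- the averaging sum
  let T : ℕ → V := fun i => ∏ q : Q, f ((q : L) * x ^ i * (q : L)⁻¹ * (x ^ i)⁻¹) (f (x ^ i) v)
  have hT : ∏ i ∈ Finset.range r, T i = 1 := by
    show ∏ i ∈ Finset.range r, ∏ q : Q,
      f ((q : L) * x ^ i * (q : L)⁻¹ * (x ^ i)⁻¹) (f (x ^ i) v) = 1
    rw [Finset.prod_comm]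
    refine Finset.prod_eq_one fun q _ => ?_
    have h1 : ∀ i, f ((q : L) * x ^ i * (q : L)⁻¹ * (x ^ i)⁻¹) (f (x ^ i) v) =
        f (q : L) (f (x ^ i) (f (q : L)⁻¹ v)) := fun i => by
      simp only [← MulAut.mul_apply, ← map_mul]
      congr 2
      group
    simp only [h1]
    rw [← map_prod, norm_eq_one f hx hfix, map_one]
  have hinv : ∀ i ∈ Finset.range r, i ≠ 0 → f d (T i) = T i := by
    intro i hi hi0
    have hcop : Nat.gcd i r = 1 := ((hr.coprime_iff_not_dvd).mpr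
      (Nat.not_dvd_of_pos_of_lt (Nat.pos_of_ne_zero hi0) (Finset.mem_range.mp hi))).symm
    obtain ⟨m, hm⟩ := Nat.exists_mul_mod_eq_one_of_coprime hcop hr.one_lt
    obtain ⟨t', ht', he⟩ := htrans i m t ht
    rw [← pow_mul, pow_eq_pow_mod _ hx, hm.2, pow_one, ← hd] at he
    show f d (∏ q : Q, _) = _
    rw [map_prod]
    refine Fintype.prod_equiv (Equiv.mulLeft ⟨t', ht'⟩) _ _ fun q => ?_
    show f d (f ((q : L) * x ^ i * (q : L)⁻¹ * (x ^ i)⁻¹) (f (x ^ i) v)) =
      f (t' * q * x ^ i * (t' * q)⁻¹ * (x ^ i)⁻¹) (f (x ^ i) v)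
    rw [show ∀ (y : L) (w : V), f d (f y w) = f (d * y) w from fun y w => by
      rw [map_mul f d y, MulAut.mul_apply]]
    congr 2
    rw [he, hcm (t' * x ^ i * t'⁻¹ * (x ^ i)⁻¹) (hc t' ht' i) _ (hc q q.2 i),
      show t' * x ^ i * t'⁻¹ * (x ^ i)⁻¹ = t' * (x ^ i * t'⁻¹ * (x ^ i)⁻¹) by group, ← mul_assoc,
      hcm ((q : L) * x ^ i * (q : L)⁻¹ * (x ^ i)⁻¹) (hc q q.2 i) t' ht']
    group
  have h0 : T 0 = v ^ Nat.card Q := by
    show ∏ q : Q, _ = _
    simp [Nat.card_eq_fintype_card]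
  have hsplit := Finset.mul_prod_erase (Finset.range r) T (Finset.mem_range.mpr hr.pos)
  rw [hT] at hsplit
  have hrest : f d (∏ i ∈ (Finset.range r).erase 0, T i) = ∏ i ∈ (Finset.range r).erase 0, T i := by
    rw [map_prod]
    exact Finset.prod_congr rfl fun i hi =>
      hinv i (Finset.mem_of_mem_erase hi) (Finset.ne_of_mem_erase hi)
  have hpow : f d v ^ Nat.card Q = v ^ Nat.card Q := by
    rw [← map_pow, ← h0, eq_inv_of_mul_eq_one_left hsplit, map_inv, hrest]
  exact (powCoprime hco.symm).injective hpow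

variable (k : Type*) [Field k]

/-- The contragredient representation on `k`-valued additive characters. -/
def rep (f : L →* MulAut V) : L →* Module.End k (Additive V →+ k) where
  toFun g :=
    { toFun := fun φ => φ.comp (MonoidHom.toAdditive (f g⁻¹).toMonoidHom)
      map_add' := fun φ ψ => rfl
      map_smul' := fun c φ => rfl }
  map_one' := by
    refine LinearMap.ext fun φ => AddMonoidHom.ext fun v => ?_
    show φ (Additive.ofMul (f (1 : L)⁻¹ v.toMul)) = φ v
    rw [inv_one, map_one]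
    rfl
  map_mul' g h := by
    refine LinearMap.ext fun φ => AddMonoidHom.ext fun v => ?_
    show φ (Additive.ofMul (f (g * h)⁻¹ v.toMul)) =
      φ (Additive.ofMul (f h⁻¹ (f g⁻¹ v.toMul)))
    rw [mul_inv_rev, map_mul, MulAut.mul_apply]

theorem rep_apply (f : L →* MulAut V) (g : L) (φ : Additive V →+ k) (v : Additive V) :
    rep k f g φ v = φ (Additive.ofMul (f g⁻¹ v.toMul)) := rfl

/-- The non-exceptional case of Hall and Higman. -/
theorem trivial_of_not_exceptional {ℓ : ℕ} [hl : Fact ℓ.Prime] (hV : ∀ v : V, v ^ ℓ = 1)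
    (f : L →* MulAut V) {x : L} {r : ℕ} (hr : r.Prime) (hx : x ^ r = 1) (hrl : r ≠ ℓ)
    (hfix : ∀ v, f x v = v → v = 1) {s : ℕ} [hs : Fact s.Prime] (hsr : s ≠ r) (hsl : s ≠ ℓ)
    (hexc : ∀ j : ℕ, r - 1 = s ^ j → j = 0) (Q : Subgroup L) (hQ : IsPGroup s Q)
    (hxQ : ∀ q ∈ Q, x * q * x⁻¹ ∈ Q) : ∀ q ∈ Q, f (x * q * x⁻¹) = f q := by
  classical
  let K := AlgebraicClosure (ZMod ℓ)
  haveI : CharP K ℓ := charP_of_injective_algebraMap (algebraMap (ZMod ℓ) K).injective ℓ
  have hne : ∀ {p : ℕ}, p.Prime → p ≠ ℓ → (p : K) ≠ 0 := fun hp hpl h =>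
    hpl ((Nat.prime_dvd_prime_iff_eq hl.out hp).mp ((CharP.cast_eq_zero_iff K ℓ _).mp h)).symm
  haveI : FiniteDimensional K (Additive V →+ K) := by
    haveI : Fintype (Additive V) := Fintype.ofFinite _
    exact Module.Finite.of_injective
      ({ toFun := fun φ => (φ : Additive V → K), map_add' := fun _ _ => rfl,
         map_smul' := fun _ _ => rfl } : (Additive V →+ K) →ₗ[K] (Additive V → K))
      DFunLike.coe_injective
  have hxQ' : ∀ q ∈ Q, x⁻¹ * q * x ∈ Q := by
    intro q hq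
    have hmap : Q.map (MulAut.conj x).toMonoidHom = Q := by
      refine Subgroup.eq_of_le_of_card_ge ?_ ?_
      · rintro _ ⟨a, ha, rfl⟩
        exact hxQ a ha
      · exact (Subgroup.card_map_of_injective (MulAut.conj x).injective).ge
    obtain ⟨a, ha, e⟩ := hmap.ge hq
    rw [← e]
    simpa [mul_assoc] using ha
  let a : MulAut Q :=
    { toFun := fun q => ⟨x * q * x⁻¹, hxQ q q.2⟩
      invFun := fun q => ⟨x⁻¹ * q * x, hxQ' q q.2⟩
      left_inv := fun q => Subtype.ext (by simp [mul_assoc])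
      right_inv := fun q => Subtype.ext (by simp [mul_assoc])
      map_mul' := fun q q' => Subtype.ext (by simp [mul_assoc]) }
  have hit : ∀ (i : ℕ) (q : Q), (((⇑a)^[i] q : Q) : L) = x ^ i * q * (x ^ i)⁻¹ := by
    intro i
    induction i with
    | zero => simp
    | succ i ih =>
      intro q
      rw [Function.iterate_succ_apply']
      show x * _ * x⁻¹ = _
      rw [ih, pow_succ']
      group
  have hper : ∀ q : Q, (⇑a)^[r] q = q := fun q => Subtype.ext (by rw [hit, hx]; group)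
  intro q hq
  have key := CfsgLib.HallHigman.aut_fixed (k := K) (s := s) hr hsr (hne hr hrl) hexc
    ((rep K f).comp Q.subtype) a (rep K f x) hper hQ (hne hs.out hsl) ?_ ?_ ?_ ⟨q, hq⟩
  · -- the representation separates the points of `V`
    refine MulEquiv.ext fun w => ?_
    by_contra hw
    letI : Module (ZMod ℓ) (Additive V) := AddCommGroup.zmodModule fun v => by
      show Additive.ofMul (v.toMul ^ ℓ) = 0
      rw [hV]; rfl
    set e : Additive V := Additive.ofMul (f (x * q * x⁻¹) w) - Additive.ofMul (f q w) with he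
    obtain ⟨ψ, hψ⟩ : ∃ ψ : Additive V →+ ZMod ℓ, ψ e ≠ 0 := by
      by_contra! h
      exact hw (Additive.ofMul.injective
        (sub_eq_zero.mp ((Module.forall_dual_apply_eq_zero_iff (ZMod ℓ) e).mp fun χ => h χ.toAddMonoidHom)))
    let φ : Additive V →+ K := (algebraMap (ZMod ℓ) K).toAddMonoidHom.comp ψ
    have key' : rep K f (x * q * x⁻¹) = rep K f q := key
    have hinv : rep K f (x * q * x⁻¹)⁻¹ = rep K f q⁻¹ := by
      have h1 : rep K f (x * q * x⁻¹) * rep K f q⁻¹ = 1 := by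
        rw [key', ← map_mul, mul_inv_cancel, map_one]
      calc rep K f (x * q * x⁻¹)⁻¹
          = rep K f (x * q * x⁻¹)⁻¹ * (rep K f (x * q * x⁻¹) * rep K f q⁻¹) := by rw [h1, mul_one]
        _ = rep K f q⁻¹ := by rw [← mul_assoc, ← map_mul, inv_mul_cancel, map_one, one_mul]
    have h1 := congrArg (fun T : Module.End K (Additive V →+ K) => T φ (Additive.ofMul w)) hinv
    simp only [rep_apply, inv_inv, toMul_ofMul] at h1
    have h2 : φ e = 0 := by rw [he, map_sub, h1, sub_self]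
    exact hψ ((algebraMap (ZMod ℓ) K).injective (h2.trans (map_zero _).symm))
  · intro q φ
    show rep K f x (rep K f (q : L) φ) = rep K f (x * q * x⁻¹) (rep K f x φ)
    rw [← Module.End.mul_apply, ← Module.End.mul_apply, ← map_mul, ← map_mul, inv_mul_cancel_right]
  · rw [← map_pow, hx, map_one]
  · refine LinearMap.ext fun φ => AddMonoidHom.ext fun v => ?_
    rw [LinearMap.sum_apply, AddMonoidHom.finsetSum_apply]
    simp only [← map_pow, rep_apply, LinearMap.zero_apply, AddMonoidHom.zero_apply]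
    rw [← map_sum, ← ofMul_prod]
    have hn : ∏ i ∈ Finset.range r, f (x ^ i)⁻¹ v.toMul = 1 := by
      simp only [← inv_pow]
      refine norm_eq_one f (by rw [inv_pow, hx, inv_one]) (fun w hw => hfix w ?_) _
      conv_lhs => rw [← hw]
      rw [← MulAut.mul_apply, ← map_mul, mul_inv_cancel, map_one]
      rfl
    rw [hn, ofMul_one, map_zero]

end Abstract

section Group'

open scoped IsMulCommutative

variable {G : Type u} [Group G] [Finite G] {X V Q : Subgroup G} {r ℓ s : ℕ}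

/-- The setting: `x` generates `X`; in both cases the commutators centralize `V`. -/
theorem commutator_mem_centralizer (hr : r.Prime) [Fact ℓ.Prime] [Fact s.Prime]
    (hX : Nat.card X = r) (hV : Cfsg.IsElementaryAbelian ℓ V) (hQs : IsPGroup s Q)
    (hrl : r ≠ ℓ) (hsr : s ≠ r) (hsl : s ≠ ℓ) (hXQ : X ≤ normalizer (Q : Set G))
    (hXV : X ≤ normalizer (V : Set G)) (hQV : Q ≤ normalizer (V : Set G))
    (hCV : V ⊓ centralizer (X : Set G) = ⊥)
    (hcase : (∀ j : ℕ, r - 1 = s ^ j → j = 0) ∨ IsMulCommutative Q) :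
    ∀ x ∈ X, ∀ q ∈ Q, x * q * x⁻¹ * q⁻¹ ∈ centralizer (V : Set G) := by
  haveI := hV.1
  haveI : Fact r.Prime := ⟨hr⟩
  intro x hx q hq
  by_cases hx1 : x = 1
  · subst hx1
    simpa using one_mem (centralizer (V : Set G))
  have hox : orderOf x = r := by
    rcases (Nat.dvd_prime hr).mp (by
      rw [← hX, ← Subgroup.orderOf_mk x hx]; exact orderOf_dvd_natCard _ : orderOf x ∣ r) with h | h
    · exact absurd (orderOf_eq_one_iff.mp h) hx1
    · exact h
  have hzX : zpowers x = X := Subgroup.eq_of_le_of_card_ge (zpowers_le.mpr hx)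
    (by rw [Nat.card_zpowers, hox, hX])
  set L := normalizer (V : Set G)
  let f := V.normalizerMonoidHom
  let x' : L := ⟨x, hXV hx⟩
  have hxr : x' ^ r = 1 := Subtype.ext (by
    show x ^ r = 1
    rw [← hox, pow_orderOf_eq_one])
  have hfix : ∀ v : V, f x' v = v → v = 1 := by
    intro v hv
    have h1 : x * (v : G) * x⁻¹ = v := congrArg Subtype.val hv
    have h2 : (v : G) ∈ V ⊓ centralizer (X : Set G) := ⟨v.2, by
      rw [← hzX, zpowers_eq_closure, centralizer_closure]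
      exact mem_centralizer_singleton_iff.mpr (mul_inv_eq_iff_eq_mul.mp h1).symm⟩
    rw [hCV, mem_bot] at h2
    exact Subtype.ext h2
  have hxQ : ∀ a ∈ Q.subgroupOf L, x' * a * x'⁻¹ ∈ Q.subgroupOf L := fun a ha =>
    (mem_normalizer_iff.mp (hXQ hx) a).mp ha
  have hmem : ∀ a : L, f a = 1 → (a : G) ∈ centralizer (V : Set G) := fun a ha => by
    have : a ∈ f.ker := ha
    rwa [normalizerMonoidHom_ker] at this
  rcases hcase with hexc | hab
  · have h := trivial_of_not_exceptional (ℓ := ℓ) (fun v : V => Subtype.ext (hV.2 v v.2)) f hr hxr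
      hrl hfix hsr hsl hexc (Q.subgroupOf L) (hQs.comap_subtype (K := L)) hxQ ⟨q, hQV hq⟩ hq
    exact hmem (x' * ⟨q, hQV hq⟩ * x'⁻¹ * (⟨q, hQV hq⟩ : L)⁻¹) (by
      rw [map_mul _ _ (⟨q, hQV hq⟩ : L)⁻¹, h, map_inv, mul_inv_cancel])
  · haveI : IsMulCommutative (Q.subgroupOf L) := ⟨⟨fun a b => Subtype.ext (Subtype.ext
      (show ((a : L) : G) * (b : L) = (b : L) * (a : L) from
        congrArg Subtype.val (hab.is_comm.comm (⟨((a : L) : G), a.2⟩ : Q) ⟨((b : L) : G), b.2⟩)))⟩⟩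
    have hco : (Nat.card ↥(Q.subgroupOf L)).Coprime (Nat.card V) := by
      obtain ⟨a, ha⟩ := (hQs.comap_subtype (K := L)).exists_card_eq
      have hVp : IsPGroup ℓ V := fun v => ⟨1, Subtype.ext (by
        rw [SubmonoidClass.coe_pow, pow_one, hV.2 v v.2]; rfl)⟩
      obtain ⟨b, hb⟩ := hVp.exists_card_eq
      show (Nat.card ↥(Q.subgroupOf L)).Coprime (Nat.card V)
      rw [hb, show Nat.card ↥(Q.subgroupOf L) = s ^ a from ha]
      exact Nat.Coprime.pow _ _ ((Nat.coprime_primes Fact.out Fact.out).mpr hsl)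
    have h := trivial_of_abelian f hr hxr hfix (Q.subgroupOf L) inferInstance hxQ hco
      ⟨q, hQV hq⟩ hq
    have h' := hmem ((⟨q, hQV hq⟩ : L) * x' * (⟨q, hQV hq⟩ : L)⁻¹ * x'⁻¹) (MulEquiv.ext h)
    have := inv_mem h'
    simpa [x', mul_assoc] using this

theorem exponent_cases (hr : r.Prime) (hs : s.Prime) (hsr : s ≠ r) :
    (∀ j : ℕ, r - 1 = s ^ j → j = 0) ∨ s = 2 ∧ ∃ n : ℕ, r = 2 ^ n + 1 := by
  by_cases h : ∀ j : ℕ, r - 1 = s ^ j → j = 0
  · exact Or.inl h
  push_neg at h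
  obtain ⟨j, hj, hj0⟩ := h
  have hr1 := hr.two_le
  by_cases hs2 : s = 2
  · subst hs2
    exact Or.inr ⟨rfl, j, by omega⟩
  exfalso
  obtain ⟨a, ha⟩ := (hs.odd_of_ne_two hs2).pow (n := j)
  rcases hr.eq_two_or_odd with h2 | h2
  · have : 1 < s ^ j := Nat.one_lt_pow hj0 hs.one_lt
    omega
  · omega

theorem eq_bot_of_trivial (hr : r.Prime) [Fact ℓ.Prime] [Fact s.Prime]
    (hX : Nat.card X = r) (hV : Cfsg.IsElementaryAbelian ℓ V) (hQs : IsPGroup s Q)
    (hrl : r ≠ ℓ) (hsr : s ≠ r) (hsl : s ≠ ℓ) (hXQ : X ≤ normalizer (Q : Set G))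
    (hXV : X ≤ normalizer (V : Set G)) (hQV : Q ≤ normalizer (V : Set G))
    (hfaith : (X ⊔ Q) ⊓ centralizer (V : Set G) = ⊥) (hCV : V ⊓ centralizer (X : Set G) = ⊥)
    (hcase : (∀ j : ℕ, r - 1 = s ^ j → j = 0) ∨ IsMulCommutative Q) :
    X ≤ centralizer (Q : Set G) := by
  intro x hx
  rw [mem_centralizer_iff]
  intro q hq
  have h : x * q * x⁻¹ * q⁻¹ ∈ (X ⊔ Q) ⊓ centralizer (V : Set G) :=
    ⟨(X ⊔ Q).mul_mem ((X ⊔ Q).mul_mem ((X ⊔ Q).mul_mem (mem_sup_left hx) (mem_sup_right hq))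
      ((X ⊔ Q).inv_mem (mem_sup_left hx))) ((X ⊔ Q).inv_mem (mem_sup_right hq)),
      commutator_mem_centralizer hr hX hV hQs hrl hsr hsl hXQ hXV hQV hCV hcase x hx q hq⟩
  rw [hfaith, mem_bot, mul_inv_eq_one, mul_inv_eq_iff_eq_mul] at h
  exact h.symm

end Group'

end CfsgLib.Core.HallHigmanFixed
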