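import Mathlib
import Cfsg.Agent.Lib.CorePGroup
import Cfsg.Agent.Lib.CoreBasic

/-!
Itô's theorem on products of two abelian groups, and its companion: such a nontrivial product
has a nontrivial normal subgroup inside one of the factors.
-/

set_option autoImplicit false
set_option maxHeartbeats 400000

namespace CfsgLib.Core

open scoped Pointwise
open Subgroup

universe u

variable {G : Type u} [Group G]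

/-- The commutator, spelled out. -/
abbrev itoC (x y : G) : G := x * y * x⁻¹ * y⁻¹

theorem ito_commute_aux {A B : Subgroup G} (hA : ∀ x ∈ A, ∀ y ∈ A, x * y = y * x)
    (hB : ∀ x ∈ B, ∀ y ∈ B, x * y = y * x) (hAB : ∀ g : G, ∃ a ∈ A, ∃ b ∈ B, g = a * b)
    {a b a₁ b₁ : G} (ha : a ∈ A) (hb : b ∈ B) (ha₁ : a₁ ∈ A) (hb₁ : b₁ ∈ B) :
    itoC a₁⁻¹ b₁⁻¹ * itoC a b = itoC a b * itoC a₁⁻¹ b₁⁻¹ := by
  obtain ⟨x, hx, y, hy, hxy⟩ := hAB (a₁ * b * a₁⁻¹)⁻¹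
  have hb2 : a₁ * b * a₁⁻¹ = y⁻¹ * x⁻¹ := by rw [← mul_inv_rev, ← hxy, inv_inv]
  obtain ⟨a3, ha3, b3, hb3, h3⟩ := hAB (b₁ * a * b₁⁻¹)
  -- moving by `a₁`
  have hmoveA : ∀ c ∈ A, a₁ * itoC c b * a₁⁻¹ = itoC c y⁻¹ := fun c hc => by
    have hcc : a₁ * c * a₁⁻¹ = c := by rw [hA a₁ ha₁ c hc, mul_inv_cancel_right]
    have hcx : x⁻¹ * c⁻¹ * x = c⁻¹ := by
      rw [mul_assoc, ← hA x hx c⁻¹ (inv_mem hc), inv_mul_cancel_left]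
    calc a₁ * itoC c b * a₁⁻¹
        = (a₁ * c * a₁⁻¹) * (a₁ * b * a₁⁻¹) * (a₁ * c * a₁⁻¹)⁻¹ * (a₁ * b * a₁⁻¹)⁻¹ := by group
      _ = c * y⁻¹ * (x⁻¹ * c⁻¹ * x) * y := by rw [hcc, hb2]; group
      _ = itoC c y⁻¹ := by rw [hcx, itoC, inv_inv]
  have hmoveB : ∀ d ∈ B, b₁ * itoC a d * b₁⁻¹ = itoC a3 d := fun d hd => by
    have hdd : b₁ * d * b₁⁻¹ = d := by rw [hB b₁ hb₁ d hd, mul_inv_cancel_right]
    have hd3 : b3 * d * b3⁻¹ = d := by rw [hB b3 hb3 d hd, mul_inv_cancel_right]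
    calc b₁ * itoC a d * b₁⁻¹
        = (b₁ * a * b₁⁻¹) * (b₁ * d * b₁⁻¹) * (b₁ * a * b₁⁻¹)⁻¹ * (b₁ * d * b₁⁻¹)⁻¹ := by group
      _ = a3 * (b3 * d * b3⁻¹) * a3⁻¹ * d⁻¹ := by rw [hdd, h3]; group
      _ = itoC a3 d := by rw [hd3]
  have h1 : b₁ * (a₁ * itoC a b * a₁⁻¹) * b₁⁻¹ = a₁ * (b₁ * itoC a b * b₁⁻¹) * a₁⁻¹ := by
    rw [hmoveA a ha, hmoveB _ (inv_mem hy), hmoveB b hb, hmoveA a3 ha3]
  calc itoC a₁⁻¹ b₁⁻¹ * itoC a b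
      = a₁⁻¹ * b₁⁻¹ * (a₁ * (b₁ * itoC a b * b₁⁻¹) * a₁⁻¹) * a₁ * b₁ := by simp [itoC, mul_assoc]
    _ = a₁⁻¹ * b₁⁻¹ * (b₁ * (a₁ * itoC a b * a₁⁻¹) * b₁⁻¹) * a₁ * b₁ := by rw [h1]
    _ = itoC a b * itoC a₁⁻¹ b₁⁻¹ := by simp [itoC, mul_assoc]

/-- Itô: the commutators of the two factors commute. -/
theorem ito_commute {A B : Subgroup G} (hA : ∀ x ∈ A, ∀ y ∈ A, x * y = y * x)
    (hB : ∀ x ∈ B, ∀ y ∈ B, x * y = y * x) (hAB : ∀ g : G, ∃ a ∈ A, ∃ b ∈ B, g = a * b)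
    {a b a₁ b₁ : G} (ha : a ∈ A) (hb : b ∈ B) (ha₁ : a₁ ∈ A) (hb₁ : b₁ ∈ B) :
    itoC a₁ b₁ * itoC a b = itoC a b * itoC a₁ b₁ := by
  simpa using ito_commute_aux hA hB hAB ha hb (inv_mem ha₁) (inv_mem hb₁)

end CfsgLib.Core
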