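import Mathlib
import Cfsg.Agent.Lib.CoreIto
import Cfsg.Agent.Lib.CorePGroup
import Cfsg.Agent.Lib.CoreBasic

/-!
A nontrivial finite product of two abelian subgroups has a nontrivial normal subgroup in a factor.
-/

set_option autoImplicit false
set_option maxHeartbeats 400000

namespace CfsgLib.Core

open scoped Pointwise
open Subgroup

universe u

variable {G : Type u} [Group G] [Finite G]

/-- An element outside a nontrivial normal subgroup of a factor: the data used below. -/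
def NoCore (A : Subgroup G) : Prop := ∀ N : Subgroup G, N.Normal → N ≤ A → N = ⊥

theorem center_eq_bot_of_noCore {A B : Subgroup G} (hA : ∀ x ∈ A, ∀ y ∈ A, x * y = y * x)
    (hB : ∀ x ∈ B, ∀ y ∈ B, x * y = y * x) (hAB : ∀ g : G, ∃ a ∈ A, ∃ b ∈ B, g = a * b)
    (nA : NoCore A) (nB : NoCore B) {b : G} (hb : b ∈ B) (hc : ∀ a ∈ A, b * a = a * b) : b = 1 := by
  have hn : (Subgroup.zpowers b).Normal := by
    rw [← Subgroup.normalizer_eq_top_iff, eq_top_iff]
    intro g _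
    refine Subgroup.centralizer_le_normalizer _ ?_
    rw [Subgroup.mem_centralizer_iff]
    rintro _ ⟨j, rfl⟩
    obtain ⟨a, ha, b', hb', rfl⟩ := hAB g
    exact ((show Commute b a from hc a ha).mul_right (hB b hb b' hb')).zpow_left j
  exact Subgroup.zpowers_eq_bot.mp (nB _ hn (Subgroup.zpowers_le.mpr hb))

theorem ito_core {A B : Subgroup G} (hA : ∀ x ∈ A, ∀ y ∈ A, x * y = y * x)
    (hB : ∀ x ∈ B, ∀ y ∈ B, x * y = y * x) (hAB : ∀ g : G, ∃ a ∈ A, ∃ b ∈ B, g = a * b)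
    (nA : NoCore A) (nB : NoCore B) : Subsingleton G := by
  classical
  have hBA : ∀ g : G, ∃ b ∈ B, ∃ a ∈ A, g = b * a := fun g => by
    obtain ⟨a, ha, b, hb, h⟩ := hAB g⁻¹
    exact ⟨b⁻¹, inv_mem hb, a⁻¹, inv_mem ha, by rw [← mul_inv_rev, ← h, inv_inv]⟩
  have hb1 : ∀ b ∈ B, (∀ a ∈ A, b * a = a * b) → b = 1 := fun b hb h =>
    center_eq_bot_of_noCore hA hB hAB nA nB hb h
  have ha1 : ∀ a ∈ A, (∀ b ∈ B, a * b = b * a) → a = 1 := fun a ha h =>
    center_eq_bot_of_noCore hB hA hBA nB nA ha h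
  -- the derived group
  set K := Subgroup.closure {x : G | ∃ a ∈ A, ∃ b ∈ B, itoC a b = x} with hKdef
  have hgenmem : ∀ a ∈ A, ∀ b ∈ B, itoC a b ∈ K := fun a ha b hb =>
    Subgroup.subset_closure ⟨a, ha, b, hb, rfl⟩
  haveI hKn : K.Normal := by
    rw [← Subgroup.normalizer_eq_top_iff, eq_top_iff]
    intro g _
    obtain ⟨a', ha', b', hb', rfl⟩ := hAB g
    refine mul_mem ?_ ?_ <;> refine Subgroup.mem_normalizer_fintype fun n hn => ?_
    · refine Subgroup.closure_induction (fun x hx => ?_) (by simp) (fun x y _ _ hx hy => ?_)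
        (fun x _ hx => ?_) hn
      · obtain ⟨a, ha, b, hb, rfl⟩ := hx
        have e : a' * itoC a b * a'⁻¹ = itoC (a' * a) b * (itoC a' b)⁻¹ := by simp [itoC, mul_assoc]
        rw [e]
        exact mul_mem (hgenmem _ (mul_mem ha' ha) b hb) (inv_mem (hgenmem a' ha' b hb))
      · simpa [mul_assoc] using mul_mem hx hy
      · simpa [mul_assoc] using inv_mem hx
    · refine Subgroup.closure_induction (fun x hx => ?_) (by simp) (fun x y _ _ hx hy => ?_)
        (fun x _ hx => ?_) hn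
      · obtain ⟨a, ha, b, hb, rfl⟩ := hx
        have e : b' * itoC a b * b'⁻¹ = (itoC a b')⁻¹ * itoC a (b' * b) := by simp [itoC, mul_assoc]
        rw [e]
        exact mul_mem (inv_mem (hgenmem a ha b' hb')) (hgenmem a ha _ (mul_mem hb' hb))
      · simpa [mul_assoc] using mul_mem hx hy
      · simpa [mul_assoc] using inv_mem hx
  have hKc : ∀ x ∈ K, ∀ y ∈ K, x * y = y * x := by
    haveI : IsMulCommutative ↥K := Subgroup.isMulCommutative_closure (by
      rintro x ⟨a, ha, b, hb, rfl⟩ y ⟨a₁, ha₁, b₁, hb₁, rfl⟩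
      exact (ito_commute hA hB hAB ha hb ha₁ hb₁).symm)
    exact fun x hx y hy => congrArg Subtype.val
      (IsMulCommutative.is_comm.comm (⟨x, hx⟩ : ↥K) ⟨y, hy⟩)
  -- fixed points
  have hKA : ∀ x ∈ K, (∀ a ∈ A, x * a = a * x) → x = 1 := by
    have hfix : ∀ x : G, x ∈ K → (∀ a ∈ A, x * a = a * x) → x ∈ A := by
      intro x _ hx
      obtain ⟨a, ha, b, hb, rfl⟩ := hAB x
      have hb' : b = 1 := hb1 b hb fun a' ha' => by
        have h1 := hx a' ha'
        rw [mul_assoc, ← mul_assoc a', hA a' ha' a ha, mul_assoc] at h1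
        exact mul_left_cancel h1
      rw [hb', mul_one]; exact ha
    set X := A ⊓ K
    have hX : X.Normal := by
      rw [← Subgroup.normalizer_eq_top_iff, eq_top_iff]
      intro g _
      obtain ⟨a', ha', b', hb', rfl⟩ := hAB g
      refine mul_mem ?_ ?_ <;> refine Subgroup.mem_normalizer_fintype fun n hn => ?_
      · rw [hA a' ha' n hn.1, mul_inv_cancel_right]; exact hn
      · refine Subgroup.mem_inf.mpr ⟨hfix _ (hKn.conj_mem n hn.2 b') fun a ha => ?_,
          hKn.conj_mem n hn.2 b'⟩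
        have hw : (a⁻¹ * b'⁻¹ * a * b') ∈ K := by
          simpa [itoC] using hgenmem a⁻¹ (inv_mem ha) b'⁻¹ (inv_mem hb')
        have h1 : n * (b'⁻¹ * a * b') = (b'⁻¹ * a * b') * n := by
          calc n * (b'⁻¹ * a * b') = n * (a * (a⁻¹ * b'⁻¹ * a * b')) := by group
            _ = a * (n * (a⁻¹ * b'⁻¹ * a * b')) := by
                rw [← mul_assoc, ← hA a ha n hn.1, mul_assoc]
            _ = a * ((a⁻¹ * b'⁻¹ * a * b') * n) := by rw [hKc n hn.2 _ hw]
            _ = _ := by group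
        calc b' * n * b'⁻¹ * a = b' * (n * (b'⁻¹ * a * b')) * b'⁻¹ := by group
          _ = b' * ((b'⁻¹ * a * b') * n) * b'⁻¹ := by rw [h1]
          _ = a * (b' * n * b'⁻¹) := by group
    intro x hx h
    exact Subgroup.mem_bot.mp (nA X hX inf_le_left ▸ Subgroup.mem_inf.mpr ⟨hfix x hx h, hx⟩)
  -- K is trivial
  suffices hK1 : ∀ a ∈ A, ∀ b ∈ B, itoC a b = 1 by
    refine ⟨fun g h => ?_⟩
    have hall : ∀ z : G, z = 1 := fun z => by
      obtain ⟨a, ha, b, hb, rfl⟩ := hAB z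
      have e1 : ∀ a ∈ A, ∀ b ∈ B, a * b = b * a := fun a ha b hb => by
        have := hK1 a ha b hb
        rwa [itoC, mul_inv_eq_one, mul_inv_eq_iff_eq_mul] at this
      rw [ha1 a ha fun b' hb' => e1 a ha b' hb', hb1 b hb fun a' ha' => (e1 a' ha' b hb).symm,
        one_mul]
    rw [hall g, hall h]
  by_contra hne
  push Not at hne
  have hK0 : K ≠ ⊥ := by
    obtain ⟨a, ha, b, hb, h⟩ := hne
    exact fun e => h (Subgroup.mem_bot.mp (e ▸ hgenmem a ha b hb))
  obtain ⟨p, hp, hpK⟩ := Nat.exists_prime_and_dvd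
    (show Nat.card ↥K ≠ 1 from fun h => hK0 (Subgroup.card_eq_one.mp h))
  haveI := Fact.mk hp
  obtain ⟨v, m', hm', hKcard⟩ := Nat.exists_eq_pow_mul_and_not_dvd (Nat.card_pos (α := ↥K)).ne' p hp.ne_one
  have hcopm : (p ^ v).Coprime m' := ((hp.coprime_iff_not_dvd).mpr hm').pow_left v
  obtain ⟨e, he1, he0⟩ := Nat.chineseRemainder hcopm 1 0
  -- the p-part V
  let V : Subgroup G :=
    { carrier := {x | x ∈ K ∧ x ^ p ^ v = 1}
      one_mem' := ⟨one_mem K, one_pow _⟩
      mul_mem' := fun {x y} hx hy => ⟨mul_mem hx.1 hy.1, by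
        rw [(show Commute x y from hKc x hx.1 y hy.1).mul_pow, hx.2, hy.2, one_mul]⟩
      inv_mem' := fun {x} hx => ⟨inv_mem hx.1, by rw [inv_pow, hx.2, inv_one]⟩ }
  haveI hVn : V.Normal := ⟨fun n hn g => ⟨hKn.conj_mem n hn.1 g, by
    rw [conj_pow, hn.2, mul_one, mul_inv_cancel]⟩⟩
  letI : CommGroup ↥V :=
    { (inferInstance : Group ↥V) with
      mul_comm := fun x y => Subtype.ext (hKc x.1 x.2.1 y.1 y.2.1) }
  let act : G → (↥V →* ↥V) := fun g =>
    { toFun := fun x => ⟨g * x.1 * g⁻¹, hVn.conj_mem x.1 x.2 g⟩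
      map_one' := Subtype.ext (by simp)
      map_mul' := fun x y => Subtype.ext (by simp [mul_assoc]) }
  have hact : ∀ g h : G, ∀ x : ↥V, act (g * h) x = act g (act h x) := fun g h x =>
    Subtype.ext (by show g * h * x.1 * (g * h)⁻¹ = g * (h * x.1 * h⁻¹) * g⁻¹; group)
  let π : G → ↥V := fun x => if h : x ^ e ∈ V then ⟨x ^ e, h⟩ else 1
  have hpow : ∀ x ∈ K, x ^ e ∈ V := fun x hx => ⟨pow_mem hx e, by
    rw [← pow_mul]
    refine orderOf_dvd_iff_pow_eq_one.mp ((Subgroup.orderOf_dvd_natCard _ hx).trans ?_)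
    rw [hKcard, mul_comm e]
    exact Nat.mul_dvd_mul_left _ (Nat.modEq_zero_iff_dvd.mp he0)⟩
  have hπval : ∀ x ∈ K, (π x : G) = x ^ e := fun x hx => by simp [π, hpow x hx]
  have hπmul : ∀ x ∈ K, ∀ y ∈ K, π (x * y) = π x * π y := fun x hx y hy => Subtype.ext (by
    rw [Subgroup.coe_mul, hπval x hx, hπval y hy, hπval _ (mul_mem hx hy),
      (show Commute x y from hKc x hx y hy).mul_pow])
  have hπinv : ∀ x ∈ K, π x⁻¹ = (π x)⁻¹ := fun x hx => Subtype.ext (by
    rw [Subgroup.coe_inv, hπval x hx, hπval _ (inv_mem hx), inv_pow])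
  have hπV : ∀ x : ↥V, π x.1 = x := fun x => Subtype.ext (by
    rw [hπval _ x.2.1]
    have h1 : orderOf x.1 ∣ p ^ v := orderOf_dvd_of_pow_eq_one x.2.2
    conv_rhs => rw [← pow_one x.1]
    exact pow_eq_pow_iff_modEq.mpr (he1.of_dvd h1))
  have hπact : ∀ g : G, ∀ x ∈ K, π (g * x * g⁻¹) = act g (π x) := fun g x hx => Subtype.ext (by
    rw [hπval _ (hKn.conj_mem x hx g), conj_pow]
    show g * x ^ e * g⁻¹ = g * (π x : G) * g⁻¹
    rw [hπval x hx])
  have hactK : ∀ k ∈ K, ∀ x : ↥V, act k x = x := fun k hk x => Subtype.ext (by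
    show k * x.1 * k⁻¹ = x.1
    rw [hKc k hk x.1 x.2.1, mul_inv_cancel_right])
  -- parts of order prime to p
  have part : ∀ (C : Subgroup G), (∀ x ∈ C, ∀ y ∈ C, x * y = y * x) →
      (∀ x ∈ K, (∀ c ∈ C, x * c = c * x) → x = 1) →
      ∃ C' : Subgroup G, C' ≤ C ∧ (Nat.card ↥C').Coprime p ∧
        ∀ x : ↥V, (∀ c ∈ C', act c x = x) → x = 1 := by
    intro C hC hfixC
    obtain ⟨w, n', hn', hCcard⟩ :=
      Nat.exists_eq_pow_mul_and_not_dvd (Nat.card_pos (α := ↥C)).ne' p hp.ne_one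
    let C' : Subgroup G :=
      { carrier := {c | c ∈ C ∧ c ^ n' = 1}
        one_mem' := ⟨one_mem C, one_pow _⟩
        mul_mem' := fun {x y} hx hy => ⟨mul_mem hx.1 hy.1, by
          rw [(show Commute x y from hC x hx.1 y hy.1).mul_pow, hx.2, hy.2, one_mul]⟩
        inv_mem' := fun {x} hx => ⟨inv_mem hx.1, by rw [inv_pow, hx.2, inv_one]⟩ }
    let Cp : Subgroup G :=
      { carrier := {c | c ∈ C ∧ c ^ p ^ w = 1}
        one_mem' := ⟨one_mem C, one_pow _⟩
        mul_mem' := fun {x y} hx hy => ⟨mul_mem hx.1 hy.1, by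
          rw [(show Commute x y from hC x hx.1 y hy.1).mul_pow, hx.2, hy.2, one_mul]⟩
        inv_mem' := fun {x} hx => ⟨inv_mem hx.1, by rw [inv_pow, hx.2, inv_one]⟩ }
    refine ⟨C', fun c hc => hc.1, ?_, fun x hx => ?_⟩
    · rw [Nat.coprime_comm, hp.coprime_iff_not_dvd]
      intro hd
      obtain ⟨⟨c, hc⟩, hco⟩ := exists_prime_orderOf_dvd_card' p hd
      rw [← Subgroup.orderOf_coe] at hco
      exact hn' (hco ▸ orderOf_dvd_of_pow_eq_one hc.2)
    have hsplit : ∀ c ∈ C, ∃ u ∈ Cp, ∃ u' ∈ C', c = u * u' := by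
      intro c hc
      have hbez := Nat.gcd_eq_gcd_ab (p ^ w) n'
      rw [show Nat.gcd (p ^ w) n' = 1 from ((hp.coprime_iff_not_dvd).mpr hn').pow_left w] at hbez
      have hone : c ^ (p ^ w * n') = 1 :=
        hCcard ▸ orderOf_dvd_iff_pow_eq_one.mp (Subgroup.orderOf_dvd_natCard _ hc)
      refine ⟨c ^ ((n' : ℤ) * Nat.gcdB (p ^ w) n'), ⟨zpow_mem hc _, ?_⟩,
        c ^ (((p ^ w : ℕ) : ℤ) * Nat.gcdA (p ^ w) n'), ⟨zpow_mem hc _, ?_⟩, ?_⟩
      · rw [← zpow_natCast, ← zpow_mul,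
          show (n' : ℤ) * Nat.gcdB (p ^ w) n' * ((p ^ w : ℕ) : ℤ) =
            ((p ^ w * n' : ℕ) : ℤ) * Nat.gcdB (p ^ w) n' by push_cast; ring,
          zpow_mul, zpow_natCast, hone, one_zpow]
      · rw [← zpow_natCast, ← zpow_mul,
          show ((p ^ w : ℕ) : ℤ) * Nat.gcdA (p ^ w) n' * (n' : ℤ) =
            ((p ^ w * n' : ℕ) : ℤ) * Nat.gcdA (p ^ w) n' by push_cast; ring,
          zpow_mul, zpow_natCast, hone, one_zpow]
      · rw [← zpow_add, add_comm, ← hbez, Nat.cast_one, zpow_one]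
    by_contra hx1
    set F : Subgroup G := V ⊓ Subgroup.centralizer (C' : Set G) with hF
    have hxF : x.1 ∈ F := Subgroup.mem_inf.mpr ⟨x.2, by
      rw [Subgroup.mem_centralizer_iff]
      intro c hc
      have h := congrArg Subtype.val (hx c hc)
      exact mul_inv_eq_iff_eq_mul.mp h⟩
    have hCF : Cp ≤ Subgroup.normalizer (F : Set G) := by
      intro u hu
      refine Subgroup.mem_normalizer_fintype fun y hy => Subgroup.mem_inf.mpr
        ⟨hVn.conj_mem y hy.1 u, ?_⟩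
      rw [Subgroup.mem_centralizer_iff]
      intro c hc
      have h1 := Subgroup.mem_centralizer_iff.mp hy.2 c hc
      have h2 : Commute c u := hC c hc.1 u hu.1
      exact (h2.mul_right h1).mul_right h2.inv_right
    have hE : IsPGroup p ↥(Cp ⊔ F) := by
      refine IsPGroup.to_sup_of_normal_right' ?_ ?_ hCF
      · exact fun u => ⟨w, Subtype.ext u.2.2⟩
      · exact fun u => ⟨v, Subtype.ext (show (u.1 : G) ^ p ^ v = 1 from u.2.1.2)⟩
    haveI := hE.isNilpotent
    haveI : (F.subgroupOf (Cp ⊔ F)).Normal :=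
      (Subgroup.normal_subgroupOf_iff_le_normalizer le_sup_right).mpr (sup_le_normalizer hCF)
    have hne' : F.subgroupOf (Cp ⊔ F) ≠ ⊥ := fun h => hx1 (Subtype.ext (by
      have h1 : (⟨x.1, Subgroup.mem_sup_right hxF⟩ : ↥(Cp ⊔ F)) ∈ F.subgroupOf (Cp ⊔ F) := hxF
      rw [h, Subgroup.mem_bot] at h1
      simpa using congrArg Subtype.val h1))
    obtain ⟨⟨z, hz⟩, hz1⟩ := Subgroup.ne_bot_iff_exists_ne_one.mp (nilpotent_inf_center_ne_bot hne')
    refine hz1 (Subtype.ext (Subtype.ext (hfixC z.1 hz.1.1.1 fun c hc => ?_)))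
    obtain ⟨u, hu, u', hu', rfl⟩ := hsplit c hc
    have h1 : Commute z.1 u := congrArg Subtype.val
      (Subgroup.mem_center_iff.mp hz.2 ⟨u, Subgroup.mem_sup_left hu⟩).symm
    have h2 : Commute z.1 u' := (Subgroup.mem_centralizer_iff.mp hz.1.2 u' hu').symm
    exact h1.mul_right h2
  have hKB : ∀ x ∈ K, (∀ b ∈ B, x * b = b * x) → x = 1 := by
    have hfix : ∀ x : G, x ∈ K → (∀ b ∈ B, x * b = b * x) → x ∈ B := by
      intro x _ hx
      obtain ⟨b, hb, a, ha, rfl⟩ := hBA x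
      have ha' : a = 1 := ha1 a ha fun b' hb' => by
        have h1 := hx b' hb'
        rw [mul_assoc, ← mul_assoc b', hB b' hb' b hb, mul_assoc] at h1
        exact mul_left_cancel h1
      rw [ha', mul_one]; exact hb
    set X := B ⊓ K
    have hX : X.Normal := by
      rw [← Subgroup.normalizer_eq_top_iff, eq_top_iff]
      intro g _
      obtain ⟨b', hb', a', ha', rfl⟩ := hBA g
      refine mul_mem ?_ ?_ <;> refine Subgroup.mem_normalizer_fintype fun n hn => ?_
      · rw [hB b' hb' n hn.1, mul_inv_cancel_right]; exact hn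
      · refine Subgroup.mem_inf.mpr ⟨hfix _ (hKn.conj_mem n hn.2 a') fun b hb => ?_,
          hKn.conj_mem n hn.2 a'⟩
        have hw : (b⁻¹ * a'⁻¹ * b * a') ∈ K := by
          simpa [itoC, mul_assoc] using inv_mem (hgenmem a'⁻¹ (inv_mem ha') b⁻¹ (inv_mem hb))
        have h1 : n * (a'⁻¹ * b * a') = (a'⁻¹ * b * a') * n := by
          calc n * (a'⁻¹ * b * a') = n * (b * (b⁻¹ * a'⁻¹ * b * a')) := by group
            _ = b * (n * (b⁻¹ * a'⁻¹ * b * a')) := by
                rw [← mul_assoc, ← hB b hb n hn.1, mul_assoc]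
            _ = b * ((b⁻¹ * a'⁻¹ * b * a') * n) := by rw [hKc n hn.2 _ hw]
            _ = _ := by group
        calc a' * n * a'⁻¹ * b = a' * (n * (a'⁻¹ * b * a')) * a'⁻¹ := by group
          _ = a' * ((a'⁻¹ * b * a') * n) * a'⁻¹ := by rw [h1]
          _ = b * (a' * n * a'⁻¹) := by group
    intro x hx h
    exact Subgroup.mem_bot.mp (nB X hX inf_le_left ▸ Subgroup.mem_inf.mpr ⟨hfix x hx h, hx⟩)
  obtain ⟨A', hA'A, hA'c, hA'fix⟩ := part A hA hKA
  obtain ⟨B', hB'B, hB'c, hB'fix⟩ := part B hB hKB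
  haveI := Fintype.ofFinite ↥A'
  haveI := Fintype.ofFinite ↥B'
  have havg : ∀ (C' : Subgroup G) [Fintype ↥C'], (∀ x : ↥V, (∀ c ∈ C', act c x = x) → x = 1) →
      ∀ x : ↥V, ∏ c : ↥C', act c.1 x = 1 := by
    intro C' _ hfix x
    refine hfix _ fun c hc => ?_
    rw [map_prod]
    refine Fintype.prod_equiv (Equiv.mulLeft (⟨c, hc⟩ : ↥C')) _ _ fun d => ?_
    rw [Equiv.coe_mulLeft, ← hact]
    rfl
  let c : G → G → ↥V := fun a b => π (itoC a b)
  let d : G → ↥V → ↥V := fun g x => x / act g x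
  have hid1 : ∀ a ∈ A, ∀ a' ∈ A, ∀ b ∈ B, d a (c a' b) = d a' (c a b) := by
    intro a ha a' ha' b hb
    have key : ∀ u ∈ A, ∀ u' ∈ A, c (u * u') b = act u (c u' b) * c u b := by
      intro u hu u' hu'
      show π _ = act u (π _) * π _
      rw [← hπact u _ (hgenmem u' hu' b hb),
        ← hπmul _ (hKn.conj_mem _ (hgenmem u' hu' b hb) u) _ (hgenmem u hu b hb)]
      congr 1
      simp [itoC, mul_assoc]
    have h := key a ha a' ha'
    rw [hA a ha a' ha', key a' ha' a ha] at h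
    simp only [d, div_eq_div_iff_mul_eq_mul]
    rw [mul_comm (c a' b), mul_comm (c a b), h]
  have hid2 : ∀ a ∈ A, ∀ b ∈ B, ∀ b' ∈ B, d b (c a b') = d b' (c a b) := by
    intro a ha b hb b' hb'
    have key : ∀ u ∈ B, ∀ u' ∈ B, c a (u * u') = c a u * act u (c a u') := by
      intro u hu u' hu'
      show π _ = π _ * act u (π _)
      rw [← hπact u _ (hgenmem a ha u' hu'),
        ← hπmul _ (hgenmem a ha u hu) _ (hKn.conj_mem _ (hgenmem a ha u' hu') u)]
      congr 1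
      simp [itoC, mul_assoc]
    have h := key b hb b' hb'
    rw [hB b hb b' hb', key b' hb' b hb] at h
    simp only [d, div_eq_div_iff_mul_eq_mul]
    exact h
  have hdprod : ∀ (g : G) {ι : Type u} [Fintype ι] (f : ι → ↥V), d g (∏ i, f i) = ∏ i, d g (f i) := by
    intro g ι _ f
    simp only [d, map_prod, Finset.prod_div_distrib]
  set E : G → ↥V := fun b => ∏ a' : ↥A', c a'.1 b with hE
  set n := Fintype.card ↥A' with hn
  set m := Fintype.card ↥B' with hm
  have hEeq : ∀ a ∈ A, ∀ b ∈ B, d a (E b) = c a b ^ n := by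
    intro a ha b hb
    rw [hE, hdprod, Finset.prod_congr rfl (fun a' _ => hid1 a ha a'.1 (hA'A a'.2) b hb)]
    simp only [d]
    rw [Finset.prod_div_distrib, havg A' hA'fix, div_one, Finset.prod_const, hn, Finset.card_univ]
  have hFeq : ∀ a ∈ A, ∀ b ∈ B, d b (∏ b' : ↥B', c a b'.1) = c a b ^ m := by
    intro a ha b hb
    rw [hdprod, Finset.prod_congr rfl (fun b' _ => hid2 a ha b hb b'.1 (hB'B b'.2))]
    simp only [d]
    rw [Finset.prod_div_distrib, havg B' hB'fix, div_one, Finset.prod_const, hm, Finset.card_univ]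
  set S : ↥V := ∏ b' : ↥B', E b'.1 with hS
  have hdpow : ∀ (g : G) (x : ↥V) (k : ℕ), d g (x ^ k) = d g x ^ k := fun g x k => by
    simp only [d, map_pow, div_pow]
  have hcab : ∀ a ∈ A, ∀ b ∈ B, c a b ^ (m * n) = d b (d a S) := by
    intro a ha b hb
    rw [pow_mul, ← hFeq a ha b hb, ← hdpow, ← Finset.prod_pow, hS, hdprod a,
      Finset.prod_congr rfl (fun b' _ => (hEeq a ha b'.1 (hB'B b'.2)).symm)]
  obtain ⟨t, ht⟩ : ∃ t : ℕ, m * n * t ≡ 1 [MOD p ^ v] := by
    have hco : (m * n).Coprime (p ^ v) := by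
      rw [hn, hm, ← Nat.card_eq_fintype_card, ← Nat.card_eq_fintype_card]
      exact Nat.Coprime.pow_right v (Nat.Coprime.mul_left hB'c hA'c)
    rcases Nat.eq_zero_or_pos v with h0 | h0
    · exact ⟨0, by rw [h0, pow_zero]; exact Nat.modEq_one⟩
    obtain ⟨t, -, ht⟩ := Nat.exists_mul_mod_eq_one_of_coprime hco (Nat.one_lt_pow h0.ne' hp.one_lt)
    exact ⟨t, ht.trans (Nat.mod_eq_of_lt (Nat.one_lt_pow h0.ne' hp.one_lt)).symm⟩
  set ε : ↥V := S ^ t with hε
  have hroot : ∀ x : ↥V, x ^ (m * n * t) = x := fun x => by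
    conv_rhs => rw [← pow_one x]
    exact pow_eq_pow_iff_modEq.mpr (ht.of_dvd (orderOf_dvd_of_pow_eq_one (Subtype.ext x.2.2)))
  have hceps : ∀ a ∈ A, ∀ b ∈ B, c a b = d b (d a ε) := by
    intro a ha b hb
    rw [hε, hdpow, hdpow, ← hcab a ha b hb, ← pow_mul, hroot]
  -- conjugating B by ε kills the commutators
  obtain ⟨a₀, ha₀, b₀, hb₀, hk⟩ := hAB ε.1
  have hzero : ∀ a ∈ A, ∀ b ∈ B, c a b = 1 := by
    intro a ha b hb
    set k := ε.1 with hkdef
    set w := k * b * k⁻¹ * b⁻¹ with hw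
    have hkK : k ∈ K := ε.2.1
    have hwK : w ∈ K := by
      rw [hw, mul_assoc (k * b), mul_assoc k, ← mul_assoc b]
      exact mul_mem hkK (hKn.conj_mem _ (inv_mem hkK) b)
    have hπw : π w = d b ε := by
      rw [hw, show k * b * k⁻¹ * b⁻¹ = k * (b * k⁻¹ * b⁻¹) by group,
        hπmul _ hkK _ (hKn.conj_mem _ (inv_mem hkK) b), hπact b _ (inv_mem hkK), hπinv k hkK,
        map_inv, hkdef, hπV]
      exact (div_eq_mul_inv _ _).symm
    have hawK : itoC a w ∈ K := mul_mem (hKn.conj_mem w hwK a) (inv_mem hwK)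
    have hπaw : π (itoC a w) = (d a (d b ε))⁻¹ := by
      show π (a * w * a⁻¹ * w⁻¹) = _
      rw [hπmul _ (hKn.conj_mem w hwK a) _ (inv_mem hwK), hπact a w hwK, hπinv w hwK, hπw]
      simp only [d, inv_div, div_eq_mul_inv, mul_inv_rev, inv_inv]
    have hcomm : d a (d b ε) = d b (d a ε) := by
      have h1 : ∀ x : ↥V, act a (act b x) = act b (act a x) := fun x => by
        rw [← hact, ← hact, show a * b = itoC a b * (b * a) by simp [itoC, mul_assoc],
          hact (itoC a b), hactK _ (hgenmem a ha b hb)]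
      simp only [d, map_div, h1]
      simp only [div_eq_mul_inv, mul_inv_rev, inv_inv]
      rw [mul_comm (act b (act a ε)) (act a ε)⁻¹, mul_comm (act b (act a ε)) (act b ε)⁻¹,
        mul_assoc, mul_assoc, mul_left_comm ((act a) ε)⁻¹]
    have h1 : itoC a (k * b * k⁻¹) = itoC a w * itoC a b := by
      calc itoC a (k * b * k⁻¹) = itoC a w * (w * itoC a b * w⁻¹) := by simp [hw, itoC, mul_assoc]
        _ = _ := by rw [hKc w hwK _ (hgenmem a ha b hb), mul_inv_cancel_right]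
    have h2 : itoC a (k * b * k⁻¹) = a₀ * itoC a b * a₀⁻¹ := by
      have e1 : k * b * k⁻¹ = a₀ * b * a₀⁻¹ := by
        rw [hk, mul_inv_rev, mul_assoc a₀ b₀, hB b₀ hb₀ b hb]
        group
      have e2 : a₀ * a * a₀⁻¹ = a := by rw [hA a₀ ha₀ a ha, mul_inv_cancel_right]
      calc itoC a (k * b * k⁻¹) = itoC (a₀ * a * a₀⁻¹) (a₀ * b * a₀⁻¹) := by rw [e1, e2]
        _ = _ := by simp [itoC, mul_assoc]
    have h3 : act a₀ (c a b) = 1 := by
      show act a₀ (π (itoC a b)) = 1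
      rw [← hπact a₀ _ (hgenmem a ha b hb), ← h2, h1, hπmul _ hawK _ (hgenmem a ha b hb), hπaw]
      show (d a (d b ε))⁻¹ * c a b = 1
      rw [hceps a ha b hb, hcomm, inv_mul_cancel]
    have h4 := congrArg (act a₀⁻¹) h3
    rw [← hact, inv_mul_cancel, map_one] at h4
    rw [← h4]
    exact Subtype.ext (by show _ = (1 : G) * _ * (1 : G)⁻¹; group)
  obtain ⟨⟨x, hxK⟩, hxo⟩ := exists_prime_orderOf_dvd_card' p hpK
  rw [← Subgroup.orderOf_coe] at hxo
  have hkill : ∀ y ∈ K, π y = 1 := by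
    intro y hy
    refine Subgroup.closure_induction ?_ ?_ ?_ ?_ hy
    · rintro _ ⟨a, ha, b, hb, rfl⟩; exact hzero a ha b hb
    · exact Subtype.ext (by rw [hπval 1 (one_mem K), one_pow]; rfl)
    · intro u w hu hw h1 h2; rw [hπmul u hu w hw, h1, h2, one_mul]
    · intro u hu h1; rw [hπinv u hu, h1, inv_one]
  have hv0 : p ∣ p ^ v := by
    refine dvd_pow_self p fun h0 => ?_
    rw [h0, pow_zero, one_mul] at hKcard
    exact hm' (hKcard ▸ hpK)
  have hxV : x ∈ V := ⟨hxK, orderOf_dvd_iff_pow_eq_one.mp (hxo.symm ▸ hv0)⟩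
  have := hπV ⟨x, hxV⟩
  rw [hkill x hxK] at this
  exact hp.ne_one (hxo.symm.trans (orderOf_eq_one_iff.mpr (congrArg Subtype.val this).symm))

end CfsgLib.Core
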