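import Mathlib.Algebra.Lie.Basic
import Mathlib.Algebra.Ring.GeomSum
import Mathlib.Data.ZMod.Basic
import Mathlib.Tactic

/-!
# Lie rings graded by a group of prime order with trivial zero component

Kreknin's bound on the derived length and the Kreknin–Kostrikin bound on the class.
-/

set_option autoImplicit false

open scoped BigOperators

namespace CfsgLib.Core.Kreknin

variable {M : Type*} [LieRing M]

/-- The span of brackets. -/
def br (B C : AddSubgroup M) : AddSubgroup M :=
  AddSubgroup.closure {z | ∃ a ∈ B, ∃ b ∈ C, ⁅a, b⁆ = z}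

theorem mem_br {B C : AddSubgroup M} {a b : M} (ha : a ∈ B) (hb : b ∈ C) : ⁅a, b⁆ ∈ br B C :=
  AddSubgroup.subset_closure ⟨a, ha, b, hb, rfl⟩

theorem br_le {B C K : AddSubgroup M} (h : ∀ a ∈ B, ∀ b ∈ C, ⁅a, b⁆ ∈ K) : br B C ≤ K :=
  (AddSubgroup.closure_le _).2 fun _ ⟨a, ha, b, hb, e⟩ => e ▸ h a ha b hb

theorem br_mono {B C B' C' : AddSubgroup M} (hB : B ≤ B') (hC : C ≤ C') : br B C ≤ br B' C' :=
  br_le fun _ ha _ hb => mem_br (hB ha) (hC hb)

theorem lie_lie_right (u x y : M) : ⁅⁅u, x⁆, y⁆ - ⁅⁅u, y⁆, x⁆ = ⁅u, ⁅x, y⁆⁆ := by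
  rw [leibniz_lie u x y, sub_eq_iff_eq_add, add_assoc]
  rw [← lie_skew x ⁅u, y⁆]
  simp

/-- The derived series. -/
def derSer : ℕ → AddSubgroup M → AddSubgroup M
  | 0, B => B
  | k + 1, B => br (derSer k B) (derSer k B)

theorem derSer_add (a b : ℕ) (B : AddSubgroup M) : derSer (a + b) B = derSer a (derSer b B) := by
  induction a with
  | zero => rw [Nat.zero_add]; rfl
  | succ a ih => rw [Nat.succ_add]; show br _ _ = br _ _; rw [ih]

theorem derSer_succ_le {B : AddSubgroup M} (hB : br B B ≤ B) :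
    ∀ k, derSer (k + 1) B ≤ derSer k B
  | 0 => hB
  | k + 1 => br_mono (derSer_succ_le hB k) (derSer_succ_le hB k)

theorem derSer_le {B : AddSubgroup M} (hB : br B B ≤ B) : ∀ k, derSer k B ≤ B
  | 0 => le_rfl
  | k + 1 => (derSer_succ_le hB k).trans (derSer_le hB k)

/-- The lower central series. -/
def lcs : ℕ → AddSubgroup M
  | 0 => ⊤
  | k + 1 => br (lcs k) ⊤

theorem lcs_succ_le : ∀ k, lcs (M := M) (k + 1) ≤ lcs k
  | 0 => le_top
  | k + 1 => br_mono (lcs_succ_le k) le_rfl

theorem lcs_antitone {a b : ℕ} (h : a ≤ b) : lcs (M := M) b ≤ lcs a :=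
  antitone_nat_of_succ_le (f := fun k => lcs (M := M) k) lcs_succ_le h

theorem lie_mem_lcs : ∀ (j i : ℕ) {a b : M}, a ∈ lcs i → b ∈ lcs j → ⁅a, b⁆ ∈ lcs (i + j + 1)
  | 0, _, _, _, ha, hb => mem_br ha hb
  | j + 1, i, a, b, ha, hb => by
    let S : AddSubgroup M :=
      { carrier := {y | ⁅a, y⁆ ∈ lcs (M := M) (i + (j + 1) + 1)}
        zero_mem' := by simp
        add_mem' := fun {x y} hx hy => by
          simp only [Set.mem_setOf_eq, lie_add] at *
          exact add_mem hx hy
        neg_mem' := fun {x} hx => by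
          simp only [Set.mem_setOf_eq, lie_neg] at *
          exact neg_mem hx }
    have : br (lcs (M := M) j) ⊤ ≤ S := br_le fun c hc d _ => by
      show ⁅a, ⁅c, d⁆⁆ ∈ lcs (M := M) (i + (j + 1) + 1)
      rw [← lie_lie_right]
      refine sub_mem ?_ ?_
      · have h1 := lie_mem_lcs j i ha hc
        exact mem_br h1 (AddSubgroup.mem_top d)
      · have h1 := lie_mem_lcs j (i + 1) (mem_br ha (AddSubgroup.mem_top d)) hc
        rwa [show i + 1 + j = i + (j + 1) by omega] at h1
    exact this hb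

theorem derSer_ideal : ∀ k, br (derSer k (⊤ : AddSubgroup M)) ⊤ ≤ derSer k ⊤
  | 0 => le_top
  | k + 1 => br_le fun a ha z _ => by
    let S : AddSubgroup M :=
      { carrier := {y | ⁅y, z⁆ ∈ derSer (M := M) (k + 1) ⊤}
        zero_mem' := by simp
        add_mem' := fun {x y} hx hy => by
          simp only [Set.mem_setOf_eq, add_lie] at *
          exact add_mem hx hy
        neg_mem' := fun {x} hx => by
          simp only [Set.mem_setOf_eq, neg_lie] at *
          exact neg_mem hx }
    have hle : br (derSer (M := M) k ⊤) (derSer k ⊤) ≤ S := br_le fun u hu v hv => by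
      show ⁅⁅u, v⁆, z⁆ ∈ derSer (M := M) (k + 1) ⊤
      have h := lie_lie_right u v z
      rw [sub_eq_iff_eq_add'] at h
      rw [h]
      exact add_mem (mem_br (derSer_ideal k (mem_br hu (AddSubgroup.mem_top z))) hv)
        (mem_br hu (derSer_ideal k (mem_br hv (AddSubgroup.mem_top z))))
    exact hle ha

theorem foldl_lie_sub (l : List M) : ∀ u v : M,
    l.foldl (⁅·, ·⁆) (u - v) = l.foldl (⁅·, ·⁆) u - l.foldl (⁅·, ·⁆) v := by
  induction l with
  | nil => intro u v; rfl
  | cons x l ih => intro u v; simp only [List.foldl_cons]; rw [sub_lie, ih]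

theorem foldl_lie_zero (l : List M) : l.foldl (⁅·, ·⁆) (0 : M) = 0 := by
  induction l with
  | nil => rfl
  | cons x l ih => simpa using ih

theorem foldl_mem {N : AddSubgroup M} (hN : br N ⊤ ≤ N) (l : List M) :
    ∀ u ∈ N, l.foldl (⁅·, ·⁆) u ∈ N := by
  induction l with
  | nil => exact fun _ hu => hu
  | cons x l ih => exact fun u hu => ih _ (hN (mem_br hu (AddSubgroup.mem_top x)))

theorem three_residues : ∀ x y w : ZMod 3, x ≠ 0 → y ≠ 0 → w ≠ 0 → x + y ≠ 0 → x + y + w ≠ 0 →
    x + w = 0 ∧ y + w = 0 := by decide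

variable {p : ℕ} [hp : Fact p.Prime]

/-- A grading by `ZMod p` with trivial zero component, given by its projections. -/
structure Grading (p : ℕ) (M : Type*) [LieRing M] [NeZero p] where
  π : ZMod p → M →+ M
  sum : ∀ x, ∑ i, π i x = x
  proj : ∀ i j x, π i (π j x) = if i = j then π j x else 0
  zero : ∀ x, π 0 x = 0
  mul : ∀ i j x y, π (i + j) ⁅π i x, π j y⁆ = ⁅π i x, π j y⁆

variable (g : Grading p M)

theorem proj_of_hom {i : ZMod p} {x : M} (h : g.π i x = x) (k : ZMod p) :
    g.π k x = if k = i then x else 0 := by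
  conv_lhs => rw [← h]
  rw [g.proj, h]

theorem lie_hom {i j : ZMod p} {x y : M} (hx : g.π i x = x) (hy : g.π j y = y) :
    g.π (i + j) ⁅x, y⁆ = ⁅x, y⁆ := by
  rw [← hx, ← hy]; exact g.mul i j x y

theorem hom_zero {x : M} (hx : g.π 0 x = x) : x = 0 := hx.symm.trans (g.zero x)

/-- A subgroup stable under the projections. -/
def IsGraded (B : AddSubgroup M) : Prop := ∀ i, ∀ x ∈ B, g.π i x ∈ B

theorem IsGraded.br {B C : AddSubgroup M} (hB : IsGraded g B) (hC : IsGraded g C) :
    IsGraded g (Kreknin.br B C) := by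
  intro k x hx
  refine (br_le (K := (Kreknin.br B C).comap (g.π k)) fun a ha b hb => ?_) hx
  rw [AddSubgroup.mem_comap, ← g.sum a, ← g.sum b, sum_lie, map_sum]
  refine sum_mem fun i _ => ?_
  rw [lie_sum, map_sum]
  refine sum_mem fun j _ => ?_
  rw [proj_of_hom g (g.mul i j a b)]
  split
  · exact mem_br (hB i a ha) (hC j b hb)
  · exact zero_mem _

theorem isGraded_derSer {B : AddSubgroup M} (hB : IsGraded g B) : ∀ k, IsGraded g (derSer k B)
  | 0 => hB
  | k + 1 => (isGraded_derSer hB k).br g (isGraded_derSer hB k)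

theorem isGraded_top : IsGraded g (⊤ : AddSubgroup M) := fun _ _ _ => AddSubgroup.mem_top _

/-- The subring generated by the components of `B` of degree above `s`. -/
def upper (B : AddSubgroup M) (s : ℕ) : AddSubgroup M :=
  sInf {K | br K K ≤ K ∧ ∀ i : ZMod p, s < i.val → ∀ x ∈ B, g.π i x ∈ K}

theorem upper_le {B K : AddSubgroup M} {s : ℕ} (h1 : br K K ≤ K)
    (h2 : ∀ i : ZMod p, s < i.val → ∀ x ∈ B, g.π i x ∈ K) : upper g B s ≤ K := sInf_le ⟨h1, h2⟩

theorem mem_upper {B : AddSubgroup M} {s : ℕ} {i : ZMod p} (hi : s < i.val) {x : M} (hx : x ∈ B) :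
    g.π i x ∈ upper g B s := AddSubgroup.mem_sInf.2 fun _ hK => hK.2 i hi x hx

theorem br_upper_le {B : AddSubgroup M} {s : ℕ} : br (upper g B s) (upper g B s) ≤ upper g B s :=
  br_le fun a ha b hb => AddSubgroup.mem_sInf.2 fun K hK =>
    hK.1 (mem_br (AddSubgroup.mem_sInf.1 ha K hK) (AddSubgroup.mem_sInf.1 hb K hK))

theorem derSer_le_upper : ∀ s : ℕ, s < p → ∀ B : AddSubgroup M, br B B ≤ B → IsGraded g B →
    derSer (2 ^ s - 1) B ≤ upper g B s := by
  intro s
  induction s with
  | zero =>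
    intro _ B _ _ x hx
    simp only [pow_zero, Nat.sub_self] at hx
    rw [← g.sum x]
    refine sum_mem fun i _ => ?_
    rcases eq_or_ne i 0 with rfl | hi
    · rw [g.zero]; exact zero_mem _
    · exact mem_upper g (Nat.pos_of_ne_zero fun h => hi ((ZMod.val_eq_zero i).1 h)) hx
  | succ s ih =>
    intro hs B hB hBg
    set A := derSer (2 ^ s - 1) B with hA
    have hA1 : A ≤ upper g B s := ih (Nat.lt_of_succ_lt hs) B hB hBg
    have hpos : 1 ≤ 2 ^ s := Nat.one_le_two_pow
    set σ : ZMod p := ((s + 1 : ℕ) : ZMod p)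
    have hσ : σ.val = s + 1 := ZMod.val_natCast_of_lt hs
    let T : AddSubgroup M := AddSubgroup.closure
      {z | ∃ i j : ZMod p, s < j.val ∧ ∃ a ∈ B, ∃ b ∈ B, ⁅g.π i a, g.π j b⁆ = z}
    let S : AddSubgroup M :=
      { carrier := {y | y ∈ B ∧ ∀ b ∈ B, ⁅b, y⁆ ∈ T}
        zero_mem' := ⟨zero_mem _, fun b _ => by rw [lie_zero]; exact zero_mem _⟩
        add_mem' := fun hx hy => ⟨add_mem hx.1 hy.1, fun b hb => by
          rw [lie_add]; exact add_mem (hx.2 b hb) (hy.2 b hb)⟩
        neg_mem' := fun hx => ⟨neg_mem hx.1, fun b hb => by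
          rw [lie_neg]; exact neg_mem (hx.2 b hb)⟩ }
    have hS : upper g B s ≤ S := by
      refine upper_le g (br_le fun y hy z hz => ⟨hB (mem_br hy.1 hz.1), fun b hb => ?_⟩)
        fun j hj x hx => ⟨hBg j x hx, fun b hb => ?_⟩
      · rw [← lie_lie_right]
        exact sub_mem (hz.2 _ (hB (mem_br hb hy.1))) (hy.2 _ (hB (mem_br hb hz.1)))
      · rw [← g.sum b, sum_lie]
        exact sum_mem fun i _ => AddSubgroup.subset_closure ⟨i, j, hj, b, hb, x, hx, rfl⟩
    have hT : derSer (2 ^ s) B ≤ T := by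
      rw [show 2 ^ s = (2 ^ s - 1) + 1 by omega]
      exact br_le fun a ha b hb => (hS (hA1 hb)).2 a (derSer_le hB _ ha)
    have hclaim : ∀ x ∈ derSer (2 ^ s) B, g.π σ x ∈ upper g B (s + 1) := by
      intro x hx
      refine ((AddSubgroup.closure_le (K := (upper g B (s + 1)).comap (g.π σ))).2 ?_) (hT hx)
      rintro z ⟨i, j, hj, a, ha, b, hb, rfl⟩
      rw [SetLike.mem_coe, AddSubgroup.mem_comap, proj_of_hom g (g.mul i j a b)]
      split_ifs with h
      swap
      · exact zero_mem _
      rcases eq_or_ne i 0 with rfl | hi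
      · rw [g.zero, zero_lie]; exact zero_mem _
      have hi' : i.val ≠ 0 := fun e => hi ((ZMod.val_eq_zero i).1 e)
      have h1 : s + 1 = (i.val + j.val) % p := by rw [← hσ, h, ZMod.val_add]
      have h2 := ZMod.val_lt i
      have h3 := ZMod.val_lt j
      have h4 : i.val + j.val = s + 1 ∨ i.val + j.val = s + 1 + p := by
        rcases lt_or_ge (i.val + j.val) p with hlt | hge
        · rw [Nat.mod_eq_of_lt hlt] at h1; omega
        · rw [Nat.mod_eq_sub_mod hge, Nat.mod_eq_of_lt (by omega)] at h1; omega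
      exact br_upper_le g (mem_br (mem_upper g (by omega) ha) (mem_upper g (by omega) hb))
    have hB'B : derSer (2 ^ s) B ≤ B := derSer_le hB _
    have h5 := ih (Nat.lt_of_succ_lt hs) (derSer (2 ^ s) B) (derSer_succ_le hB _)
      (isGraded_derSer g hBg _)
    rw [← derSer_add, show 2 ^ s - 1 + 2 ^ s = 2 ^ (s + 1) - 1 by rw [pow_succ]; omega] at h5
    refine h5.trans (upper_le g (br_upper_le g) fun i hi x hx => ?_)
    rcases Nat.lt_or_ge (s + 1) i.val with h | h
    · exact mem_upper g h (hB'B hx)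
    · have : i = σ := ZMod.val_injective p (by omega)
      exact this ▸ hclaim x hx

include g in
/-- Kreknin's theorem. -/
theorem derSer_eq_bot : derSer (2 ^ (p - 1) - 1) (⊤ : AddSubgroup M) = ⊥ := by
  refine le_bot_iff.1 ((derSer_le_upper g (p - 1) (Nat.sub_lt hp.out.pos Nat.one_pos) ⊤ le_top
    (isGraded_top g)).trans (upper_le g (br_le fun a ha b _ => ?_) fun i hi => ?_))
  · rw [AddSubgroup.mem_bot.1 ha, zero_lie]; exact zero_mem _
  · have := ZMod.val_lt i
    omega

theorem exists_split_sum (l : List (M × ZMod p × ℕ)) (hl : ∀ e ∈ l, e.2.1 ≠ 0) :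
    (∀ t : ZMod p, ∃ a b, l.Perm (a ++ b) ∧ (a.map fun e => e.2.1).sum = t) ∨
      ∃ S : Finset (ZMod p), l.length + 1 ≤ S.card ∧
        ∀ t ∈ S, ∃ a b, l.Perm (a ++ b) ∧ (a.map fun e => e.2.1).sum = t := by
  induction l with
  | nil => exact Or.inr ⟨{0}, by simp, fun t ht => ⟨[], [], List.Perm.refl _, by simp_all⟩⟩
  | cons e l ih =>
    have hskip : ∀ t : ZMod p, (∃ a b, l.Perm (a ++ b) ∧ (a.map fun e => e.2.1).sum = t) →
        ∃ a b, (e :: l).Perm (a ++ b) ∧ (a.map fun e => e.2.1).sum = t := by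
      rintro t ⟨a, b, hab, hs⟩
      exact ⟨a, e :: b, (List.Perm.cons e hab).trans List.perm_middle.symm, hs⟩
    rcases ih fun x hx => hl x (List.mem_cons_of_mem _ hx) with h | ⟨S, hS, hSmem⟩
    · exact Or.inl fun t => hskip t (h t)
    by_cases hcl : ∀ t ∈ S, t + e.2.1 ∈ S
    · refine Or.inl fun t => hskip t (hSmem t ?_)
      have hne : S.Nonempty := Finset.card_pos.1 (by omega)
      obtain ⟨t₀, ht₀⟩ := hne
      have hk : ∀ k : ℕ, t₀ + k • e.2.1 ∈ S := fun k => by
        induction k with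
        | zero => simpa using ht₀
        | succ k ihk => rw [succ_nsmul, ← add_assoc]; exact hcl _ ihk
      have := hk ((t - t₀) * e.2.1⁻¹).val
      rwa [nsmul_eq_mul, ZMod.natCast_zmod_val, mul_assoc,
        inv_mul_cancel₀ (hl e List.mem_cons_self), mul_one, add_sub_cancel] at this
    · push Not at hcl
      obtain ⟨t, ht, ht'⟩ := hcl
      refine Or.inr ⟨insert (t + e.2.1) S, ?_, fun u hu => ?_⟩
      · rw [Finset.card_insert_of_notMem ht', List.length_cons]; omega
      · rcases Finset.mem_insert.1 hu with rfl | hu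
        · obtain ⟨a, b, hab, hs⟩ := hSmem t ht
          exact ⟨e :: a, b, List.Perm.cons e hab, by simp [hs, add_comm]⟩
        · exact hskip u (hSmem u hu)

theorem exists_perm_sum (l : List (M × ZMod p × ℕ)) (hl : ∀ e ∈ l, e.2.1 ≠ 0)
    (hlen : p ≤ l.length + 1) (t : ZMod p) :
    ∃ a b, l.Perm (a ++ b) ∧ (a.map fun e => e.2.1).sum = t := by
  rcases exists_split_sum l hl with h | ⟨S, hS, hmem⟩
  · exact h t
  · refine hmem t ?_
    rw [Finset.eq_univ_of_card S (le_antisymm (Finset.card_le_univ _) (by rw [ZMod.card]; omega))]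
    exact Finset.mem_univ t

/-- An entry of a long product: homogeneous and in a term of the lower central series. -/
def Valid (l : List (M × ZMod p × ℕ)) : Prop := ∀ e ∈ l, g.π e.2.1 e.1 = e.1 ∧ e.1 ∈ lcs e.2.2

theorem foldl_hom : ∀ (l : List (M × ZMod p × ℕ)) (i : ZMod p) (m : M), Valid g l → g.π i m = m →
    g.π (i + (l.map fun e => e.2.1).sum) ((l.map fun e => e.1).foldl (⁅·, ·⁆) m)
      = (l.map fun e => e.1).foldl (⁅·, ·⁆) m
  | [], i, m, _, hm => by simpa using hm
  | e :: l, i, m, hv, hm => by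
    simp only [List.map_cons, List.sum_cons, List.foldl_cons, ← add_assoc]
    exact foldl_hom l _ _ (fun x hx => hv x (List.mem_cons_of_mem _ hx))
      (lie_hom g hm (hv e List.mem_cons_self).1)

/-- The total weight. -/
def weight (l : List (M × ZMod p × ℕ)) : ℕ := (l.map fun e => e.2.2 + 1).sum

include g in
theorem long_product_mem {c j : ℕ} (hc : lcs (M := M) c ≤ derSer j ⊤) :
    ∀ (k : ℕ) (l : List (M × ZMod p × ℕ)), l.length = k → Valid g l →
      (p - 2) * c + 1 ≤ weight l → ∀ (i : ZMod p) (m : M), g.π i m = m →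
        m ∈ derSer j (⊤ : AddSubgroup M) →
        (l.map fun e => e.1).foldl (⁅·, ·⁆) m ∈ derSer (j + 1) (⊤ : AddSubgroup M) := by
  intro k
  induction k with
  | zero =>
    intro l hl _ hw
    rw [List.length_eq_zero_iff.1 hl] at hw
    simp [weight] at hw
  | succ k ih =>
    intro l hl hv hw i m hm hmM
    have hN : br (derSer (j + 1) (⊤ : AddSubgroup M)) ⊤ ≤ derSer (j + 1) ⊤ := derSer_ideal _
    by_cases hbig : ∃ e ∈ l, c ≤ e.2.2 ∨ e.2.1 = 0
    · obtain ⟨e, he, hcase⟩ := hbig
      obtain ⟨a, b, rfl⟩ := List.append_of_mem he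
      simp only [List.map_append, List.map_cons, List.foldl_append, List.foldl_cons]
      refine foldl_mem hN _ _ (mem_br (foldl_mem (derSer_ideal j) _ _ hmM) ?_)
      rcases hcase with h | h
      · exact hc (lcs_antitone h (hv e he).2)
      · rw [hom_zero g (x := e.1) (h ▸ (hv e he).1)]; exact zero_mem _
    push Not at hbig
    have hperm : ∀ {b b' : List (M × ZMod p × ℕ)}, b.Perm b' → ∀ a : List (M × ZMod p × ℕ),
        (a ++ b).length = k + 1 → Valid g (a ++ b) → (p - 2) * c + 1 ≤ weight (a ++ b) →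
        ((a ++ b).map fun e => e.1).foldl (⁅·, ·⁆) m - ((a ++ b').map fun e => e.1).foldl (⁅·, ·⁆) m
          ∈ derSer (j + 1) (⊤ : AddSubgroup M) := by
      intro b b' h
      induction h with
      | nil => intro a _ _ _; rw [sub_self]; exact zero_mem _
      | cons x _ ihp =>
        intro a h1 h2 h3
        simpa using ihp (a ++ [x]) (by simpa using h1) (by simpa using h2) (by simpa using h3)
      | swap x y t =>
        intro a h1 h2 h3
        simp only [List.map_append, List.map_cons, List.foldl_append, List.foldl_cons]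
        rw [← foldl_lie_sub, lie_lie_right]
        set z : M × ZMod p × ℕ := (⁅y.1, x.1⁆, y.2.1 + x.2.1, y.2.2 + x.2.2 + 1)
        have hy := h2 y (by simp)
        have hx := h2 x (by simp)
        have := ih (a ++ z :: t) (by simp at h1 ⊢; omega) (fun e he => by
          rcases List.mem_append.1 he with he | he
          · exact h2 e (List.mem_append_left _ he)
          · rcases List.mem_cons.1 he with rfl | he
            · exact ⟨lie_hom g hy.1 hx.1, lie_mem_lcs _ _ hy.2 hx.2⟩
            · exact h2 e (by simp [he]))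
          (by simp [weight, z] at h3 ⊢; omega) i m hm hmM
        simpa [z] using this
      | @trans l₁ l₂ l₃ p₁ _ ih₁ ih₂ =>
        intro a h1 h2 h3
        have h4 : (a ++ l₁).Perm (a ++ l₂) := p₁.append_left a
        have := add_mem (ih₁ a h1 h2 h3) (ih₂ a (h4.length_eq ▸ h1) (fun e he => h2 e (h4.mem_iff.2 he))
          (by rw [weight, ← (h4.map _).sum_eq]; exact h3))
        simpa using this
    have hlen : p ≤ l.length + 1 := by
      have h1 : weight l ≤ l.length * c := by
        rw [weight]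
        refine (List.sum_le_card_nsmul _ c fun x hx => ?_).trans (le_of_eq (by simp))
        obtain ⟨e, he, rfl⟩ := List.mem_map.1 hx
        exact (hbig e he).1
      by_contra hlt
      have : l.length * c ≤ (p - 2) * c := Nat.mul_le_mul_right c (by omega)
      omega
    obtain ⟨a, b, hab, hsum⟩ := exists_perm_sum l (fun e he => (hbig e he).2) hlen (-i)
    have h := hperm hab [] (by simpa using hl) (by simpa using hv) (by simpa using hw)
    have hva : Valid g a := fun e he => hv e (hab.mem_iff.2 (List.mem_append_left _ he))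
    have hz : (a.map fun e => e.1).foldl (⁅·, ·⁆) m = 0 := by
      refine hom_zero g ?_
      have h7 := foldl_hom g a i m hva hm
      rwa [hsum, add_neg_cancel] at h7
    simp only [List.nil_append, List.map_append, List.foldl_append, hz, foldl_lie_zero, sub_zero] at h
    exact h

theorem lcs_add_le {c j : ℕ} (hc : lcs (M := M) c ≤ derSer j ⊤) :
    ∀ t, lcs (M := M) (c + t) ≤ AddSubgroup.closure {z | ∃ (l : List (M × ZMod p × ℕ)) (i : ZMod p)
      (m : M), l.length = t ∧ Valid g l ∧ weight l = t ∧ g.π i m = m ∧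
        m ∈ derSer j (⊤ : AddSubgroup M) ∧ (l.map fun e => e.1).foldl (⁅·, ·⁆) m = z}
  | 0 => fun x hx => by
    rw [← g.sum x]
    refine sum_mem fun i _ => AddSubgroup.subset_closure ⟨[], i, g.π i x, rfl, by simp [Valid],
      rfl, by rw [g.proj, if_pos rfl], isGraded_derSer g (isGraded_top g) j i x (hc hx), rfl⟩
  | t + 1 => br_le fun a ha z _ => by
    let f : M →+ M := AddMonoidHom.mk' (fun y => ⁅y, z⁆) fun u v => add_lie u v z
    refine ((AddSubgroup.closure_le (K := (AddSubgroup.closure _).comap f)).2 ?_) (lcs_add_le hc t ha)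
    rintro y ⟨l, i, m, h1, h2, h3, h4, h5, rfl⟩
    rw [SetLike.mem_coe, AddSubgroup.mem_comap]
    show ⁅_, z⁆ ∈ _
    rw [← g.sum z, lie_sum]
    refine sum_mem fun k _ => AddSubgroup.subset_closure
      ⟨l ++ [(g.π k z, k, 0)], i, m, by simp [h1], fun e he => ?_, by simp [weight] at h3 ⊢; omega,
        h4, h5, by simp⟩
    rcases List.mem_append.1 he with he | he
    · exact h2 e he
    · rw [List.mem_singleton] at he
      subst he
      exact ⟨by rw [g.proj, if_pos rfl], AddSubgroup.mem_top _⟩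

include g in
theorem lcs_geom_le : ∀ j, lcs (M := M) (∑ i ∈ Finset.range j, (p - 1) ^ i) ≤ derSer j ⊤
  | 0 => le_top
  | j + 1 => by
    set c := ∑ i ∈ Finset.range j, (p - 1) ^ i with hc
    have ih := lcs_geom_le j
    rw [← hc] at ih
    have he : ∑ i ∈ Finset.range (j + 1), (p - 1) ^ i = c + ((p - 2) * c + 1) := by
      rw [geom_sum_succ, ← hc]
      obtain ⟨q, hq⟩ : ∃ q, p = q + 2 := ⟨p - 2, by have := hp.out.two_le; omega⟩
      subst hq
      simp only [Nat.add_sub_cancel, show q + 2 - 1 = q + 1 from rfl]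
      ring
    rw [he]
    refine (lcs_add_le g ih _).trans ((AddSubgroup.closure_le _).2 ?_)
    rintro z ⟨l, i, m, h1, h2, h3, h4, h5, rfl⟩
    exact long_product_mem g ih _ l h1 h2 h3.ge i m h4 h5

include g in
/-- The Kreknin–Kostrikin class bound. -/
theorem lcs_eq_bot :
    lcs (M := M) (∑ i ∈ Finset.range (2 ^ (p - 1) - 1), (p - 1) ^ i) = ⊥ :=
  le_bot_iff.1 ((lcs_geom_le g _).trans (derSer_eq_bot g).le)

include g in
/-- Class at most two in the case of three. -/
theorem lcs_two_eq_bot (h3 : p = 3) : lcs (M := M) 2 = ⊥ := by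
  subst h3
  have hz : ∀ (i k : ZMod 3) (a c : M), i + k = 0 → ⁅g.π i a, g.π k c⁆ = 0 := fun i k a c h =>
    hom_zero g (h ▸ g.mul i k a c)
  refine le_bot_iff.1 (br_le fun u hu z _ => AddSubgroup.mem_bot.2 ?_)
  let f : M →+ M := AddMonoidHom.mk' (fun y => ⁅y, z⁆) fun u v => add_lie u v z
  refine (br_le (K := f.ker) fun a _ b _ => ?_) hu
  show ⁅⁅a, b⁆, z⁆ = 0
  rw [← g.sum a, ← g.sum b, ← g.sum z]
  simp only [sum_lie, lie_sum]
  refine Finset.sum_eq_zero fun k _ => Finset.sum_eq_zero fun j _ => Finset.sum_eq_zero fun i _ => ?_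
  rcases eq_or_ne (i + j) 0 with h | h
  · rw [hz i j a b h, zero_lie]
  rcases eq_or_ne k 0 with rfl | hk
  · rw [g.zero, lie_zero]
  rcases eq_or_ne (i + j + k) 0 with h' | h'
  · exact hom_zero g (h' ▸ lie_hom g (g.mul i j a b) (by rw [g.proj, if_pos rfl]))
  rcases eq_or_ne i 0 with rfl | hi
  · rw [g.zero, zero_lie, zero_lie]
  rcases eq_or_ne j 0 with rfl | hj
  · rw [g.zero, lie_zero, zero_lie]
  obtain ⟨h1, h2⟩ := three_residues i j k hi hj hk h h'
  rw [sub_eq_iff_eq_add'.1 (lie_lie_right (g.π i a) (g.π j b) (g.π k z)), hz i k a z h1,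
    hz j k b z h2, zero_lie, lie_zero, add_zero]

end CfsgLib.Core.Kreknin
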