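import Cfsg.Agent.Lib.CoreRankTwoP2
import Cfsg.Agent.Lib.CoreConjByOrder

/-!
# Counting elements of order `p ^ s * m`
-/

set_option autoImplicit false

universe u

namespace CfsgLib.Core.Kulakoff

open Subgroup
open scoped commutatorElement

variable {G : Type u} [Group G] [Finite G] {p : ℕ} [hp : Fact p.Prime]

/-- A noncyclic `p`-group has an elementary subgroup `⟨z, y⟩` with `z` central and `[G, y] ≤ ⟨z⟩`. -/
theorem exists_pair (hp2 : p ≠ 2) (hG : IsPGroup p G) (hnc : ¬ IsCyclic G) :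
    ∃ z y : G, z ∈ center G ∧ orderOf z = p ∧ y ^ p = 1 ∧ y ∉ zpowers z ∧
      ∀ g : G, ⁅g, y⁆ ∈ zpowers z := by
  obtain ⟨E, hEn, hE, hEc⟩ := CfsgLib.Transfer.exists_normal_rank_two hp2 hG hnc
  haveI := hEn
  have hout : ∀ z : G, orderOf z = p → ∃ y ∈ E, y ∉ zpowers z := by
    intro z hz
    by_contra h
    push Not at h
    have h2 := card_le_of_le (show E ≤ zpowers z from h)
    rw [hEc, Nat.card_zpowers, hz] at h2
    have := hp.out.two_le
    nlinarith
  by_cases hc : ∀ e ∈ E, e ∈ center G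
  · obtain ⟨⟨z, hzE⟩, hz⟩ := exists_prime_orderOf_dvd_card' (G := E) p
      (hEc ▸ dvd_pow_self p two_ne_zero)
    rw [← Subgroup.orderOf_coe] at hz
    obtain ⟨y, hy, hyz⟩ := hout z hz
    refine ⟨z, y, hc z hzE, hz, hE.2 y hy, hyz, fun g => ?_⟩
    rw [commutatorElement_eq_one_iff_mul_comm.mpr (Subgroup.mem_center_iff.mp (hc y hy) g)]
    exact one_mem _
  · push Not at hc
    obtain ⟨e, he, hec⟩ := hc
    obtain ⟨s, hs⟩ : ∃ s : G, ¬ ∀ e ∈ E, Commute s e := by
      by_contra h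
      push Not at h
      exact hec (Subgroup.mem_center_iff.mpr fun g => h g e he)
    obtain ⟨z, -, hzc, hzo, -, hEG, -⟩ :=
      CfsgLib.Core.RankTwoP.exists_center_gen hG E hEc hE.2 hs
    obtain ⟨y, hy, hyz⟩ := hout z hzo
    exact ⟨z, y, hzc, hzo, hE.2 y hy, hyz, fun g => hEG g y hy⟩

variable (p) in
/-- The subgroup generated by `g ^ (p * m)`. -/
def dd (m : ℕ) (g : G) : Subgroup G := zpowers (g ^ (p * m))

variable (p) in
/-- The coset of `dd` through `g`. -/
def tt (m : ℕ) (g : G) : Set G := {h | g⁻¹ * h ∈ dd p m g}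

theorem main (hp2 : p ≠ 2) (P : Sylow p G) (hP : ¬ IsCyclic ↥(P : Subgroup G)) (s m : ℕ) (hs : 1 < s)
    (hm : Nat.Coprime p m) : p ^ s ∣ Nat.card {g : G // orderOf g = p ^ s * m} := by
  classical
  haveI := Fintype.ofFinite G
  have hm0 : m ≠ 0 := fun h => hp.out.ne_one (by
    have := hm
    rwa [h, Nat.coprime_zero_right] at this)
  have hps : p ^ s = p * p ^ (s - 1) := by rw [← pow_succ', Nat.sub_add_cancel (by omega)]
  set n := p ^ s * m with hn
  -- basic facts about the cosets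
  have hddo : ∀ g : G, orderOf g = n → Nat.card (dd p m g) = p ^ (s - 1) := by
    intro g hg
    have hd : p * m ∣ orderOf g := by rw [hg, hn, hps]; exact Dvd.intro _ (by ring : p * m * p ^ (s - 1) = _)
    rw [dd, Nat.card_zpowers, orderOf_pow_of_dvd (mul_ne_zero hp.out.ne_zero hm0) hd, hg, hn, hps,
      show p * p ^ (s - 1) * m = p ^ (s - 1) * (p * m) by ring,
      Nat.mul_div_cancel _ (Nat.mul_pos hp.out.pos (Nat.pos_of_ne_zero hm0))]
  have hmove : ∀ g : G, orderOf g = n → ∀ h ∈ tt p m g, orderOf h = n ∧ dd p m h = dd p m g := by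
    intro g hg h hh
    obtain ⟨i, hi⟩ := mem_powers_iff_mem_zpowers.mpr hh
    change (g ^ (p * m)) ^ i = g⁻¹ * h at hi
    have hhg : h = g ^ (1 + p * m * i) := by
      rw [pow_add, pow_one, pow_mul, hi, mul_inv_cancel_left]
    have hcop : Nat.Coprime (orderOf g) (1 + p * m * i) := by
      rw [hg, hn]
      refine Nat.Coprime.mul_left (Nat.Coprime.pow_left _ ?_) ?_
      · rw [mul_assoc]; exact (Nat.coprime_add_mul_left_right p 1 _).mpr (Nat.coprime_one_right p)
      · rw [mul_comm p m, mul_assoc]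
        exact (Nat.coprime_add_mul_left_right m 1 _).mpr (Nat.coprime_one_right m)
    have ho : orderOf h = n := by rw [hhg, hcop.orderOf_pow, hg]
    refine ⟨ho, CfsgLib.Core.eq_of_le_of_card_le ?_ (by rw [hddo g hg, hddo h ho])⟩
    have e : h ^ (p * m) = (g ^ (p * m)) ^ (1 + p * m * i) := by
      rw [hhg, ← pow_mul, ← pow_mul, mul_comm]
    rw [dd, dd, zpowers_le, e]
    exact Subgroup.npow_mem_zpowers (g ^ (p * m)) _
  have htt : ∀ g : G, orderOf g = n → ∀ h ∈ tt p m g, tt p m h = tt p m g := by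
    intro g hg h hh
    ext k
    show h⁻¹ * k ∈ dd p m h ↔ g⁻¹ * k ∈ dd p m g
    rw [(hmove g hg h hh).2, show g⁻¹ * k = (g⁻¹ * h) * (h⁻¹ * k) by group]
    exact ((dd p m g).mul_mem_cancel_left hh).symm
  have hself : ∀ g : G, g ∈ tt p m g := fun g => by
    show g⁻¹ * g ∈ dd p m g; rw [inv_mul_cancel]; exact one_mem _
  set S : Finset G := Finset.univ.filter fun g => orderOf g = n with hS
  set 𝒯 : Finset (Set G) := S.image (tt p m) with h𝒯
  have hcardS : Nat.card {g : G // orderOf g = n} = p ^ (s - 1) * 𝒯.card := by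
    rw [Nat.card_eq_fintype_card, Fintype.card_subtype, ← hS,
      Finset.card_eq_sum_card_fiberwise (f := tt p m) (t := 𝒯)
        (fun g hg => Finset.mem_image_of_mem _ hg), Finset.sum_const_nat (m := p ^ (s - 1)), mul_comm]
    intro t ht
    obtain ⟨g, hg, rfl⟩ := Finset.mem_image.mp ht
    have hg' : orderOf g = n := (Finset.mem_filter.mp hg).2
    rw [← hddo g hg', ← Nat.card_eq_finsetCard]
    refine Nat.card_congr
      { toFun := fun h => ⟨g⁻¹ * (h : G), ?_⟩
        invFun := fun d => ⟨g * (d : G), ?_⟩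
        left_inv := fun h => Subtype.ext (mul_inv_cancel_left _ _)
        right_inv := fun d => Subtype.ext (inv_mul_cancel_left _ _) }
    · have h2 := (Finset.mem_filter.mp h.2).2
      have h3 := hself (h : G)
      rw [h2] at h3
      exact h3
    · have hmem : g * (d : G) ∈ tt p m g := by show g⁻¹ * (g * d) ∈ dd p m g; rw [inv_mul_cancel_left]; exact d.2
      exact Finset.mem_filter.mpr ⟨Finset.mem_filter.mpr ⟨Finset.mem_univ _, (hmove g hg' _ hmem).1⟩,
        htt g hg' _ hmem⟩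
  suffices hT : p ∣ 𝒯.card by
    rw [hcardS, hps, mul_comm p]
    exact Nat.mul_dvd_mul_left _ hT
  -- the action of the Sylow subgroup
  have hconj_tt : ∀ (q g : G), orderOf g = n →
      (fun h => q * h * q⁻¹) '' tt p m g = tt p m (q * g * q⁻¹) := by
    intro q g _
    ext k
    constructor
    · rintro ⟨h, hh, rfl⟩
      obtain ⟨i, hi⟩ := mem_zpowers_iff.mp hh
      refine mem_zpowers_iff.mpr ⟨i, ?_⟩
      rw [conj_pow, conj_zpow, hi]; group
    · intro hk
      obtain ⟨i, hi⟩ := mem_zpowers_iff.mp hk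
      refine ⟨q⁻¹ * k * q, mem_zpowers_iff.mpr ⟨i, ?_⟩, by group⟩
      rw [conj_pow, conj_zpow] at hi
      calc (g ^ (p * m)) ^ i = q⁻¹ * (q * (g ^ (p * m)) ^ i * q⁻¹) * q := by group
        _ = g⁻¹ * (q⁻¹ * k * q) := by rw [hi]; group
  have hsmul : ∀ (q : (P : Subgroup G)) (t : {t // t ∈ 𝒯}),
      (fun h => (q : G) * h * (q : G)⁻¹) '' (t : Set G) ∈ 𝒯 := fun q t => by
    obtain ⟨g, hg, hgt⟩ := Finset.mem_image.mp t.2
    have hg' : orderOf g = n := (Finset.mem_filter.mp hg).2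
    rw [← hgt, hconj_tt _ _ hg']
    exact Finset.mem_image_of_mem _ (Finset.mem_filter.mpr ⟨Finset.mem_univ _,
      ((MulAut.conj (q : G)).orderOf_eq g).trans hg'⟩)
  letI act : MulAction (P : Subgroup G) {t // t ∈ 𝒯} :=
    { smul := fun q t => ⟨_, hsmul q t⟩
      one_smul := fun t => Subtype.ext (by
        show (fun h => ((1 : (P : Subgroup G)) : G) * h * _⁻¹) '' (t : Set G) = t
        simp)
      mul_smul := fun a b t => Subtype.ext (by
        show (fun h => ((a * b : (P : Subgroup G)) : G) * h * _⁻¹) '' (t : Set G) = _ '' (_ '' _)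
        rw [Set.image_image]
        refine Set.image_congr' fun h => ?_
        simp [mul_assoc]) }
  have hmod := P.2.card_modEq_card_fixedPoints {t // t ∈ 𝒯}
  rw [Nat.card_eq_finsetCard] at hmod
  suffices hF : p ∣ Nat.card (MulAction.fixedPoints (P : Subgroup G) {t // t ∈ 𝒯}) from
    (Nat.ModEq.dvd_iff hmod dvd_rfl).mpr hF
  -- translations
  obtain ⟨⟨z, hzP⟩, ⟨y₀, hy₀P⟩, hzc, hzo, hy₀p, hy₀z, hcomm⟩ := exists_pair hp2 P.2 hP
  rw [← Subgroup.orderOf_coe] at hzo
  change orderOf z = p at hzo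
  have hy₀p' : y₀ ^ p = 1 := congrArg Subtype.val hy₀p
  have hy₀z' : y₀ ∉ zpowers z := fun h => hy₀z (by
    obtain ⟨i, hi⟩ := mem_zpowers_iff.mp h
    exact mem_zpowers_iff.mpr ⟨i, Subtype.ext hi⟩)
  have hzcomm : ∀ q ∈ (P : Subgroup G), Commute z q := fun q hq =>
    (congrArg Subtype.val (Subgroup.mem_center_iff.mp hzc ⟨q, hq⟩)).symm
  have hcomm' : ∀ q ∈ (P : Subgroup G), ⁅q, y₀⁆ ∈ zpowers z := fun q hq => by
    obtain ⟨i, hi⟩ := mem_zpowers_iff.mp (hcomm ⟨q, hq⟩)
    exact mem_zpowers_iff.mpr ⟨i, congrArg Subtype.val hi⟩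
  have hzp : z ^ p = 1 := hzo ▸ pow_orderOf_eq_one z
  let w : G → G := fun g => if z ∈ dd p m g then y₀ else z
  have hw : ∀ g : G, orderOf g = n → w g ∈ (P : Subgroup G) ∧ w g ^ p = 1 ∧ w g ∉ dd p m g ∧
      ∀ q ∈ (P : Subgroup G), ⁅q, w g⁆ ∈ dd p m g ∧ Commute z (w g) ∧ ⁅q, w g⁆ ∈ zpowers z := by
    intro g hg
    by_cases h : z ∈ dd p m g
    · rw [show w g = y₀ from if_pos h]
      refine ⟨hy₀P, hy₀p', fun hy => hy₀z' ?_, fun q hq =>
        ⟨(zpowers_le.mpr h) (hcomm' q hq), hzcomm y₀ hy₀P, hcomm' q hq⟩⟩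
      by_cases hy1 : y₀ = 1
      · rw [hy1]; exact one_mem _
      haveI : IsCyclic (dd p m g) := by unfold dd; infer_instance
      exact (CfsgLib.Core.ConjByOrder.eq_of_card_eq_cyclic (zpowers_le.mpr hy) (zpowers_le.mpr h)
        (by rw [Nat.card_zpowers, Nat.card_zpowers, hzo, orderOf_eq_prime hy₀p' hy1])).le
        (mem_zpowers y₀)
    · rw [show w g = z from if_neg h]
      refine ⟨hzP, hzp, h, fun q hq => ?_⟩
      rw [show ⁅q, z⁆ = 1 from commutatorElement_eq_one_iff_mul_comm.mpr (hzcomm q hq).eq.symm]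
      exact ⟨one_mem _, Commute.refl z, one_mem _⟩
  have hwd : ∀ g h : G, dd p m h = dd p m g → w h = w g := fun g h e => by
    show (if z ∈ dd p m h then y₀ else z) = if z ∈ dd p m g then y₀ else z
    rw [e]
  -- the structure of a fixed coset
  have hfixed : ∀ g : G, orderOf g = n → (∀ q ∈ (P : Subgroup G), g⁻¹ * (q * g * q⁻¹) ∈ dd p m g) →
      orderOf (g * w g) = n ∧ dd p m (g * w g) = dd p m g ∧
        Commute (g ^ (p * m)) (w g) ∧
        (∀ q ∈ (P : Subgroup G), (g * w g)⁻¹ * (q * (g * w g) * q⁻¹) ∈ dd p m (g * w g)) := by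
    intro g hg hfix
    obtain ⟨hwP, hwp, hwD, hwq⟩ := hw g hg
    obtain ⟨a, ha⟩ := Nat.exists_mul_mod_eq_one_of_coprime (hm.symm.pow_right s) (Nat.one_lt_pow (by omega) hp.out.one_lt)
    set x := g ^ (m * a) with hx
    set y := x⁻¹ * g with hy
    have hxg : Commute x g := (Commute.refl g).pow_left _
    have hxord : x ^ p ^ s = 1 := by
      rw [hx, ← pow_mul, show m * a * p ^ s = n * a by rw [hn]; ring, pow_mul, ← hg, pow_orderOf_eq_one, one_pow]
    have hym : y ^ m = 1 := by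
      rw [hy, hxg.inv_left.mul_pow, inv_pow, inv_mul_eq_one, hx, ← pow_mul]
      refine pow_eq_pow_iff_modEq.mpr ?_
      rw [hg, hn]
      have h1 : m * a ≡ 1 [MOD p ^ s] := by
        rw [Nat.ModEq, ha.2, Nat.one_mod_eq_one.mpr (Nat.one_lt_pow (by omega) hp.out.one_lt).ne']
      have h2 := h1.mul_right' m
      rw [one_mul] at h2
      exact h2
    have hdx : dd p m g ≤ zpowers x := by
      rw [dd, zpowers_le, show g ^ (p * m) = (x * y) ^ (p * m) by rw [hy, mul_inv_cancel_left],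
        (show Commute x y from (Commute.refl x).inv_right.mul_right hxg).mul_pow, mul_comm p m,
        pow_mul y, hym, one_pow, mul_one]
      exact npow_mem_zpowers _ _
    have hgq : ∀ q ∈ (P : Subgroup G), ∀ k : ℕ, q * g ^ k * q⁻¹ = g ^ k * (g⁻¹ * (q * g * q⁻¹)) ^ k := by
      intro q hq k
      obtain ⟨i, hi⟩ := mem_zpowers_iff.mp (hfix q hq)
      rw [← conj_pow, show q * g * q⁻¹ = g * (g⁻¹ * (q * g * q⁻¹)) by group, ← hi]
      rw [show g * (g ^ (p * m)) ^ i = g * (g ^ (p * m)) ^ i from rfl,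
        ((Commute.self_pow g (p * m)).zpow_right i).mul_pow, inv_mul_cancel_left]
    have hxq : ∀ q ∈ (P : Subgroup G), q * x * q⁻¹ ∈ zpowers x := fun q hq => by
      rw [hx, hgq q hq, ← hx]
      exact mul_mem (mem_zpowers x) (pow_mem (hdx (hfix q hq)) _)
    have hxP : x ∈ (P : Subgroup G) := by
      have hn' : (P : Subgroup G) ≤ normalizer (zpowers x : Set G) := by
        intro q hq
        have hle : (zpowers x).map (MulAut.conj q).toMonoidHom ≤ zpowers x := by
          rw [MonoidHom.map_zpowers, zpowers_le]; exact hxq q hq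
        have hmap := CfsgLib.Core.eq_of_le_of_card_le hle
          (by rw [card_map_of_injective (f := (MulAut.conj q).toMonoidHom) (MulAut.conj q).injective])
        refine Subgroup.mem_normalizer_iff.mpr fun v => ⟨fun hv => hle ⟨v, hv, rfl⟩, fun hv => ?_⟩
        rw [← hmap] at hv
        obtain ⟨v', hv', hvv⟩ := hv
        have : v' = v := (MulAut.conj q).injective hvv
        exact this ▸ hv'
      have hpgrp : IsPGroup p ↥((P : Subgroup G) ⊔ zpowers x) := by
        obtain ⟨j, -, hj⟩ := (Nat.dvd_prime_pow hp.out).mp (orderOf_dvd_of_pow_eq_one hxord)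
        exact IsPGroup.to_sup_of_normal_right' P.2
          (IsPGroup.of_card (n := j) (by rw [Nat.card_zpowers, hj])) hn'
      have := P.3 hpgrp le_sup_left
      exact this.le (mem_sup_right (mem_zpowers x))
    have hyc : ∀ q ∈ (P : Subgroup G), Commute q y := fun q hq => by
      obtain ⟨i, hi⟩ := mem_zpowers_iff.mp (hdx (hfix q hq))
      set d := g⁻¹ * (q * g * q⁻¹) with hd
      have hdp : d ^ p ^ s = 1 := by
        rw [← hi, ← zpow_natCast (x ^ i), ← zpow_mul, mul_comm, zpow_mul, zpow_natCast, hxord,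
          one_zpow]
      have hd1 : d ^ (m * a) = d := by
        conv_rhs => rw [← pow_one d]
        refine pow_eq_pow_iff_modEq.mpr (Nat.ModEq.of_dvd (orderOf_dvd_of_pow_eq_one hdp) ?_)
        rw [Nat.ModEq, ha.2, Nat.one_mod_eq_one.mpr (Nat.one_lt_pow (by omega) hp.out.one_lt).ne']
      have hgd : Commute g d := by rw [← hi]; exact hxg.symm.zpow_right i
      have hxd : Commute x d := by rw [← hi]; exact Commute.self_zpow x i
      have h1 : q * y * q⁻¹ = y := by
        rw [hy, ← conj_mul, show q * x⁻¹ * q⁻¹ = (q * x * q⁻¹)⁻¹ by group,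
          show q * g * q⁻¹ = g * d by rw [hd, mul_inv_cancel_left]]
        rw [show q * x * q⁻¹ = x * d by rw [hx, hgq q hq, hd1]]
        rw [hgd.eq, mul_inv_rev, mul_assoc, ← mul_assoc x⁻¹ d, hxd.inv_left.eq, mul_assoc,
          inv_mul_cancel_left]
      exact mul_inv_eq_iff_eq_mul.mp h1
    set v := w g with hv
    have hyv : Commute v y := hyc v hwP
    have hzv : Commute z v := (hwq z hzP).2.1
    obtain ⟨e, he⟩ : ∃ c, c = ⁅v, x⁆ := ⟨_, rfl⟩
    have hez : e ∈ zpowers z := by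
      rw [he, ← commutatorElement_inv]
      exact inv_mem (hwq x hxP).2.2
    have hep : e ^ p = 1 := by
      obtain ⟨i, rfl⟩ := mem_zpowers_iff.mp hez
      rw [← zpow_natCast, ← zpow_mul, mul_comm, zpow_mul, zpow_natCast, hzp, one_zpow]
    have hxv : (x * v) ^ p = x ^ p := by
      obtain ⟨i, hi⟩ := mem_zpowers_iff.mp hez
      rw [CfsgLib.Core.mul_pow_of_central (x := x) (z := v)
        (by rw [← he, ← hi]; exact ((hzcomm x hxP).zpow_left i).eq)
        (by rw [← he, ← hi]; exact (hzv.zpow_left i).eq), hwp, mul_one, ← he]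
      obtain ⟨c, hc⟩ := hp.out.dvd_choose_self (k := 2) two_ne_zero
        (lt_of_le_of_ne hp.out.two_le (Ne.symm hp2))
      rw [hc, pow_mul, hep, one_pow, mul_one]
    have hxy : Commute x y := (Commute.refl x).inv_right.mul_right hxg
    have hdd : (g * v) ^ (p * m) = g ^ (p * m) := by
      rw [show g = x * y by rw [hy, mul_inv_cancel_left], mul_assoc, ← hyv.eq, ← mul_assoc,
        (hxy.mul_left hyv).mul_pow, hxy.mul_pow, pow_mul (x * v), hxv, ← pow_mul]
    have hdd' : dd p m (g * v) = dd p m g := by rw [dd, dd, hdd]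
    have hcv : Commute (g ^ (p * m)) v := by
      have h3 : Commute (g ^ (p * m)) (g * v) := hdd ▸ (Commute.refl (g * v)).pow_left (p * m)
      have h4 := ((Commute.refl g).pow_left (p * m)).inv_right.mul_right h3
      rwa [inv_mul_cancel_left] at h4
    refine ⟨?_, hdd', hcv, fun q hq => ?_⟩
    · -- the order is unchanged
      have hxo : orderOf x = p ^ s := by
        rw [hx, orderOf_pow' _ (mul_ne_zero hm0 fun h => by rw [h, mul_zero, Nat.zero_mod] at ha; omega),
          hg, hn, mul_comm (p ^ s), Nat.gcd_mul_left]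
        have hcop : Nat.gcd (p ^ s) a = 1 := by
          rw [← Nat.coprime_iff_gcd_eq_one]
          refine Nat.Coprime.pow_left s ((Nat.Prime.coprime_iff_not_dvd hp.out).mpr fun hd => ?_)
          have h1 : p ∣ (m * a) % p ^ s :=
            (Nat.dvd_mod_iff (dvd_pow_self p (by omega))).mpr (dvd_mul_of_dvd_right hd m)
          rw [ha.2] at h1
          exact hp.out.not_dvd_one h1
        rw [hcop, mul_one, Nat.mul_div_cancel_left _ (Nat.pos_of_ne_zero hm0)]
      have hxvo : orderOf (x * v) = p ^ s := by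
        obtain ⟨t, rfl⟩ : ∃ t, s = t + 2 := ⟨s - 2, by omega⟩
        refine orderOf_eq_prime_pow (n := t + 1) ?_ ?_
        · rw [pow_succ', pow_mul, hxv, ← pow_mul, ← pow_succ']
          exact pow_ne_one_of_lt_orderOf (pow_pos hp.out.pos _).ne'
            (hxo ▸ Nat.pow_lt_pow_right hp.out.one_lt (by omega))
        · rw [pow_succ', pow_mul, hxv, ← pow_mul, ← pow_succ', ← hxo, pow_orderOf_eq_one]
      have hyo : orderOf y = m := by
        refine Nat.dvd_antisymm (orderOf_dvd_of_pow_eq_one hym) ?_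
        have h1 : orderOf g ∣ p ^ s * orderOf y := orderOf_dvd_of_pow_eq_one (by
          rw [show g = x * y by rw [hy, mul_inv_cancel_left], hxy.mul_pow, pow_mul, hxord, one_pow,
            one_mul, mul_comm, pow_mul, pow_orderOf_eq_one, one_pow])
        rw [hg, hn] at h1
        exact Nat.dvd_of_mul_dvd_mul_left (pow_pos hp.out.pos s) h1
      rw [show g * v = x * v * y by rw [mul_assoc, hyv.eq, ← mul_assoc, hy, mul_inv_cancel_left],
        (hxy.mul_left hyv).orderOf_mul_eq_mul_orderOf_of_coprime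
          (by rw [hxvo, hyo]; exact hm.pow_left s), hxvo, hyo]
    · rw [hdd']
      obtain ⟨i, hi⟩ := mem_zpowers_iff.mp (hfix q hq)
      set d := g⁻¹ * (q * g * q⁻¹) with hd
      have hdv : Commute d v := by rw [← hi]; exact hcv.zpow_left i
      rw [show (g * v)⁻¹ * (q * (g * v) * q⁻¹) = v⁻¹ * d * v * (v⁻¹ * (q * v * q⁻¹)) by rw [hd]; group,
        show v⁻¹ * d * v = d by rw [mul_assoc, hdv.eq, inv_mul_cancel_left]]
      refine mul_mem (hd ▸ hfix q hq) ?_
      obtain ⟨j, hj⟩ := mem_zpowers_iff.mp (hwq q hq).2.2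
      rw [show v⁻¹ * (q * v * q⁻¹) = v⁻¹ * (⁅q, v⁆ * v) by rw [commutatorElement_def]; group,
        show v⁻¹ * (⁅q, v⁆ * v) = ⁅q, v⁆ by rw [← hj, (hzv.zpow_left j).eq, inv_mul_cancel_left]]
      exact (hwq q hq).1
  -- the permutation of fixed points
  have hfp : ∀ t : MulAction.fixedPoints (P : Subgroup G) {t // t ∈ 𝒯}, ∃ g : G, orderOf g = n ∧
      tt p m g = ((t : {t // t ∈ 𝒯}) : Set G) ∧
      ∀ q ∈ (P : Subgroup G), g⁻¹ * (q * g * q⁻¹) ∈ dd p m g := by
    rintro ⟨⟨t, ht⟩, hfix⟩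
    obtain ⟨g, hg, rfl⟩ := Finset.mem_image.mp ht
    refine ⟨g, (Finset.mem_filter.mp hg).2, rfl, fun q hq => ?_⟩
    have h1 : (fun h => q * h * q⁻¹) '' tt p m g = tt p m g :=
      congrArg Subtype.val (hfix ⟨q, hq⟩)
    exact h1.le ⟨g, hself g, rfl⟩
  choose rep hrepo hrept hrepf using hfp
  have hσmem : ∀ t, ∃ t' : MulAction.fixedPoints (P : Subgroup G) {t // t ∈ 𝒯},
      ((t' : {t // t ∈ 𝒯}) : Set G) = tt p m (rep t * w (rep t)) := by
    intro t
    obtain ⟨h1, -, -, h3⟩ := hfixed _ (hrepo t) (hrepf t)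
    refine ⟨⟨⟨_, Finset.mem_image_of_mem _ (Finset.mem_filter.mpr ⟨Finset.mem_univ _, h1⟩)⟩,
      fun q => Subtype.ext ?_⟩, rfl⟩
    show (fun h => (q : G) * h * (q : G)⁻¹) '' tt p m _ = tt p m _
    rw [hconj_tt _ _ h1]
    exact htt _ h1 _ (h3 q q.2)
  choose σ hσ using hσmem
  have hfixj : ∀ (j : ℕ) t, orderOf (rep t * w (rep t) ^ j) = n ∧
      dd p m (rep t * w (rep t) ^ j) = dd p m (rep t) ∧
      (∀ q ∈ (P : Subgroup G), (rep t * w (rep t) ^ j)⁻¹ * (q * (rep t * w (rep t) ^ j) * q⁻¹) ∈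
        dd p m (rep t * w (rep t) ^ j)) ∧
      ((σ^[j] t : {t // t ∈ 𝒯}) : Set G) = tt p m (rep t * w (rep t) ^ j) := by
    intro j t
    induction j with
    | zero => simpa using ⟨hrepo t, hrepf t, (hrept t).symm⟩
    | succ j ih =>
      obtain ⟨h1, h2, h3, h4⟩ := ih
      have e1 : rep t * w (rep t) ^ (j + 1) =
          rep t * w (rep t) ^ j * w (rep t * w (rep t) ^ j) := by
        rw [hwd _ _ h2, pow_succ, mul_assoc]
      obtain ⟨k1, k2, k4, k3⟩ := hfixed _ h1 h3
      rw [e1]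
      refine ⟨k1, k2.trans h2, k3, ?_⟩
      rw [Function.iterate_succ_apply', hσ]
      set g₁ := rep t * w (rep t) ^ j
      set g₂ := rep (σ^[j] t)
      have hin : g₂ ∈ tt p m g₁ := by
        rw [← h4, ← hrept (σ^[j] t)]; exact hself _
      obtain ⟨-, hdd2⟩ := hmove g₁ h1 g₂ hin
      refine htt _ k1 _ ?_
      show (g₁ * w g₁)⁻¹ * (g₂ * w g₂) ∈ dd p m (g₁ * w g₁)
      rw [k2, hwd g₁ g₂ hdd2, show (g₁ * w g₁)⁻¹ * (g₂ * w g₁) = (w g₁)⁻¹ * (g₁⁻¹ * g₂) * w g₁ by group]
      -- `dd` is normalised by the translation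
      obtain ⟨i, hi⟩ := mem_zpowers_iff.mp hin
      have hcm : Commute (g₁⁻¹ * g₂) (w g₁) := by rw [← hi]; exact k4.zpow_left i
      rw [mul_assoc, hcm.eq, inv_mul_cancel_left]
      exact hin
  -- count the fixed points
  have hσp : ∀ t, σ^[p] t = t := fun t => by
    obtain ⟨-, -, -, h⟩ := hfixj p t
    rw [(hw _ (hrepo t)).2.1, mul_one, hrept] at h
    exact Subtype.ext (Subtype.ext h)
  have hσne : ∀ t, σ t ≠ t := fun t h => by
    have h1 := hσ t
    rw [h, ← hrept t] at h1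
    have h2 : rep t * w (rep t) ∈ tt p m (rep t) := h1 ▸ hself _
    have h3 : (rep t)⁻¹ * (rep t * w (rep t)) ∈ dd p m (rep t) := h2
    rw [inv_mul_cancel_left] at h3
    exact (hw _ (hrepo t)).2.2.1 h3
  have hpp : p - 1 + 1 = p := Nat.sub_add_cancel hp.out.one_le
  let e : Equiv.Perm (MulAction.fixedPoints (P : Subgroup G) {t // t ∈ 𝒯}) :=
    { toFun := σ
      invFun := σ^[p - 1]
      left_inv := fun t => by rw [← Function.iterate_succ_apply, Nat.succ_eq_add_one, hpp, hσp]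
      right_inv := fun t => by rw [← Function.iterate_succ_apply' σ, Nat.succ_eq_add_one, hpp, hσp] }
  haveI := Fintype.ofFinite (MulAction.fixedPoints (P : Subgroup G) {t // t ∈ 𝒯})
  have hep : e ^ p ^ 1 = 1 := Equiv.ext fun t => by
    rw [pow_one, Equiv.Perm.coe_pow]
    exact hσp t
  have h := Equiv.Perm.card_compl_support_modEq hep
  rw [show e.support = Finset.univ from Finset.eq_univ_iff_forall.mpr fun t =>
    Equiv.Perm.mem_support.mpr (hσne t), Finset.compl_univ, Finset.card_empty] at h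
  rw [Nat.card_eq_fintype_card]
  exact Nat.modEq_zero_iff_dvd.mp h.symm

end CfsgLib.Core.Kulakoff
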