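import Mathlib.Algebra.Lie.BaseChange
import Mathlib.RingTheory.AdjoinRoot
import Mathlib.RingTheory.Polynomial.Cyclotomic.Basic
import Cfsg.Agent.Lib.CoreKreknin

/-!
# Lie rings with a fixed point free automorphism of prime order
-/

set_option autoImplicit false

open scoped BigOperators TensorProduct

namespace CfsgLib.Core.Kreknin

variable (p : ℕ) [hp : Fact p.Prime]

/-- The ring of integers with a primitive root adjoined. -/
abbrev Cyc : Type := AdjoinRoot (Polynomial.cyclotomic p ℤ)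

/-- Powers of the root indexed by residues. -/
noncomputable def rpow (i : ZMod p) : Cyc p := AdjoinRoot.root (Polynomial.cyclotomic p ℤ) ^ i.val

theorem geom_root : ∑ k ∈ Finset.range p, (AdjoinRoot.root (Polynomial.cyclotomic p ℤ)) ^ k = 0 := by
  have h := AdjoinRoot.eval₂_root (Polynomial.cyclotomic p ℤ)
  conv_lhs at h => arg 3; rw [Polynomial.cyclotomic_prime]
  rw [Polynomial.eval₂_finset_sum] at h
  simpa using h

theorem rpow_add (i j : ZMod p) : rpow p (i + j) = rpow p i * rpow p j := by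
  have h1 : AdjoinRoot.root (Polynomial.cyclotomic p ℤ) ^ p = 1 :=
    sub_eq_zero.1 (by rw [← geom_sum_mul, geom_root p, zero_mul])
  rw [rpow, rpow, rpow, ← pow_add, ZMod.val_add]
  conv_rhs => rw [← Nat.mod_add_div (i.val + j.val) p, pow_add, pow_mul, h1, one_pow, mul_one]

theorem rpow_zero : rpow p 0 = 1 := by rw [rpow, ZMod.val_zero, pow_zero]

theorem rpow_sum {t : ZMod p} (ht : t ≠ 0) : ∑ k : ZMod p, rpow p (t * k) = 0 := by
  rw [Fintype.sum_equiv (Equiv.mulLeft₀ t ht) (fun k => rpow p (t * k)) (rpow p) (fun _ => rfl),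
    ← geom_root p]
  refine Finset.sum_bij (fun k _ => k.val) (fun k _ => Finset.mem_range.2 (ZMod.val_lt k))
    (fun a _ b _ h => ZMod.val_injective p h) (fun k hk => ?_) fun k _ => rfl
  exact ⟨(k : ZMod p), Finset.mem_univ _, ZMod.val_natCast_of_lt (Finset.mem_range.1 hk)⟩

theorem rpow_sum_ite (t : ZMod p) :
    ∑ k : ZMod p, rpow p (t * k) = if t = 0 then (p : Cyc p) else 0 := by
  split_ifs with h
  · subst h; simp [rpow_zero, ZMod.card]
  · exact rpow_sum p h

variable {L : Type*} [LieRing L]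

theorem one_tmul_injective {v : L} (h : (1 : Cyc p) ⊗ₜ[ℤ] v = 0) : v = 0 := by
  have hm : (Polynomial.cyclotomic p ℤ).Monic := Polynomial.cyclotomic.monic p ℤ
  set b := AdjoinRoot.powerBasis' hm
  have hdim : 0 < b.dim := by
    rw [AdjoinRoot.powerBasis'_dim, Polynomial.natDegree_cyclotomic]
    exact Nat.totient_pos.2 hp.out.pos
  have h1 : b.basis.coord ⟨0, hdim⟩ 1 = 1 := by
    have : b.basis ⟨0, hdim⟩ = 1 := by rw [PowerBasis.coe_basis]; simp
    rw [Module.Basis.coord_apply, ← this, Module.Basis.repr_self, Finsupp.single_eq_same]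
  have h2 := congrArg (fun w => TensorProduct.lid ℤ L (TensorProduct.map (b.basis.coord ⟨0, hdim⟩) LinearMap.id w)) h
  simpa [h1] using h2

/-- A graded extension of a Lie ring with a fixed point free automorphism of prime order. -/
theorem exists_grading (σ : ZMod p → L →+ L) (hadd : ∀ a b v, σ (a + b) v = σ a (σ b v))
    (h0 : ∀ v, σ 0 v = v) (hlie : ∀ a x y, σ a ⁅x, y⁆ = ⁅σ a x, σ a y⁆)
    (hfpf : ∀ v, σ 1 v = v → v = 0) {N : ℕ} (hN : ∀ v : L, N • v = 0) (hcop : Nat.Coprime p N) :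
    Nonempty (Grading p (Cyc p ⊗[ℤ] L)) := by
  classical
  obtain ⟨u, hu⟩ : ∃ u : ℤ, ∀ w : Cyc p ⊗[ℤ] L, u • ((p : ℤ) • w) = w := by
    refine ⟨Nat.gcdA p N, fun w => ?_⟩
    have hw : ∀ w : Cyc p ⊗[ℤ] L, (N : ℤ) • w = 0 := fun w => by
      induction w using TensorProduct.induction_on with
      | zero => simp
      | add a b ha hb => rw [smul_add, ha, hb, add_zero]
      | tmul a v => rw [← TensorProduct.tmul_smul, natCast_zsmul, hN, TensorProduct.tmul_zero]
    have hb := Nat.gcd_eq_gcd_ab p N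
    rw [hcop.gcd_eq_one] at hb
    rw [smul_smul]
    conv_rhs => rw [← one_smul ℤ w, show (1 : ℤ) = _ from hb]
    rw [add_smul, mul_comm (N : ℤ) (Nat.gcdB p N), ← smul_smul (Nat.gcdB p N) (N : ℤ) w, hw, smul_zero,
      add_zero, mul_comm (p : ℤ)]
  let β : ZMod p → (Cyc p ⊗[ℤ] L) →ₗ[Cyc p] (Cyc p ⊗[ℤ] L) := fun k =>
    (σ k).toIntLinearMap.baseChange (Cyc p)
  have hβadd : ∀ a b w, β (a + b) w = β a (β b w) := fun a b w => by
    induction w using TensorProduct.induction_on with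
    | zero => simp
    | add x y hx hy => rw [map_add, map_add, map_add, hx, hy]
    | tmul c v => simp [β, hadd]
  have hla : ∀ x y z : Cyc p ⊗[ℤ] L, ⁅x, y + z⁆ = ⁅x, y⁆ + ⁅x, z⁆ := fun x y z => lie_add x y z
  have hlz : ∀ x : Cyc p ⊗[ℤ] L, ⁅x, (0 : Cyc p ⊗[ℤ] L)⁆ = 0 := fun x => lie_zero x
  have hsl : ∀ (r : Cyc p) (x y : Cyc p ⊗[ℤ] L), ⁅r • x, y⁆ = r • ⁅x, y⁆ := fun r x y => smul_lie r x y
  have hls : ∀ (r : Cyc p) (x y : Cyc p ⊗[ℤ] L), ⁅x, r • y⁆ = r • ⁅x, y⁆ := fun r x y => lie_smul r x y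
  have hβlie : ∀ a x y, β a ⁅x, y⁆ = ⁅β a x, β a y⁆ := fun a x y => by
    induction x using TensorProduct.induction_on with
    | zero => simp
    | add x x' hx hx' => simp only [add_lie, map_add, hx, hx']
    | tmul c v =>
      induction y using TensorProduct.induction_on with
      | zero =>
        rw [map_zero, hlz, map_zero, hlz]
      | add y y' hy hy' => rw [hla, map_add, map_add, hy, hy', hla]
      | tmul d w => simp [β, hlie]
  let P : ZMod p → (Cyc p ⊗[ℤ] L) →ₗ[Cyc p] (Cyc p ⊗[ℤ] L) := fun i =>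
    ∑ k : ZMod p, rpow p (-i * k) • β k
  have hPapp : ∀ i w, P i w = ∑ k : ZMod p, rpow p (-i * k) • β k w := fun i w => by
    simp [P, LinearMap.sum_apply]
  have heig : ∀ m i w, β m (P i w) = rpow p (i * m) • P i w := fun m i w => by
    rw [hPapp, map_sum, Finset.smul_sum]
    refine Fintype.sum_equiv (Equiv.addLeft m) _ _ fun k => ?_
    rw [map_smul, ← hβadd, smul_smul, Equiv.coe_addLeft, ← rpow_add,
      show i * m + -i * (m + k) = -i * k by ring]
  have hcollapse : ∀ i w (t : ZMod p), (∀ m, β m w = rpow p (t * m) • w) →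
      P i w = if i = t then (p : ℤ) • w else 0 := by
    intro i w t ht
    rw [hPapp]
    simp only [ht, smul_smul, ← rpow_add, ← add_mul, ← Finset.sum_smul, rpow_sum_ite]
    rcases eq_or_ne i t with rfl | h
    · rw [if_pos (neg_add_cancel i), if_pos rfl, natCast_zsmul, Nat.cast_smul_eq_nsmul]
    · rw [if_neg (fun e => h (neg_add_eq_zero.1 e)), if_neg h, zero_smul]
  have hzero : ∀ w, P 0 w = 0 := fun w => by
    induction w using TensorProduct.induction_on with
    | zero => simp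
    | add a b ha hb => rw [map_add, ha, hb, add_zero]
    | tmul c v =>
      have hs : ∑ k : ZMod p, σ k v = 0 := hfpf _ (by
        rw [map_sum]
        exact Fintype.sum_equiv (Equiv.addLeft (1 : ZMod p)) _ _ fun k => (hadd 1 k v).symm)
      rw [hPapp]
      simp [β, rpow_zero, ← TensorProduct.tmul_sum, hs]
  have hsum : ∀ w, ∑ i : ZMod p, P i w = (p : ℤ) • w := fun w => by
    simp only [hPapp]
    rw [Finset.sum_comm, Finset.sum_eq_single (0 : ZMod p) (fun k _ hk => ?_) (by simp)]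
    swap
    · rw [← Finset.sum_smul, Finset.sum_congr rfl (fun i _ => (by rw [neg_mul_comm, mul_comm] :
        rpow p (-i * k) = rpow p (-k * i))), rpow_sum p (neg_ne_zero.2 hk), zero_smul]
    simp only [mul_zero, rpow_zero, one_smul, Finset.sum_const, Finset.card_univ, ZMod.card,
      natCast_zsmul]
    congr 1
    have : ∀ x : Cyc p ⊗[ℤ] L, β 0 x = x := fun x => by
      induction x using TensorProduct.induction_on with
      | zero => simp
      | add a b ha hb => rw [map_add, ha, hb]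
      | tmul c v => simp [β, h0]
    exact this w
  refine ⟨{ π := fun i => u • (P i).toAddMonoidHom, sum := ?_, proj := ?_, zero := ?_, mul := ?_ }⟩
  · intro w
    show ∑ i : ZMod p, u • P i w = w
    rw [← Finset.smul_sum, hsum, hu]
  · intro i j w
    show u • P i (u • P j w) = if i = j then u • P j w else 0
    rw [map_zsmul (P i), hcollapse i _ j (fun m => heig m j w)]
    split_ifs with h
    · rw [hu]
    · simp
  · intro w
    show u • P 0 w = 0
    rw [hzero, smul_zero]
  · intro i j x y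
    show u • P (i + j) ⁅u • P i x, u • P j y⁆ = ⁅u • P i x, u • P j y⁆
    rw [hcollapse (i + j) _ (i + j) fun m => ?_, if_pos rfl, hu]
    rw [hβlie, map_zsmul (β m), map_zsmul (β m), heig, heig, smul_comm u, smul_comm u]
    rw [hsl, hls]
    rw [smul_smul, ← rpow_add, add_mul]

theorem one_tmul_mem_lcs : ∀ (n : ℕ) {v : L}, v ∈ lcs (M := L) n →
    (1 : Cyc p) ⊗ₜ[ℤ] v ∈ lcs (M := Cyc p ⊗[ℤ] L) n
  | 0, _, _ => AddSubgroup.mem_top _
  | n + 1, v, hv => by
    let f : L →+ Cyc p ⊗[ℤ] L := AddMonoidHom.mk' (fun w => (1 : Cyc p) ⊗ₜ[ℤ] w)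
      fun a b => TensorProduct.tmul_add _ a b
    have h : br (lcs (M := L) n) ⊤ ≤ (lcs (M := Cyc p ⊗[ℤ] L) (n + 1)).comap f :=
      br_le fun a ha b _ => by
        rw [AddSubgroup.mem_comap]
        show (1 : Cyc p) ⊗ₜ[ℤ] ⁅a, b⁆ ∈ _
        rw [show (1 : Cyc p) ⊗ₜ[ℤ] ⁅a, b⁆ = ⁅(1 : Cyc p) ⊗ₜ[ℤ] a, (1 : Cyc p) ⊗ₜ[ℤ] b⁆ by
          rw [LieAlgebra.ExtendScalars.bracket_tmul, one_mul]]
        exact mem_br (one_tmul_mem_lcs n ha) (AddSubgroup.mem_top _)
    exact h hv

end CfsgLib.Core.Kreknin
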