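import Mathlib.GroupTheory.Nilpotent
import Mathlib.Algebra.DirectSum.Basic
import Mathlib.Algebra.Lie.Basic
import Mathlib.Tactic
import Cfsg.Agent.Lib.CoreKreknin

/-!
# The Lie ring of the lower central series
-/

set_option autoImplicit false

open scoped commutatorElement DirectSum

namespace CfsgLib.Core.LieGr

variable (G : Type*) [Group G]



/-- The terms of the lower central series. -/
abbrev gam (n : ℕ) : Subgroup G := (⊤ : Subgroup G).lowerCentralSeries n

theorem gam_le (a b : ℕ) (h : a ≤ b) : gam G b ≤ gam G a :=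
  Subgroup.lowerCentralSeries_antitone _ h

instance gam_normal (n : ℕ) : (gam G n).Normal := inferInstance

theorem commutator_gam_le : ∀ j i : ℕ, ⁅gam G i, gam G j⁆ ≤ gam G (i + j + 1)
  | 0, i => le_rfl
  | j + 1, i => by
    set N := gam G (i + (j + 1) + 1)
    set f := QuotientGroup.mk' N
    have hmap : ∀ A B : Subgroup G, ⁅A, B⁆ ≤ N → ⁅A.map f, B.map f⁆ = ⊥ := fun A B h => by
      rw [← Subgroup.map_commutator, Subgroup.map_eq_bot_iff, QuotientGroup.ker_mk']
      exact h
    have h1 : ⁅⁅(⊤ : Subgroup G), gam G i⁆, gam G j⁆ ≤ N := by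
      rw [Subgroup.commutator_comm ⊤ (gam G i)]
      exact (commutator_gam_le j (i + 1)).trans (gam_le G _ _ (by omega))
    have h2 : ⁅⁅gam G i, gam G j⁆, (⊤ : Subgroup G)⁆ ≤ N :=
      (Subgroup.commutator_mono (commutator_gam_le j i) le_rfl).trans
        (show gam G (i + j + 1 + 1) ≤ N from gam_le G _ _ (by omega))
    have h3 := Subgroup.commutator_commutator_eq_bot_of_rotate (H₁ := (gam G j).map f)
      (H₂ := (⊤ : Subgroup G).map f) (H₃ := (gam G i).map f)
      (by rw [← Subgroup.map_commutator]; exact hmap _ _ h1)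
      (by rw [← Subgroup.map_commutator]; exact hmap _ _ h2)
    rw [← Subgroup.map_commutator, ← Subgroup.map_commutator, Subgroup.map_eq_bot_iff,
      QuotientGroup.ker_mk'] at h3
    rw [Subgroup.commutator_comm]
    exact h3

theorem comm_mem {i j : ℕ} {x y : G} (hx : x ∈ gam G i) (hy : y ∈ gam G j) :
    ⁅x, y⁆ ∈ gam G (i + j + 1) := commutator_gam_le G j i (Subgroup.commutator_mem_commutator hx hy)

/-- The factors. -/
abbrev Fac (n : ℕ) : Type _ := ↥(gam G n) ⧸ (gam G (n + 1)).subgroupOf (gam G n)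

instance facComm (n : ℕ) : CommGroup (Fac G n) :=
  { (inferInstance : Group (Fac G n)) with
    mul_comm := fun a b => by
      induction a using QuotientGroup.induction_on with
      | _ a =>
      induction b using QuotientGroup.induction_on with
      | _ b =>
      rw [← QuotientGroup.mk_mul, ← QuotientGroup.mk_mul, QuotientGroup.eq, Subgroup.mem_subgroupOf]
      have h := gam_le G _ _ (show n + 1 ≤ n + n + 1 by omega)
        (comm_mem G (inv_mem b.2) (inv_mem a.2))
      simpa [commutatorElement_def, mul_assoc] using h }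

/-- The Lie ring. -/
abbrev L : Type _ := ⨁ n, Additive (Fac G n)

open Classical in
/-- The class of an element in the factor of index `n`. -/
noncomputable def cls (n : ℕ) (x : G) : L G :=
  if h : x ∈ gam G n then
    DirectSum.of (fun m => Additive (Fac G m)) n (Additive.ofMul (QuotientGroup.mk ⟨x, h⟩)) else 0

variable {G}

theorem cls_def {n : ℕ} {x : G} (h : x ∈ gam G n) :
    cls G n x = DirectSum.of (fun m => Additive (Fac G m)) n (Additive.ofMul (QuotientGroup.mk ⟨x, h⟩)) :=
  dif_pos h

theorem cls_mul {n : ℕ} {x y : G} (hx : x ∈ gam G n) (hy : y ∈ gam G n) :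
    cls G n (x * y) = cls G n x + cls G n y := by
  rw [cls_def hx, cls_def hy, cls_def (mul_mem hx hy), ← map_add]
  rfl

theorem cls_one (n : ℕ) : cls G n 1 = 0 := by
  rw [cls_def (one_mem _)]
  exact map_zero _

theorem cls_inv {n : ℕ} {x : G} (hx : x ∈ gam G n) : cls G n x⁻¹ = -cls G n x := by
  rw [eq_neg_iff_add_eq_zero, ← cls_mul (inv_mem hx) hx, inv_mul_cancel, cls_one]

theorem cls_eq_zero {n : ℕ} {x : G} (hx : x ∈ gam G (n + 1)) : cls G n x = 0 := by
  rw [cls_def (gam_le G _ _ n.le_succ hx),
    (QuotientGroup.eq_one_iff (⟨x, gam_le G _ _ n.le_succ hx⟩ : gam G n)).2 (Subgroup.mem_subgroupOf.2 hx)]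
  exact map_zero _

theorem mem_of_cls_eq_zero {n : ℕ} {x : G} (hx : x ∈ gam G n) (h : cls G n x = 0) :
    x ∈ gam G (n + 1) := by
  rw [cls_def hx, ← map_zero (DirectSum.of (fun m => Additive (Fac G m)) n)] at h
  have h2 := DirectSum.of_injective n h
  exact Subgroup.mem_subgroupOf.1 ((QuotientGroup.eq_one_iff _).1 (Additive.toMul.injective.eq_iff.2 h2))

theorem cls_conj {n : ℕ} {x : G} (hx : x ∈ gam G n) (g : G) :
    cls G n (g * x * g⁻¹) = cls G n x := by
  have h : ⁅g, x⁆ ∈ gam G (n + 1) := by
    rw [← commutatorElement_inv x g]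
    exact inv_mem (comm_mem G (j := 0) hx (Subgroup.mem_top g))
  rw [show g * x * g⁻¹ = ⁅g, x⁆ * x by simp [commutatorElement_def, mul_assoc],
    cls_mul (gam_le G _ _ n.le_succ h) hx, cls_eq_zero h, zero_add]

theorem cls_induction {P : L G → Prop} (h0 : P 0) (hadd : ∀ a b, P a → P b → P (a + b))
    (hgen : ∀ n, ∀ x ∈ gam G n, P (cls G n x)) (v : L G) : P v := by
  induction v using DirectSum.induction_on with
  | zero => exact h0
  | add a b ha hb => exact hadd a b ha hb
  | of n a =>
    obtain ⟨⟨x, hx⟩, hxa⟩ := QuotientGroup.mk_surjective (Additive.toMul a)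
    have := hgen n x hx
    rw [cls_def hx, hxa] at this
    exact this

/-- Bracketing with a fixed element. -/
noncomputable def adElem (i j : ℕ) (x : gam G i) : Fac G j →* Multiplicative (L G) :=
  QuotientGroup.lift _
    { toFun := fun y => Multiplicative.ofAdd (cls G (i + j + 1) ⁅(x : G), (y : G)⁆)
      map_one' := by simp [cls_one]
      map_mul' := fun y z => by
        rw [← ofAdd_add]
        congr 1
        simp only [Subgroup.coe_mul]
        rw [show ⁅(x : G), (y : G) * z⁆ = ⁅(x : G), (y : G)⁆ * ((y : G) * ⁅(x : G), (z : G)⁆ * (y : G)⁻¹) by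
            simp [commutatorElement_def, mul_assoc],
          cls_mul (comm_mem G x.2 y.2) ((gam_normal G _).conj_mem _ (comm_mem G x.2 z.2) _),
          cls_conj (comm_mem G x.2 z.2)] }
    (fun y hy => by
      show Multiplicative.ofAdd (cls G (i + j + 1) ⁅(x : G), (y : G)⁆) = 1
      have h : ⁅(x : G), (y : G)⁆ ∈ gam G (i + (j + 1) + 1) :=
        comm_mem G x.2 (Subgroup.mem_subgroupOf.1 hy)
      rw [show i + (j + 1) + 1 = i + j + 1 + 1 by omega] at h
      rw [cls_eq_zero h]
      rfl)

theorem adElem_mk (i j : ℕ) (x : gam G i) (y : gam G j) :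
    adElem i j x (y : Fac G j) = Multiplicative.ofAdd (cls G (i + j + 1) ⁅(x : G), (y : G)⁆) := rfl

/-- The bracket of two factors. -/
noncomputable def brHom (i j : ℕ) : Fac G i →* (Fac G j →* Multiplicative (L G)) :=
  QuotientGroup.lift _
    (MonoidHom.mk' (adElem i j) fun x x' => by
      refine MonoidHom.ext fun y => ?_
      induction y using QuotientGroup.induction_on with
      | _ y =>
      show Multiplicative.ofAdd (cls G (i + j + 1) ⁅((x * x' : gam G i) : G), (y : G)⁆) =
        Multiplicative.ofAdd (cls G (i + j + 1) ⁅(x : G), (y : G)⁆) *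
          Multiplicative.ofAdd (cls G (i + j + 1) ⁅(x' : G), (y : G)⁆)
      rw [← ofAdd_add]
      congr 1
      simp only [Subgroup.coe_mul]
      rw [show ⁅(x : G) * x', (y : G)⁆ = ((x : G) * ⁅(x' : G), (y : G)⁆ * (x : G)⁻¹) * ⁅(x : G), (y : G)⁆ by
          simp [commutatorElement_def, mul_assoc],
        cls_mul ((gam_normal G _).conj_mem _ (comm_mem G x'.2 y.2) _) (comm_mem G x.2 y.2),
        cls_conj (comm_mem G x'.2 y.2), add_comm])
    (fun x hx => by
      refine MonoidHom.ext fun y => ?_
      induction y using QuotientGroup.induction_on with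
      | _ y =>
      show Multiplicative.ofAdd (cls G (i + j + 1) ⁅(x : G), (y : G)⁆) = 1
      rw [cls_eq_zero (show ⁅(x : G), (y : G)⁆ ∈ gam G (i + j + 1 + 1) by
        rw [show i + j + 1 + 1 = i + 1 + j + 1 by omega]
        exact comm_mem G (Subgroup.mem_subgroupOf.1 hx) y.2)]
      rfl)

/-- The bracket on the direct sum. -/
noncomputable def brk : L G →+ L G →+ L G :=
  DirectSum.toAddMonoid fun i =>
    (DirectSum.toAddMonoid fun j =>
      (AddMonoidHom.mk' (fun b : Additive (Fac G j) =>
        AddMonoidHom.mk' (fun a : Additive (Fac G i) =>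
          Multiplicative.toAdd (brHom i j (Additive.toMul a) (Additive.toMul b))) fun a a' => by
            simp) fun b b' => AddMonoidHom.ext fun a => by simp : Additive (Fac G j) →+ Additive (Fac G i) →+ L G)).flip

theorem brk_cls {i j : ℕ} {x y : G} (hx : x ∈ gam G i) (hy : y ∈ gam G j) :
    brk (cls G i x) (cls G j y) = cls G (i + j + 1) ⁅x, y⁆ := by
  rw [cls_def hx, cls_def hy, brk, DirectSum.toAddMonoid_of, AddMonoidHom.flip_apply,
    DirectSum.toAddMonoid_of]
  rfl

theorem brk_skew (a b : L G) : brk b a = -brk a b := by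
  induction a using cls_induction with
  | h0 => simp
  | hadd a a' ha ha' => rw [map_add, ha, ha', map_add, AddMonoidHom.add_apply, neg_add]
  | hgen i x hx =>
    induction b using cls_induction with
    | h0 => simp
    | hadd b b' hb hb' => rw [map_add, AddMonoidHom.add_apply, hb, hb', map_add, neg_add]
    | hgen j y hy =>
      rw [brk_cls hy hx, brk_cls hx hy, ← commutatorElement_inv x y, Nat.add_comm j i,
        cls_inv (comm_mem G hx hy)]

theorem brk_self (a : L G) : brk a a = 0 := by
  induction a using cls_induction with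
  | h0 => simp
  | hadd a b ha hb =>
    simp only [map_add, AddMonoidHom.add_apply]
    rw [ha, hb, brk_skew a b]
    abel
  | hgen i x hx => rw [brk_cls hx hx, commutatorElement_self, cls_one]

theorem brk_jacobi (a b c : L G) :
    brk a (brk b c) = brk (brk a b) c + brk b (brk a c) := by
  induction a using cls_induction with
  | h0 => simp
  | hadd a a' ha ha' => simp only [map_add, AddMonoidHom.add_apply, ha, ha']; abel
  | hgen i x hx =>
  induction b using cls_induction with
  | h0 => simp
  | hadd b b' hb hb' => simp only [map_add, AddMonoidHom.add_apply, hb, hb']; abel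
  | hgen j y hy =>
  induction c using cls_induction with
  | h0 => simp
  | hadd c c' hc hc' => simp only [map_add, hc, hc']; abel
  | hgen k z hz =>
    have key : ⁅x, ⁅y, z⁆⁆ = (y * x * ⁅z, ⁅x⁻¹, y⁻¹⁆⁆⁻¹ * (y * x)⁻¹) *
        (y * z * ⁅y⁻¹, ⁅z⁻¹, x⁆⁆⁻¹ * (y * z)⁻¹) := by
      simp [commutatorElement_def, mul_assoc]
    have m1 : ⁅z, ⁅x⁻¹, y⁻¹⁆⁆ ∈ gam G (i + (j + k + 1) + 1) := by
      rw [show i + (j + k + 1) + 1 = k + (i + j + 1) + 1 by omega]
      exact comm_mem G hz (comm_mem G (inv_mem hx) (inv_mem hy))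
    have m2 : ⁅y⁻¹, ⁅z⁻¹, x⁆⁆ ∈ gam G (i + (j + k + 1) + 1) := by
      rw [show i + (j + k + 1) + 1 = j + (k + i + 1) + 1 by omega]
      exact comm_mem G (inv_mem hy) (comm_mem G (inv_mem hz) hx)
    have e1 : cls G (i + (j + k + 1) + 1) ⁅z, ⁅x⁻¹, y⁻¹⁆⁆ = brk (cls G k z) (brk (cls G i x) (cls G j y)) := by
      have := (brk_cls hz (comm_mem G (inv_mem hx) (inv_mem hy))).symm
      rw [← brk_cls (inv_mem hx) (inv_mem hy), cls_inv hx, cls_inv hy,
        show k + (i + j + 1) + 1 = i + (j + k + 1) + 1 by omega] at this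
      simpa using this
    have e2 : cls G (i + (j + k + 1) + 1) ⁅y⁻¹, ⁅z⁻¹, x⁆⁆ = brk (cls G j y) (brk (cls G k z) (cls G i x)) := by
      have := (brk_cls (inv_mem hy) (comm_mem G (inv_mem hz) hx)).symm
      rw [← brk_cls (inv_mem hz) hx, cls_inv hz, cls_inv hy,
        show j + (k + i + 1) + 1 = i + (j + k + 1) + 1 by omega] at this
      simpa using this
    rw [brk_cls hy hz, brk_cls hx (comm_mem G hy hz), key,
      cls_mul ((gam_normal G _).conj_mem _ (inv_mem m1) _) ((gam_normal G _).conj_mem _ (inv_mem m2) _),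
      cls_conj (inv_mem m1), cls_conj (inv_mem m2), cls_inv m1, cls_inv m2, e1, e2,
      brk_skew (cls G k z) (brk (cls G i x) (cls G j y)), brk_skew (cls G i x) (cls G k z)]
    simp

noncomputable instance : LieRing (L G) where
  bracket a b := brk a b
  add_lie a b c := show brk (a + b) c = brk a c + brk b c by simp
  lie_add a b c := show brk a (b + c) = brk a b + brk a c by simp
  lie_self := brk_self
  leibniz_lie := brk_jacobi

theorem lie_cls {i j : ℕ} {x y : G} (hx : x ∈ gam G i) (hy : y ∈ gam G j) :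
    ⁅cls G i x, cls G j y⁆ = cls G (i + j + 1) ⁅x, y⁆ := brk_cls hx hy

/-- The classes of the terms lie in the lower central series of the Lie ring. -/
theorem cls_mem_lcs : ∀ (n : ℕ) (x : G), x ∈ gam G n → cls G n x ∈ Kreknin.lcs n
  | 0, _, _ => AddSubgroup.mem_top _
  | n + 1, x, hx => by
    let S : Subgroup G :=
      { carrier := {x | x ∈ gam G (n + 1) ∧ cls G (n + 1) x ∈ Kreknin.lcs (n + 1)}
        one_mem' := ⟨one_mem _, by rw [cls_one]; exact zero_mem _⟩
        mul_mem' := fun ha hb => ⟨mul_mem ha.1 hb.1, by rw [cls_mul ha.1 hb.1]; exact add_mem ha.2 hb.2⟩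
        inv_mem' := fun ha => ⟨inv_mem ha.1, by rw [cls_inv ha.1]; exact neg_mem ha.2⟩ }
    refine ((Subgroup.commutator_le (H₁ := gam G n) (H₂ := ⊤) (H₃ := S)).2 fun a ha b hb => ?_) hx |>.2
    refine ⟨Subgroup.commutator_mem_commutator ha hb, ?_⟩
    rw [← show cls G (n + 0 + 1) ⁅a, b⁆ = cls G (n + 1) ⁅a, b⁆ from rfl, ← lie_cls ha (j := 0) hb]
    exact Kreknin.mem_br (cls_mem_lcs n a ha) (AddSubgroup.mem_top _)

theorem map_mem (φ : MulAut G) {n : ℕ} {x : G} (hx : x ∈ gam G n) : φ x ∈ gam G n :=
  (Subgroup.characteristic_iff_le_comap.1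
    (Subgroup.lowerCentralSeries_characteristic (S := (⊤ : Subgroup G)) n)) φ hx

/-- The action of an automorphism. -/
noncomputable def act (φ : MulAut G) : L G →+ L G :=
  DirectSum.toAddMonoid fun n => AddMonoidHom.mk' (fun a : Additive (Fac G n) =>
    Multiplicative.toAdd ((QuotientGroup.lift ((gam G (n + 1)).subgroupOf (gam G n))
      { toFun := fun x : gam G n => Multiplicative.ofAdd (cls G n (φ (x : G)))
        map_one' := by simp [cls_one]
        map_mul' := fun x y => by
          rw [← ofAdd_add, Subgroup.coe_mul, map_mul, cls_mul (map_mem φ x.2) (map_mem φ y.2)] }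
      fun x hx => by
        show Multiplicative.ofAdd (cls G n (φ (x : G))) = 1
        rw [cls_eq_zero (map_mem φ (Subgroup.mem_subgroupOf.1 hx))]
        rfl) (Additive.toMul a))) fun a b => by rw [toMul_add, map_mul, toAdd_mul]

theorem act_cls (φ : MulAut G) {n : ℕ} {x : G} (hx : x ∈ gam G n) :
    act φ (cls G n x) = cls G n (φ x) := by
  rw [cls_def hx, act, DirectSum.toAddMonoid_of]
  rfl

theorem act_mul (φ ψ : MulAut G) (v : L G) : act (φ * ψ) v = act φ (act ψ v) := by
  induction v using cls_induction with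
  | h0 => simp
  | hadd a b ha hb => simp only [map_add, ha, hb]
  | hgen n x hx => rw [act_cls _ hx, act_cls _ hx, act_cls _ (map_mem ψ hx)]; rfl

theorem act_one (v : L G) : act (1 : MulAut G) v = v := by
  induction v using cls_induction with
  | h0 => simp
  | hadd a b ha hb => simp only [map_add, ha, hb]
  | hgen n x hx => rw [act_cls _ hx]; rfl

theorem act_lie (φ : MulAut G) (a b : L G) : act φ ⁅a, b⁆ = ⁅act φ a, act φ b⁆ := by
  induction a using cls_induction with
  | h0 => simp
  | hadd a a' ha ha' => simp only [add_lie, map_add, ha, ha']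
  | hgen i x hx =>
    induction b using cls_induction with
    | h0 => simp
    | hadd b b' hb hb' => simp only [lie_add, map_add, hb, hb']
    | hgen j y hy =>
      rw [lie_cls hx hy, act_cls _ (comm_mem G hx hy), act_cls _ hx, act_cls _ hy,
        lie_cls (map_mem φ hx) (map_mem φ hy), map_commutatorElement]

theorem component_cls {n m : ℕ} {x : G} (hx : x ∈ gam G n) :
    cls G n x m = if h : n = m then h ▸ Additive.ofMul (QuotientGroup.mk ⟨x, hx⟩ : Fac G n) else 0 := by
  rw [cls_def hx, DirectSum.of_apply]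

theorem of_component (v : L G) (n : ℕ) :
    ∃ x ∈ gam G n, DirectSum.of (fun m => Additive (Fac G m)) n (v n) = cls G n x := by
  obtain ⟨⟨x, hx⟩, hxa⟩ := QuotientGroup.mk_surjective (Additive.toMul (v n))
  exact ⟨x, hx, by rw [cls_def hx, hxa]; rfl⟩

/-- A fixed point free automorphism of a finite group is fixed point free on the Lie ring. -/
theorem act_fixed [Finite G] (φ : MulAut G) (hfpf : ∀ g : G, φ g = g → g = 1) {v : L G}
    (hv : act φ v = v) : v = 0 := by
  classical
  have hcomm : ∀ n, act φ (DirectSum.of (fun m => Additive (Fac G m)) n (v n)) =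
      DirectSum.of (fun m => Additive (Fac G m)) n ((act φ v) n) := by
    intro n
    clear hv
    induction v using cls_induction with
    | h0 => simp
    | hadd a b ha hb => simp only [map_add, DirectSum.add_apply, ha, hb]
    | hgen m x hx =>
      rw [act_cls _ hx, cls_def (map_mem φ hx), cls_def hx]
      rcases eq_or_ne m n with rfl | h
      · rw [DirectSum.of_eq_same, DirectSum.of_eq_same, ← cls_def hx, ← cls_def (map_mem φ hx), act_cls _ hx]
      · rw [DirectSum.of_eq_of_ne _ _ _ h.symm, DirectSum.of_eq_of_ne _ _ _ h.symm, map_zero, map_zero]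
  refine DirectSum.ext fun n => ?_
  obtain ⟨x, hx, hxe⟩ := of_component v n
  have h1 := hcomm n
  rw [hv, hxe, act_cls _ hx] at h1
  have h2 : x⁻¹ * φ x ∈ gam G (n + 1) := by
    refine mem_of_cls_eq_zero (mul_mem (inv_mem hx) (map_mem φ hx)) ?_
    rw [cls_mul (inv_mem hx) (map_mem φ hx), cls_inv hx, h1, neg_add_cancel]
  let f : gam G (n + 1) → gam G (n + 1) := fun m => ⟨(m : G)⁻¹ * φ m, mul_mem (inv_mem m.2) (map_mem φ m.2)⟩
  have hinj : ∀ a b : G, a⁻¹ * φ a = b⁻¹ * φ b → a = b := fun a b h => by
    have h3 : φ (a * b⁻¹) = a * b⁻¹ := by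
      rw [map_mul, map_inv]
      calc φ a * (φ b)⁻¹ = a * (a⁻¹ * φ a) * (φ b)⁻¹ := by simp
        _ = a * (b⁻¹ * φ b) * (φ b)⁻¹ := by rw [h]
        _ = a * b⁻¹ := by simp [mul_assoc]
    exact mul_inv_eq_one.1 (hfpf _ h3)
  obtain ⟨m, hm⟩ := (Finite.injective_iff_surjective.1 (show Function.Injective f from
    fun a b h => Subtype.ext (hinj _ _ (congrArg Subtype.val h)))) ⟨_, h2⟩
  have hxm : x = m := hinj _ _ (congrArg Subtype.val hm).symm
  rw [cls_eq_zero (hxm ▸ m.2)] at hxe
  show v n = 0
  refine DirectSum.of_injective (β := fun m => Additive (Fac G m)) n ?_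
  rw [hxe, map_zero]

theorem card_nsmul_eq_zero [Finite G] (v : L G) : Nat.card G • v = 0 := by
  induction v using cls_induction with
  | h0 => simp
  | hadd a b ha hb => rw [nsmul_add, ha, hb, add_zero]
  | hgen n x hx =>
    have : ∀ k : ℕ, cls G n (x ^ k) = k • cls G n x := fun k => by
      induction k with
      | zero => simp [cls_one]
      | succ k ih => rw [pow_succ, cls_mul (pow_mem hx k) hx, ih, succ_nsmul]
    rw [← this, pow_card_eq_one', cls_one]

end CfsgLib.Core.LieGr
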