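import Cfsg.Prelude.Def_Solvable
import Cfsg.Agent.Lib.CoreHallHigmanFixed
import Cfsg.Agent.Lib.CoreThompsonFpf
import Cfsg.Agent.Lib.CoreFrobenius

/-!
# A fixed-point-free operator of prime order with one line of fixed vectors
-/

set_option autoImplicit false

universe u

namespace CfsgLib.Core.OneFixedLine

open Subgroup CfsgLib.Core.HallHigmanFixed
open scoped commutatorElement

theorem commutator_trivial {N : Type u} [Group N] [Finite N] [Group.IsNilpotent N] {V : Type*}
    [CommGroup V] [Finite V] {ℓ : ℕ} [hl : Fact ℓ.Prime] (hV : ∀ v : V, v ^ ℓ = 1)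
    (hlN : ¬ ℓ ∣ Nat.card N) (f : N →* MulAut V) (a : MulAut N) (A : MulAut V) {r : ℕ}
    (hr : r.Prime) (hrl : r ≠ ℓ) (hA : A ^ r = 1) (hcompat : ∀ m, f (a m) = A * f m * A⁻¹)
    (hfpf : ∀ m, a m = m → m = 1) (hfix : Nat.card {v : V // A v = v} ≤ ℓ) :
    ∀ m ∈ commutator N, f m = 1 := by
  classical
  haveI : Finite (MulAut V) := Finite.of_injective (fun g : MulAut V => (g : V → V))
    DFunLike.coe_injective
  let K := AlgebraicClosure (ZMod ℓ)
  haveI : CharP K ℓ := charP_of_injective_algebraMap (algebraMap (ZMod ℓ) K).injective ℓ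
  have hne : ∀ {n : ℕ}, ¬ ℓ ∣ n → (n : K) ≠ 0 := fun hn h =>
    hn ((CharP.cast_eq_zero_iff K ℓ _).mp h)
  haveI : FiniteDimensional K (Additive V →+ K) := by
    haveI : Fintype (Additive V) := Fintype.ofFinite _
    exact Module.Finite.of_injective
      ({ toFun := fun φ => (φ : Additive V → K), map_add' := fun _ _ => rfl,
         map_smul' := fun _ _ => rfl } : (Additive V →+ K) →ₗ[K] (Additive V → K))
      DFunLike.coe_injective
  let T : MulAut V →* Module.End K (Additive V →+ K) := rep K (MonoidHom.id (MulAut V))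
  have hT : ∀ g φ (v : Additive V), T g φ v = φ (Additive.ofMul (g⁻¹ v.toMul)) := fun g φ v => rfl
  have hTinj : ∀ g, T g = 1 → g = 1 := by
    intro g hg
    refine MulEquiv.ext fun w => ?_
    by_contra hw
    letI : Module (ZMod ℓ) (Additive V) := AddCommGroup.zmodModule fun v => by
      show Additive.ofMul (v.toMul ^ ℓ) = 0
      rw [hV]; rfl
    obtain ⟨ψ, hψ⟩ : ∃ ψ : Additive V →+ ZMod ℓ, ψ (Additive.ofMul (g w) - Additive.ofMul w) ≠ 0 := by
      by_contra! h
      exact hw (Additive.ofMul.injective (sub_eq_zero.mp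
        ((Module.forall_dual_apply_eq_zero_iff (ZMod ℓ) _).mp fun χ => h χ.toAddMonoidHom)))
    have h1 := congrArg (fun S : Module.End K (Additive V →+ K) =>
      S ((algebraMap (ZMod ℓ) K).toAddMonoidHom.comp ψ) (Additive.ofMul (g w))) hg
    simp only [hT, toMul_ofMul, Module.End.one_apply, AddMonoidHom.comp_apply] at h1
    rw [← MulAut.mul_apply, inv_mul_cancel, MulAut.one_apply] at h1
    refine hψ ((algebraMap (ZMod ℓ) K).injective ?_)
    rw [map_zero, map_sub, map_sub]
    exact sub_eq_zero.mpr h1.symm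
  -- fixed functionals are determined by their value at one vector
  have hline : ∀ φ ψ : Additive V →+ K, T A φ = φ → T A ψ = ψ → ψ ≠ 0 → ∃ c : K, φ = c • ψ := by
    have hinv : ∀ χ : Additive V →+ K, T A χ = χ → ∀ w : V,
        χ (Additive.ofMul (A w)) = χ (Additive.ofMul w) := fun χ hχ w => by
      have h := congrArg (fun χ' : Additive V →+ K => χ' (Additive.ofMul (A w))) hχ
      simp only [hT, toMul_ofMul] at h
      rw [← MulAut.mul_apply, inv_mul_cancel, MulAut.one_apply] at h
      exact h.symm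
    let F : Subgroup V :=
      { carrier := {v | A v = v}
        one_mem' := map_one A
        mul_mem' := fun {x y} hx hy => by
          show A (x * y) = x * y
          rw [map_mul, show A x = x from hx, show A y = y from hy]
        inv_mem' := fun {x} hx => by
          show A x⁻¹ = x⁻¹
          rw [map_inv, show A x = x from hx] }
    have hnorm : ∀ v : V, (∏ i ∈ Finset.range r, (A ^ i) v) ∈ F := by
      intro v
      show A _ = _
      rw [map_prod]
      have h1 : ∀ i, A ((A ^ i) v) = (A ^ (i + 1)) v := fun i => by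
        rw [pow_succ', MulAut.mul_apply]
      simp only [h1]
      cases r with
      | zero => simp
      | succ r => rw [Finset.prod_range_succ, Finset.prod_range_succ' (fun i => (A ^ i) v), hA,
          pow_zero]
    have hzero : ∀ χ : Additive V →+ K, T A χ = χ → (∀ v ∈ F, χ (Additive.ofMul v) = 0) → χ = 0 := by
      intro χ hχ h
      refine AddMonoidHom.ext fun v => ?_
      have hAi : ∀ i : ℕ, χ (Additive.ofMul ((A ^ i) v.toMul)) = χ v := by
        intro i
        induction i with
        | zero => simp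
        | succ i ih => rw [pow_succ', MulAut.mul_apply, hinv χ hχ, ih]
      have h1 := h _ (hnorm v.toMul)
      rw [ofMul_prod, map_sum, Finset.sum_congr rfl fun i _ => hAi i, Finset.sum_const, Finset.card_range,
        nsmul_eq_mul, mul_eq_zero] at h1
      exact h1.resolve_left (hne fun hd =>
        hrl ((Nat.prime_dvd_prime_iff_eq hl.out hr).mp hd).symm)
    intro φ ψ hφ hψ hψ0
    obtain ⟨c, hcF, hc⟩ : ∃ c ∈ F, ψ (Additive.ofMul c) ≠ 0 := by
      by_contra! h
      exact hψ0 (hzero ψ hψ h)
    refine ⟨φ (Additive.ofMul c) / ψ (Additive.ofMul c), ?_⟩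
    rw [← sub_eq_zero]
    refine hzero _ (by rw [map_sub, map_smul, hφ, hψ]) fun v hv => ?_
    have hoc : orderOf c = ℓ := orderOf_eq_prime (hV c) fun h => hc (by rw [h, ofMul_one, map_zero])
    have hFz : zpowers c = F := Subgroup.eq_of_le_of_card_ge (zpowers_le.mpr hcF)
      (by rw [Nat.card_zpowers, hoc]; exact hfix)
    obtain ⟨i, rfl⟩ := mem_zpowers_iff.mp (hFz.ge hv)
    rw [AddMonoidHom.sub_apply, AddMonoidHom.smul_apply, ofMul_zpow, map_zsmul, map_zsmul,
      smul_eq_mul, zsmul_eq_mul, zsmul_eq_mul]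
    rw [show ∀ p q t : K, p / q * (t * q) = t * (p / q * q) from fun p q t => by ring,
      div_mul_cancel₀ _ hc, sub_self]
  intro m₁ hm₁
  by_contra hfm
  -- the last term of the series acting non-trivially
  let L : ℕ → Subgroup N := fun i => (⊤ : Subgroup N).lowerCentralSeries i
  have hL1 : L 1 = commutator N := rfl
  obtain ⟨c, hc⟩ := (Subgroup.isNilpotent_iff_lowerCentralSeries (⊤ : Subgroup N)).1
    (inferInstance : Group.IsNilpotent (⊤ : Subgroup N))
  have hex : ∃ i, ∀ y ∈ L i, f y = 1 := ⟨c, fun y hy => by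
    have hy1 : y ∈ (⊥ : Subgroup N) := hc ▸ hy
    rw [mem_bot.mp hy1, map_one]⟩
  obtain ⟨n, hn⟩ : ∃ n, Nat.find hex = n + 2 := by
    refine Nat.exists_eq_add_of_le' ((Nat.le_find_iff _ _).mpr fun i hi hall => ?_)
    rcases (show i = 0 ∨ i = 1 by omega) with rfl | rfl
    · exact hfm (hall m₁ (mem_top m₁))
    · exact hfm (hall m₁ (hL1 ▸ hm₁))
  have hspec := Nat.find_spec hex
  rw [hn] at hspec
  have hmin := Nat.find_min hex (show n + 1 < Nat.find hex by omega)
  push_neg at hmin
  obtain ⟨y₀, hy₀, hfy₀⟩ := hmin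
  have hMsub : L (n + 1) ≤ commutator N := by
    clear hy₀ hspec hn
    induction n with
    | zero => exact le_rfl
    | succ n ih =>
      show ⁅L (n + 1), (⊤ : Subgroup N)⁆ ≤ commutator N
      exact commutator_mono le_top le_top
  have hinvL : ∀ i, (L i).map a.toMonoidHom ≤ L i := by
    intro i
    induction i with
    | zero => exact le_top
    | succ i ih =>
      show (⁅L i, (⊤ : Subgroup N)⁆).map a.toMonoidHom ≤ ⁅L i, (⊤ : Subgroup N)⁆
      rw [map_commutator]
      exact commutator_mono ih le_top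
  set M := (L (n + 1)).map f with hM
  have hcent : ∀ x ∈ M, ∀ g : N, x * f g = f g * x := by
    rintro _ ⟨y, hy, rfl⟩ g
    rw [← map_mul, ← map_mul, ← mul_inv_eq_one, ← map_inv, ← map_mul]
    exact hspec _ (by
      have h := commutator_mem_commutator hy (mem_top g)
      rw [show y * g * (g * y)⁻¹ = ⁅y, g⁆ by rw [commutatorElement_def]; group]
      exact h)
  have hMcomm : ∀ x ∈ M, ∀ y ∈ M, x * y = y * x := by
    rintro x hx _ ⟨y, -, rfl⟩
    exact hcent x hx y
  have hMA : ∀ x ∈ M, ∀ i : ℕ, A ^ i * x * (A ^ i)⁻¹ ∈ M := by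
    rintro x hx i
    induction i with
    | zero => simpa using hx
    | succ i ih =>
      obtain ⟨y, hy, he⟩ := ih
      refine ⟨a y, hinvL _ (mem_map_of_mem _ hy), ?_⟩
      rw [hcompat, he, pow_succ']
      group
  have hMk : (Nat.card M : K) ≠ 0 := hne fun hd => hlN (hd.trans ((Subgroup.card_dvd_of_le
    (map_le_range f (L (n + 1)))).trans (card_range_dvd f)))
  obtain ⟨χ, ⟨u, hu0, hu⟩, hχne⟩ := CfsgLib.S3Fpf.exists_weight_ne T M hMcomm hMk
    ⟨f y₀, mem_map_of_mem f hy₀⟩ (fun h => hfy₀ (hTinj _ h))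
  let χi : ℕ → (M →* Kˣ) := fun i =>
    { toFun := fun m => χ ⟨A ^ i * m * (A ^ i)⁻¹, hMA m m.2 i⟩
      map_one' := by
        convert map_one χ using 2
        exact Subtype.ext (by simp)
      map_mul' := fun x y => by
        rw [← map_mul]
        refine congrArg χ (Subtype.ext ?_)
        simp [mul_assoc] }
  have hinj : Set.InjOn χi (Finset.range r : Set ℕ) := by
    have key : ∀ i j, i < j → j < r → χi i ≠ χi j := by
      intro i j hij hj heq
      have hd : ∀ m : M, χ ⟨A ^ (j - i) * m * (A ^ (j - i))⁻¹, hMA m m.2 _⟩ = χ m := by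
        intro m
        have hri : A ^ i * A ^ (r - i) = 1 := by rw [← pow_add, Nat.add_sub_cancel' (by omega), hA]
        have h := DFunLike.congr_fun heq ⟨_, hMA m m.2 (r - i)⟩
        refine (Eq.trans ?_ h.symm).trans ?_
        · refine congrArg χ (Subtype.ext ?_)
          show _ = A ^ j * (A ^ (r - i) * (m : MulAut V) * (A ^ (r - i))⁻¹) * (A ^ j)⁻¹
          have : A ^ j * A ^ (r - i) = A ^ (j - i) := by
            conv_lhs => rw [← Nat.sub_add_cancel hij.le, pow_add, mul_assoc, hri, mul_one]
          show A ^ (j - i) * (m : MulAut V) * (A ^ (j - i))⁻¹ = _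
          rw [← this]
          group
        · refine congrArg χ (Subtype.ext ?_)
          show A ^ i * (A ^ (r - i) * (m : MulAut V) * (A ^ (r - i))⁻¹) * (A ^ i)⁻¹ = m
          rw [show A ^ i * (A ^ (r - i) * (m : MulAut V) * (A ^ (r - i))⁻¹) * (A ^ i)⁻¹ =
            (A ^ i * A ^ (r - i)) * m * (A ^ i * A ^ (r - i))⁻¹ by group, hri]
          group
      have hmul : ∀ (c : ℕ) (m : M), χ ⟨A ^ (c * (j - i)) * m * (A ^ (c * (j - i)))⁻¹, hMA m m.2 _⟩ = χ m := by
        intro c
        induction c with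
        | zero => intro m; exact congrArg χ (Subtype.ext (by simp))
        | succ c ih =>
          intro m
          rw [← hd m, ← ih ⟨_, hMA m m.2 (j - i)⟩]
          refine congrArg χ (Subtype.ext ?_)
          show _ = A ^ (c * (j - i)) * (A ^ (j - i) * (m : MulAut V) * (A ^ (j - i))⁻¹) *
            (A ^ (c * (j - i)))⁻¹
          show A ^ ((c + 1) * (j - i)) * (m : MulAut V) * (A ^ ((c + 1) * (j - i)))⁻¹ = _
          rw [Nat.succ_mul, pow_add]
          group
      obtain ⟨c, hc⟩ := Nat.exists_mul_mod_eq_one_of_coprime (n := j - i) (k := r)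
        ((hr.coprime_iff_not_dvd.2 (Nat.not_dvd_of_pos_of_lt (by omega) (by omega))).symm) hr.one_lt
      have hA1 : A ^ (c * (j - i)) = A := by
        rw [pow_eq_pow_mod _ hA, mul_comm, hc.2, pow_one]
      -- every element of `M` is a commutator with the operator
      have hsurj : ∃ z ∈ L (n + 1), z⁻¹ * a z = y₀ := by
        let g : L (n + 1) → L (n + 1) := fun z =>
          ⟨(z : N)⁻¹ * a z, mul_mem (inv_mem z.2) (hinvL _ (mem_map_of_mem _ z.2))⟩
        have hg : Function.Injective g := by
          intro x y h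
          have h1 : (x : N)⁻¹ * a x = (y : N)⁻¹ * a y := congrArg Subtype.val h
          have h2 := hfpf ((y : N) * (x : N)⁻¹) (by
            rw [map_mul, map_inv]
            calc a y * (a x)⁻¹ = y * ((y : N)⁻¹ * a y) * ((x : N)⁻¹ * a x)⁻¹ * (x : N)⁻¹ := by group
              _ = (y : N) * (x : N)⁻¹ := by rw [h1]; group)
          exact Subtype.ext (mul_inv_eq_one.mp h2).symm
        obtain ⟨z, hz⟩ := (Finite.injective_iff_surjective.mp hg) ⟨y₀, hy₀⟩
        exact ⟨z, z.2, congrArg Subtype.val hz⟩
      obtain ⟨z, hz, hzy⟩ := hsurj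
      refine hχne ?_
      have h1 := hmul c ⟨f z, mem_map_of_mem f hz⟩
      simp only [hA1] at h1
      rw [show (⟨f y₀, mem_map_of_mem f hy₀⟩ : M) = (⟨f z, mem_map_of_mem f hz⟩ : M)⁻¹ *
        ⟨A * f z * A⁻¹, by have := hMA _ (mem_map_of_mem f hz) 1; rwa [pow_one] at this⟩ from
        Subtype.ext (by
          show f y₀ = (f z)⁻¹ * (A * f z * A⁻¹)
          rw [← hcompat, ← map_inv, ← map_mul, hzy]), map_mul, map_inv, h1, inv_mul_cancel]
    intro i hi j hj h
    simp only [Finset.coe_range, Set.mem_Iio] at hi hj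
    rcases lt_trichotomy i j with hlt | rfl | hlt
    · exact absurd h (key i j hlt hj)
    · rfl
    · exact absurd h.symm (key j i hlt hi)
  -- the weight space is a line
  have hsfix : ∀ w, T A (∑ i ∈ Finset.range r, T (A ^ i)⁻¹ w) = ∑ i ∈ Finset.range r, T (A ^ i)⁻¹ w := by
    intro w
    have hy : T A⁻¹ (∑ i ∈ Finset.range r, T (A ^ i)⁻¹ w) = ∑ i ∈ Finset.range r, T (A ^ i)⁻¹ w := by
      rw [map_sum]
      have h1 : ∀ i, T A⁻¹ (T (A ^ i)⁻¹ w) = T (A ^ (i + 1))⁻¹ w := fun i => by
        rw [← Module.End.mul_apply, ← map_mul, pow_succ, mul_inv_rev]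
      simp only [h1]
      cases r with
      | zero => simp
      | succ r => rw [Finset.sum_range_succ, Finset.sum_range_succ' (fun i => T (A ^ i)⁻¹ w), hA,
          pow_zero]
    conv_lhs => rw [← hy]
    rw [← Module.End.mul_apply, ← map_mul, mul_inv_cancel, map_one, Module.End.one_apply]
  have hsinj : ∀ w, (∀ m : M, T (m : MulAut V) w = (χ m : K) • w) →
      ∑ i ∈ Finset.range r, T (A ^ i)⁻¹ w = 0 → w = 0 := by
    intro w hw hs0
    let v : (M →* Kˣ) → (Additive V →+ K) := fun ψ =>
      ∑ i ∈ (Finset.range r).filter (fun i => χi i = ψ), T (A ^ i)⁻¹ w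
    have hv : ∀ i ∈ Finset.range r, v (χi i) = T (A ^ i)⁻¹ w := by
      intro i hi
      show ∑ l ∈ (Finset.range r).filter (fun l => χi l = χi i), T (A ^ l)⁻¹ w = _
      refine Finset.sum_eq_single_of_mem i (Finset.mem_filter.2 ⟨hi, rfl⟩) ?_
      intro l hl hli
      exact absurd (hinj (Finset.mem_coe.2 (Finset.mem_filter.1 hl).1) (Finset.mem_coe.2 hi)
        (Finset.mem_filter.1 hl).2) hli
    have h0 := CfsgLib.S3Fpf.eigen_indep T M ((Finset.range r).image χi) v
      (fun ψ hψ m => by
        obtain ⟨i, hi, rfl⟩ := Finset.mem_image.1 hψ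
        rw [hv i hi]
        show T (m : MulAut V) (T (A ^ i)⁻¹ w) = (χ ⟨A ^ i * m * (A ^ i)⁻¹, hMA m m.2 i⟩ : K) • _
        rw [← map_smul, ← hw, ← Module.End.mul_apply, ← Module.End.mul_apply, ← map_mul, ← map_mul]
        congr 2
        simp [mul_assoc])
      (by rw [Finset.sum_image hinj, Finset.sum_congr rfl hv, hs0])
      (χi 0) (Finset.mem_image_of_mem _ (Finset.mem_range.2 hr.pos))
    rw [hv 0 (Finset.mem_range.2 hr.pos), pow_zero, inv_one, map_one, Module.End.one_apply] at h0
    exact h0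
  have hscal : ∀ g : N, ∃ d : K, T (f g) u = d • u := by
    intro g
    have hw : ∀ m : M, T (m : MulAut V) (T (f g) u) = (χ m : K) • T (f g) u := fun m => by
      rw [← Module.End.mul_apply, ← map_mul, hcent _ m.2 g, map_mul, Module.End.mul_apply, hu m,
        map_smul]
    obtain ⟨d, hd⟩ := hline _ _ (hsfix (T (f g) u)) (hsfix u) fun h => hu0 (hsinj u hu h)
    refine ⟨d, sub_eq_zero.mp (hsinj _ (fun m => ?_) ?_)⟩
    · rw [map_sub, map_smul, hw, hu, smul_sub, smul_comm]
    · simp only [map_sub, map_smul, Finset.sum_sub_distrib, ← Finset.smul_sum, hd, sub_self]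
  have htriv : ∀ y ∈ commutator N, T (f y) u = u := by
    let S : Subgroup N :=
      { carrier := {y | T (f y) u = u}
        one_mem' := by show T (f 1) u = u; rw [map_one, map_one, Module.End.one_apply]
        mul_mem' := fun {x y} hx hy => by
          show T (f (x * y)) u = u
          rw [map_mul, map_mul, Module.End.mul_apply, show T (f y) u = u from hy,
            show T (f x) u = u from hx]
        inv_mem' := fun {x} hx => by
          show T (f x⁻¹) u = u
          conv_lhs => rw [← show T (f x) u = u from hx]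
          rw [← Module.End.mul_apply, ← map_mul, ← map_mul, inv_mul_cancel, map_one, map_one,
            Module.End.one_apply] }
    have : commutator N ≤ S := by
      rw [_root_.commutator_def, commutator_le]
      intro g _ h _
      show T (f ⁅g, h⁆) u = u
      obtain ⟨d, hd⟩ := hscal g⁻¹
      obtain ⟨e, he⟩ := hscal h⁻¹
      have hgh : T (f (g⁻¹ * h⁻¹)) u = T (f (h⁻¹ * g⁻¹)) u := by
        simp only [map_mul, Module.End.mul_apply, hd, he, map_smul]
        rw [smul_comm]
      have : T (f ⁅g, h⁆) u = T (f (g * h)) (T (f (g⁻¹ * h⁻¹)) u) := by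
        rw [← Module.End.mul_apply, ← map_mul, ← map_mul, commutatorElement_def]
        simp only [mul_assoc]
      rw [this, hgh, ← Module.End.mul_apply, ← map_mul, ← map_mul]
      simp
    exact fun y hy => this hy
  refine hχne (Units.ext ?_)
  have h1 := hu ⟨f y₀, mem_map_of_mem f hy₀⟩
  rw [htriv y₀ (hMsub hy₀)] at h1
  exact (smul_left_injective K hu0 ((one_smul K u).trans h1)).symm

end CfsgLib.Core.OneFixedLine
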