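import Cfsg.Agent.Lib.CoreFrobeniusOrder
import Cfsg.Agent.Lib.CoreFpfComplement

/-!
# Order types of Frobenius groups and their complements
-/

set_option autoImplicit false

open Subgroup

namespace CfsgLib.Core

universe u v

private theorem eq_of_split {a b c e n t : ℕ} (h1 : a * b = n) (h2 : c * e = n)
    (ha : ∀ p : ℕ, p.Prime → p ∣ a → t ≤ p) (hb : ∀ p : ℕ, p.Prime → p ∣ b → p < t)
    (hc : ∀ p : ℕ, p.Prime → p ∣ c → t ≤ p) (he : ∀ p : ℕ, p.Prime → p ∣ e → p < t) : a = c := by
  refine Nat.dvd_antisymm ?_ ?_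
  · refine (Nat.coprime_of_dvd' (m := a) (n := e) fun p hp hpa hpe => ?_).dvd_of_dvd_mul_right
      (h2 ▸ Dvd.intro b h1)
    exact absurd (he p hp hpe) (not_lt.2 (ha p hp hpa))
  · refine (Nat.coprime_of_dvd' (m := c) (n := b) fun p hp hpc hpb => ?_).dvd_of_dvd_mul_right
      (h1 ▸ Dvd.intro e h2)
    exact absurd (hb p hp hpb) (not_lt.2 (hc p hp hpc))

/-- A tower of normal Hall subgroups passes to a group of the same order type. -/
theorem exists_solvable_upper {C : Type u} {D : Type v} [Group C] [Finite C] [Group D] [Finite D]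
    (t₀ : ℕ) (ht₀ : 2 ≤ t₀) (hall : ∀ t, t₀ ≤ t → ∃ N : Subgroup C, N.Normal ∧
      (∀ p : ℕ, p.Prime → p ∣ Nat.card N → t ≤ p) ∧ ∀ p : ℕ, p.Prime → p ∣ N.index → p < t)
    (e : C ≃ D) (he : ∀ x, orderOf (e x) = orderOf x) :
    ∃ M : Subgroup D, M.Normal ∧ Group.IsSolvable M ∧ ∀ p : ℕ, p.Prime → p ∣ M.index → p < t₀ := by
  classical
  set n := Nat.card D with hn
  have hnC : Nat.card C = n := Nat.card_congr e
  have main : ∀ k t, t₀ ≤ t → n < t + k → ∃ M : Subgroup D, M.Normal ∧ Group.IsSolvable M ∧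
      (∀ p : ℕ, p.Prime → p ∣ Nat.card M → t ≤ p) ∧ ∀ p : ℕ, p.Prime → p ∣ M.index → p < t := by
    intro k
    induction k with
    | zero =>
      intro t _ hnt
      refine ⟨⊥, inferInstance, inferInstance, fun p hp hd => absurd hd (by simp [hp.ne_one]),
        fun p hp hd => ?_⟩
      rw [Subgroup.index_bot] at hd
      exact (Nat.le_of_dvd Nat.card_pos hd).trans_lt (by omega)
    | succ k ih =>
      intro t ht hnt
      obtain ⟨M, hMn, hMs, hM1, hM2⟩ := ih (t + 1) (by omega) (by omega)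
      by_cases hpr : t.Prime ∧ t ∣ n
      swap
      · exact ⟨M, hMn, hMs, fun p hp hd => (Nat.le_succ t).trans (hM1 p hp hd), fun p hp hd =>
          lt_of_le_of_ne (Nat.lt_succ_iff.1 (hM2 p hp hd))
            (fun e' => hpr ⟨e' ▸ hp, e' ▸ hd.trans (Subgroup.index_dvd_card M)⟩)⟩
      obtain ⟨htp, htn⟩ := hpr
      haveI := Fact.mk htp
      obtain ⟨R⟩ : Nonempty (Sylow t D) := inferInstance
      haveI := hMn
      set M' := (R : Subgroup D) ⊔ M with hM'
      have hcop : (Nat.card (R : Subgroup D)).Coprime (Nat.card M) := by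
        rw [Sylow.card_eq_multiplicity]
        exact Nat.Coprime.pow_left _ (htp.coprime_iff_not_dvd.2 fun hd => by
          have := hM1 t htp hd; omega)
      have hcard : Nat.card M' = Nat.card (R : Subgroup D) * Nat.card M :=
        card_sup_of_disjoint (le_normalizer_normal _) (inf_eq_bot_of_coprime hcop)
      have h1 : ∀ p : ℕ, p.Prime → p ∣ Nat.card M' → t ≤ p := fun p hp hd => by
        rw [hcard, Sylow.card_eq_multiplicity] at hd
        rcases hp.dvd_mul.1 hd with h | h
        · exact ((Nat.prime_dvd_prime_iff_eq hp htp).1 (hp.dvd_of_dvd_pow h)).ge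
        · exact (Nat.le_succ t).trans (hM1 p hp h)
      have h2 : ∀ p : ℕ, p.Prime → p ∣ M'.index → p < t := fun p hp hd => by
        refine lt_of_le_of_ne (Nat.lt_succ_iff.1 (hM2 p hp (hd.trans (index_dvd_of_le le_sup_right)))) ?_
        intro e'
        exact R.not_dvd_index ((dvd_of_eq e'.symm).trans (hd.trans (index_dvd_of_le le_sup_left)))
      obtain ⟨N, hNn, hN1, hN2⟩ := hall t ht
      have hdeq : Nat.card N = Nat.card M' :=
        eq_of_split (N.card_mul_index.trans hnC) M'.card_mul_index hN1 hN2 h1 h2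
      haveI := hNn
      have hNc : (Nat.card N).Coprime N.index := Nat.coprime_of_dvd' fun p hp ha hb =>
        absurd (hN2 p hp hb) (not_lt.2 (hN1 p hp ha))
      have hcnt : Nat.card {x : D // orderOf x ∣ Nat.card M'} = Nat.card M' := by
        rw [← Nat.card_congr (e.subtypeEquiv (p := fun x => orderOf x ∣ Nat.card M')
          (q := fun x => orderOf x ∣ Nat.card M') fun x => by rw [he]), ← hdeq]
        exact card_orderOf_dvd hNc
      haveI hM'n : M'.Normal := (normal_of_card_orderOf_dvd rfl hcnt).1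
      refine ⟨M', hM'n, ?_, h1, h2⟩
      have hle : M ≤ M' := le_sup_right
      haveI : Group.IsSolvable (M.subgroupOf M') := solvable_subgroupOf M' hMs
      haveI : IsPGroup t (↥M' ⧸ M.subgroupOf M') := by
        refine IsPGroup.of_card (n := (Nat.card D).factorization t) ?_
        have h3 := (M.subgroupOf M').index_mul_card
        rw [Nat.card_congr (subgroupOfEquivOfLe hle).toEquiv, hcard] at h3
        rw [← Sylow.card_eq_multiplicity R]
        exact Nat.eq_of_mul_eq_mul_right Nat.card_pos h3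
      haveI : Group.IsNilpotent (↥M' ⧸ M.subgroupOf M') := IsPGroup.isNilpotent ‹_›
      exact Group.isSolvable_of_ker_le_range (M.subgroupOf M').subtype
        (QuotientGroup.mk' (M.subgroupOf M')) (by simp)
  obtain ⟨M, hMn, hMs, -, hM2⟩ := main (n + 1) t₀ le_rfl (by omega)
  exact ⟨M, hMn, hMs, hM2⟩

/-- Solubility of a group with almost cyclic Sylow subgroups is determined by its order type. -/
theorem isSolvable_of_orderType {C : Type u} {D : Type v} [Group C] [Finite C] [Group D] [Finite D]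
    [Group.IsSolvable C] (hC : SylSmall C) (e : C ≃ D) (he : ∀ x, orderOf (e x) = orderOf x) :
    Group.IsSolvable D := by
  classical
  obtain ⟨M, hMn, hMs, hM2⟩ := exists_solvable_upper 5 (by norm_num)
    (fun t ht => SylSmall.exists_upper_hall ht _ C rfl hC) e he
  haveI := hMn
  haveI := hMs
  haveI : Group.IsSolvable (D ⧸ M) := by
    have hi : M.index ≠ 0 := index_ne_zero_of_finite
    have key : M.index = 2 ^ M.index.factorization 2 * 3 ^ M.index.factorization 3 := by
      conv_lhs => rw [← Nat.prod_factorization_pow_eq_self hi]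
      rw [Finsupp.prod_of_support_subset _ (s := {2, 3}) ?_ _ (fun _ _ => pow_zero _)]
      · simp
      · intro p hp
        rw [Nat.support_factorization, Nat.mem_primeFactors] at hp
        have := hM2 p hp.1 hp.2.1
        have := hp.1.two_le
        interval_cases p
        · simp
        · simp
        · exact absurd hp.1 (by norm_num)
    exact CfsgLib.Char.burnside_pq Nat.prime_two Nat.prime_three M.index (D ⧸ M) _ _
      (by rw [Subgroup.index_eq_card]) key
  exact Group.isSolvable_of_ker_le_range M.subtype (QuotientGroup.mk' M) (by simp)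

variable {G : Type u} [Group G]

/-- No element of mixed order gives a freely acting outside. -/
theorem free_of_no_mixed [Finite G] {K : Subgroup G} [K.Normal] (hc : (Nat.card K).Coprime K.index)
    (hno : ∀ a q : ℕ, 1 < a → a ∣ Nat.card K → q.Prime → q ∣ K.index → ∀ g : G, orderOf g ≠ q * a)
    {x v : G} (hx : x ∉ K) (hv : v ∈ K) (hxv : Commute x v) : v = 1 := by
  by_contra hv1
  set o := orderOf (QuotientGroup.mk' K x)
  have ho : o ≠ 1 := fun h => hx ((QuotientGroup.eq_one_iff x).1 (orderOf_eq_one_iff.1 h))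
  obtain ⟨q, hq, hqo⟩ := Nat.exists_prime_and_dvd ho
  have hqi : q ∣ K.index := hqo.trans (orderOf_dvd_natCard _)
  have hqx : q ∣ orderOf x := hqo.trans (orderOf_map_dvd _ x)
  have hy : orderOf (x ^ (orderOf x / q)) = q := by
    rw [orderOf_pow_of_dvd (Nat.div_pos (Nat.le_of_dvd (orderOf_pos x) hqx) hq.pos).ne'
      (Nat.div_dvd_of_dvd hqx), Nat.div_div_self hqx (orderOf_pos x).ne']
  have hvd : orderOf v ∣ Nat.card K := orderOf_dvd_natCard K hv
  have hv2 : 1 < orderOf v := by
    have := orderOf_pos v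
    have : orderOf v ≠ 1 := fun h => hv1 (orderOf_eq_one_iff.1 h)
    omega
  refine hno _ q hv2 hvd hq hqi (x ^ (orderOf x / q) * v) ?_
  rw [(hxv.pow_left _).orderOf_mul_eq_mul_orderOf_of_coprime, hy]
  rw [hy]
  exact hq.coprime_iff_not_dvd.2 fun hd => hq.ne_one
    (Nat.eq_one_of_dvd_coprimes hc (hd.trans hvd) hqi)

/-- A freely acting outside forbids mixed orders. -/
theorem no_mixed_of_free [Finite G] {K : Subgroup G} [K.Normal] (hc : (Nat.card K).Coprime K.index)
    (hfree : ∀ x v : G, x ∉ K → v ∈ K → Commute x v → v = 1) (a q : ℕ) (ha : 1 < a)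
    (haK : a ∣ Nat.card K) (hq : q.Prime) (hqi : q ∣ K.index) (g : G) : orderOf g ≠ q * a := by
  intro hg
  have hx : g ^ a ∉ K := by
    intro h
    have h1 := orderOf_dvd_natCard K h
    rw [orderOf_pow_of_dvd (by omega) (hg ▸ dvd_mul_left a q), hg, Nat.mul_div_cancel _ (by omega)] at h1
    exact hq.ne_one (Nat.eq_one_of_dvd_coprimes hc h1 hqi)
  have hv : g ^ q ∈ K := by
    refine mem_of_orderOf_dvd hc ?_
    rw [orderOf_pow_of_dvd hq.ne_zero (hg ▸ dvd_mul_right q a), hg, Nat.mul_div_cancel_left _ hq.pos]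
    exact haK
  have h2 := hfree _ _ hx hv ((Commute.refl g).pow_pow a q)
  have h3 := orderOf_dvd_of_pow_eq_one h2
  rw [hg] at h3
  have := Nat.le_of_dvd hq.pos h3
  nlinarith [hq.two_le]

/-- Order of a product outside the kernel. -/
theorem orderOf_mul_of_free [Finite G] {K H : Subgroup G} [hK : K.Normal] (hd : K ⊓ H = ⊥)
    (hfree : ∀ x v : G, x ∉ K → v ∈ K → Commute x v → v = 1) {k c : G} (hk : k ∈ K) (hc : c ∈ H)
    (hc1 : c ≠ 1) : orderOf (k * c) = orderOf c := by
  have himg : QuotientGroup.mk' K (k * c) = QuotientGroup.mk' K c := by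
    rw [map_mul, show QuotientGroup.mk' K k = 1 from (QuotientGroup.eq_one_iff k).2 hk, one_mul]
  have hcK : ∀ i : ℕ, c ^ i ∈ K → c ^ i = 1 := fun i h =>
    Subgroup.mem_bot.1 (hd ▸ ⟨h, pow_mem hc i⟩)
  have hkc : ∀ i : ℕ, (k * c) ^ i ∈ K ↔ c ^ i ∈ K := fun i => by
    rw [← QuotientGroup.eq_one_iff, ← QuotientGroup.eq_one_iff]
    show QuotientGroup.mk' K ((k * c) ^ i) = 1 ↔ QuotientGroup.mk' K (c ^ i) = 1
    rw [map_pow, map_pow, himg]
  refine Nat.dvd_antisymm (orderOf_dvd_of_pow_eq_one ?_) (orderOf_dvd_of_pow_eq_one ?_)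
  · refine hfree (k * c) _ (fun h => hc1 ?_) ((hkc _).2 (by rw [pow_orderOf_eq_one]; exact one_mem _))
      ((Commute.refl _).pow_right _)
    have := hcK 1 (by rw [pow_one]; exact pow_one c ▸ (hkc 1).1 (by rw [pow_one]; exact h))
    rwa [pow_one] at this
  · exact hcK _ ((hkc _).1 (by rw [pow_orderOf_eq_one]; exact one_mem _))

/-- The order type of a freely acting complement. -/
theorem card_orderOf_complement [Finite G] {K H : Subgroup G} [K.Normal] (hc : IsComplement' K H)
    (hcop : (Nat.card K).Coprime (Nat.card H))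
    (hfree : ∀ x v : G, x ∉ K → v ∈ K → Commute x v → v = 1) {m : ℕ} (hm : 1 < m)
    (hmH : m ∣ Nat.card H) :
    Nat.card {g : G // orderOf g = m} = Nat.card K * Nat.card {c : H // orderOf c = m} := by
  rw [← Nat.card_prod]
  symm
  have hd : K ⊓ H = ⊥ := disjoint_iff.1 hc.disjoint
  have hne : ∀ c : H, orderOf c = m → (c : G) ≠ 1 := fun c h e => by
    rw [← orderOf_coe, e, orderOf_one] at h; omega
  refine Nat.card_congr (Equiv.ofBijective (fun p : K × {c : H // orderOf c = m} =>
    (⟨(p.1 : G) * (p.2.1 : G), by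
      rw [orderOf_mul_of_free hd hfree p.1.2 p.2.1.2 (hne _ p.2.2), orderOf_coe]
      exact p.2.2⟩ : {g : G // orderOf g = m})) ⟨?_, ?_⟩)
  · rintro ⟨k, c⟩ ⟨k', c'⟩ h
    have h1 : ((k, c.1) : K × H) = (k', c'.1) := hc.1 (Subtype.ext_iff.1 h)
    have h2 := congrArg Prod.fst h1
    exact Prod.ext h2 (Subtype.ext (congrArg Prod.snd h1))
  · rintro ⟨g, hg⟩
    obtain ⟨⟨k, c⟩, rfl⟩ := hc.2 g
    rcases eq_or_ne (c : G) 1 with h1 | h1
    · exfalso
      simp only [h1, mul_one] at hg
      exact absurd (Nat.eq_one_of_dvd_coprimes hcop (hg ▸ orderOf_dvd_natCard K k.2) hmH) (by omega)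
    · refine ⟨⟨k, c, ?_⟩, rfl⟩
      rw [← orderOf_coe, ← orderOf_mul_of_free hd hfree k.2 c.2 h1]
      exact hg

/-- A freely acting complement has almost cyclic Sylow subgroups. -/
theorem sylSmall_of_free [Finite G] {K H : Subgroup G} [K.Normal] (hd : K ⊓ H = ⊥) (hK : K ≠ ⊥)
    (hfree : ∀ x v : G, x ∉ K → v ∈ K → Commute x v → v = 1) : SylSmall H := by
  intro q hq Q hQ
  haveI := Fact.mk hq
  let e := Q.equivMapOfInjective H.subtype H.subtype_injective
  have hQ' : IsPGroup q (Q.map H.subtype) := hQ.map H.subtype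
  rcases cyclic_or_quaternion_of_fpf (K := K) hQ' (le_normalizer_normal _) hK
    (fun a ha ha1 v hv hav => hfree a v (fun haK => ha1 (Subgroup.mem_bot.1
      (hd ▸ ⟨haK, Subgroup.map_subtype_le _ ha⟩))) hv hav) with h | ⟨-, n, ⟨f⟩⟩
  · haveI : IsCyclic Q := e.isCyclic.2 h
    obtain ⟨a, ha⟩ := IsCyclic.exists_generator (α := Q)
    exact ⟨a, by rw [show zpowers a = ⊤ from eq_top_iff.2 fun x _ => ha x, index_top]; exact one_dvd 2⟩
  · haveI : NeZero (2 ^ n) := ⟨by positivity⟩
    set a : Q := (e.trans f).symm (QuaternionGroup.a 1)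
    refine ⟨a, ?_⟩
    have h1 := (zpowers a).index_mul_card
    rw [Nat.card_zpowers, show orderOf a = 2 * 2 ^ n by
      rw [show orderOf a = orderOf (QuaternionGroup.a 1 : QuaternionGroup (2 ^ n)) from
        MulEquiv.orderOf_eq (e.trans f).symm _, QuaternionGroup.orderOf_a_one],
      Nat.card_congr (e.trans f).toEquiv, Nat.card_eq_fintype_card, QuaternionGroup.card] at h1
    exact dvd_of_eq (Nat.eq_of_mul_eq_mul_right (by positivity : 0 < 2 * 2 ^ n) (h1.trans (by ring)))

end CfsgLib.Core
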