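import Cfsg.Prelude.Def_Solvable
import Cfsg.Prelude.Def_Transfer
import Cfsg.Prelude.Def_LocalEven
import Cfsg.Agent.Lib.CoreGen
import Cfsg.Agent.Lib.CoreCoprime2
import Cfsg.Agent.Lib.CoreBasic

/-!
# Small commutator spaces of elementary two-groups give a section of degree three
-/

set_option autoImplicit false

universe u w

namespace CfsgLib.Core.SmallModuleThree

open Subgroup

theorem iso_s3 {G : Type w} [Group G] [Finite G] (h6 : Nat.card G = 6)
    (hna : ¬ ∀ a b : G, a * b = b * a) : Nonempty (G ≃* Equiv.Perm (Fin 3)) := by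
  haveI : Fact (Nat.Prime 2) := ⟨Nat.prime_two⟩
  obtain ⟨t, ht⟩ := exists_prime_orderOf_dvd_card' (G := G) 2 (h6 ▸ by norm_num)
  set H := Subgroup.zpowers t with hH
  have hHc : Nat.card H = 2 := by rw [hH, Nat.card_zpowers, ht]
  have hidx : H.index = 3 := by
    have := Subgroup.card_mul_index H
    rw [hHc, h6] at this
    omega
  have hcore : H.normalCore = ⊥ := by
    rcases (Nat.dvd_prime Nat.prime_two).1 (hHc ▸ Subgroup.card_dvd_of_le H.normalCore_le) with e | e
    · exact Subgroup.eq_bot_of_card_eq _ e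
    · exfalso
      have hHn : H.Normal := by
        have : H.normalCore = H := Subgroup.eq_of_le_of_card_ge H.normalCore_le (by rw [e, hHc])
        exact this ▸ H.normalCore_normal
      -- then `t` is central and `G ⧸ H` is cyclic
      have htc : ∀ g : G, g * t = t * g := by
        intro g
        have hmem := hHn.conj_mem t (Subgroup.mem_zpowers t) g
        obtain ⟨k, hk⟩ := mem_powers_iff_mem_zpowers.2 hmem
        have hk' : t ^ k = g * t * g⁻¹ := hk
        rw [← pow_mod_orderOf, ht] at hk'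
        rcases Nat.mod_two_eq_zero_or_one k with e0 | e1
        · rw [e0, pow_zero] at hk'
          have h2 : t = 1 := conj_eq_one_iff.1 hk'.symm
          rw [h2, orderOf_one] at ht
          exact absurd ht (by norm_num)
        · rw [e1, pow_one] at hk'
          exact (mul_inv_eq_iff_eq_mul.1 hk'.symm)
      apply hna
      haveI := hHn
      haveI : Fact (Nat.Prime 3) := ⟨Nat.prime_three⟩
      haveI : IsCyclic (G ⧸ H) := isCyclic_of_prime_card (p := 3) hidx
      have hcen : (QuotientGroup.mk' H).ker ≤ Subgroup.center G := by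
        rw [QuotientGroup.ker_mk', hH, Subgroup.zpowers_le, Subgroup.mem_center_iff]
        exact htc
      exact commutative_of_cyclic_center_quotient (QuotientGroup.mk' H) hcen
  set φ := MulAction.toPermHom G (G ⧸ H)
  have hinj : Function.Injective φ := by
    rw [← MonoidHom.ker_eq_bot_iff, ← hcore]
    exact (Subgroup.normalCore_eq_ker H).symm
  have hc3 : Nat.card (G ⧸ H) = 3 := hidx
  have hbij : Function.Bijective φ := hinj.bijective_of_nat_card_le (by
    rw [Nat.card_perm, hc3, h6]; decide)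
  obtain ⟨e⟩ : Nonempty (G ⧸ H ≃ Fin 3) := ⟨(Finite.equivFin _).trans (finCongr hc3)⟩
  exact ⟨(MulEquiv.ofBijective φ hbij).trans e.permCongrHom⟩

variable {X : Type u} [Group X] [Finite X]

/-- An automorphism of odd order of a set with at most four points, one of them fixed, has order dividing three. -/
theorem cube_fix {Q : Type*} [Group Q] [Finite Q] (hQ : Nat.card Q ≤ 4) (σ : MulAut Q) {n : ℕ}
    (hn : Odd n) (hσ : σ ^ n = 1) : σ ^ 3 = 1 := by
  classical
  let g : MulAut Q →* Equiv.Perm {q : Q // q ≠ 1} :=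
    { toFun := fun τ =>
        { toFun := fun q => ⟨τ q, fun h => q.2 (by simpa using h)⟩
          invFun := fun q => ⟨τ.symm q, fun h => q.2 (by simpa using h)⟩
          left_inv := fun q => Subtype.ext (τ.symm_apply_apply q)
          right_inv := fun q => Subtype.ext (τ.apply_symm_apply q) }
      map_one' := Equiv.ext fun q => rfl
      map_mul' := fun τ τ' => Equiv.ext fun q => rfl }
  have hinj : Function.Injective g := by
    intro τ τ' h
    refine MulEquiv.ext fun q => ?_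
    by_cases hq : q = 1
    · rw [hq, map_one, map_one]
    · exact congrArg Subtype.val (Equiv.ext_iff.mp h ⟨q, hq⟩)
  have hcard : Nat.card {q : Q // q ≠ 1} ≤ 3 := by
    haveI := Fintype.ofFinite Q
    rw [Nat.card_eq_fintype_card] at hQ ⊢
    have : Fintype.card {q : Q // q ≠ 1} < Fintype.card Q :=
      Fintype.card_subtype_lt (x := (1 : Q)) (fun h => h rfl)
    omega
  have h6 : g σ ^ 6 = 1 := by
    refine orderOf_dvd_iff_pow_eq_one.mp ((orderOf_dvd_natCard (g σ)).trans ?_)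
    rw [Nat.card_perm]
    exact Nat.factorial_dvd_factorial hcard
  have hn' : g σ ^ n = 1 := by rw [← map_pow, hσ, map_one]
  have h3 : Nat.gcd 6 n ∣ 3 := by
    refine Nat.Coprime.dvd_of_dvd_mul_left ?_ (show Nat.gcd 6 n ∣ 2 * 3 from Nat.gcd_dvd_left _ _)
    exact Nat.Coprime.coprime_dvd_left (Nat.gcd_dvd_right _ _) (Nat.coprime_two_right.mpr hn)
  refine hinj ?_
  rw [map_pow, map_one]
  exact orderOf_dvd_iff_pow_eq_one.mp
    ((Nat.dvd_gcd (orderOf_dvd_of_pow_eq_one h6) (orderOf_dvd_of_pow_eq_one hn')).trans h3)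

theorem relIndex_pos (H K : Subgroup X) : 0 < H.relIndex K :=
  Nat.pos_of_ne_zero index_ne_zero_of_finite

theorem involves_or_le (M V : Subgroup X) (hV : Cfsg.IsElementaryAbelian 2 V)
    (hMV : M ≤ normalizer (V : Set X)) (hfaith : M ⊓ centralizer (V : Set X) = ⊥)
    (O : Subgroup X) (hOM : O ≤ M) (hMO : M ≤ normalizer (O : Set X)) (hO : Odd (Nat.card O))
    (hcon : ∀ a ∈ M, a ∈ centralizer (O : Set X) → a ∈ O) :
    ∀ (n : ℕ) (A : Subgroup X), Nat.card A = n → A ≤ M → Cfsg.IsElementaryAbelian 2 A →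
      Cfsg.Involves (Equiv.Perm (Fin 3)) ↥M ∨
        Nat.card A ^ 2 ≤ (V ⊓ centralizer (A : Set X)).relIndex V := by
  haveI : Fact (Nat.Prime 2) := ⟨Nat.prime_two⟩
  intro n
  induction n using Nat.strong_induction_on with
  | _ n ih =>
  intro A hn hAM hA
  by_cases hA1 : A = ⊥
  · right
    rw [hA1, card_bot, one_pow]
    exact relIndex_pos _ _
  haveI := hA.1
  have hord : ∀ x ∈ A, x * x = 1 := fun x hx => by rw [← pow_two]; exact hA.2 x hx
  have h2grp : ∀ {B : Subgroup X}, (∀ x ∈ B, x ^ 2 = 1) → IsPGroup 2 B := fun h x =>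
    ⟨1, Subtype.ext (by rw [SubmonoidClass.coe_pow, pow_one, h x x.2]; rfl)⟩
  have hAp : IsPGroup 2 A := h2grp hA.2
  have hcop : (Nat.card A).Coprime (Nat.card O) := by
    obtain ⟨e, he⟩ := hAp.exists_card_eq
    rw [he]
    exact (Nat.coprime_two_left.mpr hO).pow_left e
  have hgen := CfsgLib.Core.generated_by_cocyclic (hAM.trans hMO) hcop
  obtain ⟨B, ⟨hBA, g, hgA, hBg⟩, a, ha, m, hm, hne⟩ : ∃ B ∈ CfsgLib.Core.Cocyclic A, ∃ a ∈ A,
      ∃ m ∈ O ⊓ centralizer (B : Set X), a * m ≠ m * a := by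
    by_contra! h
    refine hA1 ((eq_bot_iff).mpr fun a ha => mem_bot.mpr ?_)
    have hle : O ≤ centralizer (A : Set X) := by
      rw [← hgen]
      exact iSup₂_le fun B hB m hm => mem_centralizer_iff.mpr fun b hb => h B hB b hb m hm
    have h1 := hcon a (hAM ha) (le_centralizer_iff.mp hle ha)
    have h2 : orderOf a ∣ Nat.gcd 2 (Nat.card O) := Nat.dvd_gcd
      (orderOf_dvd_of_pow_eq_one (hA.2 a ha))
      (by rw [← orderOf_mk a h1]; exact orderOf_dvd_natCard _)
    rw [Nat.Coprime.gcd_eq_one (Nat.coprime_two_left.mpr hO), Nat.dvd_one, orderOf_eq_one_iff] at h2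
    exact h2
  have hBlt : B < A := lt_of_le_of_ne hBA fun h => hne (mem_centralizer_iff.mp hm.2 a (h.symm ▸ ha))
  have hcard : Nat.card A ≤ Nat.card B * 2 := by
    have hgn : zpowers g ≤ normalizer (B : Set X) := zpowers_le.mpr (centralizer_le_normalizer _
      (mem_centralizer_iff.mpr fun b hb =>
        congrArg Subtype.val (hA.1.is_comm.comm (⟨b, hBA hb⟩ : A) ⟨g, hgA⟩)))
    have h1 := CfsgLib.Core.card_sup_mul_card_inf hgn
    rw [sup_comm, hBg, Nat.card_zpowers] at h1
    have h2 : orderOf g ≤ 2 := Nat.le_of_dvd two_pos (orderOf_dvd_of_pow_eq_one (hA.2 g hgA))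
    calc Nat.card A ≤ Nat.card A * Nat.card ↥(zpowers g ⊓ B) := Nat.le_mul_of_pos_right _ Nat.card_pos
      _ = orderOf g * Nat.card B := h1
      _ ≤ Nat.card B * 2 := by rw [mul_comm]; exact Nat.mul_le_mul_left _ h2
  rcases ih (Nat.card B) (hn ▸ lt_of_le_of_ne (card_le_of_le hBA) fun h =>
    hBlt.ne (eq_of_le_of_card_ge hBA h.ge)) B rfl (hBA.trans hAM) ⟨⟨⟨fun x y => Subtype.ext
      (show (x : X) * y = y * x from
        congrArg Subtype.val (hA.1.is_comm.comm (⟨x, hBA x.2⟩ : A) ⟨y, hBA y.2⟩))⟩⟩,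
      fun x hx => hA.2 x (hBA hx)⟩ with h | hIH
  · exact Or.inl h
  set W := V ⊓ centralizer (B : Set X) with hW
  set D := V ⊓ centralizer (A : Set X) with hD
  have hDW : D ≤ W := inf_le_inf_left _ (centralizer_le hBA)
  by_cases h4 : 4 ≤ D.relIndex W
  · right
    rw [← relIndex_mul_relIndex D W V hDW inf_le_left]
    calc Nat.card A ^ 2 ≤ (Nat.card B * 2) ^ 2 := Nat.pow_le_pow_left hcard 2
      _ = 4 * Nat.card B ^ 2 := by ring
      _ ≤ _ := Nat.mul_le_mul h4 hIH
  left
  -- the involution and the element of odd order inverted by it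
  have hVc : ∀ x ∈ V, ∀ y ∈ V, x * y = y * x := fun x hx y hy =>
    congrArg Subtype.val (hV.1.is_comm.comm (⟨x, hx⟩ : V) ⟨y, hy⟩)
  set k := a * m * a⁻¹ * m⁻¹ with hk
  have hai : a⁻¹ = a := inv_eq_of_mul_eq_one_right (hord a ha)
  have hkO : k ∈ O := mul_mem ((mem_normalizer_iff.mp (hMO (hAM ha)) m).mp hm.1) (inv_mem hm.1)
  have hmB : m ∈ centralizer (B : Set X) := hm.2
  have haB : a ∈ centralizer (B : Set X) := mem_centralizer_iff.mpr fun b hb =>
    congrArg Subtype.val (hA.1.is_comm.comm (⟨b, hBA hb⟩ : A) ⟨a, ha⟩)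
  have hkB : k ∈ centralizer (B : Set X) := mul_mem (mul_mem (mul_mem haB hmB) (inv_mem haB)) (inv_mem hmB)
  have hk1 : k ≠ 1 := fun h => hne (by
    rw [hk, mul_inv_eq_one, mul_inv_eq_iff_eq_mul] at h
    exact h)
  have hak : a * k * a⁻¹ = k⁻¹ := by
    calc a * k * a⁻¹ = (a * a) * m * a⁻¹ * m⁻¹ * a⁻¹ := by rw [hk]; group
      _ = k⁻¹ := by
          rw [hord a ha, one_mul, hk, hai, mul_inv_rev, mul_inv_rev, mul_inv_rev, inv_inv, hai]
          group
  have hkodd : Odd (orderOf k) := hO.of_dvd_nat (by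
    rw [← orderOf_mk k hkO]; exact orderOf_dvd_natCard _)
  have hWn : ∀ g ∈ M, g ∈ centralizer (B : Set X) → ∀ w ∈ W, g * w * g⁻¹ ∈ W := by
    intro g hg hgB w hw
    refine ⟨(mem_normalizer_iff.mp (hMV hg) w).mp hw.1, mem_centralizer_iff.mpr fun b hb => ?_⟩
    have e1 : Commute b g := mem_centralizer_iff.mp hgB b hb
    have e2 : Commute b w := mem_centralizer_iff.mp hw.2 b hb
    exact ((e1.mul_right e2).mul_right e1.inv_right).eq
  set F := W ⊓ centralizer ({k} : Set X) with hF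
  have hmemF : ∀ w, w ∈ F ↔ w ∈ W ∧ k * w * k⁻¹ = w := fun w =>
    and_congr Iff.rfl (mem_centralizer_singleton_iff.trans
      (Iff.intro (fun h => mul_inv_eq_iff_eq_mul.mpr h.symm) fun h => (mul_inv_eq_iff_eq_mul.mp h).symm))
  have hFle : F.relIndex W ≤ 4 := by
    have ha' : (W ⊓ centralizer ({a} : Set X)).relIndex W ≤ 3 := by
      have h1 : D.relIndex W ≤ 3 := by omega
      refine le_trans (Nat.le_of_dvd (relIndex_pos _ _)
        (relIndex_dvd_of_le_left _ (le_inf hDW ?_))) h1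
      exact inf_le_right.trans (centralizer_le (Set.singleton_subset_iff.mpr ha))
    have hpow : ∀ Y : Subgroup X, Y.relIndex W ≤ 3 → Y.relIndex W ≤ 2 := by
      intro Y hY
      obtain ⟨e, he⟩ := ((h2grp hV.2).to_le (inf_le_left : W ≤ V)).index (Y.subgroupOf W)
      change Y.relIndex W = 2 ^ e at he
      rw [he] at hY ⊢
      rcases e with _ | _ | e
      · norm_num
      · norm_num
      · have : 2 ^ 2 ≤ 2 ^ (e + 1 + 1) := Nat.pow_le_pow_right two_pos (by omega)
        omega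
    set s := m * a * m⁻¹ with hs
    have hs' : (W ⊓ centralizer ({s} : Set X)).relIndex W ≤ 3 := by
      have hmW : W.map (MulAut.conj m).toMonoidHom = W := by
        refine eq_of_le_of_card_ge ?_ (card_map_of_injective (MulAut.conj m).injective).ge
        rintro _ ⟨w, hw, rfl⟩
        exact hWn m (hOM hm.1) hmB w hw
      have he : (W ⊓ centralizer ({a} : Set X)).map (MulAut.conj m).toMonoidHom ≤
          W ⊓ centralizer ({s} : Set X) := by
        rintro _ ⟨w, ⟨hw, hwa⟩, rfl⟩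
        refine ⟨hWn m (hOM hm.1) hmB w hw, mem_centralizer_singleton_iff.mpr ?_⟩
        have := congrArg (MulAut.conj m) (mem_centralizer_singleton_iff.mp hwa)
        simpa [hs] using this
      refine le_trans (Nat.le_of_dvd (relIndex_pos _ _)
        (relIndex_dvd_of_le_left _ he)) (le_of_eq_of_le ?_ ha')
      exact (congrArg (fun Y => ((W ⊓ centralizer ({a} : Set X)).map (MulAut.conj m).toMonoidHom).relIndex Y)
        hmW.symm).trans
        (relIndex_map_map_of_injective (f := (MulAut.conj m).toMonoidHom) _ _ (MulAut.conj m).injective)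
    refine le_trans (Nat.le_of_dvd (relIndex_pos _ _)
      (relIndex_dvd_of_le_left W (?_ :
        (W ⊓ centralizer ({a} : Set X)) ⊓ (W ⊓ centralizer ({s} : Set X)) ≤ F))) ?_
    · rintro w ⟨⟨hw, hwa⟩, -, hws⟩
      refine ⟨hw, ?_⟩
      have h1 : Commute w a := mem_centralizer_singleton_iff.mp hwa
      have h2 : Commute w s := mem_centralizer_singleton_iff.mp hws
      have h3 : k = a * s := by
        calc k = a * m * a⁻¹ * m⁻¹ := hk
          _ = a * (m * a * m⁻¹) := by rw [hai]; group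
      rw [h3]
      exact mem_centralizer_singleton_iff.mpr (h1.mul_right h2).eq
    · exact le_trans (relIndex_inf_le) (Nat.mul_le_mul (hpow _ ha') (hpow _ hs'))
  -- the cube of `k` fixes `W`
  have hkM : k ∈ M := hOM hkO
  haveI : (F.subgroupOf W).Normal := ⟨fun w hw y => by
    have : y * w * y⁻¹ = w := Subtype.ext (by
      show (y : X) * w * (y : X)⁻¹ = w
      rw [hVc y y.2.1 w w.2.1, mul_inv_cancel_right])
    rwa [this]⟩
  let φ : MulAut W :=
    { toFun := fun w => ⟨k * w * k⁻¹, hWn k hkM hkB w w.2⟩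
      invFun := fun w => ⟨k⁻¹ * w * k, by
        have := hWn k⁻¹ (inv_mem hkM) (inv_mem hkB) w w.2
        rwa [inv_inv] at this⟩
      left_inv := fun w => Subtype.ext (by simp [mul_assoc])
      right_inv := fun w => Subtype.ext (by simp [mul_assoc])
      map_mul' := fun w w' => Subtype.ext (by simp [mul_assoc]) }
  have hφF : (F.subgroupOf W).map (φ : W →* W) = F.subgroupOf W := by
    ext w
    constructor
    · rintro ⟨y, hy, rfl⟩
      show k * y * k⁻¹ ∈ F
      rw [show k * (y : X) * k⁻¹ = y from ((hmemF _).mp hy).2]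
      exact hy
    · intro hw
      exact ⟨w, hw, Subtype.ext ((hmemF _).mp hw).2⟩
  let σ : MulAut (W ⧸ F.subgroupOf W) := QuotientGroup.congr _ _ φ hφF
  have hit : ∀ (i : ℕ) (w : W), (σ ^ i) (w : W ⧸ F.subgroupOf W) =
      ((⟨k ^ i * w * (k ^ i)⁻¹, hWn _ (pow_mem hkM i) (pow_mem hkB i) w w.2⟩ : W) : W ⧸ F.subgroupOf W) := by
    intro i
    induction i with
    | zero => intro w; simp
    | succ i ihi =>
      intro w
      rw [pow_succ', MulAut.mul_apply, ihi]
      refine congrArg QuotientGroup.mk (Subtype.ext ?_)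
      show k * (k ^ i * w * (k ^ i)⁻¹) * k⁻¹ = k ^ (i + 1) * w * (k ^ (i + 1))⁻¹
      rw [pow_succ']
      group
  have hσ3 : σ ^ 3 = 1 := by
    refine cube_fix (n := orderOf k) hFle σ hkodd (MulEquiv.ext fun q => ?_)
    obtain ⟨w, rfl⟩ := QuotientGroup.mk_surjective q
    rw [hit, MulAut.one_apply]
    refine congrArg QuotientGroup.mk (Subtype.ext ?_)
    show k ^ orderOf k * (w : X) * (k ^ orderOf k)⁻¹ = w
    rw [pow_orderOf_eq_one]; group
  have hfix : ∀ w ∈ W, k ^ 3 * w * (k ^ 3)⁻¹ = w := by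
    intro w hw
    have h1 : ((⟨k ^ 3 * w * (k ^ 3)⁻¹, hWn _ (pow_mem hkM 3) (pow_mem hkB 3) w hw⟩ : W) :
        W ⧸ F.subgroupOf W) = ((⟨w, hw⟩ : W) : W ⧸ F.subgroupOf W) := by
      rw [← hit 3 ⟨w, hw⟩, hσ3, MulAut.one_apply]
    have h2 : (k ^ 3 * w * (k ^ 3)⁻¹)⁻¹ * w ∈ F := (QuotientGroup.eq.mp h1 :)
    set f := (k ^ 3 * w * (k ^ 3)⁻¹)⁻¹ * w with hf
    have hkf : k ^ 3 * f⁻¹ * (k ^ 3)⁻¹ = f⁻¹ := by
      have hc : Commute k f⁻¹ := (show Commute k f from mul_inv_eq_iff_eq_mul.mp ((hmemF f).mp h2).2).inv_right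
      rw [(hc.pow_left 3).eq, mul_inv_cancel_right]
    have hw1 : k ^ 3 * w * (k ^ 3)⁻¹ = w * f⁻¹ := by rw [hf]; group
    have hiter : ∀ i : ℕ, (k ^ 3) ^ i * w * ((k ^ 3) ^ i)⁻¹ = w * f⁻¹ ^ i := by
      intro i
      induction i with
      | zero => simp
      | succ i ihi =>
        calc (k ^ 3) ^ (i + 1) * w * ((k ^ 3) ^ (i + 1))⁻¹
            = k ^ 3 * ((k ^ 3) ^ i * w * ((k ^ 3) ^ i)⁻¹) * (k ^ 3)⁻¹ := by rw [pow_succ']; group
          _ = (k ^ 3 * w * (k ^ 3)⁻¹) * (k ^ 3 * f⁻¹ * (k ^ 3)⁻¹) ^ i := by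
              rw [ihi, conj_pow]; group
          _ = w * f⁻¹ ^ (i + 1) := by rw [hw1, hkf, pow_succ' f⁻¹, mul_assoc]
    have h3 := hiter (orderOf k)
    rw [← pow_mul, mul_comm 3, pow_mul, pow_orderOf_eq_one, one_pow, one_mul, inv_one, mul_one,
      left_eq_mul] at h3
    have h4 : f⁻¹ ^ 2 = 1 := by rw [inv_pow, hV.2 f h2.1.1, inv_one]
    have h5 : f⁻¹ = 1 := orderOf_eq_one_iff.mp (Nat.eq_one_of_dvd_coprimes
      (Nat.coprime_two_right.mpr hkodd) (orderOf_dvd_of_pow_eq_one h3) (orderOf_dvd_of_pow_eq_one h4))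
    rw [hw1, h5, mul_one]
  have hk3 : k ^ 3 = 1 := by
    have hQ := CfsgLib.Core.thompson_pxq (p := 2) (P := B) (Q := zpowers (k ^ 3)) (U := V)
      (hAp.to_le hBA) ?_ (h2grp hV.2) ?_ ((hBA.trans hAM).trans hMV)
      (zpowers_le.mpr (hMV (pow_mem hkM 3))) ?_
    · have : k ^ 3 ∈ M ⊓ centralizer (V : Set X) := ⟨pow_mem hkM 3, hQ (mem_zpowers _)⟩
      rwa [hfaith, mem_bot] at this
    · rw [Nat.card_zpowers]
      exact Nat.coprime_two_right.mpr (hkodd.of_dvd_nat (orderOf_pow_dvd 3))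
    · rw [le_centralizer_iff]
      exact zpowers_le.mpr (pow_mem hkB 3)
    · intro w hw
      rw [zpowers_eq_closure, centralizer_closure]
      exact mem_centralizer_singleton_iff.mpr (mul_inv_eq_iff_eq_mul.mp (hfix w hw)).symm
  -- the subgroup of order six
  haveI : Fact (Nat.Prime 3) := ⟨Nat.prime_three⟩
  have hok : orderOf k = 3 := orderOf_eq_prime hk3 hk1
  have hoa : orderOf a = 2 := orderOf_eq_prime (hA.2 a ha) fun h => hne (by rw [h, one_mul, mul_one])
  have han : zpowers a ≤ normalizer (zpowers k : Set X) := by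
    refine zpowers_le.mpr (mem_normalizer_iff.mpr fun y => ?_)
    have hst : ∀ y ∈ zpowers k, a * y * a⁻¹ ∈ zpowers k := by
      rintro _ ⟨i, rfl⟩
      show a * k ^ i * a⁻¹ ∈ zpowers k
      rw [← conj_zpow, hak, inv_zpow]
      exact inv_mem (zpow_mem_zpowers k i)
    refine ⟨hst y, fun hy => ?_⟩
    have := hst _ hy
    rw [hai] at this
    rw [show a * (a * y * a) * a = (a * a) * y * (a * a) by group, hord a ha, one_mul, mul_one] at this
    exact this
  have h6 : Nat.card ↥(zpowers a ⊔ zpowers k) = 6 := by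
    rw [CfsgLib.Core.card_sup_of_disjoint han (CfsgLib.Core.inf_eq_bot_of_coprime (by
      rw [Nat.card_zpowers, Nat.card_zpowers, hoa, hok]; norm_num)), Nat.card_zpowers,
      Nat.card_zpowers, hoa, hok]
  obtain ⟨e⟩ := iso_s3 h6 fun h => hk1 (by
    have h1 : a * k = k * a :=
      congrArg Subtype.val (h ⟨a, mem_sup_left (mem_zpowers a)⟩ ⟨k, mem_sup_right (mem_zpowers k)⟩)
    rw [h1, mul_inv_cancel_right, eq_inv_iff_mul_eq_one, ← pow_two] at hak
    exact orderOf_eq_one_iff.mp (Nat.eq_one_of_dvd_coprimes (show Nat.Coprime 2 3 by norm_num)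
      (orderOf_dvd_of_pow_eq_one hak) (orderOf_dvd_of_pow_eq_one hk3)))
  have hHM : zpowers a ⊔ zpowers k ≤ M := sup_le (zpowers_le.mpr (hAM ha)) (zpowers_le.mpr hkM)
  refine ⟨(zpowers a ⊔ zpowers k).subgroupOf M, ⊥, by rw [bot_subgroupOf]; infer_instance, ⟨?_⟩⟩
  exact ((QuotientGroup.quotientMulEquivOfEq (bot_subgroupOf _)).trans QuotientGroup.quotientBot).trans
    ((subgroupOfEquivOfLe hHM).trans e)

end CfsgLib.Core.SmallModuleThree
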