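import Cfsg.Prelude.Def_Transfer
import Cfsg.Agent.Lib.CharBurnside
import Cfsg.Agent.Lib.CoreFitting
import Cfsg.Agent.Lib.CoreFpfComplement
import Cfsg.Agent.Lib.CoreGen
import Cfsg.Agent.Lib.CoreSmallModuleThree

/-!
# Groups with element orders at most four
-/

set_option autoImplicit false

universe u

namespace CfsgLib.Core.OrdersFour

open Subgroup
open scoped commutatorElement

variable {G : Type u} [Group G] [Finite G]

theorem fpf_identity {N : Subgroup G} {x : G} (hxN : ∀ n ∈ N, x * n * x⁻¹ ∈ N) (hx : x ^ 3 = 1)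
    (hfix : ∀ n ∈ N, x * n = n * x → n = 1) :
    (∀ n ∈ N, ∃ z ∈ N, n = z⁻¹ * (x * z * x⁻¹)) ∧
      ∀ n ∈ N, n * (x * n * x⁻¹) * (x ^ 2 * n * (x ^ 2)⁻¹) = 1 := by
  have hsur : ∀ n ∈ N, ∃ z ∈ N, n = z⁻¹ * (x * z * x⁻¹) := by
    intro n hn
    let g : N → N := fun z => ⟨(z : G)⁻¹ * (x * z * x⁻¹), mul_mem (inv_mem z.2) (hxN z z.2)⟩
    have hg : Function.Injective g := by
      intro a b h
      have h1 : (a : G)⁻¹ * (x * a * x⁻¹) = (b : G)⁻¹ * (x * b * x⁻¹) := congrArg Subtype.val h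
      have h2 := hfix ((b : G) * (a : G)⁻¹) (mul_mem b.2 (inv_mem a.2)) (by
        calc x * ((b : G) * (a : G)⁻¹)
            = b * ((b : G)⁻¹ * (x * b * x⁻¹)) * ((a : G)⁻¹ * (x * a * x⁻¹))⁻¹ * (a : G)⁻¹ * x := by group
          _ = (b : G) * (a : G)⁻¹ * x := by rw [h1]; group)
      exact Subtype.ext (mul_inv_eq_one.mp h2).symm
    obtain ⟨z, hz⟩ := Finite.injective_iff_surjective.mp hg ⟨n, hn⟩
    exact ⟨z, z.2, (congrArg Subtype.val hz).symm⟩
  refine ⟨hsur, fun n hn => ?_⟩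
  obtain ⟨z, -, rfl⟩ := hsur n hn
  have h3 : x * x * x = 1 := by
    rw [← hx, pow_succ, pow_two]
  calc _ = z⁻¹ * (x * x * x) * z * (x * x * x)⁻¹ := by rw [pow_two]; group
    _ = 1 := by rw [h3]; group

theorem twisted_fpf {N : Subgroup G} {x b : G} (hxN : ∀ n ∈ N, x * n * x⁻¹ ∈ N) (hx : x ^ 3 = 1)
    (hfix : ∀ n ∈ N, x * n = n * x → n = 1) (hb : b ∈ N) :
    (b * x) ^ 3 = 1 ∧ (∀ n ∈ N, b * x * n = n * (b * x) → n = 1) := by
  obtain ⟨z, hz, rfl⟩ := (fpf_identity hxN hx hfix).1 b hb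
  have e : z⁻¹ * (x * z * x⁻¹) * x = z⁻¹ * x * z := by group
  rw [e]
  refine ⟨?_, fun n hn h => ?_⟩
  · have h2 := conj_pow (a := z⁻¹) (b := x) (i := 3)
    rw [inv_inv] at h2
    rw [h2, hx]
    group
  · have h1 := hfix (z * n * z⁻¹) (mul_mem (mul_mem hz hn) (inv_mem hz)) (by
      calc x * (z * n * z⁻¹) = z * (z⁻¹ * x * z * n) * z⁻¹ := by group
        _ = z * n * z⁻¹ * x := by rw [h]; group)
    calc n = z⁻¹ * (z * n * z⁻¹) * z := by group
      _ = 1 := by rw [h1]; group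

theorem commute_conj {N : Subgroup G} {x : G} (hxN : ∀ n ∈ N, x * n * x⁻¹ ∈ N) (hx : x ^ 3 = 1)
    (hfix : ∀ n ∈ N, x * n = n * x → n = 1) {a : G} (ha : a ∈ N) :
    Commute a (x * a * x⁻¹) := by
  have hx2 : ∀ n ∈ N, x ^ 2 * n * (x ^ 2)⁻¹ ∈ N := fun n hn => by
    have := hxN _ (hxN n hn)
    rw [pow_two]
    convert this using 1
    group
  have h1 := (fpf_identity hxN hx hfix).2 a ha
  have h2 := (fpf_identity hx2 (by rw [← pow_mul, mul_comm, pow_mul, hx, one_pow]) fun n hn h =>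
    hfix n hn (by
      have hc : Commute (x ^ 2) n := h
      have h4 : Commute ((x ^ 2) ^ 2) n := hc.pow_left 2
      rw [← pow_mul, pow_succ x 3, hx, one_mul] at h4
      exact h4)).2 a ha
  have e4 : (x ^ 2) ^ 2 = x := by rw [← pow_mul, pow_succ x 3, hx, one_mul]
  rw [e4] at h2
  -- the two conjugates commute with `a`
  set b := x * a * x⁻¹
  set c := x ^ 2 * a * (x ^ 2)⁻¹
  have hc : c = (a * b)⁻¹ := eq_inv_of_mul_eq_one_right h1
  show a * b = b * a
  have h3 : a * c * b = 1 := h2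
  rw [hc] at h3
  calc a * b = a * b * (a * (a * b)⁻¹ * b) := by rw [h3, mul_one]
    _ = (a * b) * a * b⁻¹ * a⁻¹ * b := by group
    _ = _ := by
      have : b⁻¹ * a⁻¹ * b = a⁻¹ := by
        calc b⁻¹ * a⁻¹ * b = a⁻¹ * (a * (a * b)⁻¹ * b) := by group
          _ = a⁻¹ := by rw [h3, mul_one]
      have h5 : a * b = b * a := by
        have h6 : a⁻¹ * b = b * a⁻¹ := by
          calc a⁻¹ * b = b * (b⁻¹ * a⁻¹ * b) := by group
            _ = b * a⁻¹ := by rw [this]
        exact (Commute.inv_left_iff.mp h6).eq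
      rw [h5]
      calc b * a * a * b⁻¹ * a⁻¹ * b = b * a * a * (b⁻¹ * a⁻¹ * b) := by group
        _ = b * a := by rw [this, mul_inv_cancel_right]

/-- A subgroup with a fixed-point-free conjugation of order three has class at most two. -/
theorem class_two {N : Subgroup G} [hN : N.Normal] {x : G} (hx : x ^ 3 = 1)
    (hfix : ∀ n ∈ N, x * n = n * x → n = 1)
    (hclass : ∀ a ∈ N, ∀ b ∈ N, ∀ c ∈ N, ∀ d ∈ N, Commute ⁅⁅a, b⁆, c⁆ d) :
    ∀ a ∈ N, ∀ b ∈ N, ∀ c ∈ N, Commute ⁅a, b⁆ c := by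
  have hxN : ∀ n ∈ N, x * n * x⁻¹ ∈ N := fun n hn => hN.conj_mem n hn x
  have hcm : ∀ {a b}, a ∈ N → b ∈ N → ⁅a, b⁆ ∈ N := fun {a b} ha hb => by
    rw [commutatorElement_def]
    exact mul_mem (mul_mem (mul_mem ha hb) (inv_mem ha)) (inv_mem hb)
  set φ : G → G := fun a => x * a * x⁻¹ with hφ
  have hφN : ∀ {a}, a ∈ N → φ a ∈ N := fun {a} ha => hxN a ha
  -- every element commutes with the conjugates of its image
  have hconj : ∀ a ∈ N, ∀ b ∈ N, Commute a (b * φ a * b⁻¹) := by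
    intro a ha b hb
    obtain ⟨h3, hf⟩ := twisted_fpf hxN hx hfix hb
    have := commute_conj (fun n hn => hN.conj_mem n hn (b * x)) h3 hf ha
    convert this using 1
    simp [hφ, mul_assoc]
  have hconjx : ∀ a ∈ N, ∀ b ∈ N, Commute a (b * a * b⁻¹) := by
    intro a ha b hb
    have h1 := hconj a ha b hb
    -- the second image
    have h2 : Commute a (b * φ (φ a) * b⁻¹) := by
      have := (hconj (φ (φ a)) (hφN (hφN ha)) b⁻¹ (inv_mem hb))
      have e3 : φ (φ (φ a)) = a := by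
        have h3 : x * x * x = 1 := by rw [← hx, pow_succ, pow_two]
        calc φ (φ (φ a)) = (x * x * x) * a * (x * x * x)⁻¹ := by simp [hφ, mul_assoc]
          _ = a := by rw [h3]; group
      rw [e3] at this
      have h4 := this.map (MulAut.conj b).toMonoidHom
      simpa [mul_assoc] using h4.symm
    have e : b * a * b⁻¹ = (b * φ (φ a) * b⁻¹)⁻¹ * (b * φ a * b⁻¹)⁻¹ := by
      have h := (fpf_identity hxN hx hfix).2 a ha
      have : a = (φ (φ a))⁻¹ * (φ a)⁻¹ := by
        rw [eq_inv_mul_iff_mul_eq, eq_inv_iff_mul_eq_one]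
        have hr : x * x * a * (x * x)⁻¹ * a * (x * a * x⁻¹) = 1 := by
          calc x * x * a * (x * x)⁻¹ * a * (x * a * x⁻¹)
              = (a * (x * a * x⁻¹))⁻¹ * (a * (x * a * x⁻¹) * (x ^ 2 * a * (x ^ 2)⁻¹)) * (a * (x * a * x⁻¹)) := by
                rw [pow_two]; group
            _ = 1 := by rw [h]; group
        simpa [hφ, mul_assoc] using hr
      conv_lhs => rw [this]
      group
    rw [e]
    exact h2.inv_right.mul_right h1.inv_right
  intro a₀ ha₀ b₀ hb₀ c₀ hc₀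
  have hcen : ∀ {a b c}, a ∈ N → b ∈ N → c ∈ N → ∀ d ∈ N, Commute ⁅⁅a, b⁆, c⁆ d :=
    fun {a b c} ha hb hc d hd => hclass a ha b hb c hc d hd
  let f : G → G → G → G := fun a b c => ⁅⁅a, b⁆, c⁆
  have hfN : ∀ {a b c}, a ∈ N → b ∈ N → c ∈ N → f a b c ∈ N := fun ha hb hc => hcm (hcm ha hb) hc
  have hfcomm : ∀ {a b c d}, a ∈ N → b ∈ N → c ∈ N → d ∈ N → Commute (f a b c) d :=
    fun ha hb hc hd => hcen ha hb hc _ hd
  -- additivity in the last argument
  have h3 : ∀ a ∈ N, ∀ b ∈ N, ∀ c ∈ N, ∀ d ∈ N, f a b (c * d) = f a b c * f a b d := by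
    intro a ha b hb c hc d hd
    show ⁅⁅a, b⁆, c * d⁆ = _
    calc ⁅⁅a, b⁆, c * d⁆ = ⁅⁅a, b⁆, c⁆ * (c * ⁅⁅a, b⁆, d⁆ * c⁻¹) := by
          simp only [commutatorElement_def]; group
      _ = _ := by rw [← (hfcomm ha hb hd hc).eq, mul_inv_cancel_right]
  have hleft : ∀ p ∈ N, ∀ q ∈ N, ∀ c ∈ N, (∀ y ∈ N, Commute ⁅q, c⁆ y) → ⁅p * q, c⁆ = ⁅p, c⁆ * ⁅q, c⁆ := by
    intro p hp q hq c hc hy
    calc ⁅p * q, c⁆ = p * ⁅q, c⁆ * p⁻¹ * ⁅p, c⁆ := by simp only [commutatorElement_def]; group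
      _ = _ := by rw [← (hy p hp).eq, mul_inv_cancel_right, (hy _ (hcm hp hc)).eq]
  have h1 : ∀ a ∈ N, ∀ a' ∈ N, ∀ b ∈ N, ∀ c ∈ N, f (a * a') b c = f a b c * f a' b c := by
    intro a ha a' ha' b hb c hc
    show ⁅⁅a * a', b⁆, c⁆ = _
    have e : ⁅a * a', b⁆ = ⁅a, ⁅a', b⁆⁆ * (⁅a', b⁆ * ⁅a, b⁆) := by
      simp only [commutatorElement_def]; group
    have hz : ∀ y ∈ N, Commute ⁅a, ⁅a', b⁆⁆ y := fun y hy => by
      rw [← commutatorElement_inv]
      exact (hfcomm ha' hb ha hy).inv_left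
    have hzc : ⁅⁅a, ⁅a', b⁆⁆, c⁆ = 1 := commutatorElement_eq_one_iff_commute.mpr (hz c hc)
    rw [e, hleft _ (hcm ha (hcm ha' hb)) _ (mul_mem (hcm ha' hb) (hcm ha hb)) c hc, hzc, one_mul,
      hleft _ (hcm ha' hb) _ (hcm ha hb) c hc fun y hy => hfcomm ha hb hc hy]
    · exact (hfcomm ha' hb hc (hfN ha hb hc)).eq
    · intro y hy
      rw [hleft _ (hcm ha' hb) _ (hcm ha hb) c hc fun y hy => hfcomm ha hb hc hy]
      exact (hfcomm ha' hb hc hy).mul_left (hfcomm ha hb hc hy)
  have hone : ∀ b ∈ N, ∀ c ∈ N, f 1 b c = 1 := fun b _ c _ => by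
    simp [f]
  have hskew : ∀ a ∈ N, ∀ b ∈ N, ∀ c ∈ N, f b a c = (f a b c)⁻¹ := by
    intro a ha b hb c hc
    show ⁅⁅b, a⁆, c⁆ = _
    have h := hleft _ (hcm hb ha) _ (hcm ha hb) c hc fun y hy => hfcomm ha hb hc hy
    rw [show ⁅b, a⁆ * ⁅a, b⁆ = 1 by rw [← commutatorElement_inv a b, inv_mul_cancel],
      commutatorElement_one_left] at h
    exact eq_inv_of_mul_eq_one_left h.symm
  have h2 : ∀ a ∈ N, ∀ b ∈ N, ∀ b' ∈ N, ∀ c ∈ N, f a (b * b') c = f a b c * f a b' c := by
    intro a ha b hb b' hb' c hc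
    rw [hskew _ (mul_mem hb hb') a ha c hc, h1 b hb b' hb' a ha c hc, mul_inv_rev, ← hskew _ hb' a ha c hc,
      ← hskew _ hb a ha c hc]
    exact (hfcomm ha hb' hc (hfN ha hb hc)).eq
  -- vanishing
  have hv12 : ∀ a ∈ N, ∀ c ∈ N, f a (φ a) c = 1 := fun a ha c _ => by
    show ⁅⁅a, φ a⁆, c⁆ = 1
    rw [commutatorElement_eq_one_iff_commute.mpr (commute_conj hxN hx hfix ha), commutatorElement_one_left]
  have hsw : ∀ a ∈ N, ∀ b ∈ N, ∀ c ∈ N, f a (φ b) c = f (φ a) b c := by
    intro a ha b hb c hc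
    have hab : φ (a * b) = φ a * φ b := by simp [hφ, mul_assoc]
    have h := hv12 (a * b) (mul_mem ha hb) c hc
    rw [hab, h1 a ha b hb _ (mul_mem (hφN ha) (hφN hb)) c hc, h2 a ha _ (hφN ha) _ (hφN hb) c hc,
      h2 b hb _ (hφN ha) _ (hφN hb) c hc, hv12 a ha c hc, hv12 b hb c hc, one_mul, mul_one,
      hskew _ (hφN ha) b hb c hc] at h
    exact eq_of_div_eq_one (by rw [div_eq_mul_inv]; exact h)
  have hv23 : ∀ a ∈ N, ∀ b ∈ N, f a b (φ a) = 1 := by
    intro a ha b hb
    refine commutatorElement_eq_one_iff_commute.mpr ?_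
    rw [commutatorElement_def]
    have e1 : Commute a (φ a) := commute_conj hxN hx hfix ha
    have e2 : Commute (b * a⁻¹ * b⁻¹) (φ a) := by
      have hh := (hconj a ha b⁻¹ (inv_mem hb)).map (MulAut.conj b).toMonoidHom
      have hh' : Commute (b * a * b⁻¹) (φ a) := by simpa [mul_assoc] using hh
      have := hh'.inv_left
      rwa [show (b * a * b⁻¹)⁻¹ = b * a⁻¹ * b⁻¹ by group] at this
    rw [show a * b * a⁻¹ * b⁻¹ = a * (b * a⁻¹ * b⁻¹) by group]
    exact e1.mul_left e2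
  have hv13 : ∀ a ∈ N, ∀ b ∈ N, f a b a = 1 := by
    intro a ha b hb
    refine commutatorElement_eq_one_iff_commute.mpr ?_
    rw [commutatorElement_def, show a * b * a⁻¹ * b⁻¹ = a * (b * a⁻¹ * b⁻¹) by group]
    have := (hconjx a ha b hb).symm.inv_left
    rw [show (b * a * b⁻¹)⁻¹ = b * a⁻¹ * b⁻¹ by group] at this
    exact (Commute.refl a).mul_left this
  have hs13 : ∀ a ∈ N, ∀ b ∈ N, ∀ c ∈ N, f c b a = (f a b c)⁻¹ := by
    intro a ha b hb c hc
    have h := hv13 (a * c) (mul_mem ha hc) b hb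
    rw [h1 a ha c hc b hb _ (mul_mem ha hc), h3 a ha b hb a ha c hc, h3 c hc b hb a ha c hc,
      hv13 a ha b hb, hv13 c hc b hb, one_mul, mul_one] at h
    exact eq_inv_of_mul_eq_one_right h
  have hsw13 : ∀ a ∈ N, ∀ b ∈ N, ∀ c ∈ N, f a b (φ c) = f (φ a) b c := by
    intro a ha b hb c hc
    have hac : φ (a * c) = φ a * φ c := by simp [hφ, mul_assoc]
    have h := hv23 (a * c) (mul_mem ha hc) b hb
    rw [hac, h1 a ha c hc b hb _ (mul_mem (hφN ha) (hφN hc)), h3 a ha b hb _ (hφN ha) _ (hφN hc),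
      h3 c hc b hb _ (hφN ha) _ (hφN hc), hv23 a ha b hb, hv23 c hc b hb, one_mul, mul_one,
      hs13 _ (hφN ha) b hb c hc] at h
    exact eq_of_div_eq_one (by rw [div_eq_mul_inv]; exact h)
  have hinvb : ∀ a ∈ N, ∀ b ∈ N, ∀ c ∈ N, f a b⁻¹ c = (f a b c)⁻¹ := by
    intro a ha b hb c hc
    refine eq_inv_of_mul_eq_one_left ?_
    rw [← h2 a ha _ (inv_mem hb) b hb c hc, inv_mul_cancel]
    show ⁅⁅a, (1 : G)⁆, c⁆ = 1
    simp
  -- the square of the automorphism in one argument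
  have hφ2 : ∀ b ∈ N, φ (φ b) = (φ b)⁻¹ * b⁻¹ := by
    intro b hb
    have h := (fpf_identity hxN hx hfix).2 b hb
    have e : φ (φ b) = x ^ 2 * b * (x ^ 2)⁻¹ := by simp [hφ, pow_two, mul_assoc]
    rw [← mul_inv_rev, e]
    exact eq_inv_of_mul_eq_one_right h
  have hA : ∀ a ∈ N, ∀ b ∈ N, ∀ c ∈ N,
      f (φ a) (φ b) c = (f a (φ b) c)⁻¹ * (f a b c)⁻¹ := by
    intro a ha b hb c hc
    rw [← hsw a ha _ (hφN hb) c hc, hφ2 b hb,
      h2 a ha _ (inv_mem (hφN hb)) _ (inv_mem hb) c hc, hinvb a ha _ (hφN hb) c hc, hinvb a ha b hb c hc]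
  have hB : ∀ a ∈ N, ∀ b ∈ N, ∀ c ∈ N,
      f a (φ b) (φ c) = (f a b (φ c))⁻¹ * (f a b c)⁻¹ := by
    intro a ha b hb c hc
    rw [hsw a ha b hb _ (hφN hc), hsw13 _ (hφN ha) b hb c hc, ← hsw _ (hφN ha) b hb c hc,
      hA a ha b hb c hc, hsw13 a ha b hb c hc, hsw a ha b hb c hc]
  have hfix' : φ (f a₀ b₀ c₀) = f a₀ b₀ c₀ := by
    have e : φ (f a₀ b₀ c₀) = f (φ a₀) (φ b₀) (φ c₀) := by
      simp only [f, hφ]
      rw [← MulAut.conj_apply, ← MulAut.conj_apply, ← MulAut.conj_apply, ← MulAut.conj_apply,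
        map_commutatorElement, map_commutatorElement]
    rw [e, hA a₀ ha₀ b₀ hb₀ _ (hφN hc₀), hB a₀ ha₀ b₀ hb₀ c₀ hc₀, mul_inv_rev, inv_inv, inv_inv,
      mul_inv_cancel_right]
  exact commutatorElement_eq_one_iff_commute.mp
    (hfix _ (hfN ha₀ hb₀ hc₀) (mul_inv_eq_iff_eq_mul.mp hfix'))

/-- Class two, without assuming class three. -/
theorem class_two_ind : ∀ (n : ℕ) (G : Type u) [Group G] [Finite G] (N : Subgroup G) [N.Normal] (x : G),
    Nat.card G = n → Group.IsNilpotent N → x ^ 3 = 1 → (∀ m ∈ N, x * m = m * x → m = 1) →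
    ∀ a ∈ N, ∀ b ∈ N, ∀ c ∈ N, Commute ⁅a, b⁆ c := by
  intro n
  induction n using Nat.strong_induction_on with
  | _ n ih =>
  intro G _ _ N hN x hn hnil hx hfix
  by_cases hNb : N = ⊥
  · intro a ha b _ c _
    rw [hNb, mem_bot] at ha
    subst ha
    rw [commutatorElement_one_left]
    exact Commute.one_left c
  haveI := hnil
  set Z := (Subgroup.center ↥N).map N.subtype with hZ
  haveI hZn : Z.Normal := CfsgLib.Core.map_subtype_normal_of_characteristic hN inferInstance
  have hZne : Z ≠ ⊥ := by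
    haveI : Nontrivial N := (Subgroup.nontrivial_iff_ne_bot N).2 hNb
    intro h
    rw [hZ, Subgroup.map_eq_bot_iff_of_injective _ N.subtype_injective] at h
    exact CfsgLib.Core.nilpotent_inf_center_ne_bot (G := ↥N) (N := ⊤) top_ne_bot (by rw [h, inf_bot_eq])
  have hZN : Z ≤ N := map_subtype_le _
  have hmemZ : ∀ {g}, g ∈ Z → ∀ d ∈ N, Commute g d := by
    rintro _ ⟨g, hg, rfl⟩ d hd
    exact congrArg Subtype.val (mem_center_iff.mp hg ⟨d, hd⟩).symm
  have hlt : Nat.card (G ⧸ Z) < n := by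
    rw [← hn, Subgroup.card_eq_card_quotient_mul_card_subgroup Z]
    exact lt_mul_of_one_lt_right Nat.card_pos ((Subgroup.one_lt_card_iff_ne_bot _).2 hZne)
  set π := QuotientGroup.mk' Z
  haveI : (N.map π).Normal := hN.map π (QuotientGroup.mk'_surjective Z)
  have hq := ih _ hlt (G ⧸ Z) (N.map π) (π x) rfl
    (Group.nilpotent_of_surjective (π.subgroupMap N) (π.subgroupMap_surjective N))
    (by rw [← map_pow, hx, map_one]) ?_
  · refine class_two hx hfix fun a ha b hb c hc d hd => hmemZ ?_ d hd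
    have := hq _ (mem_map_of_mem π ha) _ (mem_map_of_mem π hb) _ (mem_map_of_mem π hc)
    rw [← commutatorElement_eq_one_iff_commute, ← map_commutatorElement, ← map_commutatorElement] at this
    exact (QuotientGroup.eq_one_iff _).mp this
  · rintro _ ⟨m, hm, rfl⟩ hcomm
    have hxN : ∀ k ∈ Z, x * k * x⁻¹ ∈ Z := fun k hk => hZn.conj_mem k hk x
    have hmem : m⁻¹ * (x * m * x⁻¹) ∈ Z := by
      rw [← QuotientGroup.eq_one_iff]
      show π (m⁻¹ * (x * m * x⁻¹)) = 1
      rw [map_mul, map_inv, map_mul, map_mul, map_inv, hcomm]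
      group
    obtain ⟨w, hw, he⟩ := (fpf_identity hxN hx fun k hk => hfix k (hZN hk)).1 _ hmem
    have h1 := hfix (m * w⁻¹) (mul_mem hm (inv_mem (hZN hw))) (by
      calc x * (m * w⁻¹) = m * (m⁻¹ * (x * m * x⁻¹)) * (x * w * x⁻¹)⁻¹ * x := by group
        _ = m * w⁻¹ * x := by rw [he]; group)
    rw [mul_inv_eq_one] at h1
    subst h1
    exact (QuotientGroup.eq_one_iff _).mpr hw

/-- The condition on element orders. -/
theorem main (h : Set.range (orderOf : G → ℕ) = {k : ℕ | 1 ≤ k ∧ k ≤ 4}) :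
    ∃ (N : Subgroup G) (_ : N.Normal),
      (IsPGroup 2 ↥N ∧ Monoid.exponent ↥N = 4 ∧ Group.nilpotencyClass ↥N ≤ 2 ∧ N.index = 3) ∨
      (Cfsg.IsElementaryAbelian 2 N ∧ Nonempty (G ⧸ N ≃* Equiv.Perm (Fin 3))) ∨
      (Cfsg.IsElementaryAbelian 3 N ∧ ((IsCyclic (G ⧸ N) ∧ N.index = 4) ∨ Nonempty (G ⧸ N ≃* QuaternionGroup 2))) := by
  classical
  haveI : Fact (Nat.Prime 2) := ⟨Nat.prime_two⟩
  haveI : Fact (Nat.Prime 3) := ⟨Nat.prime_three⟩
  have hle : ∀ g : G, 1 ≤ orderOf g ∧ orderOf g ≤ 4 := fun g => by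
    have : orderOf g ∈ {k : ℕ | 1 ≤ k ∧ k ≤ 4} := h ▸ Set.mem_range_self g
    exact this
  have hex : ∀ k, 1 ≤ k → k ≤ 4 → ∃ g : G, orderOf g = k := fun k h1 h2 => by
    have : k ∈ Set.range (orderOf : G → ℕ) := h ▸ (⟨h1, h2⟩ : k ∈ {k : ℕ | 1 ≤ k ∧ k ≤ 4})
    exact this
  obtain ⟨g4, hg4⟩ := hex 4 (by norm_num) le_rfl
  obtain ⟨g3, hg3⟩ := hex 3 (by norm_num) (by norm_num)
  have hpow2 : ∀ g : G, (∃ k, g ^ 2 ^ k = 1) → g ^ 4 = 1 := fun g ⟨k, hk⟩ => by
    obtain ⟨j, -, hj⟩ := (Nat.dvd_prime_pow Nat.prime_two).mp (orderOf_dvd_of_pow_eq_one hk)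
    have hj' : j ≤ 2 := (Nat.pow_le_pow_iff_right (by norm_num)).mp (show 2 ^ j ≤ 2 ^ 2 by
      rw [← hj]; exact (hle g).2)
    rw [← orderOf_dvd_iff_pow_eq_one, hj]
    exact pow_dvd_pow 2 hj'
  have hpow3 : ∀ g : G, (∃ k, g ^ 3 ^ k = 1) → g ^ 3 = 1 := fun g ⟨k, hk⟩ => by
    obtain ⟨j, -, hj⟩ := (Nat.dvd_prime_pow Nat.prime_three).mp (orderOf_dvd_of_pow_eq_one hk)
    have hj' : j ≤ 1 := by
      by_contra hc
      have := Nat.pow_le_pow_right (show 0 < 3 by norm_num) (show 2 ≤ j by omega)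
      have := (hle g).2
      omega
    rw [← orderOf_dvd_iff_pow_eq_one, hj]
    exact (pow_dvd_pow 3 hj').trans (by norm_num)
  have hno6 : ∀ a v : G, a ^ 4 = 1 → v ^ 3 = 1 → a * v = v * a → a = 1 ∨ v = 1 := by
    intro a v ha hv hc
    by_contra! hne
    have hv3 : orderOf v = 3 := orderOf_eq_prime hv hne.2
    have ha2 : 2 ≤ orderOf a := by
      have := (hle a).1
      have : orderOf a ≠ 1 := fun h => hne.1 (orderOf_eq_one_iff.mp h)
      omega
    have hcop : Nat.Coprime (orderOf a) (orderOf v) := by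
      rw [hv3]
      exact Nat.Coprime.coprime_dvd_left (orderOf_dvd_of_pow_eq_one ha) (by norm_num)
    have := (hle (a * v)).2
    rw [Commute.orderOf_mul_eq_mul_orderOf_of_coprime hc hcop, hv3] at this
    omega
  have hprime : ∀ r : ℕ, r.Prime → r ∣ Nat.card G → r = 2 ∨ r = 3 := by
    intro r hr hd
    haveI : Fact r.Prime := ⟨hr⟩
    obtain ⟨g, hg⟩ := exists_prime_orderOf_dvd_card' r hd
    have h4 := hg ▸ (hle g).2
    have h2 := hr.two_le
    rcases (show r = 2 ∨ r = 3 ∨ r = 4 by omega) with h | h | h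
    · exact Or.inl h
    · exact Or.inr h
    · subst h; norm_num at hr
  haveI : Group.IsSolvable G := by
    obtain ⟨a, m, hm, hGm⟩ := Nat.exists_eq_pow_mul_and_not_dvd (Nat.card_pos (α := G)).ne' 2 (by norm_num)
    obtain ⟨b, m', hm', hm3⟩ := Nat.exists_eq_pow_mul_and_not_dvd (n := m)
      (fun h0 => (Nat.card_pos (α := G)).ne' (by rw [hGm, h0, mul_zero])) 3 (by norm_num)
    have hm1 : m' = 1 := Nat.eq_one_iff_not_exists_prime_dvd.mpr fun r hr hd => by
      rcases hprime r hr (hGm ▸ hm3 ▸ (hd.mul_left _).mul_left _) with rfl | rfl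
      · exact hm (hm3 ▸ hd.mul_left _)
      · exact hm' hd
    exact CfsgLib.Char.burnside_pq Nat.prime_two Nat.prime_three _ G a b rfl (by rw [hGm, hm3, hm1, mul_one])
  haveI : Nontrivial G := ⟨⟨g3, 1, fun h => by rw [h, orderOf_one] at hg3; norm_num at hg3⟩⟩
  have hcore : ∀ (K : Type u) [Group K] [Finite K], Group.IsSolvable K → Nat.card K ∣ Nat.card G →
      1 < Nat.card K → Cfsg.pCore 2 K ≠ ⊥ ∨ Cfsg.pCore 3 K ≠ ⊥ := by
    intro K _ _ hs hd h1
    haveI := hs
    haveI : Nontrivial K := Finite.one_lt_card_iff_nontrivial.mp h1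
    obtain ⟨r, hr, hne⟩ := CfsgLib.Core.exists_pCore_ne_bot (G := K)
    haveI : Fact r.Prime := ⟨hr⟩
    have hrd : r ∣ Nat.card K := by
      obtain ⟨e, he⟩ := (CfsgLib.Core.isPGroup_pCore (G := K) r).exists_card_eq
      have he0 : e ≠ 0 := fun h0 => hne (Subgroup.eq_bot_of_card_eq _ (by rw [he, h0, pow_zero]))
      exact (he ▸ dvd_pow_self r he0).trans (Subgroup.card_subgroup_dvd_card _)
    rcases hprime r hr (hrd.trans hd) with rfl | rfl
    · exact Or.inl hne
    · exact Or.inr hne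
  by_cases hO3 : Cfsg.pCore 3 G = ⊥
  swap
  · -- the normal `3`-subgroup
    set N := Cfsg.pCore 3 G with hNdef
    haveI hNn : N.Normal := CfsgLib.Core.normal_pCore 3
    have hN3 : IsPGroup 3 N := CfsgLib.Core.isPGroup_pCore 3
    have hNe : ∀ v ∈ N, v ^ 3 = 1 := fun v hv => hpow3 v (by
      obtain ⟨k, hk⟩ := hN3 ⟨v, hv⟩
      exact ⟨k, congrArg Subtype.val hk⟩)
    let S : Sylow 2 G := default
    have hSe : ∀ a ∈ (S : Subgroup G), a ^ 4 = 1 := fun a ha => hpow2 a (by
      obtain ⟨k, hk⟩ := S.2 ⟨a, ha⟩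
      exact ⟨k, congrArg Subtype.val hk⟩)
    have hfree : ∀ a ∈ (S : Subgroup G), a ≠ 1 → ∀ v ∈ N, a * v = v * a → v = 1 :=
      fun a ha ha1 v hv hc => (hno6 a v (hSe a ha) (hNe v hv) hc).resolve_left ha1
    have hinv : ∀ t ∈ (S : Subgroup G), t ≠ 1 → t * t = 1 → ∀ v ∈ N, t * v * t⁻¹ = v⁻¹ := by
      intro t ht ht1 ht2 v hv
      have hti : t⁻¹ = t := inv_eq_of_mul_eq_one_right ht2
      let g : N → N := fun z => ⟨(z : G)⁻¹ * (t * z * t⁻¹), mul_mem (inv_mem z.2) (hNn.conj_mem z z.2 t)⟩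
      have hg : Function.Injective g := by
        intro a b h
        have h1 : (a : G)⁻¹ * (t * a * t⁻¹) = (b : G)⁻¹ * (t * b * t⁻¹) := congrArg Subtype.val h
        have h2 := hfree t ht ht1 ((b : G) * (a : G)⁻¹) (mul_mem b.2 (inv_mem a.2)) (by
          calc t * ((b : G) * (a : G)⁻¹)
              = b * ((b : G)⁻¹ * (t * b * t⁻¹)) * ((a : G)⁻¹ * (t * a * t⁻¹))⁻¹ * (a : G)⁻¹ * t := by group
            _ = (b : G) * (a : G)⁻¹ * t := by rw [h1]; group)
        exact Subtype.ext (mul_inv_eq_one.mp h2).symm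
      obtain ⟨z, hz⟩ := Finite.injective_iff_surjective.mp hg ⟨v, hv⟩
      have hz' : (z : G)⁻¹ * (t * z * t⁻¹) = v := congrArg Subtype.val hz
      rw [← hz']
      calc t * ((z : G)⁻¹ * (t * z * t⁻¹)) * t⁻¹ = t * (z : G)⁻¹ * t * z * (t * t)⁻¹ := by group
        _ = _ := by simp only [ht2, inv_one, mul_one, mul_inv_rev, inv_inv, hti, mul_assoc]
    have huniq : ∀ s ∈ (S : Subgroup G), ∀ t ∈ (S : Subgroup G), orderOf s = 2 → orderOf t = 2 → s = t := by
      intro s hs t ht hs2 ht2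
      obtain ⟨v, hv, hv1⟩ := N.bot_or_exists_ne_one.resolve_left hO3
      have sq : ∀ a : G, orderOf a = 2 → a ≠ 1 ∧ a * a = 1 := fun a ha =>
        ⟨fun h => by rw [h, orderOf_one] at ha; norm_num at ha,
          by rw [← pow_two, ← ha, pow_orderOf_eq_one]⟩
      have hst : (s * t) * v = v * (s * t) := by
        have h1 := hinv t ht (sq t ht2).1 (sq t ht2).2 v hv
        have h2 := hinv s hs (sq s hs2).1 (sq s hs2).2 v⁻¹ (inv_mem hv)
        calc (s * t) * v = s * (t * v * t⁻¹) * t := by group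
          _ = (s * v⁻¹ * s⁻¹) * (s * t) := by rw [h1]; group
          _ = v * (s * t) := by rw [h2, inv_inv]
      by_contra hne
      refine hv1 (hfree (s * t) (mul_mem hs ht) (fun h => hne ?_) v hv hst)
      rw [← inv_eq_of_mul_eq_one_left h]
      exact inv_eq_of_mul_eq_one_right (sq t ht2).2
    -- the quotient has order prime to three
    have h3 : ¬ 3 ∣ N.index := by
      intro h3
      rw [Subgroup.index_eq_card] at h3
      obtain ⟨q, hq⟩ := exists_prime_orderOf_dvd_card' 3 h3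
      have hQ : Cfsg.pCore 2 (G ⧸ N) ≠ ⊥ := by
        refine (hcore (G ⧸ N) inferInstance (Subgroup.card_quotient_dvd_card N) ?_).resolve_right ?_
        · exact lt_of_lt_of_le (by norm_num) (Nat.le_of_dvd Nat.card_pos h3)
        · exact fun hne => hne (CfsgLib.Core.pCore_quotient_pCore 3)
      set π := QuotientGroup.mk' N
      have hQS : Cfsg.pCore 2 (G ⧸ N) ≤ (S : Subgroup G).map π :=
        CfsgLib.Core.pCore_le_sylow (S.mapSurjective (QuotientGroup.mk'_surjective N))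
      have hSN : ∀ a ∈ (S : Subgroup G), π a = 1 → a = 1 := fun a ha h1 => by
        have haN : a ∈ N := (QuotientGroup.eq_one_iff a).mp h1
        exact orderOf_eq_one_iff.mp (Nat.eq_one_of_dvd_coprimes (show Nat.Coprime 4 3 by norm_num)
          (orderOf_dvd_of_pow_eq_one (hSe a ha)) (orderOf_dvd_of_pow_eq_one (hNe a haN)))
      have hlift : ∀ z ∈ Cfsg.pCore 2 (G ⧸ N), orderOf z = 2 → ∃ s ∈ (S : Subgroup G), orderOf s = 2 ∧ π s = z := by
        intro z hz hz2
        obtain ⟨s, hs, rfl⟩ := hQS hz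
        refine ⟨s, hs, orderOf_eq_prime ?_ ?_, rfl⟩
        · refine hSN _ (pow_mem hs 2) ?_
          rw [map_pow, ← hz2, pow_orderOf_eq_one]
        · intro h1
          rw [h1, map_one, orderOf_one] at hz2
          norm_num at hz2
      obtain ⟨e, he⟩ := (CfsgLib.Core.isPGroup_pCore (G := G ⧸ N) 2).exists_card_eq
      have he0 : e ≠ 0 := fun h0 => hQ (Subgroup.eq_bot_of_card_eq _ (by rw [he, h0, pow_zero]))
      obtain ⟨⟨z, hzQ⟩, hz⟩ := exists_prime_orderOf_dvd_card' 2 (he ▸ dvd_pow_self 2 he0)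
      rw [Subgroup.orderOf_mk] at hz
      obtain ⟨s, hs, hs2, hsz⟩ := hlift z hzQ hz
      have hcomm : q * z = z * q := by
        have hzQ' := (CfsgLib.Core.normal_pCore (G := G ⧸ N) 2).conj_mem z hzQ q
        obtain ⟨t, ht, ht2, htz⟩ := hlift _ hzQ' (by
          rw [← MulAut.conj_apply, MulEquiv.orderOf_eq, hz])
        rw [huniq s hs t ht hs2 ht2, htz] at hsz
        exact mul_inv_eq_iff_eq_mul.mp hsz
      have h6 : orderOf (q * z) = 6 := by
        rw [Commute.orderOf_mul_eq_mul_orderOf_of_coprime hcomm (by rw [hq, hz]; norm_num), hq, hz]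
      obtain ⟨g, hg⟩ := QuotientGroup.mk'_surjective N (q * z)
      have hd : orderOf (q * z) ∣ orderOf g := hg ▸ orderOf_map_dvd π g
      have := Nat.le_of_dvd (hle g).1 hd
      have := (hle g).2
      omega
    have hNodd : Nat.Coprime 2 (Nat.card N) := by
      obtain ⟨e, he⟩ := hN3.exists_card_eq
      rw [he]
      exact Nat.Coprime.pow_right e (by norm_num)
    have hidx : N.index = Nat.card ↥(S : Subgroup G) := by
      obtain ⟨e, he⟩ := S.2.exists_card_eq
      have hinj : Function.Injective ((QuotientGroup.mk' N).comp (S : Subgroup G).subtype) := by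
        rw [injective_iff_map_eq_one]
        intro a ha
        have haN : (a : G) ∈ N := (QuotientGroup.eq_one_iff _).mp ha
        exact Subtype.ext (orderOf_eq_one_iff.mp (Nat.eq_one_of_dvd_coprimes (show Nat.Coprime 4 3 by norm_num)
          (orderOf_dvd_of_pow_eq_one (hSe a a.2)) (orderOf_dvd_of_pow_eq_one (hNe a haN))))
      refine Nat.dvd_antisymm ?_ ?_
      · have hd : N.index ∣ Nat.card ↥(S : Subgroup G) * (S : Subgroup G).index := by
          rw [Subgroup.card_mul_index]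
          exact Subgroup.index_dvd_card N
        refine (Nat.Coprime.dvd_mul_right ?_).mp hd
        refine Nat.coprime_of_dvd fun r hr hr1 hr2 => ?_
        rcases hprime r hr (hr1.trans (Subgroup.index_dvd_card N)) with rfl | rfl
        · exact S.not_dvd_index hr2
        · exact h3 hr1
      · rw [Subgroup.index_eq_card]
        exact Subgroup.card_dvd_of_injective _ hinj
    have hbij : Function.Bijective ((QuotientGroup.mk' N).comp (S : Subgroup G).subtype) := by
      rw [Nat.bijective_iff_injective_and_card]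
      refine ⟨?_, by rw [← hidx, Subgroup.index_eq_card]⟩
      rw [injective_iff_map_eq_one]
      intro a ha
      have haN : (a : G) ∈ N := (QuotientGroup.eq_one_iff _).mp ha
      exact Subtype.ext (orderOf_eq_one_iff.mp (Nat.eq_one_of_dvd_coprimes (show Nat.Coprime 4 3 by norm_num)
        (orderOf_dvd_of_pow_eq_one (hSe a a.2)) (orderOf_dvd_of_pow_eq_one (hNe a haN))))
    let e : ↥(S : Subgroup G) ≃* G ⧸ N := MulEquiv.ofBijective _ hbij
    -- an element of order four, and an involution, in `S`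
    obtain ⟨s4, hs4⟩ : ∃ s : ↥(S : Subgroup G), orderOf s = 4 := by
      have hp : IsPGroup 2 ↥(Subgroup.zpowers g4) := IsPGroup.of_card (n := 2) (by
        rw [Nat.card_zpowers, hg4]; norm_num)
      obtain ⟨S', hS'⟩ := hp.exists_le_sylow
      refine ⟨(Sylow.equiv S' S) ⟨g4, hS' (Subgroup.mem_zpowers g4)⟩, ?_⟩
      rw [MulEquiv.orderOf_eq, Subgroup.orderOf_mk, hg4]
    have ht2 : orderOf ((s4 : G) ^ 2) = 2 := by
      rw [orderOf_pow_of_dvd (by norm_num) (by rw [Subgroup.orderOf_coe, hs4]; norm_num), Subgroup.orderOf_coe, hs4]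
    have hNel : Cfsg.IsElementaryAbelian 3 N := by
      have ht1 : (s4 : G) ^ 2 ≠ 1 := fun h1 => by rw [h1, orderOf_one] at ht2; norm_num at ht2
      have htt : (s4 : G) ^ 2 * (s4 : G) ^ 2 = 1 := by
        rw [← pow_two]; exact orderOf_dvd_iff_pow_eq_one.mp ht2.dvd
      have hi := hinv _ (pow_mem s4.2 2) ht1 htt
      refine ⟨⟨⟨fun a b => Subtype.ext ?_⟩⟩, hNe⟩
      show (a : G) * b = b * a
      have h1 := hi _ (mul_mem a.2 b.2)
      rw [← MulAut.conj_apply, map_mul, MulAut.conj_apply, MulAut.conj_apply, hi _ a.2, hi _ b.2, mul_inv_rev] at h1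
      have := congrArg (·⁻¹) h1
      simpa using this.symm
    refine ⟨N, hNn, Or.inr (Or.inr ⟨hNel, ?_⟩)⟩
    have hexp : ∀ a : ↥(S : Subgroup G), a ^ 4 = 1 := fun a => Subtype.ext (hSe a a.2)
    have hcyc : IsCyclic ↥(S : Subgroup G) → IsCyclic (G ⧸ N) ∧ N.index = 4 := by
      intro hc
      refine ⟨e.isCyclic.mp hc, ?_⟩
      rw [hidx]
      obtain ⟨g, hg⟩ := hc.exists_generator
      have h1 := orderOf_eq_card_of_forall_mem_zpowers hg
      refine le_antisymm ?_ ?_
      · rw [← h1]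
        exact Nat.le_of_dvd (by norm_num) (orderOf_dvd_of_pow_eq_one (hexp g))
      · rw [← hs4]
        exact Nat.le_of_dvd Nat.card_pos (orderOf_dvd_natCard s4)
    rcases CfsgLib.Core.cyclic_or_quaternion_of_fpf S.2
        (by rw [Subgroup.normalizer_eq_top]; exact le_top) hO3 hfree with hc | ⟨-, n, ⟨f⟩⟩
    · exact Or.inl (hcyc hc)
    · haveI : NeZero (2 ^ n) := ⟨by positivity⟩
      have hn : n ≤ 1 := by
        have h1 : orderOf (f.symm (QuaternionGroup.a 1)) ∣ 4 := orderOf_dvd_of_pow_eq_one (hexp _)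
        rw [MulEquiv.orderOf_eq, QuaternionGroup.orderOf_a_one] at h1
        have h2 := Nat.le_of_dvd (by norm_num) h1
        exact (Nat.pow_le_pow_iff_right (a := 2) (by norm_num)).mp (by omega)
      rcases (show n = 0 ∨ n = 1 by omega) with rfl | rfl
      · refine Or.inl (hcyc ?_)
        refine isCyclic_of_orderOf_eq_card s4 ?_
        rw [hs4, Nat.card_congr f.toEquiv, Nat.card_eq_fintype_card, QuaternionGroup.card]
        norm_num
      · exact Or.inr ⟨e.symm.trans f⟩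
  -- the normal `2`-subgroup
  set N := Cfsg.pCore 2 G with hNdef
  haveI hNn : N.Normal := CfsgLib.Core.normal_pCore 2
  have hN2 : IsPGroup 2 N := CfsgLib.Core.isPGroup_pCore 2
  have hNne : N ≠ ⊥ := (hcore G inferInstance dvd_rfl Finite.one_lt_card).resolve_right fun h => h hO3
  have hNe : ∀ v ∈ N, v ^ 4 = 1 := fun v hv => hpow2 v (by
    obtain ⟨k, hk⟩ := hN2 ⟨v, hv⟩
    exact ⟨k, congrArg Subtype.val hk⟩)
  have hfix : ∀ x : G, x ^ 3 = 1 → x ≠ 1 → ∀ v ∈ N, x * v = v * x → v = 1 := fun x hx hx1 v hv hc =>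
    (hno6 v x (hNe v hv) hx hc.symm).resolve_right hx1
  -- the Sylow `3`-subgroups have order three
  let P : Sylow 3 G := default
  have hPe : ∀ a ∈ (P : Subgroup G), a ^ 3 = 1 := fun a ha => hpow3 a (by
    obtain ⟨k, hk⟩ := P.2 ⟨a, ha⟩
    exact ⟨k, congrArg Subtype.val hk⟩)
  have hP3 : Nat.card ↥(P : Subgroup G) = 3 := by
    rcases CfsgLib.Core.cyclic_or_quaternion_of_fpf P.2
        (by rw [Subgroup.normalizer_eq_top]; exact le_top) hNne
        (fun a ha ha1 => hfix a (hPe a ha) ha1) with hc | ⟨h32, -⟩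
    · obtain ⟨g, hg⟩ := hc.exists_generator
      have h1 := orderOf_eq_card_of_forall_mem_zpowers hg
      have hd : 3 ∣ Nat.card ↥(P : Subgroup G) :=
        P.dvd_card_of_dvd_card (hg3 ▸ orderOf_dvd_natCard g3)
      refine Nat.dvd_antisymm ?_ hd
      rw [← h1]
      exact orderOf_dvd_of_pow_eq_one (Subtype.ext (hPe g g.2))
    · norm_num at h32
  set π := QuotientGroup.mk' N
  have hq3 : 3 ∣ Nat.card (G ⧸ N) := by
    have hmul := Subgroup.card_eq_card_quotient_mul_card_subgroup N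
    have hd : 3 ∣ Nat.card G := hg3 ▸ orderOf_dvd_natCard g3
    obtain ⟨e, he⟩ := hN2.exists_card_eq
    rw [hmul, he] at hd
    exact (Nat.Coprime.dvd_mul_right (Nat.Coprime.pow_right e (by norm_num))).mp hd
  set T := Cfsg.pCore 3 (G ⧸ N) with hT
  haveI hTn : T.Normal := CfsgLib.Core.normal_pCore 3
  have hTne : T ≠ ⊥ :=
    (hcore (G ⧸ N) inferInstance (Subgroup.card_quotient_dvd_card N)
      (lt_of_lt_of_le (by norm_num) (Nat.le_of_dvd Nat.card_pos hq3))).resolve_left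
      fun h => h (CfsgLib.Core.pCore_quotient_pCore 2)
  let hPq := P.mapSurjective (QuotientGroup.mk'_surjective N)
  have hT3 : Nat.card T = 3 := by
    obtain ⟨e, he⟩ := (CfsgLib.Core.isPGroup_pCore (G := G ⧸ N) 3).exists_card_eq
    have he0 : e ≠ 0 := fun h0 => hTne (Subgroup.eq_bot_of_card_eq _ (by rw [he, h0, pow_zero]))
    have hle' : T ≤ (P : Subgroup G).map π :=
      CfsgLib.Core.pCore_le_sylow (P.mapSurjective (QuotientGroup.mk'_surjective N))
    have h1 : Nat.card T ∣ 3 :=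
      (Subgroup.card_dvd_of_le hle').trans ((Subgroup.card_map_dvd (P : Subgroup G) π).trans hP3.dvd)
    exact Nat.dvd_antisymm h1 (he ▸ dvd_pow_self 3 he0)
  obtain ⟨⟨τ, hτT⟩, hτ⟩ := exists_prime_orderOf_dvd_card' 3 (hT3 ▸ dvd_rfl : 3 ∣ Nat.card T)
  rw [Subgroup.orderOf_mk] at hτ
  have hzT : Subgroup.zpowers τ = T := Subgroup.eq_of_le_of_card_ge (Subgroup.zpowers_le.mpr hτT)
    (by rw [hT3, Nat.card_zpowers, hτ])
  -- the centralizer of the generator
  have hC : ∀ q : G ⧸ N, q * τ = τ * q → q ∈ T := by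
    intro q hc
    by_contra hqT
    obtain ⟨g, rfl⟩ := QuotientGroup.mk'_surjective N q
    have ho : orderOf (π g) ∣ orderOf g := orderOf_map_dvd π g
    rcases (show orderOf g = 1 ∨ orderOf g = 2 ∨ orderOf g = 3 ∨ orderOf g = 4 by
      have := hle g; omega) with ho' | ho' | ho' | ho'
    · exact hqT (by rw [orderOf_eq_one_iff.mp ho', map_one]; exact one_mem T)
    all_goals rw [ho'] at ho
    case' inr.inr.inl =>
      -- a `3`-element centralizing `T` lies in it
      have hp : IsPGroup 3 ↥(Subgroup.zpowers (π g) ⊔ T) := (IsPGroup.to_sup_of_normal_right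
        (fun y => ⟨1, Subtype.ext (by
          obtain ⟨i, hi⟩ := y.2
          simp only at hi
          rw [SubmonoidClass.coe_pow, pow_one, ← hi, ← zpow_natCast, ← zpow_mul, mul_comm, zpow_mul,
            zpow_natCast, orderOf_dvd_iff_pow_eq_one.mp ho, one_zpow]
          rfl)⟩) (CfsgLib.Core.isPGroup_pCore 3))
      obtain ⟨P', hP'⟩ := hp.exists_le_sylow
      have h1 : Nat.card ↥(Subgroup.zpowers (π g) ⊔ T) ∣ 3 := by
        refine (Subgroup.card_dvd_of_le hP').trans ?_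
        rw [Nat.card_congr (Sylow.equiv P' hPq).toEquiv]
        exact (Subgroup.card_map_dvd (P : Subgroup G) π).trans hP3.dvd
      have h2 : Subgroup.zpowers (π g) ⊔ T = T := (Subgroup.eq_of_le_of_card_ge le_sup_right
        (by rw [hT3]; exact Nat.le_of_dvd (by norm_num) h1)).symm
      exact hqT (h2 ▸ Subgroup.mem_sup_left (Subgroup.mem_zpowers _))
    all_goals
      have hne1 : orderOf (π g) ≠ 1 := fun h1 => hqT (by
        rw [orderOf_eq_one_iff.mp h1]; exact one_mem T)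
      have h4 : orderOf (π g) ∣ 4 := ho.trans (by norm_num)
      have h6 : orderOf (π g * τ) = orderOf (π g) * 3 := by
        rw [Commute.orderOf_mul_eq_mul_orderOf_of_coprime hc (by
          rw [hτ]; exact Nat.Coprime.coprime_dvd_left h4 (by norm_num)), hτ]
      obtain ⟨g', hg'⟩ := QuotientGroup.mk'_surjective N (π g * τ)
      have hd : orderOf (π g * τ) ∣ orderOf g' := hg' ▸ orderOf_map_dvd π g'
      have := Nat.le_of_dvd (hle g').1 hd
      have := (hle g').2
      have := orderOf_pos (π g)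
      omega
  have hinvT : ∀ q : G ⧸ N, q ∉ T → q * τ * q⁻¹ = τ⁻¹ := by
    intro q hq
    have hmem : q * τ * q⁻¹ ∈ Subgroup.zpowers τ := hzT.symm ▸ hTn.conj_mem τ hτT q
    obtain ⟨i, hi⟩ := (isOfFinOrder_of_finite τ).mem_powers_iff_mem_zpowers.mpr hmem
    simp only at hi
    rw [← pow_mod_orderOf, hτ] at hi
    rcases (show i % 3 = 0 ∨ i % 3 = 1 ∨ i % 3 = 2 by omega) with e | e | e <;> rw [e] at hi
    · rw [pow_zero, eq_comm, conj_eq_one_iff] at hi
      rw [hi, orderOf_one] at hτ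
      norm_num at hτ
    · rw [pow_one] at hi
      exact absurd (hC q (mul_inv_eq_iff_eq_mul.mp hi.symm)) hq
    · rw [← hi]
      exact eq_inv_of_mul_eq_one_left (by rw [← pow_succ]; exact orderOf_dvd_iff_pow_eq_one.mp hτ.dvd)
  have hidxT : T.index ∣ 2 := by
    by_cases hall : ∀ q : G ⧸ N, q ∈ T
    · rw [(Subgroup.eq_top_iff' T).mpr hall, Subgroup.index_top]
      exact one_dvd 2
    · push_neg at hall
      obtain ⟨q₀, hq₀⟩ := hall
      refine (Subgroup.index_eq_two_iff.mpr ⟨q₀, fun b => ?_⟩).dvd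
      by_cases hb : b ∈ T
      · exact Or.inr ⟨hb, fun h1 => hq₀ ((mul_mem_cancel_left hb).mp h1)⟩
      · refine Or.inl ⟨hC _ ?_, hb⟩
        have h1 : (b * q₀) * τ * (b * q₀)⁻¹ = τ := by
          calc (b * q₀) * τ * (b * q₀)⁻¹ = b * (q₀ * τ * q₀⁻¹) * b⁻¹ := by group
            _ = τ := by rw [hinvT q₀ hq₀, ← conj_inv, hinvT b hb, inv_inv]
        exact mul_inv_eq_iff_eq_mul.mp h1
  have hcardq : Nat.card (G ⧸ N) = 3 * T.index := by
    rw [← Subgroup.card_mul_index T, hT3]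
  have hclass := class_two_ind _ G N g3 rfl hN2.isNilpotent (by rw [← hg3, pow_orderOf_eq_one])
    (hfix g3 (by rw [← hg3, pow_orderOf_eq_one]) fun h1 => by rw [h1, orderOf_one] at hg3; norm_num at hg3)
  rcases (Nat.dvd_prime Nat.prime_two).mp hidxT with h1 | h2
  · -- index three
    rw [h1, mul_one] at hcardq
    refine ⟨N, hNn, Or.inl ⟨hN2, ?_, ?_, (Subgroup.index_eq_card N).trans hcardq⟩⟩
    · refine Nat.dvd_antisymm (Monoid.exponent_dvd_of_forall_pow_eq_one fun v => Subtype.ext (hNe v v.2)) ?_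
      have hg4N : g4 ∈ N := by
        have hd : orderOf (π g4) ∣ Nat.gcd 4 3 := Nat.dvd_gcd (hg4 ▸ orderOf_map_dvd π g4)
          (hcardq ▸ orderOf_dvd_natCard _)
        exact (QuotientGroup.eq_one_iff g4).mp (orderOf_eq_one_iff.mp (Nat.dvd_one.mp hd))
      rw [← hg4, ← Subgroup.orderOf_mk g4 hg4N]
      exact Monoid.order_dvd_exponent _
    · haveI := hN2.isNilpotent
      rw [← Subgroup.lowerCentralSeries_eq_bot_iff_nilpotencyClass_le]
      show ⁅⁅(⊤ : Subgroup N), (⊤ : Subgroup N)⁆, (⊤ : Subgroup N)⁆ = ⊥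
      rw [Subgroup.commutator_eq_bot_iff_le_centralizer, Subgroup.commutator_le]
      intro a _ b _
      rw [Subgroup.mem_centralizer_iff]
      exact fun c _ => Subtype.ext (hclass a a.2 b b.2 c c.2).eq.symm
  · -- quotient of degree three
    rw [h2] at hcardq
    obtain ⟨e⟩ := CfsgLib.Core.SmallModuleThree.iso_s3 hcardq fun hab => by
      have htop : T = ⊤ := (Subgroup.eq_top_iff' T).mpr fun q => hC q (hab q τ)
      rw [htop, Subgroup.index_top] at h2
      norm_num at h2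
    refine ⟨N, hNn, Or.inr (Or.inl ⟨?_, ⟨e⟩⟩)⟩
    obtain ⟨x₀, hx₀⟩ := QuotientGroup.mk'_surjective N τ
    -- lift to an element of order three
    obtain ⟨x, hx, hxτ⟩ : ∃ x : G, orderOf x = 3 ∧ π x = τ := by
      have hd : 3 ∣ orderOf x₀ := hτ ▸ hx₀ ▸ orderOf_map_dvd π x₀
      refine ⟨x₀, ?_, hx₀⟩
      obtain ⟨c, hc⟩ := hd
      have := (hle x₀).1
      have := (hle x₀).2
      omega
    have hx3 : x ^ 3 = 1 := by rw [← hx, pow_orderOf_eq_one]
    have hxf := hfix x hx3 fun h1 => by rw [h1, orderOf_one] at hx; norm_num at hx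
    obtain ⟨hsur, hid⟩ := fpf_identity (fun v hv => hNn.conj_mem v hv x) hx3 hxf
    obtain ⟨q, hq⟩ : ∃ q : G ⧸ N, q ∉ T := by
      by_contra! hall
      rw [(Subgroup.eq_top_iff' T).mpr hall, Subgroup.index_top] at h2
      norm_num at h2
    obtain ⟨g, rfl⟩ := QuotientGroup.mk'_surjective N q
    -- an element inverting `x`
    obtain ⟨t, htx, htq⟩ : ∃ t : G, t * x * t⁻¹ = x⁻¹ ∧ π t = π g := by
      have hmem : (g * x * g⁻¹) * x ∈ N := by
        rw [← QuotientGroup.eq_one_iff]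
        show π ((g * x * g⁻¹) * x) = 1
        rw [map_mul, map_mul, map_mul, map_inv, hxτ, hinvT _ hq, inv_mul_cancel]
      have hxi : ∀ v ∈ N, x⁻¹ * v * x⁻¹⁻¹ ∈ N := fun v hv => hNn.conj_mem v hv x⁻¹
      obtain ⟨w, hw, he⟩ := (fpf_identity hxi (by rw [inv_pow, hx3, inv_one]) fun v hv hc =>
        hxf v hv (Commute.inv_left_iff.mp hc).eq).1 _ hmem
      refine ⟨w * g, ?_, ?_⟩
      · calc w * g * x * (w * g)⁻¹ = w * ((g * x * g⁻¹) * x) * x⁻¹ * w⁻¹ := by group
          _ = x⁻¹ := by rw [he]; group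
      · rw [map_mul, show π w = 1 from (QuotientGroup.eq_one_iff w).mpr hw, one_mul]
    have hqT : π t ∉ T := htq ▸ hq
    -- elements outside the subgroup of index two
    have hsq : ∀ r : G ⧸ N, r ∉ T → r ^ 2 = 1 := by
      intro r hr
      by_contra h1
      have hrT : r ^ 2 ∈ T := Subgroup.sq_mem_of_index_two h2 r
      have ho : orderOf (r ^ 2) = 3 := orderOf_eq_prime (by
        have := pow_card_eq_one' (x := (⟨r ^ 2, hrT⟩ : T))
        rw [hT3] at this
        exact congrArg Subtype.val this) h1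
      have hz : Subgroup.zpowers (r ^ 2) = T := Subgroup.eq_of_le_of_card_ge (Subgroup.zpowers_le.mpr hrT)
        (by rw [hT3, Nat.card_zpowers, ho])
      obtain ⟨i, hi⟩ := Subgroup.mem_zpowers_iff.mp (hz.symm ▸ hτT : τ ∈ Subgroup.zpowers (r ^ 2))
      exact hr (hC r (by rw [← hi]; exact ((Commute.refl r).pow_right 2).zpow_right i))
    have hout : ∀ y : G, π y ∉ T → y ^ 4 = 1 := by
      intro y hy
      have hyN : y ^ 2 ∈ N := (QuotientGroup.eq_one_iff _).mp (by
        show π (y ^ 2) = 1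
        rw [map_pow]; exact hsq _ hy)
      refine hpow2 y ⟨3, ?_⟩
      rw [show (2 : ℕ) ^ 3 = 2 * 4 by norm_num, pow_mul]
      exact hNe _ hyN
    have hti : t⁻¹ = t ∧ t * t = 1 := by
      have hc : t ^ 2 * x = x * t ^ 2 := by
        calc t ^ 2 * x = t * (t * x * t⁻¹) * t := by rw [pow_two]; group
          _ = (t * x * t⁻¹)⁻¹ * t ^ 2 := by rw [htx, pow_two]; nth_rw 2 [← htx]; group
          _ = x * t ^ 2 := by rw [htx, inv_inv]
      have hx1 : x ≠ 1 := fun h1 => by rw [h1, orderOf_one] at hx; norm_num at hx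
      have ht1 : t ^ 2 = 1 := (hno6 (t ^ 2) x (by rw [← pow_mul, mul_comm, pow_mul, hout t hqT, one_pow])
        hx3 hc).resolve_right hx1
      rw [pow_two] at ht1
      exact ⟨inv_eq_of_mul_eq_one_right ht1, ht1⟩
    have hrel : ∀ s : G, s * s = 1 → π s ∉ T → ∀ v ∈ N, s * v * s⁻¹ * v * (s * v * s⁻¹) * v = 1 := by
      intro s hs hsT v hv
      have hsi : s⁻¹ = s := inv_eq_of_mul_eq_one_right hs
      have h4 := hout (s * v) (by rw [map_mul, show π v = 1 from (QuotientGroup.eq_one_iff v).mpr hv, mul_one]; exact hsT)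
      rw [hsi, ← h4]
      simp only [pow_succ, pow_zero, one_mul, mul_assoc]
    have hτT' : π x ∈ T := hxτ.symm ▸ hτT
    have hxt : x * t * (x * t) = 1 := by
      calc x * t * (x * t) = x * (t * x * t⁻¹) * (t * t) := by group
        _ = 1 := by rw [htx, mul_inv_cancel, hti.2, mul_one]
    have hxxt : x * x * t * (x * x * t) = 1 := by
      calc x * x * t * (x * x * t) = x * x * (t * x * t⁻¹) * (t * x * t⁻¹) * (t * t) := by group
        _ = 1 := by rw [htx, hti.2]; group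
    have hcm : ∀ a ∈ N, ∀ b ∈ N, ⁅a, b⁆ ∈ N := fun a ha b hb => by
      rw [commutatorElement_def]
      exact mul_mem (mul_mem (mul_mem ha hb) (inv_mem ha)) (inv_mem hb)
    have hexp2 : ∀ v ∈ N, v * v = 1 := by
      intro v hv
      set a := t * v * t⁻¹ with ha
      have haN : a ∈ N := hNn.conj_mem v hv t
      set b := x * a * x⁻¹ with hb
      set c := x ^ 2 * a * (x ^ 2)⁻¹ with hc
      have hbN : b ∈ N := hNn.conj_mem a haN x
      have hcN : c ∈ N := hNn.conj_mem a haN _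
      have habc : a * b * c = 1 := hid a haN
      have hR0 : a * v * a * v = 1 := hrel t hti.2 hqT v hv
      have hR1 : b * v * b * v = 1 := by
        have := hrel (x * t) hxt (fun hmem => hqT (by
          rw [map_mul] at hmem; exact (mul_mem_cancel_left hτT').mp hmem)) v hv
        rwa [show x * t * v * (x * t)⁻¹ = b by rw [hb, ha]; group] at this
      have hR2 : c * v * c * v = 1 := by
        have := hrel (x * x * t) hxxt (fun hmem => hqT (by
          rw [map_mul, map_mul] at hmem; exact (mul_mem_cancel_left (mul_mem hτT' hτT')).mp hmem)) v hv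
        rwa [show x * x * t * v * (x * x * t)⁻¹ = c by rw [hc, ha, pow_two]; group] at this
      -- modulo the centre of `N` the square of `v` is trivial
      have hv2c : ∀ w ∈ N, Commute (v * v) w := by
        letI : CommGroup (↥N ⧸ Subgroup.center ↥N) :=
          { (inferInstance : Group (↥N ⧸ Subgroup.center ↥N)) with
            mul_comm := fun A B => by
              induction A using QuotientGroup.induction_on with | _ A => ?_
              induction B using QuotientGroup.induction_on with | _ B => ?_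
              rw [← commutatorElement_eq_one_iff_mul_comm]
              show QuotientGroup.mk' (Subgroup.center ↥N) A * QuotientGroup.mk' _ B *
                (QuotientGroup.mk' _ A)⁻¹ * (QuotientGroup.mk' _ B)⁻¹ = 1
              rw [← map_inv, ← map_inv, ← map_mul, ← map_mul, ← map_mul]
              refine (QuotientGroup.eq_one_iff _).mpr (Subgroup.mem_center_iff.mpr fun d => Subtype.ext ?_)
              exact (hclass A A.2 B B.2 d d.2).eq.symm }
        let ρ := QuotientGroup.mk' (Subgroup.center ↥N)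
        set A := ρ ⟨a, haN⟩ with hA
        set B := ρ ⟨b, hbN⟩ with hB
        set C := ρ ⟨c, hcN⟩ with hC'
        set V := ρ ⟨v, hv⟩ with hV
        have e : ∀ {p} (hp : p ∈ N), p * v * p * v = 1 → ρ ⟨p, hp⟩ * V * ρ ⟨p, hp⟩ * V = 1 := fun {p} hp hh => by
          rw [hV, ← map_mul, ← map_mul, ← map_mul, ← map_one ρ]
          exact congrArg ρ (Subtype.ext hh)
        have e3 : A * B * C = 1 := by
          rw [hA, hB, hC', ← map_mul, ← map_mul, ← map_one ρ]
          exact congrArg ρ (Subtype.ext habc)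
        have e4 : V * V * V * V = 1 := by
          rw [hV, ← map_mul, ← map_mul, ← map_mul, ← map_one ρ]
          refine congrArg ρ (Subtype.ext ?_)
          show v * v * v * v = 1
          rw [← hNe v hv]; simp only [pow_succ, pow_zero, one_mul]
        have e6 : V * V = 1 := by
          calc V * V = (A * V * A * V) * (B * V * B * V) * (C * V * C * V) *
                ((A * B * C) * (A * B * C))⁻¹ * (V * V * V * V)⁻¹ := by
                rw [eq_mul_inv_iff_mul_eq, eq_mul_inv_iff_mul_eq]; ac_rfl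
            _ = 1 := by rw [e haN hR0, e hbN hR1, e hcN hR2, e3, e4]; group
        intro w hw
        have hmem : (⟨v, hv⟩ * ⟨v, hv⟩ : ↥N) ∈ Subgroup.center ↥N := (QuotientGroup.eq_one_iff _).mp e6
        exact (congrArg Subtype.val (Subgroup.mem_center_iff.mp hmem ⟨w, hw⟩)).symm
      -- the commutators with `v`
      set p := a⁻¹ * v * a * v⁻¹ with hp
      set q' := b⁻¹ * v * b * v⁻¹ with hq'
      set r := c⁻¹ * v * c * v⁻¹ with hr
      have hcen : ∀ d ∈ N, ∀ w ∈ N, Commute (d⁻¹ * v * d * v⁻¹) w := fun d hd w hw => by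
        have := hclass d⁻¹ (inv_mem hd) v hv w hw
        rwa [commutatorElement_def, inv_inv] at this
      have hpqr : p * q' * r = 1 := by
        have e1 : p * q' = (a * b)⁻¹ * v * (a * b) * v⁻¹ := by
          calc p * q' = (p * b⁻¹) * v * b * v⁻¹ := by rw [hq']; group
            _ = b⁻¹ * p * v * b * v⁻¹ := by rw [(hcen a haN b⁻¹ (inv_mem hbN)).eq]
            _ = _ := by rw [hp]; group
        calc p * q' * r = ((p * q') * c⁻¹) * v * c * v⁻¹ := by rw [hr]; group
          _ = c⁻¹ * (p * q') * v * c * v⁻¹ := by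
            rw [((hcen a haN _ (inv_mem hcN)).mul_left (hcen b hbN _ (inv_mem hcN))).eq]
          _ = (a * b * c)⁻¹ * v * (a * b * c) * v⁻¹ := by rw [e1]; group
          _ = 1 := by rw [habc]; group
      have hsq' : (a * a) * (b * b) * (c * c) = 1 := by
        have := hid (a * a) (mul_mem haN haN)
        rw [show x * (a * a) * x⁻¹ = b * b by rw [hb]; group,
          show x ^ 2 * (a * a) * (x ^ 2)⁻¹ = c * c by rw [hc]; group] at this
        exact this
      set u := v * v with hu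
      have hk : ∀ d ∈ N, ∀ w ∈ N, Commute ((d⁻¹ * v * d * v⁻¹) * u) w := fun d hd w hw =>
        (hcen d hd w hw).mul_left (hv2c w hw)
      have e1 : (a * a) * (p * u) = 1 := by rw [← hR0, hp, hu]; group
      have e2 : (b * b) * (q' * u) = 1 := by rw [← hR1, hq', hu]; group
      have e3 : (c * c) * (r * u) = 1 := by rw [← hR2, hr, hu]; group
      have e7 : (p * u) * (q' * u) * (r * u) = 1 := by
        calc (p * u) * (q' * u) * (r * u)
            = (a * a) * (b * b) * (c * c) * ((p * u) * (q' * u) * (r * u)) := by rw [hsq', one_mul]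
          _ = (a * a) * (b * b) * ((c * c) * ((p * u) * (q' * u))) * (r * u) := by group
          _ = (a * a) * (b * b) * ((p * u) * (q' * u) * (c * c)) * (r * u) := by
            rw [((hk a haN _ (mul_mem hcN hcN)).mul_left (hk b hbN _ (mul_mem hcN hcN))).eq]
          _ = (a * a) * ((b * b) * (p * u)) * (q' * u) * ((c * c) * (r * u)) := by group
          _ = (a * a) * ((p * u) * (b * b)) * (q' * u) * ((c * c) * (r * u)) := by
            rw [(hk a haN _ (mul_mem hbN hbN)).eq]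
          _ = (a * a * (p * u)) * (b * b * (q' * u)) * (c * c * (r * u)) := by group
          _ = 1 := by rw [e1, e2, e3, one_mul, one_mul]
      have huN : u ∈ N := mul_mem hv hv
      have e8 : (p * u) * (q' * u) * (r * u) = (p * q' * r) * (u * u * u) := by
        calc (p * u) * (q' * u) * (r * u) = p * (u * q') * ((u * r) * u) := by group
          _ = p * (q' * u) * ((r * u) * u) := by
            rw [(hcen b hbN u huN).eq, (hcen c hcN u huN).eq]
          _ = p * q' * (u * r) * u * u := by group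
          _ = p * q' * (r * u) * u * u := by rw [(hcen c hcN u huN).eq]
          _ = _ := by group
      rw [e7, hpqr, one_mul] at e8
      have e9 : u * u = 1 := by
        rw [hu, ← hNe v hv]; simp only [pow_succ, pow_zero, one_mul, mul_assoc]
      rw [e9, one_mul] at e8
      exact e8.symm
    refine ⟨⟨⟨fun a b => Subtype.ext ?_⟩⟩, fun v hv => by rw [pow_two]; exact hexp2 v hv⟩
    show (a : G) * b = b * a
    have h1 := hexp2 _ (mul_mem a.2 b.2)
    have ea := inv_eq_of_mul_eq_one_right (hexp2 _ a.2)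
    have eb := inv_eq_of_mul_eq_one_right (hexp2 _ b.2)
    calc (a : G) * b = ((a : G) * b)⁻¹ := (inv_eq_of_mul_eq_one_right h1).symm
      _ = b * a := by rw [mul_inv_rev, ea, eb]

end CfsgLib.Core.OrdersFour
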