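import Cfsg.Agent.Lib.CoreSZ
import Cfsg.Agent.Lib.CoreFitting
import Cfsg.Prelude.Def_Local

/-!
# The upper `p`-series and `p`-length
-/

set_option autoImplicit false

universe u v

namespace CfsgLib.Core.PLen

open Subgroup

variable {G : Type u} [Group G] {p : ℕ}

/-- The `i`-th term of the upper `p`-series. -/
abbrev term (p : ℕ) (G : Type u) [Group G] (i : ℕ) : Subgroup G := (Cfsg.upperPSeries p G i).1

theorem relIndex_eq_card_map (N M : Subgroup G) [N.Normal] :
    N.relIndex M = Nat.card (M.map (QuotientGroup.mk' N)) := by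
  have h2 := Subgroup.relIndex_ker (f := QuotientGroup.mk' N) (K := M)
  rwa [QuotientGroup.ker_mk'] at h2

theorem term_succ_even {i : ℕ} (hi : Even i) : term p G (i + 1) =
    (Cfsg.pPrimeCore p (G ⧸ term p G i)).comap (QuotientGroup.mk' (term p G i)) := by
  show (Cfsg.upperPSeries p G (i + 1)).1 = _
  rw [Cfsg.upperPSeries, if_pos hi]

theorem term_succ_odd {i : ℕ} (hi : ¬ Even i) : term p G (i + 1) =
    (Cfsg.pCore p (G ⧸ term p G i)).comap (QuotientGroup.mk' (term p G i)) := by
  show (Cfsg.upperPSeries p G (i + 1)).1 = _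
  rw [Cfsg.upperPSeries, if_neg hi]

theorem term_le_succ (i : ℕ) : term p G i ≤ term p G (i + 1) := by
  by_cases hi : Even i
  · rw [term_succ_even hi]
    exact (QuotientGroup.ker_mk' _).ge.trans (Subgroup.ker_le_comap _ _)
  · rw [term_succ_odd hi]
    exact (QuotientGroup.ker_mk' _).ge.trans (Subgroup.ker_le_comap _ _)

theorem term_mono {i j : ℕ} (h : i ≤ j) : term p G i ≤ term p G j :=
  monotone_nat_of_le_succ (f := term p G) term_le_succ h

variable [Finite G] [hp : Fact p.Prime]

theorem coprime_relIndex_succ {i : ℕ} (hi : Even i) :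
    ((term p G i).relIndex (term p G (i + 1))).Coprime p := by
  rw [relIndex_eq_card_map, term_succ_even hi,
    Subgroup.map_comap_eq_self_of_surjective (QuotientGroup.mk'_surjective _)]
  exact coprime_card_pPrimeCore p

theorem pow_relIndex_succ {i : ℕ} (hi : ¬ Even i) :
    ∃ m, (term p G i).relIndex (term p G (i + 1)) = p ^ m := by
  rw [relIndex_eq_card_map, term_succ_odd hi,
    Subgroup.map_comap_eq_self_of_surjective (QuotientGroup.mk'_surjective _)]
  exact IsPGroup.iff_card.1 (isPGroup_pCore p)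

omit [Finite G] hp in
theorem le_succ_of_coprime {i : ℕ} (hi : Even i) (M : Subgroup G) [M.Normal]
    (h : ((term p G i).relIndex M).Coprime p) : M ≤ term p G (i + 1) := by
  rw [term_succ_even hi, ← Subgroup.map_le_iff_le_comap]
  rw [relIndex_eq_card_map] at h
  exact le_pPrimeCore (Subgroup.Normal.map inferInstance _ (QuotientGroup.mk'_surjective _)) h

theorem le_succ_of_pow {i : ℕ} (hi : ¬ Even i) (M : Subgroup G) [M.Normal] {m : ℕ}
    (h : (term p G i).relIndex M = p ^ m) : M ≤ term p G (i + 1) := by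
  rw [term_succ_odd hi, ← Subgroup.map_le_iff_le_comap]
  rw [relIndex_eq_card_map] at h
  exact le_pCore (Subgroup.Normal.map inferInstance _ (QuotientGroup.mk'_surjective _))
    (IsPGroup.of_card h)

/-- An odd term absorbs normal `p'`-sections. -/
theorem absorb_coprime (j : ℕ) {N M : Subgroup G} [M.Normal] (hN : N ≤ term p G (2 * j + 1))
    (h : (N.relIndex M).Coprime p) : M ≤ term p G (2 * j + 1) := by
  have h1 : ((term p G (2 * j + 1)).relIndex M).Coprime p :=
    h.coprime_dvd_left (Subgroup.relIndex_dvd_of_le_left M hN)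
  refine le_sup_left.trans (le_succ_of_coprime (even_two_mul j) (M ⊔ term p G (2 * j + 1)) ?_)
  rw [← Subgroup.relIndex_mul_relIndex _ _ _ (term_le_succ (2 * j))
    (le_sup_right : term p G (2 * j + 1) ≤ M ⊔ term p G (2 * j + 1)), Subgroup.relIndex_sup_right]
  exact Nat.Coprime.mul_left (coprime_relIndex_succ (even_two_mul j)) h1

/-- A `p`-section costs one step. -/
theorem absorb_pow (j : ℕ) {N M : Subgroup G} [M.Normal] {m : ℕ} (hN : N ≤ term p G (2 * j + 1))
    (h : N.relIndex M = p ^ m) : M ≤ term p G (2 * j + 2) := by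
  obtain ⟨m', -, hm'⟩ := (Nat.dvd_prime_pow hp.out).1 (h ▸ Subgroup.relIndex_dvd_of_le_left M hN)
  exact le_succ_of_pow (Nat.not_even_two_mul_add_one j) M hm'

/-- `M / N` has `p`-length at most `k`, expressed relative to the upper series. -/
def Rel (p k : ℕ) (N M : Subgroup G) : Prop :=
  ∀ j, N ≤ term p G (2 * j + 1) → M ≤ term p G (2 * (j + k) + 1)

theorem rel_coprime {k : ℕ} {N M : Subgroup G} [M.Normal] (h : (N.relIndex M).Coprime p) :
    Rel p k N M := fun j hN => (absorb_coprime j hN h).trans (term_mono (by omega))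

theorem rel_pow {k : ℕ} (hk : 1 ≤ k) {N M : Subgroup G} [M.Normal] {m : ℕ}
    (h : N.relIndex M = p ^ m) : Rel p k N M :=
  fun j hN => (absorb_pow j hN h).trans (term_mono (by omega))

omit [Finite G] hp in
theorem Rel.trans {a b : ℕ} {N L M : Subgroup G} (h1 : Rel p a N L) (h2 : Rel p b L M) :
    Rel p (a + b) N M := fun j hN => by
  rw [← add_assoc]; exact h2 _ (h1 j hN)

omit [Finite G] hp in
theorem Rel.mono {a b : ℕ} (h : a ≤ b) {N M : Subgroup G} (h1 : Rel p a N M) : Rel p b N M :=
  fun j hN => (h1 j hN).trans (term_mono (by omega))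

omit [Finite G] hp in
theorem Rel.refl (N : Subgroup G) : Rel p 0 N N := fun _ hN => hN

omit [Finite G] hp in
theorem pLengthLE_of_rel {k : ℕ} (h : Rel p k (⊥ : Subgroup G) ⊤) : Cfsg.PLengthLE p k G := by
  have := h 0 bot_le
  rw [Nat.zero_add] at this
  exact top_le_iff.1 this

omit hp in
theorem term_map_le {G' : Type v} [Group G'] [Finite G'] [Fact p.Prime] (f : G →* G')
    (hf : Function.Surjective f) (m : ℕ) (h0 : (term p G (2 * m)).map f = ⊥) :
    ∀ i, (term p G (2 * m + i)).map f ≤ term p G' i := by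
  intro i
  induction i with
  | zero => rw [Nat.add_zero, h0]; exact bot_le
  | succ i ih =>
    haveI : ((term p G (2 * m + i + 1)).map f).Normal := Subgroup.Normal.map inferInstance f hf
    have hd : (term p G' i).relIndex ((term p G (2 * m + i + 1)).map f) ∣
        (term p G (2 * m + i)).relIndex (term p G (2 * m + i + 1)) := by
      rw [← Subgroup.relIndex_comap]
      exact Subgroup.relIndex_dvd_of_le_left _ (Subgroup.map_le_iff_le_comap.1 ih)
    by_cases hi : Even i
    · exact le_succ_of_coprime hi _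
        ((coprime_relIndex_succ (by rw [Nat.even_add]; simp [hi])).coprime_dvd_left hd)
    · obtain ⟨a, ha⟩ := pow_relIndex_succ (p := p) (G := G) (i := 2 * m + i)
        (by rw [Nat.even_add]; simp [hi])
      obtain ⟨a', -, ha'⟩ := (Nat.dvd_prime_pow (Fact.out : p.Prime)).1 (ha ▸ hd)
      exact le_succ_of_pow hi _ ha'

theorem pLengthLE_of_surjective {G' : Type v} [Group G'] [Finite G'] (f : G →* G')
    (hf : Function.Surjective f) {k : ℕ} (h : Cfsg.PLengthLE p k G) : Cfsg.PLengthLE p k G' := by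
  have h1 := term_map_le (p := p) f hf 0 (Subgroup.map_bot f) (2 * k + 1)
  rw [Nat.mul_zero, Nat.zero_add, show term p G (2 * k + 1) = ⊤ from h,
    Subgroup.map_top_of_surjective f hf] at h1
  exact top_le_iff.1 h1

/-- Dividing by `O_{p',p}` lowers the `p`-length. -/
theorem pLengthLE_quotient {k : ℕ} (h : Cfsg.PLengthLE p (k + 1) G) :
    Cfsg.PLengthLE p k (G ⧸ term p G 2) := by
  have h1 := term_map_le (QuotientGroup.mk' (term p G 2)) (QuotientGroup.mk'_surjective _) 1
    (QuotientGroup.map_mk'_self _) (2 * k + 1)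
  rw [show 2 * 1 + (2 * k + 1) = 2 * (k + 1) + 1 by ring, show term p G (2 * (k + 1) + 1) = ⊤ from h,
    Subgroup.map_top_of_surjective _ (QuotientGroup.mk'_surjective _)] at h1
  exact top_le_iff.1 h1

/-- Terms of the series of a quotient by a subgroup below the `2 m`-th term lift `2 m` steps. -/
theorem comap_term_le (N : Subgroup G) [N.Normal] (m : ℕ) (hN : N ≤ term p G (2 * m)) :
    ∀ i, (term p (G ⧸ N) i).comap (QuotientGroup.mk' N) ≤ term p G (2 * m + i) := by
  intro i
  induction i with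
  | zero =>
    refine le_trans (le_of_eq ?_) hN
    show (⊥ : Subgroup (G ⧸ N)).comap (QuotientGroup.mk' N) = N
    rw [MonoidHom.comap_bot, QuotientGroup.ker_mk']
  | succ i ih =>
    haveI : ((term p (G ⧸ N) (i + 1)).comap (QuotientGroup.mk' N)).Normal :=
      Subgroup.Normal.comap inferInstance _
    have h1 := Subgroup.relIndex_dvd_of_le_left ((term p (G ⧸ N) (i + 1)).comap (QuotientGroup.mk' N)) ih
    rw [Subgroup.relIndex_comap,
      Subgroup.map_comap_eq_self_of_surjective (QuotientGroup.mk'_surjective N)] at h1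
    by_cases hi : Even i
    · exact le_succ_of_coprime (i := 2 * m + i) (by rw [Nat.even_add]; simp [hi]) _
        ((coprime_relIndex_succ hi).coprime_dvd_left h1)
    · obtain ⟨a, ha⟩ := pow_relIndex_succ (p := p) (G := G ⧸ N) (i := i) hi
      obtain ⟨a', -, ha'⟩ := (Nat.dvd_prime_pow hp.out).1 (ha ▸ h1)
      exact le_succ_of_pow (i := 2 * m + i) (by rw [Nat.even_add]; simp [hi]) _ ha'

theorem pLengthLE_succ_of_quotient {k : ℕ} (h : Cfsg.PLengthLE p k (G ⧸ term p G 2)) :
    Cfsg.PLengthLE p (k + 1) G := by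
  have h1 := comap_term_le (p := p) (term p G 2) 1 le_rfl (2 * k + 1)
  rw [show term p (G ⧸ term p G 2) (2 * k + 1) = ⊤ from h, Subgroup.comap_top,
    show 2 * 1 + (2 * k + 1) = 2 * (k + 1) + 1 by ring] at h1
  exact top_le_iff.1 h1

theorem term_one_eq : term p G 1 = Cfsg.pPrimeCore p G := by
  have : (Cfsg.pPrimeCore p G).Normal := Subgroup.sSup_normal _ fun _ h => h.1
  refine le_antisymm (le_pPrimeCore inferInstance ?_) (le_succ_of_coprime (i := 0) ⟨0, rfl⟩ _ ?_)
  · rw [← Subgroup.relIndex_bot_left]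
    exact coprime_relIndex_succ (i := 0) (p := p) ⟨0, rfl⟩
  · show ((⊥ : Subgroup G).relIndex _).Coprime p
    rw [Subgroup.relIndex_bot_left]
    exact coprime_card_pPrimeCore p

/-- The `q`-series cuts a section into pieces. -/
theorem rel_refine {q k : ℕ} [Fact q.Prime] (hqp : q ≠ p) {l : ℕ} (hl : Cfsg.PLengthLE q l G)
    {N M : Subgroup G} [N.Normal] [M.Normal] (hNM : N ≤ M)
    (hpiece : ∀ A B : Subgroup G, A.Normal → B.Normal → N ≤ A → A ≤ B → B ≤ M →
      (A.relIndex B).Coprime q → A.relIndex B ∣ N.relIndex M → Rel p k A B) :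
    Rel p ((1 + l) * k) N M := by
  obtain ⟨T, hT⟩ : ∃ T : ℕ → Subgroup G, ∀ i, T i = N ⊔ M ⊓ term q G i := ⟨_, fun _ => rfl⟩
  have hNT : ∀ i, N ≤ T i := fun i => (hT i).symm ▸ le_sup_left
  have hT0 : T 0 = N := by
    rw [hT, show term q G 0 = ⊥ from rfl, inf_bot_eq, sup_bot_eq]
  have hTle : ∀ i, T i ≤ T (i + 1) := fun i => by
    rw [hT, hT]
    exact sup_le_sup_left (inf_le_inf_left _ (term_le_succ i)) _
  have hTM : ∀ i, T i ≤ M := fun i => by rw [hT]; exact sup_le hNM inf_le_left
  have hTn : ∀ i, (T i).Normal := fun i => by rw [hT]; infer_instance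
  have hdvd : ∀ i, (T i).relIndex (T (i + 1)) ∣ (term q G i).relIndex (term q G (i + 1)) := by
    intro i
    haveI := hTn i
    have h1 : T (i + 1) = T i ⊔ M ⊓ term q G (i + 1) := by
      rw [hT, hT, sup_assoc, sup_eq_right.2 (inf_le_inf_left M (term_le_succ i))]
    rw [h1, Subgroup.relIndex_sup_left]
    refine (Subgroup.relIndex_dvd_of_le_left _ ((hT i).symm ▸ le_sup_right : M ⊓ term q G i ≤ T i)).trans ?_
    have h2 : (M ⊓ term q G i).relIndex (M ⊓ term q G (i + 1)) =
        (term q G i).relIndex (M ⊓ term q G (i + 1)) := by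
      rw [← Subgroup.inf_relIndex_right (term q G i) (M ⊓ term q G (i + 1))]
      congr 1
      rw [inf_left_comm, inf_eq_left.2 (term_le_succ i)]
    rw [h2, relIndex_eq_card_map, relIndex_eq_card_map]
    exact Subgroup.card_dvd_of_le (Subgroup.map_mono inf_le_right)
  have hsub : ∀ i, (T i).relIndex (T (i + 1)) ∣ N.relIndex M := fun i => by
    refine dvd_trans ?_ (dvd_of_mul_left_eq _ (Subgroup.relIndex_mul_relIndex N (T i) M (hNT i) (hTM i)))
    exact dvd_of_mul_right_eq _ (Subgroup.relIndex_mul_relIndex (T i) (T (i + 1)) M (hTle i) (hTM _))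
  have key : ∀ t, Rel p ((1 + t) * k) N (T (2 * t + 1)) := by
    intro t
    induction t with
    | zero =>
      rw [Nat.add_zero, one_mul]
      have := hpiece (T 0) (T 1) (hTn 0) (hTn 1) hT0.ge (hTle 0) (hTM 1)
        ((coprime_relIndex_succ (p := q) (i := 0) ⟨0, rfl⟩).coprime_dvd_left (hdvd 0)) (hsub 0)
      rwa [hT0] at this
    | succ t ih =>
      obtain ⟨a, ha⟩ := pow_relIndex_succ (p := q) (G := G) (i := 2 * t + 1) (Nat.not_even_two_mul_add_one t)
      haveI := hTn (2 * t + 1 + 1)
      have h1 : Rel p 0 (T (2 * t + 1)) (T (2 * t + 1 + 1)) := rel_coprime (by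
        have h := hdvd (2 * t + 1)
        rw [ha] at h
        refine Nat.Coprime.coprime_dvd_left h ?_
        exact ((Nat.coprime_primes (Fact.out : q.Prime) hp.out).2 hqp).pow_left a)
      have h2 := hpiece (T (2 * t + 1 + 1)) (T (2 * t + 1 + 1 + 1)) (hTn _) (hTn _) (hNT _)
        (hTle _) (hTM _)
        ((coprime_relIndex_succ (p := q) ⟨t + 1, by ring⟩).coprime_dvd_left (hdvd _)) (hsub _)
      have h3 := (ih.trans h1).trans h2
      rw [show 2 * (t + 1) + 1 = 2 * t + 1 + 1 + 1 by ring]
      refine h3.mono (le_of_eq ?_)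
      ring
  have := key l
  rw [show T (2 * l + 1) = M by
    rw [hT, show term q G (2 * l + 1) = ⊤ from hl, inf_top_eq, sup_eq_right.2 hNM]] at this
  exact this

end CfsgLib.Core.PLen
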