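import Mathlib
import Cfsg.Agent.Lib.CorePSolvable
import Cfsg.Agent.Lib.CoreSZ

/-!
Hall `p'`-subgroups of `p`-soluble groups: existence, conjugacy, covering.
-/

set_option autoImplicit false
set_option maxHeartbeats 400000

namespace CfsgLib.Core

open scoped Pointwise
open Subgroup

universe u

theorem pprime_hall_aux (p : ℕ) [hp : Fact p.Prime] : ∀ (n : ℕ) (G : Type u) [Group G] [Finite G],
    Nat.card G ≤ n → Cfsg.IsPSolvable p G →
      ∃ H : Subgroup G, (Nat.card H).Coprime p ∧ (∃ k : ℕ, H.index = p ^ k) ∧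
        ∀ U : Subgroup G, (Nat.card U).Coprime p → ∃ g : G, MulAut.conj g • U ≤ H := by
  intro n
  induction n with
  | zero => intro G _ _ h; exact absurd h (by have := Nat.card_pos (α := G); omega)
  | succ n ih =>
    intro G _ _ hn hG
    by_cases htriv : (⊤ : Subgroup G) = ⊥
    · refine ⟨⊥, by simp, ⟨0, by rw [← htriv, Subgroup.index_top, pow_zero]⟩, fun U _ => ⟨1, ?_⟩⟩
      rw [← htriv]; exact le_top
    obtain ⟨N, hN, -, hN0, hNp⟩ := exists_normal_le_of_isPSolvable hG htriv
    haveI := hN
    set π := QuotientGroup.mk' N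
    obtain ⟨Hb, hHb1, ⟨k, hk⟩, hHb3⟩ := ih (G ⧸ N)
      (by have := card_quotient_lt (N := N) hN0; omega)
      (isPSolvable_of_surjective π (QuotientGroup.mk'_surjective N) hG)
    set L := Hb.comap π with hL
    have hNL : N ≤ L := fun x hx => by
      show π x ∈ Hb
      rw [show π x = 1 from (QuotientGroup.eq_one_iff x).mpr hx]; exact one_mem _
    have hLi : L.index = p ^ k := by
      rw [hL, Subgroup.index_comap_of_surjective _ (QuotientGroup.mk'_surjective N), hk]
    have hLr : N.relIndex L = Nat.card Hb := by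
      have h := Subgroup.relIndex_ker (K := L) (f := π)
      rw [QuotientGroup.ker_mk', Subgroup.map_comap_eq_self_of_surjective
        (QuotientGroup.mk'_surjective N) Hb] at h
      exact h
    have hcover : ∀ U : Subgroup G, (Nat.card U).Coprime p → ∃ g : G, MulAut.conj g • U ≤ L := by
      intro U hU
      obtain ⟨y, hy⟩ := hHb3 (U.map π) (hU.coprime_dvd_left (Subgroup.card_map_dvd _ _))
      obtain ⟨g, rfl⟩ := QuotientGroup.mk'_surjective N y
      refine ⟨g, ?_⟩
      rw [hL, ← Subgroup.map_le_iff_le_comap, map_conj_smul]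
      exact hy
    have hLcard : Nat.card L = Nat.card N * Nat.card Hb := by
      rw [← hLr, card_mul_relIndex hNL]
    rcases hNp with hNp | hNp
    · -- `N` is a `p`-group: split `L`
      obtain ⟨m, hm⟩ := (IsPGroup.iff_card).mp hNp
      have hcop : (Nat.card N).Coprime (N.relIndex L) := by
        rw [hm, hLr]; exact hHb1.symm.pow_left m
      obtain ⟨H, hHL, hHN, hdis, hHcard⟩ :=
        exists_complement_in hNL (le_normalizer_normal L) hcop
      rw [hLr] at hHcard
      refine ⟨H, hHcard ▸ hHb1, ⟨m + k, ?_⟩, fun U hU => ?_⟩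
      · rw [← Subgroup.relIndex_mul_index hHL, hLi, pow_add]
        congr 1
        have h := card_mul_relIndex hHL
        rw [hLcard, hm, hHcard, mul_comm (p ^ m)] at h
        exact mul_left_cancel₀ (Nat.card_pos (α := Hb)).ne' h
      obtain ⟨g, hg⟩ := hcover U hU
      set U' := MulAut.conj g • U
      have hU' : (Nat.card U').Coprime p := by rw [card_conj_smul]; exact hU
      have hUN : (Nat.card U').Coprime (Nat.card N) := hm.symm ▸ hU'.pow_right m
      set B := (U' ⊔ N) ⊓ H with hB
      have hBN : B ⊔ N = U' ⊔ N := by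
        refine le_antisymm (sup_le inf_le_left le_sup_right) fun x hx => ?_
        have hxL : x ∈ H ⊔ N := hHN.symm ▸ (sup_le hg hNL) hx
        obtain ⟨h, hh, z, hz, rfl⟩ :=
          (mem_sup_iff_of_le_normalizer (le_normalizer_normal H)).mp hxL
        refine mul_mem (Subgroup.mem_sup_left ⟨?_, hh⟩) (Subgroup.mem_sup_right hz)
        have := mul_mem hx (Subgroup.mem_sup_right (S := U') (inv_mem hz))
        rwa [mul_inv_cancel_right] at this
      have hBcard : Nat.card B = Nat.card U' := by
        have h1 := card_sup_of_disjoint (le_normalizer_normal B)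
          (le_bot_iff.mp (hdis ▸ inf_le_inf_right N inf_le_right) : B ⊓ N = ⊥)
        rw [hBN, card_sup_of_disjoint (le_normalizer_normal U') (inf_eq_bot_of_coprime hUN)] at h1
        exact (mul_right_cancel₀ (Nat.card_pos (α := N)).ne' h1).symm
      obtain ⟨z, -, hz⟩ := exists_conj_eq_of_coprime (le_normalizer_normal U') hUN
        (Or.inr (by
          haveI : Fact p.Prime := hp
          haveI := hNp.isNilpotent
          infer_instance))
        (inf_le_left : B ≤ U' ⊔ N) hBcard
      refine ⟨z * g, ?_⟩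
      rw [← conj_smul_conj_smul, hz]
      exact inf_le_right
    · refine ⟨L, hLcard ▸ Nat.Coprime.mul_left hNp hHb1, ⟨k, hLi⟩, hcover⟩

theorem exists_pprime_hall {G : Type u} [Group G] [Finite G] {p : ℕ} [Fact p.Prime]
    (hG : Cfsg.IsPSolvable p G) : ∃ H : Subgroup G, (Nat.card H).Coprime p ∧
      (∃ k : ℕ, H.index = p ^ k) ∧
        ∀ U : Subgroup G, (Nat.card U).Coprime p → ∃ g : G, MulAut.conj g • U ≤ H :=
  pprime_hall_aux p _ G le_rfl hG

theorem card_pprime_hall {G : Type u} [Group G] [Finite G] {p : ℕ} [hp : Fact p.Prime]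
    {H : Subgroup G} (h1 : (Nat.card H).Coprime p) (h2 : ∃ k : ℕ, H.index = p ^ k) :
    Nat.card H = Nat.card G / p ^ (Nat.card G).factorization p := by
  obtain ⟨k, hk⟩ := h2
  have h : (Nat.card G).factorization p = k := by
    rw [← H.card_mul_index, hk, Nat.factorization_mul (Nat.card_pos).ne'
      (pow_ne_zero _ hp.out.ne_zero), Finsupp.add_apply, Nat.Prime.factorization_pow hp.out,
      Finsupp.single_eq_same, Nat.factorization_eq_zero_of_not_dvd
        (hp.out.coprime_iff_not_dvd.mp h1.symm), zero_add]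
  rw [h, ← hk, ← H.card_mul_index, Nat.mul_div_cancel _ (Nat.pos_of_ne_zero index_ne_zero_of_finite)]

end CfsgLib.Core
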