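import Mathlib.GroupTheory.Sylow
import Mathlib.GroupTheory.SpecificGroups.Cyclic
import Mathlib.Algebra.Group.Pointwise.Finset.Basic
import Mathlib.Tactic
import Mathlib.Algebra.Group.Action.Pointwise.Finset
import Mathlib.Algebra.Group.Pointwise.Set.Card
import Mathlib.GroupTheory.GroupAction.ConjAct
import Mathlib.Algebra.Group.Subgroup.Pointwise

/-!
# The number of subgroups of order `p ^ β`
-/

set_option autoImplicit false

open scoped Pointwise

namespace CfsgLib.Core.PSubgroupCount

universe u

variable {G : Type u} [Group G]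

/-- A finset stable under left multiplication by `K` has cardinality a multiple of `|K|`. -/
theorem card_dvd_of_le_stabilizer [DecidableEq G] (K : Subgroup G) (S : Finset G)
    (hK : K ≤ MulAction.stabilizer G S) : Nat.card K ∣ S.card := by
  have hmem : ∀ k ∈ K, ∀ x ∈ S, k * x ∈ S := fun k hk x hx => by
    rw [← (MulAction.mem_stabilizer_iff.1 (hK hk) : k • S = S)]
    exact Finset.smul_mem_smul_finset hx
  let T : Set G := (S : Set G)⁻¹
  have hpre : (QuotientGroup.mk : G → G ⧸ K) ⁻¹' (QuotientGroup.mk '' T) = T := by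
    refine Set.Subset.antisymm ?_ (Set.subset_preimage_image _ _)
    rintro x ⟨y, hy, hxy⟩
    have hk : y⁻¹ * x ∈ K := QuotientGroup.eq.1 hxy
    show x⁻¹ ∈ S
    rw [show x⁻¹ = (y⁻¹ * x)⁻¹ * y⁻¹ by group]
    exact hmem _ (K.inv_mem hk) _ hy
  have h := Nat.card_congr (QuotientGroup.preimageMkEquivSubgroupProdSet K ((QuotientGroup.mk : G → G ⧸ K) '' T))
  rw [hpre, Nat.card_prod] at h
  have hT : Nat.card T = S.card := by
    rw [Nat.card_coe_set_eq, Set.ncard_inv, Set.ncard_coe_finset]
  rw [hT] at h
  exact ⟨_, h⟩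

/-- Wielandt's congruence. -/
theorem card_mul_modEq_choose [Finite G] (p β m : ℕ) (hp : p.Prime) (hG : Nat.card G = p ^ β * m) :
    Nat.card {H : Subgroup G // Nat.card H = p ^ β} * m ≡ (Nat.card G).choose (p ^ β) [MOD p * m] := by
  classical
  haveI := Fintype.ofFinite G
  haveI : Fintype (Subgroup G) := Fintype.ofFinite _
  set q := p ^ β with hq
  have hq0 : 0 < q := pow_pos hp.pos β
  have hstab : ∀ S : Finset G, S.card = q → Nat.card (MulAction.stabilizer G S) ∣ q := fun S hS =>
    hS ▸ card_dvd_of_le_stabilizer _ S le_rfl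
  let good : Finset (Finset G) :=
    (Finset.univ : Finset (Finset G)).filter fun S => S.card = q ∧ Nat.card (MulAction.stabilizer G S) = q
  let bad : Finset (Finset G) :=
    (Finset.univ : Finset (Finset G)).filter fun S => S.card = q ∧ Nat.card (MulAction.stabilizer G S) ≠ q
  have htot : (Nat.card G).choose q = good.card + bad.card := by
    rw [Nat.card_eq_fintype_card, ← Finset.card_univ, ← Finset.card_powersetCard,
      ← Finset.card_filter_add_card_filter_not (fun S : Finset G => Nat.card (MulAction.stabilizer G S) = q)]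
    congr 1 <;> congr 1 <;> ext S <;>
      simp [good, bad, Finset.mem_powersetCard]
  -- the regular orbits
  have hbad : p * m ∣ bad.card := by
    rw [Finset.card_eq_sum_card_image (Quotient.mk (MulAction.orbitRel G (Finset G))) bad]
    refine Finset.dvd_sum fun c hc => ?_
    obtain ⟨S, hS, rfl⟩ := Finset.mem_image.1 hc
    have hS' : S.card = q ∧ Nat.card (MulAction.stabilizer G S) ≠ q := (Finset.mem_filter.1 hS).2
    have hinv : ∀ g : G, g • S ∈ bad := fun g => by
      refine Finset.mem_filter.2 ⟨Finset.mem_univ _, (Finset.card_smul_finset g S).trans hS'.1, ?_⟩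
      rw [MulAction.stabilizer_smul_eq_stabilizer_map_conj,
        Subgroup.card_map_of_injective (MulAut.conj g).injective]
      exact hS'.2
    have hfib : (bad.filter fun T => Quotient.mk (MulAction.orbitRel G (Finset G)) T =
        Quotient.mk (MulAction.orbitRel G (Finset G)) S) = Finset.univ.image fun g : G => g • S := by
      ext T
      simp only [Finset.mem_filter, Finset.mem_image, Finset.mem_univ, true_and, Quotient.eq]
      constructor
      · rintro ⟨-, g, hg⟩
        exact ⟨g, hg⟩
      · rintro ⟨g, rfl⟩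
        exact ⟨hinv g, g, rfl⟩
    rw [hfib]
    have horb : (Finset.univ.image fun g : G => g • S).card = Nat.card (MulAction.orbit G S) := by
      rw [Nat.card_coe_set_eq, ← Set.ncard_coe_finset]
      congr 1
      ext T
      simp [MulAction.mem_orbit_iff]
    rw [horb, ← MulAction.index_stabilizer G S |>.trans (Nat.card_coe_set_eq _).symm]
    obtain ⟨k, hk, hk'⟩ := (Nat.dvd_prime_pow hp).1 (hstab S hS'.1)
    have hkβ : k < β := lt_of_le_of_ne hk fun h => hS'.2 (by rw [hk', h, hq])
    have h1 := Subgroup.index_mul_card (MulAction.stabilizer G S)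
    rw [hk', hG, hq, show β = (β - k - 1) + 1 + k by omega, pow_add, pow_succ] at h1
    have h2 : (MulAction.stabilizer G S).index = p ^ (β - k - 1) * p * m :=
      Nat.eq_of_mul_eq_mul_right (pow_pos hp.pos k) (h1.trans (by ring))
    exact ⟨p ^ (β - k - 1), by rw [h2]; ring⟩
  -- the orbits of subgroups
  have hgood : good.card = Nat.card {H : Subgroup G // Nat.card H = q} * m := by
    let φ : (Σ H : {H : Subgroup G // Nat.card H = q}, G ⧸ H.1) → Finset G :=
      fun x => Finset.univ.filter fun g : G => (g : G ⧸ x.1.1) = x.2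
    have hφcard : ∀ x, (φ x).card = q := fun x => by
      obtain ⟨g, hg⟩ := QuotientGroup.mk_surjective x.2
      have himg : φ x = (Finset.univ.filter fun h : G => h ∈ x.1.1).image (g * ·) := by
        ext y
        simp only [φ, Finset.mem_filter, Finset.mem_univ, true_and, Finset.mem_image, ← hg]
        constructor
        · intro h; exact ⟨g⁻¹ * y, QuotientGroup.eq.1 h.symm, mul_inv_cancel_left g y⟩
        · rintro ⟨h, hh, rfl⟩; exact QuotientGroup.mk_mul_of_mem g hh
      rw [himg, Finset.card_image_of_injective _ (mul_right_injective g), ← Fintype.card_subtype,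
        ← Nat.card_eq_fintype_card]
      exact x.1.2
    have hφgood : ∀ x, φ x ∈ good := fun x => by
      refine Finset.mem_filter.2 ⟨Finset.mem_univ _, hφcard x, ?_⟩
      refine le_antisymm (Nat.le_of_dvd hq0 (hstab _ (hφcard x))) ?_
      obtain ⟨g, hg⟩ := QuotientGroup.mk_surjective x.2
      calc q = Nat.card (x.1.1.map (MulAut.conj g).toMonoidHom) := by
            rw [Subgroup.card_map_of_injective (MulAut.conj g).injective]; exact x.1.2.symm
        _ ≤ _ := Subgroup.card_le_of_le ?_
      rintro _ ⟨h, hh, rfl⟩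
      refine MulAction.mem_stabilizer_iff.2 (Finset.eq_of_subset_of_card_le (fun y hy => ?_)
        (Finset.card_smul_finset _ _).ge)
      obtain ⟨z, hz, rfl⟩ := Finset.mem_image.1 hy
      rw [Finset.mem_filter] at hz ⊢
      refine ⟨Finset.mem_univ _, ?_⟩
      have hz' : g⁻¹ * z ∈ x.1.1 := QuotientGroup.eq.1 (hg.trans hz.2.symm)
      rw [← hg]
      refine (QuotientGroup.eq.2 ?_).symm
      show g⁻¹ * (g * h * g⁻¹ * z) ∈ x.1.1
      rw [show g⁻¹ * (g * h * g⁻¹ * z) = h * (g⁻¹ * z) by group]
      exact x.1.1.mul_mem hh hz'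
    have hbij : Function.Bijective fun x => (⟨φ x, hφgood x⟩ : good) := by
      constructor
      · intro x x' h
        have h' : φ x = φ x' := congrArg Subtype.val h
        obtain ⟨g, hg⟩ := QuotientGroup.mk_surjective x.2
        have hmem : ∀ (y : Σ H : {H : Subgroup G // Nat.card H = q}, G ⧸ H.1) (z : G),
            z ∈ φ y ↔ (z : G ⧸ y.1.1) = y.2 := fun y z => by simp [φ]
        have hgx' : (g : G ⧸ x'.1.1) = x'.2 := (hmem x' g).1 (h' ▸ (hmem x g).2 hg)
        obtain ⟨⟨H, hH⟩, c⟩ := x
        obtain ⟨⟨H', hH'⟩, c'⟩ := x'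
        have e : H = H' := by
          ext k
          constructor
          · intro hk
            have h1 : g * k ∈ φ ⟨⟨H', hH'⟩, c'⟩ := h' ▸ (hmem _ _).2 ((QuotientGroup.mk_mul_of_mem g hk).trans hg)
            have h2 := QuotientGroup.eq.1 (hgx'.trans ((hmem _ _).1 h1).symm)
            rwa [inv_mul_cancel_left] at h2
          · intro hk
            have h1 : g * k ∈ φ ⟨⟨H, hH⟩, c⟩ := h'.symm ▸ (hmem _ _).2 ((QuotientGroup.mk_mul_of_mem g hk).trans hgx')
            have h2 := QuotientGroup.eq.1 (hg.trans ((hmem _ _).1 h1).symm)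
            rwa [inv_mul_cancel_left] at h2
        subst e
        have : c = c' := hg.symm.trans hgx'
        subst this
        rfl
      · rintro ⟨S, hS⟩
        obtain ⟨hSc, hSs⟩ := (Finset.mem_filter.1 hS).2
        obtain ⟨x, hx⟩ := Finset.card_pos.1 (hSc ▸ hq0)
        let H : Subgroup G := (MulAction.stabilizer G S).map (MulAut.conj x⁻¹).toMonoidHom
        refine ⟨⟨⟨H, (Subgroup.card_map_of_injective (MulAut.conj x⁻¹).injective).trans hSs⟩,
          (x : G ⧸ H)⟩, Subtype.ext ?_⟩
        refine Finset.eq_of_subset_of_card_le (fun y hy => ?_) (le_of_eq (hSc.trans (hφcard _).symm))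
        have hy' : x⁻¹ * y ∈ H := QuotientGroup.eq.1 ((Finset.mem_filter.1 hy).2).symm
        obtain ⟨k, hk, hky⟩ := hy'
        have hky' : x⁻¹ * k * x⁻¹⁻¹ = x⁻¹ * y := hky
        rw [inv_inv, mul_assoc, mul_right_inj] at hky'
        rw [← hky']
        show k * x ∈ S
        have h9 := Finset.smul_mem_smul_finset (a := k) hx
        rwa [(MulAction.mem_stabilizer_iff.1 hk : k • S = S)] at h9
    rw [← Fintype.card_coe, ← Nat.card_eq_fintype_card, ← Nat.card_congr (Equiv.ofBijective _ hbij),
      Nat.card_sigma]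
    rw [Finset.sum_congr rfl (fun H _ => (show Nat.card (G ⧸ H.1) = m from ?_)), Finset.sum_const, smul_eq_mul,
      Finset.card_univ, ← Nat.card_eq_fintype_card]
    have h1 := Subgroup.card_eq_card_quotient_mul_card_subgroup H.1
    rw [H.2, hG, mul_comm] at h1
    exact (Nat.eq_of_mul_eq_mul_right hq0 h1).symm
  rw [htot, hgood]
  exact ((Nat.modEq_zero_iff_dvd.2 hbad).symm.add_left _)

/-- The number of subgroups of order `p ^ β`. -/
theorem card_modEq_one [Finite G] (p β : ℕ) (hp : p.Prime) (hdiv : p ^ β ∣ Nat.card G) :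
    Nat.card {H : Subgroup G // Nat.card H = p ^ β} ≡ 1 [MOD p] := by
  classical
  obtain ⟨m, hm⟩ := hdiv
  have hm0 : m ≠ 0 := fun h => by rw [h, mul_zero] at hm; exact Nat.card_pos.ne' hm
  have h1 := card_mul_modEq_choose p β m hp hm
  haveI : NeZero (Nat.card G) := ⟨Nat.card_pos.ne'⟩
  let C := Multiplicative (ZMod (Nat.card G))
  have hC : Nat.card C = Nat.card G := Nat.card_zmod _
  have h2 := card_mul_modEq_choose (G := C) p β m hp (hC.trans hm)
  rw [hC] at h2
  have hone : Nat.card {H : Subgroup C // Nat.card H = p ^ β} = 1 := by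
    haveI := Fact.mk hp
    obtain ⟨H, hH⟩ := Sylow.exists_subgroup_card_pow_prime (G := C) p (n := β) (hC ▸ Dvd.intro m hm.symm)
    rw [Nat.card_eq_one_iff_unique]
    refine ⟨⟨fun a b => Subtype.ext ?_⟩, ⟨⟨H, hH⟩⟩⟩
    haveI := Fintype.ofFinite C
    have key : ∀ K : Subgroup C, Nat.card K = p ^ β →
        (K : Set C) = {x : C | x ^ (p ^ β) = 1} := fun K hK => by
      refine Set.eq_of_subset_of_ncard_le (fun x hx => ?_) ?_ (Set.toFinite _)
      · have := pow_card_eq_one' (x := (⟨x, hx⟩ : K))
        rw [hK] at this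
        exact congrArg Subtype.val this
      · rw [← Nat.card_coe_set_eq (K : Set C)]
        refine le_trans ?_ (le_of_eq hK.symm)
        rw [Set.ncard_eq_toFinset_card']
        refine le_trans (le_of_eq ?_) (IsCyclic.card_pow_eq_one_le (α := C) (pow_pos hp.pos β))
        congr 1
        ext; simp
    exact SetLike.coe_injective ((key _ a.2).trans (key _ b.2).symm)
  rw [hone, one_mul] at h2
  have h3 := h1.trans h2.symm
  refine Nat.ModEq.mul_right_cancel' hm0 ?_
  rwa [one_mul]

/-- In a `p`-group, normal subgroups of each order. -/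
theorem card_normal_modEq_one [Finite G] (p m s : ℕ) (hp : p.Prime) (hG : Nat.card G = p ^ m) (hs : s ≤ m) :
    Nat.card {H : Subgroup G // H.Normal ∧ Nat.card H = p ^ s} ≡ 1 [MOD p] := by
  classical
  haveI := Fact.mk hp
  have h := card_modEq_one (G := G) p s hp (hG ▸ pow_dvd_pow p hs)
  let X := {H : Subgroup G // Nat.card H = p ^ s}
  letI : MulAction (ConjAct G) X :=
    { smul := fun g H => ⟨g • H.1, (Nat.card_congr (Subgroup.equivSMul g H.1).toEquiv).symm.trans H.2⟩
      one_smul := fun H => Subtype.ext (one_smul _ _)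
      mul_smul := fun a b H => Subtype.ext (mul_smul _ _ _) }
  have hP : IsPGroup p (ConjAct G) := IsPGroup.of_card (n := m) (by rw [← hG]; rfl)
  have hfix := (hP.card_modEq_card_fixedPoints X).symm.trans h
  have e : Nat.card (MulAction.fixedPoints (ConjAct G) X) =
      Nat.card {H : Subgroup G // H.Normal ∧ Nat.card H = p ^ s} := by
    refine Nat.card_congr
      { toFun := fun x => ⟨x.1.1, Subgroup.Normal.mk fun n hn g => ?_, x.1.2⟩
        invFun := fun H => ⟨⟨H.1, H.2.2⟩, fun g => Subtype.ext ?_⟩
        left_inv := fun x => rfl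
        right_inv := fun H => rfl }
    · have hx : ConjAct.toConjAct g • x.1.1 = x.1.1 := congrArg Subtype.val (x.2 (ConjAct.toConjAct g))
      rw [← hx]
      exact Subgroup.smul_mem_pointwise_smul n (ConjAct.toConjAct g) _ hn
    · haveI := H.2.1
      exact Subgroup.Normal.conjAct H.2.1 g
  rwa [e] at hfix
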