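import Cfsg.Prelude.Def_KGroupFacts
import Mathlib.GroupTheory.FreeGroup.IsFreeGroup
import Mathlib.GroupTheory.Schreier
import Mathlib.GroupTheory.Abelianization.Defs
import Mathlib.LinearAlgebra.FreeModule.PID
import Mathlib.LinearAlgebra.Finsupp.VectorSpace
import Mathlib.Algebra.Module.Projective
import Mathlib.GroupTheory.QuotientGroup.Basic
import Mathlib.Tactic

/-!
# The Schur multiplier through the free presentation

`E Q = F / [F, R]` for the canonical presentation `R → F → Q`, `M Q = K ∩ [E, E]` with `K = R / [F, R]`.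
-/

set_option autoImplicit false

open scoped commutatorElement

namespace CfsgLib.Core.Schur

noncomputable section

universe u v w

/-- In a central extension two homomorphisms agreeing modulo the centre agree on commutators. -/
theorem eqOn_commutator {A : Type u} {B : Type v} [Group A] [Group B] (f g : A →* B)
    (h : ∀ a, (f a)⁻¹ * g a ∈ Subgroup.center B) : ∀ x ∈ commutator A, f x = g x := by
  have hle : commutator A ≤ f.eqLocus g := by
    rw [commutator_def, Subgroup.commutator_le]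
    intro a _ b _
    show f ⁅a, b⁆ = g ⁅a, b⁆
    obtain ⟨za, hza, ea⟩ : ∃ z ∈ Subgroup.center B, g a = f a * z := ⟨_, h a, (mul_inv_cancel_left _ _).symm⟩
    obtain ⟨zb, hzb, eb⟩ : ∃ z ∈ Subgroup.center B, g b = f b * z := ⟨_, h b, (mul_inv_cancel_left _ _).symm⟩
    simp only [commutatorElement_def, map_mul, map_inv, ea, eb]
    have ha := Subgroup.mem_center_iff.1 hza
    have hb := Subgroup.mem_center_iff.1 hzb
    symm
    calc f a * za * (f b * zb) * (f a * za)⁻¹ * (f b * zb)⁻¹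
        = f a * (za * f b) * zb * za⁻¹ * (f a)⁻¹ * zb⁻¹ * (f b)⁻¹ := by group
      _ = f a * f b * (za * zb) * za⁻¹ * (f a)⁻¹ * zb⁻¹ * (f b)⁻¹ := by rw [← ha (f b)]; group
      _ = f a * f b * (zb * za) * za⁻¹ * (f a)⁻¹ * zb⁻¹ * (f b)⁻¹ := by rw [hb za]
      _ = f a * f b * (zb * (f a)⁻¹) * zb⁻¹ * (f b)⁻¹ := by group
      _ = f a * f b * ((f a)⁻¹ * zb) * zb⁻¹ * (f b)⁻¹ := by rw [hb (f a)⁻¹]
      _ = _ := by group
  exact fun x hx => hle hx

variable (Q : Type u) [Group Q]

/-- The tautological presentation. -/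
def pres : FreeGroup Q →* Q := FreeGroup.lift id

/-- `[F, R]`. -/
def Nc : Subgroup (FreeGroup Q) := ⁅(⊤ : Subgroup (FreeGroup Q)), (pres Q).ker⁆

instance normal_Nc : (Nc Q).Normal := by unfold Nc; infer_instance

/-- The universal central extension modulo the relations. -/
abbrev E : Type u := FreeGroup Q ⧸ Nc Q

theorem Nc_le_ker : Nc Q ≤ (pres Q).ker := Subgroup.commutator_le_right _ _

/-- The projection `E → Q`. -/
def proj : E Q →* Q := QuotientGroup.lift (Nc Q) (pres Q) (Nc_le_ker Q)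

theorem proj_surjective : Function.Surjective (proj Q) := fun q =>
  ⟨(FreeGroup.of q : FreeGroup Q), FreeGroup.lift_apply_of⟩

/-- `R / [F, R]`. -/
def K : Subgroup (E Q) := (proj Q).ker

instance normal_K : (K Q).Normal := by unfold K; infer_instance

theorem K_le_center : K Q ≤ Subgroup.center (E Q) := by
  intro x hx
  obtain ⟨r, rfl⟩ := QuotientGroup.mk_surjective x
  have hr : r ∈ (pres Q).ker := hx
  refine Subgroup.mem_center_iff.2 fun y => ?_
  obtain ⟨f, rfl⟩ := QuotientGroup.mk_surjective y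
  rw [← QuotientGroup.mk_mul, ← QuotientGroup.mk_mul, QuotientGroup.eq]
  have h : ⁅f⁻¹, r⁻¹⁆⁻¹ ∈ Nc Q := inv_mem (Subgroup.commutator_mem_commutator trivial (inv_mem hr))
  rwa [show ⁅f⁻¹, r⁻¹⁆⁻¹ = (f * r)⁻¹ * (r * f) * 1 from by rw [commutatorElement_def]; group, mul_one] at h

/-- The multiplier. -/
def M : Subgroup (E Q) := K Q ⊓ commutator (E Q)

theorem M_le_center : M Q ≤ Subgroup.center (E Q) := inf_le_left.trans (K_le_center Q)

instance commGroup_M : CommGroup (M Q) :=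
  { (inferInstance : Group (M Q)) with
    mul_comm := fun a b => Subtype.ext (Subgroup.mem_center_iff.1 (M_le_center Q b.2) (a : E Q)) }

/-- Exponent sums. -/
def ab : E Q →* Multiplicative (Q →₀ ℤ) :=
  QuotientGroup.lift (Nc Q) (FreeGroup.lift fun q => Multiplicative.ofAdd (Finsupp.single q (1 : ℤ))) (by
    rw [Nc, Subgroup.commutator_le]
    intro a _ b _
    rw [MonoidHom.mem_ker, map_commutatorElement]
    exact commutatorElement_eq_one_iff_mul_comm.2 (mul_comm _ _))

theorem ker_ab : (ab Q).ker = commutator (E Q) := by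
  refine le_antisymm ?_ (Abelianization.commutator_subset_ker _)
  intro x hx
  obtain ⟨f, rfl⟩ := QuotientGroup.mk_surjective x
  let back : (Q →₀ ℤ) →+ Additive (Abelianization (FreeGroup Q)) :=
    Finsupp.liftAddHom fun q => zmultiplesHom _ (Additive.ofMul (Abelianization.of (FreeGroup.of q)))
  have hcomp : (AddMonoidHom.toMultiplicativeLeft back).comp
      (FreeGroup.lift fun q => Multiplicative.ofAdd (Finsupp.single q (1 : ℤ))) =
      (Abelianization.of : FreeGroup Q →* _) := by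
    refine FreeGroup.ext_hom _ _ fun q => ?_
    simp [back, Finsupp.liftAddHom_apply_single]
  have h1 : Abelianization.of f = 1 := by
    rw [← hcomp, MonoidHom.comp_apply]
    have hx' : (FreeGroup.lift fun q => Multiplicative.ofAdd (Finsupp.single q (1 : ℤ))) f = 1 := hx
    rw [hx', map_one]
  have h2 : f ∈ commutator (FreeGroup Q) := (QuotientGroup.eq_one_iff f).1 h1
  have h3 : (commutator (FreeGroup Q)).map (QuotientGroup.mk' (Nc Q)) ≤ commutator (E Q) := by
    rw [commutator_def, Subgroup.map_commutator]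
    exact Subgroup.commutator_mono le_top le_top
  exact h3 ⟨f, h2, rfl⟩

variable [Finite Q]

instance finiteIndex_center : (Subgroup.center (E Q)).FiniteIndex := by
  haveI : (K Q).FiniteIndex := by
    unfold K
    refine ⟨?_⟩
    rw [Subgroup.index_ker]
    exact Nat.card_pos.ne'
  exact Subgroup.finiteIndex_of_le (K_le_center Q)

instance finite_commutatorSet : Finite (commutatorSet (E Q)) := by
  haveI : Finite (E Q ⧸ Subgroup.center (E Q)) := Subgroup.finite_quotient_of_finiteIndex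
  let Z := Subgroup.center (E Q)
  let f : (E Q ⧸ Z) × (E Q ⧸ Z) → E Q := fun p => ⁅p.1.out, p.2.out⁆
  refine Set.Finite.to_subtype (Set.Finite.subset (Set.finite_range f) ?_)
  rintro _ ⟨a, b, rfl⟩
  refine ⟨((a : E Q ⧸ Z), (b : E Q ⧸ Z)), ?_⟩
  obtain ⟨z, hz⟩ := QuotientGroup.mk_out_eq_mul Z a
  obtain ⟨z', hz'⟩ := QuotientGroup.mk_out_eq_mul Z b
  show ⁅(a : E Q ⧸ Z).out, (b : E Q ⧸ Z).out⁆ = ⁅a, b⁆
  rw [hz, hz', commutatorElement_def, commutatorElement_def]
  have ha := Subgroup.mem_center_iff.1 z.2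
  have hb := Subgroup.mem_center_iff.1 z'.2
  calc a * z * (b * z') * (a * z)⁻¹ * (b * z')⁻¹
      = a * (z * b) * z' * (z : E Q)⁻¹ * a⁻¹ * (z' : E Q)⁻¹ * b⁻¹ := by group
    _ = a * b * ((z : E Q) * z') * (z : E Q)⁻¹ * a⁻¹ * (z' : E Q)⁻¹ * b⁻¹ := by rw [← ha b]; group
    _ = a * b * ((z' : E Q) * z) * (z : E Q)⁻¹ * a⁻¹ * (z' : E Q)⁻¹ * b⁻¹ := by rw [hb z]
    _ = a * b * ((z' : E Q) * a⁻¹) * (z' : E Q)⁻¹ * b⁻¹ := by group
    _ = a * b * (a⁻¹ * z') * (z' : E Q)⁻¹ * b⁻¹ := by rw [hb a⁻¹]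
    _ = _ := by group

instance finite_M : Finite (M Q) :=
  Finite.of_injective (Subgroup.inclusion (inf_le_right : M Q ≤ commutator (E Q)))
    (Subgroup.inclusion_injective _)

/-- Every subgroup of `K` splits modulo the commutator subgroup. -/
theorem exists_section (W : Subgroup (E Q)) (hW : W ≤ K Q) :
    ∃ C : Subgroup (E Q), C ≤ W ∧ C ⊓ commutator (E Q) = ⊥ ∧ W ≤ C ⊔ (W ⊓ commutator (E Q)) := by
  classical
  letI : CommGroup W :=
    { (inferInstance : Group W) with
      mul_comm := fun a b => Subtype.ext (Subgroup.mem_center_iff.1 (K_le_center Q (hW b.2)) (a : E Q)) }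
  let f : Additive W →+ (Q →₀ ℤ) := MonoidHom.toAdditiveLeft ((ab Q).comp W.subtype)
  let fl := f.toIntLinearMap
  let L := LinearMap.range fl
  haveI : Module.Free ℤ L :=
    Module.Free.of_basis (Submodule.basisOfPid (Finsupp.basisSingleOne (R := ℤ) (ι := Q)) L).2
  obtain ⟨s, hs⟩ := Module.projective_lifting_property fl.rangeRestrict LinearMap.id
    (LinearMap.surjective_rangeRestrict _)
  let C : Subgroup (E Q) :=
    ((MonoidHom.range (AddMonoidHom.toMultiplicativeLeft s.toAddMonoidHom))).map W.subtype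
  refine ⟨C, Subgroup.map_subtype_le _, ?_, fun x hx => ?_⟩
  · rw [eq_bot_iff]
    rintro x ⟨⟨y, ⟨l, rfl⟩, rfl⟩, hx⟩
    rw [← ker_ab] at hx
    have h1 : fl (s l.toAdd) = 0 := hx
    have h2 : fl.rangeRestrict (s l.toAdd) = l.toAdd := LinearMap.congr_fun hs _
    have h3 : l.toAdd = 0 := by
      rw [← h2]
      exact Subtype.ext h1
    show W.subtype _ ∈ ⊥
    have h4 : l = 1 := h3
    rw [h4, map_one, map_one]
    exact one_mem _
  · let w : Additive W := Additive.ofMul ⟨x, hx⟩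
    let c : W := Additive.toMul (s (fl.rangeRestrict w))
    have hc : fl (s (fl.rangeRestrict w)) = fl w := congrArg Subtype.val (LinearMap.congr_fun hs (fl.rangeRestrict w))
    have hc' : ab Q (c : E Q) = ab Q x := hc
    rw [show x = (c : E Q) * ((c : E Q)⁻¹ * x) by group]
    refine Subgroup.mul_mem_sup ⟨c, ⟨Multiplicative.ofAdd (fl.rangeRestrict w), rfl⟩, rfl⟩ ⟨?_, ?_⟩
    · exact W.mul_mem (W.inv_mem c.2) hx
    · rw [← ker_ab]
      show ab Q ((c : E Q)⁻¹ * x) = 1
      rw [map_mul, map_inv, hc', inv_mul_cancel]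

variable {Q}

theorem normal_of_le_K {C : Subgroup (E Q)} (hC : C ≤ K Q) : C.Normal :=
  ⟨fun c hc g => by rw [Subgroup.mem_center_iff.1 (K_le_center Q (hC hc)) g, mul_inv_cancel_right]; exact hc⟩

/-- The universal property. -/
theorem exists_hom {Δ : Type v} [Group Δ] (τ : Δ →* Q) (hτ : Function.Surjective τ)
    (hker : τ.ker ≤ Subgroup.center Δ) : ∃ η : E Q →* Δ, τ.comp η = proj Q := by
  let g : FreeGroup Q →* Δ := FreeGroup.lift (Function.surjInv hτ)
  have hg : τ.comp g = pres Q := FreeGroup.ext_hom _ _ fun q => by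
    simp [g, pres, Function.surjInv_eq hτ]
  refine ⟨QuotientGroup.lift (Nc Q) g ?_, MonoidHom.ext fun x => ?_⟩
  · rw [Nc, Subgroup.commutator_le]
    intro a _ r hr
    rw [MonoidHom.mem_ker, map_commutatorElement]
    refine commutatorElement_eq_one_iff_mul_comm.2 (Subgroup.mem_center_iff.1 (hker ?_) _)
    show τ (g r) = 1
    rw [← MonoidHom.comp_apply, hg]; exact hr
  · obtain ⟨f, rfl⟩ := QuotientGroup.mk_surjective x
    exact DFunLike.congr_fun hg f

/-- The image of `M` under the universal map. -/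
theorem map_M_eq {Δ : Type v} [Group Δ] {τ : Δ →* Q} (hker : τ.ker ≤ Subgroup.center Δ) {η : E Q →* Δ}
    (hη : τ.comp η = proj Q) : (M Q).map η = τ.ker ⊓ commutator Δ := by
  have hc : (commutator (E Q)).map η = commutator Δ := by
    refine le_antisymm ?_ ?_
    · rw [commutator_def, Subgroup.map_commutator]
      exact Subgroup.commutator_mono le_top le_top
    · rw [commutator_def Δ, Subgroup.commutator_le]
      intro a _ b _
      obtain ⟨a', ha'⟩ := proj_surjective Q (τ a)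
      obtain ⟨b', hb'⟩ := proj_surjective Q (τ b)
      have hmem : ∀ (x : E Q) (y : Δ), proj Q x = τ y → ∃ z ∈ Subgroup.center Δ, y = η x * z := fun x y h =>
        ⟨(η x)⁻¹ * y, hker (by
          show τ ((η x)⁻¹ * y) = 1
          rw [map_mul, map_inv, ← MonoidHom.comp_apply, hη, h, inv_mul_cancel]),
          (mul_inv_cancel_left _ _).symm⟩
      obtain ⟨za, hza, ea⟩ := hmem a' a ha'
      obtain ⟨zb, hzb, eb⟩ := hmem b' b hb'
      refine ⟨⁅a', b'⁆, Subgroup.commutator_mem_commutator trivial trivial, ?_⟩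
      have h1 := Subgroup.mem_center_iff.1 hza
      have h2 := Subgroup.mem_center_iff.1 hzb
      rw [map_commutatorElement, ea, eb, commutatorElement_def, commutatorElement_def]
      symm
      calc η a' * za * (η b' * zb) * (η a' * za)⁻¹ * (η b' * zb)⁻¹
          = η a' * (za * η b') * zb * za⁻¹ * (η a')⁻¹ * zb⁻¹ * (η b')⁻¹ := by group
        _ = η a' * η b' * (za * zb) * za⁻¹ * (η a')⁻¹ * zb⁻¹ * (η b')⁻¹ := by rw [← h1 (η b')]; group
        _ = η a' * η b' * (zb * za) * za⁻¹ * (η a')⁻¹ * zb⁻¹ * (η b')⁻¹ := by rw [h2 za]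
        _ = η a' * η b' * (zb * (η a')⁻¹) * zb⁻¹ * (η b')⁻¹ := by group
        _ = η a' * η b' * ((η a')⁻¹ * zb) * zb⁻¹ * (η b')⁻¹ := by rw [h2 (η a')⁻¹]
        _ = _ := by group
  refine le_antisymm ?_ ?_
  · rintro _ ⟨x, hx, rfl⟩
    refine ⟨?_, hc.le ⟨x, hx.2, rfl⟩⟩
    show τ (η x) = 1
    rw [← MonoidHom.comp_apply, hη]; exact hx.1
  · rintro y ⟨hy1, hy2⟩
    obtain ⟨x, hx, rfl⟩ := hc.ge hy2
    refine ⟨x, ⟨?_, hx⟩, rfl⟩
    show proj Q x = 1
    rw [← hη]; exact hy1

theorem map_M_eq_ker {Δ : Type v} [Group Δ] {τ : Δ →* Q} (hτ : Cfsg.IsStemExtension τ) {η : E Q →* Δ}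
    (hη : τ.comp η = proj Q) : (M Q).map η = τ.ker := by
  rw [map_M_eq hτ.2.1 hη, inf_eq_left]; exact hτ.2.2

theorem surjective_of_stem {Δ : Type v} [Group Δ] {τ : Δ →* Q} (hτ : Cfsg.IsStemExtension τ) {η : E Q →* Δ}
    (hη : τ.comp η = proj Q) : Function.Surjective η := by
  intro y
  obtain ⟨x, hx⟩ := proj_surjective Q (τ y)
  have hk : (η x)⁻¹ * y ∈ τ.ker := by
    show τ ((η x)⁻¹ * y) = 1
    rw [map_mul, map_inv, ← MonoidHom.comp_apply, hη, hx, inv_mul_cancel]
  rw [← map_M_eq_ker hτ hη] at hk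
  obtain ⟨m, -, hm⟩ := hk
  exact ⟨x * m, by rw [map_mul, hm, mul_inv_cancel_left]⟩

/-- `M` maps onto the kernel of each stem extension. -/
theorem exists_surjective {Δ : Type v} [Group Δ] {τ : Δ →* Q} (hτ : Cfsg.IsStemExtension τ) :
    ∃ f : M Q →* τ.ker, Function.Surjective f := by
  obtain ⟨η, hη⟩ := exists_hom τ hτ.1 hτ.2.1
  refine ⟨(η.comp (M Q).subtype).codRestrict τ.ker fun m => (map_M_eq_ker hτ hη).le ⟨m, m.2, rfl⟩, fun y => ?_⟩
  obtain ⟨m, hm, hmy⟩ := (map_M_eq_ker hτ hη).ge y.2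
  exact ⟨⟨m, hm⟩, Subtype.ext hmy⟩

/-- A complement of `M` in `K`. -/
structure IsCompl (C : Subgroup (E Q)) : Prop where
  le : C ≤ K Q
  inf : C ⊓ commutator (E Q) = ⊥
  sup : K Q ≤ C ⊔ M Q

/-- The extension given by a complement. -/
def coverHom (C : Subgroup (E Q)) [C.Normal] (h : IsCompl C) : E Q ⧸ C →* Q :=
  QuotientGroup.lift C (proj Q) h.le

theorem coverHom_stem (C : Subgroup (E Q)) [C.Normal] (h : IsCompl C) :
    Cfsg.IsStemExtension (coverHom C h) := by
  refine ⟨fun q => ?_, fun x hx => ?_, fun x hx => ?_⟩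
  · obtain ⟨x, hx⟩ := proj_surjective Q q
    exact ⟨(x : E Q ⧸ C), hx⟩
  · obtain ⟨e, rfl⟩ := QuotientGroup.mk_surjective x
    refine Subgroup.mem_center_iff.2 fun y => ?_
    obtain ⟨f, rfl⟩ := QuotientGroup.mk_surjective y
    rw [← QuotientGroup.mk_mul, ← QuotientGroup.mk_mul, Subgroup.mem_center_iff.1 (K_le_center Q hx) f]
  · obtain ⟨e, rfl⟩ := QuotientGroup.mk_surjective x
    haveI : (M Q).Normal := normal_of_le_K inf_le_left
    obtain ⟨c, hc, m, hm, rfl⟩ := Subgroup.mem_sup_of_normal_right.1 (h.sup hx)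
    rw [QuotientGroup.mk_mul, (QuotientGroup.eq_one_iff c).2 hc, one_mul]
    have h3 : (commutator (E Q)).map (QuotientGroup.mk' C) ≤ commutator (E Q ⧸ C) := by
      rw [commutator_def, Subgroup.map_commutator]
      exact Subgroup.commutator_mono le_top le_top
    exact h3 ⟨m, hm.2, rfl⟩

theorem coverHom_injOn (C : Subgroup (E Q)) [C.Normal] (h : IsCompl C) :
    ∀ m ∈ M Q, (m : E Q ⧸ C) = 1 → m = 1 := fun m hm h1 => by
  have h2 : m ∈ C ⊓ commutator (E Q) := ⟨(QuotientGroup.eq_one_iff m).1 h1, hm.2⟩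
  rwa [h.inf, Subgroup.mem_bot] at h2

theorem coverHom_ker (C : Subgroup (E Q)) [C.Normal] (h : IsCompl C) :
    Nonempty (M Q ≃* (coverHom C h).ker) := by
  have hst := coverHom_stem C h
  have hη : (coverHom C h).comp (QuotientGroup.mk' C) = proj Q := rfl
  let f : M Q →* (coverHom C h).ker := ((QuotientGroup.mk' C).comp (M Q).subtype).codRestrict _
    fun m => (map_M_eq_ker hst hη).le ⟨m, m.2, rfl⟩
  refine ⟨MulEquiv.ofBijective f ⟨?_, fun y => ?_⟩⟩
  · rw [injective_iff_map_eq_one]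
    exact fun m hm => Subtype.ext (coverHom_injOn C h m m.2 (congrArg Subtype.val hm))
  · obtain ⟨m, hm, hmy⟩ := (map_M_eq_ker hst hη).ge y.2
    exact ⟨⟨m, hm⟩, Subtype.ext hmy⟩

theorem finite_cover (C : Subgroup (E Q)) [C.Normal] (h : IsCompl C) : Finite (E Q ⧸ C) := by
  haveI : Finite (coverHom C h).ker := Finite.of_equiv _ (coverHom_ker C h).some.toEquiv
  haveI : Finite ((E Q ⧸ C) ⧸ (coverHom C h).ker) :=
    Finite.of_equiv _ (QuotientGroup.quotientKerEquivOfSurjective _ (coverHom_stem C h).1).toEquiv.symm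
  exact Finite.of_subgroup_quotient (coverHom C h).ker

theorem exists_isCompl (W : Subgroup (E Q)) (hW : W ≤ K Q) (hsup : K Q ≤ W ⊔ M Q) :
    ∃ C : Subgroup (E Q), C ≤ W ∧ C.Normal ∧ IsCompl C := by
  obtain ⟨C, hC, hinf, hle⟩ := exists_section Q W hW
  refine ⟨C, hC, normal_of_le_K (hC.trans hW), hC.trans hW, hinf, hsup.trans (sup_le (hle.trans ?_) le_sup_right)⟩
  exact sup_le_sup_left (inf_le_inf_right _ hW) C

/-- A covering group. -/
theorem exists_cover : ∃ (Γ : Type u) (_ : Group Γ) (_ : Finite Γ) (σ : Γ →* Q),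
    Cfsg.IsStemExtension σ ∧ Nonempty (σ.ker ≃* M Q) := by
  obtain ⟨C, -, hC, h⟩ := exists_isCompl (K Q) le_rfl le_sup_left
  haveI := hC
  exact ⟨E Q ⧸ C, inferInstance, finite_cover C h, coverHom C h, coverHom_stem C h, ⟨(coverHom_ker C h).some.symm⟩⟩

theorem hasSchurMultiplier_M : Cfsg.HasSchurMultiplier Q (M Q) :=
  ⟨exists_cover, fun _ _ _ _ hσ => exists_surjective hσ⟩

/-- The multiplier is determined up to isomorphism. -/
theorem nonempty_equiv_M {A : Type w} [CommGroup A] (hA : Cfsg.HasSchurMultiplier Q A) :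
    Finite A ∧ Nonempty (A ≃* M Q) := by
  obtain ⟨⟨Γ, _, _, σ, hσ, ⟨e⟩⟩, hsur⟩ := hA
  haveI : Finite A := Finite.of_equiv _ e.toEquiv
  refine ⟨inferInstance, ?_⟩
  obtain ⟨f, hf⟩ := exists_surjective hσ
  obtain ⟨Γ', _, _, σ', hσ', ⟨e'⟩⟩ := exists_cover (Q := Q)
  obtain ⟨g, hg⟩ := hsur Γ' σ' hσ'
  have h1 : Nat.card A ≤ Nat.card (M Q) :=
    Nat.card_le_card_of_surjective _ (e.surjective.comp hf)
  have hb : Function.Bijective (e'.toMonoidHom.comp g) :=
    Nat.bijective_iff_surjective_and_card _ |>.2 ⟨e'.surjective.comp hg,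
      le_antisymm h1 (Nat.card_le_card_of_surjective _ (e'.surjective.comp hg))⟩
  exact ⟨MulEquiv.ofBijective _ hb⟩

theorem hasSchurMultiplier_of_equiv {A : Type w} [CommGroup A] (e : A ≃* M Q) :
    Cfsg.HasSchurMultiplier Q A := by
  obtain ⟨Γ, _, _, σ, hσ, ⟨e'⟩⟩ := exists_cover (Q := Q)
  refine ⟨⟨Γ, inferInstance, inferInstance, σ, hσ, ⟨e'.trans e.symm⟩⟩, fun Δ _ _ τ hτ => ?_⟩
  obtain ⟨f, hf⟩ := exists_surjective hτ
  exact ⟨f.comp e.toMonoidHom, hf.comp e.surjective⟩

/-- To identify the multiplier it is enough to bound it and to exhibit one stem extension. -/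
theorem hasSchurMultiplier_of_bound {A : Type w} [CommGroup A] [Finite A] {Γ : Type v} [Group Γ] (σ : Γ →* Q)
    (hσ : Cfsg.IsStemExtension σ) (g : σ.ker →* A) (hg : Function.Surjective g)
    (hle : Nat.card (M Q) ≤ Nat.card A) : Cfsg.HasSchurMultiplier Q A := by
  obtain ⟨f, hf⟩ := exists_surjective hσ
  have hb : Function.Bijective (g.comp f) :=
    Nat.bijective_iff_surjective_and_card _ |>.2 ⟨hg.comp hf,
      le_antisymm hle (Nat.card_le_card_of_surjective _ (hg.comp hf))⟩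
  exact hasSchurMultiplier_of_equiv (MulEquiv.ofBijective _ hb).symm

theorem hasCyclic_one_iff : Cfsg.HasCyclicSchurMultiplier Q 1 ↔ Nat.card (M Q) = 1 := by
  constructor
  · intro h
    obtain ⟨-, ⟨e⟩⟩ := nonempty_equiv_M h
    rw [← Nat.card_congr e.toEquiv]
    exact Nat.card_zmod 1
  · intro h
    haveI : Subsingleton (M Q) := (Nat.card_eq_one_iff_unique.1 h).1
    haveI : Subsingleton (Multiplicative (ZMod 1)) := inferInstanceAs (Subsingleton (ZMod 1))
    exact hasSchurMultiplier_of_equiv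
      { toFun := fun _ => 1, invFun := fun _ => 1, left_inv := fun _ => Subsingleton.elim _ _,
        right_inv := fun _ => Subsingleton.elim _ _, map_mul' := fun _ _ => Subsingleton.elim _ _ }

end

end CfsgLib.Core.Schur
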