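import Cfsg.Agent.Lib.CoreSchur
import Mathlib.GroupTheory.IsPerfect
import Mathlib.Algebra.Category.Grp.Injective
import Mathlib.GroupTheory.Divisible
import Mathlib.LinearAlgebra.Matrix.GeneralLinearGroup.Basic
import Mathlib.RingTheory.RootsOfUnity.AlgebraicallyClosed
import Mathlib.Analysis.Complex.Polynomial.Basic
import Mathlib.GroupTheory.FiniteAbelian.Duality
import Mathlib.LinearAlgebra.Matrix.Permutation

/-!
# Covering groups, lifting of projective representations, perfect groups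
-/

set_option autoImplicit false
set_option maxHeartbeats 400000

open scoped commutatorElement
open scoped MatrixGroups

namespace CfsgLib.Core.Schur

universe u v w

variable {Q : Type u} [Group Q]

/-- The universal property with a twist. -/
theorem exists_hom_over {Δ : Type v} [Group Δ] {P : Type w} [Group P] (p : Δ →* P) (hp : Function.Surjective p)
    (hker : p.ker ≤ Subgroup.center Δ) (γ : Q →* P) : ∃ η : E Q →* Δ, p.comp η = γ.comp (proj Q) := by
  let g : FreeGroup Q →* Δ := FreeGroup.lift fun q => Function.surjInv hp (γ q)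
  have hg : p.comp g = γ.comp (pres Q) := FreeGroup.ext_hom _ _ fun q => by
    simp [g, pres, Function.surjInv_eq hp]
  refine ⟨QuotientGroup.lift (Nc Q) g ?_, MonoidHom.ext fun x => ?_⟩
  · rw [Nc, Subgroup.commutator_le]
    intro a _ r hr
    rw [MonoidHom.mem_ker, map_commutatorElement]
    refine commutatorElement_eq_one_iff_mul_comm.2 (Subgroup.mem_center_iff.1 (hker ?_) _)
    show p (g r) = 1
    rw [← MonoidHom.comp_apply, hg, MonoidHom.comp_apply, show pres Q r = 1 from hr, map_one]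
  · obtain ⟨f, rfl⟩ := QuotientGroup.mk_surjective x
    exact DFunLike.congr_fun hg f

theorem comp_eq_of_center {Γ : Type v} [Group Γ] {σ : Γ →* Q} (hσ : Cfsg.IsStemExtension σ) {η : E Q →* Γ}
    (hη : σ.comp η = proj Q) : η.ker ≤ K Q := fun x hx => by
  show proj Q x = 1
  rw [← hη, MonoidHom.comp_apply, show η x = 1 from hx, map_one]

variable [Finite Q]

/-- A stem extension with kernel of the order of the multiplier is a quotient of `E` by a complement. -/
theorem isCompl_ker {Γ : Type v} [Group Γ] {σ : Γ →* Q} (hσ : Cfsg.IsStemExtension σ)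
    (hcard : Nat.card σ.ker = Nat.card (M Q)) {η : E Q →* Γ} (hη : σ.comp η = proj Q) :
    IsCompl η.ker := by
  haveI : Finite σ.ker := Nat.finite_of_card_ne_zero (by rw [hcard]; exact Nat.card_pos.ne')
  let f : M Q →* σ.ker := (η.comp (M Q).subtype).codRestrict σ.ker fun m => (map_M_eq_ker hσ hη).le ⟨m, m.2, rfl⟩
  have hf : Function.Surjective f := fun y => by
    obtain ⟨m, hm, hmy⟩ := (map_M_eq_ker hσ hη).ge y.2
    exact ⟨⟨m, hm⟩, Subtype.ext hmy⟩
  have hinj : Function.Injective f := (Nat.bijective_iff_surjective_and_card f |>.2 ⟨hf, hcard.symm⟩).1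
  refine ⟨comp_eq_of_center hσ hη, ?_, fun x hx => ?_⟩
  · rw [eq_bot_iff]
    rintro x ⟨hx1, hx2⟩
    have hxM : x ∈ M Q := ⟨comp_eq_of_center hσ hη hx1, hx2⟩
    have h : f ⟨x, hxM⟩ = f 1 := Subtype.ext (by rw [map_one]; exact hx1)
    exact congrArg Subtype.val (hinj h)
  · have hk : η x ∈ σ.ker := by
      show σ (η x) = 1
      rw [← MonoidHom.comp_apply, hη]; exact hx
    obtain ⟨m, hm, hmy⟩ := (map_M_eq_ker hσ hη).ge hk
    rw [show x = x * m⁻¹ * m by group]
    refine Subgroup.mul_mem_sup ?_ hm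
    show η (x * m⁻¹) = 1
    rw [map_mul, map_inv, hmy, mul_inv_cancel]

/-- Every stem extension is the image of a covering group. -/
theorem cover_of_stem {Δ : Type v} [Group Δ] {τ : Δ →* Q} (hτ : Cfsg.IsStemExtension τ) :
    ∃ (Γ : Type u) (_ : Group Γ) (_ : Finite Γ) (σ : Γ →* Q), Cfsg.IsStemExtension σ ∧
      Nonempty (σ.ker ≃* M Q) ∧ ∃ β : Γ →* Δ, Function.Surjective β ∧ τ.comp β = σ := by
  obtain ⟨η, hη⟩ := exists_hom τ hτ.1 hτ.2.1
  have hW : η.ker ≤ K Q := comp_eq_of_center hτ hη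
  have hsup : K Q ≤ η.ker ⊔ M Q := fun x hx => by
    have hk : η x ∈ τ.ker := by
      show τ (η x) = 1
      rw [← MonoidHom.comp_apply, hη]; exact hx
    obtain ⟨m, hm, hmy⟩ := (map_M_eq_ker hτ hη).ge hk
    rw [show x = x * m⁻¹ * m by group]
    refine Subgroup.mul_mem_sup ?_ hm
    show η (x * m⁻¹) = 1
    rw [map_mul, map_inv, hmy, mul_inv_cancel]
  obtain ⟨C, hC, hCn, h⟩ := exists_isCompl η.ker hW hsup
  haveI := hCn
  refine ⟨E Q ⧸ C, inferInstance, finite_cover C h, coverHom C h, coverHom_stem C h,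
    ⟨(coverHom_ker C h).some.symm⟩, QuotientGroup.lift C η hC, fun y => ?_, MonoidHom.ext fun x => ?_⟩
  · obtain ⟨x, hx⟩ := surjective_of_stem hτ hη y
    exact ⟨(x : E Q ⧸ C), hx⟩
  · obtain ⟨e, rfl⟩ := QuotientGroup.mk_surjective x
    exact DFunLike.congr_fun hη e

noncomputable instance divisibleByUnits : DivisibleBy (Additive ℂˣ) ℤ where
  div a n := if h : n = 0 then 0 else
    Additive.ofMul (Classical.choose (show ∃ z : ℂˣ, z ^ n = Additive.toMul a by
      obtain ⟨w, hw⟩ := IsAlgClosed.exists_pow_nat_eq ((Additive.toMul a : ℂˣ) : ℂ) (Int.natAbs_pos.2 h)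
      have hw0 : w ≠ 0 := fun e => by
        rw [e, zero_pow (Int.natAbs_pos.2 h).ne'] at hw
        exact (Units.ne_zero _) hw.symm
      rcases Int.natAbs_eq n with e | e
      · exact ⟨Units.mk0 w hw0, by rw [e, zpow_natCast]; exact Units.ext (by simpa using hw)⟩
      · exact ⟨(Units.mk0 w hw0)⁻¹, by
          rw [e, zpow_neg, zpow_natCast, inv_pow, inv_inv]; exact Units.ext (by simpa using hw)⟩))
  div_zero a := dif_pos rfl
  div_cancel {n} a hn := by
    rw [dif_neg hn]
    exact congrArg Additive.ofMul (Classical.choose_spec (p := fun z : ℂˣ => z ^ n = Additive.toMul a) _)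

/-- Characters of a complement extend to `E`. -/
theorem exists_extend (C : Subgroup (E Q)) (hinf : C ⊓ commutator (E Q) = ⊥) (φ : C →* ℂˣ) :
    ∃ χ : E Q →* ℂˣ, ∀ c : C, χ c = φ c := by
  letI : CommGroup C := { (inferInstance : Group C) with
    mul_comm := fun a b => Subtype.ext (commutatorElement_eq_one_iff_mul_comm.1 (by
      have h : ⁅(a : E Q), (b : E Q)⁆ ∈ C ⊓ commutator (E Q) := ⟨C.mul_mem (C.mul_mem (C.mul_mem a.2 b.2) (C.inv_mem a.2)) (C.inv_mem b.2),
        Subgroup.commutator_mem_commutator trivial trivial⟩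
      rwa [hinf, Subgroup.mem_bot] at h)) }
  let i : Additive C →+ (Q →₀ ℤ) := MonoidHom.toAdditiveLeft ((ab Q).comp C.subtype)
  have hi : Function.Injective i := by
    rw [injective_iff_map_eq_zero]
    intro c hc
    have h1 : ((Additive.toMul c : C) : E Q) ∈ C ⊓ commutator (E Q) := ⟨(Additive.toMul c).2, by rw [← ker_ab]; exact hc⟩
    rw [hinf, Subgroup.mem_bot] at h1
    exact congrArg Additive.ofMul (Subtype.ext h1 : Additive.toMul c = 1)
  obtain ⟨f, hf⟩ := (Module.Baer.of_divisible (Additive ℂˣ)).extension_property_addMonoidHom i hi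
    (MonoidHom.toAdditive φ)
  exact ⟨(AddMonoidHom.toMultiplicativeLeft f).comp (ab Q), fun c =>
    congrArg Additive.toMul (DFunLike.congr_fun hf (Additive.ofMul c))⟩

/-- Projective representations lift along covering groups. -/
theorem lift_projective {Γ : Type v} [Group Γ] {σ : Γ →* Q} (hσ : Cfsg.IsStemExtension σ)
    (hcard : Nat.card σ.ker = Nat.card (M Q)) (n : ℕ)
    (γ : Q →* (GL (Fin n) ℂ ⧸ Subgroup.center (GL (Fin n) ℂ))) :
    ∃ ρ : Γ →* GL (Fin n) ℂ, (QuotientGroup.mk' (Subgroup.center (GL (Fin n) ℂ))).comp ρ = γ.comp σ := by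
  classical
  obtain ⟨η, hη⟩ := exists_hom σ hσ.1 hσ.2.1
  have hC := isCompl_ker hσ hcard hη
  obtain ⟨g, hg⟩ := exists_hom_over (QuotientGroup.mk' (Subgroup.center (GL (Fin n) ℂ)))
    (QuotientGroup.mk'_surjective _) (by rw [QuotientGroup.ker_mk']) γ
  have hcen : ∀ c : η.ker, g c ∈ Subgroup.center (GL (Fin n) ℂ) := fun c => by
    rw [← QuotientGroup.eq_one_iff]
    show (QuotientGroup.mk' _).comp g (c : E Q) = 1
    rw [hg, MonoidHom.comp_apply, show proj Q (c : E Q) = 1 from hC.le c.2, map_one]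
  let sc : ℂˣ →* GL (Fin n) ℂ := Matrix.GeneralLinearGroup.scalar (Fin n)
  obtain ⟨s, hs⟩ : ∃ s : η.ker →* ℂˣ, ∀ c, sc (s c) = g c := by
    rcases Nat.eq_zero_or_pos n with rfl | hn
    · exact ⟨1, fun c => Subsingleton.elim _ _⟩
    have hinj : Function.Injective sc := fun x y h => by
      have h1 := congrArg (fun M : GL (Fin n) ℂ => (M : Matrix (Fin n) (Fin n) ℂ) ⟨0, hn⟩ ⟨0, hn⟩) h
      simpa [sc, Units.ext_iff] using h1
    choose f hf using fun c : η.ker => (Matrix.GeneralLinearGroup.center_eq_range_scalar.le (hcen c) : g c ∈ sc.range)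
    exact ⟨MonoidHom.mk' f fun a b => hinj (by rw [map_mul, hf, hf, hf, Subgroup.coe_mul, map_mul]), hf⟩
  obtain ⟨χ, hχ⟩ := exists_extend η.ker hC.inf s⁻¹
  have hsc : ∀ z : ℂˣ, sc z ∈ Subgroup.center (GL (Fin n) ℂ) := fun z =>
    Matrix.GeneralLinearGroup.center_eq_range_scalar.ge ⟨z, rfl⟩
  let g' : E Q →* GL (Fin n) ℂ := MonoidHom.mk' (fun x => g x * sc (χ x)) fun a b => by
    rw [map_mul, map_mul, map_mul, mul_assoc, mul_assoc]
    congr 1
    rw [← mul_assoc, ← mul_assoc, Subgroup.mem_center_iff.1 (hsc (χ a)) (g b)]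
  have hg' : η.ker ≤ g'.ker := fun c hc => by
    show g c * sc (χ c) = 1
    rw [show χ c = (s ⟨c, hc⟩)⁻¹ from hχ ⟨c, hc⟩, map_inv, hs, mul_inv_cancel]
  have hsurj := surjective_of_stem hσ hη
  refine ⟨η.liftOfSurjective hsurj ⟨g', hg'⟩, MonoidHom.ext fun y => ?_⟩
  obtain ⟨x, rfl⟩ := hsurj y
  rw [MonoidHom.comp_apply, MonoidHom.liftOfRightInverse_comp_apply, MonoidHom.comp_apply,
    show σ (η x) = proj Q x from DFunLike.congr_fun hη x]
  show QuotientGroup.mk' _ (g x * sc (χ x)) = _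
  rw [map_mul, show QuotientGroup.mk' _ (sc (χ x)) = 1 from (QuotientGroup.eq_one_iff _).2 (hsc _), mul_one]
  exact DFunLike.congr_fun hg x

/-- Lifting of all projective representations forces a covering group. -/
theorem card_M_le_of_lift {Γ : Type v} [Group Γ] {σ : Γ →* Q} [Finite σ.ker] (hσ : Function.Surjective σ)
    (hker : σ.ker ≤ Subgroup.center Γ)
    (hlift : ∀ (n : ℕ) (γ : Q →* (GL (Fin n) ℂ ⧸ Subgroup.center (GL (Fin n) ℂ))),
      ∃ ρ : Γ →* GL (Fin n) ℂ, (QuotientGroup.mk' (Subgroup.center (GL (Fin n) ℂ))).comp ρ = γ.comp σ) :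
    Nat.card (M Q) ≤ Nat.card σ.ker := by
  classical
  obtain ⟨ηΓ, hηΓ⟩ := exists_hom σ hσ hker
  obtain ⟨C, -, hCn, hC⟩ := exists_isCompl (K Q) le_rfl le_sup_left
  haveI := hCn
  set P := E Q ⧸ C
  set ρ := coverHom C hC with hρ
  have hρs := coverHom_stem C hC
  haveI : Finite P := finite_cover C hC
  letI : CommGroup ρ.ker := { (inferInstance : Group ρ.ker) with
    mul_comm := fun a b => Subtype.ext (Subgroup.mem_center_iff.1 (hρs.2.1 b.2) (a : P)) }
  have key : ∀ m : M Q, ηΓ (m : E Q) = 1 → m = 1 := by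
    intro m hm
    let a : ρ.ker := ⟨((m : E Q) : P), m.2.1⟩
    suffices h : a = 1 from Subtype.ext (coverHom_injOn C hC m m.2 (congrArg Subtype.val h))
    by_contra ha
    haveI : NeZero (Monoid.exponent ρ.ker) := ⟨Monoid.ExponentExists.of_finite.exponent_ne_zero⟩
    obtain ⟨lam, hlam⟩ := CommGroup.exists_apply_ne_one_of_hasEnoughRootsOfUnity ρ.ker ℂ ha
    -- the monomial representation induced from `lam`
    obtain ⟨t, ht⟩ : ∃ t : Q → P, ∀ q, ρ (t q) = q := ⟨Function.surjInv hρs.1, Function.surjInv_eq hρs.1⟩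
    let c : P → Q → ρ.ker := fun g q => ⟨(t (ρ g * q))⁻¹ * g * t q, by
      show ρ _ = 1
      rw [map_mul, map_mul, map_inv, ht, ht, mul_assoc, inv_mul_cancel]⟩
    have hc : ∀ g h q, c (g * h) q = c g (ρ h * q) * c h q := fun g h q => Subtype.ext (by
      show (t (ρ (g * h) * q))⁻¹ * (g * h) * t q =
        (t (ρ g * (ρ h * q)))⁻¹ * g * t (ρ h * q) * ((t (ρ h * q))⁻¹ * h * t q)
      rw [map_mul, mul_assoc (ρ g)]; group)
    have hc1 : ∀ (b : ρ.ker) q, c (b : P) q = b := fun b q => Subtype.ext (by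
      show (t (ρ (b : P) * q))⁻¹ * (b : P) * t q = b
      rw [show ρ (b : P) = 1 from b.2, one_mul, mul_assoc, ← Subgroup.mem_center_iff.1 (hρs.2.1 b.2) (t q),
        inv_mul_cancel_left])
    haveI : Fintype Q := Fintype.ofFinite Q
    set n := Fintype.card Q
    let e : Q ≃ Fin n := Fintype.equivFin Q
    let A : P → Matrix (Fin n) (Fin n) ℂ := fun g i j =>
      if i = e (ρ g * e.symm j) then ((lam (c g (e.symm j)) : ℂˣ) : ℂ) else 0
    have hA1 : A 1 = 1 := by
      ext i j
      have h := hc1 1 (e.symm j)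
      simp only [OneMemClass.coe_one] at h
      simp only [A, map_one, one_mul, Equiv.apply_symm_apply, h, Units.val_one]
      rw [Matrix.one_apply]
    have hAm : ∀ g h, A (g * h) = A g * A h := fun g h => by
      ext i j
      rw [Matrix.mul_apply, Finset.sum_eq_single (e (ρ h * e.symm j))]
      · simp only [A, if_pos, Equiv.symm_apply_apply, hc, map_mul, Units.val_mul, mul_assoc, ite_mul, zero_mul]
      · intro k _ hk
        simp only [A, if_neg hk, mul_zero]
      · simp
    let R : P →* GL (Fin n) ℂ :=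
      (Units.map ({ toFun := A, map_one' := hA1, map_mul' := hAm } : P →* Matrix (Fin n) (Fin n) ℂ)).comp
        toUnits.toMonoidHom
    have hR : ∀ b : ρ.ker, R b ∈ Subgroup.center (GL (Fin n) ℂ) := fun b => by
      refine Matrix.GeneralLinearGroup.center_eq_range_scalar.ge ⟨lam b, Units.ext ?_⟩
      show Matrix.scalar (Fin n) ((lam b : ℂˣ) : ℂ) = A b
      ext i j
      simp only [A, hc1, show ρ (b : P) = 1 from b.2, one_mul, Equiv.apply_symm_apply, Matrix.scalar_apply,
        Matrix.diagonal_apply]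
    let γ : Q →* (GL (Fin n) ℂ ⧸ Subgroup.center (GL (Fin n) ℂ)) :=
      ρ.liftOfSurjective hρs.1 ⟨(QuotientGroup.mk' _).comp R, fun b hb => (QuotientGroup.eq_one_iff _).2 (hR ⟨b, hb⟩)⟩
    obtain ⟨ρ', hρ'⟩ := hlift n γ
    have hagree : ∀ x : E Q, (ρ' (ηΓ x))⁻¹ * R (x : P) ∈ Subgroup.center (GL (Fin n) ℂ) := fun x => by
      rw [← QuotientGroup.eq_one_iff, QuotientGroup.mk_mul, QuotientGroup.mk_inv]
      have h1 : ((ρ' (ηΓ x) : GL (Fin n) ℂ) : GL (Fin n) ℂ ⧸ Subgroup.center (GL (Fin n) ℂ)) = γ (σ (ηΓ x)) :=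
        DFunLike.congr_fun hρ' (ηΓ x)
      rw [h1, show σ (ηΓ x) = ρ (x : P) from DFunLike.congr_fun hηΓ x, MonoidHom.liftOfRightInverse_comp_apply]
      exact inv_mul_cancel _
    have h2 := eqOn_commutator (ρ'.comp ηΓ) (R.comp (QuotientGroup.mk' C)) hagree (m : E Q) m.2.2
    rw [MonoidHom.comp_apply, MonoidHom.comp_apply, hm, map_one] at h2
    apply hlam
    have h3 : A (a : P) = 1 := (congrArg Units.val h2).symm
    have h4 := congrFun (congrFun h3 (e 1)) (e 1)
    simp only [A, hc1, show ρ (a : P) = 1 from a.2, one_mul, Equiv.symm_apply_apply, if_pos, Matrix.one_apply_eq] at h4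
    exact Units.ext h4
  let f : M Q →* σ.ker := (ηΓ.comp (M Q).subtype).codRestrict σ.ker fun m => by
    show σ (ηΓ m) = 1
    rw [← MonoidHom.comp_apply, hηΓ]; exact m.2.1
  refine Nat.card_le_card_of_injective f ?_
  rw [injective_iff_map_eq_one]
  exact fun m hm => key m (congrArg Subtype.val hm)

omit [Finite Q] in
theorem map_commutator_proj (hQ : Group.IsPerfect Q) : (commutator (E Q)).map (proj Q) = ⊤ := by
  rw [commutator_def, Subgroup.map_commutator, Subgroup.map_top_of_surjective _ (proj_surjective Q),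
    ← commutator_def, hQ.commutator_eq_top]

omit [Finite Q] in
/-- For perfect `Q` the commutator subgroup of `E` is perfect. -/
theorem commutator_perfect (hQ : Group.IsPerfect Q) : Group.IsPerfect (commutator (E Q)) := by
  rw [Subgroup.isPerfect_iff]
  refine le_antisymm (Subgroup.commutator_le_self _) ?_
  have hdec : ∀ x : E Q, ∃ a ∈ commutator (E Q), ∃ z ∈ Subgroup.center (E Q), x = a * z := by
    intro x
    obtain ⟨a, ha, hax⟩ := (map_commutator_proj hQ).ge (Subgroup.mem_top (proj Q x))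
    refine ⟨a, ha, a⁻¹ * x, K_le_center Q ?_, (mul_inv_cancel_left a x).symm⟩
    show proj Q (a⁻¹ * x) = 1
    rw [map_mul, map_inv, hax, inv_mul_cancel]
  conv_lhs => rw [commutator_def]
  rw [Subgroup.commutator_le]
  intro x _ y _
  obtain ⟨a, ha, za, hza, rfl⟩ := hdec x
  obtain ⟨b, hb, zb, hzb, rfl⟩ := hdec y
  have h1 := Subgroup.mem_center_iff.1 hza
  have h2 := Subgroup.mem_center_iff.1 hzb
  have e : ⁅a * za, b * zb⁆ = ⁅a, b⁆ := by
    simp only [commutatorElement_def]
    calc a * za * (b * zb) * (a * za)⁻¹ * (b * zb)⁻¹ = a * (za * b) * zb * za⁻¹ * a⁻¹ * zb⁻¹ * b⁻¹ := by group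
      _ = a * b * (za * zb) * za⁻¹ * a⁻¹ * zb⁻¹ * b⁻¹ := by rw [← h1 b]; group
      _ = a * b * (zb * za) * za⁻¹ * a⁻¹ * zb⁻¹ * b⁻¹ := by rw [h2 za]
      _ = a * b * (zb * a⁻¹) * zb⁻¹ * b⁻¹ := by group
      _ = a * b * (a⁻¹ * zb) * zb⁻¹ * b⁻¹ := by rw [h2 a⁻¹]
      _ = _ := by group
  rw [e]
  exact Subgroup.commutator_mem_commutator ha hb

/-- The universal central extension of a perfect group. -/
theorem universal_perfect (hQ : Group.IsPerfect Q) {X : Type v} [Group X] (ξ : X →* Q)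
    (hξ : Function.Surjective ξ) (hker : ξ.ker ≤ Subgroup.center X) :
    ∃! η : commutator (E Q) →* X, ξ.comp η = (proj Q).comp (commutator (E Q)).subtype := by
  obtain ⟨η, hη⟩ := exists_hom ξ hξ hker
  refine ⟨η.comp (commutator (E Q)).subtype, by show ξ.comp _ = _; rw [← MonoidHom.comp_assoc, hη], fun η' hη' => ?_⟩
  refine MonoidHom.ext fun x => ?_
  haveI := commutator_perfect hQ
  refine eqOn_commutator η' (η.comp (commutator (E Q)).subtype) (fun a => hker ?_) x Group.IsPerfect.mem_commutator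
  have h1 : ξ (η' a) = proj Q (a : E Q) := DFunLike.congr_fun hη' a
  show ξ ((η' a)⁻¹ * η (a : E Q)) = 1
  rw [map_mul, map_inv, h1, show ξ (η (a : E Q)) = proj Q (a : E Q) from DFunLike.congr_fun hη _, inv_mul_cancel]

/-- Criterion for universality of a perfect central extension. -/
theorem universal_iff {G : Type u} {P : Type v} [Group G] [Group P] [Finite G] (hG : Group.IsPerfect G)
    (π : G →* P) (hπ : Function.Surjective π) (hker : π.ker ≤ Subgroup.center G) :
    (∀ (X : Type u) [Group X] (ξ : X →* P), Function.Surjective ξ → ξ.ker ≤ Subgroup.center X →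
      ∃ η : G →* X, ξ.comp η = π) ↔ Nat.card (M G) = 1 := by
  constructor
  · intro h
    obtain ⟨Γ, _, _, ρ, hρ, ⟨e⟩⟩ := exists_cover (Q := G)
    rw [← Nat.card_congr e.toEquiv]
    have hΓ : commutator Γ = ⊤ := by
      rw [eq_top_iff]
      intro x _
      have h1 : (commutator Γ).map ρ = ⊤ := by
        rw [commutator_def, Subgroup.map_commutator, Subgroup.map_top_of_surjective _ hρ.1, ← commutator_def,
          hG.commutator_eq_top]
      obtain ⟨a, ha, hax⟩ := h1.ge (Subgroup.mem_top (ρ x))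
      rw [← mul_inv_cancel_left a x]
      exact Subgroup.mul_mem _ ha (hρ.2.2 (show ρ (a⁻¹ * x) = 1 by rw [map_mul, map_inv, hax, inv_mul_cancel]))
    have hcen : (π.comp ρ).ker ≤ Subgroup.center Γ := by
      intro x hx
      have hxz : ρ x ∈ Subgroup.center G := hker hx
      have hmem : ∀ y : Γ, ⁅y, x⁆ ∈ Subgroup.center Γ := fun y => hρ.2.1 (by
        rw [MonoidHom.mem_ker, map_commutatorElement]
        exact commutatorElement_eq_one_iff_mul_comm.2 (Subgroup.mem_center_iff.1 hxz _))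
      letI : CommGroup (Subgroup.center Γ) := { (inferInstance : Group (Subgroup.center Γ)) with
        mul_comm := fun a b => Subtype.ext (Subgroup.mem_center_iff.1 b.2 (a : Γ)) }
      let φ : Γ →* Subgroup.center Γ := MonoidHom.mk' (fun y => ⟨⁅y, x⁆, hmem y⟩) fun g h => Subtype.ext (by
        show ⁅g * h, x⁆ = ⁅g, x⁆ * ⁅h, x⁆
        have hh := Subgroup.mem_center_iff.1 (hmem h)
        calc ⁅g * h, x⁆ = (g * ⁅h, x⁆) * g⁻¹ * ⁅g, x⁆ := by rw [commutatorElement_def, commutatorElement_def, commutatorElement_def]; group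
          _ = ⁅h, x⁆ * ⁅g, x⁆ := by rw [hh g]; group
          _ = ⁅g, x⁆ * ⁅h, x⁆ := (hh _).symm)
      refine Subgroup.mem_center_iff.2 fun y => ?_
      have hy : y ∈ φ.ker := Abelianization.commutator_subset_ker φ (hΓ ▸ Subgroup.mem_top y)
      exact commutatorElement_eq_one_iff_mul_comm.1 (congrArg Subtype.val hy)
    obtain ⟨η, hη⟩ := h Γ (π.comp ρ) (hπ.comp hρ.1) hcen
    have hid : ∀ g, ρ (η g) = g := fun g => by
      refine eqOn_commutator (ρ.comp η) (MonoidHom.id G) (fun a => hker ?_) g (hG.commutator_eq_top ▸ Subgroup.mem_top g)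
      show π ((ρ (η a))⁻¹ * a) = 1
      rw [map_mul, map_inv, show π (ρ (η a)) = π a from DFunLike.congr_fun hη a, inv_mul_cancel]
    have hr : commutator Γ ≤ η.range := by
      rw [commutator_def, Subgroup.commutator_le]
      intro x _ y _
      have hz : ∀ x : Γ, (η (ρ x))⁻¹ * x ∈ Subgroup.center Γ := fun x => hρ.2.1 (by
        show ρ ((η (ρ x))⁻¹ * x) = 1
        rw [map_mul, map_inv, hid, inv_mul_cancel])
      refine ⟨⁅ρ x, ρ y⁆, ?_⟩
      rw [map_commutatorElement]
      have h1 := Subgroup.mem_center_iff.1 (hz x)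
      have h2 := Subgroup.mem_center_iff.1 (hz y)
      generalize hzx : (η (ρ x))⁻¹ * x = zx at h1
      generalize hzy : (η (ρ y))⁻¹ * y = zy at h2
      have ex : x = η (ρ x) * zx := by rw [← hzx, mul_inv_cancel_left]
      have ey : y = η (ρ y) * zy := by rw [← hzy, mul_inv_cancel_left]
      conv_rhs => rw [ex, ey]
      simp only [commutatorElement_def]
      symm
      calc η (ρ x) * zx * (η (ρ y) * zy) * (η (ρ x) * zx)⁻¹ * (η (ρ y) * zy)⁻¹
          = η (ρ x) * (zx * η (ρ y)) * zy * zx⁻¹ * (η (ρ x))⁻¹ * zy⁻¹ * (η (ρ y))⁻¹ := by group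
        _ = η (ρ x) * η (ρ y) * (zx * zy) * zx⁻¹ * (η (ρ x))⁻¹ * zy⁻¹ * (η (ρ y))⁻¹ := by rw [← h1 (η (ρ y))]; group
        _ = η (ρ x) * η (ρ y) * (zy * zx) * zx⁻¹ * (η (ρ x))⁻¹ * zy⁻¹ * (η (ρ y))⁻¹ := by rw [h2 zx]
        _ = η (ρ x) * η (ρ y) * (zy * (η (ρ x))⁻¹) * zy⁻¹ * (η (ρ y))⁻¹ := by group
        _ = η (ρ x) * η (ρ y) * ((η (ρ x))⁻¹ * zy) * zy⁻¹ * (η (ρ y))⁻¹ := by rw [h2 (η (ρ x))⁻¹]
        _ = _ := by group
    rw [Subgroup.card_eq_one, eq_bot_iff]
    intro x hx
    obtain ⟨g, rfl⟩ := hr (hΓ ▸ Subgroup.mem_top x)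
    have h1 : ρ (η g) = 1 := hx
    rw [hid] at h1
    rw [h1, map_one]
    exact one_mem _
  · intro hM X _ ξ hξ hkX
    obtain ⟨η, hη⟩ := exists_hom_over ξ hξ hkX π
    let f : commutator (E G) →* G := (proj G).comp (commutator (E G)).subtype
    have hb : Function.Bijective f := by
      refine ⟨(injective_iff_map_eq_one f).2 fun x hx => ?_, fun g => ?_⟩
      · have h1 : (x : E G) ∈ M G := ⟨hx, x.2⟩
        have h2 : Subsingleton (M G) := (Nat.card_eq_one_iff_unique.1 hM).1
        exact Subtype.ext (congrArg Subtype.val (Subsingleton.elim (⟨(x : E G), h1⟩ : M G) 1) : (x : E G) = 1)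
      · obtain ⟨a, ha, hag⟩ := (map_commutator_proj hG).ge (Subgroup.mem_top g)
        exact ⟨⟨a, ha⟩, hag⟩
    refine ⟨(η.comp (commutator (E G)).subtype).comp (MulEquiv.ofBijective f hb).symm.toMonoidHom,
      MonoidHom.ext fun g => ?_⟩
    obtain ⟨a, rfl⟩ := hb.2 g
    show ξ (η (((MulEquiv.ofBijective f hb).symm (f a) : commutator (E G)) : E G)) = π (f a)
    rw [show (MulEquiv.ofBijective f hb).symm (f a) = a from (MulEquiv.ofBijective f hb).symm_apply_apply a]
    exact DFunLike.congr_fun hη (a : E G)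

end CfsgLib.Core.Schur
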