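import Cfsg.Agent.Lib.CoreSchur
import Mathlib.GroupTheory.SpecificGroups.Quaternion
import Mathlib.GroupTheory.SpecificGroups.Cyclic
import Mathlib.GroupTheory.FiniteAbelian.Basic

/-!
# Multipliers of some small groups
-/

set_option autoImplicit false
set_option maxHeartbeats 200000

open scoped commutatorElement

namespace CfsgLib.Core.Schur

universe u v w

/-- A map that is additive in both variables. -/
structure Bilin (X : Type u) [Group X] (T : Type v) [AddCommGroup T] where
  toFun : X → X → T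
  left : ∀ x y z, toFun (x * y) z = toFun x z + toFun y z
  right : ∀ x y z, toFun x (y * z) = toFun x y + toFun x z

variable {X : Type u} [Group X] {T : Type v} [AddCommGroup T]

theorem Bilin.one_left (β : Bilin X T) (x : X) : β.toFun 1 x = 0 := by
  have h := β.left 1 1 x
  rw [one_mul] at h
  simpa using h

theorem Bilin.one_right (β : Bilin X T) (x : X) : β.toFun x 1 = 0 := by
  have h := β.right x 1 1
  rw [one_mul] at h
  simpa using h

theorem Bilin.inv_left (β : Bilin X T) (x y : X) : β.toFun x⁻¹ y = - β.toFun x y := by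
  have h := β.left x⁻¹ x y
  rw [inv_mul_cancel, β.one_left] at h
  exact eq_neg_of_add_eq_zero_left h.symm

/-- The central extension of `X` by `T` with cocycle `β`. -/
@[ext] structure BExt (β : Bilin X T) where
  fst : X
  snd : T

instance (β : Bilin X T) : Group (BExt β) where
  one := ⟨1, 0⟩
  mul p q := ⟨p.fst * q.fst, p.snd + q.snd + β.toFun p.fst q.fst⟩
  inv p := ⟨p.fst⁻¹, -p.snd + β.toFun p.fst p.fst⟩
  mul_assoc p q r := by
    refine BExt.ext (mul_assoc _ _ _) ?_
    show p.snd + q.snd + β.toFun p.fst q.fst + r.snd + β.toFun (p.fst * q.fst) r.fst =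
      p.snd + (q.snd + r.snd + β.toFun q.fst r.fst) + β.toFun p.fst (q.fst * r.fst)
    rw [β.left, β.right]; abel
  one_mul p := BExt.ext (_root_.one_mul _) (by
    show 0 + p.snd + β.toFun 1 p.fst = p.snd
    rw [β.one_left]; abel)
  mul_one p := BExt.ext (_root_.mul_one _) (by
    show p.snd + 0 + β.toFun p.fst 1 = p.snd
    rw [β.one_right]; abel)
  inv_mul_cancel p := BExt.ext (_root_.inv_mul_cancel _) (by
    show -p.snd + β.toFun p.fst p.fst + p.snd + β.toFun p.fst⁻¹ p.fst = 0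
    rw [β.inv_left]; abel)

instance (β : Bilin X T) [Finite X] [Finite T] : Finite (BExt β) :=
  Finite.of_injective (fun p => (p.fst, p.snd)) fun p q h =>
    BExt.ext (congrArg Prod.fst h) (congrArg Prod.snd h)

/-- The projection. -/
def BExt.proj (β : Bilin X T) : BExt β →* X where
  toFun p := p.fst
  map_one' := rfl
  map_mul' _ _ := rfl

theorem BExt.proj_surjective (β : Bilin X T) : Function.Surjective (BExt.proj β) := fun x => ⟨⟨x, 0⟩, rfl⟩

theorem BExt.inl_mem_center (β : Bilin X T) (t : T) : (⟨1, t⟩ : BExt β) ∈ Subgroup.center (BExt β) := by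
  refine Subgroup.mem_center_iff.2 fun p => BExt.ext ?_ ?_
  · show p.fst * 1 = 1 * p.fst
    rw [mul_one, one_mul]
  · show p.snd + t + β.toFun p.fst 1 = t + p.snd + β.toFun 1 p.fst
    rw [β.one_left, β.one_right]; abel

theorem BExt.commutator_eq (β : Bilin X T) {x y : X} (h : x * y = y * x) :
    ⁅(⟨x, 0⟩ : BExt β), (⟨y, 0⟩ : BExt β)⁆ = (⟨1, β.toFun x y - β.toFun y x⟩ : BExt β) := by
  have e : (⟨x, 0⟩ : BExt β) * ⟨y, 0⟩ = ⟨1, β.toFun x y - β.toFun y x⟩ * (⟨y, 0⟩ * ⟨x, 0⟩) := by
    refine BExt.ext ?_ ?_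
    · show x * y = 1 * (y * x)
      rw [one_mul, h]
    · show 0 + 0 + β.toFun x y = (β.toFun x y - β.toFun y x) + (0 + 0 + β.toFun y x) + β.toFun 1 (y * x)
      rw [β.one_left]; abel
  rw [commutatorElement_def, mul_assoc, mul_assoc, ← mul_assoc, e]
  group

/-- In a group generated by two elements and a central subgroup. -/
theorem commutator_le_zpowers {Γ : Type u} [Group Γ] (Z : Subgroup Γ) (hZ : Z ≤ Subgroup.center Γ) (a b : Γ)
    (hgen : Subgroup.closure {a, b} ⊔ Z = ⊤)
    (ha : a * ⁅b, a⁆ * a⁻¹ ∈ Subgroup.zpowers ⁅b, a⁆) (hb : b * ⁅b, a⁆ * b⁻¹ ∈ Subgroup.zpowers ⁅b, a⁆)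
    (hai : a⁻¹ * ⁅b, a⁆ * a ∈ Subgroup.zpowers ⁅b, a⁆) (hbi : b⁻¹ * ⁅b, a⁆ * b ∈ Subgroup.zpowers ⁅b, a⁆) :
    commutator Γ ≤ Subgroup.zpowers ⁅b, a⁆ := by
  set x := ⁅b, a⁆ with hx
  set N := Subgroup.zpowers x with hN
  have hconj : ∀ g : Γ, g * x * g⁻¹ ∈ N → ∀ z ∈ N, g * z * g⁻¹ ∈ N := by
    rintro g hg _ ⟨i, rfl⟩
    show g * x ^ i * g⁻¹ ∈ N
    rw [← conj_zpow]
    exact N.zpow_mem hg i
  let T : Subgroup Γ :=
    { carrier := {g | (∀ z ∈ N, g * z * g⁻¹ ∈ N) ∧ ∀ z ∈ N, g⁻¹ * z * g ∈ N}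
      one_mem' := ⟨fun z hz => by simpa using hz, fun z hz => by simpa using hz⟩
      mul_mem' := fun {g h} hg hh => ⟨fun z hz => by
          rw [show g * h * z * (g * h)⁻¹ = g * (h * z * h⁻¹) * g⁻¹ by group]
          exact hg.1 _ (hh.1 _ hz),
        fun z hz => by
          rw [show (g * h)⁻¹ * z * (g * h) = h⁻¹ * (g⁻¹ * z * g) * h by group]
          exact hh.2 _ (hg.2 _ hz)⟩
      inv_mem' := fun {g} hg => ⟨fun z hz => by rw [inv_inv]; exact hg.2 z hz,
        fun z hz => by rw [inv_inv]; exact hg.1 z hz⟩ }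
  have hT : ∀ g : Γ, g ∈ T := by
    intro g
    have h : Subgroup.closure {a, b} ⊔ Z ≤ T := by
      refine sup_le ((Subgroup.closure_le _).2 ?_) fun z hz => ⟨fun y hy => ?_, fun y hy => ?_⟩
      · have ha' := hconj a⁻¹ (by rwa [inv_inv])
        have hb' := hconj b⁻¹ (by rwa [inv_inv])
        rintro g (rfl | rfl)
        · exact ⟨hconj g ha, fun z hz => by simpa using ha' z hz⟩
        · exact ⟨hconj g hb, fun z hz => by simpa using hb' z hz⟩
      · rwa [← Subgroup.mem_center_iff.1 (hZ hz) y, mul_inv_cancel_right]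
      · rwa [mul_assoc, Subgroup.mem_center_iff.1 (hZ hz) y, ← mul_assoc, inv_mul_cancel, one_mul]
    exact h (hgen ▸ Subgroup.mem_top g)
  haveI : N.Normal := ⟨fun z hz g => (hT g).1 z hz⟩
  have hab : ∀ p q : Γ ⧸ N, p * q = q * p := by
    have h : Subgroup.closure {a, b} ⊔ Z ≤ Subgroup.comap (QuotientGroup.mk' N) (Subgroup.center (Γ ⧸ N)) := by
      refine sup_le ((Subgroup.closure_le _).2 ?_) fun z hz => ?_
      · have hcomm : (a : Γ ⧸ N) * b = b * a := by
          rw [← QuotientGroup.mk_mul, ← QuotientGroup.mk_mul, QuotientGroup.eq]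
          have h1 : (b * a)⁻¹ * x * (b * a) ∈ N := (hT (b * a)).2 x (Subgroup.mem_zpowers x)
          rwa [hx, commutatorElement_def,
            show (b * a)⁻¹ * (b * a * b⁻¹ * a⁻¹) * (b * a) = (a * b)⁻¹ * (b * a) by group] at h1
        intro g hg
        refine Subgroup.mem_center_iff.2 fun p => ?_
        obtain ⟨t, rfl⟩ := QuotientGroup.mk_surjective p
        have h3 : Subgroup.closure {a, b} ⊔ Z ≤
            Subgroup.comap (QuotientGroup.mk' N) (Subgroup.centralizer {(g : Γ ⧸ N)}) := by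
          refine sup_le ((Subgroup.closure_le _).2 ?_) fun z hz => Subgroup.mem_centralizer_singleton_iff.2 ?_
          · intro t ht
            refine Subgroup.mem_centralizer_singleton_iff.2 ?_
            show (t : Γ ⧸ N) * g = g * t
            rcases hg with rfl | rfl <;> rcases ht with rfl | rfl
            · rfl
            · exact hcomm.symm
            · exact hcomm
            · rfl
          · show (z : Γ ⧸ N) * g = g * z
            rw [← QuotientGroup.mk_mul, ← QuotientGroup.mk_mul, Subgroup.mem_center_iff.1 (hZ hz) g]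
        exact Subgroup.mem_centralizer_singleton_iff.1 (h3 (hgen ▸ Subgroup.mem_top t))
      · refine Subgroup.mem_center_iff.2 fun p => ?_
        obtain ⟨t, rfl⟩ := QuotientGroup.mk_surjective p
        show (t : Γ ⧸ N) * z = z * t
        rw [← QuotientGroup.mk_mul, ← QuotientGroup.mk_mul, Subgroup.mem_center_iff.1 (hZ hz) t]
    intro p q
    obtain ⟨t, rfl⟩ := QuotientGroup.mk_surjective q
    exact Subgroup.mem_center_iff.1 (h (hgen ▸ Subgroup.mem_top t)) p
  rw [commutator_def, Subgroup.commutator_le]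
  intro g _ k _
  rw [← QuotientGroup.eq_one_iff, ← QuotientGroup.mk'_apply, map_commutatorElement]
  exact commutatorElement_eq_one_iff_mul_comm.2 (hab _ _)

variable {Q : Type u} [Group Q]

/-- Preimages of a generating set generate modulo `K`. -/
theorem closure_sup_K {a b : E Q} {r s : Q} (ha : proj Q a = r) (hb : proj Q b = s)
    (hgen : Subgroup.closure {r, s} = ⊤) : Subgroup.closure {a, b} ⊔ K Q = ⊤ := by
  rw [eq_top_iff]
  intro g _
  have h : proj Q g ∈ (Subgroup.closure {a, b}).map (proj Q) := by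
    rw [MonoidHom.map_closure, Set.image_pair, ha, hb, hgen]
    exact Subgroup.mem_top _
  obtain ⟨c, hc, hce⟩ := h
  rw [← mul_inv_cancel_left c g]
  refine Subgroup.mul_mem_sup hc ?_
  show proj Q (c⁻¹ * g) = 1
  rw [map_mul, map_inv, hce, inv_mul_cancel]

/-- The bound for groups of dihedral type. -/
theorem card_M_le_dihedral [Finite Q] (r s : Q) (n h : ℕ) (hh : 0 < h) (hhn : h ∣ n) (hn : 0 < n)
    (hgen : Subgroup.closure {r, s} = ⊤) (hinv : s * r * s⁻¹ = r⁻¹) (hcase : r ^ n = 1 ∨ s * s = r ^ n)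
    (hord : ∀ k : ℤ, r ^ (2 * k) = 1 → (h : ℤ) ∣ k) :
    Nat.card (M Q) ≤ n / h := by
  obtain ⟨a, ha⟩ := proj_surjective Q r
  obtain ⟨b, hb⟩ := proj_surjective Q s
  have hc : b * a * b⁻¹ * a ∈ Subgroup.center (E Q) := K_le_center Q (by
    show proj Q (b * a * b⁻¹ * a) = 1
    rw [map_mul, map_mul, map_mul, map_inv, ha, hb, hinv, inv_mul_cancel])
  set c := b * a * b⁻¹ * a with hcdef
  have hC : ∀ g : E Q, Commute g c := fun g => Subgroup.mem_center_iff.1 hc g
  have hba : b * a * b⁻¹ = c * a⁻¹ := by rw [hcdef]; group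
  have hx : ⁅b, a⁆ = c * (a ^ 2)⁻¹ := by rw [hcdef, commutatorElement_def]; group
  have hbn : Commute b (a ^ n) := by
    rcases hcase with h1 | h1
    · exact Subgroup.mem_center_iff.1 (K_le_center Q (show proj Q (a ^ n) = 1 by rw [map_pow, ha, h1])) b
    · have hd : (b * b)⁻¹ * a ^ n ∈ K Q := by
        show proj Q ((b * b)⁻¹ * a ^ n) = 1
        rw [map_mul, map_inv, map_mul, map_pow, ha, hb, h1, inv_mul_cancel]
      have h2 : Commute b ((b * b) * ((b * b)⁻¹ * a ^ n)) :=
        ((Commute.refl b).mul_right (Commute.refl b)).mul_right (Subgroup.mem_center_iff.1 (K_le_center Q hd) b)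
      rwa [mul_inv_cancel_left] at h2
  have hxn : ⁅b, a⁆ ^ n = 1 := by
    have h1 : (b * a * b⁻¹) ^ n = a ^ n := by rw [conj_pow, hbn.eq, mul_inv_cancel_right]
    rw [hba, ((hC a⁻¹).symm).mul_pow] at h1
    have h2 := mul_inv_eq_iff_eq_mul.1 (inv_pow a n ▸ h1 : c ^ n * (a ^ n)⁻¹ = a ^ n)
    rw [hx, ((hC (a ^ 2)⁻¹).symm).mul_pow, inv_pow, h2, ← pow_add, ← pow_mul, two_mul, mul_inv_cancel]
  have hca : a * ⁅b, a⁆ * a⁻¹ = ⁅b, a⁆ := by
    rw [hx, ← mul_assoc, (hC a).eq]; group
  have hcb : b * ⁅b, a⁆ * b⁻¹ = ⁅b, a⁆⁻¹ := by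
    rw [hx]
    calc b * (c * (a ^ 2)⁻¹) * b⁻¹ = (b * c) * (a ^ 2)⁻¹ * b⁻¹ := by group
      _ = c * ((b * a * b⁻¹) * (b * a * b⁻¹))⁻¹ := by rw [(hC b).eq]; group
      _ = c * ((c * a⁻¹) * (c * a⁻¹))⁻¹ := by rw [hba]
      _ = (c * a) * c⁻¹ * a * c⁻¹ := by group
      _ = a * a * c⁻¹ := by rw [← (hC a).eq]; group
      _ = (c * (a ^ 2)⁻¹)⁻¹ := by rw [pow_two, mul_inv_rev c ((a * a)⁻¹), inv_inv]
  have hle := commutator_le_zpowers (K Q) (K_le_center Q) a b (closure_sup_K ha hb hgen)
    (by rw [hca]; exact Subgroup.mem_zpowers _) (by rw [hcb]; exact inv_mem (Subgroup.mem_zpowers _))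
    (by
      have : a⁻¹ * ⁅b, a⁆ * a = ⁅b, a⁆ := by nth_rw 1 [← hca]; group
      rw [this]; exact Subgroup.mem_zpowers _)
    (by
      have : b⁻¹ * ⁅b, a⁆⁻¹ * b = ⁅b, a⁆ := by rw [← hcb]; group
      have h2 : b⁻¹ * ⁅b, a⁆ * b = ⁅b, a⁆⁻¹ := by nth_rw 2 [← this]; group
      rw [h2]; exact inv_mem (Subgroup.mem_zpowers _))
  have hM : M Q ≤ Subgroup.zpowers (⁅b, a⁆ ^ h) := by
    rintro y ⟨hy1, hy2⟩
    obtain ⟨k, rfl⟩ := hle hy2
    change proj Q (⁅b, a⁆ ^ k) = 1 at hy1
    rw [map_zpow, map_commutatorElement, ha, hb, commutatorElement_def, hinv, ← mul_inv_rev, inv_zpow,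
      inv_eq_one, ← pow_two, ← zpow_natCast, ← zpow_mul] at hy1
    obtain ⟨j, hj⟩ := hord k hy1
    exact ⟨j, by show (⁅b, a⁆ ^ h) ^ j = ⁅b, a⁆ ^ k; rw [← zpow_natCast, ← zpow_mul, hj]⟩
  haveI : Finite (Subgroup.zpowers (⁅b, a⁆ ^ h)) := by
    refine Set.Finite.to_subtype (finite_zpowers.2 (isOfFinOrder_iff_pow_eq_one.2 ⟨n, hn, ?_⟩))
    rw [← pow_mul, mul_comm, pow_mul, hxn, one_pow]
  refine (Subgroup.card_le_of_le hM).trans ?_
  rw [Nat.card_zpowers]
  exact orderOf_le_of_pow_eq_one (Nat.div_pos (Nat.le_of_dvd hn hhn) hh)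
    (by rw [← pow_mul, Nat.mul_div_cancel' hhn, hxn])

theorem closure_dihedral (n : ℕ) :
    Subgroup.closure {DihedralGroup.r (1 : ZMod n), DihedralGroup.sr 0} = ⊤ := by
  rw [eq_top_iff]
  intro g _
  have hr : ∀ i : ZMod n, DihedralGroup.r i ∈ Subgroup.closure {DihedralGroup.r (1 : ZMod n), DihedralGroup.sr 0} := by
    intro i
    obtain ⟨k, rfl⟩ := ZMod.intCast_surjective i
    rw [← DihedralGroup.r_one_zpow]
    exact Subgroup.zpow_mem _ (Subgroup.subset_closure (Set.mem_insert _ _)) k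
  rcases g with i | i
  · exact hr i
  · rw [show DihedralGroup.sr i = DihedralGroup.sr 0 * DihedralGroup.r i by
      rw [DihedralGroup.sr_mul_r, zero_add]]
    exact Subgroup.mul_mem _ (Subgroup.subset_closure (Set.mem_insert_of_mem _ rfl)) (hr i)

theorem closure_quaternion (n : ℕ) :
    Subgroup.closure {QuaternionGroup.a (1 : ZMod (2 * n)), QuaternionGroup.xa 0} = ⊤ := by
  rw [eq_top_iff]
  intro g _
  have hr : ∀ i : ZMod (2 * n), QuaternionGroup.a i ∈
      Subgroup.closure {QuaternionGroup.a (1 : ZMod (2 * n)), QuaternionGroup.xa 0} := by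
    intro i
    let f : Multiplicative (ZMod (2 * n)) →* QuaternionGroup n :=
      MonoidHom.mk' (fun j => QuaternionGroup.a j.toAdd) fun p q => (QuaternionGroup.a_mul_a _ _).symm
    obtain ⟨k, rfl⟩ := ZMod.intCast_surjective i
    have h : QuaternionGroup.a ((k : ℤ) : ZMod (2 * n)) = (QuaternionGroup.a (1 : ZMod (2 * n))) ^ k := by
      have := map_zpow f (Multiplicative.ofAdd (1 : ZMod (2 * n))) k
      rw [← ofAdd_zsmul, zsmul_one] at this
      exact this
    rw [h]
    exact Subgroup.zpow_mem _ (Subgroup.subset_closure (Set.mem_insert _ _)) k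
  rcases g with i | i
  · exact hr i
  · rw [show QuaternionGroup.xa i = QuaternionGroup.xa 0 * QuaternionGroup.a i by
      rw [QuaternionGroup.xa_mul_a, zero_add]]
    exact Subgroup.mul_mem _ (Subgroup.subset_closure (Set.mem_insert_of_mem _ rfl)) (hr i)

theorem quaternion_trivial (n : ℕ) [NeZero n] : Cfsg.HasCyclicSchurMultiplier (QuaternionGroup n) 1 := by
  refine hasCyclic_one_iff.2 (le_antisymm ?_ Nat.card_pos)
  refine (card_M_le_dihedral (QuaternionGroup.a 1) (QuaternionGroup.xa 0) n n (NeZero.pos n) dvd_rfl (NeZero.pos n)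
    (closure_quaternion n) ?_ (Or.inr ?_) ?_).trans (Nat.div_self (NeZero.pos n)).le
  · rw [mul_inv_eq_iff_eq_mul, QuaternionGroup.xa_mul_a, eq_inv_mul_iff_mul_eq, QuaternionGroup.a_mul_xa]
    simp
  · rw [QuaternionGroup.xa_mul_xa, QuaternionGroup.a_one_pow]; simp
  · intro k hk
    rw [← orderOf_dvd_iff_zpow_eq_one, QuaternionGroup.orderOf_a_one] at hk
    push_cast at hk
    exact (mul_dvd_mul_iff_left two_ne_zero).1 hk

theorem dihedral_odd (n : ℕ) (hn : Odd n) : Cfsg.HasCyclicSchurMultiplier (DihedralGroup n) 1 := by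
  haveI : NeZero n := ⟨fun e => by rw [e] at hn; exact Nat.not_odd_zero hn⟩
  refine hasCyclic_one_iff.2 (le_antisymm ?_ Nat.card_pos)
  refine (card_M_le_dihedral (DihedralGroup.r 1) (DihedralGroup.sr 0) n n (NeZero.pos n) dvd_rfl (NeZero.pos n)
    (closure_dihedral n) ?_ (Or.inl DihedralGroup.r_one_pow_n) ?_).trans (Nat.div_self (NeZero.pos n)).le
  · rw [DihedralGroup.sr_mul_r, DihedralGroup.inv_sr, DihedralGroup.sr_mul_sr, DihedralGroup.inv_r]; simp
  · intro k hk
    rw [← orderOf_dvd_iff_zpow_eq_one, DihedralGroup.orderOf_r_one] at hk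
    refine IsCoprime.dvd_of_dvd_mul_left ?_ hk
    exact_mod_cast (hn.coprime_two_right).isCoprime

/-- `Q_n → D_n`. -/
def quatToDihedral (n : ℕ) : QuaternionGroup n →* DihedralGroup n :=
  MonoidHom.mk' (fun g => match g with
    | QuaternionGroup.a i => DihedralGroup.r (ZMod.castHom (dvd_mul_left n 2) (ZMod n) i)
    | QuaternionGroup.xa i => DihedralGroup.sr (ZMod.castHom (dvd_mul_left n 2) (ZMod n) i)) fun p q => by
  rcases p with i | i <;> rcases q with j | j
  · rw [QuaternionGroup.a_mul_a, DihedralGroup.r_mul_r, ← map_add]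
  · rw [QuaternionGroup.a_mul_xa, DihedralGroup.r_mul_sr, ← map_sub]
  · rw [QuaternionGroup.xa_mul_a, DihedralGroup.sr_mul_r, ← map_add]
  · rw [QuaternionGroup.xa_mul_xa, DihedralGroup.sr_mul_sr]
    show DihedralGroup.r _ = DihedralGroup.r _
    rw [map_sub, map_add, map_natCast, ZMod.natCast_self, zero_add]

theorem quatToDihedral_stem (n : ℕ) [NeZero n] (hn : Even n) :
    Cfsg.IsStemExtension (quatToDihedral n) ∧ Nat.card (quatToDihedral n).ker = 2 := by
  have hn0 : n ≠ 0 := NeZero.ne n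
  obtain ⟨h, hh⟩ := hn
  have hcast : ∀ i : ZMod (2 * n), ZMod.castHom (dvd_mul_left n 2) (ZMod n) i = 0 → i = 0 ∨ i = (n : ZMod (2 * n)) := by
    intro i hi
    obtain ⟨k, rfl⟩ := ZMod.natCast_zmod_surjective i
    rw [map_natCast, ZMod.natCast_eq_zero_iff] at hi
    obtain ⟨j, rfl⟩ := hi
    rcases Nat.even_or_odd' j with ⟨l, rfl | rfl⟩
    · refine Or.inl ?_
      rw [show n * (2 * l) = (2 * n) * l by ring, Nat.cast_mul, ZMod.natCast_self, zero_mul]
    · refine Or.inr ?_
      rw [show n * (2 * l + 1) = (2 * n) * l + n by ring, Nat.cast_add, Nat.cast_mul, ZMod.natCast_self, zero_mul,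
        zero_add]
  have hker : ∀ g, g ∈ (quatToDihedral n).ker → g = 1 ∨ g = QuaternionGroup.a (n : ZMod (2 * n)) := by
    intro g hg
    rcases g with i | i
    · have h1 : DihedralGroup.r (ZMod.castHom (dvd_mul_left n 2) (ZMod n) i) = DihedralGroup.r 0 := hg
      rcases hcast i (DihedralGroup.r.injEq _ _ ▸ h1) with rfl | rfl
      · exact Or.inl rfl
      · exact Or.inr rfl
    · exact absurd hg (by
        intro h1
        have h2 : DihedralGroup.sr (ZMod.castHom (dvd_mul_left n 2) (ZMod n) i) = DihedralGroup.r 0 := h1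
        cases h2)
  refine ⟨⟨fun g => ?_, fun g hg => ?_, fun g hg => ?_⟩, ?_⟩
  · rcases g with i | i
    · obtain ⟨k, rfl⟩ := ZMod.intCast_surjective i
      exact ⟨QuaternionGroup.a (k : ZMod (2 * n)), congrArg DihedralGroup.r (map_intCast _ k)⟩
    · obtain ⟨k, rfl⟩ := ZMod.intCast_surjective i
      exact ⟨QuaternionGroup.xa (k : ZMod (2 * n)), congrArg DihedralGroup.sr (map_intCast _ k)⟩
  · rcases hker g hg with rfl | rfl
    · exact one_mem _
    · refine Subgroup.mem_center_iff.2 fun p => ?_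
      have h2n : ((n : ZMod (2 * n)) + n) = 0 := by
        rw [← Nat.cast_add, ← two_mul, ZMod.natCast_self]
      rcases p with i | i
      · rw [QuaternionGroup.a_mul_a, QuaternionGroup.a_mul_a, add_comm]
      · rw [QuaternionGroup.xa_mul_a, QuaternionGroup.a_mul_xa]
        congr 1
        linear_combination h2n
  · rcases hker g hg with rfl | rfl
    · exact one_mem _
    · have h2 : ⁅QuaternionGroup.a ((h : ℕ) : ZMod (2 * n)), QuaternionGroup.xa 0⁆ = QuaternionGroup.a (n : ZMod (2 * n)) := by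
        rw [commutatorElement_def, mul_inv_eq_iff_eq_mul, mul_inv_eq_iff_eq_mul, QuaternionGroup.a_mul_xa,
          QuaternionGroup.a_mul_xa, QuaternionGroup.xa_mul_a]
        congr 1
        rw [hh]; push_cast
        ring
      rw [← h2]
      exact Subgroup.commutator_mem_commutator trivial trivial
  · rw [Nat.card_eq_two_iff]
    refine ⟨⟨1, one_mem _⟩, ⟨QuaternionGroup.a (n : ZMod (2 * n)), ?_⟩, fun h1 => ?_, ?_⟩
    · show DihedralGroup.r _ = DihedralGroup.r 0
      rw [map_natCast, ZMod.natCast_self]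
    · have h2 : (QuaternionGroup.a (0 : ZMod (2 * n))) = QuaternionGroup.a (n : ZMod (2 * n)) := congrArg Subtype.val h1
      rw [QuaternionGroup.a.injEq, eq_comm, ZMod.natCast_eq_zero_iff] at h2
      have := Nat.le_of_dvd (NeZero.pos n) h2
      omega
    · refine Set.eq_univ_of_forall fun g => ?_
      rcases hker g g.2 with e | e
      · exact Or.inl (Subtype.ext e)
      · exact Or.inr (Subtype.ext e)

theorem dihedral_even (n : ℕ) [NeZero n] (hn : Even n) : Cfsg.HasCyclicSchurMultiplier (DihedralGroup n) 2 := by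
  obtain ⟨hst, hc⟩ := quatToDihedral_stem n hn
  haveI : Fact (Nat.Prime 2) := ⟨Nat.prime_two⟩
  haveI := isCyclic_of_prime_card (p := 2) hc
  have hz : Nat.card (Multiplicative (ZMod 2)) = 2 := Nat.card_zmod 2
  haveI := isCyclic_of_prime_card (p := 2) hz
  let e : (quatToDihedral n).ker ≃* Multiplicative (ZMod 2) := mulEquivOfCyclicCardEq (hc.trans hz.symm)
  refine hasSchurMultiplier_of_bound _ hst e.toMonoidHom e.surjective ?_
  rw [hz]
  obtain ⟨h, hh⟩ := hn
  have hh0 : 0 < h := by have := NeZero.pos n; omega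
  refine (card_M_le_dihedral (DihedralGroup.r 1) (DihedralGroup.sr 0) n h hh0 ⟨2, by omega⟩ (NeZero.pos n)
    (closure_dihedral n) ?_ (Or.inl DihedralGroup.r_one_pow_n) ?_).trans (le_of_eq ?_)
  · rw [DihedralGroup.sr_mul_r, DihedralGroup.inv_sr, DihedralGroup.sr_mul_sr, DihedralGroup.inv_r]; simp
  · intro k hk
    rw [← orderOf_dvd_iff_zpow_eq_one, DihedralGroup.orderOf_r_one, hh, Nat.cast_add, ← two_mul] at hk
    exact (mul_dvd_mul_iff_left two_ne_zero).1 hk
  · rw [hh, ← two_mul, Nat.mul_div_cancel _ hh0]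

theorem product_zmod (m n : ℕ) [NeZero m] [NeZero n] (hnm : n ∣ m) :
    Cfsg.HasCyclicSchurMultiplier (Multiplicative (ZMod m × ZMod n)) n := by
  let β : Bilin (Multiplicative (ZMod m × ZMod n)) (ZMod n) :=
    { toFun := fun x y => ZMod.castHom hnm (ZMod n) x.toAdd.1 * y.toAdd.2
      left := fun x y z => by
        show ZMod.castHom hnm (ZMod n) (x.toAdd.1 + y.toAdd.1) * z.toAdd.2 = _
        rw [map_add, add_mul]
      right := fun x y z => by simp [mul_add] }
  let σ := BExt.proj β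
  have hker : ∀ p : BExt β, p ∈ σ.ker → p = ⟨1, p.snd⟩ := fun p hp => BExt.ext hp rfl
  have hcom : ∀ t : ZMod n, (⟨1, t⟩ : BExt β) ∈ commutator (BExt β) := by
    intro t
    obtain ⟨k, rfl⟩ := ZMod.intCast_surjective t
    have h := BExt.commutator_eq β (x := Multiplicative.ofAdd ((k : ZMod m), 0))
      (y := Multiplicative.ofAdd (0, 1)) (mul_comm _ _)
    have h2 : ⁅(⟨Multiplicative.ofAdd ((k : ZMod m), 0), 0⟩ : BExt β), (⟨Multiplicative.ofAdd (0, 1), 0⟩ : BExt β)⁆ =
        (⟨1, (k : ZMod n)⟩ : BExt β) := by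
      rw [h]
      simp [β]
    rw [← h2]
    exact Subgroup.commutator_mem_commutator trivial trivial
  have hst : Cfsg.IsStemExtension σ :=
    ⟨BExt.proj_surjective β, fun p hp => (hker p hp).symm ▸ BExt.inl_mem_center β _,
      fun p hp => (hker p hp).symm ▸ hcom _⟩
  let g : σ.ker →* Multiplicative (ZMod n) := MonoidHom.mk' (fun p => Multiplicative.ofAdd p.1.snd) fun p q => by
    show Multiplicative.ofAdd (p.1.snd + q.1.snd + β.toFun p.1.fst q.1.fst) = _
    rw [show p.1.fst = 1 from p.2, β.one_left, add_zero]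
    rfl
  refine hasSchurMultiplier_of_bound σ hst g (fun t => ⟨⟨⟨1, t.toAdd⟩, rfl⟩, rfl⟩) ?_
  rw [show Nat.card (Multiplicative (ZMod n)) = n from Nat.card_zmod n]
  let r : Multiplicative (ZMod m × ZMod n) := Multiplicative.ofAdd (1, 0)
  let s : Multiplicative (ZMod m × ZMod n) := Multiplicative.ofAdd (0, 1)
  obtain ⟨a, ha⟩ := proj_surjective _ r
  obtain ⟨b, hb⟩ := proj_surjective _ s
  have hgen : Subgroup.closure {r, s} = ⊤ := by
    rw [eq_top_iff]
    intro x _
    obtain ⟨i, hi⟩ := ZMod.intCast_surjective x.toAdd.1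
    obtain ⟨j, hj⟩ := ZMod.intCast_surjective x.toAdd.2
    have : x = r ^ i * s ^ j := by
      apply Multiplicative.toAdd.injective
      simp [r, s, hi, hj]
    rw [this]
    have hr' : r ∈ Subgroup.closure {r, s} := Subgroup.subset_closure (Set.mem_insert r {s})
    have hs' : s ∈ Subgroup.closure {r, s} :=
      Subgroup.subset_closure (Set.mem_insert_of_mem r (Set.mem_singleton s))
    exact Subgroup.mul_mem _ (Subgroup.zpow_mem _ hr' i) (Subgroup.zpow_mem _ hs' j)
  have hxK : ⁅b, a⁆ ∈ K _ := by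
    show proj _ ⁅b, a⁆ = 1
    rw [map_commutatorElement]
    exact commutatorElement_eq_one_iff_mul_comm.2 (mul_comm _ _)
  have hxc := Subgroup.mem_center_iff.1 (K_le_center _ hxK)
  have hfix : ∀ g : E _, g * ⁅b, a⁆ * g⁻¹ ∈ Subgroup.zpowers ⁅b, a⁆ := fun g => by
    rw [hxc g, mul_inv_cancel_right]; exact Subgroup.mem_zpowers _
  have hle := commutator_le_zpowers _ (K_le_center _) a b (closure_sup_K ha hb hgen) (hfix a) (hfix b)
    (by simpa using hfix a⁻¹) (by simpa using hfix b⁻¹)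
  have hxn : ⁅b, a⁆ ^ n = 1 := by
    have hbn : b ^ n ∈ K _ := by
      show proj _ (b ^ n) = 1
      rw [map_pow, hb]
      apply Multiplicative.toAdd.injective
      simp [s, Prod.ext_iff]
    have hconj : a * b * a⁻¹ = ⁅b, a⁆⁻¹ * b := by rw [commutatorElement_def]; group
    have h1 : (a * b * a⁻¹) ^ n = b ^ n := by
      rw [conj_pow, Subgroup.mem_center_iff.1 (K_le_center _ hbn) a, mul_inv_cancel_right]
    have hc2 : Commute ⁅b, a⁆⁻¹ b := (Commute.symm (hxc b : Commute b ⁅b, a⁆)).inv_left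
    rw [hconj, hc2.mul_pow] at h1
    rwa [mul_eq_right, inv_pow, inv_eq_one] at h1
  have hM : M _ ≤ Subgroup.zpowers ⁅b, a⁆ := fun y hy => hle hy.2
  haveI : Finite (Subgroup.zpowers ⁅b, a⁆) := by
    exact Set.Finite.to_subtype (finite_zpowers.2 (isOfFinOrder_iff_pow_eq_one.2 ⟨n, NeZero.pos n, hxn⟩))
  refine (Subgroup.card_le_of_le hM).trans ?_
  rw [Nat.card_zpowers]
  exact orderOf_le_of_pow_eq_one (NeZero.pos n) hxn

theorem abelian_trivial_iff {G : Type u} [CommGroup G] [Finite G] :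
    Cfsg.HasCyclicSchurMultiplier G 1 ↔ IsCyclic G := by
  classical
  rw [hasCyclic_one_iff]
  constructor
  · intro h
    by_contra hcyc
    obtain ⟨ι, hι, n, hn, ⟨e⟩⟩ := CommGroup.equiv_prod_multiplicative_zmod_of_finite G
    obtain ⟨i, j, hij, hco⟩ : ∃ i j, i ≠ j ∧ ¬ (n i).Coprime (n j) := by
      by_contra hall
      push Not at hall
      refine hcyc (IsCyclic.of_exponent_eq_card (Nat.dvd_antisymm Group.exponent_dvd_nat_card ?_))
      rw [Monoid.exponent_eq_of_mulEquiv e, Nat.card_congr e.toEquiv, Nat.card_pi]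
      simp only [Nat.card_congr Multiplicative.toAdd, Nat.card_zmod]
      refine Finset.prod_dvd_of_isRelPrime (fun i _ j _ hij => Nat.coprime_iff_isRelPrime.1 (hall i j hij)) fun i _ => ?_
      have h1 : n i = orderOf (Multiplicative.ofAdd (1 : ZMod (n i))) := by
        rw [orderOf_ofAdd_eq_addOrderOf, ZMod.addOrderOf_one]
      rw [h1, ← orderOf_injective (MonoidHom.mulSingle (fun i => Multiplicative (ZMod (n i))) i)
        (show Function.Injective (MonoidHom.mulSingle (fun i => Multiplicative (ZMod (n i))) i) from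
          Pi.mulSingle_injective (M := fun i => Multiplicative (ZMod (n i))) i)]
      exact Monoid.order_dvd_exponent _
    obtain ⟨p, hp, hpi, hpj⟩ := Nat.Prime.not_coprime_iff_dvd.1 hco
    haveI := Fact.mk hp
    let φ : G →* Multiplicative (ZMod p) := (AddMonoidHom.toMultiplicative (ZMod.castHom hpi (ZMod p)).toAddMonoidHom).comp
      ((Pi.evalMonoidHom (fun i => Multiplicative (ZMod (n i))) i).comp e.toMonoidHom)
    let ψ : G →* Multiplicative (ZMod p) := (AddMonoidHom.toMultiplicative (ZMod.castHom hpj (ZMod p)).toAddMonoidHom).comp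
      ((Pi.evalMonoidHom (fun i => Multiplicative (ZMod (n i))) j).comp e.toMonoidHom)
    let β : Bilin G (ZMod p) :=
      { toFun := fun x y => (φ x).toAdd * (ψ y).toAdd
        left := fun x y z => by simp [add_mul]
        right := fun x y z => by simp [mul_add] }
    let x := e.symm (Pi.mulSingle i (Multiplicative.ofAdd 1))
    let y := e.symm (Pi.mulSingle j (Multiplicative.ofAdd 1))
    have hone : ⁅(⟨x, 0⟩ : BExt β), (⟨y, 0⟩ : BExt β)⁆ = (⟨1, 1⟩ : BExt β) := by
      rw [BExt.commutator_eq β (mul_comm x y)]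
      simp [β, φ, ψ, x, y, hij, hij.symm, ZMod.cast_one hpi, ZMod.cast_one hpj]
    have hcom : ∀ t : ZMod p, (⟨1, t⟩ : BExt β) ∈ commutator (BExt β) := by
      intro t
      obtain ⟨k, rfl⟩ := ZMod.natCast_zmod_surjective t
      have h1 : (⟨1, 1⟩ : BExt β) ∈ commutator (BExt β) :=
        hone ▸ Subgroup.commutator_mem_commutator trivial trivial
      have h2 : ∀ k : ℕ, (⟨1, 1⟩ : BExt β) ^ k = ⟨1, (k : ZMod p)⟩ := by
        intro k
        induction k with
        | zero => rw [pow_zero]; exact BExt.ext rfl (by simp; rfl)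
        | succ k ih =>
          rw [pow_succ, ih]
          refine BExt.ext (_root_.one_mul _) ?_
          show (k : ZMod p) + 1 + β.toFun 1 1 = _
          rw [β.one_left]; push_cast; ring
      rw [← h2]
      exact Subgroup.pow_mem _ h1 k
    let σ := BExt.proj β
    have hker : ∀ q : BExt β, q ∈ σ.ker → q = ⟨1, q.snd⟩ := fun q hq => BExt.ext hq rfl
    have hst : Cfsg.IsStemExtension σ :=
      ⟨BExt.proj_surjective β, fun q hq => (hker q hq).symm ▸ BExt.inl_mem_center β _,
        fun q hq => (hker q hq).symm ▸ hcom _⟩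
    obtain ⟨f, hf⟩ := exists_surjective hst
    haveI : Subsingleton (M G) := (Nat.card_eq_one_iff_unique.1 h).1
    haveI : Subsingleton σ.ker := hf.subsingleton
    have h3 : (⟨⟨1, 1⟩, rfl⟩ : σ.ker) = ⟨⟨1, 0⟩, rfl⟩ := Subsingleton.elim _ _
    exact one_ne_zero (congrArg (fun q : σ.ker => q.1.snd) h3)
  · intro hG
    haveI := hG
    have hcomm : commutator (E G) = ⊥ := by
      rw [commutator_def, eq_bot_iff, Subgroup.commutator_le]
      intro a _ b _
      rw [Subgroup.mem_bot, commutatorElement_eq_one_iff_mul_comm]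
      exact commutative_of_cyclic_center_quotient (proj G) (K_le_center G) a b
    rw [show M G = ⊥ by rw [M, hcomm, inf_bot_eq], Subgroup.card_bot]

end CfsgLib.Core.Schur
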