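import Cfsg.Agent.Lib.CoreSchurExamples
import Cfsg.Agent.Lib.CoreSchurCover
import Mathlib.LinearAlgebra.TensorProduct.Basic
import Mathlib.Algebra.Module.Torsion.Basic
import Mathlib.RingTheory.Finiteness.Cardinality
import Mathlib.LinearAlgebra.TensorProduct.Finiteness
import Mathlib.RingTheory.TensorProduct.Finite

/-!
# The multiplier of a direct product
-/

set_option autoImplicit false
set_option maxHeartbeats 400000

open scoped commutatorElement TensorProduct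

namespace CfsgLib.Core.Schur

universe u v w

variable {Q₁ : Type u} {Q₂ : Type v} [Group Q₁] [Group Q₂]

/-- The bilinear target. -/
abbrev Tens (Q₁ : Type u) (Q₂ : Type v) [Group Q₁] [Group Q₂] :=
  TensorProduct ℤ (Additive (Abelianization Q₁)) (Additive (Abelianization Q₂))

theorem finite_tens [Finite Q₁] [Finite Q₂] : Finite (Tens Q₁ Q₂) := by
  haveI : Finite (Abelianization Q₁) := Finite.of_surjective _ (QuotientGroup.mk_surjective (s := commutator Q₁))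
  haveI : Finite (Abelianization Q₂) := Finite.of_surjective _ (QuotientGroup.mk_surjective (s := commutator Q₂))
  haveI : Finite (Additive (Abelianization Q₁)) := Finite.of_equiv (Abelianization Q₁) Additive.ofMul
  haveI : Finite (Additive (Abelianization Q₂)) := Finite.of_equiv (Abelianization Q₂) Additive.ofMul
  haveI : Module.Finite ℤ (Additive (Abelianization Q₁)) := Module.Finite.of_finite
  haveI : Module.Finite ℤ (Additive (Abelianization Q₂)) := Module.Finite.of_finite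
  haveI : Module.Finite ℤ (Tens Q₁ Q₂) := Module.Finite.tensorProduct ℤ _ _
  refine Module.finite_of_fg_torsion _ fun {x} => ?_
  refine ⟨⟨(Nat.card (Additive (Abelianization Q₁)) : ℤ),
    mem_nonZeroDivisors_of_ne_zero (by exact_mod_cast Nat.card_pos.ne')⟩, ?_⟩
  show (Nat.card (Additive (Abelianization Q₁)) : ℤ) • x = 0
  induction x using TensorProduct.induction_on with
  | zero => exact smul_zero _
  | tmul a b => rw [TensorProduct.smul_tmul', natCast_zsmul, card_nsmul_eq_zero', TensorProduct.zero_tmul]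
  | add a b ha hb => rw [smul_add, ha, hb, add_zero]

theorem pairing_exists {Δ : Type w} [Group Δ] (τ : Δ →* Q₁ × Q₂) (hτ : Function.Surjective τ)
    (hker : τ.ker ≤ Subgroup.center Δ) :
    ∃ T : Multiplicative (Tens Q₁ Q₂) →* Subgroup.center Δ,
      ∀ a b : Δ, (τ a).2 = 1 → (τ b).1 = 1 →
        (T (Multiplicative.ofAdd (Additive.ofMul (Abelianization.of (τ a).1) ⊗ₜ[ℤ]
          Additive.ofMul (Abelianization.of (τ b).2))) : Δ) = ⁅a, b⁆ := by
  letI : CommGroup (Subgroup.center Δ) := { (inferInstance : Group (Subgroup.center Δ)) with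
    mul_comm := fun a b => Subtype.ext (Subgroup.mem_center_iff.1 b.2 (a : Δ)) }
  let A := fun q : Q₁ => Function.surjInv hτ (q, (1 : Q₂))
  let B := fun q : Q₂ => Function.surjInv hτ ((1 : Q₁), q)
  have hA : ∀ q, τ (A q) = (q, 1) := fun q => Function.surjInv_eq hτ _
  have hB : ∀ q, τ (B q) = (1, q) := fun q => Function.surjInv_eq hτ _
  have hmem : ∀ a b : Δ, (τ a).2 = 1 → (τ b).1 = 1 → ⁅a, b⁆ ∈ Subgroup.center Δ := fun a b ha hb => hker (by
    rw [MonoidHom.mem_ker, map_commutatorElement]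
    refine commutatorElement_eq_one_iff_mul_comm.2 (Prod.ext ?_ ?_)
    · rw [Prod.fst_mul, Prod.fst_mul, hb, mul_one, one_mul]
    · rw [Prod.snd_mul, Prod.snd_mul, ha, mul_one, one_mul])
  have hindep : ∀ a a' b b' : Δ, τ a = τ a' → τ b = τ b' → ⁅a, b⁆ = ⁅a', b'⁆ := by
    intro a a' b b' ha hb
    obtain ⟨z, hz, rfl⟩ : ∃ z ∈ Subgroup.center Δ, a' = a * z :=
      ⟨a⁻¹ * a', hker (by show τ (a⁻¹ * a') = 1; rw [map_mul, map_inv, ha, inv_mul_cancel]), (mul_inv_cancel_left _ _).symm⟩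
    obtain ⟨z', hz', rfl⟩ : ∃ z' ∈ Subgroup.center Δ, b' = b * z' :=
      ⟨b⁻¹ * b', hker (by show τ (b⁻¹ * b') = 1; rw [map_mul, map_inv, hb, inv_mul_cancel]), (mul_inv_cancel_left _ _).symm⟩
    have h1 := Subgroup.mem_center_iff.1 hz
    have h2 := Subgroup.mem_center_iff.1 hz'
    simp only [commutatorElement_def]
    symm
    calc a * z * (b * z') * (a * z)⁻¹ * (b * z')⁻¹ = a * (z * b) * z' * z⁻¹ * a⁻¹ * z'⁻¹ * b⁻¹ := by group
      _ = a * b * (z * z') * z⁻¹ * a⁻¹ * z'⁻¹ * b⁻¹ := by rw [← h1 b]; group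
      _ = a * b * (z' * z) * z⁻¹ * a⁻¹ * z'⁻¹ * b⁻¹ := by rw [h2 z]
      _ = a * b * (z' * a⁻¹) * z'⁻¹ * b⁻¹ := by group
      _ = a * b * (a⁻¹ * z') * z'⁻¹ * b⁻¹ := by rw [h2 a⁻¹]
      _ = _ := by group
  have hbl : ∀ a a' b : Δ, ⁅a', b⁆ ∈ Subgroup.center Δ → ⁅a * a', b⁆ = ⁅a, b⁆ * ⁅a', b⁆ := fun a a' b h => by
    have hc := Subgroup.mem_center_iff.1 h
    calc ⁅a * a', b⁆ = (a * ⁅a', b⁆) * a⁻¹ * ⁅a, b⁆ := by
          rw [commutatorElement_def, commutatorElement_def, commutatorElement_def]; group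
      _ = ⁅a', b⁆ * ⁅a, b⁆ := by rw [hc a]; group
      _ = ⁅a, b⁆ * ⁅a', b⁆ := (hc _).symm
  have hbr : ∀ a b b' : Δ, ⁅a, b'⁆ ∈ Subgroup.center Δ → ⁅a, b * b'⁆ = ⁅a, b⁆ * ⁅a, b'⁆ := fun a b b' h => by
    have hc := Subgroup.mem_center_iff.1 h
    calc ⁅a, b * b'⁆ = ⁅a, b⁆ * (b * ⁅a, b'⁆) * b⁻¹ := by
          rw [commutatorElement_def, commutatorElement_def, commutatorElement_def]; group
      _ = ⁅a, b⁆ * ⁅a, b'⁆ := by rw [hc b]; group
  let f : Q₁ →* Q₂ →* Subgroup.center Δ := MonoidHom.mk'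
    (fun q => MonoidHom.mk' (fun r => ⟨⁅A q, B r⁆, hmem _ _ (by rw [hA]) (by rw [hB])⟩) fun r r' => Subtype.ext (by
      show ⁅A q, B (r * r')⁆ = ⁅A q, B r⁆ * ⁅A q, B r'⁆
      rw [← hbr _ _ _ (hmem _ _ (by rw [hA]) (by rw [hB]))]
      exact hindep _ _ _ _ rfl (by rw [map_mul, hB, hB, hB, Prod.mk_mul_mk, one_mul])))
    fun q q' => MonoidHom.ext fun r => Subtype.ext (by
      show ⁅A (q * q'), B r⁆ = ⁅A q, B r⁆ * ⁅A q', B r⁆
      rw [← hbl _ _ _ (hmem _ _ (by rw [hA]) (by rw [hB]))]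
      exact hindep _ _ _ _ (by rw [map_mul, hA, hA, hA, Prod.mk_mul_mk, one_mul]) rfl)
  let g : Abelianization Q₁ →* Abelianization Q₂ →* Subgroup.center Δ :=
    Abelianization.lift (MonoidHom.mk' (fun q => Abelianization.lift (f q)) fun q q' => by
      refine Abelianization.hom_ext _ _ (MonoidHom.ext fun r => ?_)
      simp)
  let h : Additive (Abelianization Q₁) →+ Additive (Abelianization Q₂) →+ Additive (Subgroup.center Δ) :=
    AddMonoidHom.mk' (fun a => MonoidHom.toAdditive (g a.toMul)) fun a a' => by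
      refine AddMonoidHom.ext fun b => ?_
      show Additive.ofMul (g (a.toMul * a'.toMul) b.toMul) = _
      rw [map_mul, MonoidHom.mul_apply]
      rfl
  let L : Tens Q₁ Q₂ →+ Additive (Subgroup.center Δ) := TensorProduct.liftAddHom h fun r m n => by
    rw [map_zsmul, map_zsmul]
    rfl
  refine ⟨AddMonoidHom.toMultiplicativeLeft L, fun a b ha hb => ?_⟩
  have e : L (Additive.ofMul (Abelianization.of (τ a).1) ⊗ₜ[ℤ] Additive.ofMul (Abelianization.of (τ b).2)) =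
      Additive.ofMul (f (τ a).1 (τ b).2) := by
    rw [TensorProduct.liftAddHom_tmul]
    show Additive.ofMul (g (Abelianization.of (τ a).1) (Abelianization.of (τ b).2)) = _
    simp [g]
  refine (congrArg (fun z : Additive (Subgroup.center Δ) => ((z.toMul : Subgroup.center Δ) : Δ)) e).trans ?_
  refine hindep _ _ _ _ ?_ ?_
  · rw [hA]; exact Prod.ext rfl ha.symm
  · rw [hB]; exact Prod.ext hb.symm rfl

theorem product_multiplier [Finite Q₁] [Finite Q₂] {A B : Type w} [CommGroup A] [CommGroup B]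
    (hA : Cfsg.HasSchurMultiplier Q₁ A) (hB : Cfsg.HasSchurMultiplier Q₂ B) :
    Cfsg.HasSchurMultiplier (Q₁ × Q₂) (A × B × Multiplicative (Tens Q₁ Q₂)) := by
  classical
  haveI := finite_tens (Q₁ := Q₁) (Q₂ := Q₂)
  obtain ⟨hfA, ⟨eA⟩⟩ := nonempty_equiv_M hA
  obtain ⟨hfB, ⟨eB⟩⟩ := nonempty_equiv_M hB
  obtain ⟨⟨Γ₁, _, _, σ₁, hσ₁, ⟨e₁⟩⟩, -⟩ := hA
  obtain ⟨⟨Γ₂, _, _, σ₂, hσ₂, ⟨e₂⟩⟩, -⟩ := hB
  -- the extension
  let β : Bilin (Γ₁ × Γ₂) (Tens Q₁ Q₂) :=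
    { toFun := fun x y => Additive.ofMul (Abelianization.of (σ₁ x.1)) ⊗ₜ[ℤ] Additive.ofMul (Abelianization.of (σ₂ y.2))
      left := fun x y z => by
        rw [Prod.fst_mul, map_mul, map_mul, ofMul_mul, TensorProduct.add_tmul]
      right := fun x y z => by
        rw [Prod.snd_mul, map_mul, map_mul, ofMul_mul, TensorProduct.tmul_add] }
  let σ : BExt β →* Q₁ × Q₂ := (σ₁.prodMap σ₂).comp (BExt.proj β)
  have hker : ∀ p : BExt β, p ∈ σ.ker → σ₁ p.fst.1 = 1 ∧ σ₂ p.fst.2 = 1 := fun p hp =>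
    Prod.ext_iff.1 (hp : (σ₁ p.fst.1, σ₂ p.fst.2) = 1)
  have hb0l : ∀ p q : Γ₁ × Γ₂, σ₁ p.1 = 1 → β.toFun p q = 0 := fun p q h => by
    show Additive.ofMul (Abelianization.of (σ₁ p.1)) ⊗ₜ[ℤ] _ = 0
    rw [h, map_one, ofMul_one, TensorProduct.zero_tmul]
  have hb0r : ∀ p q : Γ₁ × Γ₂, σ₂ q.2 = 1 → β.toFun p q = 0 := fun p q h => by
    show _ ⊗ₜ[ℤ] Additive.ofMul (Abelianization.of (σ₂ q.2)) = 0
    rw [h, map_one, ofMul_one, TensorProduct.tmul_zero]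
  let i₁ : Γ₁ →* BExt β := MonoidHom.mk' (fun x => ⟨(x, 1), 0⟩) fun x y => BExt.ext (by
      show ((x * y, 1) : Γ₁ × Γ₂) = (x, 1) * (y, 1)
      rw [Prod.mk_mul_mk, one_mul]) (by
      show (0 : Tens Q₁ Q₂) = 0 + 0 + β.toFun (x, 1) (y, 1)
      rw [hb0r _ _ (map_one σ₂)]; simp)
  let i₂ : Γ₂ →* BExt β := MonoidHom.mk' (fun x => ⟨(1, x), 0⟩) fun x y => BExt.ext (by
      show ((1, x * y) : Γ₁ × Γ₂) = (1, x) * (1, y)
      rw [Prod.mk_mul_mk, one_mul]) (by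
      show (0 : Tens Q₁ Q₂) = 0 + 0 + β.toFun (1, x) (1, y)
      rw [hb0l _ _ (map_one σ₁)]; simp)
  let iT : Multiplicative (Tens Q₁ Q₂) →* BExt β := MonoidHom.mk' (fun t => ⟨1, t.toAdd⟩) fun t t' => BExt.ext
      (one_mul (1 : Γ₁ × Γ₂)).symm (by
      show t.toAdd + t'.toAdd = t.toAdd + t'.toAdd + β.toFun 1 1
      rw [β.one_left, add_zero])
  have hT : ∀ t, iT t ∈ commutator (BExt β) := by
    intro t
    obtain ⟨u, rfl⟩ : ∃ u, Multiplicative.ofAdd u = t := ⟨t.toAdd, rfl⟩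
    induction u using TensorProduct.induction_on with
    | zero => rw [ofAdd_zero, map_one]; exact one_mem _
    | add a b ha hb => rw [ofAdd_add, map_mul]; exact Subgroup.mul_mem _ ha hb
    | tmul a b =>
      obtain ⟨x, hx⟩ : ∃ x, Abelianization.of x = a.toMul := QuotientGroup.mk_surjective a.toMul
      obtain ⟨y, hy⟩ : ∃ y, Abelianization.of y = b.toMul := QuotientGroup.mk_surjective b.toMul
      obtain ⟨x', rfl⟩ := hσ₁.1 x
      obtain ⟨y', rfl⟩ := hσ₂.1 y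
      have h := BExt.commutator_eq β (x := ((x', 1) : Γ₁ × Γ₂)) (y := (1, y')) (by simp)
      have h2 : iT (Multiplicative.ofAdd (a ⊗ₜ[ℤ] b)) = ⁅(⟨(x', 1), 0⟩ : BExt β), (⟨(1, y'), 0⟩ : BExt β)⁆ := by
        rw [h]
        refine BExt.ext rfl ?_
        show a ⊗ₜ[ℤ] b = β.toFun (x', 1) (1, y') - β.toFun (1, y') (x', 1)
        rw [hb0l (1, y') _ (map_one σ₁), sub_zero]
        show a ⊗ₜ[ℤ] b = Additive.ofMul (Abelianization.of (σ₁ x')) ⊗ₜ[ℤ] Additive.ofMul (Abelianization.of (σ₂ y'))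
        rw [hx, hy]
        rfl
      rw [h2]
      exact Subgroup.commutator_mem_commutator trivial trivial
  have hdec : ∀ p : BExt β, p ∈ σ.ker → p = i₁ p.fst.1 * i₂ p.fst.2 * iT (Multiplicative.ofAdd p.snd) := fun p hp => by
    refine BExt.ext ?_ ?_
    · show p.fst = (p.fst.1, 1) * (1, p.fst.2) * 1
      rw [mul_one, Prod.mk_mul_mk, one_mul, mul_one]
    · show p.snd = 0 + 0 + β.toFun (p.fst.1, 1) (1, p.fst.2) + p.snd + β.toFun _ 1
      rw [hb0l _ _ (hker p hp).1, β.one_right]; abel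
  have hst : Cfsg.IsStemExtension σ := by
    refine ⟨fun q => ?_, fun p hp => ?_, fun p hp => ?_⟩
    · obtain ⟨x, hx⟩ := hσ₁.1 q.1
      obtain ⟨y, hy⟩ := hσ₂.1 q.2
      exact ⟨⟨(x, y), 0⟩, Prod.ext hx hy⟩
    · refine Subgroup.mem_center_iff.2 fun r => BExt.ext ?_ ?_
      · show r.fst * p.fst = p.fst * r.fst
        exact Prod.ext (Subgroup.mem_center_iff.1 (hσ₁.2.1 (hker p hp).1) r.fst.1)
          (Subgroup.mem_center_iff.1 (hσ₂.2.1 (hker p hp).2) r.fst.2)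
      · show r.snd + p.snd + β.toFun r.fst p.fst = p.snd + r.snd + β.toFun p.fst r.fst
        rw [hb0l _ _ (hker p hp).1, hb0r _ _ (hker p hp).2]; abel
    · rw [hdec p hp]
      refine Subgroup.mul_mem _ (Subgroup.mul_mem _ ?_ ?_) (hT _)
      · have h : (commutator Γ₁).map i₁ ≤ commutator (BExt β) := by
          rw [commutator_def, Subgroup.map_commutator]; exact Subgroup.commutator_mono le_top le_top
        exact h ⟨_, hσ₁.2.2 (hker p hp).1, rfl⟩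
      · have h : (commutator Γ₂).map i₂ ≤ commutator (BExt β) := by
          rw [commutator_def, Subgroup.map_commutator]; exact Subgroup.commutator_mono le_top le_top
        exact h ⟨_, hσ₂.2.2 (hker p hp).2, rfl⟩
  let g : σ.ker →* A × B × Multiplicative (Tens Q₁ Q₂) := MonoidHom.mk'
    (fun p => (e₁ ⟨p.1.fst.1, (hker p.1 p.2).1⟩, e₂ ⟨p.1.fst.2, (hker p.1 p.2).2⟩, Multiplicative.ofAdd p.1.snd))
    fun p q => by
      refine Prod.ext (map_mul e₁ ⟨p.1.fst.1, (hker p.1 p.2).1⟩ ⟨q.1.fst.1, (hker q.1 q.2).1⟩)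
        (Prod.ext (map_mul e₂ ⟨p.1.fst.2, (hker p.1 p.2).2⟩ ⟨q.1.fst.2, (hker q.1 q.2).2⟩) ?_)
      show Multiplicative.ofAdd (p.1.snd + q.1.snd + β.toFun p.1.fst q.1.fst) = Multiplicative.ofAdd (p.1.snd + q.1.snd)
      rw [hb0l _ _ (hker p.1 p.2).1, add_zero]
  have hg : Function.Surjective g := fun a => by
    refine ⟨⟨⟨(((e₁.symm a.1 : σ₁.ker) : Γ₁), ((e₂.symm a.2.1 : σ₂.ker) : Γ₂)), a.2.2.toAdd⟩,
      Prod.ext (e₁.symm a.1).2 (e₂.symm a.2.1).2⟩, ?_⟩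
    exact Prod.ext (e₁.apply_symm_apply a.1) (Prod.ext (e₂.apply_symm_apply a.2.1) rfl)
  refine hasSchurMultiplier_of_bound σ hst g hg ?_
  -- the bound
  rw [Nat.card_prod, Nat.card_prod, Nat.card_congr eA.toEquiv, Nat.card_congr eB.toEquiv, ← Nat.card_prod, ← Nat.card_prod]
  set Q := Q₁ × Q₂
  obtain ⟨j₁, hj₁⟩ := exists_hom_over (proj Q) (proj_surjective Q) (K_le_center Q) (MonoidHom.inl Q₁ Q₂)
  obtain ⟨j₂, hj₂⟩ := exists_hom_over (proj Q) (proj_surjective Q) (K_le_center Q) (MonoidHom.inr Q₁ Q₂)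
  have hp₁ : ∀ x, proj Q (j₁ x) = (proj Q₁ x, 1) := fun x => DFunLike.congr_fun hj₁ x
  have hp₂ : ∀ x, proj Q (j₂ x) = (1, proj Q₂ x) := fun x => DFunLike.congr_fun hj₂ x
  obtain ⟨T, hTeq⟩ := pairing_exists (proj Q) (proj_surjective Q) (K_le_center Q)
  let Tc : Multiplicative (Tens Q₁ Q₂) →* E Q := (Subgroup.center (E Q)).subtype.comp T
  have hTc : ∀ t g, g * Tc t = Tc t * g := fun t g => Subgroup.mem_center_iff.1 (T t).2 g
  have hab : ∀ x y, ⁅j₁ x, j₂ y⁆ ∈ Tc.range := fun x y =>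
    ⟨_, hTeq (j₁ x) (j₂ y) (by rw [hp₁]) (by rw [hp₂])⟩
  have hba : ∀ x y, ⁅j₂ y, j₁ x⁆ ∈ Tc.range := fun x y => by
    rw [← commutatorElement_inv]; exact inv_mem (hab x y)
  have hcomm : ∀ x ∈ commutator (E Q₁), ∀ y, j₁ x * j₂ y = j₂ y * j₁ x := by
    intro x hx y
    rw [← commutatorElement_eq_one_iff_mul_comm]
    have h := hTeq (j₁ x) (j₂ y) (by rw [hp₁]) (by rw [hp₂])
    rw [← h]
    have h3 : proj Q₁ x ∈ commutator Q₁ := by
      have h4 : (commutator (E Q₁)).map (proj Q₁) ≤ commutator Q₁ := by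
        rw [commutator_def, Subgroup.map_commutator]; exact Subgroup.commutator_mono le_top le_top
      exact h4 ⟨x, hx, rfl⟩
    have h5 : Abelianization.of (proj Q (j₁ x)).1 = 1 := by
      rw [hp₁]; exact (QuotientGroup.eq_one_iff _).2 h3
    rw [h5, ofMul_one, TensorProduct.zero_tmul, ofAdd_zero, map_one]
    rfl
  let W : Subgroup (E Q) :=
    { carrier := {z | ∃ a ∈ commutator (E Q₁), ∃ b ∈ commutator (E Q₂), ∃ t, z = j₁ a * j₂ b * Tc t}
      one_mem' := ⟨1, one_mem _, 1, one_mem _, 1, by simp⟩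
      mul_mem' := by
        rintro _ _ ⟨a, ha, b, hb, t, rfl⟩ ⟨a', ha', b', hb', t', rfl⟩
        refine ⟨a * a', mul_mem ha ha', b * b', mul_mem hb hb', t * t', ?_⟩
        rw [map_mul, map_mul, map_mul]
        calc j₁ a * j₂ b * Tc t * (j₁ a' * j₂ b' * Tc t') = j₁ a * j₂ b * (Tc t * (j₁ a' * j₂ b')) * Tc t' := by group
          _ = j₁ a * (j₂ b * j₁ a') * j₂ b' * (Tc t * Tc t') := by rw [← hTc t (j₁ a' * j₂ b')]; group
          _ = _ := by rw [← hcomm a' ha' b]; group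
      inv_mem' := by
        rintro _ ⟨a, ha, b, hb, t, rfl⟩
        refine ⟨a⁻¹, inv_mem ha, b⁻¹, inv_mem hb, t⁻¹, ?_⟩
        rw [mul_inv_rev, mul_inv_rev, ← map_inv, ← map_inv, ← map_inv, ← hTc t⁻¹, hcomm a⁻¹ (inv_mem ha) b⁻¹] }
  have hWT : ∀ z ∈ Tc.range, z ∈ W := by
    rintro _ ⟨t, rfl⟩
    exact ⟨1, one_mem _, 1, one_mem _, t, by simp⟩
  have hEW : commutator (E Q) ≤ W := by
    have hgen : ∀ g : E Q, ∃ x y, ∃ z ∈ Subgroup.center (E Q), g = j₁ x * j₂ y * z := by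
      intro g
      obtain ⟨x, hx⟩ := proj_surjective Q₁ (proj Q g).1
      obtain ⟨y, hy⟩ := proj_surjective Q₂ (proj Q g).2
      refine ⟨x, y, (j₁ x * j₂ y)⁻¹ * g, K_le_center Q ?_, (mul_inv_cancel_left _ _).symm⟩
      show proj Q ((j₁ x * j₂ y)⁻¹ * g) = 1
      rw [map_mul, map_inv, map_mul, hp₁, hp₂, inv_mul_eq_one]
      exact Prod.ext ((mul_one _).trans hx) ((one_mul _).trans hy)
    rw [commutator_def, Subgroup.commutator_le]
    intro g _ g' _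
    obtain ⟨x, y, z, hz, rfl⟩ := hgen g
    obtain ⟨x', y', z', hz', rfl⟩ := hgen g'
    have h1 := Subgroup.mem_center_iff.1 hz
    have h2 := Subgroup.mem_center_iff.1 hz'
    have e : ⁅j₁ x * j₂ y * z, j₁ x' * j₂ y' * z'⁆ = ⁅j₁ x * j₂ y, j₁ x' * j₂ y'⁆ := by
      generalize j₁ x * j₂ y = a
      generalize j₁ x' * j₂ y' = b
      simp only [commutatorElement_def]
      calc a * z * (b * z') * (a * z)⁻¹ * (b * z')⁻¹ = a * (z * b) * z' * z⁻¹ * a⁻¹ * z'⁻¹ * b⁻¹ := by group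
        _ = a * b * (z * z') * z⁻¹ * a⁻¹ * z'⁻¹ * b⁻¹ := by rw [← h1 b]; group
        _ = a * b * (z' * z) * z⁻¹ * a⁻¹ * z'⁻¹ * b⁻¹ := by rw [h2 z]
        _ = a * b * (z' * a⁻¹) * z'⁻¹ * b⁻¹ := by group
        _ = a * b * (a⁻¹ * z') * z'⁻¹ * b⁻¹ := by rw [h2 a⁻¹]
        _ = _ := by group
    rw [e]
    obtain ⟨t₁, ht₁⟩ := hba x' y
    obtain ⟨t₂, ht₂⟩ : ⁅j₂ (y * y' * y⁻¹), j₁ x⁻¹⁆ ∈ Tc.range := hba x⁻¹ (y * y' * y⁻¹)
    have hgoal : ⁅j₁ x * j₂ y, j₁ x' * j₂ y'⁆ =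
        j₁ ⁅x, x'⁆ * j₂ ⁅y, y'⁆ * Tc (t₁ * t₂) := by
      rw [map_mul, map_commutatorElement, map_commutatorElement]
      have hc4 : j₂ ⁅y, y'⁆ * (j₁ x')⁻¹ = (j₁ x')⁻¹ * j₂ ⁅y, y'⁆ := by
        rw [← map_inv, ← commutatorElement_eq_one_iff_mul_comm, ← commutatorElement_inv]
        have h := hTeq (j₁ x'⁻¹) (j₂ ⁅y, y'⁆) (by rw [hp₁]) (by rw [hp₂])
        have h5 : Abelianization.of (proj Q (j₂ ⁅y, y'⁆)).2 = 1 := by
          rw [hp₂]
          refine (QuotientGroup.eq_one_iff _).2 ?_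
          show proj Q₂ ⁅y, y'⁆ ∈ commutator Q₂
          rw [map_commutatorElement]
          exact Subgroup.commutator_mem_commutator trivial trivial
        rw [h5, ofMul_one, TensorProduct.tmul_zero, ofAdd_zero, map_one] at h
        rw [← h]; simp
      rw [map_commutatorElement] at hc4
      simp only [map_mul, map_inv] at ht₂
      have s1 : j₂ y * j₁ x' = j₁ x' * j₂ y * Tc t₁ := by
        rw [hTc t₁, ht₁, commutatorElement_def]; group
      have s2 : (j₂ y * j₂ y' * (j₂ y)⁻¹) * (j₁ x)⁻¹ = (j₁ x)⁻¹ * (j₂ y * j₂ y' * (j₂ y)⁻¹) * Tc t₂ := by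
        rw [hTc t₂, ht₂, commutatorElement_def]; group
      simp only [commutatorElement_def] at hc4 ⊢
      calc j₁ x * j₂ y * (j₁ x' * j₂ y') * (j₁ x * j₂ y)⁻¹ * (j₁ x' * j₂ y')⁻¹
          = j₁ x * (j₂ y * j₁ x') * j₂ y' * (j₂ y)⁻¹ * (j₁ x)⁻¹ * (j₂ y')⁻¹ * (j₁ x')⁻¹ := by group
        _ = j₁ x * j₁ x' * j₂ y * (Tc t₁ * (j₂ y' * (j₂ y)⁻¹ * (j₁ x)⁻¹ * (j₂ y')⁻¹ * (j₁ x')⁻¹)) := by
            rw [s1]; group
        _ = j₁ x * j₁ x' * ((j₂ y * j₂ y' * (j₂ y)⁻¹) * (j₁ x)⁻¹) * (j₂ y')⁻¹ * (j₁ x')⁻¹ * Tc t₁ := by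
            rw [← hTc t₁]; group
        _ = j₁ x * j₁ x' * (j₁ x)⁻¹ * (j₂ y * j₂ y' * (j₂ y)⁻¹) * (Tc t₂ * ((j₂ y')⁻¹ * (j₁ x')⁻¹)) * Tc t₁ := by
            rw [s2]; group
        _ = j₁ x * j₁ x' * (j₁ x)⁻¹ * ((j₂ y * j₂ y' * (j₂ y)⁻¹ * (j₂ y')⁻¹) * (j₁ x')⁻¹) * (Tc t₂ * Tc t₁) := by
            rw [← hTc t₂]; group
        _ = j₁ x * j₁ x' * (j₁ x)⁻¹ * ((j₁ x')⁻¹ * (j₂ y * j₂ y' * (j₂ y)⁻¹ * (j₂ y')⁻¹)) * (Tc t₂ * Tc t₁) := by
            rw [hc4]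
        _ = _ := by rw [← hTc t₂ (Tc t₁)]; group
    rw [hgoal]
    exact ⟨⁅x, x'⁆, Subgroup.commutator_mem_commutator trivial trivial, ⁅y, y'⁆,
      Subgroup.commutator_mem_commutator trivial trivial, _, rfl⟩
  have hTproj : ∀ t, proj Q (Tc t) = 1 := by
    intro t
    obtain ⟨u, rfl⟩ : ∃ u, Multiplicative.ofAdd u = t := ⟨t.toAdd, rfl⟩
    induction u using TensorProduct.induction_on with
    | zero => rw [ofAdd_zero, map_one, map_one]
    | add a b ha hb => rw [ofAdd_add, map_mul, map_mul, ha, hb, mul_one]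
    | tmul a b =>
      obtain ⟨x, hx⟩ : ∃ x, Abelianization.of x = a.toMul := QuotientGroup.mk_surjective a.toMul
      obtain ⟨y, hy⟩ : ∃ y, Abelianization.of y = b.toMul := QuotientGroup.mk_surjective b.toMul
      obtain ⟨x', rfl⟩ := proj_surjective Q₁ x
      obtain ⟨y', rfl⟩ := proj_surjective Q₂ y
      have h := hTeq (j₁ x') (j₂ y') (by rw [hp₁]) (by rw [hp₂])
      rw [hp₁, hp₂] at h
      simp only [hx, hy, ofMul_toMul] at h
      show proj Q (T (Multiplicative.ofAdd (a ⊗ₜ[ℤ] b)) : E Q) = 1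
      rw [h, map_commutatorElement, hp₁, hp₂]
      exact commutatorElement_eq_one_iff_mul_comm.2
        (Prod.ext ((mul_one _).trans (one_mul _).symm) ((one_mul _).trans (mul_one _).symm))
  let Φ : M Q₁ × M Q₂ × Multiplicative (Tens Q₁ Q₂) → E Q := fun p => j₁ p.1 * j₂ p.2.1 * Tc p.2.2
  have hsub : ∀ z : M Q, ∃ p, Φ p = z := by
    intro z
    obtain ⟨a, ha, b, hb, t, hz⟩ := hEW z.2.2
    have h1 : proj Q (z : E Q) = 1 := z.2.1
    rw [hz, map_mul, map_mul, hp₁, hp₂, hTproj, mul_one, Prod.mk_mul_mk, one_mul, mul_one, Prod.mk_eq_one] at h1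
    exact ⟨(⟨a, h1.1, ha⟩, ⟨b, h1.2, hb⟩, t), hz.symm⟩
  choose sec hsec using hsub
  exact Nat.card_le_card_of_injective sec fun z z' h => Subtype.ext (by rw [← hsec z, ← hsec z', h])

end CfsgLib.Core.Schur
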