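import Cfsg.Agent.Lib.CoreSchurCover
import Cfsg.Agent.Lib.CharSmall
import Cfsg.Agent.Lib.CharMisc
import Mathlib.GroupTheory.FreeGroup.NielsenSchreier
import Mathlib.GroupTheory.Transfer
import Mathlib.GroupTheory.Exponent

/-!
# Restriction and corestriction for multipliers
-/

set_option autoImplicit false
set_option maxHeartbeats 400000

open scoped commutatorElement

namespace CfsgLib.Core.Schur

universe u v w

variable {Q : Type u} [Group Q] [Finite Q]

/-- Restriction followed by corestriction is the `[Q : U]`-th power. -/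
theorem exists_transfer (U : Subgroup Q) :
    ∃ (s : M Q →* M U) (t : M U →* M Q), ∀ x, t (s x) = x ^ U.index := by
  classical
  let R := (pres Q).ker
  let FU : Subgroup (FreeGroup Q) := U.comap (pres Q)
  have hRFU : R ≤ FU := fun r hr => by
    show pres Q r ∈ U
    rw [show pres Q r = 1 from hr]; exact one_mem _
  let RU : Subgroup FU := R.subgroupOf FU
  let Nu : Subgroup FU := ⁅(⊤ : Subgroup FU), RU⁆
  haveI : RU.Normal := Subgroup.Normal.subgroupOf inferInstance FU
  haveI : Nu.Normal := inferInstance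
  have hNR : Nu ≤ RU := Subgroup.commutator_le_right _ _
  let presU : FU →* U := ((pres Q).comp FU.subtype).codRestrict U fun x => x.2
  -- the map to the universal extension of `U`
  let b := (IsFreeGroup.nonempty_basis (G := FU)).choose_spec.some
  let g : FU →* E U := b.lift fun i => Function.surjInv (proj_surjective U) (presU (b i))
  have hg : (proj U).comp g = presU := b.ext_hom _ _ fun i => by
    simp [g, Function.surjInv_eq (proj_surjective U)]
  have hgN : Nu ≤ g.ker := by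
    rw [Subgroup.commutator_le]
    intro a _ r hr
    rw [MonoidHom.mem_ker, map_commutatorElement]
    refine commutatorElement_eq_one_iff_mul_comm.2 (Subgroup.mem_center_iff.1 (K_le_center U ?_) _)
    show proj U (g r) = 1
    rw [← MonoidHom.comp_apply, hg]
    exact Subtype.ext hr
  let h : FU ⧸ Nu →* E U := QuotientGroup.lift Nu g hgN
  let ι : FU ⧸ Nu →* E Q := QuotientGroup.lift Nu ((QuotientGroup.mk' (Nc Q)).comp FU.subtype) (by
    rw [Subgroup.commutator_le]
    intro a _ r hr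
    rw [MonoidHom.mem_ker, map_commutatorElement]
    refine commutatorElement_eq_one_iff_mul_comm.2 (Subgroup.mem_center_iff.1 (K_le_center Q ?_) _)
    exact hr)
  obtain ⟨j, hj⟩ := exists_hom_over (proj Q) (proj_surjective Q) (K_le_center Q) U.subtype
  have hagree : ∀ x : FU ⧸ Nu, ((j.comp h) x)⁻¹ * ι x ∈ Subgroup.center (E Q) := fun x => by
    obtain ⟨f, rfl⟩ := QuotientGroup.mk_surjective x
    refine K_le_center Q ?_
    show proj Q ((j (g f))⁻¹ * ((f : FreeGroup Q) : E Q)) = 1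
    rw [map_mul, map_inv, show proj Q (j (g f)) = U.subtype (proj U (g f)) from DFunLike.congr_fun hj _,
      show proj U (g f) = presU f from DFunLike.congr_fun hg f]
    exact inv_mul_cancel _
  -- the norm
  let Rb : Subgroup (FU ⧸ Nu) := RU.map (QuotientGroup.mk' Nu)
  have hRbc : Rb ≤ Subgroup.center (FU ⧸ Nu) := by
    rintro _ ⟨r, hr, rfl⟩
    refine Subgroup.mem_center_iff.2 fun y => ?_
    obtain ⟨f, rfl⟩ := QuotientGroup.mk_surjective y
    show ((f : FU) : FU ⧸ Nu) * (r : FU ⧸ Nu) = (r : FU ⧸ Nu) * f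
    rw [← commutatorElement_eq_one_iff_mul_comm]
    show ⁅(QuotientGroup.mk' Nu) f, (QuotientGroup.mk' Nu) r⁆ = 1
    rw [← map_commutatorElement]
    exact (QuotientGroup.eq_one_iff _).2 (Subgroup.commutator_mem_commutator trivial hr)
  letI : CommGroup Rb := { (inferInstance : Group Rb) with
    mul_comm := fun a b => Subtype.ext (Subgroup.mem_center_iff.1 (hRbc b.2) (a : FU ⧸ Nu)) }
  haveI : Finite (FreeGroup Q ⧸ FU) := by
    have hidx : FU.index = U.index := Subgroup.index_comap_of_surjective U (fun q => ⟨FreeGroup.of q, FreeGroup.lift_apply_of⟩)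
    refine Nat.finite_of_card_ne_zero ?_
    rw [← Subgroup.index_eq_card, hidx]
    exact Subgroup.index_ne_zero_of_finite
  haveI : FU.FiniteIndex := Subgroup.finiteIndex_of_finite_quotient
  letI := Fintype.ofFinite (FreeGroup Q ⧸ FU)
  have hRn : ∀ (t : FreeGroup Q) (r : R), t⁻¹ * (r : FreeGroup Q) * t ∈ R := fun t r => by
    have := (MonoidHom.normal_ker (pres Q)).conj_mem (r : FreeGroup Q) r.2 t⁻¹
    rwa [inv_inv] at this
  let cj : FreeGroup Q → R →* Rb := fun t => MonoidHom.mk'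
    (fun r => ⟨((⟨t⁻¹ * (r : FreeGroup Q) * t, hRFU (hRn t r)⟩ : FU) : FU ⧸ Nu), _, hRn t r, rfl⟩)
    fun r r' => Subtype.ext (by
      let A : R → FU := fun r => ⟨t⁻¹ * (r : FreeGroup Q) * t, hRFU (hRn t r)⟩
      show ((A (r * r') : FU) : FU ⧸ Nu) = (A r : FU ⧸ Nu) * (A r' : FU ⧸ Nu)
      rw [← QuotientGroup.mk_mul]
      congr 1
      exact Subtype.ext (by show t⁻¹ * ((r : FreeGroup Q) * r') * t = t⁻¹ * r * t * (t⁻¹ * r' * t); group))
  let N : R →* Rb := ∏ q : FreeGroup Q ⧸ FU, cj q.out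
  have hN : ∀ r, N r = ∏ q : FreeGroup Q ⧸ FU, cj q.out r := fun r => MonoidHom.finsetProd_apply _ _ _
  have hcju : ∀ (t : FreeGroup Q) (u : FU) (r : R), cj (t * u) r = cj t r := fun t u r => Subtype.ext (by
    set x : FU := ⟨t⁻¹ * (r : FreeGroup Q) * t, hRFU (hRn t r)⟩ with hx
    have e : (⟨(t * (u : FreeGroup Q))⁻¹ * (r : FreeGroup Q) * (t * (u : FreeGroup Q)), hRFU (hRn _ r)⟩ : FU) =
        u⁻¹ * x * u := Subtype.ext (by
      show (t * (u : FreeGroup Q))⁻¹ * (r : FreeGroup Q) * (t * u) = (u : FreeGroup Q)⁻¹ * (t⁻¹ * r * t) * u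
      group)
    show ((_ : FU) : FU ⧸ Nu) = (x : FU ⧸ Nu)
    rw [e, QuotientGroup.mk_mul, QuotientGroup.mk_mul, mul_assoc,
      ← Subgroup.mem_center_iff.1 (hRbc (⟨x, hRn t r, rfl⟩ : (x : FU ⧸ Nu) ∈ Rb)) (u : FU ⧸ Nu),
      QuotientGroup.mk_inv, inv_mul_cancel_left])
  have hconj : ∀ (f : FreeGroup Q) (r : R) (hm : f * r * f⁻¹ ∈ R), N ⟨f * r * f⁻¹, hm⟩ = N r := by
    intro f r hm
    rw [hN, hN]
    refine (Fintype.prod_equiv (MulAction.toPerm f⁻¹) _ _ fun q => ?_)
    obtain ⟨u, hu⟩ := QuotientGroup.mk_out_eq_mul FU (f⁻¹ * q.out)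
    have hq : (MulAction.toPerm f⁻¹ q : FreeGroup Q ⧸ FU) = ((f⁻¹ * q.out : FreeGroup Q) : FreeGroup Q ⧸ FU) := by
      conv_lhs => rw [← QuotientGroup.out_eq' q]
      rfl
    rw [hq, hu, hcju]
    refine Subtype.ext ?_
    show ((_ : FU) : FU ⧸ Nu) = ((_ : FU) : FU ⧸ Nu)
    congr 1
    exact Subtype.ext (by show q.out⁻¹ * (f * r * f⁻¹) * q.out = (f⁻¹ * q.out)⁻¹ * r * (f⁻¹ * q.out); group)
  have hNc : ∀ r : R, (r : FreeGroup Q) ∈ Nc Q → N r = 1 := by
    have hle : Nc Q ≤ N.ker.map R.subtype := by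
      rw [Nc, Subgroup.commutator_le]
      intro f _ r hr
      have hm : f * r * f⁻¹ ∈ R := (MonoidHom.normal_ker (pres Q)).conj_mem r hr f
      refine ⟨⟨f * r * f⁻¹, hm⟩ * ⟨r, hr⟩⁻¹, ?_, rfl⟩
      show N _ = 1
      rw [map_mul, map_inv, hconj f ⟨r, hr⟩ hm, mul_inv_cancel]
    intro r hr
    obtain ⟨r', hr', e⟩ := hle hr
    rwa [Subtype.ext e] at hr'
  -- the value lies in the commutator subgroup
  have hNcomm : ∀ r : R, (r : FreeGroup Q) ∈ commutator (FreeGroup Q) → (N r : FU ⧸ Nu) ∈ commutator (FU ⧸ Nu) := by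
    intro r hr
    let φ : FU →* Abelianization (FU ⧸ Nu) := Abelianization.of.comp (QuotientGroup.mk' Nu)
    have h1 : MonoidHom.transfer φ (r : FreeGroup Q) = 1 := Abelianization.commutator_subset_ker _ hr
    let T : FU.LeftTransversal := ⟨Set.range Quotient.out, Subgroup.isComplement_range_left Quotient.out_eq'⟩
    have hT : ∀ q, (T.2.leftQuotientEquiv q : FreeGroup Q) = q.out := fun q =>
      Subgroup.IsComplement.leftQuotientEquiv_apply Quotient.out_eq' q
    refine (QuotientGroup.eq_one_iff _).1 (?_ : Abelianization.of (N r : FU ⧸ Nu) = 1)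
    rw [← h1, MonoidHom.transfer_def φ T, hN, Subgroup.leftTransversals.diff]
    show (Abelianization.of.comp Rb.subtype) (∏ q : FreeGroup Q ⧸ FU, cj q.out r) = _
    rw [map_prod]
    refine Finset.prod_congr (Finset.ext fun q => by simp) fun q _ => ?_
    refine congrArg φ (a₁ := (⟨q.out⁻¹ * (r : FreeGroup Q) * q.out, hRFU (hRn _ r)⟩ : FU)) (Subtype.ext ?_)
    show q.out⁻¹ * (r : FreeGroup Q) * q.out = (T.2.leftQuotientEquiv q : FreeGroup Q)⁻¹ * _
    rw [Subgroup.smul_apply_eq_smul_apply_inv_smul, hT, hT]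
    have hfix : (r : FreeGroup Q)⁻¹ • q = q := by
      conv_lhs => rw [← QuotientGroup.out_eq' q]
      conv_rhs => rw [← QuotientGroup.out_eq' q]
      refine QuotientGroup.eq.2 ?_
      show ((r : FreeGroup Q)⁻¹ * q.out)⁻¹ * q.out ∈ FU
      rw [show ((r : FreeGroup Q)⁻¹ * q.out)⁻¹ * q.out = q.out⁻¹ * (r : FreeGroup Q) * q.out by group]
      exact hRFU (hRn _ r)
    rw [hfix, smul_eq_mul]
    group
  -- corestriction
  have hjM : ∀ x : M U, j (x : E U) ∈ M Q := fun x => by
    refine ⟨?_, ?_⟩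
    · show proj Q (j (x : E U)) = 1
      rw [show proj Q (j (x : E U)) = U.subtype (proj U x) from DFunLike.congr_fun hj _,
        show proj U (x : E U) = 1 from x.2.1, map_one]
    · have h3 : (commutator (E U)).map j ≤ commutator (E Q) := by
        rw [commutator_def, Subgroup.map_commutator]
        exact Subgroup.commutator_mono le_top le_top
      exact h3 ⟨x, x.2.2, rfl⟩
  -- restriction
  let mkR : R →* K Q := ((QuotientGroup.mk' (Nc Q)).comp R.subtype).codRestrict (K Q) fun r => r.2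
  have hmkR : Function.Surjective mkR := fun x => by
    obtain ⟨f, hf⟩ := QuotientGroup.mk_surjective (x : E Q)
    refine ⟨⟨f, ?_⟩, Subtype.ext hf⟩
    show pres Q f = 1
    have h2 : proj Q (x : E Q) = 1 := x.2
    rw [← hf] at h2
    exact h2
  have hNker : mkR.ker ≤ N.ker := fun r hr =>
    hNc r ((QuotientGroup.eq_one_iff _).1 (congrArg Subtype.val hr))
  let N' : K Q →* Rb := mkR.liftOfSurjective hmkR ⟨N, hNker⟩
  have hrep : ∀ x : M Q, ∃ r : R, mkR r = ⟨(x : E Q), x.2.1⟩ ∧ (r : FreeGroup Q) ∈ commutator (FreeGroup Q) := by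
    intro x
    obtain ⟨r, hr⟩ := hmkR ⟨(x : E Q), x.2.1⟩
    refine ⟨r, hr, ?_⟩
    have h2 : ((r : FreeGroup Q) : E Q) ∈ (commutator (FreeGroup Q)).map (QuotientGroup.mk' (Nc Q)) := by
      rw [show ((r : FreeGroup Q) : E Q) = (x : E Q) from congrArg Subtype.val hr, commutator_def,
        Subgroup.map_commutator, Subgroup.map_top_of_surjective _ (QuotientGroup.mk'_surjective _)]
      exact x.2.2
    obtain ⟨f, hf, hfe⟩ := h2
    have h3 : f⁻¹ * (r : FreeGroup Q) ∈ Nc Q := QuotientGroup.eq.1 hfe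
    rw [← mul_inv_cancel_left f (r : FreeGroup Q)]
    exact Subgroup.mul_mem _ hf (Subgroup.commutator_mono le_top le_top h3)
  have hval : ∀ x : M Q, ((N' ⟨(x : E Q), x.2.1⟩ : Rb) : FU ⧸ Nu) ∈ commutator (FU ⧸ Nu) ∧
      ι ((N' ⟨(x : E Q), x.2.1⟩ : Rb) : FU ⧸ Nu) = (x : E Q) ^ U.index := by
    intro x
    obtain ⟨r, hr, hrc⟩ := hrep x
    rw [← hr, show N' (mkR r) = N r from MonoidHom.liftOfRightInverse_comp_apply _ _ _ _ r]
    refine ⟨hNcomm r hrc, ?_⟩
    rw [hN]
    letI : CommGroup (K Q) := { (inferInstance : Group (K Q)) with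
      mul_comm := fun a b => Subtype.ext (Subgroup.mem_center_iff.1 (K_le_center Q b.2) (a : E Q)) }
    have hιK : ∀ y : Rb, (ι.comp Rb.subtype) y ∈ K Q := fun y => by
      obtain ⟨r', hr', hre⟩ := y.2
      show proj Q (ι (y : FU ⧸ Nu)) = 1
      refine (congrArg (fun z => proj Q (ι z)) hre.symm).trans ?_
      exact hr'
    show (((ι.comp Rb.subtype).codRestrict (K Q) hιK (∏ q : FreeGroup Q ⧸ FU, cj q.out r) : K Q) : E Q) = _
    rw [map_prod]
    have hxr : (x : E Q) = ((r : FreeGroup Q) : E Q) := (congrArg Subtype.val hr).symm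
    have hterm : ∀ q : FreeGroup Q ⧸ FU, (ι.comp Rb.subtype) (cj q.out r) = (x : E Q) := fun q => by
      show ((q.out⁻¹ * (r : FreeGroup Q) * q.out : FreeGroup Q) : E Q) = (x : E Q)
      rw [QuotientGroup.mk_mul, QuotientGroup.mk_mul, ← hxr, QuotientGroup.mk_inv, mul_assoc,
        ← Subgroup.mem_center_iff.1 (M_le_center Q x.2) (q.out : E Q), inv_mul_cancel_left]
    have hterm' : ∀ q : FreeGroup Q ⧸ FU, (ι.comp Rb.subtype).codRestrict (K Q) hιK (cj q.out r) =
        ⟨(x : E Q), x.2.1⟩ := fun q => Subtype.ext (hterm q)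
    have hidx : Fintype.card (FreeGroup Q ⧸ FU) = U.index := by
      rw [← Nat.card_eq_fintype_card, ← Subgroup.index_eq_card]
      exact Subgroup.index_comap_of_surjective U (fun q => ⟨FreeGroup.of q, FreeGroup.lift_apply_of⟩)
    simp only [hterm', Finset.prod_const, Finset.card_univ, hidx]
    rfl
  let s₀ : M Q →* E U := ((h.comp Rb.subtype).comp N').comp (Subgroup.inclusion (inf_le_left : M Q ≤ K Q))
  have hs₀ : ∀ x, s₀ x ∈ M U := fun x => by
    refine ⟨?_, ?_⟩
    · obtain ⟨r, hr, hre⟩ := (N' (Subgroup.inclusion (inf_le_left : M Q ≤ K Q) x)).2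
      show proj U (h ((N' _ : Rb) : FU ⧸ Nu)) = 1
      refine (congrArg (fun z => proj U (h z)) hre.symm).trans ?_
      show proj U (g r) = 1
      rw [← MonoidHom.comp_apply, hg]
      exact Subtype.ext hr
    · have h3 : (commutator (FU ⧸ Nu)).map h ≤ commutator (E U) := by
        rw [commutator_def, Subgroup.map_commutator]
        exact Subgroup.commutator_mono le_top le_top
      exact h3 ⟨_, (hval x).1, rfl⟩
  refine ⟨s₀.codRestrict (M U) hs₀, (j.comp (M U).subtype).codRestrict (M Q) hjM, fun x => Subtype.ext ?_⟩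
  show j (h ((N' ⟨(x : E Q), x.2.1⟩ : Rb) : FU ⧸ Nu)) = ((x ^ U.index : M Q) : E Q)
  rw [SubmonoidClass.coe_pow, ← (hval x).2]
  exact eqOn_commutator (j.comp h) ι hagree _ (hval x).1

/-- A quotient of a subgroup of a finite abelian group is isomorphic to a subgroup. -/
theorem exists_subgroup_equiv {B : Type v} [CommGroup B] [Finite B] {X : Type w} [CommGroup X] {S : Subgroup B}
    (f : S →* X) (hf : Function.Surjective f) : ∃ C : Subgroup B, Nonempty (X ≃* C) := by
  haveI : Finite X := Finite.of_surjective f hf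
  haveI : NeZero (Monoid.exponent S) := ⟨Monoid.ExponentExists.of_finite.exponent_ne_zero⟩
  haveI : NeZero (Monoid.exponent X) := ⟨Monoid.ExponentExists.of_finite.exponent_ne_zero⟩
  obtain ⟨eX⟩ := CommGroup.monoidHom_mulEquiv_of_hasEnoughRootsOfUnity X ℂ
  obtain ⟨eS⟩ := CommGroup.monoidHom_mulEquiv_of_hasEnoughRootsOfUnity S ℂ
  let d : (X →* ℂˣ) →* (S →* ℂˣ) := MonoidHom.compHom' f
  have hd : Function.Injective d := fun a b h => MonoidHom.ext fun x => by
    obtain ⟨y, rfl⟩ := hf x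
    exact DFunLike.congr_fun h y
  let i : X →* B := (S.subtype.comp (eS.toMonoidHom.comp d)).comp eX.symm.toMonoidHom
  have hi : Function.Injective i :=
    (S.subtype_injective.comp (eS.injective.comp hd)).comp eX.symm.injective
  exact ⟨i.range, ⟨MonoidHom.ofInjective hi⟩⟩

/-- The bound on element orders in the multiplier of a `p`-group. -/
theorem sq_orderOf_dvd {p : ℕ} [Fact p.Prime] {P : Type u} [Group P] [Finite P] (hP : IsPGroup p P) (z : M P)
    {i : ℕ} (hz : orderOf z = p ^ i) : (p ^ i) ^ 2 ∣ Nat.card P := by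
  classical
  rcases Nat.eq_zero_or_pos i with rfl | hi
  · simp
  obtain ⟨Γ, _, _, σ, hσ, ⟨e⟩⟩ := exists_cover (Q := P)
  haveI := Fintype.ofFinite Γ
  let y : Γ := (e.symm z : σ.ker)
  have hy : orderOf y = p ^ i := by
    rw [show y = ((e.symm z : σ.ker) : Γ) from rfl, Subgroup.orderOf_coe, MulEquiv.orderOf_eq, hz]
  have hy1 : y ^ p ^ (i - 1) ≠ 1 := by
    intro h1
    have h2 := orderOf_dvd_of_pow_eq_one h1
    rw [hy, Nat.pow_dvd_pow_iff_le_right (Fact.out : p.Prime).one_lt] at h2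
    omega
  obtain ⟨χ, hχ⟩ : ∃ χ : Cfsg.IrrCharacter Γ, (χ : Γ → ℂ) (y ^ p ^ (i - 1)) ≠ (χ : Γ → ℂ) 1 := by
    by_contra hall
    push Not at hall
    exact hy1 (isConj_one_left.1 ((CfsgLib.Char.isConj_iff_irr_eq _ _).2 hall))
  obtain ⟨d, ρ, hρ, hρe⟩ := χ.2
  haveI := hρ
  haveI := CfsgLib.Char.nontrivial_of_irreducible ρ
  have hsc : ∀ z ∈ σ.ker, ∃ c : ℂ, ρ z = c • (1 : Module.End ℂ (Fin d → ℂ)) := fun z hz =>
    CfsgLib.Char.schur_scalar ρ (ρ z) fun g => by rw [← map_mul, ← map_mul, Subgroup.mem_center_iff.1 (hσ.2.1 hz) g]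
  obtain ⟨ω, hω⟩ := hsc y (e.symm z).2
  have hfin : Module.finrank ℂ (Fin d → ℂ) = d := Module.finrank_fin_fun ℂ
  have hdne : d ≠ 0 := fun e0 => by
    subst e0
    exact not_subsingleton (Fin 0 → ℂ) inferInstance
  have hωd : ω ^ d = 1 := by
    let δ : Γ →* ℂˣ := (Units.map (LinearMap.det : Module.End ℂ (Fin d → ℂ) →* ℂ)).comp ρ.asGroupHom
    have h1 : δ y = 1 := Abelianization.commutator_subset_ker δ (hσ.2.2 (e.symm z).2)
    have h2 : LinearMap.det (ρ y) = 1 := congrArg Units.val h1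
    rwa [hω, LinearMap.det_smul, hfin, map_one, mul_one] at h2
  have hωp : ∀ k : ℕ, ρ (y ^ k) = ω ^ k • (1 : Module.End ℂ (Fin d → ℂ)) := fun k => by
    rw [map_pow, hω, smul_pow, one_pow]
  obtain ⟨v, hv⟩ := exists_ne (0 : Fin d → ℂ)
  have hω1 : ω ^ p ^ i = 1 := by
    have h1 := hωp (p ^ i)
    rw [← hy, pow_orderOf_eq_one, map_one] at h1
    have h2 := LinearMap.congr_fun h1 v
    simp only [Module.End.one_apply, LinearMap.smul_apply] at h2
    rw [hy] at h2
    by_contra hne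
    exact hne (smul_left_injective ℂ hv (by simpa using h2.symm))
  have hω2 : ¬ ω ^ p ^ (i - 1) = 1 := fun h1 => hχ (by
    rw [← hρe]
    show LinearMap.trace ℂ _ (ρ (y ^ p ^ (i - 1))) = LinearMap.trace ℂ _ (ρ 1)
    rw [hωp, h1, one_smul, map_one ρ])
  have hord : orderOf ω = p ^ i := by
    obtain ⟨k, rfl⟩ : ∃ k, i = k + 1 := ⟨i - 1, by omega⟩
    exact orderOf_eq_prime_pow (by simpa using hω2) hω1
  have hed : p ^ i ∣ d := hord ▸ orderOf_dvd_of_pow_eq_one hωd
  have hdP : d ∣ Nat.card P := by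
    have h1 := CfsgLib.Char.degree_dvd_index_of_scalar (ρ := ρ) σ.ker hsc
    rwa [hfin, Subgroup.index_ker, MonoidHom.range_eq_top.2 hσ.1, Subgroup.card_top] at h1
  have hbound := CfsgLib.Char.degree_sq_bound χ.2 (B := ⊥) (C := ⊤) (D := σ.ker) bot_le le_top
    (fun a ha c _ => by
      rw [Subgroup.mem_bot, ← Subgroup.mem_center_iff.1 (hσ.2.1 ha) c, mul_inv_cancel_right, mul_inv_cancel])
    (fun b hb => by rw [Subgroup.mem_bot.1 hb])
  have hsq : d ^ 2 ≤ Nat.card P := by
    rw [← hρe, ρ.char_one, hfin, Complex.norm_natCast, Subgroup.card_top] at hbound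
    have h3 : Nat.card Γ = Nat.card P * Nat.card σ.ker := by
      rw [← σ.ker.index_mul_card, Subgroup.index_ker, MonoidHom.range_eq_top.2 hσ.1, Subgroup.card_top]
    have h4 : d ^ 2 * Nat.card Γ * Nat.card σ.ker ≤ Nat.card Γ ^ 2 := by exact_mod_cast hbound
    rw [h3] at h4
    have hpos : 0 < Nat.card P * Nat.card σ.ker * Nat.card σ.ker :=
      Nat.mul_pos (Nat.mul_pos Nat.card_pos Nat.card_pos) Nat.card_pos
    refine Nat.le_of_mul_le_mul_right ?_ hpos
    calc d ^ 2 * (Nat.card P * Nat.card σ.ker * Nat.card σ.ker)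
        = d ^ 2 * (Nat.card P * Nat.card σ.ker) * Nat.card σ.ker := by ring
      _ ≤ (Nat.card P * Nat.card σ.ker) ^ 2 := h4
      _ = _ := by ring
  obtain ⟨a, ha⟩ := IsPGroup.iff_card.1 hP
  obtain ⟨k, -, rfl⟩ := (Nat.dvd_prime_pow (Fact.out : p.Prime)).1 (ha ▸ hdP)
  refine (pow_dvd_pow_of_dvd hed 2).trans ?_
  rw [ha, ← pow_mul]
  rw [ha, ← pow_mul, Nat.pow_le_pow_iff_right (Fact.out : p.Prime).one_lt] at hsq
  exact pow_dvd_pow p hsq

/-- Schur: the square of the exponent of the multiplier divides the order. -/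
theorem exponent_sq_dvd : Monoid.exponent (M Q) ^ 2 ∣ Nat.card Q := by
  have he : Monoid.exponent (M Q) ≠ 0 := Monoid.ExponentExists.of_finite.exponent_ne_zero
  rw [← Nat.factorization_le_iff_dvd (pow_ne_zero 2 he) Nat.card_pos.ne', Nat.factorization_pow]
  intro p
  by_cases hp : p.Prime
  swap
  · simp [Nat.factorization_eq_zero_of_not_prime _ hp]
  haveI := Fact.mk hp
  obtain ⟨x, hx⟩ := hp.exists_orderOf_eq_pow_factorization_exponent (M Q)
  obtain ⟨P⟩ : Nonempty (Sylow p Q) := inferInstance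
  obtain ⟨s, t, hst⟩ := exists_transfer (P : Subgroup Q)
  have hsx : orderOf (s x) = orderOf x := by
    refine Nat.dvd_antisymm (orderOf_map_dvd s x) ?_
    have h1 : orderOf (x ^ (P : Subgroup Q).index) = orderOf x := by
      refine (Nat.Coprime.orderOf_pow ?_)
      rw [hx]
      exact ((hp.coprime_iff_not_dvd.2 P.not_dvd_index)).pow_left _
    rw [← h1, ← hst]
    exact orderOf_map_dvd t _
  have h2 := sq_orderOf_dvd P.isPGroup' (s x) (hsx.trans hx)
  have h3 := h2.trans (P : Subgroup Q).card_subgroup_dvd_card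
  rw [← pow_mul] at h3
  have h4 := (hp.pow_dvd_iff_le_factorization Nat.card_pos.ne').1 h3
  simpa [mul_comm] using h4

end CfsgLib.Core.Schur
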