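import Mathlib

/-!
# Linear algebra for the Shult–Gross theorem

Independence of weight vectors, eigenvector decomposition, and the counting lemma: an element
`s` of prime-power order permuting a basis of `End W` freely, apart from the identity, and
without eigenvalue one forces `dim W + 1` to be the order.
-/

set_option autoImplicit false

open Finset

namespace CfsgLib.Core.ShultGross

universe u v w x

/-- Vectors with distinct weights are independent. -/
theorem eigen_eq_zero {K : Type u} [Field K] {V : Type v} [AddCommGroup V] [Module K V] {X : Type w}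
    {I : Type x} (op : X → V →ₗ[K] V) (χ : I → X → K) (s : Finset I) (z : I → V)
    (hz : ∀ a ∈ s, ∀ y, op y (z a) = χ a y • z a)
    (hne : ∀ a ∈ s, ∀ b ∈ s, a ≠ b → χ a ≠ χ b) (hsum : ∑ a ∈ s, z a = 0) :
    ∀ a ∈ s, z a = 0 := by
  classical
  induction s using Finset.induction_on generalizing z with
  | empty => simp
  | @insert a s ha ih =>
    have hs : ∀ b ∈ s, z b = 0 := by
      intro b hb
      obtain ⟨y, hy⟩ := Function.ne_iff.1
        (hne b (mem_insert_of_mem hb) a (mem_insert_self a s) (fun e => ha (e ▸ hb)))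
      have h := ih (fun c => (χ c y - χ a y) • z c)
        (fun c hc y' => by rw [map_smul, hz c (mem_insert_of_mem hc), smul_comm])
        (fun c hc d hd => hne c (mem_insert_of_mem hc) d (mem_insert_of_mem hd))
        (by
          have h0 : ∑ c ∈ insert a s, (χ c y - χ a y) • z c = 0 := by
            rw [sum_congr rfl (g := fun c => op y (z c) - χ a y • z c) fun c hc => by
              rw [sub_smul, hz c hc], sum_sub_distrib, ← map_sum, ← smul_sum, hsum, map_zero,
              smul_zero, sub_zero]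
          rwa [sum_insert ha, sub_self, zero_smul, zero_add] at h0) b hb
      exact (smul_eq_zero.1 h).resolve_left (sub_ne_zero.2 hy)
    intro b hb
    rcases mem_insert.1 hb with rfl | hb
    · rwa [sum_insert ha, sum_eq_zero hs, add_zero] at hsum
    · exact hs b hb

/-- Rearranging a sum by residues. -/
theorem sum_range_mul_eq {M : Type u} [AddCommMonoid M] (f : ℕ → M) (a : ℕ) :
    ∀ b, ∑ l ∈ range (a * b), f l = ∑ j ∈ range a, ∑ l ∈ range b, f (a * l + j)
  | 0 => by simp
  | b + 1 => by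
    rw [Nat.mul_succ, sum_range_add, sum_range_mul_eq f a b, ← sum_add_distrib]
    exact sum_congr rfl fun j _ => (sum_range_succ _ _).symm

/-- A weight with period `a` under `e` reduces the vanishing sum of powers of `S` to one of
powers of `S ^ a`. -/
theorem period_sum {K : Type u} [Field K] {V : Type v} [AddCommGroup V] [Module K V] {X : Type w}
    (op : X → Module.End K V) (e : Equiv.Perm X) (S : Module.End K V)
    (hS : ∀ y v, op (e y) (S v) = S (op y v)) {ψ : X → K} {v : V} (hv : ∀ y, op y v = ψ y • v)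
    {a b : ℕ} (ha : 0 < a) (hψ : ∀ j, 0 < j → j < a → ∃ y, ψ ((e ^ j) y) ≠ ψ y)
    (hψa : ∀ y, ψ ((e ^ a) y) = ψ y) (hsum : ∑ l ∈ range (a * b), (S ^ l) v = 0) :
    ∑ l ∈ range b, ((S ^ a) ^ l) v = 0 := by
  have hSj : ∀ (j : ℕ) y (z : V), op ((e ^ j) y) ((S ^ j) z) = (S ^ j) (op y z) := by
    intro j
    induction j with
    | zero => intro y z; rfl
    | succ j ih =>
      intro y z
      rw [pow_succ', pow_succ', Equiv.Perm.mul_apply, Module.End.mul_apply, hS, ih]
      rfl
  have hψl : ∀ l y, ψ ((e ^ (a * l)) y) = ψ y := by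
    intro l
    induction l with
    | zero => intro y; rw [mul_zero, pow_zero]; rfl
    | succ l ih => intro y; rw [Nat.mul_succ, pow_add, Equiv.Perm.mul_apply, ih, hψa]
  have h := eigen_eq_zero op (fun j y => ψ ((e ^ j).symm y)) (range a)
    (fun j => (S ^ j) (∑ l ∈ range b, ((S ^ a) ^ l) v))
    (fun j _ y => by
      obtain ⟨y, rfl⟩ := (e ^ j).surjective y
      rw [hSj, Equiv.symm_apply_apply, map_sum, sum_congr rfl (g := fun l => ψ y • ((S ^ a) ^ l) v)
        fun l _ => ?_, ← smul_sum, map_smul]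
      obtain ⟨y, rfl⟩ := (e ^ (a * l)).surjective y
      rw [← pow_mul, hSj, hv, map_smul, hψl])
    (fun i hi j hj hij heq => by
      rcases Nat.lt_or_gt_of_ne hij with h | h
      · obtain ⟨y, hy⟩ := hψ (j - i) (Nat.sub_pos_of_lt h)
          ((Nat.sub_le j i).trans_lt (mem_range.1 hj))
        refine hy ?_
        have := congrFun heq ((e ^ j) y)
        simp only [Equiv.symm_apply_apply] at this
        rw [← this]
        congr 1
        rw [Equiv.eq_symm_apply, ← Equiv.Perm.mul_apply, ← pow_add, Nat.add_sub_cancel' h.le]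
      · obtain ⟨y, hy⟩ := hψ (i - j) (Nat.sub_pos_of_lt h)
          ((Nat.sub_le i j).trans_lt (mem_range.1 hi))
        refine hy ?_
        have := congrFun heq ((e ^ i) y)
        simp only [Equiv.symm_apply_apply] at this
        rw [this]
        congr 1
        rw [Equiv.eq_symm_apply, ← Equiv.Perm.mul_apply, ← pow_add, Nat.add_sub_cancel' h.le])
    (by
      rw [← hsum, sum_range_mul_eq]
      refine sum_congr rfl fun j _ => ?_
      rw [map_sum]
      refine sum_congr rfl fun l _ => ?_
      rw [← Module.End.mul_apply, ← pow_mul, ← pow_add, add_comm])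
  simpa using h 0 (mem_range.2 ha)

/-- Commuting endomorphisms of finite order prime to the characteristic have a spanning set of
common eigenvectors. -/
theorem span_eigen {K : Type u} [Field K] [IsAlgClosed K] {V : Type v} [AddCommGroup V]
    [Module K V] {X : Type w} (f : X → Module.End K V) (N : ℕ) (hNK : (N : K) ≠ 0) (s : Finset X)
    (hcomm : ∀ y ∈ s, ∀ y' ∈ s, Commute (f y) (f y')) (hN : ∀ y ∈ s, f y ^ N = 1) :
    Submodule.span K {v : V | ∀ y ∈ s, ∃ c : K, f y v = c • v} = ⊤ := by
  classical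
  haveI : NeZero (N : K) := ⟨hNK⟩
  obtain ⟨ζ, hζ⟩ := HasEnoughRootsOfUnity.exists_primitiveRoot K N
  have hN0 : N ≠ 0 := fun e => hNK (by rw [e, Nat.cast_zero])
  induction s using Finset.induction_on with
  | empty => simp
  | @insert y s hy ih =>
    rw [eq_top_iff, ← ih (fun a ha b hb => hcomm a (mem_insert_of_mem ha) b (mem_insert_of_mem hb))
      (fun a ha => hN a (mem_insert_of_mem ha)), Submodule.span_le]
    intro v hv
    let part : ℕ → V := fun k => ∑ j ∈ range N, ((ζ ^ k) ^ j) • (f y ^ j) v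
    have hpart : ∑ k ∈ range N, part k = (N : K) • v := by
      rw [sum_comm, sum_eq_single 0]
      · simp [Nat.cast_smul_eq_nsmul]
      · intro j hj hj0
        rw [← sum_smul, sum_congr rfl (g := fun k => (ζ ^ j) ^ k) fun k _ => by
          rw [← pow_mul, ← pow_mul, mul_comm]]
        have h1 : (∑ k ∈ range N, (ζ ^ j) ^ k) * (ζ ^ j - 1) = 0 := by
          rw [geom_sum_mul, ← pow_mul, mul_comm, pow_mul, hζ.pow_eq_one, one_pow, sub_self]
        rw [(mul_eq_zero.1 h1).resolve_right (sub_ne_zero.2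
          (hζ.pow_ne_one_of_pos_of_lt hj0 (mem_range.1 hj))), zero_smul]
      · simp [hN0]
    rw [SetLike.mem_coe, show v = (N : K)⁻¹ • ∑ k ∈ range N, part k by
      rw [hpart, inv_smul_smul₀ hNK]]
    refine Submodule.smul_mem _ _ (Submodule.sum_mem _ fun k _ => Submodule.subset_span ?_)
    intro a ha
    rcases mem_insert.1 ha with rfl | ha
    · refine ⟨(ζ ^ k)⁻¹, ?_⟩
      rw [eq_inv_smul_iff₀ (pow_ne_zero _ (hζ.ne_zero hN0))]
      let g : ℕ → V := fun j => ((ζ ^ k) ^ j) • (f a ^ j) v
      show (ζ ^ k) • f a (∑ j ∈ range N, g j) = ∑ j ∈ range N, g j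
      have hg : g N = g 0 := by
        show ((ζ ^ k) ^ N) • (f a ^ N) v = ((ζ ^ k) ^ 0) • (f a ^ 0) v
        rw [hN a (mem_insert_self a s), ← pow_mul, mul_comm, pow_mul, hζ.pow_eq_one, one_pow,
          pow_zero, pow_zero]
      rw [map_sum, smul_sum, sum_congr rfl (g := fun j => g (j + 1)) fun j _ => by
        show (ζ ^ k) • f a (((ζ ^ k) ^ j) • (f a ^ j) v) = ((ζ ^ k) ^ (j + 1)) • (f a ^ (j + 1)) v
        rw [map_smul, smul_smul, ← pow_succ', ← Module.End.mul_apply, ← pow_succ']]
      have h1 := sum_range_succ g N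
      rw [sum_range_succ' g N, hg] at h1
      exact add_right_cancel h1
    · obtain ⟨c, hc⟩ := hv a ha
      refine ⟨c, ?_⟩
      show f a (∑ j ∈ range N, ((ζ ^ k) ^ j) • (f y ^ j) v) = c • _
      rw [map_sum, smul_sum]
      refine sum_congr rfl fun j _ => ?_
      rw [map_smul, ← Module.End.mul_apply,
        ((hcomm a (mem_insert_of_mem ha) y (mem_insert_self y s)).pow_right j).eq,
        Module.End.mul_apply, hc, map_smul, smul_comm]

/-- A nonzero invariant subspace contains a common eigenvector. -/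
theorem exists_eigen {K : Type u} [Field K] [IsAlgClosed K] {V : Type v} [AddCommGroup V]
    [Module K V] {X : Type w} [Finite X] (f : X → Module.End K V) (N : ℕ) (hNK : (N : K) ≠ 0)
    (U : Submodule K V) (hU : U ≠ ⊥) (hfU : ∀ y, ∀ u ∈ U, f y u ∈ U)
    (hcomm : ∀ y y', ∀ u ∈ U, f y (f y' u) = f y' (f y u))
    (hN : ∀ y, ∀ u ∈ U, (f y ^ N) u = u) :
    ∃ u ∈ U, u ≠ 0 ∧ ∃ ψ : X → K, ∀ y, f y u = ψ y • u := by
  haveI := Fintype.ofFinite X
  let g : X → Module.End K U := fun y => (f y).restrict (hfU y)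
  have hgp : ∀ y (j : ℕ) (u : U), ((g y ^ j) u : V) = (f y ^ j) u := by
    intro y j
    induction j with
    | zero => intro u; rfl
    | succ j ih =>
      intro u
      rw [pow_succ', pow_succ', Module.End.mul_apply, Module.End.mul_apply, ← ih]
      rfl
  have h := span_eigen g N hNK univ
    (fun y _ y' _ => LinearMap.ext fun u => Subtype.ext (hcomm y y' u u.2))
    (fun y _ => LinearMap.ext fun u => Subtype.ext (by rw [hgp]; exact hN y u u.2))
  by_contra hcon
  push Not at hcon
  refine hU ((Submodule.eq_bot_iff _).2 fun u hu => ?_)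
  have hle : Submodule.span K {v : U | ∀ y ∈ (univ : Finset X), ∃ c : K, g y v = c • v} ≤ ⊥ := by
    refine Submodule.span_le.2 fun v hv => ?_
    choose c hc using hv
    by_contra hne
    obtain ⟨y, hy⟩ := hcon v v.2 (fun e => hne (by simpa using Subtype.ext e))
      (fun y => c y (mem_univ y))
    exact hy (congrArg Subtype.val (hc y (mem_univ y)))
  exact congrArg Subtype.val ((Submodule.mem_bot K).1 (hle (h ▸ Submodule.mem_top (x := (⟨u, hu⟩ : U)))))

/-- Orbit representatives of a permutation acting freely away from a point. -/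
theorem free_perm {ι : Type u} [Finite ι] (π : Equiv.Perm ι) {P : ℕ} (hP0 : 0 < P) (hP : π ^ P = 1)
    (i0 : ι) (h0 : π i0 = i0) (hfree : ∀ i, i ≠ i0 → ∀ j, 0 < j → j < P → (π ^ j) i ≠ i) :
    ∃ O : Set ι, i0 ∉ O ∧ Nat.card ι = P * Nat.card O + 1 ∧
      ∀ o ∈ O, ∀ o' ∈ O, ∀ j < P, (π ^ j) o = o' → o = o' ∧ j = 0 := by
  classical
  have h0j : ∀ j : ℕ, (π ^ j) i0 = i0 := fun j => by
    induction j with
    | zero => rfl
    | succ j ih => rw [pow_succ', Equiv.Perm.mul_apply, ih, h0]
  have hmod : ∀ j i, (π ^ j) i = (π ^ (j % P)) i := fun j i => by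
    conv_lhs => rw [← Nat.mod_add_div j P, pow_add, pow_mul, hP, one_pow, mul_one]
  let r : ι → ι := fun i => (Quotient.mk (Equiv.Perm.SameCycle.setoid π) i).out
  have hr : ∀ i, π.SameCycle (r i) i := fun i =>
    Quotient.mk_out (s := Equiv.Perm.SameCycle.setoid π) i
  have hrr : ∀ i k, π.SameCycle i k → r i = r k := fun i k h =>
    congrArg Quotient.out (Quotient.sound (s := Equiv.Perm.SameCycle.setoid π) h)
  let O : Set ι := {i | r i = i ∧ i ≠ i0}
  have huniq : ∀ o ∈ O, ∀ o' ∈ O, ∀ j < P, (π ^ j) o = o' → o = o' ∧ j = 0 := by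
    intro o ho o' ho' j hj h
    have he : o = o' := by
      have hc : π.SameCycle o o' := ⟨j, by rw [zpow_natCast, h]⟩
      rw [← ho.1, ← ho'.1, hrr o o' hc]
    refine ⟨he, ?_⟩
    by_contra hj0
    exact hfree o ho.2 j (Nat.pos_of_ne_zero hj0) hj (h.trans he.symm)
  refine ⟨O, fun h => h.2 rfl, ?_, huniq⟩
  let Φ : O × Fin P → {i : ι // i ≠ i0} := fun t => ⟨(π ^ (t.2 : ℕ)) t.1, fun e =>
    t.1.2.2 ((π ^ (t.2 : ℕ)).injective (e.trans (h0j _).symm))⟩
  have hΦ : Function.Bijective Φ := by
    refine ⟨fun t t' h => ?_, fun i => ?_⟩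
    · have h' : (π ^ (t.2 : ℕ)) t.1 = (π ^ (t'.2 : ℕ)) (t'.1 : ι) := congrArg Subtype.val h
      have h1 : ((π ^ ((t.2 : ℕ) + (P - t'.2))) t.1 : ι) = t'.1 := by
        rw [add_comm, pow_add, Equiv.Perm.mul_apply, h', ← Equiv.Perm.mul_apply, ← pow_add,
          Nat.sub_add_cancel t'.2.isLt.le, hP]
        rfl
      rw [hmod] at h1
      obtain ⟨he, hj⟩ := huniq _ t.1.2 _ t'.1.2 _ (Nat.mod_lt _ hP0) h1
      refine Prod.ext (Subtype.ext he) (Fin.ext ?_)
      by_contra hne
      rcases Nat.lt_or_gt_of_ne hne with hlt | hlt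
      · rw [Nat.mod_eq_of_lt (by omega)] at hj
        omega
      · rw [Nat.mod_eq_sub_mod (by omega), Nat.mod_eq_of_lt (by omega)] at hj
        omega
    · obtain ⟨k, hk⟩ := (hr i.1).exists_nat_pow_eq
      have hrO : r i.1 ∈ O := ⟨hrr _ _ (hr i.1), fun e => i.2 (by rw [← hk, e, h0j])⟩
      exact ⟨(⟨_, hrO⟩, ⟨k % P, Nat.mod_lt _ hP0⟩), Subtype.ext ((hmod k _).symm.trans hk)⟩
  have hcard := Nat.card_congr (Equiv.ofBijective Φ hΦ)
  rw [Nat.card_prod, Nat.card_eq_fintype_card (α := Fin P), Fintype.card_fin] at hcard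
  haveI := Fintype.ofFinite ι
  rw [Nat.card_eq_fintype_card (α := {i : ι // i ≠ i0}), Fintype.card_subtype_compl,
    Fintype.card_subtype_eq] at hcard
  have : 1 ≤ Fintype.card ι := Fintype.card_pos_iff.2 ⟨i0⟩
  rw [Nat.card_eq_fintype_card (α := ι), mul_comm]
  omega

end CfsgLib.Core.ShultGross
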