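import Mathlib
import Cfsg.Agent.Lib.CoreShultGrossLin

/-!
# The counting step of the Shult–Gross theorem
-/

set_option autoImplicit false

open Finset

namespace CfsgLib.Core.ShultGross

universe u v w

/-- The arithmetic of a function on a finite group with no value at `1` and constant
autocorrelation away from `1`. -/
theorem autocorr_le_one {μ : Type u} [CommGroup μ] [Fintype μ] (n : μ → ℕ) (N0 : ℕ) (h1 : n 1 = 0)
    (hcorr : ∀ c : μ, c ≠ 1 → ∑ b, n b * n (c * b) = N0) (hsq : ∑ b, n b * n b = N0 + 1) (a : μ) :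
    n a ≤ 1 := by
  by_cases ha : a = 1
  · rw [ha, h1]; exact Nat.zero_le _
  have h : ∑ b, ((n b : ℤ) - n (a * b)) ^ 2 = 2 := by
    have e1 : ∑ b, ((n (a * b) : ℤ)) * n (a * b) = ∑ b, (n b : ℤ) * n b :=
      Fintype.sum_equiv (Equiv.mulLeft a) _ _ (fun _ => rfl)
    have e2 : ∑ b, (n b : ℤ) * n b = N0 + 1 := by exact_mod_cast hsq
    have e3 : ∑ b, (n b : ℤ) * n (a * b) = N0 := by exact_mod_cast hcorr a ha
    rw [sum_congr rfl (g := fun b => ((n b : ℤ) * n b + (n (a * b) : ℤ) * n (a * b))
      - 2 * ((n b : ℤ) * n (a * b))) fun b _ => by ring, sum_sub_distrib, sum_add_distrib,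
      ← mul_sum, e1, e2, e3]
    ring
  have hle := single_le_sum (s := univ) (f := fun b => ((n b : ℤ) - n (a * b)) ^ 2)
    (fun b _ => sq_nonneg _) (mem_univ (1 : μ))
  rw [h, h1, mul_one] at hle
  simp only [Nat.cast_zero, zero_sub, neg_sq] at hle
  by_contra hn
  have : (2 : ℤ) ≤ n a := by exact_mod_cast (by omega : 2 ≤ n a)
  nlinarith

/-- An element permuting a basis of `End W` freely away from `1` without eigenvalue one. -/
theorem counting {K : Type u} [Field K] [IsAlgClosed K] {W : Type v} [AddCommGroup W] [Module K W]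
    [FiniteDimensional K W] {ι : Type w} [Fintype ι] (B : Module.Basis ι K (Module.End K W)) (i0 : ι)
    (hB0 : B i0 = 1) (π : Equiv.Perm ι) {P : ℕ} (hP1 : 1 < P) (hπP : π ^ P = 1) (hπ0 : π i0 = i0)
    (hfree : ∀ i, i ≠ i0 → ∀ j, 0 < j → j < P → (π ^ j) i ≠ i) (hPK : (P : K) ≠ 0)
    (s : Module.End K W) (hsP : s ^ P = 1) (hsum : ∑ l ∈ range P, s ^ l = 0)
    (hc : ∀ i, ∃ c : K, c ≠ 0 ∧ s * B i = c • (B (π i) * s)) (hι : 1 < Fintype.card ι) :
    ∃ k : ℕ, Fintype.card ι = k ^ 2 ∧ k + 1 = P := by
  classical
  haveI : NeZero (P : K) := ⟨hPK⟩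
  haveI : NeZero P := ⟨by omega⟩
  obtain ⟨O, hO0, hcard, huniq⟩ := free_perm π (by omega) hπP i0 hπ0 hfree
  haveI := Fintype.ofFinite O
  rw [Nat.card_eq_fintype_card, Nat.card_eq_fintype_card] at hcard
  set N0 := Fintype.card O with hN0
  -- an eigenbasis of `s`
  have hspan : (⊤ : Submodule K W) ≤ Submodule.span K {z : W | ∃ c : K, s z = c • z} :=
    (span_eigen (fun _ : Unit => s) P hPK univ (fun _ _ _ _ => Commute.refl s) (fun _ _ => hsP)).ge.trans
      (Submodule.span_mono fun z hz => hz () (mem_univ _))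
  let b := Module.Basis.ofSpan hspan
  haveI := FiniteDimensional.fintypeBasisIndex b
  choose lam hlam using fun j => Module.Basis.ofSpan_subset hspan ⟨j, rfl⟩
  have hlam' : ∀ j, s (b j) = lam j • b j := hlam
  have hpow : ∀ (l : ℕ) j, (s ^ l) (b j) = lam j ^ l • b j := by
    intro l j
    induction l with
    | zero => simp
    | succ l ih => rw [pow_succ', Module.End.mul_apply, ih, map_smul, hlam', smul_smul, pow_succ]
  have hlamP : ∀ j, lam j ^ P = 1 := fun j => by
    have h := hpow P j
    rw [hsP, Module.End.one_apply] at h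
    have h' : ((lam j) ^ P - 1) • b j = 0 := by rw [sub_smul, one_smul, ← h, sub_self]
    exact sub_eq_zero.1 ((smul_eq_zero.1 h').resolve_right (b.ne_zero j))
  have hlam1 : ∀ j, lam j ≠ 1 := fun j e => by
    have h : (∑ l ∈ range P, s ^ l) (b j) = 0 := by rw [hsum]; rfl
    rw [LinearMap.sum_apply, sum_congr rfl fun l _ => hpow l j, ← sum_smul, e] at h
    simp only [one_pow, sum_const, card_range, nsmul_eq_mul, mul_one] at h
    exact hPK ((smul_eq_zero.1 h).resolve_right (b.ne_zero j))
  let Lam := fun j => rootsOfUnity.mkOfPowEq (lam j) (hlamP j)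
  have hLam : ∀ j, (((Lam j : Kˣ)) : K) = lam j := fun j => rfl
  haveI := Fintype.ofFinite (rootsOfUnity P K)
  -- eigen spaces of conjugation by `s`
  let E : rootsOfUnity P K → Submodule K (Module.End K W) := fun c => LinearMap.ker
    (LinearMap.mulLeft K s - ((c : Kˣ) : K) • LinearMap.mulRight K s)
  have hE : ∀ c X, X ∈ E c ↔ s * X = ((c : Kˣ) : K) • (X * s) := fun c X => by
    simp [E, sub_eq_zero]
  let pr : rootsOfUnity P K → Type _ := fun c => {t : _ × _ // Lam t.1 * (Lam t.2)⁻¹ = c}
  have hupper : ∀ c, Module.finrank K (E c) ≤ Fintype.card (pr c) := by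
    intro c
    let L : E c →ₗ[K] (pr c → K) :=
      LinearMap.pi fun t => (b.coord t.1.1).comp
        ((LinearMap.applyₗ (b t.1.2)).comp (E c).subtype)
    refine (LinearMap.finrank_le_finrank_of_injective (f := L) fun X Y h => ?_).trans
      (le_of_eq (Module.finrank_fintype_fun_eq_card K))
    refine Subtype.ext (b.ext fun j => b.ext_elem fun i => ?_)
    by_cases hij : Lam i * (Lam j)⁻¹ = c
    · exact congrFun h ⟨(i, j), hij⟩
    have key : ∀ Z : E c, b.repr ((Z : Module.End K W) (b j)) i = 0 := by
      intro Z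
      have h1 := LinearMap.congr_fun ((hE c Z).1 Z.2) (b j)
      rw [LinearMap.smul_apply, Module.End.mul_apply, Module.End.mul_apply, hlam', map_smul,
        smul_smul] at h1
      have h2 : (b.coord i).comp s = lam i • b.coord i := b.ext fun m => by
        rw [LinearMap.comp_apply, hlam', LinearMap.smul_apply, map_smul]
        by_cases hm : m = i
        · rw [hm]
        · simp [hm]
      have h3 := congrArg (b.coord i) h1
      rw [← LinearMap.comp_apply, h2, LinearMap.smul_apply, map_smul, Module.Basis.coord_apply,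
        smul_eq_mul, smul_eq_mul] at h3
      by_contra hne
      refine hij (mul_inv_eq_iff_eq_mul.2 (Subtype.ext (Units.ext ?_)))
      show lam i = _ * lam j
      exact mul_right_cancel₀ hne h3
    rw [key X, key Y]
  -- lower bounds
  set s' := s ^ (P - 1) with hs'
  have hs's : s' * s = 1 := by rw [hs', ← pow_succ, Nat.sub_add_cancel (by omega), hsP]
  have hss' : s * s' = 1 := by rw [hs', ← pow_succ', Nat.sub_add_cancel (by omega), hsP]
  have hs'P : s' ^ P = 1 := by rw [hs', ← pow_mul, mul_comm, pow_mul, hsP, one_pow]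
  have hconj : ∀ (j : ℕ) i, ∃ C : K, C ≠ 0 ∧ s ^ j * B i * s' ^ j = C • B ((π ^ j) i) := by
    intro j
    induction j with
    | zero => intro i; exact ⟨1, one_ne_zero, by simp⟩
    | succ j ih =>
      intro i
      obtain ⟨C, hC, hCe⟩ := ih i
      obtain ⟨c, hc0, hce⟩ := hc ((π ^ j) i)
      refine ⟨C * c, mul_ne_zero hC hc0, ?_⟩
      rw [pow_succ' s, pow_succ s',
        show s * s ^ j * B i * (s' ^ j * s') = s * (s ^ j * B i * s' ^ j) * s' by
          simp only [mul_assoc],
        hCe, mul_smul_comm, smul_mul_assoc, hce, smul_mul_assoc, mul_assoc, hss', mul_one, smul_smul,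
        pow_succ', Equiv.Perm.mul_apply]
  let vec : rootsOfUnity P K → O → Module.End K W := fun c o =>
    ∑ j ∈ range P, ((((c : Kˣ) : K))⁻¹ ^ j) • (s ^ j * B o * s' ^ j)
  have hvecE : ∀ c o, vec c o ∈ E c := by
    intro c o
    rw [hE]
    set cc := ((c : Kˣ) : K) with hcc
    have hcc0 : cc ≠ 0 := Units.ne_zero _
    have hccP : cc ^ P = 1 := by
      rw [hcc, ← Units.val_pow_eq_pow_val, (mem_rootsOfUnity P (c : Kˣ)).1 c.2, Units.val_one]
    let g : ℕ → Module.End K W := fun j => (cc⁻¹ ^ j) • (s ^ j * B o * s' ^ j)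
    have hg : g P = g 0 := by simp [g, hsP, hs'P, hccP]
    have h1 : s * vec c o * s' = cc • ∑ j ∈ range P, g (j + 1) := by
      simp only [vec, mul_sum, sum_mul, smul_sum]
      refine sum_congr rfl fun j _ => ?_
      simp only [g]
      rw [mul_smul_comm, smul_mul_assoc, smul_smul, ← hcc, pow_succ' cc⁻¹ j, ← mul_assoc cc,
        mul_inv_cancel₀ hcc0, one_mul, pow_succ' s, pow_succ s']
      simp only [mul_assoc]
    have h2 : ∑ j ∈ range P, g (j + 1) = vec c o := by
      have h1 := sum_range_succ g P
      rw [sum_range_succ' g P, hg] at h1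
      exact add_right_cancel h1
    calc s * vec c o = s * vec c o * s' * s := by rw [mul_assoc _ s' s, hs's, mul_one]
      _ = _ := by rw [h1, h2, smul_mul_assoc]
  have hcoord : ∀ c (o o' : O), B.coord o' (vec c o) = if o = o' then 1 else 0 := by
    intro c o o'
    simp only [vec, map_sum, map_smul]
    rw [sum_eq_single 0]
    · simp [Finsupp.single_apply, Subtype.coe_inj]
    · intro j hj hj0
      obtain ⟨C, -, hC⟩ := hconj j o
      rw [hC, map_smul, Module.Basis.coord_apply, B.repr_self, Finsupp.single_eq_of_ne, smul_zero,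
        smul_zero]
      intro e
      exact hj0 (huniq o o.2 o' o'.2 j (mem_range.1 hj) e.symm).2
    · intro h; exact absurd (mem_range.2 (by omega)) h
  have hlower : ∀ c, N0 ≤ Module.finrank K (E c) := by
    intro c
    refine LinearIndependent.fintype_card_le_finrank
      (b := fun o => (⟨vec c o, hvecE c o⟩ : E c)) (Fintype.linearIndependent_iff.2 fun g hg o' => ?_)
    have h := congrArg (B.coord o') (congrArg (E c).subtype hg)
    simp only [map_sum, map_smul, map_zero, Submodule.coe_subtype, hcoord, smul_eq_mul, mul_ite,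
      mul_one, mul_zero, sum_ite_eq', mem_univ, if_true] at h
    exact h
  have hlower1 : N0 + 1 ≤ Module.finrank K (E 1) := by
    rw [hN0, ← Fintype.card_option]
    let vv : Option O → E 1 := fun o => o.elim
      ⟨1, (hE 1 1).2 (by simp)⟩ (fun o => ⟨vec 1 o, hvecE 1 o⟩)
    refine LinearIndependent.fintype_card_le_finrank (b := vv)
      (Fintype.linearIndependent_iff.2 fun g hg => ?_)
    have hg' : g none • B i0 + ∑ o, g (some o) • vec 1 o = 0 := by
      have := congrArg (E 1).subtype hg
      rw [Fintype.sum_option] at this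
      simpa [vv, hB0] using this
    have hsome : ∀ o', g (some o') = 0 := fun o' => by
      have h := congrArg (B.coord o') hg'
      rw [map_add, map_smul, Module.Basis.coord_apply, B.repr_self, Finsupp.single_eq_of_ne
        (fun e => hO0 (by rw [← e]; exact o'.2)), smul_zero, zero_add] at h
      simp only [map_sum, map_smul, map_zero, hcoord, smul_eq_mul, mul_ite,
        mul_one, mul_zero, sum_ite_eq', mem_univ, if_true] at h
      exact h
    intro o
    cases o with
    | none =>
      rw [sum_eq_zero fun o _ => by rw [hsome o, zero_smul], add_zero] at hg'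
      exact (smul_eq_zero.1 hg').resolve_right (B.ne_zero i0)
    | some o => exact hsome o
  -- the total
  set k := Module.finrank K W with hk
  have hιk : Fintype.card ι = k ^ 2 := by
    rw [← Module.finrank_eq_card_basis B, Module.finrank_linearMap, sq]
  have hJ := Module.finrank_eq_card_basis b
  rw [← hk] at hJ
  have hμ : Fintype.card (rootsOfUnity P K) = P := by
    rw [← Nat.card_eq_fintype_card, HasEnoughRootsOfUnity.natCard_rootsOfUnity]
  have htot : ∑ c, Fintype.card (pr c) = k * k := by
    rw [← Fintype.card_sigma, hJ, ← Fintype.card_prod]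
    exact Fintype.card_congr (Equiv.sigmaFiberEquiv _)
  have hpr : ∀ c, Fintype.card (pr c) = if c = 1 then N0 + 1 else N0 := by
    let low : rootsOfUnity P K → ℕ := fun c => if c = 1 then N0 + 1 else N0
    have hle : ∀ c ∈ (univ : Finset (rootsOfUnity P K)), low c ≤ Fintype.card (pr c) := by
      intro c _
      show (if c = 1 then N0 + 1 else N0) ≤ _
      split_ifs with h
      · subst h; exact hlower1.trans (hupper 1)
      · exact (hlower c).trans (hupper c)
    have hsum' : ∑ c, low c = ∑ c, Fintype.card (pr c) := by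
      rw [htot, ← sq, ← hιk, hcard, sum_congr rfl (g := fun c : rootsOfUnity P K =>
        N0 + if c = 1 then 1 else 0) fun c _ => by simp only [low]; split_ifs <;> rfl,
        sum_add_distrib, sum_const, card_univ, hμ, sum_ite_eq' univ (1 : rootsOfUnity P K)]
      simp
    exact fun c => ((sum_eq_sum_iff_of_le hle).1 hsum' c (mem_univ c)).symm
  let n : rootsOfUnity P K → ℕ := fun a => (univ.filter fun j => Lam j = a).card
  have hprn : ∀ c, Fintype.card (pr c) = ∑ a, n a * n (c * a) := by
    intro c
    rw [Fintype.card_subtype, card_filter, Fintype.sum_prod_type, sum_comm,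
      ← sum_fiberwise univ Lam]
    refine sum_congr rfl fun a _ => ?_
    rw [sum_congr rfl (g := fun _ => n (c * a)) fun j hj => ?_, sum_const, smul_eq_mul]
    rw [← card_filter]
    refine congrArg card (filter_congr fun i _ => ?_)
    show Lam i * (Lam j)⁻¹ = c ↔ _
    rw [mul_inv_eq_iff_eq_mul, (mem_filter.1 hj).2]
  have hn1 : n 1 = 0 := by
    refine card_eq_zero.2 (filter_eq_empty_iff.2 fun j _ e => hlam1 j ?_)
    rw [← hLam j, e]; rfl
  have hsq : ∑ a, n a * n a = N0 + 1 := by
    have := hprn 1
    rw [hpr, if_pos rfl] at this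
    simpa using this.symm
  have hn : ∀ a, n a * n a = n a := fun a => by
    have := autocorr_le_one n N0 hn1 (fun c hc => by rw [← hprn, hpr, if_neg hc]) hsq a
    interval_cases n a <;> rfl
  have hsumn : ∑ a, n a = k := by
    rw [hJ, ← card_univ]
    exact (card_eq_sum_card_fiberwise fun j _ => mem_univ (Lam j)).symm
  have hkN : k = N0 + 1 := by rw [← hsumn, ← hsq, sum_congr rfl fun a _ => hn a]
  refine ⟨k, hιk, ?_⟩
  rw [hιk, hkN] at hcard
  rw [hιk, hkN] at hι
  have hN0pos : 0 < N0 := by
    rcases Nat.eq_zero_or_pos N0 with h | h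
    · rw [h] at hι; simp at hι
    · exact h
  have : N0 * (N0 + 2) = N0 * P := by nlinarith
  have := Nat.eq_of_mul_eq_mul_left hN0pos this
  omega

end CfsgLib.Core.ShultGross
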