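import Mathlib
import Cfsg.Agent.Lib.CoreShultGrossLin
import Cfsg.Agent.Lib.CoreShultGrossCount

/-!
# The twisted group algebra step of the Shult–Gross theorem

`Q` acts on `U` with a normal subgroup `N` of scalars and nondegenerate commutator pairing
modulo `N`; a linear map `SU` normalising the action, permuting `Q ⧸ N` freely away from the
identity and with vanishing sum of powers, forces `|Q ⧸ N| = (P - 1)²`.
-/

set_option autoImplicit false

open Finset

namespace CfsgLib.Core.ShultGross

universe u v w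

/-- An invertible endomorphism conjugating as a given automorphism of a simple algebra. -/
theorem exists_inner {K : Type u} [Field K] [IsAlgClosed K] {A : Type v} [Ring A] [Algebra K A]
    [IsSimpleRing A] [FiniteDimensional K A] (φ : A ≃ₐ[K] A) :
    ∃ (k : ℕ) (eR : A ≃ₐ[K] Module.End K (Fin k → K)) (s si : A), s * si = 1 ∧ si * s = 1 ∧
      ∀ a, φ a * s = s * a := by
  obtain ⟨k, -, ⟨f⟩⟩ := IsSimpleRing.exists_algEquiv_matrix_of_isAlgClosed K A
  let eR : A ≃ₐ[K] Module.End K (Fin k → K) := f.trans Matrix.toLinAlgEquiv'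
  obtain ⟨T, hT⟩ := (eR.symm.trans (φ.trans eR)).eq_linearEquivConjAlgEquiv
  refine ⟨k, eR, eR.symm T.toLinearMap, eR.symm T.symm.toLinearMap, ?_, ?_, fun a => ?_⟩
  · rw [← map_mul, ← map_one eR.symm]
    exact congrArg _ (LinearMap.ext fun z => T.apply_symm_apply z)
  · rw [← map_mul, ← map_one eR.symm]
    exact congrArg _ (LinearMap.ext fun z => T.symm_apply_apply z)
  · apply eR.injective
    rw [map_mul, map_mul, eR.apply_symm_apply]
    have h := DFunLike.congr_fun hT (eR a)
    simp only [AlgEquiv.trans_apply, AlgEquiv.symm_apply_apply] at h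
    rw [h]
    refine LinearMap.ext fun z => ?_
    simp [LinearEquiv.conjAlgEquiv_apply]

/-- Orthogonality for a nontrivial character of a finite group. -/
theorem sum_char_eq_zero {K : Type u} [Field K] {Q : Type w} [Group Q] [Fintype Q] (f : Q → K)
    (hf : ∀ x y, f (x * y) = f x * f y) {y0 : Q} (h0 : f y0 ≠ 1) : ∑ y, f y = 0 := by
  have h : f y0 * ∑ y, f y = ∑ y, f y := by
    rw [mul_sum]
    exact Fintype.sum_equiv (Equiv.mulLeft y0) _ _ fun y => (hf y0 y).symm
  have h' : (f y0 - 1) * ∑ y, f y = 0 := by rw [sub_mul, one_mul, h, sub_self]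
  exact (mul_eq_zero.1 h').resolve_left (sub_ne_zero.2 h0)

/-- The counting for a normalised twisted group algebra. -/
theorem twisted_counting {K : Type u} [Field K] [IsAlgClosed K] {U : Type v} [AddCommGroup U]
    [Module K U] [FiniteDimensional K U] [Nontrivial U] {Q : Type w} [Group Q] [Finite Q]
    (hQK : (Nat.card Q : K) ≠ 0) (N : Subgroup Q) [N.Normal] (hN : N ≠ ⊤)
    (r : Q →* Module.End K U) (ψ : Q → K) (hψ : ∀ x ∈ N, r x = ψ x • 1) (ω : Q → Q → K)
    (hω : ∀ y x, r y * r x = ω y x • (r x * r y)) (hNω : ∀ x, x ∈ N ↔ ∀ y, ω y x = 1)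
    (SU : Module.End K U) (θ : MulAut Q) (hθN : ∀ x, θ x ∈ N ↔ x ∈ N)
    (hS : ∀ x, SU * r x = r (θ x) * SU) {P : ℕ} (hP1 : 1 < P) (hPK : (P : K) ≠ 0)
    (hSP : SU ^ P = 1) (hsum : ∑ l ∈ range P, SU ^ l = 0)
    (hθP : ∀ x, x⁻¹ * (θ ^ P) x ∈ N)
    (hfree : ∀ x, ∀ j, 0 < j → j < P → x⁻¹ * (θ ^ j) x ∈ N → x ∈ N) :
    ∃ k : ℕ, N.index = k ^ 2 ∧ k + 1 = P := by
  classical
  haveI := Fintype.ofFinite Q
  haveI := Fintype.ofFinite (Q ⧸ N)
  have hrinv : ∀ x, r x * r x⁻¹ = 1 := fun x => by rw [← map_mul, mul_inv_cancel, map_one]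
  have hrinv' : ∀ x, r x⁻¹ * r x = 1 := fun x => by rw [← map_mul, inv_mul_cancel, map_one]
  have hrne : ∀ x, r x ≠ 0 := fun x e => by
    have := hrinv x; rw [e, zero_mul] at this; exact zero_ne_one this
  -- properties of the pairing
  have hcancel : ∀ (x : Q) (a b : K), a • r x = b • r x → a = b := fun x a b h => by
    have h' : (a - b) • r x = 0 := by rw [sub_smul, h, sub_self]
    exact sub_eq_zero.1 ((smul_eq_zero.1 h').resolve_right (hrne x))
  have hω' : ∀ y x, r y * r x * r y⁻¹ = ω y x • r x := fun y x => by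
    rw [hω, smul_mul_assoc, mul_assoc, hrinv, mul_one]
  have hωl : ∀ y y' x, ω (y * y') x = ω y x * ω y' x := fun y y' x => by
    refine hcancel x _ _ ?_
    rw [← hω', map_mul, mul_inv_rev, map_mul,
      show r y * r y' * r x * (r y'⁻¹ * r y⁻¹) = r y * (r y' * r x * r y'⁻¹) * r y⁻¹ by
        simp only [mul_assoc], hω', mul_smul_comm, smul_mul_assoc, hω', smul_smul, mul_comm]
  have hωr : ∀ y x x', ω y (x * x') = ω y x * ω y x' := fun y x x' => by
    refine hcancel (x * x') _ _ ?_
    rw [← hω', map_mul,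
      show r y * (r x * r x') * r y⁻¹ = (r y * r x * r y⁻¹) * (r y * r x' * r y⁻¹) by
        rw [show r y * r x * r y⁻¹ * (r y * r x' * r y⁻¹) =
          r y * r x * (r y⁻¹ * r y) * r x' * r y⁻¹ by simp only [mul_assoc], hrinv', mul_one]
        simp only [mul_assoc],
      hω', hω', smul_mul_smul_comm]
  have hω0 : ∀ y x, ω y x ≠ 0 := fun y x e => by
    have h := hω' y x
    rw [e, zero_smul] at h
    have : r x = 0 := by
      rw [show r x = r y⁻¹ * (r y * r x * r y⁻¹) * r y by
        simp only [← mul_assoc]; rw [hrinv', one_mul, mul_assoc, hrinv', mul_one], h, mul_zero, zero_mul]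
    exact hrne x this
  -- representatives
  let g : Q ⧸ N → Q := fun w => if w = 1 then 1 else Quotient.out w
  have hg : ∀ w, (QuotientGroup.mk (g w) : Q ⧸ N) = w := fun w => by
    simp only [g]
    split_ifs with h
    · rw [h]; rfl
    · exact Quotient.out_eq w
  have hdec : ∀ x, r x = ψ ((g (x : Q ⧸ N))⁻¹ * x) • r (g (x : Q ⧸ N)) := fun x => by
    conv_lhs => rw [show x = g (x : Q ⧸ N) * ((g (x : Q ⧸ N))⁻¹ * x) by rw [mul_inv_cancel_left]]
    rw [map_mul, hψ _ (QuotientGroup.eq.1 (hg (x : Q ⧸ N))), mul_smul_comm, mul_one]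
  have hωdist : ∀ w w', w ≠ w' → ∃ y, ω y (g w) ≠ ω y (g w') := by
    intro w w' hne
    by_contra hcon
    push Not at hcon
    refine hne ?_
    rw [← hg w, ← hg w', QuotientGroup.eq, hNω]
    intro y
    have h := hωr y (g w) ((g w)⁻¹ * g w')
    rw [mul_inv_cancel_left, ← hcon y] at h
    exact (mul_eq_left₀ (hω0 _ _)).1 h.symm
  -- independence
  have hli : LinearIndependent K fun w => r (g w) := by
    refine Fintype.linearIndependent_iff.2 fun c hc w => ?_
    have h := eigen_eq_zero
      (fun y => (LinearMap.mulLeft K (r y)).comp (LinearMap.mulRight K (r y⁻¹)))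
      (fun w y => ω y (g w)) univ (fun w => c w • r (g w))
      (fun w _ y => by
        simp only [LinearMap.comp_apply, LinearMap.mulLeft_apply, LinearMap.mulRight_apply,
          smul_mul_assoc, mul_smul_comm]
        rw [← mul_assoc, hω', smul_comm])
      (fun w _ w' _ hne => by
        obtain ⟨y, hy⟩ := hωdist w w' hne
        exact fun e => hy (congrFun e y))
      hc w (mem_univ w)
    exact (smul_eq_zero.1 h).resolve_right (hrne _)
  set R : Subalgebra K (Module.End K U) := Algebra.adjoin K (Set.range r) with hR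
  have hRspan : Subalgebra.toSubmodule R = Submodule.span K (Set.range fun w => r (g w)) := by
    rw [hR, Algebra.adjoin_eq_span, show (Set.range r) = (MonoidHom.mrange r : Set _) from
      (MonoidHom.coe_mrange r).symm, Submonoid.closure_eq, MonoidHom.coe_mrange]
    refine le_antisymm (Submodule.span_le.2 ?_) (Submodule.span_mono ?_)
    · rintro _ ⟨x, rfl⟩
      rw [SetLike.mem_coe, hdec x]
      exact Submodule.smul_mem _ _ (Submodule.subset_span ⟨_, rfl⟩)
    · rintro _ ⟨w, rfl⟩; exact ⟨_, rfl⟩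
  have hrR : ∀ x, r x ∈ R := fun x => Algebra.subset_adjoin ⟨x, rfl⟩
  let BR : Module.Basis (Q ⧸ N) K R :=
    (Module.Basis.span hli).map ((LinearEquiv.ofEq _ _ hRspan.symm).trans (Subalgebra.toSubmoduleEquiv R))
  have hBR : ∀ w, (BR w : Module.End K U) = r (g w) := fun w =>
    congrArg Subtype.val (Module.Basis.span_apply hli w)
  -- averaging
  have havg : ∀ (a : R) w0, (Nat.card Q : K) • BR.repr a w0 • r (g w0) =
      ∑ y, (ω y (g w0))⁻¹ • (r y * (a : Module.End K U) * r y⁻¹) := by
    intro a w0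
    have ha : (a : Module.End K U) = ∑ w, BR.repr a w • r (g w) := by
      conv_lhs => rw [← BR.sum_repr a]
      rw [AddSubmonoidClass.coe_finset_sum]
      simp only [Subalgebra.coe_smul, hBR]
    simp only [ha, mul_sum, sum_mul, smul_sum, mul_smul_comm, smul_mul_assoc, hω', smul_smul]
    rw [sum_comm, sum_eq_single w0]
    · rw [sum_congr rfl (g := fun _ => BR.repr a w0 • r (g w0)) fun y _ => by
        rw [mul_comm (BR.repr a w0), ← mul_assoc, inv_mul_cancel₀ (hω0 _ _), one_mul],
        sum_const, card_univ, ← Nat.card_eq_fintype_card, ← Nat.cast_smul_eq_nsmul K, smul_smul]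
    · intro w _ hne
      rw [← sum_smul]
      obtain ⟨y0, hy0⟩ := hωdist w w0 hne
      rw [show ∑ y, (ω y (g w0))⁻¹ * (BR.repr a w * ω y (g w)) =
          BR.repr a w * ∑ y, (ω y (g w0))⁻¹ * ω y (g w) by
        rw [mul_sum]; exact sum_congr rfl fun y _ => by ring,
        sum_char_eq_zero (fun y => (ω y (g w0))⁻¹ * ω y (g w)) (fun y y' => by
          simp only [hωl, mul_inv]; ring) (y0 := y0) (fun e => hy0 (eq_of_inv_mul_eq_one e).symm),
        mul_zero, zero_smul]
    · intro h; exact absurd (mem_univ _) h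
  -- simplicity
  haveI : IsSimpleRing R := by
    refine IsSimpleRing.of_eq_bot_or_eq_top fun I => ?_
    by_cases hI : I = ⊥
    · exact Or.inl hI
    refine Or.inr ?_
    obtain ⟨a, haI, ha0⟩ : ∃ a ∈ I, a ≠ (0 : R) := by
      by_contra hcon
      push Not at hcon
      refine hI (le_antisymm (fun a ha => ?_) bot_le)
      rw [hcon a ha]
      exact zero_mem _
    obtain ⟨w0, hw0⟩ : ∃ w, BR.repr a w ≠ 0 := by
      by_contra hcon
      push Not at hcon
      exact ha0 (BR.repr.map_eq_zero_iff.1 (Finsupp.ext fun w => hcon w))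
    have hmem : ∑ y, algebraMap K R ((ω y (g w0))⁻¹) *
        ((⟨r y, hrR y⟩ : R) * a * (⟨r y⁻¹, hrR _⟩ : R)) ∈ I :=
      sum_mem fun y _ => I.mul_mem_left _ _ (I.mul_mem_right _ _ (I.mul_mem_left _ _ haI))
    have heq : ∑ y, algebraMap K R ((ω y (g w0))⁻¹) *
        ((⟨r y, hrR y⟩ : R) * a * (⟨r y⁻¹, hrR _⟩ : R)) =
        algebraMap K R ((Nat.card Q : K) * BR.repr a w0) * BR w0 := by
      apply Subtype.ext
      simp only [← Algebra.smul_def, AddSubmonoidClass.coe_finset_sum, Subalgebra.coe_smul,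
        Subalgebra.coe_mul, mul_smul, hBR]
      exact (havg a w0).symm
    rw [heq] at hmem
    rw [eq_top_iff]
    intro z _
    have hz : z = (z * (⟨r (g w0)⁻¹, hrR _⟩ : R) *
        algebraMap K R ((Nat.card Q : K) * BR.repr a w0)⁻¹) *
        (algebraMap K R ((Nat.card Q : K) * BR.repr a w0) * BR w0) := by
      rw [mul_assoc, ← mul_assoc (algebraMap K R _) (algebraMap K R _), ← map_mul,
        inv_mul_cancel₀ (mul_ne_zero hQK hw0), map_one, one_mul, mul_assoc,
        show (⟨r (g w0)⁻¹, hrR _⟩ : R) * BR w0 = 1 from Subtype.ext (by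
          simp [hBR, hrinv']), mul_one]
    rw [hz]
    exact I.mul_mem_left _ _ hmem
  -- the automorphism
  set SU' := SU ^ (P - 1) with hSU'
  have hS's : SU' * SU = 1 := by rw [hSU', ← pow_succ, Nat.sub_add_cancel (by omega), hSP]
  have hSs' : SU * SU' = 1 := by rw [hSU', ← pow_succ', Nat.sub_add_cancel (by omega), hSP]
  let eU : U ≃ₗ[K] U := LinearEquiv.ofLinearMap SU SU' hSs' hS's
  have heU : ∀ a : Module.End K U, eU.conjAlgEquiv K a = SU * a * SU' := fun a => by
    rw [mul_assoc]; exact LinearMap.ext fun z => rfl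
  have hmap : R.map (eU.conjAlgEquiv K).toAlgHom = R := by
    rw [hR, AlgHom.map_adjoin]
    congr 1
    have hconj : ∀ x, eU.conjAlgEquiv K (r x) = r (θ x) := fun x => by
      rw [heU, hS, mul_assoc, hSs', mul_one]
    ext a
    constructor
    · rintro ⟨_, ⟨x, rfl⟩, rfl⟩; exact ⟨θ x, (hconj x).symm⟩
    · rintro ⟨x, rfl⟩
      refine ⟨r (θ⁻¹ x), ⟨_, rfl⟩, ?_⟩
      show eU.conjAlgEquiv K (r (θ⁻¹ x)) = r x
      rw [hconj, ← MulAut.mul_apply, mul_inv_cancel, MulAut.one_apply]
  let φ : R ≃ₐ[K] R :=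
    ((eU.conjAlgEquiv K).subalgebraMap R).trans (Subalgebra.equivOfEq _ _ hmap)
  have hφ : ∀ a : R, (φ a : Module.End K U) = SU * a * SU' := fun a => heU a
  obtain ⟨k, eR, sR, siR, hss, hsis, hinner⟩ := exists_inner φ
  set s0 : Module.End K U := (sR : Module.End K U) with hs0
  set si0 : Module.End K U := (siR : Module.End K U) with hsi0
  have hss0 : s0 * si0 = 1 := congrArg Subtype.val hss
  have hsis0 : si0 * s0 = 1 := congrArg Subtype.val hsis
  have hφs : φ sR = sR := by
    have h := hinner sR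
    calc φ sR = φ sR * sR * siR := by rw [mul_assoc, hss, mul_one]
      _ = sR := by rw [h, mul_assoc, hss, mul_one]
  have hSs : SU * s0 = s0 * SU := by
    have h : SU * s0 * SU' = s0 := (hφ sR).symm.trans (congrArg Subtype.val hφs)
    calc SU * s0 = SU * s0 * SU' * SU := by rw [mul_assoc _ SU' SU, hS's, mul_one]
      _ = _ := by rw [h]
  set t := si0 * SU with ht
  have htS : SU * t = t * SU := by
    have : SU * si0 = si0 * SU := by
      calc SU * si0 = si0 * (s0 * SU) * si0 := by rw [← mul_assoc si0, hsis0, one_mul]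
        _ = si0 * (SU * s0) * si0 := by rw [hSs]
        _ = si0 * SU := by rw [mul_assoc, mul_assoc, hss0, mul_one]
    rw [ht, ← mul_assoc, this]
  have htR : ∀ a : R, t * (a : Module.End K U) = (a : Module.End K U) * t := by
    intro a
    have h1 : (φ a : Module.End K U) * s0 = s0 * a := congrArg Subtype.val (hinner a)
    calc t * (a : Module.End K U) = si0 * (SU * a * SU') * SU := by
          rw [ht, mul_assoc si0 (SU * _ * SU'), mul_assoc (SU * _) SU', hS's, mul_one, mul_assoc]
      _ = si0 * (φ a : Module.End K U) * (s0 * si0) * SU := by rw [hφ, hss0, mul_one]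
      _ = si0 * ((φ a : Module.End K U) * s0) * si0 * SU := by simp only [mul_assoc]
      _ = (a : Module.End K U) * t := by
        rw [h1, ← mul_assoc, hsis0, one_mul, ht, mul_assoc]
  obtain ⟨lam, hlam⟩ := Module.End.exists_eigenvalue t
  set M := Module.End.eigenspace t lam with hM
  have hM0 : M ≠ ⊥ := hlam
  have hMR : ∀ (a : R), ∀ z ∈ M, (a : Module.End K U) z ∈ M := fun a z hz => by
    rw [hM, Module.End.mem_eigenspace_iff] at hz ⊢
    rw [← Module.End.mul_apply, htR, Module.End.mul_apply, hz, map_smul]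
  have hMS : ∀ z ∈ M, SU z ∈ M := fun z hz => by
    rw [hM, Module.End.mem_eigenspace_iff] at hz ⊢
    rw [← Module.End.mul_apply, ← htS, Module.End.mul_apply, hz, map_smul]
  have hann : ∀ a : R, (∀ z ∈ M, (a : Module.End K U) z = 0) → a = 0 := by
    intro a ha
    refine BR.repr.map_eq_zero_iff.1 (Finsupp.ext fun w0 => ?_)
    obtain ⟨z, hz, hz0⟩ := Submodule.exists_mem_ne_zero_of_ne_bot hM0
    have h := LinearMap.congr_fun (havg a w0) z
    rw [LinearMap.sum_apply, sum_eq_zero fun y _ => by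
      rw [LinearMap.smul_apply, Module.End.mul_apply, Module.End.mul_apply,
        ha _ (hMR ⟨_, hrR y⁻¹⟩ z hz), map_zero, smul_zero],
      LinearMap.smul_apply, LinearMap.smul_apply] at h
    have hz' : r (g w0) z ≠ 0 := fun e => hz0 (by
      rw [show z = (1 : Module.End K U) z from rfl, ← hrinv' (g w0), Module.End.mul_apply, e, map_zero])
    rcases smul_eq_zero.1 h with h1 | h1
    · exact absurd h1 hQK
    · exact (smul_eq_zero.1 h1).resolve_right hz'
  have hSM : ∀ z ∈ M, SU z = ((lam • sR : R) : Module.End K U) z := fun z hz => by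
    have hz' := Module.End.mem_eigenspace_iff.1 hz
    rw [Subalgebra.coe_smul, LinearMap.smul_apply, ← map_smul, ← hz', ← Module.End.mul_apply,
      ht, ← mul_assoc, hss0, one_mul]
  have hpowM : ∀ (l : ℕ), ∀ z ∈ M, (((lam • sR) ^ l : R) : Module.End K U) z = (SU ^ l) z := by
    intro l
    induction l with
    | zero => intro z _; rfl
    | succ l ih =>
      intro z hz
      rw [pow_succ, pow_succ, Subalgebra.coe_mul, Module.End.mul_apply, Module.End.mul_apply,
        ← hSM z hz, ih _ (hMS z hz)]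
  have hlam0 : lam ≠ 0 := fun e => by
    obtain ⟨z, hz, hz0⟩ := Submodule.exists_mem_ne_zero_of_ne_bot hM0
    have h := hSM z hz
    rw [e, zero_smul] at h
    refine hz0 ?_
    rw [show z = (1 : Module.End K U) z from rfl, ← hS's, Module.End.mul_apply, h]
    simp
  have hsP : (lam • sR) ^ P = 1 := sub_eq_zero.1 (hann _ fun z hz => by
    rw [Subalgebra.coe_sub, LinearMap.sub_apply, hpowM P z hz, hSP]
    simp)
  have hs0' : ∑ l ∈ range P, (lam • sR) ^ l = 0 := hann _ fun z hz => by
    rw [AddSubmonoidClass.coe_finset_sum, LinearMap.sum_apply,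
      sum_congr rfl fun l _ => hpowM l z hz, ← LinearMap.sum_apply, hsum]
    rfl
  -- the permutation
  let π : Equiv.Perm (Q ⧸ N) := (QuotientGroup.congr N N θ (by
    ext x
    constructor
    · rintro ⟨y, hy, rfl⟩; exact (hθN y).2 hy
    · intro hx
      exact ⟨θ⁻¹ x, (hθN _).1 (by rwa [← MulAut.mul_apply, mul_inv_cancel, MulAut.one_apply]),
        by show θ (θ⁻¹ x) = x; rw [← MulAut.mul_apply, mul_inv_cancel, MulAut.one_apply]⟩)).toEquiv
  have hπj : ∀ (j : ℕ) (x : Q), (π ^ j) (x : Q ⧸ N) = ((θ ^ j) x : Q) := by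
    intro j
    induction j with
    | zero => intro x; rfl
    | succ j ih => intro x; rw [pow_succ', pow_succ', Equiv.Perm.mul_apply, ih]; rfl
  obtain ⟨k', hk', hkP⟩ := counting (BR.map eR.toLinearEquiv) (1 : Q ⧸ N)
    (by
      rw [Module.Basis.map_apply]
      show eR (BR 1) = 1
      rw [show BR 1 = 1 from Subtype.ext (by rw [hBR]; simp [g]), map_one])
    π hP1
    (Equiv.ext fun w => by
      obtain ⟨x, rfl⟩ := QuotientGroup.mk_surjective w
      rw [hπj, Equiv.Perm.one_apply]
      exact (QuotientGroup.eq.2 (hθP x)).symm)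
    (by rw [← pow_one π, ← QuotientGroup.mk_one, hπj, map_one])
    (fun w hw j hj0 hjP => by
      obtain ⟨x, rfl⟩ := QuotientGroup.mk_surjective w
      rw [hπj]
      exact fun e => hw ((QuotientGroup.eq_one_iff x).2
        (hfree x j hj0 hjP (QuotientGroup.eq.1 e.symm))))
    hPK (eR (lam • sR)) (by rw [← map_pow, hsP, map_one])
    (by rw [← map_zero eR, ← hs0', map_sum]; simp only [map_pow])
    (fun w => by
      have hπw : π w = ((θ (g w) : Q) : Q ⧸ N) := by
        conv_lhs => rw [← hg w, ← pow_one π]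
        rw [hπj, pow_one]
      refine ⟨ψ ((g (π w))⁻¹ * θ (g w)), fun e => ?_, ?_⟩
      · have := hdec (θ (g w))
        rw [← hπw, e, zero_smul] at this
        exact hrne _ this
      · have hφw : φ (BR w) = ψ ((g (π w))⁻¹ * θ (g w)) • BR (π w) := Subtype.ext (by
          rw [hφ, Subalgebra.coe_smul, hBR, hBR, hS, mul_assoc, hSs', mul_one, hdec (θ (g w)), ← hπw])
        simp only [Module.Basis.map_apply]
        show eR (lam • sR) * eR (BR w) = _ • (eR (BR (π w)) * eR (lam • sR))
        rw [← map_mul, ← map_mul, ← map_smul eR, smul_mul_assoc, ← hinner, hφw]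
        rw [smul_mul_assoc, mul_smul_comm, smul_comm])
    (by
      rw [← Nat.card_eq_fintype_card]
      exact Subgroup.one_lt_index_of_ne_top hN)
  exact ⟨k', by rw [← hk', ← Nat.card_eq_fintype_card]; rfl, hkP⟩

end CfsgLib.Core.ShultGross
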