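import Cfsg.Agent.Lib.CoreThompsonFpf
import Cfsg.Agent.Lib.CoreGen

/-!
# Fixed-point-free four-groups in all characteristics: the decomposition of a module

Tools for an elementary abelian group `A` of order `p²` acting with trivial fixed points:
fixed points in invariant sets, generation by fixed points, and the key lemma that a coprime
group commuting with some `a ∈ A` centralises the relevant layer.
-/

set_option autoImplicit false

namespace CfsgLib.Core.Ward

open scoped Pointwise IsMulCommutative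
open Subgroup

universe u v w

/-- A `p`-group has a fixed point on an invariant set of size prime to `p`. -/
theorem exists_fixed {G : Type u} [Group G] [Finite G] {B : Type v} [Group B] [Finite B] {p : ℕ}
    [Fact p.Prime] (hB : IsPGroup p B) (act : B →* MulAut G) (T : Set G)
    (hT : ∀ b, ∀ g ∈ T, act b g ∈ T) (hc : ¬ p ∣ Nat.card T) :
    ∃ g ∈ T, ∀ b, act b g = g := by
  letI : MulAction B T :=
    { smul := fun b t => ⟨act b t.1, hT b t.1 t.2⟩
      one_smul := fun t => Subtype.ext (by show act 1 t.1 = t.1; rw [map_one]; rfl)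
      mul_smul := fun b b' t => Subtype.ext (by
        show act (b * b') t.1 = act b (act b' t.1); rw [map_mul]; rfl) }
  obtain ⟨t, ht⟩ := hB.nonempty_fixed_point_of_prime_not_dvd_card T hc
  exact ⟨t.1, t.2, fun b => congrArg Subtype.val (ht b)⟩

/-- Fixed cosets of an invariant subgroup of order prime to `p` contain fixed elements. -/
theorem exists_fixed_mod {G : Type u} [Group G] [Finite G] {B : Type v} [Group B] [Finite B]
    {p : ℕ} [Fact p.Prime] (hB : IsPGroup p B) (act : B →* MulAut G) (N : Subgroup G)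
    (hN : ∀ b, ∀ n ∈ N, act b n ∈ N) (hc : ¬ p ∣ Nat.card N) {x : G}
    (hx : ∀ b, x⁻¹ * act b x ∈ N) : ∃ g, x⁻¹ * g ∈ N ∧ ∀ b, act b g = g := by
  refine exists_fixed hB act {g | x⁻¹ * g ∈ N} (fun b g hg => ?_) ?_
  · show x⁻¹ * act b g ∈ N
    have h := mul_mem (hx b) (hN b _ hg)
    rwa [map_mul, map_inv, show x⁻¹ * act b x * ((act b x)⁻¹ * act b g) = x⁻¹ * act b g by group] at h
  · rwa [show Nat.card {g : G | x⁻¹ * g ∈ N} = Nat.card N from
      Nat.card_congr ((Equiv.mulLeft x⁻¹).subtypeEquiv fun g => Iff.rfl)]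

/-- Elementary facts on groups of order `p²` and exponent `p`. -/
theorem isPGroup_of_exp {A : Type v} [CommGroup A] {p : ℕ} (hexp : ∀ a : A, a ^ p = 1) :
    IsPGroup p A := fun a => ⟨1, by rw [pow_one]; exact hexp a⟩

/-- Two independent elements generate. -/
theorem exists_eq_mul_pow {A : Type v} [CommGroup A] [Finite A] {p : ℕ} [hp : Fact p.Prime]
    (hexp : ∀ a : A, a ^ p = 1) (hcard : Nat.card A = p ^ 2) {c d : A} (hc : c ≠ 1)
    (hd : d ∉ zpowers c) (x : A) : ∃ i j : ℕ, x = c ^ i * d ^ j := by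
  have hoc : orderOf c = p := orderOf_eq_prime (hexp c) hc
  have htop : zpowers c ⊔ zpowers d = ⊤ := by
    apply eq_top_of_card_eq
    have hlt : zpowers c < zpowers c ⊔ zpowers d :=
      lt_of_le_of_ne le_sup_left fun e => hd (e.ge (mem_sup_right (mem_zpowers d)))
    have h1 := card_le_of_le hlt.le
    have h2 : Nat.card (zpowers c ⊔ zpowers d : Subgroup A) ∣ p ^ 2 :=
      hcard ▸ card_subgroup_dvd_card _
    obtain ⟨k, hk, hk'⟩ := (Nat.dvd_prime_pow hp.out).1 h2
    have hne : Nat.card (zpowers c ⊔ zpowers d : Subgroup A) ≠ p := fun e =>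
      hlt.ne (eq_of_le_of_card_ge hlt.le (by rw [e, Nat.card_zpowers, hoc]))
    rw [Nat.card_zpowers, hoc, hk'] at h1
    rw [hk'] at hne
    rw [hk', hcard]
    rcases (show k = 0 ∨ k = 1 ∨ k = 2 by omega) with rfl | rfl | rfl
    · simp at h1; have := hp.out.one_lt; omega
    · simp at hne
    · rfl
  have hx : x ∈ zpowers c ⊔ zpowers d := htop ▸ mem_top x
  obtain ⟨y, hy, z, hz, rfl⟩ := mem_sup.1 hx
  obtain ⟨i, rfl⟩ := mem_zpowers_nat hy
  obtain ⟨j, rfl⟩ := mem_zpowers_nat hz
  exact ⟨i, j, rfl⟩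

theorem exists_notMem_zpowers {A : Type v} [CommGroup A] [Finite A] {p : ℕ} [hp : Fact p.Prime]
    (hexp : ∀ a : A, a ^ p = 1) (hcard : Nat.card A = p ^ 2) (c : A) : ∃ d : A, d ∉ zpowers c := by
  by_contra h
  push Not at h
  have h1 : Nat.card (zpowers c) = p ^ 2 := by
    rw [(eq_top_iff.2 (fun x _ => h x) : zpowers c = ⊤), card_top, hcard]
  have h2 := Nat.le_of_dvd hp.out.pos (orderOf_dvd_of_pow_eq_one (hexp c))
  rw [Nat.card_zpowers] at h1
  rw [h1, pow_two] at h2
  have := hp.out.one_lt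
  nlinarith

/-- Generation of a nilpotent group by fixed points. -/
theorem closure_fixed_eq_top {A : Type v} [CommGroup A] [Finite A] {p : ℕ} [hp : Fact p.Prime]
    (hexp : ∀ a : A, a ^ p = 1) (hcard : Nat.card A = p ^ 2) :
    ∀ (n : ℕ) (W : Type u) [Group W] [Finite W] [Group.IsNilpotent W], Nat.card W ≤ n →
      ¬ p ∣ Nat.card W → ∀ θ : A →* MulAut W,
        closure {w : W | ∃ b : A, b ≠ 1 ∧ θ b w = w} = ⊤ := by
  intro n
  induction n with
  | zero => intro W _ _ _ h; exact absurd h (by simp [Nat.card_pos.ne'])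
  | succ n ih =>
    intro W _ _ _ hn hpW θ
    rcases subsingleton_or_nontrivial W with hW | hW
    · exact Subsingleton.elim _ _
    set Z := center W with hZ
    haveI hZne : Nontrivial Z :=
      (nontrivial_iff_ne_bot _).2 (Group.IsNilpotent.center_ne_bot W)
    have hZinv : ∀ b, Z.map (θ b).toMonoidHom = Z := fun b =>
      map_characteristic (θ b) inferInstance
    let θQ : A →* MulAut (W ⧸ Z) :=
      { toFun := fun b => QuotientGroup.congr Z Z (θ b) (hZinv b)
        map_one' := MulEquiv.ext fun y => by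
          obtain ⟨x, rfl⟩ := QuotientGroup.mk_surjective y
          show ((θ 1 x : W) : W ⧸ Z) = _
          rw [map_one]; rfl
        map_mul' := fun a b => MulEquiv.ext fun y => by
          obtain ⟨x, rfl⟩ := QuotientGroup.mk_surjective y
          show ((θ (a * b) x : W) : W ⧸ Z) = _
          rw [map_mul]; rfl }
    have hlt : Nat.card (W ⧸ Z) < Nat.card W := card_quotient_lt fun e =>
      not_subsingleton Z (e.symm ▸ inferInstance)
    set H := closure {w : W | ∃ b : A, b ≠ 1 ∧ θ b w = w} with hH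
    have hfix : ∀ b : A, b ≠ 1 → ∀ w, θ b w = w → w ∈ H := fun b hb w hw =>
      subset_closure ⟨b, hb, hw⟩
    -- the centre
    have hZH : Z ≤ H := by
      obtain ⟨d, hd⟩ := exists_notMem_zpowers hexp hcard (1 : A)
      obtain ⟨e, he⟩ := exists_notMem_zpowers hexp hcard d
      have hd1 : d ≠ 1 := fun h => hd (by rw [h]; exact one_mem _)
      intro z hz
      let σ : A → Monoid.End Z := fun b =>
        { toFun := fun y => ⟨θ b y, (hZinv b).le (mem_map_of_mem _ y.2)⟩
          map_one' := Subtype.ext (map_one (θ b))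
          map_mul' := fun y y' => Subtype.ext (map_mul (θ b) _ _) }
      have hmul : ∀ b b', σ (b * b') = σ b * σ b' := fun b b' => MonoidHom.ext fun y => Subtype.ext (by
        show θ (b * b') y = θ b (θ b' y); rw [map_mul]; rfl)
      have hone : σ 1 = 1 := MonoidHom.ext fun y => Subtype.ext (by
        show θ 1 y = y; rw [map_one]; rfl)
      have hpow : ∀ b (i : ℕ), σ b ^ i = σ (b ^ i) := fun b i => by
        induction i with
        | zero => rw [pow_zero, pow_zero, hone]
        | succ i ihi => rw [pow_succ, pow_succ, hmul, ihi]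
      have hmem : (⟨z, hz⟩ : Z) ^ p ∈ H.subgroupOf Z := by
        refine pow_prime_mem_fixed (σ := σ e) (τ := σ d) ?_ ?_ ?_ _ ?_ ?_ _
        · show σ e * σ d = σ d * σ e
          rw [← hmul, ← hmul, mul_comm]
        · rw [hpow, hexp, hone]
        · rw [hpow, hexp, hone]
        · intro i y hy
          rw [hpow, ← hmul] at hy
          refine hfix (e * d ^ i) (fun h => he ?_) _ (congrArg Subtype.val hy)
          rw [mul_eq_one_iff_eq_inv.1 h]
          exact inv_mem (pow_mem (mem_zpowers d) i)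
        · exact fun y hy => hfix d hd1 _ (congrArg Subtype.val hy)
      have hzp : z ^ p ∈ H := hmem
      obtain ⟨k, hk⟩ := exists_pow_eq_self_of_coprime (x := z) (n := p)
        ((Nat.Coprime.coprime_dvd_right (orderOf_dvd_natCard z)
          (hp.out.coprime_iff_not_dvd.2 hpW)))
      exact hk ▸ pow_mem hzp k
    rw [eq_top_iff]
    have hih := ih (W ⧸ Z) (by omega)
      (fun h => hpW (h.trans (card_quotient_dvd_card Z))) θQ
    have hmap : H.map (QuotientGroup.mk' Z) = ⊤ := by
      rw [eq_top_iff, ← hih, closure_le]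
      rintro y ⟨b, hb, hy⟩
      obtain ⟨x, rfl⟩ := QuotientGroup.mk_surjective y
      have hxb : x⁻¹ * θ b x ∈ Z := QuotientGroup.eq.1 hy.symm
      obtain ⟨g, hg, hgf⟩ := exists_fixed_mod ((isPGroup_of_exp hexp).to_subgroup (zpowers b))
        (θ.comp (zpowers b).subtype) Z (fun c n hn => (hZinv c).le (mem_map_of_mem _ hn))
        (fun h => hpW (h.trans (card_subgroup_dvd_card Z))) (x := x) (fun c => by
          obtain ⟨i, hi⟩ := mem_zpowers_nat c.2
          show x⁻¹ * θ c x ∈ Z
          rw [← hi, map_pow]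
          clear hi
          induction i with
          | zero => simp
          | succ i ihi =>
            rw [pow_succ', MulAut.mul_apply]
            have h := mul_mem hxb ((hZinv b).le (mem_map_of_mem (θ b).toMonoidHom ihi))
            rw [show (θ b).toMonoidHom (x⁻¹ * (θ b ^ i) x) = (θ b x)⁻¹ * θ b ((θ b ^ i) x) by
              simp] at h
            rwa [show x⁻¹ * θ b x * ((θ b x)⁻¹ * θ b ((θ b ^ i) x)) =
              x⁻¹ * θ b ((θ b ^ i) x) by group] at h)
      exact ⟨g, hfix b hb g (hgf ⟨b, mem_zpowers b⟩), (QuotientGroup.eq.2 hg).symm⟩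
    intro x _
    obtain ⟨h', hh', he'⟩ := (hmap.ge (mem_top (x : W ⧸ Z)) : _ ∈ H.map (QuotientGroup.mk' Z))
    have : h'⁻¹ * x ∈ Z := QuotientGroup.eq.1 he'
    simpa using mul_mem hh' (hZH this)

variable {V : Type u} [CommGroup V]

/-- Elements acting like `g` does on all conjugates from `E`: `W E g = {v | g e g⁻¹ v = e v}`. -/
def weight (E : Subgroup (MulAut V)) (g : MulAut V) : Subgroup V where
  carrier := {x | ∀ e ∈ E, (g * e * g⁻¹) x = e x}
  one_mem' := fun e _ => by simp
  mul_mem' := fun {x y} hx hy e he => by rw [map_mul, map_mul, hx e he, hy e he]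
  inv_mem' := fun {x} hx e he => by rw [map_inv, map_inv, hx e he]

theorem mem_weight {E : Subgroup (MulAut V)} {g : MulAut V} {x : V} :
    x ∈ weight E g ↔ ∀ e ∈ E, (g * e * g⁻¹) x = e x := Iff.rfl

/-- The stabilising elements form a submonoid. -/
theorem weight_mul {E : Subgroup (MulAut V)} {g h : MulAut V}
    (hh : ∀ e ∈ E, h * e * h⁻¹ ∈ E) {x : V} (hg' : x ∈ weight E g) (hh' : x ∈ weight E h) :
    x ∈ weight E (g * h) := fun e he => by
  rw [show g * h * e * (g * h)⁻¹ = g * (h * e * h⁻¹) * g⁻¹ by group, hg' _ (hh e he)]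
  exact hh' e he

theorem weight_pow {E : Subgroup (MulAut V)} {g : MulAut V}
    (hg : ∀ e ∈ E, g * e * g⁻¹ ∈ E) {x : V} (hx : x ∈ weight E g) :
    ∀ i : ℕ, x ∈ weight E (g ^ i)
  | 0 => fun e _ => by simp
  | i + 1 => by rw [pow_succ]; exact weight_mul hg (weight_pow hg hx i) hx

theorem mem_weight_mul_left {E : Subgroup (MulAut V)} {g h : MulAut V}
    (hg : ∀ e ∈ E, g * e * g⁻¹ ∈ E) (hh : ∀ e ∈ E, h * e * h⁻¹ ∈ E)
    [Finite V] {x : V} (hx : x ∈ weight E (g * h)) (hx' : x ∈ weight E h) : x ∈ weight E g := by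
  have hn : 0 < orderOf h := orderOf_pos h
  have hinv : h⁻¹ = h ^ (orderOf h - 1) := inv_eq_of_mul_eq_one_right (by
    rw [← pow_succ', show orderOf h - 1 + 1 = orderOf h by omega, pow_orderOf_eq_one])
  have hpowmem : ∀ i : ℕ, ∀ e ∈ E, h ^ i * e * (h ^ i)⁻¹ ∈ E := by
    intro i
    induction i with
    | zero => intro e he; simpa using he
    | succ i ih =>
      intro e he
      rw [show h ^ (i + 1) * e * (h ^ (i + 1))⁻¹ = h * (h ^ i * e * (h ^ i)⁻¹) * h⁻¹ by
        rw [pow_succ']; group]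
      exact hh _ (ih e he)
  have := weight_mul (g := g * h) (h := h⁻¹) (hinv ▸ hpowmem _) hx (hinv ▸ weight_pow hh hx' _)
  rwa [mul_inv_cancel_right] at this

/-- The averaging identity. -/
theorem pow_card_mem [Finite V] (E : Subgroup (MulAut V)) [Fintype E] [IsMulCommutative E]
    {B : Type w} [Group B] [Fintype B] (β : B →* MulAut V)
    (hβ : ∀ b, ∀ e ∈ E, β b * e * (β b)⁻¹ ∈ E) (U : Subgroup V)
    (h0 : ∀ e ∈ E, ∀ x, (∀ b, β b x = x) → (e : MulAut V) x ∈ U)
    (y : V)
    (h1 : ∀ b : B, b ≠ 1 →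
      ∏ e : E, ((e : MulAut V)⁻¹ * (β b * (e : MulAut V) * (β b)⁻¹)) (β b y) ∈ U) :
    y ^ Nat.card E ∈ U := by
  classical
  have hsum : ∏ b : B, ∏ e : E,
      ((e : MulAut V)⁻¹ * (β b * (e : MulAut V) * (β b)⁻¹)) (β b y) ∈ U := by
    rw [Finset.prod_comm]
    refine U.prod_mem fun e _ => ?_
    have hfix : ∀ b', β b' (∏ b : B, β b ((e : MulAut V) y)) = ∏ b : B, β b ((e : MulAut V) y) :=
      fun b' => by
        rw [map_prod]
        exact Fintype.prod_equiv (Equiv.mulLeft b') _ _ fun b => by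
          show β b' (β b _) = β (b' * b) _
          rw [map_mul]; rfl
    have := h0 _ (inv_mem e.2) _ hfix
    rw [map_prod] at this
    convert this using 2 with b
    simp
  rw [← Finset.mul_prod_erase _ _ (Finset.mem_univ (1 : B))] at hsum
  have hrest : ∏ b ∈ Finset.univ.erase (1 : B), ∏ e : E,
      ((e : MulAut V)⁻¹ * (β b * (e : MulAut V) * (β b)⁻¹)) (β b y) ∈ U :=
    U.prod_mem fun b hb => h1 b (Finset.ne_of_mem_erase hb)
  have := mul_mem hsum (inv_mem hrest)
  rw [mul_inv_cancel_right] at this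
  simpa [Finset.prod_const, Nat.card_eq_fintype_card] using this

/-- The averaged image lies in the weight space. -/
theorem prod_mem_weight [Finite V] (E : Subgroup (MulAut V)) [Fintype E] [hE : IsMulCommutative E]
    {g : MulAut V} (hg : ∀ e ∈ E, g * e * g⁻¹ ∈ E) (y : V) :
    ∏ e : E, ((e : MulAut V)⁻¹ * (g * (e : MulAut V) * g⁻¹)) y ∈ weight E g := by
  intro e₀ he₀
  have hc : ∀ x ∈ E, ∀ z ∈ E, x * z = z * x := fun x hx z hz =>
    congrArg Subtype.val (hE.is_comm.comm (⟨x, hx⟩ : E) ⟨z, hz⟩)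
  rw [map_prod, map_prod]
  refine Fintype.prod_equiv (Equiv.mulLeft ⟨e₀, he₀⟩) _ _ fun e => ?_
  show (g * e₀ * g⁻¹ * ((e : MulAut V)⁻¹ * (g * (e : MulAut V) * g⁻¹))) y =
    (e₀ * ((e₀ * (e : MulAut V))⁻¹ * (g * (e₀ * (e : MulAut V)) * g⁻¹))) y
  congr 1
  rw [← mul_assoc (g * e₀ * g⁻¹), hc _ (hg _ he₀) _ (inv_mem e.2), mul_inv_rev,
    hc _ (inv_mem e.2) _ (inv_mem he₀)]
  group

/-- The key lemma: a coprime group commuting with `a` centralises the layer `Q`. -/
theorem centralizes [Finite V] {A : Type v} [CommGroup A] [Finite A] {p : ℕ} [hp : Fact p.Prime]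
    (hexp : ∀ a : A, a ^ p = 1) (hcard : Nat.card A = p ^ 2) (α : A →* MulAut V)
    (E Q S : Subgroup (MulAut V)) [hEc : IsMulCommutative E]
    (hV0 : ∀ x : V, (∀ b, α b x = x) → x = 1)
    (hEA : ∀ b, ∀ e ∈ E, α b * e * (α b)⁻¹ ∈ E)
    (hE0 : ∀ e ∈ E, (∀ b, α b * e = e * α b) → e = 1)
    (hEV : ∀ x : V, (∀ e ∈ E, e x = x) → x = 1)
    (hcEV : (Nat.card E).Coprime (Nat.card V)) (hpE : ¬ p ∣ Nat.card E)
    (hQA : ∀ b, ∀ q ∈ Q, α b * q * (α b)⁻¹ ∈ Q)
    (hQE : ∀ q ∈ Q, ∀ e ∈ E, q * e = e * q)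
    (hQgen : Q ≤ closure {q | q ∈ Q ∧ ∃ b : A, b ≠ 1 ∧ α b * q = q * α b})
    (hQV : ∀ b : A, b ≠ 1 → ∀ q ∈ Q, α b * q = q * α b → ∀ x : V, α b x = x → q x = x)
    (a : A) (ha : a ≠ 1) (hpS : ¬ p ∣ Nat.card S)
    (hSA : ∀ b, ∀ x ∈ S, α b * x * (α b)⁻¹ ∈ S) (hSa : ∀ x ∈ S, α a * x = x * α a)
    (hS0 : ∀ b : A, b ∉ zpowers a → ∀ x ∈ S, α b * x = x * α b → x = 1)
    (hSE : ∀ x ∈ S, ∀ e ∈ E, x * e * x⁻¹ ∈ E) (hSQ : ∀ x ∈ S, ∀ q ∈ Q, x * q * x⁻¹ ∈ Q)
    (hSEa : ∀ x ∈ S, ∀ e ∈ E, α a * e = e * α a → x * e = e * x)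
    (hSQa : ∀ x ∈ S, ∀ q ∈ Q, α a * q = q * α a → x * q = q * x) :
    ∀ x ∈ S, ∀ q ∈ Q, x * q = q * x := by
  classical
  haveI := Fintype.ofFinite A
  haveI : Fintype E := Fintype.ofFinite E
  have hEcomm : ∀ x ∈ E, ∀ z ∈ E, x * z = z * x := fun x hx z hz =>
    congrArg Subtype.val (hEc.is_comm.comm (⟨x, hx⟩ : E) ⟨z, hz⟩)
  set W : A → Subgroup V := fun b => weight E (α b) with hW
  -- powers of the weight elements
  have hWmul : ∀ b b' : A, ∀ x, x ∈ W b → x ∈ W b' → x ∈ W (b * b') := fun b b' x h h' => by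
    show x ∈ weight E (α (b * b'))
    rw [map_mul]; exact weight_mul (hEA b') h h'
  have hWpow : ∀ b : A, ∀ i : ℕ, ∀ x, x ∈ W b → x ∈ W (b ^ i) := fun b i x h => by
    show x ∈ weight E (α (b ^ i))
    rw [map_pow]; exact weight_pow (hEA b) h i
  have hWzp : ∀ c b : A, b ∈ zpowers c → ∀ x, x ∈ W c → x ∈ W b := fun c b hb x hx => by
    obtain ⟨i, rfl⟩ := mem_zpowers_nat hb
    exact hWpow c i x hx
  -- weight for the whole of `A` is trivial
  have hall : ∀ c d : A, c ≠ 1 → d ∉ zpowers c → ∀ x, x ∈ W c → x ∈ W d → x = 1 := by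
    intro c d hc hd x hxc hxd
    have hxA : ∀ b, x ∈ W b := fun b => by
      obtain ⟨i, j, rfl⟩ := exists_eq_mul_pow hexp hcard hc hd b
      exact hWmul _ _ x (hWpow c i x hxc) (hWpow d j x hxd)
    refine hEV x fun e he => ?_
    obtain ⟨g, ⟨hgE, hgx⟩, hgf⟩ := exists_fixed (isPGroup_of_exp hexp)
      (MulAut.conj.comp α) {g : MulAut V | g ∈ E ∧ g x = e x} (fun b g hg => by
        refine ⟨hEA b g hg.1, ?_⟩
        show (α b * g * (α b)⁻¹) x = e x
        rw [hxA b g hg.1]; exact hg.2) (by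
        let S1 : Subgroup E :=
          { carrier := {f | (f : MulAut V) x = x}
            one_mem' := rfl
            mul_mem' := fun {f f'} hf hf' => by
              show ((f : MulAut V) * f') x = x
              rw [MulAut.mul_apply]; exact (congrArg _ hf').trans hf
            inv_mem' := fun {f} hf => by
              show ((f : MulAut V)⁻¹) x = x
              conv_lhs => rw [← (hf : (f : MulAut V) x = x)]
              simp }
        rw [show Nat.card {g : MulAut V | g ∈ E ∧ g x = e x} = Nat.card S1 from Nat.card_congr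
          { toFun := fun g => ⟨⟨e⁻¹ * g.1, mul_mem (inv_mem he) g.2.1⟩, by
              show (e⁻¹ * g.1) x = x
              rw [MulAut.mul_apply, g.2.2]; simp⟩
            invFun := fun f => ⟨e * (f.1 : MulAut V), mul_mem he f.1.2, by
              rw [MulAut.mul_apply, (f.2 : (f.1 : MulAut V) x = x)]⟩
            left_inv := fun g => Subtype.ext (mul_inv_cancel_left e g.1)
            right_inv := fun f => Subtype.ext (Subtype.ext (inv_mul_cancel_left e _)) }]
        exact fun h => hpE (h.trans (card_subgroup_dvd_card S1)))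
    have hg1 : g = 1 := hE0 g hgE fun b => by
      have h := hgf b
      simp only [MonoidHom.comp_apply, MulAut.conj_apply] at h
      exact mul_inv_eq_iff_eq_mul.1 h
    rw [hg1, MulAut.one_apply] at hgx
    exact hgx.symm
  -- decomposition
  set U := ⨆ b : {b : A // b ≠ 1}, W b with hU
  have hcop_mem : ∀ (K : Subgroup V) (y : V), y ^ Nat.card E ∈ K → y ∈ K := fun K y hy => by
    obtain ⟨k, hk⟩ := exists_pow_eq_self_of_coprime (x := y) (n := Nat.card E)
      (hcEV.coprime_dvd_right (orderOf_dvd_natCard y))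
    exact hk ▸ pow_mem hy k
  have hdec : ∀ y : V, y ∈ U := fun y => hcop_mem U y (pow_card_mem E α hEA U
    (fun e _ x hx => by rw [hV0 x hx, map_one]; exact one_mem U) y
    (fun b hb => le_iSup (fun b : {b : A // b ≠ 1} => W b) ⟨b, hb⟩ (prod_mem_weight E (hEA b) _)))
  -- invariance
  have hWE : ∀ b : A, ∀ f ∈ E, ∀ x ∈ W b, f x ∈ W b := fun b f hf x hx e he => by
    show (α b * e * (α b)⁻¹ * f) x = (e * f) x
    rw [hEcomm _ (hEA b e he) f hf, hEcomm e he f hf]
    show f ((α b * e * (α b)⁻¹) x) = f (e x)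
    rw [hx e he]
  have hWQ : ∀ b : A, ∀ q ∈ Q, ∀ x ∈ W b, q x ∈ W b := fun b q hq x hx e he => by
    show (α b * e * (α b)⁻¹ * q) x = (e * q) x
    rw [← hQE q hq _ (hEA b e he), ← hQE q hq e he]
    show q ((α b * e * (α b)⁻¹) x) = q (e x)
    rw [hx e he]
  -- conjugation of weights by `S`
  have hSconj : ∀ y ∈ S, ∀ c : A, ∀ x ∈ W c, y x ∈ weight E (y * α c * y⁻¹) := by
    intro y hy c x hx e he
    have he' : y⁻¹ * e * y ∈ E := by simpa using hSE _ (inv_mem hy) e he
    show (y * α c * y⁻¹ * e * (y * α c * y⁻¹)⁻¹ * y) x = (e * y) x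
    rw [show y * α c * y⁻¹ * e * (y * α c * y⁻¹)⁻¹ * y =
      y * (α c * (y⁻¹ * e * y) * (α c)⁻¹) by group, MulAut.mul_apply, hx _ he', ← MulAut.mul_apply]
    congr 1
    group
  have hcomm_pow : ∀ y ∈ S, ∀ i : ℕ, α (a ^ i) * y = y * α (a ^ i) := fun y hy i => by
    rw [map_pow]; exact (Commute.pow_left (hSa y hy) i).eq
  -- two different weights meet trivially after conjugation
  have hmeet : ∀ y ∈ S, ∀ c : A, c ≠ 1 → c ∉ zpowers a → ∀ d : A, d ≠ 1 → d ∉ zpowers c → ∀ x,
      x ∈ weight E (y * α c * y⁻¹) → x ∈ W d → x = 1 := by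
    intro y hy c hc hca d hd hdc x hxγ hxd
    have hγn : ∀ e ∈ E, y * α c * y⁻¹ * e * (y * α c * y⁻¹)⁻¹ ∈ E := fun e he => by
      rw [show y * α c * y⁻¹ * e * (y * α c * y⁻¹)⁻¹ =
        y * (α c * (y⁻¹ * e * (y⁻¹)⁻¹) * (α c)⁻¹) * y⁻¹ by group]
      exact hSE y hy _ (hEA c _ (hSE _ (inv_mem hy) e he))
    have hz : y * α c * y⁻¹ * (α c)⁻¹ ∈ S := by
      rw [show y * α c * y⁻¹ * (α c)⁻¹ = y * (α c * y⁻¹ * (α c)⁻¹) by group]
      exact mul_mem hy (hSA c _ (inv_mem hy))
    set z := y * α c * y⁻¹ * (α c)⁻¹ with hzdef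
    by_cases hda : d ∈ zpowers a
    · have hxa : x ∈ W a := by
        refine hWzp d a ?_ x hxd
        obtain ⟨i, j, hij⟩ := exists_eq_mul_pow hexp hcard hd
          (fun h => hca (zpowers_le.2 hda h)) a
        by_cases hj : c ^ j = 1
        · rw [hij, hj, mul_one]; exact pow_mem (mem_zpowers d) i
        · exfalso
          obtain ⟨k, hk⟩ := mem_zpowers_nat hda
          have hcj : c ^ j ∈ zpowers a := by
            rw [show c ^ j = (d ^ i)⁻¹ * a by rw [hij, inv_mul_cancel_left]]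
            exact mul_mem (inv_mem (pow_mem hda i)) (mem_zpowers a)
          have hoc : orderOf (c ^ j) = p := orderOf_eq_prime (hexp _) hj
          have heq : zpowers (c ^ j) = zpowers c :=
            eq_of_le_of_card_ge (zpowers_le.2 (pow_mem (mem_zpowers c) j))
              (by rw [Nat.card_zpowers, Nat.card_zpowers, hoc, orderOf_eq_prime (hexp c) hc])
          exact hca ((zpowers_le.2 hcj) (heq.ge (mem_zpowers c)))
      -- `z` fixes everything modulo the stabiliser
      have hxz : x ∈ weight E z := by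
        intro e he
        let f : E →* E :=
          { toFun := fun g => ⟨(g : MulAut V)⁻¹ * (α a * g * (α a)⁻¹), mul_mem (inv_mem g.2) (hEA a g g.2)⟩
            map_one' := Subtype.ext (by simp)
            map_mul' := fun g g' => Subtype.ext (by
              show ((g : MulAut V) * g')⁻¹ * (α a * ((g : MulAut V) * g') * (α a)⁻¹) =
                (g : MulAut V)⁻¹ * (α a * g * (α a)⁻¹) * ((g' : MulAut V)⁻¹ * (α a * g' * (α a)⁻¹))
              calc ((g : MulAut V) * g')⁻¹ * (α a * ((g : MulAut V) * g') * (α a)⁻¹)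
                  = ((g' : MulAut V)⁻¹ * (g : MulAut V)⁻¹) *
                      ((α a * g * (α a)⁻¹) * (α a * g' * (α a)⁻¹)) := by group
                _ = ((g : MulAut V)⁻¹ * (g' : MulAut V)⁻¹) *
                      ((α a * g * (α a)⁻¹) * (α a * g' * (α a)⁻¹)) := by
                    rw [hEcomm _ (inv_mem g'.2) _ (inv_mem g.2)]
                _ = (g : MulAut V)⁻¹ * ((g' : MulAut V)⁻¹ * (α a * g * (α a)⁻¹)) *
                      (α a * g' * (α a)⁻¹) := by group
                _ = (g : MulAut V)⁻¹ * ((α a * g * (α a)⁻¹) * (g' : MulAut V)⁻¹) *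
                      (α a * g' * (α a)⁻¹) := by
                    rw [hEcomm _ (inv_mem g'.2) _ (hEA a g g.2)]
                _ = _ := by group) }
        set E1 : Subgroup (MulAut V) := f.range.map E.subtype with hE1
        have hE1fix : ∀ g ∈ E1, g x = x := by
          rintro g ⟨-, ⟨h, rfl⟩, rfl⟩
          show ((h : MulAut V)⁻¹ * (α a * h * (α a)⁻¹)) x = x
          rw [MulAut.mul_apply, hxa _ h.2]; simp
        have hE1E : E1 ≤ E := map_subtype_le _
        have hzE1 : ∀ g ∈ E1, z * g * z⁻¹ ∈ E1 := by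
          rintro g ⟨-, ⟨h, rfl⟩, rfl⟩
          refine mem_map.2 ⟨f ⟨z * h * z⁻¹, hSE z hz h h.2⟩, ⟨_, rfl⟩, ?_⟩
          show (z * h * z⁻¹)⁻¹ * (α a * (z * h * z⁻¹) * (α a)⁻¹) =
            z * ((h : MulAut V)⁻¹ * (α a * h * (α a)⁻¹)) * z⁻¹
          rw [show α a * (z * h * z⁻¹) = (α a * z) * h * z⁻¹ by group, hSa z hz]
          rw [show z * α a * (h : MulAut V) * z⁻¹ * (α a)⁻¹ = z * (α a * h * (α a * z)⁻¹) by group,
            hSa z hz]
          group
        obtain ⟨g, ⟨hgE, hge⟩, hgf⟩ := exists_fixed ((isPGroup_of_exp hexp).to_subgroup (zpowers a))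
          ((MulAut.conj.comp α).comp (zpowers a).subtype) {g : MulAut V | g ∈ E ∧ e⁻¹ * g ∈ E1}
          (by
            rintro ⟨b, hb⟩ g ⟨hg, hg'⟩
            obtain ⟨i, rfl⟩ := mem_zpowers_nat hb
            show α (a ^ i) * g * (α (a ^ i))⁻¹ ∈ E ∧ e⁻¹ * (α (a ^ i) * g * (α (a ^ i))⁻¹) ∈ E1
            refine ⟨hEA _ g hg, ?_⟩
            rw [show e⁻¹ * (α (a ^ i) * g * (α (a ^ i))⁻¹) =
              e⁻¹ * g * (g⁻¹ * (α (a ^ i) * g * (α (a ^ i))⁻¹)) by group]
            refine mul_mem hg' ?_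
            clear hb
            induction i with
            | zero => simp
            | succ i ih =>
              rw [pow_succ', map_mul, show g⁻¹ * (α a * α (a ^ i) * g * (α a * α (a ^ i))⁻¹) =
                g⁻¹ * (α (a ^ i) * g * (α (a ^ i))⁻¹) * ((α (a ^ i) * g * (α (a ^ i))⁻¹)⁻¹ *
                  (α a * (α (a ^ i) * g * (α (a ^ i))⁻¹) * (α a)⁻¹)) by group]
              exact mul_mem ih (mem_map.2 ⟨f ⟨_, hEA _ g hg⟩, ⟨_, rfl⟩, rfl⟩))
          (by
            rw [show Nat.card {g : MulAut V | g ∈ E ∧ e⁻¹ * g ∈ E1} = Nat.card E1 from Nat.card_congr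
              ((Equiv.mulLeft e⁻¹).subtypeEquiv fun g => ⟨fun h => h.2, fun h => ⟨by
                have := mul_mem he (hE1E h)
                simpa using this, h⟩⟩)]
            exact fun h => hpE (h.trans (card_dvd_of_le hE1E)))
        have hga : α a * g = g * α a := by
          have h := hgf ⟨a, mem_zpowers a⟩
          simp only [MonoidHom.comp_apply, MulAut.conj_apply] at h
          exact mul_inv_eq_iff_eq_mul.1 h
        have hzg := hSEa z hz g hgE hga
        have h1 : (z * e * z⁻¹) x = g x := by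
          rw [show z * e * z⁻¹ = (z * g * z⁻¹) * (z * (e⁻¹ * g)⁻¹ * z⁻¹) by group, MulAut.mul_apply,
            hE1fix _ (hzE1 _ (inv_mem hge)), hzg, mul_inv_cancel_right]
        rw [h1, show g = e * (e⁻¹ * g) by group, MulAut.mul_apply, hE1fix _ hge]
      have hxc : x ∈ W c := by
        have hn : ∀ e ∈ E, z⁻¹ * e * (z⁻¹)⁻¹ ∈ E := hSE _ (inv_mem hz)
        have hz' : x ∈ weight E z⁻¹ := by
          intro e he
          have := hxz _ (hn e he)
          rw [show z * (z⁻¹ * e * (z⁻¹)⁻¹) * z⁻¹ = e by group] at this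
          exact this.symm
        show x ∈ weight E (α c)
        have := weight_mul (g := z⁻¹) (h := y * α c * y⁻¹) hγn hz' hxγ
        rwa [show z⁻¹ * (y * α c * y⁻¹) = α c by rw [hzdef]; group] at this
      exact hall a c ha hca x hxa hxc
    · -- a power of `z a` lies in the kernel
      obtain ⟨i, j, hij⟩ := exists_eq_mul_pow hexp hcard hc hdc a
      have hz' : y * α (c ^ i) * y⁻¹ * (α (c ^ i))⁻¹ ∈ S := by
        rw [show y * α (c ^ i) * y⁻¹ * (α (c ^ i))⁻¹ = y * (α (c ^ i) * y⁻¹ * (α (c ^ i))⁻¹) by group]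
        exact mul_mem hy (hSA _ _ (inv_mem hy))
      set w := y * α (c ^ i) * y⁻¹ * (α (c ^ i))⁻¹ with hwdef
      have hnd : ∀ e ∈ E, α (d ^ j) * e * (α (d ^ j))⁻¹ ∈ E := hEA _
      have h1 : x ∈ weight E (w * α a) := by
        have := weight_mul hnd (weight_pow hγn hxγ i) (hWpow d j x hxd)
        rwa [show (y * α c * y⁻¹) ^ i * α (d ^ j) = w * α a by
          rw [conj_pow, ← map_pow, hwdef, show α a = α (c ^ i) * α (d ^ j) by rw [← map_mul, ← hij]]
          group] at this
      have hwn : ∀ e ∈ E, w * α a * e * (w * α a)⁻¹ ∈ E := fun e he => by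
        rw [show w * α a * e * (w * α a)⁻¹ = w * (α a * e * (α a)⁻¹) * w⁻¹ by group]
        exact hSE w hz' _ (hEA a e he)
      have h2 := weight_pow hwn h1 (Nat.card S)
      rw [(show Commute w (α a) from (hSa w hz').symm).mul_pow,
        show w ^ Nat.card S = 1 from congrArg Subtype.val (pow_card_eq_one' (x := (⟨w, hz'⟩ : S))),
        one_mul, ← map_pow] at h2
      obtain ⟨k, hk⟩ := exists_pow_eq_self_of_coprime (x := a) (n := Nat.card S)
        (by rw [orderOf_eq_prime (hexp a) ha]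
            exact (hp.out.coprime_iff_not_dvd.2 hpS).symm)
      have hxa : x ∈ W a := hk ▸ hWpow _ k x h2
      exact hall a d ha hda x hxa hxd
  -- `S` permutes no weights
  have hWS : ∀ y ∈ S, ∀ c : A, c ≠ 1 → ∀ x ∈ W c, y x ∈ W c := by
    intro y hy c hc x hx
    by_cases hca : c ∈ zpowers a
    · obtain ⟨i, rfl⟩ := mem_zpowers_nat hca
      have h := hSconj y hy _ x hx
      rwa [← hcomm_pow y hy i, mul_inv_cancel_right] at h
    set γ := y * α c * y⁻¹ with hγ
    have hγn : ∀ e ∈ E, γ * e * γ⁻¹ ∈ E := fun e he => by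
      rw [hγ, show y * α c * y⁻¹ * e * (y * α c * y⁻¹)⁻¹ =
        y * (α c * (y⁻¹ * e * (y⁻¹)⁻¹) * (α c)⁻¹) * y⁻¹ by group]
      exact hSE y hy _ (hEA c _ (hSE _ (inv_mem hy) e he))
    let Nγ : V →* V :=
      { toFun := fun v => ∏ e : E, ((e : MulAut V)⁻¹ * (γ * (e : MulAut V) * γ⁻¹)) v
        map_one' := by simp
        map_mul' := fun v v' => by simp [Finset.prod_mul_distrib] }
    have h1 : U.map Nγ ≤ W c := by
      rw [hU, Subgroup.map_iSup]
      refine iSup_le fun b => ?_
      rintro - ⟨w, hw, rfl⟩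
      have hmem : Nγ w ∈ W b.1 := (W b.1).prod_mem fun e _ =>
        hWE b.1 _ (mul_mem (inv_mem e.2) (hγn e e.2)) w hw
      by_cases hbc : b.1 ∈ zpowers c
      · refine hWzp b.1 c ?_ _ hmem
        rw [show zpowers b.1 = zpowers c from eq_of_le_of_card_ge (zpowers_le.2 hbc)
          (by rw [Nat.card_zpowers, Nat.card_zpowers, orderOf_eq_prime (hexp _) b.2,
            orderOf_eq_prime (hexp c) hc])]
        exact mem_zpowers c
      · have h : Nγ w = 1 := hmeet y hy c hc hca b.1 b.2 hbc _ (prod_mem_weight E hγn w) hmem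
        rw [h]
        exact one_mem _
    have hv := hSconj y hy c x hx
    have h2 : Nγ (y x) = (y x) ^ Nat.card E := by
      show ∏ e : E, ((e : MulAut V)⁻¹ * (γ * (e : MulAut V) * γ⁻¹)) (y x) = _
      rw [Finset.prod_congr rfl (g := fun _ => y x) fun e _ => by
        rw [MulAut.mul_apply, hv _ e.2]; simp, Finset.prod_const, Finset.card_univ,
        Nat.card_eq_fintype_card]
    exact hcop_mem _ _ (h2 ▸ h1 (mem_map_of_mem _ (hdec _)))
  -- `Q_b` is trivial on the other weights
  have hQtriv : ∀ b : A, b ≠ 1 → ∀ q ∈ Q, α b * q = q * α b → ∀ c : A, c ≠ 1 → b ∉ zpowers c →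
      ∀ x ∈ W c, q x = x := by
    intro b hb q hq hqb c hc hbc x hx
    haveI : Fintype (zpowers b) := Fintype.ofFinite _
    let Fix : Subgroup V :=
      { carrier := {v | q v = v}
        one_mem' := map_one q
        mul_mem' := fun {v v'} (h : q v = v) (h' : q v' = v') => by
          show q (v * v') = v * v'; rw [map_mul, h, h']
        inv_mem' := fun {v} (h : q v = v) => by show q v⁻¹ = v⁻¹; rw [map_inv, h] }
    refine (hcop_mem Fix x (pow_card_mem E (α.comp (zpowers b).subtype) (fun g => hEA g.1) Fix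
      (fun e he v hv => ?_) x (fun g hg => ?_)) : q x = x)
    · show (q * e) v = e v
      rw [hQE q hq e he, MulAut.mul_apply,
        hQV b hb q hq hqb v (hv ⟨b, mem_zpowers b⟩)]
    · have hg1 : g.1 ≠ 1 := fun e => hg (Subtype.ext e)
      have hgv : α g.1 x ∈ W c := fun e he => by
        have he' : (α g.1)⁻¹ * e * α g.1 ∈ E := by
          have := hEA g.1⁻¹ e he
          simpa using this
        show (α c * e * (α c)⁻¹ * α g.1) x = (e * α g.1) x
        rw [show α c * e * (α c)⁻¹ * α g.1 = α g.1 * (α c * ((α g.1)⁻¹ * e * α g.1) * (α c)⁻¹) by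
          have h := congrArg α (mul_comm g.1 c)
          rw [map_mul, map_mul] at h
          calc α c * e * (α c)⁻¹ * α g.1
              = (α c * α g.1) * ((α g.1)⁻¹ * e * α g.1) * ((α g.1)⁻¹ * (α c)⁻¹ * α g.1) := by group
            _ = (α g.1 * α c) * ((α g.1)⁻¹ * e * α g.1) * ((α c * α g.1)⁻¹ * α g.1) := by
              rw [h, mul_inv_rev]
            _ = (α g.1 * α c) * ((α g.1)⁻¹ * e * α g.1) * ((α g.1 * α c)⁻¹ * α g.1) := by rw [h]
            _ = α g.1 * (α c * ((α g.1)⁻¹ * e * α g.1) * (α c)⁻¹) := by group,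
          MulAut.mul_apply, hx _ he', ← MulAut.mul_apply]
        congr 1
        group
      have hmem : ∏ e : E, ((e : MulAut V)⁻¹ * (α g.1 * (e : MulAut V) * (α g.1)⁻¹)) (α g.1 x) = 1 := by
        refine hall c g.1 hc (fun h => hbc ?_) _
          ((W c).prod_mem fun e _ => hWE c _ (mul_mem (inv_mem e.2) (hEA _ e e.2)) _ hgv)
          (prod_mem_weight E (hEA _) _)
        have : zpowers g.1 = zpowers b := eq_of_le_of_card_ge (zpowers_le.2 g.2)
          (by rw [Nat.card_zpowers, Nat.card_zpowers, orderOf_eq_prime (hexp _) hg1,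
            orderOf_eq_prime (hexp b) hb])
        exact (zpowers_le.2 h) (this.ge (mem_zpowers b))
      show q _ = _
      rw [show (∏ e : E, ((e : MulAut V)⁻¹ * (α.comp (zpowers b).subtype g * (e : MulAut V) *
        (α.comp (zpowers b).subtype g)⁻¹)) (α.comp (zpowers b).subtype g x)) = 1 from hmem, map_one]
  -- generation of `Q`
  have hQind : ∀ (P : MulAut V → Prop), P 1 →
      (∀ q q', q ∈ Q → q' ∈ Q → P q → P q' → P (q * q')) →
      (∀ b : A, b ≠ 1 → ∀ q ∈ Q, α b * q = q * α b → P q) → ∀ q ∈ Q, P q := by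
    intro P h1 hmul hgen q hq
    let M : Submonoid (MulAut V) :=
      { carrier := {g | g ∈ Q ∧ P g}
        one_mem' := ⟨one_mem Q, h1⟩
        mul_mem' := fun {g g'} h h' => ⟨mul_mem h.1 h'.1, hmul g g' h.1 h'.1 h.2 h'.2⟩ }
    have := (hQgen hq)
    rw [← SetLike.mem_coe, ← coe_toSubmonoid, closure_toSubmonoid] at this
    refine ((Submonoid.closure_le (S := M)).2 ?_ this).2
    rintro g (⟨hg, b, hb, hgb⟩ | ⟨hg, b, hb, hgb⟩)
    · exact ⟨hg, hgen b hb g hg hgb⟩
    · refine ⟨inv_mem_iff.1 hg, hgen b hb g (inv_mem_iff.1 hg) ?_⟩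
      have h := Commute.inv_right (show Commute (α b) g⁻¹ from hgb)
      rwa [inv_inv] at h
  -- the action of `S`
  intro s hs q hq
  suffices hkey : ∀ c : A, c ≠ 1 → ∀ y ∈ S, ∀ q ∈ Q, ∀ x ∈ W c, (y * q * y⁻¹) x = q x by
    have h : s * q * s⁻¹ = q := by
      refine MulEquiv.ext fun x => ?_
      let K : Subgroup V :=
        { carrier := {v | (s * q * s⁻¹) v = q v}
          one_mem' := by simp
          mul_mem' := fun {v v'} (h : _ = _) (h' : _ = _) => by
            show (s * q * s⁻¹) (v * v') = q (v * v'); rw [map_mul, map_mul, h, h']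
          inv_mem' := fun {v} (h : _ = _) => by
            show (s * q * s⁻¹) v⁻¹ = q v⁻¹; rw [map_inv, map_inv, h] }
      exact (show U ≤ K from iSup_le fun b v hv => hkey b.1 b.2 s hs q hq v hv) (hdec x)
    exact mul_inv_eq_iff_eq_mul.1 h
  intro c hc
  by_cases hca : c ∈ zpowers a
  · intro y hy
    refine hQind (fun q => ∀ x ∈ W c, (y * q * y⁻¹) x = q x) (fun x _ => by simp) ?_ ?_
    · intro q q' hq hq' h h' x hx
      rw [show y * (q * q') * y⁻¹ = (y * q * y⁻¹) * (y * q' * y⁻¹) by group, MulAut.mul_apply,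
        h' x hx, h _ (hWQ c q' hq' x hx)]
      rfl
    · intro b hb q hq hqb x hx
      by_cases hbc : b ∈ zpowers c
      · have hab : a ∈ zpowers b := by
          have : zpowers b = zpowers a := eq_of_le_of_card_ge (zpowers_le.2 ((zpowers_le.2 hca) hbc))
            (by rw [Nat.card_zpowers, Nat.card_zpowers, orderOf_eq_prime (hexp _) hb,
              orderOf_eq_prime (hexp a) ha])
          exact this.ge (mem_zpowers a)
        obtain ⟨i, hi⟩ := mem_zpowers_nat hab
        have hqa : α a * q = q * α a := by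
          rw [← hi, map_pow]; exact (Commute.pow_left hqb i).eq
        rw [hSQa y hy q hq hqa, mul_inv_cancel_right]
      · rw [hQtriv b hb q hq hqb c hc hbc x hx, MulAut.mul_apply, MulAut.mul_apply,
          hQtriv b hb q hq hqb c hc hbc _ (hWS y⁻¹ (inv_mem hy) c hc x hx),
          ← MulAut.mul_apply, mul_inv_cancel, MulAut.one_apply]
  -- `c` moves `S` without fixed points
  have hcQ : ∀ q ∈ Q, ∀ x ∈ W c, (α c * q * (α c)⁻¹) x = q x := by
    refine hQind (fun q => ∀ x ∈ W c, (α c * q * (α c)⁻¹) x = q x) (fun x _ => by simp) ?_ ?_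
    · intro q q' hq hq' h h' x hx
      rw [show α c * (q * q') * (α c)⁻¹ = (α c * q * (α c)⁻¹) * (α c * q' * (α c)⁻¹) by group,
        MulAut.mul_apply, h' x hx, h _ (hWQ c q' hq' x hx)]
      rfl
    · intro b hb q hq hqb x hx
      by_cases hbc : b ∈ zpowers c
      · have hcb : c ∈ zpowers b := by
          have : zpowers b = zpowers c := eq_of_le_of_card_ge (zpowers_le.2 hbc)
            (by rw [Nat.card_zpowers, Nat.card_zpowers, orderOf_eq_prime (hexp _) hb,
              orderOf_eq_prime (hexp c) hc])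
          exact this.ge (mem_zpowers c)
        obtain ⟨i, hi⟩ := mem_zpowers_nat hcb
        have hqc : α c * q = q * α c := by
          rw [← hi, map_pow]; exact (Commute.pow_left hqb i).eq
        rw [hqc, mul_inv_cancel_right]
      · have hqb' : α b * (α c * q * (α c)⁻¹) = α c * q * (α c)⁻¹ * α b := by
          have h : α b * α c = α c * α b := by rw [← map_mul, ← map_mul, mul_comm]
          have h' : Commute (α b) (α c) := h
          exact ((h'.mul_right hqb).mul_right h'.inv_right).eq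
        rw [hQtriv b hb q hq hqb c hc hbc x hx,
          hQtriv b hb _ (hQA c q hq) hqb' c hc hbc x hx]
  intro y hy
  -- write `y` as a commutator with `c`
  let F : S → S := fun u => ⟨(u : MulAut V) * α c * (u : MulAut V)⁻¹ * (α c)⁻¹, by
    rw [show (u : MulAut V) * α c * (u : MulAut V)⁻¹ * (α c)⁻¹ =
      u * (α c * (u : MulAut V)⁻¹ * (α c)⁻¹) by group]
    exact mul_mem u.2 (hSA c _ (inv_mem u.2))⟩
  have hinj : Function.Injective F := by
    intro u u' h
    have h' : (u : MulAut V) * α c * (u : MulAut V)⁻¹ = u' * α c * (u' : MulAut V)⁻¹ :=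
      mul_right_cancel (congrArg Subtype.val h)
    have h1 : α c * ((u' : MulAut V)⁻¹ * u) = (u' : MulAut V)⁻¹ * u * α c := by
      calc α c * ((u' : MulAut V)⁻¹ * u) = (u' : MulAut V)⁻¹ * (u' * α c * (u' : MulAut V)⁻¹) * u := by group
        _ = (u' : MulAut V)⁻¹ * (u * α c * (u : MulAut V)⁻¹) * u := by rw [h']
        _ = _ := by group
    exact Subtype.ext (inv_mul_eq_one.1 (hS0 c hca _ (mul_mem (inv_mem u'.2) u.2) h1)).symm
  obtain ⟨u, hu⟩ := Finite.injective_iff_surjective.1 hinj ⟨y, hy⟩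
  have huy : (u : MulAut V) * α c * (u : MulAut V)⁻¹ * (α c)⁻¹ = y := congrArg Subtype.val hu
  intro q hq x hx
  have hq' : (α c)⁻¹ * q * α c ∈ Q := by
    have := hQA c⁻¹ q hq
    simpa using this
  have h2 : ((α c)⁻¹ * q * α c) x = q x := by
    have := hcQ _ hq' x hx
    rw [show α c * ((α c)⁻¹ * q * α c) * (α c)⁻¹ = q by group] at this
    exact this.symm
  set q2 := (u : MulAut V)⁻¹ * ((α c)⁻¹ * q * α c) * u with hq2
  have hq2Q : q2 ∈ Q := by
    rw [hq2]
    simpa using hSQ _ (inv_mem u.2) _ hq'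
  rw [← huy]
  calc ((u : MulAut V) * α c * (u : MulAut V)⁻¹ * (α c)⁻¹ * q *
        ((u : MulAut V) * α c * (u : MulAut V)⁻¹ * (α c)⁻¹)⁻¹) x
      = (u : MulAut V) ((α c * q2 * (α c)⁻¹) ((u : MulAut V)⁻¹ x)) := by
        rw [← MulAut.mul_apply, ← MulAut.mul_apply]
        congr 1
    _ = (u : MulAut V) (q2 ((u : MulAut V)⁻¹ x)) := by
        rw [hcQ q2 hq2Q _ (hWS _ (inv_mem u.2) c hc x hx)]
    _ = ((α c)⁻¹ * q * α c) x := by
        rw [← MulAut.mul_apply, ← MulAut.mul_apply]
        congr 1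
        rw [hq2]; group
    _ = q x := h2

end CfsgLib.Core.Ward
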