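import Mathlib
import Cfsg.Agent.Lib.CoreWard
import Cfsg.Agent.Lib.CoreFpfFour
import Cfsg.Agent.Lib.CorePGroup
import Cfsg.Agent.Lib.CoreShultGrossAlg

/-!
# The linear core of the Shult–Gross theorem

A fixed-point-free automorphism of order dividing `p ^ (n + 1)` (`p` odd) of a `q`-group `Q`
acting compatibly with a linear map `S`, whose powers sum to zero, has `p ^ n`-th power trivial.
-/

set_option autoImplicit false

open Finset

namespace CfsgLib.Core.ShultGross

universe u v w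

/-- Powers of the underlying permutation of an automorphism. -/
theorem perm_pow_apply {G : Type w} [Group G] (θ : MulAut G) (j : ℕ) (y : G) :
    ((θ.toEquiv : Equiv.Perm G) ^ j) y = (θ ^ j) y := by
  induction j with
  | zero => rfl
  | succ j ih => rw [pow_succ', pow_succ', Equiv.Perm.mul_apply, ih]; rfl

/-- The period of a weight is a power of `p`, and the top period is excluded by the vanishing
sum. -/
theorem weight_period {K : Type u} [Field K] {V : Type v} [AddCommGroup V] [Module K V] {X : Type w}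
    {p m : ℕ} (hp : p.Prime) (op : X → Module.End K V) (e : Equiv.Perm X) (S : Module.End K V)
    (hS : ∀ y v, op (e y) (S v) = S (op y v)) {ψ : X → K} {v : V} (hv0 : v ≠ 0)
    (hv : ∀ y, op y v = ψ y • v) (hper : ∀ y, ψ ((e ^ (p ^ (m + 1))) y) = ψ y)
    (hsum : ∑ l ∈ range (p ^ (m + 1)), (S ^ l) v = 0) :
    ∃ i, i ≤ m ∧ (∀ y, ψ ((e ^ (p ^ i)) y) = ψ y) ∧
      ∀ j, 0 < j → j < p ^ i → ∃ y, ψ ((e ^ j) y) ≠ ψ y := by
  classical
  have hex : ∃ d, 0 < d ∧ ∀ y, ψ ((e ^ d) y) = ψ y := ⟨_, pow_pos hp.pos _, hper⟩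
  obtain ⟨hd0, hd⟩ := Nat.find_spec hex
  set d := Nat.find hex with hdef
  have hmul : ∀ l y, ψ ((e ^ (d * l)) y) = ψ y := by
    intro l
    induction l with
    | zero => intro y; rw [mul_zero, pow_zero]; rfl
    | succ l ih => intro y; rw [Nat.mul_succ, pow_add, Equiv.Perm.mul_apply, ih, hd]
  have hmod : ∀ y, ψ ((e ^ (p ^ (m + 1) % d)) y) = ψ y := fun y => by
    have h := hper y
    conv_lhs at h => rw [← Nat.div_add_mod (p ^ (m + 1)) d, pow_add, Equiv.Perm.mul_apply, hmul]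
    exact h
  have hdvd : d ∣ p ^ (m + 1) := by
    refine Nat.dvd_of_mod_eq_zero (Nat.eq_zero_of_not_pos fun h => ?_)
    exact Nat.find_min hex (Nat.mod_lt _ hd0) ⟨h, hmod⟩
  obtain ⟨i, hi, hdi⟩ := (Nat.dvd_prime_pow hp).1 hdvd
  have hmin : ∀ j, 0 < j → j < p ^ i → ∃ y, ψ ((e ^ j) y) ≠ ψ y := fun j hj0 hj => by
    by_contra hcon
    push Not at hcon
    exact Nat.find_min hex (lt_of_lt_of_eq hj hdi.symm) ⟨hj0, hcon⟩
  rw [hdi] at hd
  refine ⟨i, ?_, hd, hmin⟩
  by_contra hne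
  obtain rfl : i = m + 1 := by omega
  refine hv0 ?_
  have h := period_sum op e S hS hv (a := p ^ (m + 1)) (b := 1) (pow_pos hp.pos _) hmin hd
    (by rwa [mul_one])
  simpa using h

/-- The arithmetic: the orbit count on `W` forces the map to `(Q ⧸ N) ^ (p ^ i)` to be onto. -/
theorem numeric {p n i i' e m d : ℕ} [hp : Fact p.Prime] (hp2 : p ≠ 2) (hn : i + i' + e = n)
    (hm : 2 ^ m + 1 = p ^ (e + 1)) (hd : 0 < d) (hdiv : p ^ (n + 1) ∣ 2 ^ d - 1)
    (hle : d ≤ 2 * m * p ^ i) : d = 2 * m * p ^ i := by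
  set P := p ^ (e + 1) with hP
  have hp3 : 3 ≤ p := by have := hp.out.two_le; omega
  have hP3 : 3 ≤ P := by
    rw [hP, pow_succ]
    exact hp3.trans (Nat.le_mul_of_pos_left _ (pow_pos hp.out.pos _))
  have hm0 : 0 < m := Nat.pos_of_ne_zero fun e' => by rw [e', pow_zero] at hm; omega
  -- `2` has order `2 * m` modulo `P`
  have h2m : P ∣ 2 ^ (2 * m) - 1 := by
    refine ⟨2 ^ m - 1, ?_⟩
    rw [← hm, ← Nat.sq_sub_sq, ← pow_mul, mul_comm m 2, one_pow]
  have hord : ∀ j, 0 < j → j < 2 * m → ¬ P ∣ 2 ^ j - 1 := by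
    intro j hj0 hj hdv
    have hjpos : 2 ≤ 2 ^ j := Nat.le_self_pow (by omega) 2
    rcases Nat.lt_or_ge m j with h | h
    · have hk : 2 ^ (j - m) < 2 ^ m := Nat.pow_lt_pow_right (by norm_num) (by omega)
      have he : 2 ^ j - 1 + (2 ^ (j - m) + 1) = 2 ^ (j - m) * P := by
        have he2 : 2 ^ (j - m) * 2 ^ m = 2 ^ j := by rw [← pow_add]; congr 1; omega
        rw [← hm, mul_add, mul_one, he2]; omega
      have : P ∣ 2 ^ (j - m) + 1 := (Nat.dvd_add_right hdv).1 (he ▸ Dvd.intro_left _ rfl)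
      have := Nat.le_of_dvd (Nat.succ_pos _) this
      omega
    · have := Nat.pow_le_pow_right (by norm_num : 0 < 2) h
      have := Nat.le_of_dvd (by omega) hdv
      omega
  have h2d : 2 * m ∣ d := by
    refine Nat.dvd_of_mod_eq_zero (Nat.eq_zero_of_not_pos fun hr => ?_)
    refine hord _ hr (Nat.mod_lt _ (by omega)) ?_
    have h1 : P ∣ 2 ^ (2 * m * (d / (2 * m))) - 1 := h2m.trans (by
      simpa using Nat.sub_dvd_pow_sub_pow (2 ^ (2 * m)) 1 (d / (2 * m)) |>.trans (by
        rw [← pow_mul, one_pow]))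
    have h3 : P ∣ 2 ^ d - 1 := (pow_dvd_pow p (by omega)).trans hdiv
    have h4 : 2 ^ d - 1 = 2 ^ (d % (2 * m)) * (2 ^ (2 * m * (d / (2 * m))) - 1) +
        (2 ^ (d % (2 * m)) - 1) := by
      have hA : 2 ^ (d % (2 * m)) * 2 ^ (2 * m * (d / (2 * m))) = 2 ^ d := by
        rw [← pow_add, Nat.mod_add_div]
      have hB : 1 ≤ 2 ^ (d % (2 * m)) := Nat.one_le_two_pow
      have hC : 2 ^ (d % (2 * m)) ≤ 2 ^ d := Nat.pow_le_pow_right (by norm_num) (Nat.mod_le _ _)
      rw [Nat.mul_sub, hA, mul_one]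
      omega
    rw [h4] at h3
    exact (Nat.dvd_add_right (h1.mul_left _)).1 h3
  obtain ⟨t, rfl⟩ := h2d
  have ht0 : t ≠ 0 := fun e' => by rw [e', mul_zero] at hd; exact lt_irrefl 0 hd
  have htle : t ≤ p ^ i := Nat.le_of_mul_le_mul_left hle (by omega)
  have hpm : ¬ p ∣ 2 ^ m - 1 := fun h => by
    have h1 : p ∣ 2 ^ m + 1 := hm ▸ dvd_pow_self p (by omega)
    have h2 := Nat.dvd_sub h1 h
    have : 1 ≤ 2 ^ m := Nat.one_le_two_pow
    rw [show 2 ^ m + 1 - (2 ^ m - 1) = 2 by omega] at h2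
    have := Nat.le_of_dvd (by norm_num) h2
    omega
  have hval1 : padicValNat p (2 ^ (2 * m) - 1) = e + 1 := by
    have h1 : 2 ^ (2 * m) - 1 = p ^ (e + 1) * (2 ^ m - 1) := by
      rw [← hP, ← hm, ← Nat.sq_sub_sq, ← pow_mul, mul_comm m 2, one_pow]
    have hne : 2 ^ m - 1 ≠ 0 := by
      have : 2 ≤ 2 ^ m := Nat.le_self_pow (by omega) 2
      omega
    rw [h1, padicValNat.mul (pow_ne_zero _ hp.out.ne_zero) hne, padicValNat.prime_pow,
      padicValNat.eq_zero_of_not_dvd hpm, add_zero]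
  have hval := padicValNat.pow_sub_pow (p := p) (hp.out.odd_of_ne_two hp2) (x := 2 ^ (2 * m)) (y := 1)
    (Nat.one_lt_two_pow (by omega)) ((dvd_pow_self p (by omega)).trans h2m)
    (fun h => by
      have := Nat.le_of_dvd (by norm_num) (hp.out.dvd_of_dvd_pow h)
      omega) (n := t) ht0
  rw [← pow_mul, one_pow, hval1] at hval
  have hne : 2 ^ (2 * m * t) - 1 ≠ 0 := by
    have : 2 ≤ 2 ^ (2 * m * t) := Nat.le_self_pow (by omega) 2
    omega
  have hge : n + 1 ≤ padicValNat p (2 ^ (2 * m * t) - 1) :=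
    (padicValNat_dvd_iff_le hne).1 hdiv
  have hpt : p ^ i ∣ t := (padicValNat_dvd_iff_le ht0).2 (by omega)
  have : t = p ^ i := le_antisymm htle (Nat.le_of_dvd (Nat.pos_of_ne_zero ht0) hpt)
  rw [this]

section core

variable {K : Type u} [Field K] [IsAlgClosed K] {V : Type v} [AddCommGroup V] [Module K V]
  [FiniteDimensional K V] {Q : Type w} [Group Q] [Finite Q]

/-- The minimal counterexample does not exist. -/
theorem core {p q n : ℕ} [hp : Fact p.Prime] [hq : Fact q.Prime] (hp2 : p ≠ 2) (hqp : q ≠ p)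
    (hpK : (p : K) ≠ 0) (hqK : (q : K) ≠ 0) (S : Module.End K V)
    (hSP : S ^ (p ^ (n + 1)) = 1) (hsum : ∑ l ∈ range (p ^ (n + 1)), S ^ l = 0)
    (hQ : IsPGroup q Q) (θ : MulAut Q) (ρ : Q →* Module.End K V) (hinj : Function.Injective ρ)
    (hS : ∀ x, S * ρ x = ρ (θ x) * S) (hfpf : ∀ x, θ x = x → x = 1)
    (hθP : θ ^ (p ^ (n + 1)) = 1) (hT : θ ^ (p ^ n) ≠ 1)
    (hprop : ∀ R : Subgroup Q, (∀ x ∈ R, θ x ∈ R) → R ≠ ⊤ → ∀ x ∈ R, (θ ^ (p ^ n)) x = x) :
    False := by
  classical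
  haveI := Fintype.ofFinite Q
  set T := θ ^ (p ^ n) with hTdef
  have hTp : T ^ p = 1 := by rw [hTdef, ← pow_mul, ← pow_succ, hθP]
  have hTθ : ∀ x, T (θ x) = θ (T x) := fun x => by
    rw [← MulAut.mul_apply, ← MulAut.mul_apply, hTdef, ← pow_succ, ← pow_succ']
  have hQcard : ¬ p ∣ Nat.card Q := fun h => by
    obtain ⟨a, ha⟩ := hQ.exists_card_eq
    rw [ha] at h
    exact hqp ((Nat.prime_dvd_prime_iff_eq hp.out hq.out).1 (hp.out.dvd_of_dvd_pow h)).symm
  have hQK : (Nat.card Q : K) ≠ 0 := by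
    obtain ⟨a, ha⟩ := hQ.exists_card_eq
    rw [ha, Nat.cast_pow]
    exact pow_ne_zero _ hqK
  have hTB : IsPGroup p (Subgroup.zpowers T) := fun b => ⟨1, by
    obtain ⟨b, hb⟩ := b
    obtain ⟨k, rfl⟩ := Subgroup.mem_zpowers_iff.1 hb
    exact Subtype.ext (show (T ^ k) ^ (p ^ 1) = 1 by
      rw [pow_one, ← zpow_natCast, ← zpow_mul, mul_comm, zpow_mul, zpow_natCast, hTp, one_zpow])⟩
  -- the fixed subgroup of `T`
  set C : Subgroup Q := MonoidHom.eqLocus T.toMonoidHom (MonoidHom.id Q) with hC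
  have hCmem : ∀ x, x ∈ C ↔ T x = x := fun x => Iff.rfl
  have hCθ : ∀ x, θ x ∈ C ↔ x ∈ C := fun x => by
    rw [hCmem, hCmem, hTθ, θ.injective.eq_iff]
  have hCle : ∀ R : Subgroup Q, (∀ x ∈ R, θ x ∈ R) → R ≠ ⊤ → R ≤ C :=
    fun R h1 h2 x hx => hprop R h1 h2 x hx
  have hCtop : C ≠ ⊤ := fun e => hT (MulEquiv.ext fun x =>
    (hCmem x).1 (e ▸ Subgroup.mem_top x))
  have hFC : frattini Q ≤ C := by
    refine hCle _ (fun x hx => ?_) (fun e => ?_)
    · exact (map_characteristic θ inferInstance).le (Subgroup.mem_map_of_mem _ hx)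
    · have h := eq_top_of_sup_frattini (K := (⊥ : Subgroup Q)) (by rw [e, bot_sup_eq])
      exact hCtop (eq_top_iff.2 (h ▸ bot_le))
  have hcomC : ∀ x y : Q, x * y * x⁻¹ * y⁻¹ ∈ C := fun x y =>
    hFC (pgroup_commutator_le_frattini hQ
      (Subgroup.commutator_mem_commutator (Subgroup.mem_top x) (Subgroup.mem_top y)))
  -- lifting fixed points of `T`
  have hlift : ∀ M : Subgroup Q, C ≤ M → (∀ x ∈ M, T x ∈ M) → ∀ x, x⁻¹ * T x ∈ M → x ∈ M := by
    intro M hCM hTM x hx
    have hTM' : ∀ (b : Subgroup.zpowers T), ∀ m ∈ M, (Subgroup.zpowers T).subtype b m ∈ M := by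
      rintro ⟨b, hb⟩ m hm
      obtain ⟨j, rfl⟩ := mem_zpowers_nat hb
      show (T ^ j) m ∈ M
      induction j with
      | zero => simpa using hm
      | succ j ih => rw [pow_succ', MulAut.mul_apply]; exact hTM _ (ih (pow_mem (Subgroup.mem_zpowers T) j))
    obtain ⟨g, hg, hgf⟩ := Ward.exists_fixed_mod hTB (Subgroup.zpowers T).subtype M hTM'
      (fun h => hQcard (h.trans (Subgroup.card_subgroup_dvd_card _))) (x := x) (by
        rintro ⟨b, hb⟩
        obtain ⟨j, rfl⟩ := mem_zpowers_nat hb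
        show x⁻¹ * (T ^ j) x ∈ M
        clear hb
        induction j with
        | zero => simp
        | succ j ih =>
          rw [pow_succ', MulAut.mul_apply,
            show x⁻¹ * T ((T ^ j) x) = x⁻¹ * T x * ((T x)⁻¹ * T ((T ^ j) x)) by group]
          refine mul_mem hx ?_
          rw [← map_inv, ← map_mul]
          exact hTM _ ih)
    have hgC : g ∈ M := hCM ((hCmem g).2 (hgf ⟨T, Subgroup.mem_zpowers T⟩))
    have := mul_mem hgC (inv_mem hg)
    rwa [show g * (x⁻¹ * g)⁻¹ = x by group] at this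
  have hliftC : ∀ x, x⁻¹ * T x ∈ C → x ∈ C :=
    hlift C le_rfl fun x hx => by rw [(hCmem x).1 hx]; exact hx
  -- `C` is central
  have hgen : Subgroup.closure (Set.range fun x => x⁻¹ * T x) = ⊤ := by
    by_contra hne
    have hle := hCle _ (fun x hx => by
      have h : (Subgroup.closure (Set.range fun x => x⁻¹ * T x)).map θ.toMonoidHom ≤
          Subgroup.closure (Set.range fun x => x⁻¹ * T x) := by
        rw [MonoidHom.map_closure]
        refine Subgroup.closure_mono ?_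
        rintro _ ⟨_, ⟨y, rfl⟩, rfl⟩
        exact ⟨θ y, by show (θ y)⁻¹ * T (θ y) = θ (y⁻¹ * T y); rw [map_mul, map_inv, hTθ]⟩
      exact h (Subgroup.mem_map_of_mem _ hx)) hne
    exact hCtop (eq_top_iff.2 fun x _ => hliftC x (hle (Subgroup.subset_closure ⟨x, rfl⟩)))
  have hcen : ∀ c ∈ C, ∀ x, x * c = c * x := by
    intro c hc x
    have h : Subgroup.closure (Set.range fun y => y⁻¹ * T y) ≤ Subgroup.centralizer {c} := by
      refine (Subgroup.closure_le _).2 ?_
      rintro _ ⟨y, rfl⟩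
      refine Subgroup.mem_centralizer_singleton_iff.2 ?_
      have h1 : T (c * y * c⁻¹ * y⁻¹) = c * y * c⁻¹ * y⁻¹ := (hCmem _).1 (hcomC c y)
      rw [map_mul, map_mul, map_mul, map_inv, map_inv, (hCmem c).1 hc] at h1
      have h2 : T y * c⁻¹ * (T y)⁻¹ = y * c⁻¹ * y⁻¹ := by
        have h1' := congrArg (c⁻¹ * ·) h1
        simpa [mul_assoc] using h1'
      have h2' := congrArg (·⁻¹) h2
      simp only [mul_inv_rev, inv_inv] at h2'
      calc y⁻¹ * T y * c = y⁻¹ * (T y * (c * (T y)⁻¹)) * T y := by group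
        _ = y⁻¹ * (y * (c * y⁻¹)) * T y := by rw [h2']
        _ = c * (y⁻¹ * T y) := by group
    exact Subgroup.mem_centralizer_singleton_iff.1 (h (hgen ▸ Subgroup.mem_top x))
  set cm : Q → Q → Q := fun x y => x * y * x⁻¹ * y⁻¹ with hcm
  have hcmC : ∀ x y, cm x y ∈ C := hcomC
  have hcmr : ∀ x y y', cm x (y * y') = cm x y * cm x y' := fun x y y' => by
    simp only [hcm]
    calc x * (y * y') * x⁻¹ * (y * y')⁻¹
        = (x * y * x⁻¹ * y⁻¹) * (y * (x * y' * x⁻¹ * y'⁻¹)) * y⁻¹ := by group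
      _ = (x * y * x⁻¹ * y⁻¹) * ((x * y' * x⁻¹ * y'⁻¹) * y) * y⁻¹ := by
        rw [hcen _ (hcomC x y') y]
      _ = _ := by group
  have hcms : ∀ x y, cm y x = (cm x y)⁻¹ := fun x y => by simp only [hcm]; group
  have hcml : ∀ x x' y, cm (x * x') y = cm x y * cm x' y := fun x x' y => by
    rw [hcms y, hcmr, mul_inv_rev, ← hcms y, ← hcms y, hcen _ (hcmC x y)]
  have hcmθ : ∀ (j : ℕ) x y, cm ((θ ^ j) x) ((θ ^ j) y) = (θ ^ j) (cm x y) := fun j x y => by
    simp only [hcm, map_mul, map_inv]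
  have hSj : ∀ (j : ℕ) x, S ^ j * ρ x = ρ ((θ ^ j) x) * S ^ j := by
    intro j
    induction j with
    | zero => intro x; simp
    | succ j ih =>
      intro x
      rw [pow_succ', mul_assoc, ih, ← mul_assoc, hS, mul_assoc, pow_succ', MulAut.mul_apply]
  have hρv : ∀ x (z : V), ρ x⁻¹ (ρ x z) = z := fun x z => by
    rw [← Module.End.mul_apply, ← map_mul, inv_mul_cancel, map_one, Module.End.one_apply]
  -- `Q` is not abelian
  obtain ⟨x0, y0, hxy0⟩ : ∃ x y, cm x y ≠ 1 := by
    by_contra hab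
    push Not at hab
    have hcomm : ∀ x y : Q, x * y = y * x := fun x y => by
      have h : x * y * x⁻¹ * y⁻¹ = 1 := hab x y
      rw [mul_inv_eq_one, mul_inv_eq_iff_eq_mul] at h
      exact h
    refine hT (MulEquiv.ext fun x => hinj ?_)
    show ρ (T x) = ρ x
    refine LinearMap.ext_on (span_eigen (fun y => ρ y) (Nat.card Q) hQK univ
      (fun y _ y' _ => by show ρ y * ρ y' = ρ y' * ρ y; rw [← map_mul, ← map_mul, hcomm])
      (fun y _ => by rw [← map_pow, pow_card_eq_one', map_one])) fun v hv => ?_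
    rcases eq_or_ne v 0 with rfl | hv0
    · simp
    choose ψ hψ using fun y => hv y (mem_univ y)
    obtain ⟨i, hi, hper, -⟩ := weight_period (m := n) hp.out (fun y => ρ y) θ.toEquiv S
      (fun y z => by
        show ρ (θ y) (S z) = S (ρ y z)
        rw [← Module.End.mul_apply, ← hS, Module.End.mul_apply]) hv0 hψ
      (fun y => by
        have : (θ.toEquiv ^ (p ^ (n + 1))) y = (θ ^ (p ^ (n + 1))) y := (perm_pow_apply θ _ y)
        rw [this, hθP, MulAut.one_apply])
      (by rw [← LinearMap.sum_apply, hsum]; rfl)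
    have hmul : ∀ l y, ψ ((θ.toEquiv ^ (p ^ i * l)) y) = ψ y := by
      intro l
      induction l with
      | zero => intro y; rw [mul_zero, pow_zero]; rfl
      | succ l ih => intro y; rw [Nat.mul_succ, pow_add, Equiv.Perm.mul_apply, ih, hper]
    have h := hmul (p ^ (n - i)) x
    rw [← pow_add, Nat.add_sub_cancel' hi, perm_pow_apply, ← hTdef] at h
    rw [hψ, hψ, h]
  have hc0 : ρ (cm x0 y0) ≠ 1 := fun e => hxy0 (hinj (by rw [e, map_one]))
  -- a weight of `C`
  obtain ⟨v0, hv0, hv00, hv01⟩ : ∃ v : V, (∀ c ∈ C, ∃ a : K, ρ c v = a • v) ∧ v ≠ 0 ∧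
      ρ (cm x0 y0) v ≠ v := by
    by_contra hcon
    push Not at hcon
    refine hc0 (LinearMap.ext_on (span_eigen (fun y => ρ y) (Nat.card Q) hQK (univ.filter (· ∈ C))
      (fun y hy y' _ => by
        show ρ y * ρ y' = ρ y' * ρ y
        rw [← map_mul, ← map_mul, hcen y (mem_filter.1 hy).2])
      (fun y _ => by rw [← map_pow, pow_card_eq_one', map_one])) fun v hv => ?_)
    rcases eq_or_ne v 0 with rfl | hv0
    · simp
    rw [Module.End.one_apply]
    exact hcon v (fun c hc => hv c (mem_filter.2 ⟨mem_univ c, hc⟩)) hv0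
  choose χ0 hχ0 using hv0
  let χ : Q → K := fun x => if h : x ∈ C then χ0 x h else 0
  let opC : Q → Module.End K V := fun x => if x ∈ C then ρ x else 0
  have hopC : ∀ x, opC x v0 = χ x • v0 := fun x => by
    simp only [opC, χ]
    split_ifs with h
    · exact hχ0 x h
    · simp
  have hχv : ∀ c ∈ C, ρ c v0 = χ c • v0 := fun c hc => by
    have := hopC c; simpa only [opC, if_pos hc] using this
  have hcan : ∀ {a b : K} {v : V}, v ≠ 0 → a • v = b • v → a = b := fun {a b v} hv h => by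
    have h' : (a - b) • v = 0 := by rw [sub_smul, h, sub_self]
    exact sub_eq_zero.1 ((smul_eq_zero.1 h').resolve_right hv)
  have hχ1 : χ 1 = 1 := hcan hv00 (by rw [← hχv 1 (one_mem C), map_one, one_smul]; rfl)
  have hχmul : ∀ c ∈ C, ∀ c' ∈ C, χ (c * c') = χ c * χ c' := fun c hc c' hc' => hcan hv00 (by
    rw [← hχv _ (mul_mem hc hc'), map_mul, Module.End.mul_apply, hχv c' hc', map_smul, hχv c hc,
      smul_smul, mul_comm])
  have hχc0 : χ (cm x0 y0) ≠ 1 := fun e => hv01 (by rw [hχv _ (hcmC _ _), e, one_smul])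
  have hθpC : ∀ (j : ℕ) x, (θ ^ j) x ∈ C ↔ x ∈ C := by
    intro j
    induction j with
    | zero => intro x; simp
    | succ j ih => intro x; rw [pow_succ', MulAut.mul_apply, hCθ, ih]
  have hopS : ∀ y z, opC (θ.toEquiv y) (S z) = S (opC y z) := fun y z => by
    simp only [opC]
    by_cases h : y ∈ C
    · rw [if_pos h, if_pos (show θ.toEquiv y ∈ C from (hCθ y).2 h)]
      show ρ (θ y) (S z) = S (ρ y z)
      rw [← Module.End.mul_apply, ← hS, Module.End.mul_apply]
    · rw [if_neg h, if_neg (show ¬ θ.toEquiv y ∈ C from fun h' => h ((hCθ y).1 h'))]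
      simp
  obtain ⟨i, hi, hχper, hχmin⟩ := weight_period (m := n) hp.out opC θ.toEquiv S hopS hv00 hopC
    (fun y => by rw [perm_pow_apply, hθP, MulAut.one_apply])
    (by rw [← LinearMap.sum_apply, hsum]; rfl)
  set θ1 := θ ^ (p ^ i) with hθ1
  have hχθ1 : ∀ y, χ (θ1 y) = χ y := fun y => by rw [← hχper y, perm_pow_apply]
  set S1 := S ^ (p ^ i) with hS1
  have hS1ρ : ∀ x, S1 * ρ x = ρ (θ1 x) * S1 := hSj _
  -- the weight space
  let Vχ : Submodule K V :=
    { carrier := {v | ∀ c ∈ C, ρ c v = χ c • v}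
      add_mem' := fun {a b} ha hb c hc => by rw [map_add, ha c hc, hb c hc, smul_add]
      zero_mem' := fun c _ => by simp
      smul_mem' := fun a v hv c hc => by rw [map_smul, hv c hc, smul_comm] }
  have hsum1 : ∀ v ∈ Vχ, ∑ l ∈ range (p ^ (n + 1 - i)), (S1 ^ l) v = 0 := fun v hv =>
    period_sum opC θ.toEquiv S hopS (ψ := χ) (fun y => by
      simp only [opC]
      split_ifs with h
      · exact hv y h
      · simp [χ, h]) (pow_pos hp.out.pos i) hχmin hχper (by
        rw [← pow_add, Nat.add_sub_cancel' (by omega), ← LinearMap.sum_apply, hsum]; rfl)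
  -- the radical of the pairing
  let N : Subgroup Q :=
    { carrier := {x | ∀ y, χ (cm x y) = 1}
      one_mem' := fun y => by simp [hcm, hχ1]
      mul_mem' := fun {a b} ha hb y => by
        rw [hcml, hχmul _ (hcmC a y) _ (hcmC b y), ha y, hb y, one_mul]
      inv_mem' := fun {a} ha y => by
        have h := hcml a a⁻¹ y
        rw [mul_inv_cancel, show cm 1 y = 1 by simp [hcm]] at h
        have h' := congrArg χ h
        rw [hχ1, hχmul _ (hcmC a y) _ (hcmC a⁻¹ y), ha y, one_mul] at h'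
        exact h'.symm }
  have hNmem : ∀ x, x ∈ N ↔ ∀ y, χ (cm x y) = 1 := fun x => Iff.rfl
  have hCN : C ≤ N := fun c hc y => by
    rw [show cm c y = 1 by
      simp only [hcm]; rw [mul_inv_eq_one, mul_inv_eq_iff_eq_mul, hcen c hc], hχ1]
  haveI hNn : N.Normal := normal_of_commutator_le
    (fun x hx => hCN (hFC (pgroup_commutator_le_frattini hQ hx)))
  have hθ1N : ∀ x, θ1 x ∈ N ↔ x ∈ N := fun x => by
    constructor
    · intro h y
      have := h (θ1 y)
      rwa [hθ1, hcmθ, ← hθ1, hχθ1] at this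
    · intro h y
      obtain ⟨y, rfl⟩ := θ1.surjective y
      rw [hθ1, hcmθ, ← hθ1, hχθ1]
      exact h y
  have hx0N : x0 ∉ N := fun h => hχc0 (h y0)
  have hS1V : ∀ v ∈ Vχ, S1 v ∈ Vχ := fun v hv c hc => by
    obtain ⟨c, rfl⟩ := θ1.surjective c
    rw [← Module.End.mul_apply, ← hS1ρ, Module.End.mul_apply, hv c ((hθpC _ c).1 hc), map_smul,
      hχθ1]
  -- a weight of `N`
  obtain ⟨u, huV, hu0, ψ0, hψ0⟩ := exists_eigen (fun x : N => ρ x.1) (Nat.card Q) hQK Vχ
    (fun e => hv00 (by have := hχv; exact (Submodule.mem_bot K).1 (e ▸ (this : v0 ∈ Vχ))))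
    (fun x v hv c hc => by
      rw [← Module.End.mul_apply, ← map_mul, ← hcen c hc, map_mul, Module.End.mul_apply, hv c hc,
        map_smul])
    (fun x y v hv => by
      rw [← Module.End.mul_apply, ← map_mul, ← Module.End.mul_apply, ← map_mul,
        show x.1 * y.1 = y.1 * x.1 * cm x y by
          rw [hcen _ (hcmC x y)]; simp only [hcm]; group,
        map_mul ρ (y.1 * x.1), Module.End.mul_apply, hv _ (hcmC _ _), x.2 y.1, one_smul])
    (fun x v _ => by rw [← map_pow, pow_card_eq_one', map_one]; rfl)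
  let ψ : Q → K := fun x => if h : x ∈ N then ψ0 ⟨x, h⟩ else 0
  let opN : Q → Module.End K V := fun x => if x ∈ N then ρ x else 0
  have hopN : ∀ x, opN x u = ψ x • u := fun x => by
    simp only [opN, ψ]
    split_ifs with h
    · exact hψ0 ⟨x, h⟩
    · simp
  have hψu : ∀ x ∈ N, ρ x u = ψ x • u := fun x hx => by
    have := hopN x; simpa only [opN, if_pos hx] using this
  have hψχ : ∀ c ∈ C, ψ c = χ c := fun c hc =>
    hcan hu0 (by rw [← hψu c (hCN hc), huV c hc])
  have hψmul : ∀ x ∈ N, ∀ y ∈ N, ψ (x * y) = ψ x * ψ y := fun x hx y hy => hcan hu0 (by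
    rw [← hψu _ (mul_mem hx hy), map_mul, Module.End.mul_apply, hψu y hy, map_smul, hψu x hx,
      smul_smul, mul_comm])
  have hopS1 : ∀ y z, opN (θ1.toEquiv y) (S1 z) = S1 (opN y z) := fun y z => by
    simp only [opN]
    by_cases h : y ∈ N
    · rw [if_pos h, if_pos (show θ1.toEquiv y ∈ N from (hθ1N y).2 h)]
      show ρ (θ1 y) (S1 z) = S1 (ρ y z)
      rw [← Module.End.mul_apply, ← hS1ρ, Module.End.mul_apply]
    · rw [if_neg h, if_neg (show ¬ θ1.toEquiv y ∈ N from fun h' => h ((hθ1N y).1 h'))]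
      simp
  have hθ1P : θ1 ^ (p ^ (n + 1 - i)) = 1 := by
    rw [hθ1, ← pow_mul, ← pow_add, Nat.add_sub_cancel' (by omega), hθP]
  obtain ⟨i', hi', hψper, hψmin⟩ := weight_period (m := n - i) hp.out opN θ1.toEquiv S1 hopS1 hu0
    hopN
    (fun y => by
      rw [perm_pow_apply, show n - i + 1 = n + 1 - i by omega, hθ1P, MulAut.one_apply])
    (by rw [show n - i + 1 = n + 1 - i by omega]; exact hsum1 u huV)
  set e := n - i - i' with he
  set θ2 := θ1 ^ (p ^ i') with hθ2
  set S2 := S1 ^ (p ^ i') with hS2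
  have hψθ2 : ∀ y, ψ (θ2 y) = ψ y := fun y => by rw [← hψper y, perm_pow_apply]
  have hθ2j : θ2 = θ ^ (p ^ (i + i')) := by rw [hθ2, hθ1, ← pow_mul, ← pow_add]
  have hS2j : S2 = S ^ (p ^ (i + i')) := by rw [hS2, hS1, ← pow_mul, ← pow_add]
  have hS2ρ : ∀ x, S2 * ρ x = ρ (θ2 x) * S2 := by rw [hθ2j, hS2j]; exact hSj _
  have hθ2N : ∀ x, θ2 x ∈ N ↔ x ∈ N := by
    intro x
    have : ∀ (j : ℕ) x, (θ1 ^ j) x ∈ N ↔ x ∈ N := by
      intro j
      induction j with
      | zero => intro x; simp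
      | succ j ih => intro x; rw [pow_succ', MulAut.mul_apply, hθ1N, ih]
    exact this _ x
  let U : Submodule K V :=
    { carrier := {v | ∀ x ∈ N, ρ x v = ψ x • v}
      add_mem' := fun {a b} ha hb c hc => by rw [map_add, ha c hc, hb c hc, smul_add]
      zero_mem' := fun c _ => by simp
      smul_mem' := fun a v hv c hc => by rw [map_smul, hv c hc, smul_comm] }
  have hUχ : ∀ v ∈ U, v ∈ Vχ := fun v hv c hc => by rw [hv c (hCN hc), hψχ c hc]
  have hUQ : ∀ y, ∀ v ∈ U, ρ y v ∈ U := fun y v hv x hx => by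
    rw [← Module.End.mul_apply, ← map_mul,
      show x * y = y * x * cm x y by rw [hcen _ (hcmC x y)]; simp only [hcm]; group,
      map_mul, Module.End.mul_apply, hUχ v hv _ (hcmC x y), hx y, one_smul, map_mul,
      Module.End.mul_apply, hv x hx, map_smul]
  have hUS : ∀ v ∈ U, S2 v ∈ U := fun v hv x hx => by
    obtain ⟨x, rfl⟩ := θ2.surjective x
    rw [← Module.End.mul_apply, ← hS2ρ, Module.End.mul_apply, hv x ((hθ2N x).1 hx), map_smul, hψθ2]
  have hsum2 : ∀ v ∈ U, ∑ l ∈ range (p ^ (e + 1)), (S2 ^ l) v = 0 := fun v hv =>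
    period_sum opN θ1.toEquiv S1 hopS1 (ψ := ψ) (fun y => by
      simp only [opN]
      split_ifs with h
      · exact hv y h
      · simp [ψ, h]) (pow_pos hp.out.pos i') hψmin hψper (by
        rw [← pow_add, show i' + (e + 1) = n + 1 - i by omega]; exact hsum1 v (hUχ v hv))
  haveI : Nontrivial U :=
    ⟨⟨⟨u, hψu⟩, 0, fun h => hu0 (congrArg Subtype.val h)⟩⟩
  let rU : Q →* Module.End K U :=
    { toFun := fun x => (ρ x).restrict (hUQ x)
      map_one' := LinearMap.ext fun v => Subtype.ext (by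
        show ρ 1 (v : V) = _; rw [map_one]; rfl)
      map_mul' := fun x y => LinearMap.ext fun v => Subtype.ext (by
        show ρ (x * y) (v : V) = _; rw [map_mul]; rfl) }
  have hpowU : ∀ (l : ℕ) (v : U), (((S2.restrict hUS) ^ l) v : V) = (S2 ^ l) v := by
    intro l
    induction l with
    | zero => intro v; rfl
    | succ l ih =>
      intro v
      rw [pow_succ', pow_succ', Module.End.mul_apply, Module.End.mul_apply, ← ih]
      rfl
  obtain ⟨k, hk, hkP⟩ := twisted_counting hQK N (fun h => hx0N (h ▸ Subgroup.mem_top x0)) rU ψ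
    (fun x hx => LinearMap.ext fun v => Subtype.ext (by
      show ρ x (v : V) = _; rw [v.2 x hx]; rfl))
    (fun y x => χ (cm y x))
    (fun y x => LinearMap.ext fun v => Subtype.ext (by
      show ρ y (ρ x (v : V)) = χ (cm y x) • ρ x (ρ y (v : V))
      rw [← Module.End.mul_apply, ← map_mul,
        show y * x = x * y * cm y x by rw [hcen _ (hcmC y x)]; simp only [hcm]; group,
        map_mul, Module.End.mul_apply, hUχ _ v.2 _ (hcmC y x), map_smul, map_mul,
        Module.End.mul_apply]))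
    (fun x => by
      refine ⟨fun h y => ?_, fun h y => ?_⟩
      · have h' := hχmul _ (hcmC y x) _ (hcmC x y)
        rw [hcms x y, inv_mul_cancel, hχ1, h y, mul_one] at h'
        rw [hcms x y]
        exact h'.symm
      · have h' := hχmul _ (hcmC y x) _ (hcmC x y)
        rw [h y, one_mul, hcms x y, inv_mul_cancel, hχ1] at h'
        exact h'.symm)
    (S2.restrict hUS) θ2 hθ2N
    (fun x => LinearMap.ext fun v => Subtype.ext (by
      show S2 (ρ x (v : V)) = ρ (θ2 x) (S2 (v : V))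
      rw [← Module.End.mul_apply, hS2ρ, Module.End.mul_apply]))
    (P := p ^ (e + 1)) (Nat.one_lt_pow (by omega) hp.out.one_lt)
    (by rw [Nat.cast_pow]; exact pow_ne_zero _ hpK)
    (LinearMap.ext fun v => Subtype.ext (by
      rw [hpowU, hS2j, ← pow_mul, ← pow_add, show i + i' + (e + 1) = n + 1 by omega, hSP]
      rfl))
    (LinearMap.ext fun v => Subtype.ext (by
      rw [LinearMap.sum_apply, AddSubmonoidClass.coe_finset_sum,
        sum_congr rfl fun l _ => hpowU l v, hsum2 v v.2]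
      rfl))
    (fun x => by
      rw [hθ2j, ← pow_mul, ← pow_add, show i + i' + (e + 1) = n + 1 by omega, hθP, MulAut.one_apply,
        inv_mul_cancel]
      exact one_mem N)
    (fun x j hj0 hjP hx => by
      -- `T` fixes the coset
      let π : Equiv.Perm (Q ⧸ N) := (QuotientGroup.congr N N θ2 (by
        ext z
        constructor
        · rintro ⟨y, hy, rfl⟩; exact (hθ2N y).2 hy
        · intro hz
          obtain ⟨y, rfl⟩ := θ2.surjective z
          exact ⟨y, (hθ2N y).1 hz, rfl⟩)).toEquiv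
      have hπ : ∀ (l : ℕ) (z : Q), (π ^ l) (z : Q ⧸ N) = ((θ2 ^ l) z : Q) := by
        intro l
        induction l with
        | zero => intro z; rfl
        | succ l ih => intro z; rw [pow_succ', pow_succ', Equiv.Perm.mul_apply, ih]; rfl
      have h1 : Function.IsPeriodicPt π j (x : Q ⧸ N) := by
        show π^[j] (x : Q ⧸ N) = x
        rw [← Equiv.Perm.coe_pow, hπ]
        exact (QuotientGroup.eq.2 hx).symm
      have h2 : Function.IsPeriodicPt π (p ^ (e + 1)) (x : Q ⧸ N) := by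
        show π^[p ^ (e + 1)] (x : Q ⧸ N) = x
        rw [← Equiv.Perm.coe_pow, hπ, hθ2j, ← pow_mul, ← pow_add,
          show i + i' + (e + 1) = n + 1 by omega, hθP, MulAut.one_apply]
      have h3 := h1.gcd h2
      have h4 : Nat.gcd j (p ^ (e + 1)) ∣ p ^ e := by
        obtain ⟨f, hf, hfe⟩ := (Nat.dvd_prime_pow hp.out).1 (Nat.gcd_dvd_right j (p ^ (e + 1)))
        rw [hfe]
        refine pow_dvd_pow p ?_
        by_contra hne
        obtain rfl : f = e + 1 := by omega
        have := Nat.le_of_dvd hj0 (hfe ▸ Nat.gcd_dvd_left j _)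
        omega
      obtain ⟨c, hc⟩ := h4
      have h5 : π^[p ^ e] (x : Q ⧸ N) = x := by rw [hc]; exact h3.mul_const c
      rw [← Equiv.Perm.coe_pow, hπ, hθ2j, ← pow_mul, ← pow_add,
        show i + i' + e = n by omega, ← hTdef] at h5
      refine hlift N hCN (fun z hz => ?_) x (QuotientGroup.eq.1 h5.symm)
      have : T = θ2 ^ (p ^ e) := by
        rw [hθ2j, ← pow_mul, ← pow_add, show i + i' + e = n by omega]
      rw [this]
      clear this
      generalize p ^ e = l
      induction l with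
      | zero => simpa using hz
      | succ l ih => rw [pow_succ', MulAut.mul_apply]; exact (hθ2N _).2 ih)
  -- so `q = 2` and `k` is a power of two
  have hp3 : 3 ≤ p := by have := hp.out.two_le; omega
  have hk2 : 2 ∣ k := by
    have h1 : Odd (p ^ (e + 1)) := (hp.out.odd_of_ne_two hp2).pow
    rw [← hkP, Nat.odd_add_one, Nat.not_odd_iff_even] at h1
    exact h1.two_dvd
  have hk1 : 1 < k := by
    have : 3 ≤ p ^ (e + 1) := hp3.trans (Nat.le_self_pow (by omega) p)
    omega
  obtain ⟨a, ha⟩ := hQ.exists_card_eq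
  have hkQ : k ∣ q ^ a := ha ▸ (dvd_pow_self k two_ne_zero).trans (hk ▸ N.index_dvd_card)
  have hq2 : q = 2 :=
    ((Nat.prime_dvd_prime_iff_eq Nat.prime_two hq.out).1
      (Nat.prime_two.dvd_of_dvd_pow (hk2.trans hkQ))).symm
  subst hq2
  obtain ⟨m, -, hm⟩ := (Nat.dvd_prime_pow Nat.prime_two).1 hkQ
  -- the map to `(Q ⧸ N) ^ (p ^ i)`
  haveI hCn : C.Normal := normal_of_commutator_le (fun x hx => hFC (pgroup_commutator_le_frattini hQ hx))
  let Ψ : Q →* (Fin (p ^ i) → Q ⧸ N) := MonoidHom.pi fun a =>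
    (QuotientGroup.mk' N).comp (θ ^ (a : ℕ)).toMonoidHom
  have hΨ : ∀ x a, Ψ x a = (((θ ^ (a : ℕ)) x : Q) : Q ⧸ N) := fun _ _ => rfl
  have hpi : 0 < p ^ i := pow_pos hp.out.pos i
  have hker : Ψ.ker = C := by
    refine le_antisymm (hCle _ (fun x hx => ?_) ?_) (fun c hc => ?_)
    · have hx' : ∀ a : Fin (p ^ i), (θ ^ (a : ℕ)) x ∈ N := fun a =>
        (QuotientGroup.eq_one_iff _).1 ((hΨ x a).symm.trans (congrFun (MonoidHom.mem_ker.1 hx) a))
      refine MonoidHom.mem_ker.2 (funext fun a => ?_)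
      rw [hΨ, Pi.one_apply, QuotientGroup.eq_one_iff, ← MulAut.mul_apply, ← pow_succ]
      rcases Nat.lt_or_ge ((a : ℕ) + 1) (p ^ i) with h | h
      · exact hx' ⟨_, h⟩
      · rw [show (a : ℕ) + 1 = p ^ i by omega, ← hθ1]
        exact (hθ1N x).2 (by simpa using hx' ⟨0, hpi⟩)
    · intro h
      have h1 : x0 ∈ Ψ.ker := h ▸ Subgroup.mem_top x0
      have h2 := (QuotientGroup.eq_one_iff _).1
        ((hΨ x0 ⟨0, hpi⟩).symm.trans (congrFun (MonoidHom.mem_ker.1 h1) ⟨0, hpi⟩))
      exact hx0N (by simpa using h2)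
    · refine MonoidHom.mem_ker.2 (funext fun a => ?_)
      rw [hΨ, Pi.one_apply, QuotientGroup.eq_one_iff]
      exact hCN ((hθpC _ c).2 hc)
  obtain ⟨d, hd⟩ := (hQ.to_quotient C).exists_card_eq
  have hd0 : 0 < d := Nat.pos_of_ne_zero fun h => by
    rw [h, pow_zero, ← Subgroup.index_eq_card, Subgroup.index_eq_one] at hd
    exact hCtop hd
  have hpi_card : Nat.card (Fin (p ^ i) → Q ⧸ N) = 2 ^ (2 * m * p ^ i) := by
    rw [Nat.card_fun, Nat.card_fin, ← Subgroup.index_eq_card, hk, hm, ← pow_mul, ← pow_mul]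
    congr 1
    ring
  have hrange : Nat.card Ψ.range = 2 ^ d := by rw [← Subgroup.index_ker, hker, Subgroup.index_eq_card, hd]
  have hle : d ≤ 2 * m * p ^ i := by
    rw [← Nat.pow_le_pow_iff_right (le_refl 2), ← hrange, ← hpi_card]
    exact Subgroup.card_le_card_group _
  have hdiv : p ^ (n + 1) ∣ 2 ^ d - 1 := by
    let π : Equiv.Perm (Q ⧸ C) := (QuotientGroup.congr C C θ (by
      ext z
      constructor
      · rintro ⟨y, hy, rfl⟩; exact (hCθ y).2 hy
      · intro hz
        obtain ⟨y, rfl⟩ := θ.surjective z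
        exact ⟨y, (hCθ y).1 hz, rfl⟩)).toEquiv
    have hπ : ∀ (l : ℕ) (z : Q), (π ^ l) (z : Q ⧸ C) = ((θ ^ l) z : Q) := by
      intro l
      induction l with
      | zero => intro z; rfl
      | succ l ih => intro z; rw [pow_succ', pow_succ', Equiv.Perm.mul_apply, ih]; rfl
    have hπP : π ^ (p ^ (n + 1)) = 1 := Equiv.ext fun w => by
      obtain ⟨x, rfl⟩ := QuotientGroup.mk_surjective w
      rw [hπ, hθP, MulAut.one_apply, Equiv.Perm.one_apply]
    obtain ⟨O, -, hO, -⟩ := free_perm π (pow_pos hp.out.pos (n + 1)) hπP (1 : Q ⧸ C)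
      (by rw [← pow_one π, ← QuotientGroup.mk_one, hπ, map_one])
      (fun w hw j hj0 hjP e' => hw (by
        obtain ⟨x, rfl⟩ := QuotientGroup.mk_surjective w
        have h1 : Function.IsPeriodicPt π j (x : Q ⧸ C) := by
          show π^[j] _ = _; rw [← Equiv.Perm.coe_pow]; exact e'
        have h2 : Function.IsPeriodicPt π (p ^ (n + 1)) (x : Q ⧸ C) := by
          show π^[p ^ (n + 1)] _ = _; rw [← Equiv.Perm.coe_pow, hπP]; rfl
        have h3 := h1.gcd h2
        have h4 : Nat.gcd j (p ^ (n + 1)) ∣ p ^ n := by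
          obtain ⟨f, hf, hfe⟩ := (Nat.dvd_prime_pow hp.out).1 (Nat.gcd_dvd_right j (p ^ (n + 1)))
          rw [hfe]
          refine pow_dvd_pow p ?_
          by_contra hne
          obtain rfl : f = n + 1 := by omega
          have := Nat.le_of_dvd hj0 (hfe ▸ Nat.gcd_dvd_left j _)
          omega
        obtain ⟨c, hc⟩ := h4
        have h5 : π^[p ^ n] (x : Q ⧸ C) = x := by rw [hc]; exact h3.mul_const c
        rw [← Equiv.Perm.coe_pow, hπ, ← hTdef] at h5
        exact (QuotientGroup.eq_one_iff x).2 (hliftC x (QuotientGroup.eq.1 h5.symm))))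
    rw [hd] at hO
    exact ⟨Nat.card O, by omega⟩
  have hdeq := numeric hp2 (show i + i' + e = n by omega) (by rw [← hm, hkP]) hd0 hdiv hle
  have hsurj : Function.Surjective Ψ := by
    rw [← MonoidHom.range_eq_top]
    exact Subgroup.eq_top_of_card_eq _ (by rw [hrange, hpi_card, hdeq])
  -- two elements concentrated at the first coordinate
  obtain ⟨x, hx⟩ := hsurj fun a => if (a : ℕ) = 0 then ((x0 : Q) : Q ⧸ N) else 1
  obtain ⟨y, hy⟩ := hsurj fun a => if (a : ℕ) = 0 then ((y0 : Q) : Q ⧸ N) else 1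
  have hxN : ∀ a, 0 < a → a < p ^ i → (θ ^ a) x ∈ N := fun a ha0 ha => by
    have h := congrFun hx ⟨a, ha⟩
    rw [hΨ] at h
    simpa [ha0.ne'] using h
  have hfirst : ∀ z z0 : Q, Ψ z = (fun a : Fin (p ^ i) => if (a : ℕ) = 0 then ((z0 : Q) : Q ⧸ N) else 1) →
      z0⁻¹ * z ∈ N := fun z z0 h => by
    have h := congrFun h ⟨0, hpi⟩
    rw [hΨ] at h
    simp only [pow_zero, MulAut.one_apply, if_true] at h
    exact QuotientGroup.eq.1 h.symm
  obtain ⟨c, hc⟩ : ∃ c, c = cm x y := ⟨_, rfl⟩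
  have hcC : c ∈ C := hc ▸ hcmC x y
  set ε := χ c with hε
  have hεne : ε ≠ 1 := by
    have hz := hfirst x x0 hx
    have hz' := hfirst y y0 hy
    rw [hε, hc, show x = x0 * (x0⁻¹ * x) by rw [mul_inv_cancel_left], hcml,
      hχmul _ (hcmC _ _) _ (hcmC _ _), hz y, mul_one,
      show y = y0 * (y0⁻¹ * y) by rw [mul_inv_cancel_left], hcmr,
      hχmul _ (hcmC _ _) _ (hcmC _ _)]
    have h2 : χ (cm x0 (y0⁻¹ * y)) = 1 := by
      have h' := hχmul _ (hcmC (y0⁻¹ * y) x0) _ (hcmC x0 (y0⁻¹ * y))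
      rw [hz' x0, one_mul, hcms x0 (y0⁻¹ * y), inv_mul_cancel, hχ1] at h'
      exact h'.symm
    rw [h2, mul_one]
    exact hχc0
  have hε2 : ε ^ 2 = 1 := by
    have hx2 : x ^ 2 ∈ C := hFC (pgroup_pow_mem_frattini hQ x)
    rw [sq, hε, ← hχmul c hcC c hcC, hc, ← hcml, ← sq,
      show cm (x ^ 2) y = 1 by
        simp only [hcm]; rw [mul_inv_eq_one, mul_inv_eq_iff_eq_mul, hcen _ hx2], hχ1]
  -- the norm of `c`
  obtain ⟨z, hz0, hzs⟩ : ∃ z : ℕ → Q, z 0 = 1 ∧ ∀ l, z (l + 1) = c * θ (z l) :=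
    ⟨fun l => Nat.rec 1 (fun _ acc => c * θ acc) l, rfl, fun _ => rfl⟩
  have hzadd : ∀ l l', z (l + l') = z l * (θ ^ l) (z l') := by
    intro l
    induction l with
    | zero => intro l'; simp [hz0]
    | succ l ih =>
      intro l'
      rw [Nat.add_right_comm, hzs, ih, map_mul, hzs, pow_succ', MulAut.mul_apply, mul_assoc]
  have hz1 : z 1 = c := by rw [hzs 0, hz0, map_one, mul_one]
  have hzC : ∀ l, z l ∈ C := fun l => by
    induction l with
    | zero => rw [hz0]; exact one_mem C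
    | succ l ih => rw [hzs]; exact mul_mem hcC ((hCθ _).2 ih)
  have hzfix : z (p ^ (n + 1)) = 1 := hfpf _ (by
    have h1 := hzadd (p ^ (n + 1)) 1
    rw [hzs, hz1, hθP, MulAut.one_apply, hcen c hcC] at h1
    exact mul_left_cancel h1)
  have hzi : ∀ a, 0 < a → a ≤ p ^ i → χ (z a) = ε := by
    intro a ha0
    induction a with
    | zero => omega
    | succ a ih =>
      intro ha
      rcases Nat.eq_zero_or_pos a with h | h
      · rw [h, zero_add, hz1]
      · have h1 : χ ((θ ^ a) c) = 1 := by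
          rw [hc, ← hcmθ]
          exact hxN a h (by omega) _
        rw [hzadd a 1, hz1, hχmul _ (hzC a) _ ((hθpC a c).2 hcC), ih h (by omega), h1, mul_one]
  have hzb : ∀ b, χ (z (p ^ i * b)) = ε ^ b := by
    intro b
    induction b with
    | zero => rw [mul_zero, hz0, hχ1, pow_zero]
    | succ b ih =>
      rw [Nat.mul_succ, Nat.add_comm, hzadd, hχmul _ (hzC _) _ ((hθpC _ _).2 (hzC _)),
        hzi _ hpi le_rfl, ← hθ1, hχθ1, ih, ← pow_succ']
  have hfin := hzb (p ^ (n + 1 - i))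
  rw [← pow_add, Nat.add_sub_cancel' (by omega), hzfix, hχ1] at hfin
  obtain ⟨b, hb⟩ := ((hp.out.odd_of_ne_two hp2).pow : Odd (p ^ (n + 1 - i)))
  rw [hb, pow_add, pow_mul, hε2, one_pow, one_mul, pow_one] at hfin
  exact hεne hfin.symm

end core

/-- A fixed-point-free automorphism of `p`-power order has trivial `p ^ n`-th power. -/
theorem key {K : Type u} [Field K] [IsAlgClosed K] {V : Type v} [AddCommGroup V] [Module K V]
    [FiniteDimensional K V] {p q n : ℕ} [Fact p.Prime] [Fact q.Prime] (hp2 : p ≠ 2) (hqp : q ≠ p)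
    (hpK : (p : K) ≠ 0) (hqK : (q : K) ≠ 0) (S : Module.End K V)
    (hSP : S ^ (p ^ (n + 1)) = 1) (hsum : ∑ l ∈ range (p ^ (n + 1)), S ^ l = 0) :
    ∀ (b : ℕ) (Q : Type w) [Group Q] [Finite Q], Nat.card Q ≤ b → IsPGroup q Q →
      ∀ (θ : MulAut Q) (ρ : Q →* Module.End K V), Function.Injective ρ →
        (∀ x, S * ρ x = ρ (θ x) * S) → (∀ x, θ x = x → x = 1) → θ ^ (p ^ n) = 1 := by
  intro b
  induction b with
  | zero => intro Q _ _ h; exact absurd h (by simp [Nat.card_pos.ne'])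
  | succ b ih =>
    intro Q _ _ hb hQ θ ρ hinj hS hfpf
    have hSj : ∀ (j : ℕ) x, S ^ j * ρ x = ρ ((θ ^ j) x) * S ^ j := by
      intro j
      induction j with
      | zero => intro x; simp
      | succ j ih =>
        intro x
        rw [pow_succ', mul_assoc, ih, ← mul_assoc, hS, mul_assoc, pow_succ', MulAut.mul_apply]
    have hθP : θ ^ (p ^ (n + 1)) = 1 := MulEquiv.ext fun x => hinj (by
      have h := hSj (p ^ (n + 1)) x
      rw [hSP, one_mul, mul_one] at h
      exact h.symm)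
    by_contra hT
    refine core hp2 hqp hpK hqK S hSP hsum hQ θ ρ hinj hS hfpf hθP hT fun R hR hRtop x hx => ?_
    have hlt : Nat.card R < Nat.card Q := lt_of_le_of_ne (Subgroup.card_le_card_group R)
      fun e => hRtop (Subgroup.eq_top_of_card_eq R e)
    have hmap : R.map θ.toMonoidHom = R := map_eq_of_forall θ hR
    have h := ih R (by omega) (hQ.to_subgroup R) (restrictAut θ R hmap) (ρ.comp R.subtype)
      (hinj.comp R.subtype_injective) (fun y => hS y)
      (fun y hy => Subtype.ext (hfpf y (congrArg Subtype.val hy)))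
    have h' := congrArg (fun f : MulAut R => ((f ⟨x, hx⟩ : R) : Q)) h
    simp only [coe_restrictAut_pow, MulAut.one_apply] at h'
    exact h'

end CfsgLib.Core.ShultGross
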