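import Cfsg.Agent.Lib.CoreSupersolvable
import Cfsg.Agent.Lib.CoreSZ
import Cfsg.Agent.Lib.FgsSupersolvable

/-!
# Normal Hall subgroups of supersoluble groups
-/

set_option autoImplicit false

open Subgroup

namespace CfsgLib.Core

universe u

/-- The primes above a bound give a normal Hall subgroup. -/
theorem exists_upper_hall_of_supersolvable (t : ℕ) :
    ∀ (n : ℕ) (G : Type u) [Group G] [Finite G], Nat.card G = n → Cfsg.IsSupersolvable G →
      ∃ N : Subgroup G, N.Normal ∧ (∀ p : ℕ, p.Prime → p ∣ Nat.card N → t ≤ p) ∧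
        ∀ p : ℕ, p.Prime → p ∣ N.index → p < t := by
  intro n
  induction n using Nat.strong_induction_on with
  | _ n ih =>
  intro G _ _ hn h
  classical
  subst hn
  by_cases hex : ∃ p : ℕ, p.Prime ∧ p ∣ Nat.card G ∧ t ≤ p
  swap
  · push Not at hex
    exact ⟨⊥, inferInstance, fun p hp hd => absurd hd (by simp [hp.ne_one]),
      fun p hp hd => hex p hp (by simpa using hd)⟩
  have hne : (Nat.card G).primeFactors.Nonempty := by
    obtain ⟨p, hp, hpd, -⟩ := hex
    exact ⟨p, Nat.mem_primeFactors.2 ⟨hp, hpd, Nat.card_pos.ne'⟩⟩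
  set r := (Nat.card G).primeFactors.max' hne with hr'
  obtain ⟨hr, hrd, -⟩ := Nat.mem_primeFactors.1 ((Nat.card G).primeFactors.max'_mem hne)
  rw [← hr'] at hr hrd
  have hmax : ∀ q : ℕ, q.Prime → q ∣ Nat.card G → q ≤ r := fun q hq hqd =>
    Finset.le_max' _ _ (Nat.mem_primeFactors.2 ⟨hq, hqd, Nat.card_pos.ne'⟩)
  have hrt : t ≤ r := by
    obtain ⟨p, hp, hpd, hpt⟩ := hex
    exact hpt.trans (hmax p hp hpd)
  haveI := Fact.mk hr
  obtain ⟨R⟩ : Nonempty (Sylow r G) := inferInstance
  haveI hRn : (R : Subgroup G).Normal := CfsgLib.Super.sylow_normal_of_max h r hmax R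
  obtain ⟨N, hNn, hN1, hN2⟩ := ih _ (card_quotient_lt (R.ne_bot_of_dvd_card hrd))
    (G ⧸ (R : Subgroup G)) rfl
    (CfsgLib.Super.isSupersolvable_of_surjective _ (QuotientGroup.mk'_surjective _) h)
  set f := QuotientGroup.mk' (R : Subgroup G)
  have hsurj := QuotientGroup.mk'_surjective (R : Subgroup G)
  refine ⟨N.comap f, hNn.comap f, fun p hp hd => ?_, fun p hp hd => ?_⟩
  · have hle : (R : Subgroup G) ≤ N.comap f := fun x hx => by
      show f x ∈ N
      rw [show f x = 1 from (QuotientGroup.eq_one_iff x).2 hx]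
      exact one_mem _
    rw [← Subgroup.map_comap_eq_self_of_surjective hsurj N] at hN1
    rw [← card_mul_relIndex hle] at hd
    rcases hp.dvd_mul.1 hd with h1 | h1
    · rw [Sylow.card_eq_multiplicity] at h1
      exact hrt.trans (((Nat.prime_dvd_prime_iff_eq hp hr).1 (hp.dvd_of_dvd_pow h1)).ge)
    · refine hN1 p hp ?_
      rw [← Subgroup.relIndex_ker, QuotientGroup.ker_mk']
      exact h1
  · rw [index_comap_of_surjective N hsurj] at hd
    exact hN2 p hp hd

end CfsgLib.Core
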