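import Cfsg.Agent.Lib.LocalSupersolvable
import Cfsg.Agent.Lib.CoreThree
import Cfsg.Agent.Lib.CorePGroup
import Mathlib.GroupTheory.IndexNormal

/-!
Supersolvable groups: subgroups, quotients, products, prime chief factors, Lagrange's converse.
-/

set_option autoImplicit false

namespace CfsgLib.Core

open scoped Pointwise commutatorElement
open Subgroup

universe u v

variable {G : Type u} [Group G]

/-- A subgroup of a cyclic subgroup, seen through a homomorphism, has a generator. -/
theorem exists_gen_of_map_le_zpowers {Q : Type v} [Group Q] (f : G →* Q) {L : Subgroup G} {c : Q}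
    (h : L.map f ≤ zpowers c) : ∃ x ∈ L, L.map f = zpowers (f x) := by
  haveI : IsCyclic (L.map f) := Subgroup.isCyclic_of_le h
  obtain ⟨y, hy⟩ := IsCyclic.exists_generator (α := L.map f)
  obtain ⟨x, hx, hxy⟩ := mem_map.mp y.2
  refine ⟨x, hx, le_antisymm ?_ (zpowers_le.mpr (mem_map_of_mem f hx))⟩
  intro z hz
  obtain ⟨k, hk⟩ := mem_zpowers_iff.mp (hy ⟨z, hz⟩)
  refine mem_zpowers_iff.mpr ⟨k, ?_⟩
  rw [hxy, ← coe_zpow, hk]

/-- Subgroups of supersolvable groups are supersolvable. -/
theorem isSupersolvable_subgroup (hG : Cfsg.IsSupersolvable G) (L : Subgroup G) :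
    Cfsg.IsSupersolvable L := by
  obtain ⟨n, H, h0, hl, hn, hs⟩ := hG
  haveI := hn
  refine ⟨n, fun i => (H i).subgroupOf L, ?_, ?_, fun i => (hn i).subgroupOf L, fun i => ?_⟩
  · simp [h0]
  · simp [hl]
  obtain ⟨g, hg⟩ := hs i
  set A := H i.castSucc with hA
  let π := QuotientGroup.mk' A
  have hle : A ≤ H i.succ := hg ▸ le_sup_left
  have hmap : (L ⊓ H i.succ).map π ≤ zpowers (π g) := by
    refine (Subgroup.map_mono inf_le_right).trans ?_
    rw [hg, Subgroup.map_sup, QuotientGroup.map_mk'_self, bot_sup_eq, MonoidHom.map_zpowers]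
  obtain ⟨x, ⟨hxL, hxH⟩, hx⟩ := exists_gen_of_map_le_zpowers π hmap
  refine ⟨⟨x, hxL⟩, le_antisymm ?_ (sup_le (comap_mono (f := L.subtype) hle)
    (zpowers_le.mpr (mem_subgroupOf.mpr hxH)))⟩
  intro y hy
  have h1 : π (y : G) ∈ zpowers (π x) := hx.le (mem_map_of_mem π ⟨y.2, mem_subgroupOf.mp hy⟩)
  obtain ⟨k, hk⟩ := mem_zpowers_iff.mp h1
  have h2 : y * ((⟨x, hxL⟩ : L) ^ k)⁻¹ ∈ A.subgroupOf L := by
    rw [mem_subgroupOf, ← QuotientGroup.eq_one_iff]
    show π ((y : G) * (((⟨x, hxL⟩ : L) ^ k : L) : G)⁻¹) = 1
    rw [map_mul, map_inv, coe_zpow, map_zpow, hk, mul_inv_cancel]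
  have h3 := mul_mem (mem_sup_left (T := zpowers (⟨x, hxL⟩ : L)) h2)
    (mem_sup_right (S := A.subgroupOf L) (zpow_mem (mem_zpowers (⟨x, hxL⟩ : L)) k))
  simpa using h3

/-- Every non-trivial normal subgroup contains a normal subgroup of prime order. -/
theorem exists_normal_prime_le [Finite G] (hG : Cfsg.IsSupersolvable G) {X : Subgroup G}
    [hX : X.Normal] (hX0 : X ≠ ⊥) :
    ∃ N : Subgroup G, N.Normal ∧ N ≤ X ∧ (Nat.card N).Prime := by
  obtain ⟨n, H, h0, hl, hn, hs⟩ := hG
  have key : ∀ i, H i ⊓ X ≠ ⊥ → ∃ N : Subgroup G, N.Normal ∧ N ≤ X ∧ (Nat.card N).Prime := by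
    intro i
    induction i using Fin.induction with
    | zero => exact fun h => absurd (by rw [h0, bot_inf_eq]) h
    | succ i ih =>
      intro hi
      by_cases hc : H i.castSucc ⊓ X = ⊥
      · obtain ⟨g, hg⟩ := hs i
        haveI := hn i.castSucc
        haveI := hn i.succ
        set C := H i.succ ⊓ X with hCdef
        let f := (QuotientGroup.mk' (H i.castSucc)).comp C.subtype
        have hinj : Function.Injective f := by
          rw [injective_iff_map_eq_one]
          intro y hy
          refine Subtype.ext (mem_bot.mp (hc ▸ ⟨?_, y.2.2⟩ : (y : G) ∈ (⊥ : Subgroup G)))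
          exact (QuotientGroup.eq_one_iff _).mp hy
        haveI : IsCyclic C := by
          haveI : IsCyclic f.range := by
            refine Subgroup.isCyclic_of_le (H' := zpowers (QuotientGroup.mk' (H i.castSucc) g)) ?_
            rintro _ ⟨y, rfl⟩
            have : QuotientGroup.mk' (H i.castSucc) (y : G) ∈
                (H i.succ).map (QuotientGroup.mk' (H i.castSucc)) := mem_map_of_mem _ y.2.1
            rwa [hg, Subgroup.map_sup, QuotientGroup.map_mk'_self, bot_sup_eq,
              MonoidHom.map_zpowers] at this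
          exact isCyclic_of_injective f.rangeRestrict
            (f.rangeRestrict_injective_iff.mpr hinj)
        obtain ⟨r, hr, hdvd⟩ := Nat.exists_prime_and_dvd
          (fun e => hi (eq_bot_of_card_eq _ e) : Nat.card C ≠ 1)
        haveI := Fact.mk hr
        obtain ⟨x, hx⟩ := exists_prime_orderOf_dvd_card' (G := C) r hdvd
        set K : Subgroup C := zpowers x with hK
        have hKr : Nat.card K = r := by rw [hK, Nat.card_zpowers, hx]
        haveI : K.Characteristic := by
          refine characteristic_iff_map_eq.mpr fun e => ?_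
          obtain ⟨c, hcgen⟩ := IsCyclic.exists_generator (α := C)
          obtain ⟨m, hm⟩ := mem_zpowers_iff.mp (hcgen (e c))
          refine Subgroup.eq_of_le_of_card_ge ?_ ?_
          · rintro _ ⟨y, hy, rfl⟩
            obtain ⟨j, rfl⟩ := mem_zpowers_iff.mp (hcgen y)
            show e (c ^ j) ∈ K
            rw [map_zpow, ← hm, ← zpow_mul, mul_comm, zpow_mul]
            exact K.zpow_mem hy m
          · rw [card_map_of_injective e.injective]
        exact ⟨K.map C.subtype, inferInstance, (map_subtype_le _).trans inf_le_right,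
          by rwa [card_map_of_injective C.subtype_injective, hKr]⟩
      · exact ih hc
  refine key (Fin.last n) ?_
  rw [hl, top_inf_eq]; exact hX0

theorem isCyclic_of_prime_card' {N : Subgroup G} (h : (Nat.card N).Prime) : IsCyclic N :=
  haveI := Fact.mk h
  isCyclic_of_prime_card rfl

theorem isSupersolvable_of_subsingleton [Subsingleton G] : Cfsg.IsSupersolvable G :=
  ⟨0, fun _ => ⊥, rfl, Subsingleton.elim _ _, fun _ => inferInstance, fun i => i.elim0⟩

/-- Products of finite supersolvable groups are supersolvable. -/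
theorem isSupersolvable_prod : ∀ (n : ℕ) (G : Type u) (H : Type v) [Group G] [Group H] [Finite G]
    [Finite H], Nat.card G ≤ n → Cfsg.IsSupersolvable G → Cfsg.IsSupersolvable H →
    Cfsg.IsSupersolvable (G × H) := by
  intro n
  induction n with
  | zero => intro G H _ _ _ _ h; exact absurd h (by simp [Nat.card_pos.ne'])
  | succ n ih =>
    intro G H _ _ _ _ hn hG hH
    rcases subsingleton_or_nontrivial G with hs | hs
    · haveI : Unique G := uniqueOfSubsingleton 1
      exact CfsgLib.Local.isSupersolvable_congr (MulEquiv.uniqueProd (M := H) (N := G)).symm hH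
    obtain ⟨N, hN, hNp⟩ := CfsgLib.Super.exists_normal_prime_order hG
    haveI := hN
    set N' : Subgroup (G × H) := N.prod ⊥ with hN'
    haveI : IsCyclic N' := by
      haveI := isCyclic_of_prime_card' hNp
      haveI : Unique ((⊥ : Subgroup H)) := uniqueOfSubsingleton 1
      exact isCyclic_of_surjective
        ((Subgroup.prodEquiv N (⊥ : Subgroup H)).trans (MulEquiv.prodUnique)).symm.toMonoidHom
        (MulEquiv.surjective _)
    refine CfsgLib.Local.isSupersolvable_of_cyclic_normal (N := N') inferInstance ?_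
    let π := (QuotientGroup.mk' N).prodMap (MonoidHom.id H)
    have hπ : Function.Surjective π := fun y => by
      obtain ⟨g, hg⟩ := QuotientGroup.mk'_surjective N y.1
      exact ⟨(g, y.2), Prod.ext hg rfl⟩
    have hker : π.ker = N' := by
      ext y
      rw [MonoidHom.mem_ker, Prod.ext_iff, hN', mem_prod, mem_bot]
      exact and_congr (QuotientGroup.eq_one_iff y.1) Iff.rfl
    have hlt := card_quotient_lt (N := N) (fun e => hNp.ne_one (by rw [e, card_bot]))
    exact CfsgLib.Local.isSupersolvable_congr
      ((QuotientGroup.quotientKerEquivOfSurjective π hπ).symm.trans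
        (QuotientGroup.quotientMulEquivOfEq hker))
      (ih (G ⧸ N) H (by omega) (CfsgLib.Super.isSupersolvable_of_surjective _
        (QuotientGroup.mk'_surjective N) hG) hH)

/-- Maximal subgroups of supersolvable groups have prime index. -/
theorem prime_index_of_isCoatom : ∀ (n : ℕ) (G : Type u) [Group G] [Finite G], Nat.card G ≤ n →
    Cfsg.IsSupersolvable G → ∀ M : Subgroup G, IsCoatom M → M.index.Prime := by
  intro n
  induction n with
  | zero => intro G _ _ h; exact absurd h (by simp [Nat.card_pos.ne'])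
  | succ n ih =>
    intro G _ _ hn hG M hM
    haveI : Nontrivial G := by
      by_contra h
      rw [not_nontrivial_iff_subsingleton] at h
      exact hM.1 (Subsingleton.elim _ _)
    obtain ⟨N, hN, hNp⟩ := CfsgLib.Super.exists_normal_prime_order hG
    haveI := hN
    let π := QuotientGroup.mk' N
    have hπ : Function.Surjective π := QuotientGroup.mk'_surjective N
    by_cases hle : N ≤ M
    · have hker : π.ker ≤ M := by rw [QuotientGroup.ker_mk']; exact hle
      have hlt := card_quotient_lt (N := N) (fun e => hNp.ne_one (by rw [e, card_bot]))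
      have hidx : (M.map π).index = M.index := index_map_eq M hπ hker
      rw [← hidx]
      refine ih (G ⧸ N) (by omega) (CfsgLib.Super.isSupersolvable_of_surjective π hπ hG) _
        ⟨fun h => hM.1 ?_, fun K hK => ?_⟩
      · rw [← comap_map_eq_self hker, h, comap_top]
      · have h1 : M < K.comap π := by
          rw [← comap_map_eq_self hker]
          exact (comap_lt_comap_of_surjective hπ).mpr hK
        rw [← map_comap_eq_self_of_surjective hπ K, hM.2 _ h1, map_top_of_surjective π hπ]
    · have htop : M ⊔ N = ⊤ := hM.2 _ (left_lt_sup.mpr hle)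
      have hc := card_sup_mul_card_inf (A := M) (K := N)
        (by rw [Subgroup.normalizer_eq_top (H := N)]; exact le_top)
      rw [htop, card_top, ← M.card_mul_index] at hc
      have hdvd : M.index ∣ Nat.card N := by
        refine ⟨Nat.card ↥(M ⊓ N), ?_⟩
        apply Nat.eq_of_mul_eq_mul_left (Nat.card_pos : 0 < Nat.card M)
        rw [← hc]; ring
      rcases (Nat.dvd_prime hNp).mp hdvd with h | h
      · exact absurd (index_eq_one.mp h) hM.1
      · exact h ▸ hNp

/-- Supersolvable groups satisfy the converse of Lagrange's theorem. -/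
theorem exists_card_eq_of_dvd : ∀ (n : ℕ) (G : Type u) [Group G] [Finite G], Nat.card G ≤ n →
    Cfsg.IsSupersolvable G → ∀ d : ℕ, d ∣ Nat.card G → ∃ H : Subgroup G, Nat.card H = d := by
  intro n
  induction n with
  | zero => intro G _ _ h; exact absurd h (by simp [Nat.card_pos.ne'])
  | succ n ih =>
    intro G _ _ hn hG d hd
    rcases subsingleton_or_nontrivial G with hs | hs
    · refine ⟨⊥, ?_⟩
      rw [Nat.card_unique, Nat.dvd_one] at hd
      rw [card_bot, hd]
    obtain ⟨N, hN, hNp⟩ := CfsgLib.Super.exists_normal_prime_order hG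
    haveI := hN
    let π := QuotientGroup.mk' N
    have hlt := card_quotient_lt (N := N) (fun e => hNp.ne_one (by rw [e, card_bot]))
    have hcardG := card_eq_card_quotient_mul_card_subgroup N
    have hq : ∀ e : ℕ, e ∣ Nat.card (G ⧸ N) →
        ∃ L : Subgroup G, N ≤ L ∧ Nat.card L = e * Nat.card N := by
      intro e he
      obtain ⟨Lb, hLb⟩ := ih (G ⧸ N) (by omega) (CfsgLib.Super.isSupersolvable_of_surjective π
        (QuotientGroup.mk'_surjective N) hG) e he
      have hle : N ≤ Lb.comap π := (QuotientGroup.ker_mk' N).ge.trans (ker_le_comap _ _)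
      refine ⟨Lb.comap π, hle, ?_⟩
      have h1 := card_map_mk' (N := N) (Lb.comap π)
      rw [map_comap_eq_self_of_surjective (QuotientGroup.mk'_surjective N), hLb,
        inf_of_le_left hle] at h1
      exact h1.symm
    by_cases hrd : Nat.card N ∣ d
    · obtain ⟨e, rfl⟩ := hrd
      obtain ⟨L, -, hL⟩ := hq e (by
        rw [hcardG, mul_comm (Nat.card (G ⧸ N))] at hd
        exact Nat.dvd_of_mul_dvd_mul_left Nat.card_pos hd)
      exact ⟨L, by rw [hL, mul_comm]⟩
    have hcop : d.Coprime (Nat.card N) := (hNp.coprime_iff_not_dvd.mpr hrd).symm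
    have hdq : d ∣ Nat.card (G ⧸ N) := hcop.dvd_of_dvd_mul_right (hcardG ▸ hd)
    obtain ⟨L, hNL, hL⟩ := hq d hdq
    by_cases htop : L = ⊤
    · rw [htop, card_top] at hL
      have hi : N.index = d := by
        apply Nat.eq_of_mul_eq_mul_left (Nat.card_pos : 0 < Nat.card N)
        rw [N.card_mul_index, hL, mul_comm]
      obtain ⟨H, hH⟩ := exists_right_complement'_of_coprime (N := N) (by rw [hi]; exact hcop.symm)
      exact ⟨H, by rw [← hH.symm.index_eq_card, hi]⟩
    · have hlt2 := card_lt_of_ne_top htop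
      obtain ⟨H, hH⟩ := ih L (by omega) (isSupersolvable_subgroup hG L) d
        (hL ▸ Dvd.intro _ rfl)
      exact ⟨H.map L.subtype, by rw [card_map_of_injective L.subtype_injective, hH]⟩

/-- Elements of a cyclic normal subgroup are central in the commutator subgroup. -/
theorem commutator_le_centralizer_of_cyclic {N : Subgroup G} [N.Normal] [hN : IsCyclic N] :
    commutator G ≤ centralizer (N : Set G) := by
  obtain ⟨c, hc⟩ := hN.exists_generator
  have hgen : ∀ x ∈ N, ∃ k : ℤ, (c : G) ^ k = x := fun x hx => by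
    obtain ⟨k, hk⟩ := mem_zpowers_iff.mp (hc ⟨x, hx⟩)
    exact ⟨k, by rw [← coe_zpow, hk]⟩
  rw [commutator_def, commutator_le]
  intro g _ h _
  rw [mem_centralizer_iff]
  intro x hx
  obtain ⟨k, rfl⟩ := hgen x hx
  suffices hcc : Commute ⁅g, h⁆ (c : G) from ((hcc.zpow_right k).symm).eq
  have hact : ∀ g : G, ∃ m : ℤ, g * (c : G) * g⁻¹ = (c : G) ^ m := fun g => by
    obtain ⟨m, hm⟩ := hgen _ (‹N.Normal›.conj_mem _ c.2 g)
    exact ⟨m, hm.symm⟩
  obtain ⟨a, ha⟩ := hact g⁻¹
  obtain ⟨b, hb⟩ := hact h⁻¹
  have e : ∀ (w : G) (m : ℤ), (w * (c : G) * w⁻¹) ^ m = w * (c : G) ^ m * w⁻¹ := fun w m => by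
    rw [← MulAut.conj_apply, ← map_zpow]; rfl
  have e1 : g⁻¹ * (h⁻¹ * c * h⁻¹⁻¹) * g⁻¹⁻¹ = h⁻¹ * (g⁻¹ * c * g⁻¹⁻¹) * h⁻¹⁻¹ := by
    rw [hb, ha, ← e, ← e, ha, hb, ← zpow_mul, ← zpow_mul, mul_comm]
  show ⁅g, h⁆ * (c : G) = c * ⁅g, h⁆
  rw [commutatorElement_def]
  calc g * h * g⁻¹ * h⁻¹ * c
      = g * h * (g⁻¹ * (h⁻¹ * c * h⁻¹⁻¹) * g⁻¹⁻¹) * g⁻¹ * h⁻¹ := by group
    _ = g * h * (h⁻¹ * (g⁻¹ * c * g⁻¹⁻¹) * h⁻¹⁻¹) * g⁻¹ * h⁻¹ := by rw [e1]
    _ = c * (g * h * g⁻¹ * h⁻¹) := by group

/-- The derived subgroup of a supersolvable group is nilpotent. -/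
theorem isNilpotent_commutator : ∀ (n : ℕ) (G : Type u) [Group G] [Finite G], Nat.card G ≤ n →
    Cfsg.IsSupersolvable G → Group.IsNilpotent (commutator G) := by
  intro n
  induction n with
  | zero => intro G _ _ h; exact absurd h (by simp [Nat.card_pos.ne'])
  | succ n ih =>
    intro G _ _ hn hG
    rcases subsingleton_or_nontrivial G with hs | hs
    · infer_instance
    obtain ⟨N, hN, hNp⟩ := CfsgLib.Super.exists_normal_prime_order hG
    haveI := hN
    haveI := isCyclic_of_prime_card' hNp
    let π := QuotientGroup.mk' N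
    have hπ : Function.Surjective π := QuotientGroup.mk'_surjective N
    have hlt := card_quotient_lt (N := N) (fun e => hNp.ne_one (by rw [e, card_bot]))
    haveI hq := ih (G ⧸ N) (by omega) (CfsgLib.Super.isSupersolvable_of_surjective π hπ hG)
    have hmap : (commutator G).map π = commutator (G ⧸ N) := by
      rw [commutator_def, map_commutator, map_top_of_surjective π hπ, ← commutator_def]
    let f : commutator G →* commutator (G ⧸ N) :=
      (π.comp (commutator G).subtype).codRestrict _ fun x => hmap ▸ mem_map_of_mem π x.2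
    refine @Subgroup.isNilpotent_of_ker_le_center _ _ _ _ f (fun x hx => ?_) hq
    rw [mem_center_iff]
    intro y
    have hxN : (x : G) ∈ N := (QuotientGroup.eq_one_iff _).mp (congrArg Subtype.val hx)
    exact Subtype.ext
      ((mem_centralizer_iff.mp (commutator_le_centralizer_of_cyclic y.2)) x hxN).symm

/-- A chain with prime factors in decreasing order. -/
theorem exists_ordered_chain : ∀ (m : ℕ) (G : Type u) [Group G] [Finite G], Nat.card G ≤ m →
    Cfsg.IsSupersolvable G →
    ∃ (n : ℕ) (H : Fin (n + 1) → Subgroup G), H 0 = ⊥ ∧ H (Fin.last n) = ⊤ ∧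
      (∀ i, (H i).Normal) ∧
      (∀ i : Fin n, H i.castSucc ≤ H i.succ ∧ ((H i.castSucc).relIndex (H i.succ)).Prime) ∧
      (∀ i j : Fin n, i ≤ j → (H j.castSucc).relIndex (H j.succ) ≤
        (H i.castSucc).relIndex (H i.succ)) ∧
      ∀ i : Fin n, (H i.castSucc).relIndex (H i.succ) ∣ Nat.card G := by
  intro m
  induction m with
  | zero => intro G _ _ h; exact absurd h (by simp [Nat.card_pos.ne'])
  | succ m ih =>
    intro G _ _ hm hG
    rcases subsingleton_or_nontrivial G with hs | hs
    · exact ⟨0, fun _ => ⊥, rfl, Subsingleton.elim _ _, fun _ => inferInstance,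
        fun i => i.elim0, fun i => i.elim0, fun i => i.elim0⟩
    have hne : Nat.card G ≠ 1 := (Finite.one_lt_card (α := G)).ne'
    set p := (Nat.card G).primeFactors.max' (Nat.nonempty_primeFactors.mpr Finite.one_lt_card)
    have hpm := Finset.max'_mem _ (Nat.nonempty_primeFactors.mpr (Finite.one_lt_card (α := G)))
    obtain ⟨hp, hpd, -⟩ := Nat.mem_primeFactors.mp hpm
    haveI := Fact.mk hp
    have hmax : ∀ q : ℕ, q.Prime → q ∣ Nat.card G → q ≤ p := fun q hq hqd =>
      Finset.le_max' _ q (Nat.mem_primeFactors.mpr ⟨hq, hqd, Nat.card_pos.ne'⟩)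
    obtain ⟨P⟩ : Nonempty (Sylow p G) := inferInstance
    haveI := CfsgLib.Super.sylow_normal_of_max hG p hmax P
    obtain ⟨N, hN, hNP, hNp⟩ := exists_normal_prime_le hG (X := (P : Subgroup G))
      (P.ne_bot_of_dvd_card hpd)
    haveI := hN
    have hNp' : Nat.card N = p := by
      obtain ⟨k, hk⟩ := (P.2.to_le hNP).exists_card_eq
      have h := hNp
      rw [hk] at h
      rw [hk, Nat.Prime.eq_one_of_pow h, pow_one]
    let π := QuotientGroup.mk' N
    have hπ : Function.Surjective π := QuotientGroup.mk'_surjective N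
    have hlt := card_quotient_lt (N := N) (fun e => hNp.ne_one (by rw [e, card_bot]))
    obtain ⟨n, H, h0, hl, hn, hpr, hord, hdvd⟩ := ih (G ⧸ N) (by omega)
      (CfsgLib.Super.isSupersolvable_of_surjective π hπ hG)
    have hrel : ∀ A B : Subgroup (G ⧸ N),
        (A.comap π).relIndex (B.comap π) = A.relIndex B := fun A B => by
      rw [relIndex_comap, map_comap_eq_self_of_surjective hπ]
    have hstep : ∀ i : Fin n, ((Fin.cons ⊥ fun i => (H i).comap π : Fin (n + 2) → Subgroup G)
        i.succ.castSucc).relIndex ((Fin.cons ⊥ fun i => (H i).comap π : Fin (n + 2) → Subgroup G)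
          i.succ.succ) = (H i.castSucc).relIndex (H i.succ) := fun i => by
      rw [Fin.castSucc_succ, Fin.cons_succ, Fin.cons_succ, hrel]
    have hfirst : ((Fin.cons ⊥ fun i => (H i).comap π : Fin (n + 2) → Subgroup G)
        (0 : Fin (n + 1)).castSucc).relIndex ((Fin.cons ⊥ fun i => (H i).comap π :
          Fin (n + 2) → Subgroup G) (0 : Fin (n + 1)).succ) = p := by
      rw [Fin.castSucc_zero, Fin.cons_zero, Fin.cons_succ, h0, MonoidHom.comap_bot,
        QuotientGroup.ker_mk', relIndex_bot_left, hNp']
    refine ⟨n + 1, Fin.cons ⊥ fun i => (H i).comap π, rfl, ?_, ?_, ?_, ?_, ?_⟩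
    · rw [show Fin.last (n + 1) = (Fin.last n).succ from rfl, Fin.cons_succ, hl, comap_top]
    · intro i
      induction i using Fin.cases with
      | zero => rw [Fin.cons_zero]; infer_instance
      | succ i => rw [Fin.cons_succ]; exact (hn i).comap π
    · intro i
      induction i using Fin.cases with
      | zero =>
        refine ⟨?_, by rw [hfirst]; exact hp⟩
        rw [Fin.castSucc_zero, Fin.cons_zero]; exact bot_le
      | succ i =>
        refine ⟨?_, by rw [hstep]; exact (hpr i).2⟩
        rw [Fin.castSucc_succ, Fin.cons_succ, Fin.cons_succ]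
        exact comap_mono (hpr i).1
    · intro i j hij
      induction j using Fin.cases with
      | zero => rw [Fin.le_zero_iff.mp hij]
      | succ j =>
        induction i using Fin.cases with
        | zero =>
          rw [hfirst, hstep]
          exact hmax _ (hpr j).2 ((hdvd j).trans (card_quotient_dvd_card N))
        | succ i =>
          rw [hstep, hstep]
          exact hord i j (Fin.succ_le_succ_iff.mp hij)
    · intro i
      induction i using Fin.cases with
      | zero => rw [hfirst]; exact hpd
      | succ i => rw [hstep]; exact (hdvd i).trans (card_quotient_dvd_card N)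

/-- Groups of order `2 p ^ n` are supersolvable. -/
theorem isSupersolvable_two_mul_pow (p : ℕ) (hp : p.Prime) : ∀ (n : ℕ) (G : Type u) [Group G]
    [Finite G], Nat.card G = 2 * p ^ n → Cfsg.IsSupersolvable G := by
  intro n
  induction n with
  | zero =>
    intro G _ _ hG
    haveI : Fact (Nat.Prime 2) := ⟨Nat.prime_two⟩
    haveI := isCyclic_of_prime_card (α := G) (p := 2) (by rw [hG, pow_zero, mul_one])
    haveI : IsCyclic (⊤ : Subgroup G) :=
      isCyclic_of_surjective (Subgroup.topEquiv (G := G)).symm.toMonoidHom (MulEquiv.surjective _)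
    haveI : Subsingleton (G ⧸ (⊤ : Subgroup G)) :=
      ⟨fun a b => by
        obtain ⟨a, rfl⟩ := QuotientGroup.mk_surjective a
        obtain ⟨b, rfl⟩ := QuotientGroup.mk_surjective b
        exact QuotientGroup.eq.mpr (mem_top _)⟩
    exact CfsgLib.Local.isSupersolvable_of_cyclic_normal (N := (⊤ : Subgroup G)) inferInstance
      isSupersolvable_of_subsingleton
  | succ n ih =>
    intro G _ _ hG
    haveI := Fact.mk hp
    suffices h : ∃ N : Subgroup G, N.Normal ∧ Nat.card N = p by
      obtain ⟨N, hN, hNp⟩ := h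
      haveI := hN
      refine CfsgLib.Local.isSupersolvable_of_cyclic_normal (N := N)
        (isCyclic_of_prime_card' (hNp ▸ hp)) (ih _ ?_)
      apply Nat.eq_of_mul_eq_mul_right hp.pos
      conv_lhs => rw [← hNp, ← card_eq_card_quotient_mul_card_subgroup N, hG]
      ring
    by_cases h2 : p = 2
    · subst h2
      have hP : IsPGroup 2 G := IsPGroup.of_card (n := n + 2) (by rw [hG]; ring)
      haveI : Nontrivial G := Finite.one_lt_card_iff_nontrivial.mp (by
        rw [hG]; have := Nat.one_le_two_pow (n := n + 1); omega)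
      haveI := hP.center_nontrivial
      obtain ⟨k, hk⟩ := (hP.to_subgroup (center G)).exists_card_eq
      have hk0 : k ≠ 0 := by
        rintro rfl
        rw [pow_zero] at hk
        exact absurd hk (Finite.one_lt_card (α := center G)).ne'
      obtain ⟨z, hz⟩ := exists_prime_orderOf_dvd_card' (G := center G) 2
        (hk ▸ dvd_pow_self 2 hk0)
      refine ⟨zpowers (z : G), ⟨fun x hx g => ?_⟩, ?_⟩
      · have hzc : x ∈ center G := zpowers_le.mpr z.2 hx
        rwa [mem_center_iff.mp hzc g, mul_inv_cancel_right]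
      · rw [Nat.card_zpowers, orderOf_coe, hz]
    obtain ⟨P⟩ : Nonempty (Sylow p G) := inferInstance
    have hpodd : ¬ p ∣ 2 := fun h => h2 ((Nat.prime_dvd_prime_iff_eq hp Nat.prime_two).mp h)
    have hPc : Nat.card P = p ^ (n + 1) := by
      rw [P.card_eq_multiplicity, hG, Nat.factorization_mul two_ne_zero (pow_ne_zero _ hp.ne_zero),
        Finsupp.add_apply, Nat.factorization_eq_zero_of_not_dvd hpodd, hp.factorization_pow,
        Finsupp.single_eq_same, zero_add]
    haveI hPn : (P : Subgroup G).Normal := normal_of_index_eq_two (by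
      apply Nat.eq_of_mul_eq_mul_left (Nat.card_pos : 0 < Nat.card P)
      rw [card_mul_index, hG, hPc, mul_comm])
    obtain ⟨t, ht⟩ := exists_prime_orderOf_dvd_card' (G := G) 2 (hG ▸ Dvd.intro _ rfl)
    have htt : t * t = 1 := by rw [← pow_two, ← ht, pow_orderOf_eq_one]
    have htP : t ∉ (P : Subgroup G) := fun h => by
      have h' := orderOf_dvd_natCard _ h
      rw [ht, hPc] at h'
      exact h2 (((Nat.prime_dvd_prime_iff_eq Nat.prime_two hp).mp
        (Nat.prime_two.dvd_of_dvd_pow h')).symm)
    haveI : Nontrivial P := Finite.one_lt_card_iff_nontrivial.mp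
      (hPc ▸ Nat.one_lt_pow n.succ_ne_zero hp.one_lt)
    haveI := P.2.center_nontrivial
    obtain ⟨k, hk⟩ := (P.2.to_subgroup (center P)).exists_card_eq
    have hk0 : k ≠ 0 := by
      rintro rfl
      rw [pow_zero] at hk
      exact absurd hk (Finite.one_lt_card (α := center P)).ne'
    obtain ⟨⟨⟨z, hzP⟩, hzc⟩, hz⟩ :=
      exists_prime_orderOf_dvd_card' (G := center P) p (hk ▸ dvd_pow_self p hk0)
    replace hz : orderOf z = p := by
      rw [← hz, ← orderOf_coe (⟨⟨z, hzP⟩, hzc⟩ : center P), ← orderOf_coe (⟨z, hzP⟩ : P)]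
    have hzy : ∀ y ∈ (P : Subgroup G), Commute y z := fun y hy =>
      congrArg Subtype.val (mem_center_iff.mp hzc ⟨y, hy⟩)
    -- an element of the centre of `P` of order `p` inverted or fixed by `t`
    obtain ⟨w, hwp, hw1, hwP, hwcomm, hwt⟩ : ∃ w : G, w ^ p = 1 ∧ w ≠ 1 ∧ w ∈ (P : Subgroup G) ∧
        (∀ y ∈ (P : Subgroup G), Commute y w) ∧ (t * w * t⁻¹ = w ∨ t * w * t⁻¹ = w⁻¹) := by
      have htinv : t⁻¹ = t := inv_eq_of_mul_eq_one_right htt
      set z' := t * z * t⁻¹ with hz'
      have hz'c : ∀ y ∈ (P : Subgroup G), Commute y z' := fun y hy => by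
        show y * z' = z' * y
        have h := (hzy _ (hPn.conj_mem y hy t⁻¹)).eq
        rw [inv_inv] at h
        calc y * z' = t * (t⁻¹ * y * t * z) * t⁻¹ := by rw [hz']; group
          _ = z' * y := by rw [h, hz']; group
      by_cases hinv : z * z' = 1
      · refine ⟨z, hz ▸ pow_orderOf_eq_one z, ?_, hzP, hzy, Or.inr ?_⟩
        · intro e; rw [e, orderOf_one] at hz; exact hp.ne_one hz.symm
        · exact (eq_inv_of_mul_eq_one_right hinv)
      · refine ⟨z * z', ?_, hinv, mul_mem hzP (hPn.conj_mem z hzP t),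
          fun y hy => (hzy y hy).mul_right (hz'c y hy), Or.inl ?_⟩
        · rw [(hz'c z hzP).mul_pow, hz', conj_pow, ← hz, pow_orderOf_eq_one]; group
        · calc t * (z * z') * t⁻¹ = z' * (t * t * z * (t * t)⁻¹) := by rw [hz']; group
            _ = z * z' := by rw [htt, inv_one, one_mul, mul_one, (hz'c z hzP).eq]
    refine ⟨zpowers w, ?_, ?_⟩
    · rw [← normalizer_eq_top_iff]
      have hPle : (P : Subgroup G) ≤ normalizer (zpowers w : Set G) :=
        le_trans (fun y hy => mem_centralizer_iff.mpr fun v hv => by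
          obtain ⟨j, rfl⟩ := mem_zpowers_iff.mp hv
          exact ((hwcomm y hy).zpow_right j).symm.eq) (centralizer_le_normalizer _)
      have htle : t ∈ normalizer (zpowers w : Set G) := by
        rw [← conj_smul_eq_self_iff, conj_smul_eq_map, MonoidHom.map_zpowers]
        rcases hwt with h | h
        · show zpowers (t * w * t⁻¹) = _
          rw [h]
        · show zpowers (t * w * t⁻¹) = _
          rw [h, zpowers_inv]
      rw [← index_eq_one]
      have h1 := index_dvd_of_le hPle
      have hPi : (P : Subgroup G).index = 2 := by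
        apply Nat.eq_of_mul_eq_mul_left (Nat.card_pos : 0 < Nat.card P)
        rw [card_mul_index, hG, hPc, mul_comm]
      rw [hPi] at h1
      rcases (Nat.dvd_prime Nat.prime_two).mp h1 with h | h
      · exact h
      · exfalso
        apply htP
        rw [show (P : Subgroup G) = normalizer (zpowers w : Set G) from
          eq_of_le_of_card_le hPle (le_of_eq (by
            apply Nat.eq_of_mul_eq_mul_right (Nat.two_pos)
            conv_lhs => rw [← h, card_mul_index]
            rw [← hPi, card_mul_index]))]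
        exact htle
    · rw [Nat.card_zpowers]
      exact orderOf_eq_prime hwp hw1

end CfsgLib.Core
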