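import Mathlib
import Cfsg.Agent.Lib.CoreSystem
import Cfsg.Agent.Lib.CorePGroup

/-!
System normalizers cover central and avoid eccentric chief factors.
-/

set_option autoImplicit false
set_option maxHeartbeats 400000

namespace CfsgLib.Core

open scoped Pointwise
open Subgroup

universe u

variable {G : Type u} [Group G] [Finite G]

/-- A system normalizer meets a noncentral minimal normal subgroup trivially. -/
theorem systemNormalizer_inf_minimal [Group.IsSolvable G] {K : Nat.Primes → Subgroup G}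
    (hK : Cfsg.IsComplementSystem K) (B : Subgroup G) [B.Normal] (hB0 : B ≠ ⊥)
    (hmin : ∀ M : Subgroup G, M.Normal → M ≤ B → M = ⊥ ∨ M = B)
    (hnc : Subgroup.centralizer (B : Set G) ≠ ⊤) : B ⊓ Cfsg.systemNormalizer K = ⊥ := by
  obtain ⟨q, hq, hBq⟩ := exists_isPGroup_of_minimal_normal hB0 hmin
  haveI := Fact.mk hq
  rw [eq_bot_iff]
  rintro x ⟨hxB, hxD⟩
  set C := Subgroup.centralizer (B : Set G) with hC
  haveI hCn : C.Normal := inferInstance
  set Kq := K ⟨q, hq⟩
  set π := QuotientGroup.mk' C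
  -- x centralizes Kq and C
  have hBK : B ⊓ Kq = ⊥ := by
    refine inf_eq_bot_of_coprime (IsPiNat.coprime (π := {q}) ?_ (system_iff.mp hK ⟨q, hq⟩).1)
    exact isPiNat_card_iff_isPGroup.mpr hBq
  have hxK : ∀ k ∈ Kq, x * k = k * x := by
    intro k hk
    have h1 : x * k * x⁻¹ * k⁻¹ ∈ Kq := by
      refine mul_mem ?_ (inv_mem hk)
      show x * k * x⁻¹ ∈ K ⟨q, hq⟩
      rw [← mem_systemNormalizer.mp hxD ⟨q, hq⟩, mem_conj_smul]
      simpa [mul_assoc] using hk
    have h2 : x * k * x⁻¹ * k⁻¹ ∈ B := by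
      rw [mul_assoc (x * k), show x * k * (x⁻¹ * k⁻¹) = x * (k * x⁻¹ * k⁻¹) by group]
      exact mul_mem hxB (‹B.Normal›.conj_mem _ (inv_mem hxB) k)
    have h3 : x * k * x⁻¹ * k⁻¹ ∈ (⊥ : Subgroup G) := hBK ▸ Subgroup.mem_inf.mpr ⟨h2, h1⟩
    rw [Subgroup.mem_bot] at h3
    calc x * k = x * k * x⁻¹ * k⁻¹ * (k * x) := by group
      _ = k * x := by rw [h3, one_mul]
  haveI : Nontrivial (G ⧸ C) := QuotientGroup.nontrivial_iff.mpr hnc
  obtain ⟨Mb, hMb, hMb0, -, hMbmin⟩ :=
    exists_minimal_normal_le (N := (⊤ : Subgroup (G ⧸ C))) top_ne_bot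
  haveI := hMb
  obtain ⟨r, hr, hMr⟩ := exists_isPGroup_of_minimal_normal hMb0 hMbmin
  haveI := Fact.mk hr
  set M := Mb.comap π with hMdef
  haveI : M.Normal := hMb.comap π
  -- fixed points of M on B
  haveI hFn : (B ⊓ Subgroup.centralizer (M : Set G)).Normal := inferInstance
  have hne : B ⊓ Subgroup.centralizer (M : Set G) ≠ B := by
    intro h
    refine hMb0 (eq_bot_iff.mpr fun y hy => ?_)
    obtain ⟨g, rfl⟩ := QuotientGroup.mk'_surjective C y
    refine (QuotientGroup.eq_one_iff g).mpr ?_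
    rw [hC, Subgroup.mem_centralizer_iff]
    intro b hb
    exact ((Subgroup.mem_centralizer_iff.mp ((inf_eq_left.mp h) hb)) g hy).symm
  have hfix : B ⊓ Subgroup.centralizer (M : Set G) = ⊥ :=
    (hmin _ hFn inf_le_left).resolve_right hne
  by_cases hrq : r = q
  · -- a q-group fixes a nontrivial element
    exfalso
    subst hrq
    obtain ⟨T⟩ : Nonempty (Sylow r G) := inferInstance
    have hBT : B ≤ (T : Subgroup G) := by
      exact (le_pCore inferInstance hBq).trans (pCore_le_sylow T)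
    haveI : Group.IsNilpotent ↥(T : Subgroup G) := isNilpotent_of_isPGroup T.isPGroup'
    have hB0' : B.subgroupOf (T : Subgroup G) ≠ ⊥ := fun h => hB0 (by
      have := congrArg (Subgroup.map (T : Subgroup G).subtype) h
      rwa [Subgroup.map_subgroupOf_eq_of_le hBT, Subgroup.map_bot] at this)
    obtain ⟨⟨z, hzT⟩, hzB, hz1⟩ :=
      (Subgroup.ne_bot_iff_exists_ne_one.mp (nilpotent_inf_center_ne_bot hB0')) |> fun ⟨z, hz⟩ =>
        (⟨z.1, z.2, fun e => hz (Subtype.ext e)⟩ : ∃ z : ↥(T : Subgroup G),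
          z ∈ B.subgroupOf (T : Subgroup G) ⊓ Subgroup.center _ ∧ z ≠ 1)
    have hMT : Mb ≤ (T : Subgroup G).map π :=
      (le_pCore hMb hMr).trans
        (pCore_le_sylow (T.mapSurjective (QuotientGroup.mk'_surjective C)))
    have : z ∈ B ⊓ Subgroup.centralizer (M : Set G) := by
      refine ⟨hzB.1, Subgroup.mem_centralizer_iff.mpr fun g hg => ?_⟩
      obtain ⟨t, ht, htg⟩ := hMT hg
      have hc : t⁻¹ * g ∈ C := QuotientGroup.eq.mp htg
      have h1 : z * (t⁻¹ * g) = t⁻¹ * g * z :=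
        Subgroup.mem_centralizer_iff.mp hc z hzB.1
      have h2 : t * z = z * t :=
        congrArg Subtype.val (Subgroup.mem_center_iff.mp hzB.2 ⟨t, ht⟩)
      calc g * z = t * (t⁻¹ * g * z) := by group
        _ = t * (z * (t⁻¹ * g)) := by rw [h1]
        _ = z * g := by rw [← mul_assoc, h2]; group
    rw [hfix, Subgroup.mem_bot] at this
    exact hz1 (Subtype.ext this)
  · -- M lies in Kq C, which centralizes x
    have hH : IsHall ({q}ᶜ : Set ℕ) (Kq.map π) :=
      system_iff.mp (system_quotient hK C) ⟨q, hq⟩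
    have hMK : Mb ≤ Kq.map π := by
      have h1 : IsPiNat ({q}ᶜ : Set ℕ) (Nat.card ↥(Kq.map π ⊔ Mb)) := by
        refine (hH.1.mul ?_).of_dvd (card_sup_dvd_mul (le_normalizer_normal _))
        intro s hs hsd hsq
        have := (isPiNat_card_iff_isPGroup.mpr hMr) s hs hsd
        exact hrq ((Set.mem_singleton_iff.mp this).symm.trans (Set.mem_singleton_iff.mp hsq))
      have h2 := hH.eq_of_le h1 le_sup_left
      exact h2 ▸ le_sup_right
    have : x ∈ B ⊓ Subgroup.centralizer (M : Set G) := by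
      refine ⟨hxB, Subgroup.mem_centralizer_iff.mpr fun g hg => ?_⟩
      obtain ⟨k, hk, hkg⟩ := hMK hg
      have hc : k⁻¹ * g ∈ C := QuotientGroup.eq.mp hkg
      have h1 : x * (k⁻¹ * g) = k⁻¹ * g * x := Subgroup.mem_centralizer_iff.mp hc x hxB
      calc g * x = k * (k⁻¹ * g * x) := by group
        _ = k * (x * (k⁻¹ * g)) := by rw [h1]
        _ = x * g := by rw [← mul_assoc, ← hxK k hk]; group
    rw [hfix] at this
    exact this

theorem systemNormalizer_cover [Group.IsSolvable G] {K : Nat.Primes → Subgroup G}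
    (hK : Cfsg.IsComplementSystem K) (A B : Subgroup G) [A.Normal]
    (hc : ⁅B, (⊤ : Subgroup G)⁆ ≤ A) : B ≤ A ⊔ Cfsg.systemNormalizer K := by
  have h : B.map (QuotientGroup.mk' A) ≤ (Cfsg.systemNormalizer K).map (QuotientGroup.mk' A) := by
    rw [← systemNormalizer_quotient hK A]
    refine le_trans ?_ (center_le_systemNormalizer _)
    rintro _ ⟨b, hb, rfl⟩
    rw [Subgroup.mem_center_iff]
    intro y
    obtain ⟨g, rfl⟩ := QuotientGroup.mk'_surjective A y
    have h1 : b * g * b⁻¹ * g⁻¹ ∈ A := by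
      rw [← commutatorElement_def]
      exact hc (Subgroup.commutator_mem_commutator hb (Subgroup.mem_top g))
    have h2 : QuotientGroup.mk' A (b * g * b⁻¹ * g⁻¹) = 1 := (QuotientGroup.eq_one_iff _).mpr h1
    simp only [map_mul, map_inv, mul_inv_eq_one, mul_inv_eq_iff_eq_mul, one_mul] at h2
    exact h2.symm
  have h2 := Subgroup.map_le_iff_le_comap.mp h
  rw [Subgroup.comap_map_eq, QuotientGroup.ker_mk', sup_comm] at h2
  exact h2

end CfsgLib.Core
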