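import Cfsg.Agent.Lib.DicksonOvergroups
import Cfsg.Agent.S0803
import Cfsg.Agent.Lib.ClassicalPSLTwoPoly

/-! Existence of the maximal dihedral subgroups of `PSL₂(q)`. -/

set_option autoImplicit false
set_option linter.style.haveILetI false

universe u

namespace CfsgLib.Dickson

open Matrix

theorem sq_eq_one_of_pow_four (x : alternatingGroup (Fin 4)) : x ^ 4 = 1 → x ^ 2 = 1 := by
  revert x; decide +kernel

variable {F : Type u} [Field F] [Fintype F]

theorem psl_two_three {q : ℕ} (hF : Fintype.card F = q) (hq : q = 3) :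
    ∃ H : Subgroup (PSL F), IsCoatom H ∧ Nonempty (H ≃* DihedralGroup 2) := by
  subst hq
  haveI : Fact (Nat.Prime 3) := ⟨Nat.prime_three⟩
  haveI : Fact (Nat.Prime 2) := ⟨Nat.prime_two⟩
  haveI : CharP F 3 := charP_of_card_eq_prime_pow (f := 1) (by rw [hF, pow_one])
  have hG : Nat.card (PSL F) = 12 := by
    have h := card_psl hF (p := 3)
    norm_num [-Nat.card_eq_fintype_card] at h
    omega
  obtain ⟨A, hA, ⟨e⟩⟩ := CfsgLib.Classical.exists_alt_four_of_odd (F := F) (hF ▸ ⟨1, rfl⟩)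
  have hAtop : A = ⊤ := Subgroup.eq_top_of_card_eq _ (by rw [hA, hG])
  let e' : PSL F ≃* alternatingGroup (Fin 4) :=
    (Subgroup.topEquiv.symm.trans (MulEquiv.subgroupCongr hAtop.symm)).trans e
  obtain ⟨T⟩ : Nonempty (Sylow 2 (PSL F)) := inferInstance
  have hT : Nat.card T = 4 := by
    rw [T.card_eq_multiplicity, hG, show (12 : ℕ) = 2 ^ 2 * 3 from rfl,
      Nat.factorization_mul (by norm_num) (by norm_num), Finsupp.add_apply,
      Nat.Prime.factorization_pow Nat.prime_two,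
      Nat.factorization_eq_zero_of_not_dvd (by norm_num : ¬ 2 ∣ 3)]
    simp
  refine ⟨T, ⟨fun h => ?_, fun M hM => ?_⟩, ?_⟩
  · have : Nat.card T = 12 := by
      show Nat.card (T : Subgroup (PSL F)) = 12
      rw [h, Subgroup.card_top, hG]
    omega
  · obtain ⟨k, hk⟩ := Subgroup.card_dvd_of_le hM.le
    have h2 := Subgroup.card_subgroup_dvd_card M
    have h3 : Nat.card (T : Subgroup (PSL F)) = 4 := hT
    rw [h3] at hk
    rw [hG, hk] at h2
    have hk3 : k ∣ 3 := Nat.dvd_of_mul_dvd_mul_left (by norm_num : 0 < 4) (by exact h2)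
    rcases (Nat.dvd_prime Nat.prime_three).1 hk3 with rfl | rfl
    · exact absurd (Subgroup.eq_of_le_of_card_ge hM.le (by rw [hk, h3])) hM.ne
    · exact Subgroup.eq_top_of_card_eq _ (by rw [hk, hG])
  · have hexp : ∀ x : (T : Subgroup (PSL F)), x ^ 2 = 1 := fun x => by
      have h4 : x ^ 4 = 1 := by rw [← hT]; exact pow_card_eq_one'
      refine Subtype.ext (e'.injective ?_)
      rw [Subgroup.coe_one, map_one, SubgroupClass.coe_pow, map_pow]
      refine sq_eq_one_of_pow_four _ ?_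
      rw [← map_pow, ← SubgroupClass.coe_pow, h4, Subgroup.coe_one, map_one]
    haveI : Nontrivial (T : Subgroup (PSL F)) := Finite.one_lt_card_iff_nontrivial.1 (by
      show 1 < Nat.card T
      omega)
    haveI : IsKleinFour (T : Subgroup (PSL F)) := ⟨hT, Monoid.exponent_eq_prime_iff Nat.prime_two |>.2 fun x hx =>
      orderOf_eq_prime (hexp x) hx⟩
    exact IsKleinFour.nonempty_mulEquiv

/-- The maximal dihedral subgroups. -/
theorem exists_dihedral_max {q : ℕ} (hF : Fintype.card F = q) (h4 : 4 ≤ q) (e : ℕ) (he : e = q - 1 ∨ e = q + 1)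
    (h9 : q ≠ 9)
    (hsmall : 6 ≤ e / Nat.gcd 2 (q - 1) ∨ (q * (q - 1) * (q + 1) / Nat.gcd 2 (q - 1) ≤ 60 ∧
      (e / Nat.gcd 2 (q - 1) = 5 ∨ e / Nat.gcd 2 (q - 1) = 3) ∧ q ^ 2 % 16 ≠ 1)) :
    ∃ H : Subgroup (PSL F), IsCoatom H ∧ Nonempty (H ≃* DihedralGroup (e / Nat.gcd 2 (q - 1))) := by
  obtain ⟨p, hchar⟩ := CharP.exists F
  obtain ⟨m, hp, -⟩ := FiniteField.card F p
  haveI := Fact.mk hp
  obtain ⟨C, hC, hord, hcard⟩ := exists_torus (p := p) hF h4 e he
  obtain ⟨n, D, hn, hD, -⟩ := exists_dihedral (p := p) hF h4 hC hord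
  rw [hcard] at hn
  have hne : e / Nat.gcd 2 (q - 1) = n := by
    rw [← hn, Nat.mul_div_cancel_left _ (Nat.gcd_pos_of_pos_left _ two_pos)]
  rw [hne] at hsmall ⊢
  refine ⟨D, dihedral_isCoatom p hF h4 (by rw [hn]; exact he) h9 hD ?_ (Cfsg.Agent.S0803.result rfl), hD⟩
  rcases hsmall with h | ⟨h1, h2, h3⟩
  · exact Or.inl h
  · refine Or.inr ⟨?_, h2, h3⟩
    rw [← card_psl hF (p := p), Nat.mul_div_cancel _ (Nat.gcd_pos_of_pos_left _ two_pos)] at h1
    exact h1

theorem gcd_two_cases {q : ℕ} (hq : 1 ≤ q) :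
    (q % 2 = 0 ∧ Nat.gcd 2 (q - 1) = 1) ∨ (q % 2 = 1 ∧ Nat.gcd 2 (q - 1) = 2) := by
  rcases (Nat.dvd_prime Nat.prime_two).1 (Nat.gcd_dvd_left 2 (q - 1)) with h | h
  · left
    refine ⟨?_, h⟩
    by_contra h'
    have : Nat.gcd 2 (q - 1) = 2 := Nat.gcd_eq_left (by omega)
    omega
  · right
    have : 2 ∣ q - 1 := h ▸ Nat.gcd_dvd_right 2 (q - 1)
    exact ⟨by omega, h⟩

end CfsgLib.Dickson
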