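import Cfsg.Agent.Lib.DicksonInvol

/-! Counting and conjugacy of the four-groups of `PSL₂(q)`. -/

set_option autoImplicit false
set_option linter.style.haveILetI false

universe u

namespace CfsgLib.Dickson

open Matrix

theorem klein_pairs_six : Nat.card {x : Multiplicative (ZMod 2 × ZMod 2) × Multiplicative (ZMod 2 × ZMod 2) //
    x.1 ≠ 1 ∧ x.2 ≠ 1 ∧ x.1 ≠ x.2} = 6 := by
  rw [Nat.card_eq_fintype_card]; decide +kernel

attribute [local instance] _root_.Classical.propDecidable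

variable {F : Type u} [Field F] [Fintype F]

omit [Fintype F] in
theorem KPair.swap {u v : PSL F} (h : KPair u v) : KPair v u :=
  ⟨h.2.1, h.1, h.2.2.2.1, h.2.2.1, h.2.2.2.2.1.symm, h.2.2.2.2.2.symm⟩

/-- The four-group of a generating pair. -/
def kleinOf {u v : PSL F} (h : KPair u v) : Subgroup (PSL F) where
  carrier := {1, u, v, u * v}
  one_mem' := Or.inl rfl
  mul_mem' := by
    obtain ⟨hu, hv, -, -, -, hc⟩ := h
    have hu' : ∀ x, u * (u * x) = x := fun x => by rw [← mul_assoc, hu, one_mul]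
    have hv' : ∀ x, v * (v * x) = x := fun x => by rw [← mul_assoc, hv, one_mul]
    have hvu : ∀ x, v * (u * x) = u * (v * x) := fun x => by rw [← mul_assoc, ← hc, mul_assoc]
    intro a b ha hb
    simp only [Set.mem_insert_iff, Set.mem_singleton_iff] at ha hb ⊢
    rcases ha with rfl | rfl | rfl | rfl <;> rcases hb with rfl | rfl | rfl | rfl <;>
      simp [mul_assoc, hu, hv, hu', hv', hvu, ← hc]
  inv_mem' := by
    obtain ⟨hu, hv, -, -, -, hc⟩ := h
    have hu' : u⁻¹ = u := inv_eq_of_mul_eq_one_right hu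
    have hv' : v⁻¹ = v := inv_eq_of_mul_eq_one_right hv
    intro a ha
    simp only [Set.mem_insert_iff, Set.mem_singleton_iff] at ha ⊢
    rcases ha with rfl | rfl | rfl | rfl <;> simp [hu', hv', ← hc]

omit [Fintype F] in
theorem mem_kleinOf {u v : PSL F} (h : KPair u v) {x : PSL F} :
    x ∈ kleinOf h ↔ x = 1 ∨ x = u ∨ x = v ∨ x = u * v := Iff.rfl

theorem isKleinFour_kleinOf {u v : PSL F} (h : KPair u v) : IsKleinFour (kleinOf h) := by
  obtain ⟨hu, hv, hu1, hv1, huv, hc⟩ := h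
  have hu' : u⁻¹ = u := inv_eq_of_mul_eq_one_right hu
  have n1 : u * v ≠ 1 := fun e => huv (by rw [← hu', inv_eq_of_mul_eq_one_right e])
  have n2 : u * v ≠ u := fun e => hv1 (mul_eq_left.1 e)
  have n3 : u * v ≠ v := fun e => hu1 (mul_eq_right.1 e)
  have hset : Nat.card ({1, u, v, u * v} : Set (PSL F)) = 4 := by
    rw [Nat.card_coe_set_eq, Set.ncard_insert_of_notMem (by simp [hu1.symm, hv1.symm, n1.symm]),
      Set.ncard_insert_of_notMem (by simp [huv, n2.symm]), Set.ncard_pair n3.symm]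
  refine ⟨hset, ?_⟩
  haveI : Nontrivial (kleinOf (⟨hu, hv, hu1, hv1, huv, hc⟩ : KPair u v)) :=
    Finite.one_lt_card_iff_nontrivial.1 (by
      show 1 < Nat.card ({1, u, v, u * v} : Set (PSL F))
      rw [hset]; norm_num)
  refine (Monoid.exponent_eq_prime_iff Nat.prime_two).2 fun x hx => orderOf_eq_prime (Subtype.ext ?_) hx
  show (x : PSL F) ^ 2 = 1
  rw [pow_two]
  rcases (mem_kleinOf (⟨hu, hv, hu1, hv1, huv, hc⟩ : KPair u v)).1 x.2 with e | e | e | e <;> rw [e]
  · rw [one_mul]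
  · exact hu
  · exact hv
  · rw [mul_assoc, ← mul_assoc v u v, ← hc, mul_assoc u v v, hv, mul_one, hu]

theorem isKleinFour_mul_self {V : Subgroup (PSL F)} (hV : IsKleinFour V) {x : PSL F} (hx : x ∈ V) :
    x * x = 1 := congrArg Subtype.val (IsKleinFour.mul_self (⟨x, hx⟩ : V))

theorem kpair_of_klein {V : Subgroup (PSL F)} (hV : IsKleinFour V) {a b : V} (h : a ≠ 1 ∧ b ≠ 1 ∧ a ≠ b) :
    KPair (a : PSL F) b := by
  haveI := IsKleinFour.isMulCommutative (G := V)
  exact ⟨isKleinFour_mul_self hV a.2, isKleinFour_mul_self hV b.2, fun e => h.1 (Subtype.ext e),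
    fun e => h.2.1 (Subtype.ext e), fun e => h.2.2 (Subtype.ext e),
    congrArg Subtype.val (mul_comm' a b)⟩

theorem kleinOf_eq {u v : PSL F} (h : KPair u v) {V : Subgroup (PSL F)} (hV : IsKleinFour V) (hu : u ∈ V)
    (hv : v ∈ V) : kleinOf h = V := by
  refine Subgroup.eq_of_le_of_card_ge (fun x hx => ?_) ?_
  · rcases (mem_kleinOf h).1 hx with rfl | rfl | rfl | rfl
    exacts [one_mem V, hu, hv, mul_mem hu hv]
  · rw [hV.card_four, (isKleinFour_kleinOf h).card_four]

theorem exists_pair {V : Subgroup (PSL F)} (hV : IsKleinFour V) :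
    ∃ (u v : PSL F) (h : KPair u v), kleinOf h = V := by
  obtain ⟨e⟩ := IsKleinFour.nonempty_mulEquiv (G₁ := Multiplicative (ZMod 2 × ZMod 2)) (G₂ := V)
  let a : Multiplicative (ZMod 2 × ZMod 2) := Multiplicative.ofAdd (1, 0)
  let b : Multiplicative (ZMod 2 × ZMod 2) := Multiplicative.ofAdd (0, 1)
  have hp : KPair (e a : PSL F) (e b) := kpair_of_klein hV
    ⟨fun h => absurd (e.injective (h.trans (map_one e).symm)) (show a ≠ 1 by simp [a, Prod.ext_iff]),
      fun h => absurd (e.injective (h.trans (map_one e).symm)) (show b ≠ 1 by simp [b, Prod.ext_iff]),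
      fun h => absurd (e.injective h) (show a ≠ b by simp [a, b, Prod.ext_iff])⟩
  exact ⟨_, _, hp, kleinOf_eq hp hV (e a).2 (e b).2⟩

/-- Twelve times the number of four-groups is the order of the group. -/
theorem card_klein (hodd : Odd (Fintype.card F)) :
    12 * Nat.card {V : Subgroup (PSL F) // IsKleinFour V} = Nat.card (PSL F) := by
  have e : {x : PSL F × PSL F // KPair x.1 x.2} ≃
      Σ V : {V : Subgroup (PSL F) // IsKleinFour V}, {x : V.1 × V.1 // x.1 ≠ 1 ∧ x.2 ≠ 1 ∧ x.1 ≠ x.2} :=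
    { toFun := fun x => ⟨⟨kleinOf x.2, isKleinFour_kleinOf x.2⟩,
        ⟨(⟨x.1.1, Or.inr (Or.inl rfl)⟩, ⟨x.1.2, Or.inr (Or.inr (Or.inl rfl))⟩),
          fun h => x.2.2.2.1 (congrArg Subtype.val h), fun h => x.2.2.2.2.1 (congrArg Subtype.val h),
          fun h => x.2.2.2.2.2.1 (congrArg Subtype.val h)⟩⟩
      invFun := fun y => ⟨(y.2.1.1.1, y.2.1.2.1), kpair_of_klein y.1.2 y.2.2⟩
      left_inv := fun x => rfl
      right_inv := fun y => by
        obtain ⟨⟨V, hV⟩, ⟨⟨a, ha⟩, ⟨b, hb⟩⟩, hab⟩ := y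
        have hk := kleinOf_eq (kpair_of_klein hV hab) hV ha hb
        have key : ∀ (W : {V : Subgroup (PSL F) // IsKleinFour V}) (e : W = ⟨V, hV⟩)
            (x : {x : W.1 × W.1 // x.1 ≠ 1 ∧ x.2 ≠ 1 ∧ x.1 ≠ x.2}),
            (x.1.1 : PSL F) = a → (x.1.2 : PSL F) = b →
            (⟨W, x⟩ : Σ V : {V : Subgroup (PSL F) // IsKleinFour V}, {x : V.1 × V.1 // x.1 ≠ 1 ∧ x.2 ≠ 1 ∧ x.1 ≠ x.2}) =
              ⟨⟨V, hV⟩, ⟨(⟨a, ha⟩, ⟨b, hb⟩), hab⟩⟩ := by
          rintro W rfl ⟨⟨⟨a', ha'⟩, ⟨b', hb'⟩⟩, h'⟩ (rfl : a' = a) (rfl : b' = b)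
          rfl
        exact key _ (Subtype.ext hk) _ rfl rfl }
  have h2 := card_kpairs (F := F) hodd
  haveI := Fintype.ofFinite {V : Subgroup (PSL F) // IsKleinFour V}
  rw [Nat.card_congr e, Nat.card_sigma] at h2
  have h6 : ∀ V : {V : Subgroup (PSL F) // IsKleinFour V},
      Nat.card {x : V.1 × V.1 // x.1 ≠ 1 ∧ x.2 ≠ 1 ∧ x.1 ≠ x.2} = 6 := fun V => by
    haveI := V.2
    obtain ⟨f⟩ := IsKleinFour.nonempty_mulEquiv (G₁ := V.1) (G₂ := Multiplicative (ZMod 2 × ZMod 2))
    rw [← klein_pairs_six]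
    refine Nat.card_congr ((f.toEquiv.prodCongr f.toEquiv).subtypeEquiv fun x => ?_)
    simp
  simp only [h6, Finset.sum_const, Finset.card_univ, smul_eq_mul, ← Nat.card_eq_fintype_card] at h2
  omega

/-- The elements centralising a four-group. -/
theorem card_cent_pair_le (hodd : Odd (Fintype.card F)) {u v : PSL F} (h : KPair u v) :
    Nat.card {z : PSL F // z * u = u * z ∧ z * v = v * z} ≤ 4 := by
  obtain ⟨x, hx⟩ := invol_conj hodd h.1 h.2.2.1
  set w := x⁻¹ * v * x with hw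
  have hu : x⁻¹ * u * x = mkP stdI := by rw [← hx]; group
  have hp : KPair (mkP stdI) w := by
    have := h.map (MulAut.conj x⁻¹).toMonoidHom (MulAut.conj x⁻¹).injective
    simpa [hu, hw] using this
  have key : ∀ z : {z : PSL F // z * u = u * z ∧ z * v = v * z},
      x⁻¹ * z.1 * x ∈ ({1, mkP stdI, w, mkP stdI * w} : Finset (PSL F)) := fun z => by
    have := centralizer_kpair hodd hp (z := x⁻¹ * z.1 * x)
      (by
        rw [← hu]
        calc x⁻¹ * z.1 * x * (x⁻¹ * u * x) = x⁻¹ * (z.1 * u) * x := by group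
          _ = x⁻¹ * (u * z.1) * x := by rw [z.2.1]
          _ = x⁻¹ * u * x * (x⁻¹ * z.1 * x) := by group)
      (by
        rw [hw]
        calc x⁻¹ * z.1 * x * (x⁻¹ * v * x) = x⁻¹ * (z.1 * v) * x := by group
          _ = x⁻¹ * (v * z.1) * x := by rw [z.2.2]
          _ = x⁻¹ * v * x * (x⁻¹ * z.1 * x) := by group)
    simp only [Finset.mem_insert, Finset.mem_singleton]
    exact this
  have hcard : ({1, mkP stdI, w, mkP stdI * w} : Finset (PSL F)).card ≤ 4 := Finset.card_le_four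
  refine le_trans ?_ hcard
  rw [← Nat.card_eq_finsetCard]
  exact Nat.card_le_card_of_injective (fun z => ⟨_, key z⟩) fun a b e => Subtype.ext (by simpa using congrArg Subtype.val e)

/-- The normaliser of a four-group has order at most `24`. -/
theorem card_normalizer_le (hodd : Odd (Fintype.card F)) {u v : PSL F} (h : KPair u v) :
    Nat.card (Subgroup.normalizer ((kleinOf h : Subgroup (PSL F)) : Set (PSL F))) ≤ 24 := by
  set N := Subgroup.normalizer ((kleinOf h : Subgroup (PSL F)) : Set (PSL F))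
  haveI := Fintype.ofFinite N
  let f : N → PSL F × PSL F := fun g => (g.1 * u * g.1⁻¹, g.1 * v * g.1⁻¹)
  have himg : ∀ y ∈ Finset.univ.image f,
      y ∈ ((({u, v, u * v} : Finset (PSL F))) ×ˢ ({u, v, u * v} : Finset (PSL F))).filter (fun x => x.1 ≠ x.2) := by
    intro y hy
    obtain ⟨g, -, rfl⟩ := Finset.mem_image.1 hy
    have hm : ∀ s, s ∈ kleinOf h → s ≠ 1 → g.1 * s * g.1⁻¹ ∈ ({u, v, u * v} : Finset (PSL F)) := fun s hs h1 => by
      rcases (mem_kleinOf h).1 ((Subgroup.mem_normalizer_iff.1 g.2 s).1 hs) with e | e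
      · exact absurd (conj_eq_one_iff.1 e) h1
      · simpa [Finset.mem_insert, Finset.mem_singleton] using e
    refine Finset.mem_filter.2 ⟨Finset.mem_product.2 ⟨hm u (Or.inr (Or.inl rfl)) h.2.2.1,
      hm v (Or.inr (Or.inr (Or.inl rfl))) h.2.2.2.1⟩, fun e => h.2.2.2.2.1 ?_⟩
    exact mul_left_cancel (mul_right_cancel e)
  have h6 : (Finset.univ.image f).card ≤ 6 := by
    refine (Finset.card_le_card himg).trans ?_
    have hT : ({u, v, u * v} : Finset (PSL F)).card ≤ 3 := Finset.card_le_three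
    generalize ({u, v, u * v} : Finset (PSL F)) = T at hT ⊢
    have : (T ×ˢ T).filter (fun x => x.1 ≠ x.2) = T.offDiag := by
      ext x; simp [Finset.mem_offDiag, and_assoc]
    rw [this, Finset.offDiag_card]
    have h9 : T.card ≤ 3 := hT
    interval_cases T.card <;> norm_num
  have h4 : ∀ y ∈ Finset.univ.image f, (Finset.univ.filter fun g => f g = y).card ≤ 4 := by
    intro y hy
    obtain ⟨g₀, -, rfl⟩ := Finset.mem_image.1 hy
    refine le_trans ?_ (card_cent_pair_le hodd h)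
    rw [← Nat.card_eq_finsetCard]
    refine Nat.card_le_card_of_injective (fun g => ⟨g₀.1⁻¹ * g.1.1, ?_, ?_⟩) fun a b e => Subtype.ext (Subtype.ext
      (mul_left_cancel (congrArg Subtype.val e)))
    · have := congrArg Prod.fst (Finset.mem_filter.1 g.2).2
      simp only [f] at this
      calc g₀.1⁻¹ * g.1.1 * u = g₀.1⁻¹ * (g.1.1 * u * g.1.1⁻¹) * g.1.1 := by group
        _ = g₀.1⁻¹ * (g₀.1 * u * g₀.1⁻¹) * g.1.1 := by rw [this]
        _ = u * (g₀.1⁻¹ * g.1.1) := by group
    · have := congrArg Prod.snd (Finset.mem_filter.1 g.2).2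
      simp only [f] at this
      calc g₀.1⁻¹ * g.1.1 * v = g₀.1⁻¹ * (g.1.1 * v * g.1.1⁻¹) * g.1.1 := by group
        _ = g₀.1⁻¹ * (g₀.1 * v * g₀.1⁻¹) * g.1.1 := by rw [this]
        _ = v * (g₀.1⁻¹ * g.1.1) := by group
  rw [Nat.card_eq_fintype_card]
  calc Fintype.card N ≤ 4 * (Finset.univ.image f).card :=
        Finset.card_le_mul_card_image _ _ h4
    _ ≤ 24 := by omega

/-- An embedded group with a normal four-group divides the order of the normaliser of any four-group. -/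
theorem dvd_normalizer (hodd : Odd (Fintype.card F)) {H₀ : Type} [Group H₀] {H : Subgroup (PSL F)} (eH : H ≃* H₀)
    (h₀ : ∃ u v : H₀, u * u = 1 ∧ v * v = 1 ∧ u ≠ 1 ∧ v ≠ 1 ∧ u ≠ v ∧ u * v = v * u ∧
      ∀ x, (x * u * x⁻¹ = u ∨ x * u * x⁻¹ = v ∨ x * u * x⁻¹ = u * v) ∧
        (x * v * x⁻¹ = u ∨ x * v * x⁻¹ = v ∨ x * v * x⁻¹ = u * v))
    {u v : PSL F} (h : KPair u v) :
    Nat.card H₀ ∣ Nat.card (Subgroup.normalizer ((kleinOf h : Subgroup (PSL F)) : Set (PSL F))) := by
  obtain ⟨p, hchar⟩ := CharP.exists F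
  obtain ⟨n, hp, hn⟩ := FiniteField.card F p
  haveI := Fact.mk hp
  have hp2 : p ≠ 2 := fun e => by
    rw [hn, e] at hodd
    exact Nat.not_even_iff_odd.2 hodd (Nat.even_pow.2 ⟨even_two, n.ne_zero⟩)
  obtain ⟨a, b, ha, hb, ha1, hb1, hab, hc, hn'⟩ := h₀
  set ι := H.subtype.comp eH.symm.toMonoidHom with hι
  have hιi : Function.Injective ι := Subtype.val_injective.comp eH.symm.injective
  obtain ⟨σ, hσa, hσb⟩ := klein_conj hp2 (KPair.map ⟨ha, hb, ha1, hb1, hab, hc⟩ ι hιi) h
  set κ := σ.toMonoidHom.comp ι with hκ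
  have hκi : Function.Injective κ := σ.injective.comp hιi
  have hκa : κ a = u := hσa
  have hκb : κ b = v := hσb
  rw [Nat.card_congr (MonoidHom.ofInjective hκi).toEquiv]
  refine Subgroup.card_dvd_of_le ?_
  rintro _ ⟨x, rfl⟩
  have hgen : kleinOf h = Subgroup.closure ({u, v} : Set (PSL F)) := by
    refine le_antisymm (fun y hy => ?_) ((Subgroup.closure_le _).2 fun y hy => ?_)
    · have mu : u ∈ Subgroup.closure ({u, v} : Set (PSL F)) := Subgroup.subset_closure (Or.inl rfl)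
      have mv : v ∈ Subgroup.closure ({u, v} : Set (PSL F)) := Subgroup.subset_closure (Or.inr rfl)
      rcases (mem_kleinOf h).1 hy with rfl | rfl | rfl | rfl
      exacts [one_mem _, mu, mv, mul_mem mu mv]
    · rcases hy with rfl | rfl
      · exact Or.inr (Or.inl rfl)
      · exact Or.inr (Or.inr (Or.inl rfl))
  rw [hgen]
  refine mem_normalizer_closure fun s hs => ?_
  rw [← hgen]
  rcases hs with e | e <;> rw [e]
  · rw [show κ x * u * (κ x)⁻¹ = κ (x * a * x⁻¹) by rw [map_mul, map_mul, map_inv, hκa]]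
    rcases (hn' x).1 with e | e | e <;> rw [e]
    · exact Or.inr (Or.inl hκa)
    · exact Or.inr (Or.inr (Or.inl hκb))
    · exact Or.inr (Or.inr (Or.inr (by rw [map_mul, hκa, hκb]; rfl)))
  · rw [show κ x * v * (κ x)⁻¹ = κ (x * b * x⁻¹) by rw [map_mul, map_mul, map_inv, hκb]]
    rcases (hn' x).2 with e | e | e <;> rw [e]
    · exact Or.inr (Or.inl hκa)
    · exact Or.inr (Or.inr (Or.inl hκb))
    · exact Or.inr (Or.inr (Or.inr (by rw [map_mul, hκa, hκb]; rfl)))

/-- The orbit of a subgroup under conjugation. -/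
theorem card_class (V : Subgroup (PSL F)) :
    Nat.card {W : Subgroup (PSL F) // ∃ g : PSL F, W = V.map (MulAut.conj g).toMonoidHom} *
      Nat.card (Subgroup.normalizer (V : Set (PSL F))) = Nat.card (PSL F) := by
  set N := Subgroup.normalizer (V : Set (PSL F)) with hN
  have key : ∀ g k : PSL F, V.map (MulAut.conj g).toMonoidHom = V.map (MulAut.conj k).toMonoidHom ↔ g⁻¹ * k ∈ N := by
    intro g k
    rw [hN, Subgroup.mem_normalizer_iff]
    constructor
    · intro e x
      have h1 : ∀ y, y ∈ V ↔ k * y * k⁻¹ ∈ V.map (MulAut.conj g).toMonoidHom := fun y => by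
        rw [e]
        exact (Subgroup.mem_map_iff_mem (MulAut.conj k).injective).symm
      rw [h1 x]
      constructor
      · rintro ⟨y, hy, e'⟩
        simp only [MulEquiv.coe_toMonoidHom, MulAut.conj_apply] at e'
        rw [show g⁻¹ * k * x * (g⁻¹ * k)⁻¹ = g⁻¹ * (k * x * k⁻¹) * g by group, ← e',
          show g⁻¹ * (g * y * g⁻¹) * g = y by group]
        exact hy
      · intro hy
        exact ⟨_, hy, by simp [mul_assoc]⟩
    · intro h
      ext x
      simp only [Subgroup.mem_map, MulEquiv.coe_toMonoidHom, MulAut.conj_apply]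
      constructor
      · rintro ⟨y, hy, rfl⟩
        refine ⟨(g⁻¹ * k)⁻¹ * y * (g⁻¹ * k), (h _).2 ?_, by group⟩
        convert hy using 1
        group
      · rintro ⟨y, hy, rfl⟩
        exact ⟨_, (h y).1 hy, by group⟩
  have e : {W : Subgroup (PSL F) // ∃ g : PSL F, W = V.map (MulAut.conj g).toMonoidHom} ≃ (PSL F) ⧸ N := by
    refine (Equiv.ofBijective (fun x : (PSL F) ⧸ N => Quotient.liftOn' x
      (fun g => (⟨V.map (MulAut.conj g).toMonoidHom, g, rfl⟩ :
        {W : Subgroup (PSL F) // ∃ g : PSL F, W = V.map (MulAut.conj g).toMonoidHom}))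
      fun a b hab => Subtype.ext ((key a b).2 (QuotientGroup.leftRel_apply.1 hab))) ⟨?_, ?_⟩).symm
    · intro x y hxy
      induction x using QuotientGroup.induction_on with | H a => ?_
      induction y using QuotientGroup.induction_on with | H b => ?_
      exact QuotientGroup.eq.2 ((key a b).1 (congrArg Subtype.val hxy))
    · rintro ⟨W, g, rfl⟩
      exact ⟨(g : (PSL F) ⧸ N), rfl⟩
  rw [Nat.card_congr e]
  exact N.index_mul_card

end CfsgLib.Dickson
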