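import Mathlib

/-!
# Numbers of classes of the alternating and symmetric groups
-/

set_option autoImplicit false

namespace CfsgLib.AltClassCount

open Equiv

/-- The possible cycle types in degree `n`. -/
abbrev CType (n : ℕ) : Type := {m : Multiset ℕ // m.sum ≤ n ∧ ∀ a ∈ m, 2 ≤ a}

theorem exists_perm {n : ℕ} (m : CType n) : ∃ g : Perm (Fin n), g.cycleType = m.1 :=
  (Equiv.Perm.exists_with_cycleType_iff (Fin n)).2 ⟨by simpa using m.2.1, m.2.2⟩

/-- The cycle type of a class. -/
def typeOf {n : ℕ} : ConjClasses (Perm (Fin n)) → CType n :=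
  Quotient.lift (fun g => (⟨g.cycleType, by simpa [Equiv.Perm.sum_cycleType] using g.support.card_le_univ,
    fun _ h => Equiv.Perm.two_le_of_mem_cycleType h⟩ : CType n))
    (fun _ _ h => Subtype.ext (Equiv.Perm.isConj_iff_cycleType_eq.1 h))

theorem bijective_typeOf (n : ℕ) : Function.Bijective (typeOf (n := n)) := by
  constructor
  · intro a b h
    induction a using Quotient.inductionOn
    induction b using Quotient.inductionOn
    refine Quotient.sound (Equiv.Perm.isConj_iff_cycleType_eq.2 ?_)
    simpa [typeOf] using congrArg Subtype.val h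
  · intro m
    obtain ⟨g, hg⟩ := exists_perm m
    exact ⟨Quotient.mk _ g, Subtype.ext hg⟩

theorem card_classes_eq (n : ℕ) :
    Nat.card (ConjClasses (Perm (Fin n))) = Nat.card (CType n) :=
  Nat.card_congr (Equiv.ofBijective _ (bijective_typeOf n))

theorem card_classes_le_partition (n : ℕ) :
    Nat.card (ConjClasses (Perm (Fin n))) ≤ Nat.card n.Partition := by
  refine Nat.card_le_card_of_injective (fun c => (⟨(typeOf c).1 + Multiset.replicate (n - (typeOf c).1.sum) 1,
    ?_, ?_⟩ : n.Partition)) ?_
  · intro i hi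
    rcases Multiset.mem_add.1 hi with h | h
    · exact lt_of_lt_of_le two_pos ((typeOf c).2.2 i h)
    · rw [Multiset.eq_of_mem_replicate h]; exact one_pos
  · simp [Nat.add_sub_cancel' (typeOf c).2.1]
  · intro a b h
    refine (bijective_typeOf n).1 (Subtype.ext ?_)
    have h' := congrArg (fun p : n.Partition => p.parts.filter (fun i => 2 ≤ i)) h
    simp only [Multiset.filter_add] at h'
    rw [Multiset.filter_eq_self.2 (typeOf a).2.2, Multiset.filter_eq_self.2 (typeOf b).2.2,
      Multiset.filter_eq_nil.2 (fun i hi => by rw [Multiset.eq_of_mem_replicate hi]; norm_num),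
      Multiset.filter_eq_nil.2 (fun i hi => by rw [Multiset.eq_of_mem_replicate hi]; norm_num),
      add_zero, add_zero] at h'
    exact h'

theorem partition_succ_le (n : ℕ) (hn : 1 ≤ n) :
    Nat.card (n + 1).Partition ≤ 2 * Nat.card n.Partition := by
  classical
  have hA : Nat.card {p : (n + 1).Partition // 1 ∈ p.parts} ≤ Nat.card n.Partition := by
    refine Nat.card_le_card_of_injective (fun p => (⟨p.1.parts.erase 1,
      fun hi => p.1.parts_pos (Multiset.mem_of_mem_erase hi), ?_⟩ : n.Partition)) ?_
    · have h := congrArg Multiset.sum (Multiset.cons_erase p.2)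
      rw [Multiset.sum_cons, p.1.parts_sum] at h
      omega
    · intro a b h
      have h' : a.1.parts.erase 1 = b.1.parts.erase 1 := congrArg Nat.Partition.parts h
      refine Subtype.ext (Nat.Partition.ext ?_)
      rw [← Multiset.cons_erase a.2, ← Multiset.cons_erase b.2, h']
  have hmin : ∀ p : {p : (n + 1).Partition // 1 ∉ p.parts},
      ∃ s ∈ p.1.parts, 2 ≤ s ∧ ∀ t ∈ p.1.parts, s ≤ t := by
    intro p
    have hne : p.1.parts.toFinset.Nonempty := by
      rw [Finset.nonempty_iff_ne_empty, ne_eq, Multiset.toFinset_eq_empty]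
      intro h0
      have := p.1.parts_sum
      simp [h0] at this
    refine ⟨p.1.parts.toFinset.min' hne, Multiset.mem_toFinset.1 (Finset.min'_mem _ _), ?_,
      fun t ht => Finset.min'_le _ _ (Multiset.mem_toFinset.2 ht)⟩
    have h1 := Multiset.mem_toFinset.1 (Finset.min'_mem _ hne)
    have h2 := p.1.parts_pos h1
    have h3 : p.1.parts.toFinset.min' hne ≠ 1 := fun e => p.2 (by rw [e] at h1; exact h1)
    omega
  choose s hs hs2 hsmin using hmin
  have hB : Nat.card {p : (n + 1).Partition // 1 ∉ p.parts} ≤ Nat.card n.Partition := by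
    refine Nat.card_le_card_of_injective (fun p => (⟨(s p - 1) ::ₘ p.1.parts.erase (s p),
      ?_, ?_⟩ : n.Partition)) ?_
    · intro i hi
      rcases Multiset.mem_cons.1 hi with rfl | hi
      · have := hs2 p; omega
      · exact p.1.parts_pos (Multiset.mem_of_mem_erase hi)
    · have h := congrArg Multiset.sum (Multiset.cons_erase (hs p))
      rw [Multiset.sum_cons, p.1.parts_sum] at h
      rw [Multiset.sum_cons]
      have := hs2 p
      omega
    · intro a b h
      have h' : (s a - 1) ::ₘ a.1.parts.erase (s a) = (s b - 1) ::ₘ b.1.parts.erase (s b) :=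
        congrArg Nat.Partition.parts h
      have key : s a = s b := by
        have h1 : s a - 1 ∈ (s b - 1) ::ₘ b.1.parts.erase (s b) := h' ▸ Multiset.mem_cons_self _ _
        have h2 : s b - 1 ∈ (s a - 1) ::ₘ a.1.parts.erase (s a) := h'.symm ▸ Multiset.mem_cons_self _ _
        have := hs2 a
        have := hs2 b
        rcases Multiset.mem_cons.1 h1 with h1 | h1 <;> rcases Multiset.mem_cons.1 h2 with h2 | h2
        · omega
        · omega
        · omega
        · have := hsmin b _ (Multiset.mem_of_mem_erase h1)
          have := hsmin a _ (Multiset.mem_of_mem_erase h2)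
          omega
      refine Subtype.ext (Nat.Partition.ext ?_)
      rw [key, Multiset.cons_inj_right] at h'
      rw [← Multiset.cons_erase (hs a), ← Multiset.cons_erase (hs b), key, h']
  have h := Nat.card_congr (Equiv.sumCompl (fun p : (n + 1).Partition => 1 ∈ p.parts))
  rw [Nat.card_sum] at h
  omega

theorem card_partition_five : Nat.card (5 : ℕ).Partition ≤ 7 := by
  classical
  let L : Finset (Multiset ℕ) := {0, {2}, {3}, {4}, {5}, {2, 2}, {2, 3}}
  have hmem : ∀ m : Multiset ℕ, m.sum ≤ 5 → (∀ a ∈ m, 2 ≤ a) → m ∈ L := by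
    intro m
    induction m using Multiset.induction with
    | empty => intros; simp [L]
    | cons a m _ =>
      intro hs h2
      have ha := h2 a (Multiset.mem_cons_self _ _)
      rw [Multiset.sum_cons] at hs
      induction m using Multiset.induction with
      | empty =>
        simp at hs
        interval_cases a <;> simp [L]
      | cons b m _ =>
        have hb := h2 b (Multiset.mem_cons_of_mem (Multiset.mem_cons_self _ _))
        rw [Multiset.sum_cons] at hs
        induction m using Multiset.induction with
        | empty =>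
          simp at hs
          have hb' : b ≤ 3 := by omega
          have ha' : a ≤ 3 := by omega
          interval_cases a <;> interval_cases b <;> first | omega | (simp only [L]; decide) | simp [L]
        | cons c m _ =>
          have hc := h2 c (Multiset.mem_cons_of_mem (Multiset.mem_cons_of_mem (Multiset.mem_cons_self _ _)))
          rw [Multiset.sum_cons] at hs
          omega
  have hsplit : ∀ p : (5 : ℕ).Partition, p.parts =
      p.parts.filter (fun i => 2 ≤ i) + Multiset.replicate (5 - (p.parts.filter (fun i => 2 ≤ i)).sum) 1 ∧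
      (p.parts.filter (fun i => 2 ≤ i)).sum ≤ 5 := by
    intro p
    have h1 : p.parts.filter (fun i => ¬ 2 ≤ i) =
        Multiset.replicate (Multiset.card (p.parts.filter (fun i => ¬ 2 ≤ i))) 1 :=
      Multiset.eq_replicate_card.2 fun i hi => by
        have := p.parts_pos (Multiset.mem_of_mem_filter hi)
        have := Multiset.of_mem_filter hi
        omega
    have h2 := Multiset.filter_add_not (fun i => 2 ≤ i) p.parts
    have h3 := congrArg Multiset.sum h2
    rw [Multiset.sum_add, p.parts_sum, h1, Multiset.sum_replicate, smul_eq_mul, mul_one] at h3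
    refine ⟨?_, by omega⟩
    conv_lhs => rw [← h2, h1]
    congr 2
    omega
  have hinj : Function.Injective (fun p : (5 : ℕ).Partition =>
      (⟨p.parts.filter (fun i => 2 ≤ i), hmem _ (hsplit p).2 fun i hi => Multiset.of_mem_filter hi⟩ : L)) := by
    intro a b h
    refine Nat.Partition.ext ?_
    rw [(hsplit a).1, (hsplit b).1]
    have h' : a.parts.filter (fun i => 2 ≤ i) = b.parts.filter (fun i => 2 ≤ i) := congrArg Subtype.val h
    rw [h']
  have h := Nat.card_le_card_of_injective _ hinj
  rw [Nat.card_eq_fintype_card (α := L), Fintype.card_coe] at h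
  exact h.trans (by decide)

theorem partition_le_pow : ∀ n : ℕ, 5 ≤ n → Nat.card n.Partition ≤ 2 ^ (n - 2) := by
  intro n hn
  induction n, hn using Nat.le_induction with
  | base => exact card_partition_five.trans (by norm_num)
  | succ m hm ih =>
    refine (partition_succ_le m (by omega)).trans ?_
    rw [show m + 1 - 2 = m - 2 + 1 by omega, pow_succ]
    omega

theorem card_alt_lt (n : ℕ) (hn : 5 ≤ n) :
    Nat.card (ConjClasses (alternatingGroup (Fin n))) < Nat.card (ConjClasses (Perm (Fin n))) := by
  classical
  rw [card_classes_eq]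
  choose r hr using fun m : CType n => exists_perm m
  let ct : alternatingGroup (Fin n) → CType n := fun g => typeOf (ConjClasses.mk (g : Perm (Fin n)))
  let good : alternatingGroup (Fin n) → Prop := fun g =>
    ∃ h : Perm (Fin n), Equiv.Perm.sign h = 1 ∧ h * (r (ct g)) * h⁻¹ = g
  -- the data of a class that is not the distinguished one
  have hbad : ∀ g, ¬ good g → (ct g).1 ≠ 0 ∧ (∀ c ∈ (ct g).1, Odd c) ∧ n ≤ (ct g).1.sum + 1 ∧
      ∃ h : Perm (Fin n), Equiv.Perm.sign h = -1 ∧ h * (r (ct g)) * h⁻¹ = g := by
    intro g hg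
    have hconj : IsConj (r (ct g)) (g : Perm (Fin n)) := by
      rw [Equiv.Perm.isConj_iff_cycleType_eq, hr]
      rfl
    obtain ⟨h, hh⟩ := isConj_iff.1 hconj
    have hsign : Equiv.Perm.sign h = -1 :=
      (Int.units_eq_one_or _).resolve_left fun e => hg ⟨h, e, hh⟩
    have hle : Subgroup.centralizer {(g : Perm (Fin n))} ≤ alternatingGroup (Fin n) := by
      intro c hc
      by_contra hcn
      have hc' : Equiv.Perm.sign c = -1 :=
        (Int.units_eq_one_or _).resolve_left fun e => hcn (Equiv.Perm.mem_alternatingGroup.2 e)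
      refine hg ⟨c * h, by rw [map_mul, hc', hsign]; norm_num, ?_⟩
      rw [mul_inv_rev, show c * h * r (ct g) * (h⁻¹ * c⁻¹) = c * (h * r (ct g) * h⁻¹) * c⁻¹ by group,
        hh, Subgroup.mem_centralizer_singleton_iff.1 hc, mul_inv_cancel_right]
    obtain ⟨h1, h2, -⟩ := Equiv.Perm.centralizer_le_alternating_iff.1 hle
    refine ⟨?_, h1, by simpa [ct, typeOf, ConjClasses.mk] using h2, h, hsign, hh⟩
    intro h0
    have h0' : (g : Perm (Fin n)).cycleType = 0 := h0
    rw [h0', Fintype.card_fin, Multiset.sum_zero] at h2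
    omega
  have hshift : ∀ g, ¬ good g → ∃ m : CType n, ∃ a ∈ (ct g).1, 3 ≤ a ∧
      m.1 = (a - 1) ::ₘ (ct g).1.erase a := by
    intro g hg
    obtain ⟨hne, hodd, -, -⟩ := hbad g hg
    obtain ⟨a, ha⟩ := Multiset.exists_mem_of_ne_zero hne
    have h2 := (ct g).2.2 a ha
    obtain ⟨t, ht⟩ := hodd a ha
    refine ⟨⟨(a - 1) ::ₘ (ct g).1.erase a, ?_, ?_⟩, a, ha, by omega, rfl⟩
    · have h := congrArg Multiset.sum (Multiset.cons_erase ha)
      rw [Multiset.sum_cons] at h
      rw [Multiset.sum_cons]
      have := (ct g).2.1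
      omega
    · intro c hc
      rcases Multiset.mem_cons.1 hc with rfl | hc
      · omega
      · exact (ct g).2.2 c (Multiset.mem_of_mem_erase hc)
  choose sh sa hsa hsa3 hsh using hshift
  have hgood : ∀ g g', good g → good g' → ct g = ct g' → IsConj g g' := by
    rintro g g' ⟨h, hh, he⟩ ⟨h', hh', he'⟩ e
    rw [e] at he
    refine isConj_iff.2 ⟨⟨h' * h⁻¹, Equiv.Perm.mem_alternatingGroup.2 (by rw [map_mul, map_inv, hh, hh']; norm_num)⟩, Subtype.ext ?_⟩
    show h' * h⁻¹ * (g : Perm (Fin n)) * (h' * h⁻¹)⁻¹ = g'
    rw [← he, ← he']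
    group
  have hbad' : ∀ g g', ¬ good g → ¬ good g' → ct g = ct g' → IsConj g g' := by
    intro g g' hg hg' e
    obtain ⟨-, -, -, h, hh, he⟩ := hbad g hg
    obtain ⟨-, -, -, h', hh', he'⟩ := hbad g' hg'
    rw [e] at he
    refine isConj_iff.2 ⟨⟨h' * h⁻¹, Equiv.Perm.mem_alternatingGroup.2 (by rw [map_mul, map_inv, hh, hh']; norm_num)⟩, Subtype.ext ?_⟩
    show h' * h⁻¹ * (g : Perm (Fin n)) * (h' * h⁻¹)⁻¹ = g'
    rw [← he, ← he']
    group
  let f : alternatingGroup (Fin n) → CType n := fun g => if hg : good g then ct g else sh g hg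
  -- shifted types are odd
  have hpar : ∀ g (hg : ¬ good g), ∃! c, c ∈ (sh g hg).1 ∧ Even c := by
    intro g hg
    obtain ⟨-, hodd, -, -⟩ := hbad g hg
    refine ⟨sa g hg - 1, ⟨by rw [hsh]; exact Multiset.mem_cons_self _ _, ?_⟩, ?_⟩
    · obtain ⟨t, ht⟩ := hodd _ (hsa g hg)
      exact ⟨t, by omega⟩
    · rintro c ⟨hc, hce⟩
      rw [hsh, Multiset.mem_cons] at hc
      exact hc.resolve_right fun h =>
        (Nat.not_even_iff_odd.2 (hodd c (Multiset.mem_of_mem_erase h))) hce
  have hsep : ∀ g g', ∀ hg' : ¬ good g', ct g ≠ sh g' hg' := by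
    intro g g' hg' e
    have hsg : Equiv.Perm.sign (g : Perm (Fin n)) = 1 := Equiv.Perm.mem_alternatingGroup.1 g.2
    obtain ⟨-, hodd, -, -⟩ := hbad g' hg'
    rw [Equiv.Perm.sign_of_cycleType, show (g : Perm (Fin n)).cycleType = (sh g' hg').1 from
      congrArg Subtype.val e, hsh, Multiset.sum_cons, Multiset.card_cons] at hsg
    have heven : Even ((((ct g').1.erase (sa g' hg')).sum + Multiset.card ((ct g').1.erase (sa g' hg')))) := by
      have hall : ∀ s : Multiset ℕ, (∀ c ∈ s, Odd c) → Even (s.sum + Multiset.card s) := by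
        intro s
        induction s using Multiset.induction with
        | empty => simp
        | cons x s ihs =>
          intro hx
          obtain ⟨t, ht⟩ := hx x (Multiset.mem_cons_self _ _)
          obtain ⟨u, hu⟩ := ihs fun c hc => hx c (Multiset.mem_cons_of_mem hc)
          exact ⟨t + u + 1, by rw [Multiset.sum_cons, Multiset.card_cons]; omega⟩
      exact hall _ fun c hc => hodd c (Multiset.mem_of_mem_erase hc)
    obtain ⟨t, ht⟩ := hodd _ (hsa g' hg')
    obtain ⟨u, hu⟩ := heven
    rw [Odd.neg_one_pow ⟨t + u, by omega⟩] at hsg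
    exact absurd hsg (by decide)
  have hf : ∀ g g', f g = f g' → IsConj g g' := by
    intro g g' e
    by_cases hg : good g <;> by_cases hg' : good g' <;> simp only [f, dif_pos, dif_neg, hg, hg', not_false_iff] at e
    · exact hgood g g' hg hg' e
    · exact absurd e (hsep g g' hg')
    · exact absurd e.symm (hsep g' g hg)
    · refine hbad' g g' hg hg' (Subtype.ext ?_)
      obtain ⟨c, -, huniq⟩ := hpar g hg
      have hs : sa g hg = sa g' hg' := by
        obtain ⟨-, hodd, -, -⟩ := hbad g hg
        obtain ⟨-, hodd', -, -⟩ := hbad g' hg'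
        have h1 : sa g hg - 1 = c := huniq _ ⟨by rw [hsh]; exact Multiset.mem_cons_self _ _, by
          obtain ⟨t, ht⟩ := hodd _ (hsa g hg)
          exact ⟨t, by omega⟩⟩
        have h2 : sa g' hg' - 1 = c := huniq _ ⟨by rw [e, hsh]; exact Multiset.mem_cons_self _ _, by
          obtain ⟨t, ht⟩ := hodd' _ (hsa g' hg')
          exact ⟨t, by omega⟩⟩
        have := hsa3 g hg
        have := hsa3 g' hg'
        omega
      have e' := congrArg Subtype.val e
      rw [hsh, hsh, hs, Multiset.cons_inj_right] at e'
      rw [← Multiset.cons_erase (hsa g hg), ← Multiset.cons_erase (hsa g' hg'), hs, e']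
  haveI : Finite (CType n) := Finite.of_equiv _ (Equiv.ofBijective _ (bijective_typeOf n))
  let two : CType n := ⟨{2}, by simp; omega, by simp⟩
  have htwo : ∀ g, f g ≠ two := by
    intro g e
    by_cases hg : good g <;> simp only [f, dif_pos, dif_neg, hg, not_false_iff] at e
    · have hsg : Equiv.Perm.sign (g : Perm (Fin n)) = 1 := Equiv.Perm.mem_alternatingGroup.1 g.2
      rw [Equiv.Perm.sign_of_cycleType, show (g : Perm (Fin n)).cycleType = ({2} : Multiset ℕ) from
        congrArg Subtype.val e] at hsg
      revert hsg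
      decide
    · have e' : (sh g hg).1 = ({2} : Multiset ℕ) := congrArg Subtype.val e
      rw [hsh, ← Multiset.cons_zero 2] at e'
      obtain ⟨-, -, hsum, -⟩ := hbad g hg
      have hc := congrArg Multiset.card e'
      have hs := congrArg Multiset.sum e'
      simp only [Multiset.sum_cons, Multiset.sum_zero, Multiset.card_cons, Multiset.card_zero] at hs hc
      have h := congrArg Multiset.sum (Multiset.cons_erase (hsa g hg))
      rw [Multiset.sum_cons] at h
      have := hsa3 g hg
      omega
  let F : ConjClasses (alternatingGroup (Fin n)) → CType n := fun C => f (Quotient.out C)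
  have hF : Function.Injective F := fun C D h => by
    rw [← Quotient.out_eq C, ← Quotient.out_eq D]
    exact Quotient.sound (hf _ _ h)
  have hnsurj : ¬ Function.Surjective F := fun h => by
    obtain ⟨C, hC⟩ := h two
    exact htwo _ hC
  letI := Fintype.ofFinite (CType n)
  letI := Fintype.ofFinite (ConjClasses (alternatingGroup (Fin n)))
  rw [Nat.card_eq_fintype_card, Nat.card_eq_fintype_card]
  exact Fintype.card_lt_of_injective_not_surjective F hF hnsurj

end CfsgLib.AltClassCount
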