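import Mathlib

/-!
# Finite abelian groups of odd order with two anticommuting square roots of `-1`

Such a group has square order.
-/

set_option autoImplicit false

namespace CfsgLib.Fgs

universe u

theorem even_finrank_of_anticomm {k V : Type*} [Field k] [AddCommGroup V] [Module k V]
    [FiniteDimensional k V] (h2 : (2 : k) ≠ 0) (X Y : V →ₗ[k] V)
    (hX : X ∘ₗ X = (-1 : k) • LinearMap.id) (hY : Y ∘ₗ Y = (-1 : k) • LinearMap.id)
    (hXY : Y ∘ₗ X = (-1 : k) • (X ∘ₗ Y)) : Even (Module.finrank k V) := by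
  have hne : ∀ Z : V →ₗ[k] V, Z ∘ₗ Z = (-1 : k) • LinearMap.id → LinearMap.det Z ≠ 0 := by
    intro Z hZ h0
    have := congrArg LinearMap.det hZ
    rw [LinearMap.det_comp, LinearMap.det_smul, LinearMap.det_id, h0, mul_one, mul_zero] at this
    exact pow_ne_zero _ (neg_ne_zero.mpr one_ne_zero) this.symm
  by_contra hodd
  rw [Nat.not_even_iff_odd] at hodd
  have := congrArg LinearMap.det hXY
  rw [LinearMap.det_smul, LinearMap.det_comp, LinearMap.det_comp, hodd.neg_one_pow] at this
  have h3 : (2 : k) * (LinearMap.det X * LinearMap.det Y) = 0 := by linear_combination this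
  exact mul_ne_zero h2 (mul_ne_zero (hne X hX) (hne Y hY)) h3

theorem isSquare_card_of_anticomm_aux : ∀ (n : ℕ) (A : Type u) [AddCommGroup A] [Finite A],
    Nat.card A = n → Odd n → ∀ X Y : A →+ A, (∀ a, X (X a) = -a) → (∀ a, Y (Y a) = -a) →
    (∀ a, Y (X a) = -X (Y a)) → IsSquare n := by
  intro n
  induction n using Nat.strong_induction_on with
  | _ n ih =>
  intro A _ _ hn hodd X Y hX hY hXY
  by_cases h1 : n = 1
  · exact ⟨1, by omega⟩
  set r := n.minFac with hr
  haveI hrp : Fact r.Prime := ⟨Nat.minFac_prime h1⟩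
  have hrn : r ∣ n := Nat.minFac_dvd n
  have hr2 : r ≠ 2 := by
    intro h
    rw [h] at hrn
    exact (Nat.not_even_iff_odd.mpr hodd) (even_iff_two_dvd.mpr hrn)
  set ν : A →+ A := nsmulAddMonoidHom r with hν
  have hB : ∀ (Z : A →+ A), ∀ a ∈ ν.ker, Z a ∈ ν.ker := fun Z a ha => by
    simp only [AddMonoidHom.mem_ker, hν, nsmulAddMonoidHom_apply] at ha ⊢
    rw [← map_nsmul, ha, map_zero]
  have hC : ∀ (Z : A →+ A), ∀ a ∈ ν.range, Z a ∈ ν.range := fun Z a ha => by
    obtain ⟨b, rfl⟩ := ha
    exact ⟨Z b, by simp [hν, map_nsmul]⟩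
  letI : Module (ZMod r) ν.ker := AddCommGroup.zmodModule fun x => Subtype.ext
    (show r • (x : A) = 0 from x.2)
  haveI hfd : FiniteDimensional (ZMod r) ν.ker := Module.Finite.of_finite
  let f : (A →+ A) → (ν.ker →+ ν.ker) := fun Z =>
    (Z.comp ν.ker.subtype).codRestrict ν.ker fun a => hB Z a a.2
  have h2 : (2 : ZMod r) ≠ 0 := by
    intro h
    have : ((2 : ℕ) : ZMod r) = 0 := by exact_mod_cast h
    rw [ZMod.natCast_eq_zero_iff] at this
    exact hr2 ((Nat.prime_dvd_prime_iff_eq hrp.out Nat.prime_two).mp this)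
  have heven := @even_finrank_of_anticomm (ZMod r) ν.ker _ _ _ hfd h2 ((f X).toZModLinearMap r) ((f Y).toZModLinearMap r)
    (LinearMap.ext fun v => Subtype.ext ((hX v).trans (by simp)))
    (LinearMap.ext fun v => Subtype.ext ((hY v).trans (by simp)))
    (LinearMap.ext fun v => Subtype.ext ((hXY v).trans (by rw [LinearMap.smul_apply, neg_one_smul]; rfl)))
  have hcardB : IsSquare (Nat.card ν.ker) := by
    rw [show Nat.card ν.ker = Nat.card (ZMod r) ^ Module.finrank (ZMod r) ν.ker from
      @Module.natCard_eq_pow_finrank (ZMod r) ν.ker _ _ _ hfd]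
    exact heven.isSquare_pow _
  have hmul : Nat.card ν.ker * Nat.card ν.range = n := by
    rw [← hn, ← AddSubgroup.index_ker, AddSubgroup.card_mul_index]
  have hker : 1 < Nat.card ν.ker := by
    obtain ⟨a, ha⟩ := exists_prime_addOrderOf_dvd_card' (G := A) r (hn ▸ hrn)
    refine Finite.one_lt_card_iff_nontrivial.mpr ⟨⟨⟨a, ?_⟩, 0, ?_⟩⟩
    · simp only [AddMonoidHom.mem_ker, hν, nsmulAddMonoidHom_apply]
      rw [← ha, addOrderOf_nsmul_eq_zero]
    · intro e
      have : a = 0 := congrArg Subtype.val e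
      rw [this, addOrderOf_zero] at ha
      exact hrp.out.ne_one ha.symm
  have hpos : 0 < Nat.card ν.range := Nat.card_pos
  let g : (A →+ A) → (ν.range →+ ν.range) := fun Z =>
    (Z.comp ν.range.subtype).codRestrict ν.range fun a => hC Z a a.2
  have := ih (Nat.card ν.range) (by rw [← hmul]; nlinarith) ν.range rfl
    (hodd.of_dvd_nat (Dvd.intro_left _ hmul)) (g X) (g Y)
    (fun a => Subtype.ext (hX a)) (fun a => Subtype.ext (hY a)) (fun a => Subtype.ext (hXY a))
  rw [← hmul]
  exact hcardB.mul this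

/-- A finite abelian group of odd order with two anticommuting endomorphisms squaring to
inversion has square order. -/
theorem isSquare_card_of_anticomm {A : Type u} [CommGroup A] [Finite A] (hodd : Odd (Nat.card A))
    (X Y : A →* A) (hX : ∀ a, X (X a) = a⁻¹) (hY : ∀ a, Y (Y a) = a⁻¹)
    (hXY : ∀ a, Y (X a) = (X (Y a))⁻¹) : IsSquare (Nat.card A) :=
  isSquare_card_of_anticomm_aux (Nat.card A) (Additive A) rfl hodd (MonoidHom.toAdditive X)
    (MonoidHom.toAdditive Y) hX hY hXY

end CfsgLib.Fgs
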