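import Mathlib

/-!
# Commuting pairs fibred over pairs of cosets
-/

set_option autoImplicit false

namespace CfsgLib.Fgs.CommPairs

variable {X : Type*} [Group X] (Y : Subgroup X)

/-- Commuting pairs in a given pair of cosets. -/
abbrev Fib (a b : X ⧸ Y) : Type _ :=
  {p : X × X // Commute p.1 p.2 ∧ (p.1 : X ⧸ Y) = a ∧ (p.2 : X ⧸ Y) = b}

theorem fib_swap (a b : X ⧸ Y) : Nat.card (Fib Y a b) = Nat.card (Fib Y b a) :=
  Nat.card_congr
    { toFun := fun p => ⟨(p.1.2, p.1.1), p.2.1.symm, p.2.2.2, p.2.2.1⟩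
      invFun := fun p => ⟨(p.1.2, p.1.1), p.2.1.symm, p.2.2.2, p.2.2.1⟩
      left_inv := fun _ => rfl
      right_inv := fun _ => rfl }

theorem card_fib_one_one :
    Nat.card (Fib Y (1 : X) (1 : X)) = Nat.card {p : Y × Y // Commute p.1 p.2} := by
  have h : ∀ x : X, (x : X ⧸ Y) = ((1 : X) : X ⧸ Y) ↔ x ∈ Y := fun x => by
    rw [QuotientGroup.eq, mul_one, inv_mem_iff]
  exact Nat.card_congr
    { toFun := fun p => ⟨(⟨p.1.1, (h _).mp p.2.2.1⟩, ⟨p.1.2, (h _).mp p.2.2.2⟩), Subtype.ext p.2.1⟩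
      invFun := fun p => ⟨((p.1.1 : X), (p.1.2 : X)), congrArg Subtype.val p.2, (h _).mpr p.1.1.2, (h _).mpr p.1.2.2⟩
      left_inv := fun _ => rfl
      right_inv := fun _ => rfl }

variable [Finite X]

theorem exists_injection (a b : X ⧸ Y) : ∃ f : Fib Y a b → Fib Y a (1 : X),
    Function.Injective f ∧ ∀ p, (f p).1.1 = p.1.1 := by
  classical
  have hex : ∀ p : Fib Y a b, ∃ h : X, (h : X ⧸ Y) = b ∧ Commute p.1.1 h :=
    fun p => ⟨p.1.2, p.2.2.2, p.2.1⟩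
  let h₀ : X → X := fun g =>
    if h : ∃ h : X, (h : X ⧸ Y) = b ∧ Commute g h then h.choose else 1
  have h₀spec : ∀ p : Fib Y a b, (h₀ p.1.1 : X ⧸ Y) = b ∧ Commute p.1.1 (h₀ p.1.1) := fun p => by
    simp only [h₀, dif_pos (hex p)]
    exact (hex p).choose_spec
  refine ⟨fun p => ⟨(p.1.1, (h₀ p.1.1)⁻¹ * p.1.2), (h₀spec p).2.inv_right.mul_right p.2.1,
    p.2.2.1, ?_⟩, ?_, fun p => rfl⟩
  · have h := (h₀spec p).1.trans p.2.2.2.symm
    rw [QuotientGroup.eq] at h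
    rw [QuotientGroup.eq, mul_one, inv_mem_iff]
    exact h
  · intro p q hpq
    have h1 := congrArg (fun r : Fib Y a ((1 : X) : X ⧸ Y) => r.1.1) hpq
    have h2 := congrArg (fun r : Fib Y a ((1 : X) : X ⧸ Y) => r.1.2) hpq
    simp only at h1 h2
    rw [h1] at h2
    exact Subtype.ext (Prod.ext h1 (mul_left_cancel h2))

theorem fib_le (a b : X ⧸ Y) : Nat.card (Fib Y a b) ≤ Nat.card (Fib Y (1 : X) (1 : X)) := by
  obtain ⟨f, hf, -⟩ := exists_injection Y a b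
  obtain ⟨g, hg, -⟩ := exists_injection Y ((1 : X) : X ⧸ Y) a
  exact (Nat.card_le_card_of_injective f hf).trans
    (le_of_eq_of_le (fib_swap Y _ _) (Nat.card_le_card_of_injective g hg))

theorem fib_lt {y x : X} (hy : y ∈ Y) (hx : x⁻¹ * y * x ∉ Y) :
    Nat.card (Fib Y (1 : X) (x : X)) < Nat.card (Fib Y (1 : X) (1 : X)) := by
  obtain ⟨f, hf, hfst⟩ := exists_injection Y ((1 : X) : X ⧸ Y) (x : X ⧸ Y)
  refine lt_of_le_of_ne (Nat.card_le_card_of_injective f hf) fun e => ?_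
  haveI := Fintype.ofFinite (Fib Y ((1 : X) : X ⧸ Y) (x : X ⧸ Y))
  have hs : Function.Surjective f :=
    ((Nat.bijective_iff_injective_and_card f).mpr ⟨hf, e⟩).surjective
  obtain ⟨p, hp⟩ := hs ⟨(y, 1), Commute.one_right y, by
    rw [QuotientGroup.eq, mul_one, inv_mem_iff]; exact hy, rfl⟩
  have h1 : p.1.1 = y := (hfst p).symm.trans (by rw [hp])
  apply hx
  have h2 := QuotientGroup.eq.mp p.2.2.2.symm
  have hc : y * p.1.2 = p.1.2 * y := h1 ▸ p.2.1.eq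
  have e2 : x⁻¹ * y * x = (x⁻¹ * p.1.2) * y * (x⁻¹ * p.1.2)⁻¹ := by
    calc x⁻¹ * y * x = x⁻¹ * (y * p.1.2) * (p.1.2)⁻¹ * x := by group
      _ = (x⁻¹ * p.1.2) * y * (x⁻¹ * p.1.2)⁻¹ := by rw [hc]; group
  rw [e2]
  exact mul_mem (mul_mem h2 hy) (inv_mem h2)

theorem card_pairs_eq_sum [Fintype ((X ⧸ Y) × (X ⧸ Y))] :
    Nat.card {p : X × X // Commute p.1 p.2} = ∑ ab : (X ⧸ Y) × (X ⧸ Y), Nat.card (Fib Y ab.1 ab.2) := by
  rw [← Nat.card_sigma]
  exact Nat.card_congr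
    { toFun := fun p => ⟨((p.1.1 : X ⧸ Y), (p.1.2 : X ⧸ Y)), ⟨p.1, p.2, rfl, rfl⟩⟩
      invFun := fun s => ⟨s.2.1, s.2.2.1⟩
      left_inv := fun _ => rfl
      right_inv := by
        rintro ⟨⟨a, b⟩, ⟨p, h, h1, h2⟩⟩
        dsimp only at h1 h2
        subst h1; subst h2
        rfl }

theorem pairs_le : Nat.card {p : X × X // Commute p.1 p.2} ≤
    Y.index * Y.index * Nat.card {p : Y × Y // Commute p.1 p.2} := by
  classical
  haveI := Fintype.ofFinite ((X ⧸ Y) × (X ⧸ Y))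
  rw [card_pairs_eq_sum Y, ← card_fib_one_one Y]
  refine (Finset.sum_le_card_nsmul _ _ _ fun ab _ => fib_le Y ab.1 ab.2).trans ?_
  rw [smul_eq_mul, Finset.card_univ, ← Nat.card_eq_fintype_card, Nat.card_prod, Subgroup.index]

theorem pairs_lt (hY : ¬ Y.Normal) : Nat.card {p : X × X // Commute p.1 p.2} <
    Y.index * Y.index * Nat.card {p : Y × Y // Commute p.1 p.2} := by
  classical
  haveI := Fintype.ofFinite ((X ⧸ Y) × (X ⧸ Y))
  obtain ⟨y, hy, x, hx⟩ : ∃ y ∈ Y, ∃ x, x⁻¹ * y * x ∉ Y := by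
    by_contra hcon
    push Not at hcon
    exact hY ⟨fun n hn g => by simpa using hcon n hn g⁻¹⟩
  rw [card_pairs_eq_sum Y, ← card_fib_one_one Y]
  refine (Finset.sum_lt_sum (g := fun _ => Nat.card (Fib Y (1 : X) (1 : X)))
    (fun ab _ => fib_le Y ab.1 ab.2)
    ⟨(((1 : X) : X ⧸ Y), (x : X ⧸ Y)), Finset.mem_univ _, fib_lt Y hy hx⟩).trans_le ?_
  rw [Finset.sum_const, smul_eq_mul, Finset.card_univ, ← Nat.card_eq_fintype_card, Nat.card_prod,
    Subgroup.index]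

theorem pairs_le_quotient [Y.Normal] : Nat.card {p : X × X // Commute p.1 p.2} ≤
    Nat.card {q : (X ⧸ Y) × (X ⧸ Y) // Commute q.1 q.2} * Nat.card {p : Y × Y // Commute p.1 p.2} := by
  classical
  haveI := Fintype.ofFinite ((X ⧸ Y) × (X ⧸ Y))
  rw [card_pairs_eq_sum Y, ← card_fib_one_one Y]
  calc ∑ ab : (X ⧸ Y) × (X ⧸ Y), Nat.card (Fib Y ab.1 ab.2)
      ≤ ∑ ab : (X ⧸ Y) × (X ⧸ Y), if Commute ab.1 ab.2 then Nat.card (Fib Y (1 : X) (1 : X)) else 0 := by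
        refine Finset.sum_le_sum fun ab _ => ?_
        split_ifs with h
        · exact fib_le Y ab.1 ab.2
        · haveI : IsEmpty (Fib Y ab.1 ab.2) := ⟨fun p => h (by
            have := p.2.1.map (QuotientGroup.mk' Y)
            simpa only [QuotientGroup.mk'_apply, p.2.2.1, p.2.2.2] using this)⟩
          simp
    _ = _ := by
        rw [← Finset.sum_filter, Finset.sum_const, smul_eq_mul]
        congr 1
        rw [Nat.card_eq_fintype_card, Fintype.card_subtype]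

end CfsgLib.Fgs.CommPairs
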