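import Mathlib
import Cfsg.Agent.Lib.CoreFrobenius

/-!
Finite subgroups of division rings act without fixed points on a finite module.
-/

set_option autoImplicit false

namespace CfsgLib.FgsDivisionRing

universe u

variable {D : Type u} [DivisionRing D] {H₀ : Type} [Group H₀] [Fintype H₀]
  (ι : H₀ →* D) (ℓ : ℕ)

/-- Evaluation of integral combinations of group elements in the ring. -/
def evalHom : (H₀ → ℤ) →+ D where
  toFun f := ∑ h, (f h : D) * ι h
  map_zero' := by simp
  map_add' f g := by simp [add_mul, Finset.sum_add_distrib]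

/-- Left translation. -/
def shift {A : Type} [AddCommGroup A] (g : H₀) : (H₀ → A) →+ (H₀ → A) where
  toFun f h := f (g⁻¹ * h)
  map_zero' := rfl
  map_add' _ _ := rfl

theorem evalHom_shift (g : H₀) (f : H₀ → ℤ) : evalHom ι (shift g f) = ι g * evalHom ι f := by
  change ∑ h, ((f (g⁻¹ * h) : ℤ) : D) * ι h = ι g * ∑ h, (f h : D) * ι h
  rw [Finset.mul_sum]
  refine Fintype.sum_equiv (Equiv.mulLeft g⁻¹) _ _ fun h => ?_
  change ((f (g⁻¹ * h) : ℤ) : D) * ι h = ι g * (((f (g⁻¹ * h) : ℤ) : D) * ι (g⁻¹ * h))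
  rw [← mul_assoc, ← (Int.cast_commute _ (ι g)).eq, mul_assoc, ← map_mul, mul_inv_cancel_left]

/-- Reduction modulo `ℓ`. -/
def red : (H₀ → ℤ) →+ (H₀ → ZMod ℓ) := (Int.castAddHom (ZMod ℓ)).compLeft H₀

omit [Fintype H₀] in
theorem red_apply (f : H₀ → ℤ) (h : H₀) : red ℓ f h = (f h : ZMod ℓ) := rfl

/-- The relations holding in the ring, modulo `ℓ`. -/
def rel : AddSubgroup (H₀ → ZMod ℓ) := (evalHom ι).ker.map (red ℓ)

theorem rel_shift (g : H₀) : rel ι ℓ ≤ (rel ι ℓ).comap (shift g) := by
  rintro f ⟨f', hf, rfl⟩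
  refine ⟨shift g f', ?_, rfl⟩
  have hf' : evalHom ι f' = 0 := hf
  change evalHom ι (shift g f') = 0
  rw [evalHom_shift, hf', mul_zero]

/-- The module. -/
abbrev V := (H₀ → ZMod ℓ) ⧸ rel ι ℓ

/-- The action on the module. -/
def ρ (g : H₀) : V ι ℓ →+ V ι ℓ :=
  QuotientAddGroup.map _ _ (shift g) (rel_shift ι ℓ g)

theorem ρ_mk (g : H₀) (f : H₀ → ZMod ℓ) :
    ρ ι ℓ g (QuotientAddGroup.mk f) = QuotientAddGroup.mk (shift g f) := rfl

theorem ρ_mul (a b : H₀) (v : V ι ℓ) : ρ ι ℓ (a * b) v = ρ ι ℓ a (ρ ι ℓ b v) := by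
  induction v using QuotientAddGroup.induction_on with
  | H f =>
    rw [ρ_mk, ρ_mk, ρ_mk]
    congr 1
    funext h
    change f ((a * b)⁻¹ * h) = f (b⁻¹ * (a⁻¹ * h))
    rw [mul_inv_rev, mul_assoc]

theorem ρ_one (v : V ι ℓ) : ρ ι ℓ 1 v = v := by
  induction v using QuotientAddGroup.induction_on with
  | H f =>
    rw [ρ_mk]
    congr 1
    funext h
    change f (1⁻¹ * h) = f h
    rw [inv_one, one_mul]

/-- `ℓ` times the additive group spanned by the group. -/
def scaled : AddSubgroup D := ((evalHom ι).comp (zsmulAddGroupHom (ℓ : ℤ))).range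

theorem mul_mem_scaled (g : H₀) {x : D} (hx : x ∈ scaled ι ℓ) : ι g * x ∈ scaled ι ℓ := by
  obtain ⟨f, rfl⟩ := hx
  refine ⟨shift g f, ?_⟩
  change evalHom ι ((ℓ : ℤ) • shift g f) = ι g * evalHom ι ((ℓ : ℤ) • f)
  rw [← evalHom_shift, map_zsmul (shift (A := ℤ) g)]

theorem fixed_eq_zero (hι : Function.Injective ι) (hcop : (Fintype.card H₀).Coprime ℓ) {g : H₀}
    (hg : g ≠ 1) (v : V ι ℓ) (hv : ρ ι ℓ g v = v) : v = 0 := by
  induction v using QuotientAddGroup.induction_on with
  | H f =>
    obtain ⟨F, rfl⟩ : ∃ F, red ℓ F = f := by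
      choose F hF using fun h => ZMod.intCast_surjective (f h)
      exact ⟨F, funext hF⟩
    rw [ρ_mk, QuotientAddGroup.eq] at hv
    obtain ⟨K, hK, hKe⟩ := hv
    set x := evalHom ι F with hx
    have hd : ∀ h, (ℓ : ℤ) ∣ (F h - shift g F h - K h) := by
      intro h
      rw [← ZMod.intCast_zmod_eq_zero_iff_dvd]
      have := congrFun hKe h
      rw [red_apply, Pi.add_apply, Pi.neg_apply] at this
      change _ = -(red ℓ F (g⁻¹ * h)) + red ℓ F h at this
      rw [red_apply, red_apply] at this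
      push_cast
      change (F h : ZMod ℓ) - (F (g⁻¹ * h) : ZMod ℓ) - (K h : ZMod ℓ) = 0
      rw [this]; ring
    choose Q hQ using hd
    have h1 : (ι g - 1) * x ∈ scaled ι ℓ := by
      refine ⟨-Q, ?_⟩
      change evalHom ι ((ℓ : ℤ) • -Q) = (ι g - 1) * x
      have e : (ℓ : ℤ) • -Q = shift g F - F + K := by
        funext h
        simp only [Pi.smul_apply, Pi.neg_apply, Pi.add_apply, Pi.sub_apply, smul_eq_mul]
        have := hQ h
        linarith
      rw [e, map_add, map_sub, evalHom_shift, (hK : evalHom ι K = 0), add_zero, sub_mul, one_mul]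
    set a := ι g with ha
    have ha1 : a ≠ 1 := fun e => hg (hι (by rw [map_one]; exact e))
    have hpows : ∀ i : ℕ, (a ^ i - 1) * x ∈ scaled ι ℓ := by
      intro i
      induction i with
      | zero => simp
      | succ i ih =>
        have : (a ^ (i + 1) - 1) * x = a * ((a ^ i - 1) * x) + (a - 1) * x := by
          rw [← mul_assoc, ← add_mul, pow_succ', mul_sub, mul_one, sub_add_sub_cancel]
        rw [this]
        exact add_mem (mul_mem_scaled ι ℓ g ih) h1
    set n := Fintype.card H₀ with hn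
    have han : a ^ n = 1 := by rw [ha, ← map_pow, hn, pow_card_eq_one, map_one]
    have hN : ∑ i ∈ Finset.range n, a ^ i = 0 := by
      have := geom_sum_mul a n
      rw [han, sub_self] at this
      exact (mul_eq_zero.1 this).resolve_right (sub_ne_zero.2 ha1)
    have h2 : (n : D) * x ∈ scaled ι ℓ := by
      have : (n : D) * x = -∑ i ∈ Finset.range n, (a ^ i - 1) * x := by
        rw [← Finset.sum_mul, Finset.sum_sub_distrib, hN, Finset.sum_const, Finset.card_range,
          zero_sub, nsmul_eq_mul, mul_one, neg_mul, neg_neg]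
      rw [this]
      exact neg_mem (sum_mem fun i _ => hpows i)
    obtain ⟨u, w, huw⟩ := Int.isCoprime_iff_gcd_eq_one.2 (show Int.gcd (n : ℤ) (ℓ : ℤ) = 1 by rw [Int.gcd_natCast_natCast]; exact hcop)
    have h3 : x ∈ scaled ι ℓ := by
      have e : x = u • ((n : D) * x) + evalHom ι ((ℓ : ℤ) • (w • F)) := by
        rw [map_zsmul, map_zsmul, ← hx, zsmul_eq_mul, zsmul_eq_mul, zsmul_eq_mul, ← mul_assoc,
          ← mul_assoc, ← add_mul]
        have : ((u * n + w * ℓ : ℤ) : D) = 1 := by rw [huw, Int.cast_one]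
        conv_lhs => rw [← one_mul x, ← this]
        push_cast
        rw [(Nat.cast_commute ℓ (w : D)).eq]
      rw [e]
      exact add_mem (zsmul_mem h2 u) ⟨w • F, rfl⟩
    obtain ⟨F', hF'⟩ := h3
    rw [QuotientAddGroup.eq_zero_iff]
    refine ⟨F - (ℓ : ℤ) • F', ?_, ?_⟩
    · change evalHom ι (F - (ℓ : ℤ) • F') = 0
      rw [map_sub, show evalHom ι ((ℓ : ℤ) • F') = evalHom ι F from hF', sub_self]
    · funext h
      rw [red_apply, red_apply]
      simp

open Classical in
/-- The identity of the group as a combination. -/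
noncomputable def delta : H₀ → ℤ := fun h => if h = 1 then 1 else 0

theorem evalHom_delta : evalHom ι delta = 1 := by
  classical
  change ∑ h, ((if h = 1 then (1 : ℤ) else 0 : ℤ) : D) * ι h = 1
  rw [Finset.sum_eq_single 1 (fun b _ hb => by simp [hb]) (by simp)]
  simp

theorem exists_frobenius (hι : Function.Injective ι) (hne : Nontrivial H₀) [NeZero ℓ]
    (hcop : (Fintype.card H₀).Coprime ℓ) (h1 : (1 : D) ∉ scaled ι ℓ) :
    ∃ (L : Type) (_ : Group L) (_ : Finite L) (C : Subgroup L),
      Cfsg.IsFrobeniusComplement C ∧ Nonempty (H₀ ≃* C) := by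
  classical
  let A := Multiplicative (V ι ℓ)
  let ψ : H₀ →* MulAut A :=
    { toFun := fun g => AddEquiv.toMultiplicative
        { toFun := ρ ι ℓ g
          invFun := ρ ι ℓ g⁻¹
          left_inv := fun v => by rw [← ρ_mul, inv_mul_cancel, ρ_one]
          right_inv := fun v => by rw [← ρ_mul, mul_inv_cancel, ρ_one]
          map_add' := map_add _ }
      map_one' := by
        apply MulEquiv.ext
        intro v
        exact congrArg Multiplicative.ofAdd (ρ_one ι ℓ v.toAdd)
      map_mul' := fun a b => by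
        apply MulEquiv.ext
        intro v
        exact congrArg Multiplicative.ofAdd (ρ_mul ι ℓ a b v.toAdd) }
  let L := A ⋊[ψ] H₀
  haveI : Finite A := Finite.of_equiv (V ι ℓ) Multiplicative.ofAdd
  haveI : Finite L := Finite.of_equiv (A × H₀) SemidirectProduct.equivProd.symm
  let K : Subgroup L := (SemidirectProduct.inl : A →* L).range
  let C : Subgroup L := (SemidirectProduct.inr : H₀ →* L).range
  have hKn : K.Normal := by
    change (SemidirectProduct.inl : A →* L).range.Normal
    rw [SemidirectProduct.range_inl_eq_ker_rightHom]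
    exact MonoidHom.normal_ker _
  have hAnt : Nontrivial A := by
    obtain ⟨v, hv⟩ : ∃ v : V ι ℓ, v ≠ 0 := by
      refine ⟨QuotientAddGroup.mk (red ℓ delta), fun h => h1 ?_⟩
      rw [QuotientAddGroup.eq_zero_iff] at h
      obtain ⟨K, hK, hKe⟩ := h
      have hd : ∀ h, (ℓ : ℤ) ∣ (delta h - K h) := by
        intro h
        rw [← ZMod.intCast_zmod_eq_zero_iff_dvd]
        have := congrFun hKe h
        rw [red_apply, red_apply] at this
        push_cast
        rw [this, sub_self]
      choose Q hQ using hd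
      refine ⟨Q, ?_⟩
      change evalHom ι ((ℓ : ℤ) • Q) = 1
      have e : (ℓ : ℤ) • Q = delta - K := by
        funext h
        exact (hQ h).symm
      rw [e, map_sub, (hK : evalHom ι K = 0), sub_zero, evalHom_delta]
    exact ⟨Multiplicative.ofAdd v, 1, hv⟩
  have hcomp : Subgroup.IsComplement' K C := by
    refine Subgroup.isComplement'_of_disjoint_and_mul_eq_univ ?_ ?_
    · rw [Subgroup.disjoint_def]
      rintro x ⟨a, rfl⟩ ⟨h, hh⟩
      have := congrArg SemidirectProduct.left hh
      simp only [SemidirectProduct.left_inr, SemidirectProduct.left_inl] at this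
      rw [← this, map_one]
    · exact Set.eq_univ_of_forall fun x =>
        ⟨SemidirectProduct.inl x.left, ⟨x.left, rfl⟩, SemidirectProduct.inr x.right, ⟨x.right, rfl⟩,
          SemidirectProduct.inl_left_mul_inr_right x⟩
  refine ⟨L, inferInstance, inferInstance, C, ?_,
    ⟨MonoidHom.ofInjective (SemidirectProduct.inr_injective (φ := ψ))⟩⟩
  haveI := hKn
  refine CfsgLib.Core.isFrobeniusComplement_of_fpf hcomp ?_ ?_ ?_
  · intro e
    obtain ⟨a, ha⟩ := exists_ne (1 : A)
    have hmem : (SemidirectProduct.inl a : L) ∈ K := ⟨a, rfl⟩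
    rw [e, Subgroup.mem_bot] at hmem
    exact ha (SemidirectProduct.inl_injective (hmem.trans (map_one _).symm))
  · intro e
    obtain ⟨a, ha⟩ := exists_ne (1 : H₀)
    have hmem : (SemidirectProduct.inr a : L) ∈ C := ⟨a, rfl⟩
    rw [e, Subgroup.mem_bot] at hmem
    exact ha (SemidirectProduct.inr_injective (hmem.trans (map_one _).symm))
  · rintro x ⟨g, rfl⟩ hg y ⟨a, rfl⟩ hgy
    have hg1 : g ≠ 1 := fun e => hg (by rw [e, map_one])
    have := congrArg SemidirectProduct.left hgy
    change (1 : A) * ψ g a = a * ψ 1 1 at this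
    rw [one_mul, map_one (ψ 1), mul_one] at this
    have h0 := fixed_eq_zero ι ℓ hι hcop hg1 a.toAdd (congrArg Multiplicative.toAdd this)
    have : a = 1 := congrArg Multiplicative.ofAdd h0
    rw [this, map_one]

/-- A prime fitting the construction. -/
theorem exists_prime (hι : Function.Injective ι) :
    ∃ ℓ : ℕ, ℓ.Prime ∧ (Fintype.card H₀).Coprime ℓ ∧ (1 : D) ∉ scaled ι ℓ := by
  obtain ⟨p, hp⟩ := CharP.exists D
  rcases CharP.char_is_prime_or_zero D p with hpp | rfl
  · haveI := Fact.mk hpp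
    refine ⟨p, hpp, Nat.Coprime.symm (hpp.coprime_iff_not_dvd.2 fun hd => ?_), ?_⟩
    · obtain ⟨h, hh⟩ := exists_prime_orderOf_dvd_card p hd
      have h1 : (ι h - 1) ^ p = 0 := by
        rw [sub_pow_char_of_commute _ (Commute.one_right (ι h)), one_pow, ← map_pow, ← hh,
          pow_orderOf_eq_one, map_one, sub_self]
      have h2 : ι h = 1 := sub_eq_zero.1 (eq_zero_of_pow_eq_zero h1)
      have h3 : h = 1 := hι (h2.trans (map_one ι).symm)
      rw [h3, orderOf_one] at hh
      exact hpp.one_lt.ne hh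
    · rintro ⟨f, hf⟩
      change evalHom ι ((p : ℤ) • f) = 1 at hf
      rw [map_zsmul, zsmul_eq_mul, Int.cast_natCast, CharP.cast_eq_zero, zero_mul] at hf
      exact zero_ne_one hf
  · haveI := CharP.charP_to_charZero D
    let Λ : Submodule ℤ D := LinearMap.range (evalHom ι).toIntLinearMap
    haveI : Module.Finite ℤ Λ := Module.Finite.range _
    haveI : Module.IsTorsionFree ℤ Λ := inferInstance
    let b := Module.Free.chooseBasis ℤ Λ
    have hone : (1 : D) ∈ Λ := ⟨delta, evalHom_delta ι⟩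
    obtain ⟨i, hi⟩ : ∃ i, b.repr ⟨1, hone⟩ i ≠ 0 := by
      by_contra hc
      push Not at hc
      have : (⟨1, hone⟩ : Λ) = 0 := b.repr.injective (by rw [map_zero]; exact Finsupp.ext hc)
      exact one_ne_zero (congrArg Subtype.val this)
    set c := b.repr ⟨1, hone⟩ i
    obtain ⟨ℓ, hle, hℓ⟩ := Nat.exists_infinite_primes (c.natAbs + Fintype.card H₀ + 1)
    refine ⟨ℓ, hℓ, Nat.Coprime.symm (hℓ.coprime_iff_not_dvd.2 fun hd => ?_), ?_⟩
    · have := Nat.le_of_dvd Fintype.card_pos hd; omega
    · rintro ⟨f, hf⟩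
      have hy : (ℓ : ℤ) • (⟨evalHom ι f, f, rfl⟩ : Λ) = ⟨1, hone⟩ := Subtype.ext (by
        change (ℓ : ℤ) • evalHom ι f = 1
        rw [← map_zsmul]; exact hf)
      have hc : (ℓ : ℤ) ∣ c := by
        refine ⟨b.repr ⟨evalHom ι f, f, rfl⟩ i, ?_⟩
        change b.repr ⟨1, hone⟩ i = _
        rw [← hy, map_zsmul, Finsupp.smul_apply, smul_eq_mul]
      have := Nat.le_of_dvd (Int.natAbs_pos.2 hi) (Int.natCast_dvd.1 hc)
      omega

end CfsgLib.FgsDivisionRing
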