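import Mathlib

/-!
Fitting's bound on the class of a product of two nilpotent normal subgroups.
-/

set_option autoImplicit false

namespace CfsgLib.FgsFittingClass

open Subgroup

variable {G : Type*} [Group G]

theorem commutator_le_iff_map {X Y M : Subgroup G} [M.Normal] :
    ⁅X, Y⁆ ≤ M ↔ X.map (QuotientGroup.mk' M) ≤
      centralizer ((Y.map (QuotientGroup.mk' M) : Subgroup (G ⧸ M)) : Set (G ⧸ M)) := by
  rw [← commutator_eq_bot_iff_le_centralizer, ← map_commutator, Subgroup.map_eq_bot_iff,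
    QuotientGroup.ker_mk']

theorem commutator_sup_le {X Y Z M : Subgroup G} [M.Normal] (h1 : ⁅X, Y⁆ ≤ M) (h2 : ⁅X, Z⁆ ≤ M) :
    ⁅X, Y ⊔ Z⁆ ≤ M := by
  rw [commutator_comm] at h1 h2 ⊢
  rw [commutator_le_iff_map] at h1 h2 ⊢
  rw [Subgroup.map_sup]
  exact sup_le h1 h2

theorem commutator_iSup_le {ι : Type*} {X : ι → Subgroup G} {Y M : Subgroup G} [M.Normal]
    (h : ∀ i, ⁅X i, Y⁆ ≤ M) : ⁅⨆ i, X i, Y⁆ ≤ M := by
  rw [commutator_le_iff_map, Subgroup.map_iSup]
  exact iSup_le fun i => commutator_le_iff_map.1 (h i)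

/-- The lower central series shifted, starting at the whole group. -/
def shifted (H : Subgroup G) : ℕ → Subgroup G
  | 0 => ⊤
  | i + 1 => H.lowerCentralSeries i

variable (H K : Subgroup G) [H.Normal] [K.Normal]

theorem lcs_normal : ∀ i : ℕ, (H.lowerCentralSeries i).Normal
  | 0 => ‹H.Normal›
  | i + 1 => by
    haveI := lcs_normal i
    exact Subgroup.commutator_normal _ _

instance shifted_normal : ∀ i : ℕ, (shifted H i).Normal
  | 0 => Subgroup.normal_top
  | i + 1 => lcs_normal H i

theorem shifted_commutator : ∀ i : ℕ, ⁅shifted H i, H⁆ ≤ shifted H (i + 1)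
  | 0 => commutator_le_right _ _
  | _ + 1 => le_rfl

/-- The bounding subgroup of weight `m`. -/
def bound (m : ℕ) : Subgroup G := ⨆ i : Fin (m + 1), shifted H i ⊓ shifted K (m - i)

instance bound_normal (m : ℕ) : (bound H K m).Normal := by
  refine ⟨fun x hx g => ?_⟩
  have : (bound H K m).map (MulAut.conj g).toMonoidHom ≤ bound H K m := by
    rw [bound, Subgroup.map_iSup]
    refine iSup_le fun i => le_trans ?_ (le_iSup _ i)
    exact le_of_eq (Subgroup.normal_iff_map_conj_eq.1 inferInstance g)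
  simpa using this (mem_map_of_mem _ hx)

theorem lcs_le_bound : ∀ m : ℕ, (H ⊔ K).lowerCentralSeries m ≤ bound H K (m + 1) := by
  intro m
  induction m with
  | zero =>
    rw [Subgroup.lowerCentralSeries_zero]
    refine sup_le (le_iSup_of_le (1 : Fin 2) ?_) (le_iSup_of_le (0 : Fin 2) ?_)
    · exact le_inf le_rfl le_top
    · exact le_inf le_top le_rfl
  | succ m ih =>
    rw [Subgroup.lowerCentralSeries_succ]
    refine (commutator_mono ih le_rfl).trans (commutator_iSup_le fun i => ?_)
    have hi : (i : ℕ) ≤ m + 1 := Nat.lt_succ_iff.1 i.2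
    apply commutator_sup_le
    · refine le_trans ?_ (le_iSup _ (⟨i + 1, by omega⟩ : Fin (m + 1 + 1 + 1)))
      refine le_inf ((commutator_mono inf_le_left le_rfl).trans (shifted_commutator H i)) ?_
      change _ ≤ shifted K (m + 1 + 1 - (i + 1))
      rw [Nat.add_sub_add_right]
      exact (commutator_mono inf_le_right le_rfl).trans (commutator_le_left _ _)
    · refine le_trans ?_ (le_iSup _ (⟨i, by omega⟩ : Fin (m + 1 + 1 + 1)))
      refine le_inf ((commutator_mono inf_le_left le_rfl).trans (commutator_le_left _ _)) ?_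
      change _ ≤ shifted K (m + 1 + 1 - i)
      rw [Nat.succ_sub hi]
      exact (commutator_mono inf_le_right le_rfl).trans (shifted_commutator K _)

theorem fitting_class {c d : ℕ} (hH : H.lowerCentralSeries c = ⊥) (hK : K.lowerCentralSeries d = ⊥) :
    (H ⊔ K).lowerCentralSeries (c + d) = ⊥ := by
  refine eq_bot_iff.2 ((lcs_le_bound H K (c + d)).trans (iSup_le fun i => ?_))
  rcases le_or_gt (c + 1) (i : ℕ) with h | h
  · refine inf_le_left.trans ?_
    obtain ⟨j, hj⟩ : ∃ j, (i : ℕ) = j + 1 := ⟨i - 1, by omega⟩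
    rw [hj]
    exact le_of_le_of_eq (H.lowerCentralSeries_antitone (by omega : c ≤ j)) hH
  · refine inf_le_right.trans ?_
    obtain ⟨j, hj⟩ : ∃ j, c + d + 1 - (i : ℕ) = j + 1 := ⟨c + d - i, by omega⟩
    rw [hj]
    exact le_of_le_of_eq (K.lowerCentralSeries_antitone (by omega : d ≤ j)) hK

end CfsgLib.FgsFittingClass
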