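import Cfsg.Agent.Lib.FgsPQTools
import Cfsg.Agent.Lib.FgsHallHigman
import Cfsg.Agent.Lib.CoreThompsonFpf
import Cfsg.Agent.Lib.CharCN3

/-!
# The group of order `pq` acting without fixed points: weights
-/

set_option autoImplicit false

open scoped Classical

universe u

namespace CfsgLib.FrobPQ

/-- A group of order `p * q` with cyclic normal subgroup of order `q` and trivial centre. -/
structure Frame (A : Type*) [Group A] (p q : ℕ) where
  σ : A
  a : A
  hp : p.Prime
  hq : q.Prime
  hpq : p ≠ q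
  card : Nat.card A = p * q
  ordσ : orderOf σ = q
  orda : orderOf a = p
  norm : ∀ b : A, b * σ * b⁻¹ ∈ Subgroup.zpowers σ
  hna : ¬ Commute a σ
  dvd : p ∣ q - 1
  cls : ∀ b : A, b ≠ 1 →
    b ∈ Subgroup.zpowers σ ∨ ∃ u ∈ Subgroup.zpowers σ, b ∈ Subgroup.zpowers (u * a * u⁻¹)

theorem mem_zpowers_symm {A : Type*} [Group A] [Finite A] {b c : A} (hb : (orderOf b).Prime)
    (hc : c ≠ 1) (h : c ∈ Subgroup.zpowers b) : b ∈ Subgroup.zpowers c := by
  have hle : Subgroup.zpowers c ≤ Subgroup.zpowers b := Subgroup.zpowers_le.2 h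
  have hd : orderOf c ∣ orderOf b := by
    rw [← Nat.card_zpowers, ← Nat.card_zpowers]
    exact Subgroup.card_dvd_of_le hle
  have he : orderOf c = orderOf b :=
    (hb.eq_one_or_self_of_dvd _ hd).resolve_left fun h1 => hc (orderOf_eq_one_iff.1 h1)
  have heq : Subgroup.zpowers c = Subgroup.zpowers b :=
    Subgroup.eq_of_le_of_card_ge hle (by rw [Nat.card_zpowers, Nat.card_zpowers, he])
  rw [heq]
  exact Subgroup.mem_zpowers b

theorem exists_frame {A : Type*} [Group A] [Finite A] {p q : ℕ} (hp : p.Prime) (hq : q.Prime)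
    (hpq : p ≠ q) (hA : Nat.card A = p * q) (hna : ¬ IsMulCommutative A) :
    ∃ p' q' : ℕ, ({p', q'} : Set ℕ) = {p, q} ∧ p' * q' = p * q ∧ Nonempty (Frame A p' q') := by
  suffices h : ∀ p q : ℕ, p.Prime → q.Prime → p < q → Nat.card A = p * q →
      Nonempty (Frame A p q) by
    rcases lt_or_gt_of_ne hpq with hlt | hlt
    · exact ⟨p, q, rfl, rfl, h p q hp hq hlt hA⟩
    · exact ⟨q, p, Set.pair_comm q p, mul_comm q p, h q p hq hp hlt (by rw [hA, mul_comm])⟩
  intro p q hp hq hlt hA
  haveI : Fact p.Prime := ⟨hp⟩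
  haveI : Fact q.Prime := ⟨hq⟩
  obtain ⟨σ, hσ⟩ := exists_prime_orderOf_dvd_card' (G := A) q ⟨p, by rw [hA, mul_comm]⟩
  obtain ⟨a, ha⟩ := exists_prime_orderOf_dvd_card' (G := A) p ⟨q, by rw [hA]⟩
  have hfq : (p * q).factorization q = 1 := by
    rw [Nat.factorization_mul hp.ne_zero hq.ne_zero, Finsupp.add_apply, hp.factorization,
      hq.factorization_self, Finsupp.single_eq_of_ne (Ne.symm hlt.ne), zero_add]
  have hfp : (p * q).factorization p = 1 := by
    rw [Nat.factorization_mul hp.ne_zero hq.ne_zero, Finsupp.add_apply, hq.factorization,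
      hp.factorization_self, Finsupp.single_eq_of_ne hlt.ne, add_zero]
  let S : Sylow q A := Sylow.ofCard (Subgroup.zpowers σ) (by
    rw [Nat.card_zpowers, hσ, hA, hfq, pow_one])
  have hSone : Nat.card (Sylow q A) = 1 := by
    have h1 := card_sylow_modEq_one q A
    have h2 : Nat.card (Sylow q A) ∣ p := by
      have hd := Sylow.card_dvd_index S
      have hidx : (S : Subgroup A).index = p := by
        have := Subgroup.card_mul_index (S : Subgroup A)
        rw [Sylow.coe_ofCard, Nat.card_zpowers, hσ, hA, mul_comm p q] at this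
        exact Nat.eq_of_mul_eq_mul_left hq.pos this
      rwa [hidx] at hd
    rcases hp.eq_one_or_self_of_dvd _ h2 with h | h
    · exact h
    · rw [h] at h1
      have := h1.eq_of_lt_of_lt hlt hq.one_lt
      exact absurd this hp.ne_one
  have hnorm : (Subgroup.zpowers σ).Normal := by
    haveI : Subsingleton (Sylow q A) := (Nat.card_eq_one_iff_unique.1 hSone).1
    exact Sylow.normal_of_subsingleton S
  -- there is no element of order `pq`
  have hord : ∀ b : A, b ≠ 1 → orderOf b = p ∨ orderOf b = q := by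
    intro b hb
    have hd : orderOf b ∣ p * q := hA ▸ orderOf_dvd_natCard b
    obtain ⟨x, y, hx, hy, hxy⟩ := (Nat.dvd_mul).1 hd
    rcases hp.eq_one_or_self_of_dvd _ hx with rfl | rfl <;>
      rcases hq.eq_one_or_self_of_dvd _ hy with rfl | rfl
    · exact absurd (orderOf_eq_one_iff.1 (hxy ▸ one_mul 1)) hb
    · exact Or.inr (hxy ▸ one_mul _)
    · exact Or.inl (hxy ▸ mul_one _)
    · exfalso
      refine hna ⟨⟨fun u v => ?_⟩⟩
      have htop : Subgroup.zpowers b = ⊤ :=
        (Subgroup.card_eq_iff_eq_top _).1 (by rw [Nat.card_zpowers, ← hxy, hA])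
      obtain ⟨i, rfl⟩ : u ∈ Subgroup.zpowers b := htop ▸ Subgroup.mem_top u
      obtain ⟨j, rfl⟩ : v ∈ Subgroup.zpowers b := htop ▸ Subgroup.mem_top v
      exact (Commute.zpow_zpow_self b i j).eq
  have htop : Subgroup.zpowers σ ⊔ Subgroup.zpowers a = ⊤ := by
    refine (Subgroup.card_eq_iff_eq_top _).1 (Nat.dvd_antisymm (Subgroup.card_subgroup_dvd_card _) ?_)
    rw [hA]
    refine Nat.Coprime.mul_dvd_of_dvd_of_dvd ((Nat.coprime_primes hp hq).2 hlt.ne) ?_ ?_
    · rw [← ha, ← Nat.card_zpowers]; exact Subgroup.card_dvd_of_le le_sup_right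
    · rw [← hσ, ← Nat.card_zpowers]; exact Subgroup.card_dvd_of_le le_sup_left
  have hnac : ¬ Commute a σ := by
    intro hc
    refine hna ⟨⟨fun u v => ?_⟩⟩
    haveI : IsMulCommutative ↥(Subgroup.closure ({σ, a} : Set A)) :=
      Subgroup.isMulCommutative_closure (by
        rintro x (rfl | rfl) y (rfl | rfl)
        · rfl
        · exact hc.eq.symm
        · exact hc.eq
        · rfl)
    have hcl : Subgroup.closure ({σ, a} : Set A) = ⊤ := by
      rw [eq_top_iff, ← htop]
      refine sup_le ?_ ?_ <;> rw [Subgroup.zpowers_le] <;> exact Subgroup.subset_closure (by simp)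
    exact congrArg Subtype.val (mul_comm' (⟨u, hcl ▸ Subgroup.mem_top u⟩ :
      Subgroup.closure ({σ, a} : Set A)) ⟨v, hcl ▸ Subgroup.mem_top v⟩)
  let Pa : Sylow p A := Sylow.ofCard (Subgroup.zpowers a) (by
    rw [Nat.card_zpowers, ha, hA, hfp, pow_one])
  have hnp : Nat.card (Sylow p A) = q := by
    have hd := Sylow.card_dvd_index Pa
    have hidx : (Pa : Subgroup A).index = q := by
      have := Subgroup.card_mul_index (Pa : Subgroup A)
      rw [Sylow.coe_ofCard, Nat.card_zpowers, ha, hA] at this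
      exact Nat.eq_of_mul_eq_mul_left hp.pos this
    rw [hidx] at hd
    refine (hq.eq_one_or_self_of_dvd _ hd).resolve_left fun h1 => ?_
    haveI : Subsingleton (Sylow p A) := (Nat.card_eq_one_iff_unique.1 h1).1
    have hn2 : (Subgroup.zpowers a).Normal := Sylow.normal_of_subsingleton Pa
    refine hnac ?_
    have hdis : Disjoint (Subgroup.zpowers a) (Subgroup.zpowers σ) := by
      rw [disjoint_iff]
      exact Subgroup.inf_eq_bot_of_coprime (by
        rw [Nat.card_zpowers, Nat.card_zpowers, ha, hσ]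
        exact (Nat.coprime_primes hp hq).2 hlt.ne)
    exact (Subgroup.commute_of_normal_of_disjoint _ _ hn2 hnorm hdis a σ (Subgroup.mem_zpowers a)
      (Subgroup.mem_zpowers σ))
  refine ⟨⟨σ, a, hp, hq, hlt.ne, hA, hσ, ha, fun b => hnorm.conj_mem σ (Subgroup.mem_zpowers σ) b,
    hnac, ?_, fun b hb => ?_⟩⟩
  · have h := card_sylow_modEq_one p A
    rw [hnp] at h
    exact (Nat.modEq_iff_dvd' hq.one_le).1 h.symm
  · rcases hord b hb with h | h
    · let Pb : Sylow p A := Sylow.ofCard (Subgroup.zpowers b) (by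
        rw [Nat.card_zpowers, h, hA, hfp, pow_one])
      obtain ⟨g, hg⟩ := MulAction.exists_smul_eq A Pa Pb
      obtain ⟨u, hu, v, hv, rfl⟩ : ∃ u ∈ Subgroup.zpowers σ, ∃ v ∈ Subgroup.zpowers a, u * v = g := by
        haveI := hnorm
        have : g ∈ ((Subgroup.zpowers σ ⊔ Subgroup.zpowers a : Subgroup A) : Set A) := by
          rw [htop]; trivial
        rw [Subgroup.normal_mul] at this
        exact this
      refine Or.inr ⟨u, hu, ?_⟩
      have hb' : b ∈ (((u * v) • Pa : Sylow p A) : Subgroup A) := by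
        rw [hg]; exact Subgroup.mem_zpowers b
      rw [Sylow.coe_subgroup_smul] at hb'
      obtain ⟨w, hw, hwb⟩ := hb'
      obtain ⟨i, rfl⟩ := hw
      refine ⟨i, ?_⟩
      show (u * a * u⁻¹) ^ i = b
      rw [conj_zpow, ← hwb]
      obtain ⟨j, rfl⟩ := hv
      show u * a ^ i * u⁻¹ = u * a ^ j * a ^ i * (u * a ^ j)⁻¹
      group
    · left
      let Sb : Sylow q A := Sylow.ofCard (Subgroup.zpowers b) (by
        rw [Nat.card_zpowers, h, hA, hfq, pow_one])
      haveI : Subsingleton (Sylow q A) := (Nat.card_eq_one_iff_unique.1 hSone).1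
      have : (Sb : Subgroup A) = (S : Subgroup A) := by rw [Subsingleton.elim Sb S]
      rw [Sylow.coe_ofCard, Sylow.coe_ofCard] at this
      rw [← this]
      exact Subgroup.mem_zpowers b

namespace Frame

variable {A : Type*} [Group A] {p q : ℕ} (F : Frame A p q)

include F in
theorem finite : Finite A :=
  Nat.finite_of_card_ne_zero (by rw [F.card]; exact mul_ne_zero F.hp.ne_zero F.hq.ne_zero)

theorem normal_zpowers : (Subgroup.zpowers F.σ).Normal := by
  refine ⟨fun x hx b => ?_⟩
  obtain ⟨i, rfl⟩ := hx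
  rw [← conj_zpow]
  exact zpow_mem (F.norm b) i

include F in
theorem prime_orderOf {b : A} (hb : b ≠ 1) : (orderOf b).Prime := by
  haveI := F.finite
  rcases F.cls b hb with h | ⟨u, -, h⟩
  · have hd : orderOf b ∣ q := by
      rw [← F.ordσ, ← Nat.card_zpowers, ← Nat.card_zpowers]
      exact Subgroup.card_dvd_of_le (Subgroup.zpowers_le.2 h)
    rw [(F.hq.eq_one_or_self_of_dvd _ hd).resolve_left fun h1 => hb (orderOf_eq_one_iff.1 h1)]
    exact F.hq
  · have hd : orderOf b ∣ p := by
      have e : orderOf (u * F.a * u⁻¹) = p := by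
        rw [← MulAut.conj_apply]
        exact ((MulAut.conj u).orderOf_eq F.a).trans F.orda
      rw [← e, ← Nat.card_zpowers, ← Nat.card_zpowers]
      exact Subgroup.card_dvd_of_le (Subgroup.zpowers_le.2 h)
    rw [(F.hp.eq_one_or_self_of_dvd _ hd).resolve_left fun h1 => hb (orderOf_eq_one_iff.1 h1)]
    exact F.hp

include F in
theorem eq_top {H : Subgroup A} {b c : A} (hb : b ∈ H) (hc : c ∈ H) (hb1 : b ≠ 1)
    (hcb : c ∉ Subgroup.zpowers b) : H = ⊤ := by
  haveI := F.finite
  refine (Subgroup.card_eq_iff_eq_top H).1 ?_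
  have hlt : Subgroup.zpowers b < H :=
    lt_of_le_of_ne (Subgroup.zpowers_le.2 hb) fun e => hcb (e.symm ▸ hc)
  have h1 : orderOf b ∣ Nat.card H := by
    rw [← Nat.card_zpowers]; exact Subgroup.card_dvd_of_le hlt.le
  have h2 : orderOf b < Nat.card H := by
    rw [← Nat.card_zpowers]
    by_contra hle
    exact hlt.ne (Subgroup.eq_of_le_of_card_ge hlt.le (not_lt.1 hle))
  have h3 : Nat.card H ∣ p * q := F.card ▸ H.card_subgroup_dvd_card
  rw [F.card]
  obtain ⟨x, y, hx, hy, hxy⟩ := Nat.dvd_mul.1 h3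
  have hpr := F.prime_orderOf hb1
  rw [← hxy] at h1 h2 ⊢
  rcases F.hp.eq_one_or_self_of_dvd _ hx with rfl | rfl <;>
    rcases F.hq.eq_one_or_self_of_dvd _ hy with rfl | rfl
  · exact absurd (Nat.dvd_one.1 ((one_mul 1) ▸ h1)) hpr.ne_one
  · rw [one_mul] at h1 h2
    rcases F.hq.eq_one_or_self_of_dvd _ h1 with e | e
    · exact absurd e hpr.ne_one
    · omega
  · rw [mul_one] at h1 h2
    rcases F.hp.eq_one_or_self_of_dvd _ h1 with e | e
    · exact absurd e hpr.ne_one
    · omega
  · rfl

theorem a_ne_one : F.a ≠ 1 := fun h => F.hp.ne_one (by rw [← F.orda, h, orderOf_one])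

theorem σ_ne_one : F.σ ≠ 1 := fun h => F.hq.ne_one (by rw [← F.ordσ, h, orderOf_one])

theorem σ_not_mem : F.σ ∉ Subgroup.zpowers F.a := by
  rintro ⟨i, hi⟩
  exact F.hna (hi ▸ (Commute.refl F.a).zpow_right i)

theorem closure_pair_eq_top {H : Subgroup A} (hσ : F.σ ∈ H) (ha : F.a ∈ H) : H = ⊤ :=
  F.eq_top ha hσ F.a_ne_one F.σ_not_mem

/-- the conjugates of `a` by different elements of the normal subgroup are independent -/
theorem conj_not_mem {u v : A} (hu : u ∈ Subgroup.zpowers F.σ) (hv : v ∈ Subgroup.zpowers F.σ)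
    (huv : u ≠ v) : v * F.a * v⁻¹ ∉ Subgroup.zpowers (u * F.a * u⁻¹) := by
  rintro ⟨i, hi⟩
  haveI := F.finite
  replace hi : (u * F.a * u⁻¹) ^ i = v * F.a * v⁻¹ := hi
  rw [conj_zpow] at hi
  set w := u⁻¹ * v with hw
  have hwm : w ∈ Subgroup.zpowers F.σ := mul_mem (inv_mem hu) hv
  have hwa : w * F.a * w⁻¹ = F.a ^ i := by
    calc w * F.a * w⁻¹ = u⁻¹ * (v * F.a * v⁻¹) * u := by rw [hw]; group
      _ = F.a ^ i := by rw [← hi]; group
  have h1 : w * F.a * w⁻¹ * F.a⁻¹ ∈ Subgroup.zpowers F.σ := by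
    rw [show w * F.a * w⁻¹ * F.a⁻¹ = w * (F.a * w⁻¹ * F.a⁻¹) by group]
    exact mul_mem hwm (F.normal_zpowers.conj_mem _ (inv_mem hwm) F.a)
  have h2 : w * F.a * w⁻¹ * F.a⁻¹ ∈ Subgroup.zpowers F.a := by
    rw [hwa]; exact mul_mem (zpow_mem (Subgroup.mem_zpowers _) i) (inv_mem (Subgroup.mem_zpowers _))
  have hqo : (orderOf F.σ).Prime := by rw [F.ordσ]; exact F.hq
  have hw1 : w ≠ 1 := fun e => huv (inv_mul_eq_one.1 e)
  have hcom : Commute w F.a := by
    by_contra hc
    have hne : w * F.a * w⁻¹ * F.a⁻¹ ≠ 1 := fun e =>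
      hc (mul_inv_eq_iff_eq_mul.1 (mul_inv_eq_one.1 e))
    exact F.σ_not_mem (Subgroup.zpowers_le.2 h2
      (mem_zpowers_symm hqo hne h1))
  obtain ⟨j, hj⟩ := mem_zpowers_symm hqo hw1 hwm
  have := (hcom.zpow_left j).symm
  rw [show w ^ j = F.σ from hj] at this
  exact F.hna this

end Frame

/-! ### Orbits -/

section Orbit

variable {A : Type*} [Group A] {p q : ℕ} (F : Frame A p q)
variable {G : Type*} [Group G] [MulDistribMulAction A G]

/-- only the identity is fixed by `A` -/
def Fpf (G : Type*) [Group G] [MulDistribMulAction A G] : Prop :=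
  ∀ g : G, F.σ • g = g → F.a • g = g → g = 1

theorem iterate_smul {α : Type*} [MulAction A α] (b : A) (n : ℕ) (x : α) :
    (fun y => b • y)^[n] x = b ^ n • x := by
  induction n with
  | zero => simp
  | succ n ih =>
    rw [Function.iterate_succ_apply', ih]
    show b • (b ^ n • x) = _
    rw [smul_smul, ← pow_succ']

theorem smul_pow_q {α : Type*} [MulAction A α] (x : α) : (fun y => F.σ • y)^[q] x = x := by
  rw [iterate_smul, show F.σ ^ q = 1 from orderOf_dvd_iff_pow_eq_one.1 (dvd_of_eq F.ordσ), one_smul]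

theorem smul_pow_p {α : Type*} [MulAction A α] (x : α) : (fun y => F.a • y)^[p] x = x := by
  rw [iterate_smul, show F.a ^ p = 1 from orderOf_dvd_iff_pow_eq_one.1 (dvd_of_eq F.orda), one_smul]

theorem fixed_all {α : Type*} [MulAction A α] {x : α} (hσ : F.σ • x = x) (ha : F.a • x = x)
    (b : A) : b • x = x := by
  have h : MulAction.stabilizer A x = ⊤ := F.closure_pair_eq_top hσ ha
  exact MulAction.mem_stabilizer_iff.1 (h ▸ Subgroup.mem_top b)

theorem fixed_comm_smul {α : Type*} [MulAction A α] {g : α} (hg : F.σ • g = g) (b : A) :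
    F.σ • b • g = b • g := by
  obtain ⟨i, hi⟩ : b⁻¹ * F.σ * b ∈ Subgroup.zpowers F.σ := by simpa using F.norm b⁻¹
  have hfix : b⁻¹ * F.σ * b ∈ MulAction.stabilizer A g := by
    rw [← hi]; exact zpow_mem (MulAction.mem_stabilizer_iff.2 hg) i
  have h := MulAction.mem_stabilizer_iff.1 hfix
  calc F.σ • b • g = b • (b⁻¹ * F.σ * b) • g := by
        rw [smul_smul, smul_smul]; congr 1; group
    _ = b • g := by rw [h]

variable [Finite G]

/-- fixed points of the normal subgroup of coprime orders commute -/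
theorem commute_fixed (hfix : Fpf F G) {x y : G} (hx : F.σ • x = x) (hy : F.σ • y = y)
    (hco : (orderOf x).Coprime (orderOf y)) : Commute x y := by
  let C : Subgroup G :=
    { carrier := {g | F.σ • g = g}
      mul_mem' := fun {g h} hg hh => by
        show F.σ • (g * h) = g * h
        rw [smul_mul', show F.σ • g = g from hg, show F.σ • h = h from hh]
      one_mem' := smul_one _
      inv_mem' := fun {g} hg => by
        show F.σ • g⁻¹ = g⁻¹
        rw [smul_inv', show F.σ • g = g from hg] }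
  let φ : MulAut C :=
    { toFun := fun g => ⟨F.a • (g : G), fixed_comm_smul F g.2 F.a⟩
      invFun := fun g => ⟨F.a⁻¹ • (g : G), fixed_comm_smul F g.2 F.a⁻¹⟩
      left_inv := fun g => Subtype.ext (inv_smul_smul _ _)
      right_inv := fun g => Subtype.ext (smul_inv_smul _ _)
      map_mul' := fun g h => Subtype.ext (smul_mul' _ _ _) }
  have hφn : ∀ (n : ℕ) (g : C), (((φ ^ n) g : C) : G) = F.a ^ n • (g : G) := by
    intro n
    induction n with
    | zero => intro g; simp
    | succ n ih =>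
      intro g
      rw [pow_succ', MulAut.mul_apply]
      show F.a • (((φ ^ n) g : C) : G) = _
      rw [ih, smul_smul, ← pow_succ']
  haveI : Group.IsNilpotent C := CfsgLib.Core.isNilpotent_of_fpf_prime F.hp (Nat.card C) C le_rfl φ
    (MulEquiv.ext fun g => Subtype.ext (by
      rw [hφn, show F.a ^ p = 1 from orderOf_dvd_iff_pow_eq_one.1 (dvd_of_eq F.orda), one_smul]
      rfl))
    (fun g hg => Subtype.ext (hfix g g.2 (congrArg Subtype.val hg)))
  have h := CfsgLib.CN.commute_of_coprime_orderOf (⟨x, hx⟩ : C) ⟨y, hy⟩ (by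
    rwa [← Subgroup.orderOf_coe, ← Subgroup.orderOf_coe])
  exact congrArg Subtype.val h

include F in
/-- an orbit invariant under a twisted action contains a fixed point -/
theorem exists_fixed_in_orbit {X : Type*} [MulAction A X] (act : G → X → X)
    (hact1 : ∀ x, act 1 x = x) (hactmul : ∀ g h x, act (g * h) x = act g (act h x))
    (hcompat : ∀ (b : A) (g : G) (x : X), b • act g x = act (b • g) (b • x))
    (hcop : (Nat.card G).Coprime (p * q)) {x : X} (hinv : ∀ b : A, ∃ g, b • x = act g x) :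
    ∃ g, ∀ b : A, b • act g x = act g x := by
  letI : MulAction G X := { smul := act, one_smul := hact1, mul_smul := hactmul }
  have hb : ∀ (b : A), ∀ z ∈ MulAction.orbit G x, b • z ∈ MulAction.orbit G x := by
    rintro b _ ⟨g, rfl⟩
    obtain ⟨g', hg'⟩ := hinv b
    refine ⟨b • g * g', ?_⟩
    show act (b • g * g') x = b • act g x
    rw [hcompat, hg', hactmul]
  haveI : Finite (MulAction.orbit G x) := (Set.finite_range _).to_subtype
  have hcard : Nat.card (MulAction.orbit G x) ∣ Nat.card G := by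
    rw [Nat.card_congr (MulAction.orbitEquivQuotientStabilizer G x)]
    exact Subgroup.index_dvd_card _
  have hq' : ∀ {d : ℕ}, d ∣ Nat.card G → ¬ q ∣ d := fun {d} hd h =>
    F.hq.ne_one (Nat.eq_one_of_dvd_coprimes hcop (h.trans hd) (dvd_mul_left q p))
  have hp' : ∀ {d : ℕ}, d ∣ Nat.card G → ¬ p ∣ d := fun {d} hd h =>
    F.hp.ne_one (Nat.eq_one_of_dvd_coprimes hcop (h.trans hd) (dvd_mul_right p q))
  let fσ : MulAction.orbit G x → MulAction.orbit G x :=
    fun z => ⟨F.σ • (z : X), hb _ _ z.2⟩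
  have hfσ : ∀ (n : ℕ) (z : MulAction.orbit G x), ((fσ^[n] z : MulAction.orbit G x) : X) =
      (fun y => F.σ • y)^[n] (z : X) := fun n => by
    induction n with
    | zero => intro z; rfl
    | succ n ih => intro z; rw [Function.iterate_succ_apply', Function.iterate_succ_apply', ← ih]
  obtain ⟨⟨y, hyo⟩, hyfix⟩ := exists_fixed fσ F.hq
    (fun z => Subtype.ext (by rw [hfσ, smul_pow_q])) (hq' hcard)
  have hy : F.σ • y = y := congrArg Subtype.val hyfix
  let C : Subgroup G :=
    { carrier := {g | F.σ • g = g}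
      mul_mem' := fun {g h} hg hh => by
        show F.σ • (g * h) = g * h
        rw [smul_mul', show F.σ • g = g from hg, show F.σ • h = h from hh]
      one_mem' := smul_one _
      inv_mem' := fun {g} hg => by
        show F.σ • g⁻¹ = g⁻¹
        rw [smul_inv', show F.σ • g = g from hg] }
  -- the fixed part of the orbit
  have hY : ∀ z ∈ MulAction.orbit G x, F.σ • z = z → z ∈ MulAction.orbit C y := by
    intro z hz hzf
    obtain ⟨g0, hg0⟩ := hyo
    obtain ⟨g1, hg1⟩ := hz
    set g := g1 * g0⁻¹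
    have hgy : g • y = z := by
      rw [← show g0 • x = y from hg0, ← mul_smul, inv_mul_cancel_right]; exact hg1
    let S := MulAction.stabilizer G y
    have hSinv : ∀ s ∈ S, F.σ • s ∈ S := fun s hs => by
      show (F.σ • s) • y = y
      conv_lhs => rw [← hy]
      show act (F.σ • s) (F.σ • y) = y
      rw [← hcompat, show act s y = y from hs, hy]
    have hgS : g⁻¹ * F.σ • g ∈ S := by
      show (g⁻¹ * F.σ • g) • y = y
      rw [mul_smul]
      have e : (F.σ • g) • y = z := by
        conv_lhs => rw [← hy]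
        show act (F.σ • g) (F.σ • y) = z
        rw [← hcompat, show act g y = z from hgy, hzf]
      rw [e, ← hgy, inv_smul_smul]
    let f : S → S := fun s => ⟨g⁻¹ * F.σ • (g * s), by
      rw [smul_mul', ← mul_assoc]; exact mul_mem hgS (hSinv _ s.2)⟩
    have hf : ∀ (n : ℕ) (s : S), ((f^[n] s : S) : G) = g⁻¹ * (fun y => F.σ • y)^[n] (g * s) :=
      fun n => by
        induction n with
        | zero => intro s; simp
        | succ n ih =>
          intro s
          rw [Function.iterate_succ_apply', Function.iterate_succ_apply']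
          show g⁻¹ * F.σ • (g * ((f^[n] s : S) : G)) = _
          rw [ih, mul_inv_cancel_left]
    obtain ⟨s, hs⟩ := exists_fixed f F.hq
      (fun s => Subtype.ext (by rw [hf, smul_pow_q, inv_mul_cancel_left]))
      (hq' S.card_subgroup_dvd_card)
    refine ⟨⟨g * s, inv_mul_eq_iff_eq_mul.1 (congrArg Subtype.val hs)⟩, ?_⟩
    show (g * (s : G)) • y = z
    rw [mul_smul, show (s : G) • y = y from s.2, hgy]
  haveI : Finite (MulAction.orbit C y) := (Set.finite_range _).to_subtype
  have hcardC : Nat.card (MulAction.orbit C y) ∣ Nat.card G := by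
    rw [Nat.card_congr (MulAction.orbitEquivQuotientStabilizer C y)]
    exact (Subgroup.index_dvd_card _).trans C.card_subgroup_dvd_card
  have hCa : ∀ z ∈ MulAction.orbit C y, F.a • z ∈ MulAction.orbit C y := by
    rintro _ ⟨c, rfl⟩
    refine hY _ (hb _ _ ?_) ?_
    · obtain ⟨g0, hg0⟩ := hyo
      exact ⟨(c : G) * g0, by
        show ((c : G) * g0) • x = (c : G) • y
        rw [mul_smul, show g0 • x = y from hg0]⟩
    · refine fixed_comm_smul F ?_ F.a
      show F.σ • act (c : G) y = act (c : G) y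
      rw [hcompat, hy, c.2]
  let fa : MulAction.orbit C y → MulAction.orbit C y := fun z => ⟨F.a • (z : X), hCa _ z.2⟩
  have hfa : ∀ (n : ℕ) (z : MulAction.orbit C y), ((fa^[n] z : MulAction.orbit C y) : X) =
      (fun y => F.a • y)^[n] (z : X) := fun n => by
    induction n with
    | zero => intro z; rfl
    | succ n ih => intro z; rw [Function.iterate_succ_apply', Function.iterate_succ_apply', ← ih]
  obtain ⟨⟨z, c, hcz⟩, hzfix⟩ := exists_fixed fa F.hp
    (fun z => Subtype.ext (by rw [hfa, smul_pow_p])) (hp' hcardC)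
  obtain ⟨g0, hg0⟩ := hyo
  refine ⟨(c : G) * g0, fun b => ?_⟩
  have e : act ((c : G) * g0) x = z := by
    rw [hactmul, show act g0 x = y from hg0]; exact hcz
  rw [e]
  refine fixed_all F ?_ (congrArg Subtype.val hzfix) b
  have hz : act (c : G) y = z := hcz
  show F.σ • z = z
  rw [← hz, hcompat, hy, c.2]

end Orbit

end CfsgLib.FrobPQ
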