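import Cfsg.Agent.Lib.FgsFrobPQRep
import Cfsg.Agent.Lib.CoreFitting
import Cfsg.Agent.Lib.CoreLayer
import Mathlib.FieldTheory.IsAlgClosed.AlgebraicClosure
import Mathlib.LinearAlgebra.FreeModule.Basic

/-!
# A soluble group with a fixed-point-free group of order `pq` has Fitting height at most two
-/

set_option autoImplicit false

open scoped Classical commutatorElement
open CfsgLib.S3Fpf (gact gact_apply gact_one' gact_mul' IsWeight exists_weight_ne comp_apply
  inv_apply)

universe u

namespace CfsgLib.FrobPQ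

theorem smul_commutator_mem {A G : Type*} [Monoid A] [Group G] [MulDistribMulAction A G]
    {H : Subgroup G} (hH : ∀ (b : A), ∀ x ∈ H, b • x ∈ H) :
    ∀ (b : A), ∀ x ∈ ⁅H, H⁆, b • x ∈ ⁅H, H⁆ := by
  intro b x hx
  have hle : ⁅H, H⁆ ≤ (⁅H, H⁆).comap (MulDistribMulAction.toMonoidHom G b) := by
    rw [Subgroup.commutator_le]
    intro u hu v hv
    show b • ⁅u, v⁆ ∈ ⁅H, H⁆
    rw [commutatorElement_def, smul_mul', smul_mul', smul_mul', smul_inv', smul_inv']
    exact Subgroup.commutator_mem_commutator (hH b u hu) (hH b v hv)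
  exact hle hx

theorem eq_one_of_twist {G : Type*} [Group G] {r x c : G} {N : ℕ}
    (hN : (orderOf r).Coprime N) (hc : c ^ N = 1) (hrc : Commute r c)
    (h : r * x * r⁻¹ = c * x) : c = 1 := by
  have hpow : ∀ n : ℕ, r ^ n * x * (r ^ n)⁻¹ = c ^ n * x := by
    intro n
    induction n with
    | zero => simp
    | succ n ih =>
      calc r ^ (n + 1) * x * (r ^ (n + 1))⁻¹ = r * (r ^ n * x * (r ^ n)⁻¹) * r⁻¹ := by
            rw [pow_succ']; group
        _ = c ^ n * (r * x * r⁻¹) := by
            rw [ih, ← mul_assoc, (hrc.pow_right n).eq]; group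
        _ = c ^ (n + 1) * x := by rw [h, pow_succ, mul_assoc]
  have h1 := hpow (orderOf r)
  rw [pow_orderOf_eq_one, one_mul, inv_one, mul_one, eq_comm, mul_eq_right] at h1
  have h2 := Nat.dvd_gcd (orderOf_dvd_of_pow_eq_one h1) (orderOf_dvd_of_pow_eq_one hc)
  rw [hN.gcd_eq_one, Nat.dvd_one, orderOf_eq_one_iff] at h2
  exact h2

section Rep

variable {A : Type*} [Group A] [Fintype A] {p q : ℕ} (F : Frame A p q)
variable {G : Type u} [Group G] [Finite G] [MulDistribMulAction A G]
variable {k : Type*} [Field k] [IsAlgClosed k]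
variable {W : Type*} [AddCommGroup W] [Module k W] [FiniteDimensional k W]
variable (ρ : G →* Module.End k W) (α : A →* Module.End k W)
variable (hcompat : ∀ (b : A) (g : G) (v : W), α b (ρ g v) = ρ (b • g) (α b v))
variable (hsum : ∀ v : W, ∑ b : A, α b v = 0)
variable (hfix : Fpf F G) (hcop : (Nat.card G).Coprime (p * q))

set_option maxHeartbeats 2000000 in
include hcompat hsum hfix hcop in
/-- invariant coprime subgroups centralise invariant normal subgroups of prime power order -/
theorem centralise (hinj : Function.Injective ρ) (hqk : (q : k) ≠ 0) [Group.IsSolvable G]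
    {t : ℕ} [Fact t.Prime] : ∀ (n : ℕ) (E R : Subgroup G), E.Normal →
      (∀ (b : A), ∀ x ∈ E, b • x ∈ E) → (∀ (b : A), ∀ x ∈ R, b • x ∈ R) →
      Nat.card E + Nat.card R ≤ n → IsPGroup t E → (Nat.card R).Coprime (Nat.card E) →
      (Nat.card E : k) ≠ 0 → ∀ r ∈ R, ∀ x ∈ E, Commute r x := by
  haveI := F.finite
  haveI : Fintype (Subgroup.zpowers F.σ) := Fintype.ofFinite _
  intro n
  induction n using Nat.strong_induction_on with
  | h n IH =>
  intro E R hEn hE hR hn hEt hco hk r₀ hr₀ x₀ hx₀
  haveI := hEn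
  have hdvdk : ∀ {H : Subgroup G}, H ≤ E → (Nat.card H : k) ≠ 0 := fun {H} h h0 => hk (by
    obtain ⟨c, hc⟩ := Subgroup.card_dvd_of_le h
    rw [hc, Nat.cast_mul, h0, zero_mul])
  have hlt : ∀ {H K : Subgroup G}, H < K → Nat.card H < Nat.card K := fun {H K} h => by
    by_contra hh
    exact h.ne (Subgroup.eq_of_le_of_card_ge h.le (not_lt.1 hh))
  have hsmall : ∀ E₁ : Subgroup G, E₁.Normal → (∀ (b : A), ∀ x ∈ E₁, b • x ∈ E₁) → E₁ < E →
      ∀ r ∈ R, ∀ x ∈ E₁, Commute r x := fun E₁ h1 h2 h3 =>
    IH _ (lt_of_lt_of_le (Nat.add_lt_add_right (hlt h3) _) hn) E₁ R h1 h2 hR le_rfl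
      (hEt.to_le h3.le) (hco.coprime_dvd_right (Subgroup.card_dvd_of_le h3.le)) (hdvdk h3.le)
  have htwist : ∀ E₁ : Subgroup G, E₁ ≤ E → (∀ r ∈ R, ∀ x ∈ E₁, Commute r x) →
      (∀ r ∈ R, ∀ x ∈ E, r * x * r⁻¹ * x⁻¹ ∈ E₁) → Commute r₀ x₀ := by
    intro E₁ hle hc hm
    set c := r₀ * x₀ * r₀⁻¹ * x₀⁻¹ with hcdef
    have hcE := hm r₀ hr₀ x₀ hx₀
    have h1 : c = 1 := by
      refine eq_one_of_twist (r := r₀) (x := x₀) (N := Nat.card E)
        (hco.coprime_dvd_left ?_) ?_ (hc r₀ hr₀ c hcE) (by rw [hcdef, inv_mul_cancel_right])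
      · rw [← Subgroup.orderOf_mk r₀ hr₀]; exact orderOf_dvd_natCard _
      · exact congrArg Subtype.val (pow_card_eq_one' (G := E) (x := ⟨c, hle hcE⟩))
    exact mul_inv_eq_iff_eq_mul.1 (mul_inv_eq_one.1 h1)
  rcases eq_or_ne E ⊥ with hEb | hEb
  · rw [hEb, Subgroup.mem_bot] at hx₀
    rw [hx₀]; exact Commute.one_right _
  rcases eq_or_ne R ⊥ with hRb | hRb
  · rw [hRb, Subgroup.mem_bot] at hr₀
    rw [hr₀]; exact Commute.one_left _
  -- the derived subgroup of `E` is centralised
  have hEd : ∀ r ∈ R, ∀ x ∈ ⁅E, E⁆, Commute r x := hsmall _ inferInstance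
    (smul_commutator_mem hE) (Group.IsSolvable.commutator_lt_of_ne_bot hEb)
  have hRd : ∀ r ∈ ⁅R, R⁆, ∀ x ∈ E, Commute r x :=
    IH _ (lt_of_lt_of_le (Nat.add_lt_add_left
        (hlt (Group.IsSolvable.commutator_lt_of_ne_bot hRb)) _) hn)
      E ⁅R, R⁆ hEn hE (smul_commutator_mem hR) le_rfl hEt
      (hco.coprime_dvd_left (Subgroup.card_dvd_of_le (Subgroup.commutator_le_self R))) hk
  have hrx : ∀ r : G, ∀ x ∈ E, r * x * r⁻¹ ∈ E := fun r x hx => hEn.conj_mem x hx r
  set E₁ := E ⊓ Subgroup.centralizer ((⁅E, E⁆ : Subgroup G) : Set G) with hE₁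
  have hcin : ∀ r ∈ R, ∀ x ∈ E, r * x * r⁻¹ * x⁻¹ ∈ E₁ := by
    intro r hr x hx
    refine Subgroup.mem_inf.2 ⟨mul_mem (hrx r x hx) (inv_mem hx),
      Subgroup.mem_centralizer_iff.2 fun z hz => ?_⟩
    have hxz : x⁻¹ * z * x ∈ ⁅E, E⁆ := by
      simpa using (inferInstance : (⁅E, E⁆ : Subgroup G).Normal).conj_mem z hz x⁻¹
    have e1 : r⁻¹ * (x⁻¹ * z * x) * r = x⁻¹ * z * x := by
      rw [mul_assoc, ← (hEd r hr _ hxz).eq, inv_mul_cancel_left]
    have e2 : r * z * r⁻¹ = z := by rw [(hEd r hr z hz).eq, mul_inv_cancel_right]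
    have e3 : r * x * r⁻¹ * x⁻¹ * z * (r * x * r⁻¹ * x⁻¹)⁻¹ = z := by
      calc r * x * r⁻¹ * x⁻¹ * z * (r * x * r⁻¹ * x⁻¹)⁻¹
          = r * x * (r⁻¹ * (x⁻¹ * z * x) * r) * x⁻¹ * r⁻¹ := by group
        _ = r * z * r⁻¹ := by rw [e1]; group
        _ = z := e2
    exact (mul_inv_eq_iff_eq_mul.1 e3).symm
  by_cases hne : E₁ ≠ E
  · haveI : E₁.Normal := by
      haveI : (Subgroup.centralizer ((⁅E, E⁆ : Subgroup G) : Set G)).Normal := Subgroup.normal_centralizer
      exact inferInstanceAs (E ⊓ Subgroup.centralizer ((⁅E, E⁆ : Subgroup G) : Set G)).Normal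
    have hE₁i : ∀ (b : A), ∀ x ∈ E₁, b • x ∈ E₁ := by
      intro b x hx
      refine ⟨hE b x hx.1, Subgroup.mem_centralizer_iff.2 fun z hz => ?_⟩
      have h := congrArg (b • ·) (Subgroup.mem_centralizer_iff.1 hx.2 (b⁻¹ • z)
        (smul_commutator_mem hE b⁻¹ z hz))
      simpa [smul_mul'] using h
    exact htwist E₁ inf_le_left
      (hsmall E₁ inferInstance hE₁i (lt_of_le_of_ne inf_le_left hne)) hcin
  push Not at hne
  -- the centre of `E`
  set Z := E ⊓ Subgroup.centralizer (E : Set G) with hZ
  haveI : (Subgroup.centralizer (E : Set G)).Normal := Subgroup.normal_centralizer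
  haveI hZn : Z.Normal := inferInstanceAs (E ⊓ Subgroup.centralizer (E : Set G)).Normal
  have hZi : ∀ (b : A), ∀ x ∈ Z, b • x ∈ Z := by
    intro b x hx
    refine ⟨hE b x hx.1, Subgroup.mem_centralizer_iff.2 fun z hz => ?_⟩
    have h := congrArg (b • ·) (Subgroup.mem_centralizer_iff.1 hx.2 (b⁻¹ • z) (hE b⁻¹ z hz))
    simpa [smul_mul'] using h
  have hZc : ∀ x ∈ Z, ∀ y ∈ Z, x * y = y * x := fun x hx y hy =>
    (Subgroup.mem_centralizer_iff.1 hx.2 y hy.1).symm
  have hRZ : ∀ r ∈ R, ∀ z ∈ Z, Commute r z := fun r hr z hz =>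
    commute_abelian F ρ α hcompat hsum hfix hcop hinj Z hZi hZc (hdvdk inf_le_left) R hR
      (hco.coprime_dvd_right (Subgroup.card_dvd_of_le inf_le_left)) hr hz
  have hcl : ∀ x y : E, ⁅(x : G), (y : G)⁆ ∈ Z := fun x y => by
    have hm := Subgroup.commutator_mem_commutator x.2 y.2
    refine ⟨Subgroup.commutator_le_self E hm, Subgroup.mem_centralizer_iff.2 fun z hz => ?_⟩
    rw [SetLike.mem_coe, ← hne] at hz
    exact (Subgroup.mem_centralizer_iff.1 hz.2 _ hm).symm
  let com : E → E → Z := fun x y => ⟨⁅(x : G), (y : G)⁆, hcl x y⟩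
  have hzE : ∀ (x : E) (z : Z), (x : G) * z * (x : G)⁻¹ = z := fun x z => by
    rw [Subgroup.mem_centralizer_iff.1 z.2.2 _ x.2, mul_inv_cancel_right]
  have hbl : ∀ x x' y : E, com (x * x') y = com x y * com x' y := fun x x' y =>
    Subtype.ext (by
      show ⁅(x : G) * x', (y : G)⁆ = ⁅(x : G), (y : G)⁆ * ⁅(x' : G), (y : G)⁆
      rw [hZc _ (hcl x y) _ (hcl x' y)]
      conv_rhs => rw [← show (x : G) * ⁅(x' : G), (y : G)⁆ * (x : G)⁻¹ = ⁅(x' : G), (y : G)⁆ from
        hzE x (com x' y)]
      simp only [commutatorElement_def]; group)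
  have hbr : ∀ x y y' : E, com x (y * y') = com x y * com x y' := fun x y y' =>
    Subtype.ext (by
      show ⁅(x : G), (y : G) * y'⁆ = ⁅(x : G), (y : G)⁆ * ⁅(x : G), (y' : G)⁆
      conv_rhs => rw [← show (y : G) * ⁅(x : G), (y' : G)⁆ * (y : G)⁻¹ = ⁅(x : G), (y' : G)⁆ from
        hzE y (com x y')]
      simp only [commutatorElement_def]; group)
  let β : (Z →* kˣ) → E →* (E →* kˣ) := fun l => MonoidHom.mk'
    (fun x => MonoidHom.mk' (fun y => l (com x y)) fun y y' => by rw [hbr, map_mul])
    (fun x x' => MonoidHom.ext fun y => by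
      show l (com (x * x') y) = l (com x y) * l (com x' y)
      rw [hbl, map_mul])
  have hβ : ∀ l x y, β l x y = l (com x y) := fun _ _ _ => rfl
  have hskew : ∀ l x y, β l x y = (β l y x)⁻¹ := fun l x y => by
    rw [hβ, hβ, ← map_inv]
    congr 1
    exact Subtype.ext (commutatorElement_inv (y : G) x).symm
  let cj : G → E → E := fun r x => ⟨r * x * r⁻¹, hrx r x x.2⟩
  have hβr : ∀ l, ∀ r ∈ R, ∀ x : E, gact r (β l x) = β l (cj r x) := by
    intro l r hr x
    refine MonoidHom.ext fun y => ?_
    rw [gact_apply, hβ, hβ]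
    congr 1
    refine Subtype.ext ?_
    show ⁅(x : G), r⁻¹ * (y : G) * r⁆ = ⁅r * (x : G) * r⁻¹, (y : G)⁆
    have hy : r⁻¹ * (y : G) * r ∈ E := by simpa using hrx r⁻¹ y y.2
    have e := (hRZ r hr _ (hcl x ⟨_, hy⟩)).eq
    calc ⁅(x : G), r⁻¹ * (y : G) * r⁆ = r * ⁅(x : G), r⁻¹ * (y : G) * r⁆ * r⁻¹ := by
          rw [e, mul_inv_cancel_right]
      _ = _ := by simp only [commutatorElement_def]; group
  let bE : A → E → E := fun b x => ⟨b • (x : G), hE b x x.2⟩
  have hβb : ∀ (b : A) l x, aact E hE b (β l x) = β (aact Z hZi b l) (bE b x) := by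
    intro b l x
    refine MonoidHom.ext fun y => ?_
    rw [aact_apply, hβ, hβ, aact_apply]
    congr 1
    refine Subtype.ext ?_
    show ⁅(x : G), b⁻¹ • (y : G)⁆ = b⁻¹ • ⁅b • (x : G), (y : G)⁆
    simp only [commutatorElement_def, smul_mul', smul_inv', inv_smul_smul]
  suffices hmain : ∀ l, IsWeight ρ Z l → ∀ r ∈ R, ∀ x : E, gact r (β l x) = β l x by
    refine htwist Z inf_le_left hRZ fun r hr x hx => Subgroup.mem_inf.2
      ⟨mul_mem (hrx r x hx) (inv_mem hx), Subgroup.mem_centralizer_iff.2 fun z hz => ?_⟩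
    set c : E := ⟨r * x * r⁻¹, hrx r x hx⟩ * ⟨x, hx⟩⁻¹ with hc
    have h1 : ρ ((com c ⟨z, hz⟩ : Z) : G) = 1 := by
      by_contra h
      obtain ⟨l, hl, hl'⟩ := exists_weight_ne ρ Z hZc (hdvdk inf_le_left) _ h
      refine hl' ?_
      rw [← hβ, hc, map_mul, MonoidHom.mul_apply, map_inv, MonoidHom.inv_apply, mul_inv_eq_one]
      exact DFunLike.congr_fun ((hβr l r hr ⟨x, hx⟩).symm.trans (hmain l hl r hr ⟨x, hx⟩)) _
    have h2 : ⁅r * x * r⁻¹ * x⁻¹, z⁆ = 1 := hinj (h1.trans (map_one ρ).symm)
    exact (commutatorElement_eq_one_iff_mul_comm.1 h2).symm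
  intro l hl
  by_cases hl1 : l = 1
  · intro r _ x
    have : β l x = 1 := MonoidHom.ext fun y => by rw [hβ, hl1]; rfl
    rw [this]; exact MonoidHom.ext fun _ => rfl
  obtain ⟨b₀, hb₀, hfb₀⟩ := exists_stab ρ α hcompat hsum Z hZi hl
  letI := subAction E hE
  -- the eigenspace of a weight
  have hspace : ∀ l b, IsWeight ρ Z l → l ≠ 1 → b ≠ 1 → aact Z hZi b l = l →
      ∃ (U : Submodule k W) (ρU : E →* Module.End k U) (αU : Module.End k U),
        (∃ v : U, v ≠ 0) ∧ (∀ x v, αU (ρU x v) = ρU (bE b x) (αU v)) ∧ αU ^ orderOf b = 1 ∧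
        ∑ i ∈ Finset.range (orderOf b), αU ^ i = 0 ∧
        ∀ x y, ρU (x * y) = (l (com x y) : k) • ρU (y * x) := by
    intro l b hl hl1 hb hfb
    let U : Submodule k W :=
      { carrier := {v | ∀ m : Z, ρ (m : G) v = (l m : k) • v}
        add_mem' := fun {v w} hv hw m => by rw [map_add, hv m, hw m, smul_add]
        zero_mem' := fun m => by rw [map_zero, smul_zero]
        smul_mem' := fun c v hv m => by rw [map_smul, hv m, smul_comm] }
    have hUρ : ∀ (x : E), ∀ v ∈ U, ρ (x : G) v ∈ U := fun x v hv m => by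
      rw [comp_apply, ← Subgroup.mem_centralizer_iff.1 m.2.2 _ x.2, ← comp_apply, hv m, map_smul]
    have hUα : ∀ v ∈ U, α b v ∈ U := fun v hv m => by
      have e := eigen_alpha ρ α hcompat Z hZi hv b m
      rwa [hfb] at e
    let ρU : E →* Module.End k U :=
      { toFun := fun x => (ρ (x : G)).restrict (hUρ x)
        map_one' := LinearMap.ext fun v => Subtype.ext (by
          show ρ ((1 : E) : G) (v : W) = v
          rw [OneMemClass.coe_one, map_one]; rfl)
        map_mul' := fun x y => LinearMap.ext fun v => Subtype.ext (by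
          show ρ ((x * y : E) : G) (v : W) = ρ (x : G) (ρ (y : G) v)
          rw [comp_apply]; rfl) }
    let αU : Module.End k U := (α b).restrict hUα
    have hαi : ∀ (i : ℕ) (v : U), (((αU ^ i) v : U) : W) = α (b ^ i) v := by
      intro i
      induction i with
      | zero => intro v; simp
      | succ i ih =>
        intro v
        rw [pow_succ', Module.End.mul_apply]
        show α b (((αU ^ i) v : U) : W) = _
        rw [ih, alpha_comp, ← pow_succ']
    refine ⟨U, ρU, αU, ?_, fun x v => Subtype.ext (hcompat b (x : G) v), ?_, ?_, fun x y => ?_⟩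
    · obtain ⟨v, hv, hvl⟩ := hl
      exact ⟨⟨v, hvl⟩, fun h => hv (congrArg Subtype.val h)⟩
    · refine LinearMap.ext fun v => Subtype.ext ?_
      rw [hαi, pow_orderOf_eq_one, map_one]; rfl
    · refine LinearMap.ext fun v => Subtype.ext ?_
      rw [LinearMap.sum_apply, Submodule.coe_sum, LinearMap.zero_apply, ZeroMemClass.coe_zero]
      have h0 := sum_stabA ρ α hcompat hsum Z hZi v.2
      rw [show Finset.univ.filter (fun c => c ∈ stabA Z hZi l) =
        (Finset.range (orderOf b)).image (b ^ ·) from ?_] at h0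
      · rw [Finset.sum_image fun i hi j hj e => pow_injOn_Iio_orderOf
          (by simpa using hi) (by simpa using hj) e] at h0
        rw [← h0]
        exact Finset.sum_congr rfl fun i _ => hαi i v
      · ext c
        simp only [Finset.mem_filter, Finset.mem_univ, true_and, Finset.mem_image, Finset.mem_range]
        constructor
        · intro hc
          by_cases hcb : c ∈ Subgroup.zpowers b
          · rw [← mem_powers_iff_mem_zpowers] at hcb
            obtain ⟨i, hi⟩ := hcb
            refine ⟨i % orderOf b, Nat.mod_lt _ (orderOf_pos b), ?_⟩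
            rw [pow_mod_orderOf]; exact hi
          · refine absurd ?_ hl1
            have htop := F.eq_top (H := stabA Z hZi l) hfb hc hb hcb
            exact eq_one_of_aact_fixed F Z hZi hZc hfix hcop
              (htop ▸ Subgroup.mem_top F.σ : F.σ ∈ stabA Z hZi l)
              (htop ▸ Subgroup.mem_top F.a : F.a ∈ stabA Z hZi l)
        · rintro ⟨i, -, rfl⟩
          exact pow_mem hfb i
    · refine LinearMap.ext fun v => Subtype.ext ?_
      show ρ ((x * y : E) : G) (v : W) = (l (com x y) : k) • ρ ((y * x : E) : G) (v : W)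
      rw [← hUρ (y * x) v v.2 (com x y), comp_apply]
      congr 2
      show (x : G) * y = ⁅(x : G), (y : G)⁆ * ((y : G) * x)
      rw [commutatorElement_def]; group
  have hβeq : ∀ {l : Z →* kˣ} {U : Submodule k W} {ρU : E →* Module.End k U}, (∃ v : U, v ≠ 0) →
      (∀ x y, ρU (x * y) = (l (com x y) : k) • ρU (y * x)) → ∀ x x', ρU x' = ρU x →
      β l x' = β l x := by
    intro l U ρU ⟨v, hv⟩ hsw x x' he
    refine MonoidHom.ext fun y => Units.ext ?_
    have h1 := hsw x' y
    rw [map_mul, he, ← map_mul, hsw x y, map_mul ρU y x', he, ← map_mul] at h1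
    have h2 := LinearMap.congr_fun h1 v
    rw [LinearMap.smul_apply, LinearMap.smul_apply] at h2
    refine (smul_left_injective k ?_ h2).symm
    intro h0
    refine hv ?_
    rw [show v = ρU (y * x)⁻¹ (ρU (y * x) v) by
      rw [← Module.End.mul_apply, ← map_mul, inv_mul_cancel, map_one, Module.End.one_apply], h0,
      map_zero]
  have hMN : ∀ y : E →* kˣ, y ^ Nat.card E = 1 := fun y => MonoidHom.ext fun m => by
    rw [MonoidHom.pow_apply, ← map_pow, pow_card_eq_one', map_one, MonoidHom.one_apply]
  have hiter : ∀ (b : A) (n : ℕ) (x : E), (fun y : E => b • y)^[n] x = b ^ n • x :=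
    fun b n x => iterate_smul b n x
  rcases type_cases F hb₀ (stabA Z hZi l) hfb₀ with hs | ⟨u₀, hu₀, ht⟩
  · -- fixed by the normal subgroup
    rw [mem_stabA] at hs
    obtain ⟨U, ρU, αU, hUne, hc, hαq, hsumU, hsw⟩ := hspace l F.σ hl hl1 F.σ_ne_one hs
    rw [F.ordσ] at hαq hsumU
    have hσfix : ∀ x : E, β l (bE F.σ x) = β l x := by
      intro x
      refine hβeq hUne hsw x _ ?_
      haveI : Nontrivial E := (Subgroup.nontrivial_iff_ne_bot E).2 hEb
      have htE : t ∣ Nat.card E := by
        obtain ⟨j, hj⟩ := (IsPGroup.iff_card.1 hEt)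
        have : j ≠ 0 := fun h0 => Finite.one_lt_card.ne' (by rw [hj, h0, pow_zero])
        rw [hj]; exact dvd_pow_self t this
      have htpq : ∀ {d : ℕ}, d ∣ p * q → ¬ t ∣ d := fun {d} hd h =>
        (Fact.out : t.Prime).ne_one (Nat.eq_one_of_dvd_coprimes hcop
          (htE.trans E.card_subgroup_dvd_card) (h.trans hd))
      refine CfsgLib.HallHigman.aut_fixed (s := t) F.hq
        (fun e => htpq (dvd_mul_left q p) (dvd_of_eq e)) hqk ?_ ρU
        (MulDistribMulAction.toMulEquiv E F.σ) αU ?_ hEt ?_ hc hαq hsumU x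
      · intro j hj
        by_contra hj0
        have hp' : p ∣ t := F.hp.dvd_of_dvd_pow (hj ▸ F.dvd)
        exact htpq (dvd_mul_right p q)
          (dvd_of_eq ((Nat.prime_dvd_prime_iff_eq F.hp Fact.out).1 hp').symm)
      · exact fun y => smul_pow_q F y
      · intro h0
        refine hk ?_
        obtain ⟨c, hc'⟩ := htE
        rw [hc', Nat.cast_mul, h0, zero_mul]
    have haσ : ∀ x, aact E hE F.σ (β l x) = β l x := fun x => by rw [hβb, hs, hσfix]
    intro r hr x
    let K : Subgroup G :=
      { carrier := {g | g ∈ R ∧ ∀ x, gact g (β l x) = β l x}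
        mul_mem' := fun {g h} hg hh => ⟨mul_mem hg.1 hh.1, fun x => by
          rw [gact_mul', hh.2, hg.2]⟩
        one_mem' := ⟨one_mem R, fun x => gact_one' _⟩
        inv_mem' := fun {g} hg => ⟨inv_mem hg.1, fun x => by
          conv_lhs => rw [← hg.2 x, ← gact_mul', inv_mul_cancel, gact_one']⟩ }
    have hσr : ∀ g ∈ R, ∀ x, gact (F.σ • g) (β l x) = gact g (β l x) := fun g hg x => by
      conv_lhs => rw [← haσ x, ← aact_gact, hβr l g hg, haσ, ← hβr l g hg]
    have hKi : ∀ g ∈ K, F.σ • g ∈ K := fun g hg =>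
      ⟨hR _ _ hg.1, fun x => by rw [hσr g hg.1, hg.2]⟩
    have hKr : r⁻¹ * F.σ • r ∈ K := ⟨mul_mem (inv_mem hr) (hR _ _ hr), fun x => by
      rw [gact_mul', hσr r hr, ← gact_mul', inv_mul_cancel, gact_one']⟩
    obtain ⟨d, hdK, hd⟩ := exists_fixed_in_coset F hcop K hKi hKr
    set c := r * d with hc'
    have hcR : c ∈ R := mul_mem hr hdK.1
    suffices h : gact c (β l x) = β l x by
      rw [hc', gact_mul', hdK.2] at h; exact h
    set C := (β l).ker.map E.subtype with hC
    have hCi : ∀ y ∈ C, F.σ • y ∈ C := by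
      rintro _ ⟨y, hy, rfl⟩
      exact ⟨bE F.σ y, (hσfix y).trans hy, rfl⟩
    have hxC : (x : G)⁻¹ * F.σ • (x : G) ∈ C := ⟨x⁻¹ * bE F.σ x, by
      show β l (x⁻¹ * bE F.σ x) = 1
      rw [map_mul, map_inv, hσfix, inv_mul_cancel], rfl⟩
    obtain ⟨_, ⟨z, hz, rfl⟩, hzf⟩ := exists_fixed_in_coset F hcop C hCi hxC
    set y := x * z with hy
    have hβy : β l y = β l x := by rw [hy, map_mul, show β l z = 1 from hz]; exact mul_one (β l x)
    have hcy : Commute c (y : G) := commute_fixed F hfix hd hzf (by
      refine (hco.coprime_dvd_left ?_).coprime_dvd_right (by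
        rw [Subgroup.orderOf_coe]; exact orderOf_dvd_natCard y)
      rw [← Subgroup.orderOf_mk c hcR]
      exact orderOf_dvd_natCard _)
    rw [← hβy, hβr l c hcR]
    congr 1
    exact Subtype.ext (show c * (y : G) * c⁻¹ = y by rw [hcy.eq, mul_inv_cancel_right])
  · -- fixed by a conjugate of `a`
    set l' := aact Z hZi u₀⁻¹ l with hl'
    have hl'a : aact Z hZi F.a l' = l' := by
      rw [mem_stabA] at ht
      calc aact Z hZi F.a l' = aact Z hZi u₀⁻¹ (aact Z hZi (u₀ * F.a * u₀⁻¹) l) := by
            rw [hl', ← aact_mul, ← aact_mul]; congr 1; group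
        _ = l' := by rw [ht]
    suffices hfin : ∀ r ∈ R, ∀ x : E, gact r (β l' x) = β l' x by
      intro r hr x
      have h := congrArg (aact E hE u₀) (hfin _ (hR u₀⁻¹ r hr) (bE u₀⁻¹ x))
      rw [aact_gact, smul_inv_smul, hβb, hl', ← aact_mul, mul_inv_cancel, aact_one,
        show bE u₀ (bE u₀⁻¹ x) = x from Subtype.ext (smul_inv_smul u₀ _)] at h
      exact h
    have hl'w : IsWeight ρ Z l' := weight_aact ρ α hcompat Z hZi hl _
    have hl'1 : l' ≠ 1 := fun e => hl1 (by
      have e' := congrArg (aact Z hZi u₀) e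
      rwa [hl', ← aact_mul, mul_inv_cancel, aact_one, aact_oneChar] at e')
    -- `r⁻¹ (v a v⁻¹)(r)` is trivial on the forms of the weight `v l'`
    have hkey : ∀ (l : Z →* kˣ), IsWeight ρ Z l → l ≠ 1 → ∀ b : A, orderOf b = p →
        aact Z hZi b l = l → ∀ r ∈ R, ∀ x : E, gact (b • r) (β l x) = gact r (β l x) := by
      intro l hl hl1 b hbp hfb
      have hb : b ≠ 1 := fun e => F.hp.ne_one (by rw [← hbp, e, orderOf_one])
      obtain ⟨U, ρU, αU, hUne, hc, hαp, hsumU, hsw⟩ := hspace l b hl hl1 hb hfb
      rw [hbp] at hαp hsumU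
      have hab : ∀ x, aact E hE b (β l x) = β l (bE b x) := fun x => by rw [hβb, hfb]
      have hmove : ∀ r ∈ R, ∀ x, β l (bE b (cj r x)) = gact (b • r) (β l (bE b x)) := by
        intro r hr x
        rw [hβr l (b • r) (hR b r hr)]
        congr 1
        exact Subtype.ext (by simp [cj, bE, smul_mul', smul_inv'])
      by_cases hp2 : p = 2
      · have hall : ∀ x, β l (bE b x) = β l x := by
          intro x
          refine hβeq hUne hsw x _ (LinearMap.ext fun v => ?_)
          subst hp2
          rw [Finset.sum_range_succ, Finset.sum_range_one, pow_zero, pow_one] at hsumU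
          have hneg : ∀ w, αU w = -w := fun w => eq_neg_of_add_eq_zero_right (by
            have := LinearMap.congr_fun hsumU w
            simpa using this)
          have e := hc x v
          rw [hneg, hneg, map_neg, neg_inj] at e
          exact e.symm
        intro r hr x
        rw [← hall x, ← hmove r hr x, hall, hall, hβr l r hr]
      · -- the action on the group of forms
        let P := (β l).range
        haveI : Finite P := Finite.of_surjective _ (β l).rangeRestrict_surjective
        have hPinv : ∀ r ∈ R, ∀ z ∈ P, gact r z ∈ P := by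
          rintro r hr _ ⟨x, rfl⟩
          exact ⟨cj r x, (hβr l r hr x).symm⟩
        let act : R →* MulAut P :=
          { toFun := fun r =>
              { toFun := fun z => ⟨gact (r : G) z, hPinv r r.2 z z.2⟩
                invFun := fun z => ⟨gact (r : G)⁻¹ z, hPinv _ (inv_mem r.2) z z.2⟩
                left_inv := fun z => Subtype.ext (by
                  show gact (r : G)⁻¹ (gact (r : G) (z : E →* kˣ)) = z
                  rw [← gact_mul', inv_mul_cancel, gact_one'])
                right_inv := fun z => Subtype.ext (by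
                  show gact (r : G) (gact (r : G)⁻¹ (z : E →* kˣ)) = z
                  rw [← gact_mul', mul_inv_cancel, gact_one'])
                map_mul' := fun _ _ => rfl }
            map_one' := MulEquiv.ext fun z => Subtype.ext (gact_one' _)
            map_mul' := fun r s => MulEquiv.ext fun z => Subtype.ext (gact_mul' _ _ _) }
        have hact : ∀ (r : R) (x : E), act r ((β l).rangeRestrict x) =
            (β l).rangeRestrict (cj r x) := fun r x => Subtype.ext (hβr l r r.2 x)
        let cR : R →* R :=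
          { toFun := fun r => ⟨b • (r : G), hR b r r.2⟩
            map_one' := Subtype.ext (smul_one b)
            map_mul' := fun r s => Subtype.ext (smul_mul' b (r : G) s) }
        let cP : P →* P :=
          { toFun := fun z => ⟨aact E hE b z, by
              obtain ⟨x, hx⟩ := z.2
              exact ⟨bE b x, by rw [← hab, hx]⟩⟩
            map_one' := Subtype.ext (aact_oneChar E hE b)
            map_mul' := fun _ _ => rfl }
        have hcPx : ∀ x, cP ((β l).rangeRestrict x) = (β l).rangeRestrict (bE b x) :=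
          fun x => Subtype.ext (hab x)
        have hres := act_eq_of_pairs act ?_ cR cP F.hp hp2 ?_ ?_ ?_ ?_ ?_ ?_
        · intro r hr x
          exact congrArg Subtype.val (hres ⟨r, hr⟩ ((β l).rangeRestrict x))
        · -- abelian
          intro r s z
          obtain ⟨x, rfl⟩ := (β l).rangeRestrict_surjective z
          rw [hact, hact, hact, hact]
          congr 1
          refine Subtype.ext ?_
          show (r : G) * ((s : G) * x * (s : G)⁻¹) * (r : G)⁻¹ =
            (s : G) * ((r : G) * x * (r : G)⁻¹) * (s : G)⁻¹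
          set d := ((s : G) * r)⁻¹ * ((r : G) * s) with hd
          have hdm : d ∈ ⁅R, R⁆ := by
            rw [hd, show ((s : G) * r)⁻¹ * ((r : G) * s) = ⁅(r : G)⁻¹, (s : G)⁻¹⁆ by
              rw [commutatorElement_def]; group]
            exact Subgroup.commutator_mem_commutator (inv_mem r.2) (inv_mem s.2)
          have hdx : d * x * d⁻¹ = x := by rw [(hRd d hdm x x.2).eq, mul_inv_cancel_right]
          calc (r : G) * ((s : G) * x * (s : G)⁻¹) * (r : G)⁻¹
              = (s : G) * r * (d * x * d⁻¹) * ((s : G) * r)⁻¹ := by rw [hd]; group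
            _ = _ := by rw [hdx]; group
        · intro r
          have : ∀ n (r : R), (((⇑cR)^[n] r : R) : G) = b ^ n • (r : G) := fun n => by
            induction n with
            | zero => intro r; simp
            | succ n ih =>
              intro r
              rw [Function.iterate_succ_apply']
              show b • (((⇑cR)^[n] r : R) : G) = _
              rw [ih, smul_smul, ← pow_succ']
          exact Subtype.ext (by rw [this, ← hbp, pow_orderOf_eq_one, one_smul])
        · intro z
          obtain ⟨x, rfl⟩ := (β l).rangeRestrict_surjective z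
          have : ∀ n (x : E), (⇑cP)^[n] ((β l).rangeRestrict x) =
              (β l).rangeRestrict ((fun y : E => b • y)^[n] x) := fun n => by
            induction n with
            | zero => intro x; rfl
            | succ n ih =>
              intro x
              rw [Function.iterate_succ_apply', Function.iterate_succ_apply', ih, hcPx]
              rfl
          rw [this, hiter, ← hbp, pow_orderOf_eq_one, one_smul]
        · intro r z
          obtain ⟨x, rfl⟩ := (β l).rangeRestrict_surjective z
          rw [hact, hcPx, hcPx, hact]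
          congr 1
          exact Subtype.ext (by simp [cj, bE, cR, smul_mul', smul_inv'])
        · exact fun h => F.hp.ne_one (Nat.eq_one_of_dvd_coprimes hcop
            (h.trans R.card_subgroup_dvd_card) (dvd_mul_right p q))
        · exact hco.coprime_dvd_right (Subgroup.card_range_dvd (β l))
        · intro z hz r
          obtain ⟨x, rfl⟩ := (β l).rangeRestrict_surjective z
          have hwfix : β l (bE b (cj r x * cj (r : G)⁻¹ x)) = β l (cj r x * cj (r : G)⁻¹ x) := by
            set w := cj r x * cj (r : G)⁻¹ x with hw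
            let H : Subgroup E :=
              Subgroup.closure (Set.range fun c : Subgroup.zpowers b => bE (c : A) w)
            have hwH : w ∈ H := Subgroup.subset_closure ⟨1, Subtype.ext (one_smul A (w : G))⟩
            have hHinv : ∀ c ∈ Subgroup.zpowers b, ∀ y ∈ H, c • y ∈ H := by
              intro c hc
              have : H ≤ H.comap (MulDistribMulAction.toMonoidHom E c) := by
                rw [Subgroup.closure_le]
                rintro _ ⟨d, rfl⟩
                exact Subgroup.subset_closure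
                  ⟨⟨c * d, mul_mem hc d.2⟩, Subtype.ext (mul_smul c (d : A) (w : G))⟩
              exact fun y hy => this hy
            let aH : MulAut H :=
              { toFun := fun y => ⟨b • (y : E), hHinv b (Subgroup.mem_zpowers b) y y.2⟩
                invFun := fun y =>
                  ⟨b⁻¹ • (y : E), hHinv _ (inv_mem (Subgroup.mem_zpowers b)) y y.2⟩
                left_inv := fun y => Subtype.ext (inv_smul_smul b (y : E))
                right_inv := fun y => Subtype.ext (smul_inv_smul b (y : E))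
                map_mul' := fun y y' => Subtype.ext (smul_mul' b (y : E) y') }
            have haH : ∀ (n : ℕ) (y : H), (((aH ^ n) y : H) : E) = b ^ n • (y : E) := by
              intro n
              induction n with
              | zero => intro y; simp
              | succ n ih =>
                intro y
                rw [pow_succ', MulAut.mul_apply]
                show b • (((aH ^ n) y : H) : E) = _
                rw [ih, smul_smul, ← pow_succ']
            have hxfix : ∀ c ∈ Subgroup.zpowers b, aact E hE c (β l x) = β l x :=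
              Subgroup.zpowers_le.2 ((mem_stabA E hE).2 (congrArg Subtype.val hz))
            have hlfix : ∀ c ∈ Subgroup.zpowers b, aact Z hZi c l = l :=
              Subgroup.zpowers_le.2 ((mem_stabA Z hZi).2 hfb)
            have hgen : ∀ c ∈ Subgroup.zpowers b, ∃ s ∈ R,
                β l (bE c w) = β l (cj s x * cj s⁻¹ x) := by
              intro c hc
              refine ⟨c • (r : G), hR c r r.2, ?_⟩
              have h1 : ∀ s ∈ R, β l (bE c (cj s x)) = β l (cj (c • s) x) := by
                intro s hs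
                calc β l (bE c (cj s x)) = gact (c • s) (β l (bE c x)) := by
                      rw [hβr l _ (hR c s hs)]
                      congr 1
                      exact Subtype.ext (by simp [cj, bE, smul_mul', smul_inv'])
                  _ = gact (c • s) (β l x) := by
                      conv_rhs => rw [← hxfix c hc, hβb, hlfix c hc]
                  _ = _ := hβr l _ (hR c s hs) x
              rw [show bE c w = bE c (cj r x) * bE c (cj (r : G)⁻¹ x) from
                Subtype.ext (smul_mul' c _ _), map_mul, h1 _ r.2, h1 _ (inv_mem r.2), smul_inv',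
                ← map_mul]
            have hzero : ∀ s₁ ∈ R, ∀ s₂ ∈ R,
                β l (cj s₁ x * cj s₁⁻¹ x) (cj s₂ x * cj s₂⁻¹ x) = 1 := by
              intro s₁ hs₁ s₂ hs₂
              let f : G → kˣ := fun g => β l x (cj g x)
              have hf1 : ∀ s ∈ R, ∀ s' : G, β l (cj s x) (cj s' x) = f (s⁻¹ * s') := by
                intro s hs s'
                rw [← hβr l s hs, gact_apply]
                congr 1
                exact Subtype.ext (by simp [cj, mul_assoc])
              have hf2 : ∀ g ∈ R, f g⁻¹ = (f g)⁻¹ := by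
                intro g hg
                have h := hskew l (cj g x) x
                rw [show x = cj 1 x from Subtype.ext (by simp [cj]), ← hskew] at h
                have h' := hf1 g hg 1
                rw [mul_one] at h'
                rw [← h', hskew, show cj 1 x = x from Subtype.ext (by simp [cj])]
              have hf3 : ∀ g ∈ R, ∀ g' ∈ R, f (g * g') = f (g' * g) := by
                intro g hg g' hg'
                show β l x (cj (g * g') x) = β l x (cj (g' * g) x)
                congr 1
                refine Subtype.ext ?_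
                show g * g' * (x : G) * (g * g')⁻¹ = g' * g * (x : G) * (g' * g)⁻¹
                set d := (g' * g)⁻¹ * (g * g') with hd
                have hdm : d ∈ ⁅R, R⁆ := by
                  rw [hd, show (g' * g)⁻¹ * (g * g') = ⁅g⁻¹, g'⁻¹⁆ by
                    rw [commutatorElement_def]; group]
                  exact Subgroup.commutator_mem_commutator (inv_mem hg) (inv_mem hg')
                have hdx : d * x * d⁻¹ = x := by rw [(hRd d hdm x x.2).eq, mul_inv_cancel_right]
                calc g * g' * (x : G) * (g * g')⁻¹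
                    = g' * g * (d * x * d⁻¹) * (g' * g)⁻¹ := by rw [hd]; group
                  _ = _ := by rw [hdx]
              simp only [map_mul, MonoidHom.mul_apply, hf1 _ hs₁, hf1 _ (inv_mem hs₁), inv_inv]
              have e1 : f (s₁ * s₂⁻¹) = (f (s₁⁻¹ * s₂))⁻¹ := by
                rw [hf3 _ hs₁ _ (inv_mem hs₂), ← hf2 _ (mul_mem (inv_mem hs₁) hs₂), mul_inv_rev,
                  inv_inv]
              have e2 : f (s₁⁻¹ * s₂⁻¹) = (f (s₁ * s₂))⁻¹ := by
                rw [← mul_inv_rev, hf2 _ (mul_mem hs₂ hs₁), hf3 _ hs₂ _ hs₁]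
              rw [e1, e2]
              group
            have hgcom : ∀ c ∈ Subgroup.zpowers b, ∀ d ∈ Subgroup.zpowers b,
                β l (bE c w) (bE d w) = 1 := by
              intro c hc d hd
              obtain ⟨s₁, hs₁, e₁⟩ := hgen c hc
              obtain ⟨s₂, hs₂, e₂⟩ := hgen d hd
              rw [e₁, hskew, e₂, hzero _ hs₂ _ hs₁, inv_one]
            have hHcom : ∀ y ∈ H, ∀ y' ∈ H, β l y y' = 1 := by
              intro y hy
              have hy' : ∀ c ∈ Subgroup.zpowers b, β l y (bE c w) = 1 := by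
                intro c hc
                let S : Subgroup E := (((β l).flip) (bE c w)).ker
                have : H ≤ S := by
                  rw [Subgroup.closure_le]
                  rintro _ ⟨d, rfl⟩
                  exact hgcom d d.2 c hc
                exact this hy
              have : H ≤ (β l y).ker := by
                rw [Subgroup.closure_le]
                rintro _ ⟨d, rfl⟩
                exact hy' d d.2
              exact fun y' hy'' => this hy''
            refine hβeq hUne hsw w _ ?_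
            refine fixed_of_commuting (ρU.comp H.subtype) (fun y y' => ?_) aH αU F.hp ?_ ?_ hαp
              hsumU ?_ ⟨w, hwH⟩
            · show ρU (y : E) * ρU (y' : E) = ρU (y' : E) * ρU (y : E)
              rw [← map_mul, ← map_mul, hsw,
                show l (com (y : E) (y' : E)) = 1 from hHcom _ y.2 _ y'.2, Units.val_one,
                one_smul]
            · exact MulEquiv.ext fun y => Subtype.ext (by
                rw [haH, ← hbp, pow_orderOf_eq_one, one_smul]; rfl)
            · exact fun y v => hc (y : E) v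
            · intro h0
              refine hk ?_
              obtain ⟨c, hc'⟩ := H.card_subgroup_dvd_card
              rw [hc', Nat.cast_mul, h0, zero_mul]
          have e : cP (act r ((β l).rangeRestrict x) * act r⁻¹ ((β l).rangeRestrict x)) =
              act r ((β l).rangeRestrict x) * act r⁻¹ ((β l).rangeRestrict x) := by
            rw [hact, hact, ← map_mul, hcPx]
            exact Subtype.ext hwfix
          have hmv : ∀ s : R, cP (act s ((β l).rangeRestrict x)) =
              act (cR s) ((β l).rangeRestrict x) := fun s => by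
            conv_rhs => rw [← hz]
            rw [hact, hcPx, hcPx, hact]
            congr 1
            exact Subtype.ext (by simp [cj, bE, cR, smul_mul', smul_inv'])
          rw [← e, map_mul, hmv, hmv, map_inv cR]
    intro r hr x
    have hfin := fixed_family F hfix hcop R hR ((charAct E).comp R.subtype)
      (fun v => β (aact Z hZi (v : A) l') x)
      (fun v => Set.range (β (aact Z hZi (v : A) l')))
      (fun v => ⟨x, rfl⟩)
      (fun v s z hz => by
        obtain ⟨y, rfl⟩ := hz
        exact ⟨cj s y, (hβr _ s s.2 y).symm⟩)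
      (fun v s z hz => by
        obtain ⟨y, rfl⟩ := hz
        refine hkey _ (weight_aact ρ α hcompat Z hZi hl'w _) (fun e => hl'1 ?_) _ ?_ ?_ s s.2 y
        · have e' := congrArg (aact Z hZi (v : A)⁻¹) e
          rwa [← aact_mul, inv_mul_cancel, aact_one, aact_oneChar] at e'
        · rw [← MulAut.conj_apply]
          exact ((MulAut.conj (v : A)).orderOf_eq F.a).trans F.orda
        · rw [← aact_mul, inv_mul_cancel_right, aact_mul, hl'a])
      (MonoidHom.ext fun y => by
        rw [MonoidHom.finset_prod_apply, MonoidHom.one_apply]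
        simp only [hβ]
        rw [← MonoidHom.finset_prod_apply, prod_aact_eq_one F Z hZi hZc hfix hcop hl'a,
          MonoidHom.one_apply])
      hMN hco 1 ⟨r, hr⟩
    simpa [aact_one, charAct_apply] using hfin

end Rep

/-! ### The main induction -/

section Main

variable {A : Type*} [Group A] {p q : ℕ}

/-- the action on a quotient by an invariant subgroup -/
@[reducible]
def quotAction {G : Type u} [Group G] [MulDistribMulAction A G] (N : Subgroup G) [N.Normal]
    (hN : ∀ (a : A), ∀ x ∈ N, a • x ∈ N) : MulDistribMulAction A (G ⧸ N) where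
  smul a := QuotientGroup.map N N (MulDistribMulAction.toMonoidHom G a) fun x hx => hN a x hx
  one_smul q := by
    obtain ⟨g, rfl⟩ := QuotientGroup.mk_surjective q
    exact congrArg QuotientGroup.mk (one_smul A g)
  mul_smul a b q := by
    obtain ⟨g, rfl⟩ := QuotientGroup.mk_surjective q
    exact congrArg QuotientGroup.mk (mul_smul a b g)
  smul_mul a q r := map_mul (QuotientGroup.map N N (MulDistribMulAction.toMonoidHom G a) _) q r
  smul_one a := map_one (QuotientGroup.map N N (MulDistribMulAction.toMonoidHom G a) _)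

theorem fpf_quotient (F : Frame A p q) {G : Type u} [Group G] [Finite G] [MulDistribMulAction A G]
    (hfix : Fpf F G) (hcop : (Nat.card G).Coprime (p * q)) (N : Subgroup G) [N.Normal]
    (hN : ∀ (a : A), ∀ x ∈ N, a • x ∈ N) :
    letI := quotAction N hN
    Fpf F (G ⧸ N) := by
  letI := quotAction N hN
  intro x hs ht
  obtain ⟨g, rfl⟩ := QuotientGroup.mk_surjective x
  refine (QuotientGroup.eq_one_iff g).2 (mem_of_coset F hfix hcop N hN fun b => ?_)
  exact QuotientGroup.eq.1 (fixed_all F hs ht b).symm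

theorem fitting_height_aux (F : Frame A p q) : ∀ (n : ℕ) (G : Type u) [Group G] [Finite G]
    [MulDistribMulAction A G], Nat.card G = n → Group.IsSolvable G →
    (Nat.card G).Coprime (p * q) → Fpf F G →
    ∃ N : Subgroup G, ∃ _ : N.Normal, Group.IsNilpotent N ∧ Group.IsNilpotent (G ⧸ N) := by
  haveI := F.finite
  letI := Fintype.ofFinite A
  intro n
  induction n using Nat.strong_induction_on with
  | h n IH =>
  intro G _ _ _ hn hsol hcop hfix
  rcases subsingleton_or_nontrivial G with hsub | hnt
  · exact ⟨⊥, inferInstance, inferInstance, inferInstance⟩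
  haveI := hsol
  -- a minimal invariant normal subgroup
  obtain ⟨V, ⟨hVb, hVn, hVi⟩, hmin⟩ := (Finite.to_wellFoundedLT (α := Subgroup G)).wf.has_min
    {V | V ≠ ⊥ ∧ V.Normal ∧ ∀ (a : A), ∀ x ∈ V, a • x ∈ V}
    ⟨⊤, top_ne_bot, inferInstance, fun _ _ _ => trivial⟩
  haveI := hVn
  have hle : ∀ N : Subgroup G, N.Normal → N ≤ V → (∀ (a : A), ∀ x ∈ N, a • x ∈ N) → N ≠ ⊥ →
      N = V := fun N h1 h2 h3 h4 => by
    by_contra hne
    exact hmin N ⟨h4, h1, h3⟩ (lt_of_le_of_ne h2 hne)
  have hcomm : ∀ x ∈ V, ∀ y ∈ V, x * y = y * x := by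
    have hVc : ⁅V, V⁆ = ⊥ := by
      by_contra hne
      exact (Group.IsSolvable.commutator_lt_of_ne_bot hVb).ne
        (hle ⁅V, V⁆ inferInstance (Subgroup.commutator_le_left V V) (smul_commutator_mem hVi) hne)
    exact fun x hx y hy => commutatorElement_eq_one_iff_mul_comm.1
      (Subgroup.mem_bot.1 (hVc ▸ Subgroup.commutator_mem_commutator hx hy))
  obtain ⟨r, hr, hrV⟩ := Nat.exists_prime_and_dvd
    ((Subgroup.one_lt_card_iff_ne_bot V).2 hVb).ne'
  haveI : Fact r.Prime := ⟨hr⟩
  have hexp : ∀ v ∈ V, v ^ r = 1 := by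
    let T : Subgroup G :=
      { carrier := {x | x ∈ V ∧ x ^ r = 1}
        mul_mem' := fun {x y} hx hy => ⟨mul_mem hx.1 hy.1, by
          rw [Commute.mul_pow (hcomm x hx.1 y hy.1), hx.2, hy.2, one_mul]⟩
        one_mem' := ⟨one_mem V, one_pow r⟩
        inv_mem' := fun {x} hx => ⟨inv_mem hx.1, by rw [inv_pow, hx.2, inv_one]⟩ }
    have hT := hle T ⟨fun x hx g => ⟨hVn.conj_mem x hx.1 g, by
        rw [conj_pow, hx.2, mul_one, mul_inv_cancel]⟩⟩ (fun x hx => hx.1)
      (fun a x hx => ⟨hVi a x hx.1, by rw [← smul_pow', hx.2, smul_one]⟩) ?_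
    · intro v hv; rw [← hT] at hv; exact hv.2
    · obtain ⟨x, hx⟩ := exists_prime_orderOf_dvd_card' r hrV
      intro hb
      have hm : (x : G) ∈ T := ⟨x.2, by
        rw [← SubgroupClass.coe_pow, ← hx, pow_orderOf_eq_one, OneMemClass.coe_one]⟩
      rw [hb, Subgroup.mem_bot] at hm
      have : x = 1 := Subtype.ext hm
      rw [this, orderOf_one] at hx
      exact hr.one_lt.ne hx
  have hVlt : ∀ (N : Subgroup G) [N.Normal], V ≤ N → Nat.card (G ⧸ N) < n := by
    intro N _ hVN
    rw [← hn, Subgroup.card_eq_card_quotient_mul_card_subgroup N]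
    exact lt_mul_of_one_lt_right Nat.card_pos ((Subgroup.one_lt_card_iff_ne_bot N).2 fun h =>
      hVb (eq_bot_iff.2 (h ▸ hVN)))
  set C := Subgroup.centralizer (V : Set G) with hC
  haveI hCn : C.Normal := Subgroup.normal_centralizer
  have hVC : V ≤ C := fun x hx => Subgroup.mem_centralizer_iff.2 fun v hv => hcomm v hv x hx
  have hCi : ∀ (a : A), ∀ x ∈ C, a • x ∈ C := fun a x hx => by
    rw [hC, Subgroup.mem_centralizer_iff] at hx ⊢
    intro v hv
    have h := congrArg (a • ·) (hx (a⁻¹ • v) (hVi _ v hv))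
    simpa [smul_mul'] using h
  suffices hquot : Group.IsNilpotent (G ⧸ C) by
    letI := quotAction V hVi
    haveI hsq : Group.IsSolvable (G ⧸ V) := solvable_of_surjective (QuotientGroup.mk'_surjective V)
    obtain ⟨F₁, hF₁n, hF₁, hF₁q⟩ := IH _ (hVlt V le_rfl) (G ⧸ V) rfl hsq
      (hcop.coprime_dvd_left V.card_quotient_dvd_card) (fpf_quotient F hfix hcop V hVi)
    haveI := hF₁n
    haveI := hF₁
    haveI := hF₁q
    haveI := hquot
    set L := F₁.comap (QuotientGroup.mk' V) with hL
    haveI : L.Normal := Subgroup.Normal.comap inferInstance _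
    haveI hN : (L ⊓ C).Normal := inferInstanceAs (L ⊓ C).Normal
    refine ⟨L ⊓ C, hN, ?_, ?_⟩
    · let f : (L ⊓ C : Subgroup G) →* F₁ :=
        ((QuotientGroup.mk' V).comp (L ⊓ C).subtype).codRestrict _ fun x => x.2.1
      refine Subgroup.isNilpotent_of_ker_le_center f ?_
      intro x hx
      have hxV : (x : G) ∈ V := (QuotientGroup.eq_one_iff _).1 (congrArg Subtype.val hx)
      exact Subgroup.mem_center_iff.2 fun y =>
        Subtype.ext ((Subgroup.mem_centralizer_iff.1 y.2.2 _ hxV).symm)
    · let f₀ : G →* ((G ⧸ V) ⧸ F₁) × (G ⧸ C) :=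
        ((QuotientGroup.mk' F₁).comp (QuotientGroup.mk' V)).prod (QuotientGroup.mk' C)
      have hk : f₀.ker = L ⊓ C := by
        ext x
        simp only [f₀, MonoidHom.mem_ker, MonoidHom.prod_apply, Prod.mk_eq_one,
          MonoidHom.comp_apply, QuotientGroup.mk'_apply, QuotientGroup.eq_one_iff, Subgroup.mem_inf,
          hL, Subgroup.mem_comap]
      let f : G ⧸ (L ⊓ C) →* ((G ⧸ V) ⧸ F₁) × (G ⧸ C) :=
        QuotientGroup.lift (L ⊓ C) f₀ hk.ge
      refine Subgroup.isNilpotent_of_ker_le_center f ?_
      intro x hx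
      obtain ⟨g, rfl⟩ := QuotientGroup.mk_surjective x
      have : g ∈ f₀.ker := hx
      rw [hk] at this
      rw [(QuotientGroup.eq_one_iff g).2 this]
      exact one_mem _
  -- the representation
  letI := quotAction C hCi
  have hfq : Fpf F (G ⧸ C) := fpf_quotient F hfix hcop C hCi
  haveI hsolC : Group.IsSolvable (G ⧸ C) :=
    solvable_of_surjective (QuotientGroup.mk'_surjective C)
  have hcq : (Nat.card (G ⧸ C)).Coprime (p * q) := hcop.coprime_dvd_left C.card_quotient_dvd_card
  letI : CommGroup V :=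
    { (inferInstance : Group V) with mul_comm := fun x y => Subtype.ext (hcomm x x.2 y y.2) }
  let k := AlgebraicClosure (ZMod r)
  haveI : CharP k r := charP_of_injective_algebraMap (algebraMap (ZMod r) k).injective r
  let Vd := Additive V
  let W := Vd →+ k
  have hqk : (q : k) ≠ 0 := fun h => hr.ne_one (Nat.eq_one_of_dvd_coprimes hcop
    (hrV.trans V.card_subgroup_dvd_card)
    (((CharP.cast_eq_zero_iff k r q).1 h).trans (dvd_mul_left q p)))
  haveI : FiniteDimensional k W :=
    Module.Finite.of_injective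
      ({ toFun := fun f => (f : Vd → k), map_add' := fun _ _ => rfl,
         map_smul' := fun _ _ => rfl } : W →ₗ[k] (Vd → k))
      DFunLike.coe_injective
  let cv : G → Vd →+ Vd := fun g => MonoidHom.toAdditive
    { toFun := fun v : V => (⟨g⁻¹ * v * g, by simpa using hVn.conj_mem (v : G) v.2 g⁻¹⟩ : V)
      map_one' := Subtype.ext (by simp)
      map_mul' := fun v w => Subtype.ext (by simp [mul_assoc]) }
  have cv_apply : ∀ g (v : V), cv g (Additive.ofMul v) =
      Additive.ofMul (⟨g⁻¹ * v * g, by simpa using hVn.conj_mem (v : G) v.2 g⁻¹⟩ : V) :=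
    fun _ _ => rfl
  let ρ₀ : G →* Module.End k W :=
    { toFun := fun g =>
        { toFun := fun f => f.comp (cv g), map_add' := fun _ _ => rfl, map_smul' := fun _ _ => rfl }
      map_one' := LinearMap.ext fun f => AddMonoidHom.ext fun v => by
        obtain ⟨v, rfl⟩ := Additive.ofMul.surjective v
        show f (cv 1 (Additive.ofMul v)) = f (Additive.ofMul v)
        rw [cv_apply]
        congr 2
        exact Subtype.ext (by simp)
      map_mul' := fun g h => LinearMap.ext fun f => AddMonoidHom.ext fun v => by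
        obtain ⟨v, rfl⟩ := Additive.ofMul.surjective v
        show f (cv (g * h) (Additive.ofMul v)) = f (cv h (cv g (Additive.ofMul v)))
        simp only [cv_apply]
        congr 2
        exact Subtype.ext (by simp [mul_assoc]) }
  have ρ₀_apply : ∀ g (f : W) (v : V), ρ₀ g f (Additive.ofMul v) =
      f (Additive.ofMul (⟨g⁻¹ * v * g, by simpa using hVn.conj_mem (v : G) v.2 g⁻¹⟩ : V)) :=
    fun _ _ _ => rfl
  have hker : C ≤ ρ₀.ker := fun g hg => MonoidHom.mem_ker.2 (LinearMap.ext fun f =>
    AddMonoidHom.ext fun v => by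
      obtain ⟨v, rfl⟩ := Additive.ofMul.surjective v
      rw [ρ₀_apply, Module.End.one_apply]
      congr 2
      apply Subtype.ext
      show g⁻¹ * (v : G) * g = v
      rw [mul_assoc, Subgroup.mem_centralizer_iff.1 hg _ v.2, inv_mul_cancel_left])
  let ρ : G ⧸ C →* Module.End k W := QuotientGroup.lift C ρ₀ hker
  let ca : A → Vd →+ Vd := fun a => MonoidHom.toAdditive
    { toFun := fun v : V => (⟨a⁻¹ • (v : G), hVi _ _ v.2⟩ : V)
      map_one' := Subtype.ext (smul_one _)
      map_mul' := fun v w => Subtype.ext (smul_mul' _ _ _) }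
  let α : A →* Module.End k W :=
    { toFun := fun a =>
        { toFun := fun f => f.comp (ca a), map_add' := fun _ _ => rfl, map_smul' := fun _ _ => rfl }
      map_one' := LinearMap.ext fun f => AddMonoidHom.ext fun v => by
        obtain ⟨v, rfl⟩ := Additive.ofMul.surjective v
        show f (Additive.ofMul (⟨(1 : A)⁻¹ • (v : G), _⟩ : V)) = f (Additive.ofMul v)
        congr 2
        exact Subtype.ext (by simp)
      map_mul' := fun a b => LinearMap.ext fun f => AddMonoidHom.ext fun v => by
        obtain ⟨v, rfl⟩ := Additive.ofMul.surjective v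
        show f (Additive.ofMul (⟨(a * b)⁻¹ • (v : G), _⟩ : V)) =
          f (Additive.ofMul (⟨b⁻¹ • (a⁻¹ • (v : G)), hVi _ _ (hVi _ _ v.2)⟩ : V))
        congr 2
        exact Subtype.ext (by simp [mul_smul]) }
  have hcompat : ∀ (a : A) (x : G ⧸ C) (f : W), α a (ρ x f) = ρ (a • x) (α a f) := by
    intro a x f
    obtain ⟨g, rfl⟩ := QuotientGroup.mk_surjective x
    refine AddMonoidHom.ext fun v => ?_
    obtain ⟨v, rfl⟩ := Additive.ofMul.surjective v
    show ρ₀ g f (Additive.ofMul (⟨a⁻¹ • (v : G), hVi _ _ v.2⟩ : V)) =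
      ρ₀ (a • g) (α a f) (Additive.ofMul v)
    simp only [ρ₀_apply]
    show f _ = f (Additive.ofMul (⟨a⁻¹ • ((a • g)⁻¹ * (v : G) * (a • g)), _⟩ : V))
    congr 2
    exact Subtype.ext (by simp [smul_mul', smul_inv'])
  have hsum : ∀ f : W, ∑ a : A, α a f = 0 := by
    intro f
    refine AddMonoidHom.ext fun v => ?_
    obtain ⟨v, rfl⟩ := Additive.ofMul.surjective v
    rw [AddMonoidHom.finset_sum_apply, AddMonoidHom.zero_apply]
    show ∑ a : A, f (Additive.ofMul (⟨a⁻¹ • (v : G), hVi _ _ v.2⟩ : V)) = 0
    rw [← map_sum, ← ofMul_prod]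
    set P := ∏ a : A, (⟨a⁻¹ • (v : G), hVi _ _ v.2⟩ : V) with hP
    have hPf : ∀ b : A, b • (P : G) = (P : G) := by
      intro b
      let φ : V →* V :=
        { toFun := fun w => ⟨b • (w : G), hVi _ _ w.2⟩
          map_one' := Subtype.ext (smul_one _)
          map_mul' := fun w z => Subtype.ext (smul_mul' _ _ _) }
      have h : φ P = P := by
        rw [hP, map_prod]
        refine Fintype.prod_equiv (Equiv.mulRight b⁻¹) _ _ fun a => Subtype.ext ?_
        show b • a⁻¹ • (v : G) = (a * b⁻¹)⁻¹ • (v : G)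
        rw [mul_inv_rev, inv_inv, mul_smul]
      exact congrArg Subtype.val h
    have hP1 : P = 1 := Subtype.ext (hfix _ (hPf _) (hPf _))
    rw [hP1]
    exact map_zero f
  have hinj : Function.Injective ρ := by
    rw [← MonoidHom.ker_eq_bot_iff, eq_bot_iff]
    intro x hx
    obtain ⟨g, rfl⟩ := QuotientGroup.mk_surjective x
    refine Subgroup.mem_bot.2 ((QuotientGroup.eq_one_iff g).2 ?_)
    rw [hC, Subgroup.mem_centralizer_iff]
    intro v hv
    by_contra hne
    have hw : g⁻¹ * v * g * v⁻¹ ∈ V :=
      mul_mem (by simpa using hVn.conj_mem v hv g⁻¹) (inv_mem hv)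
    letI : Module (ZMod r) Vd := AddCommGroup.zmodModule (fun w => by
      obtain ⟨w, rfl⟩ := Additive.ofMul.surjective w
      rw [← ofMul_pow, show w ^ r = 1 from Subtype.ext (by
        rw [SubgroupClass.coe_pow, hexp _ w.2, OneMemClass.coe_one]), ofMul_one])
    have hw0 : Additive.ofMul (⟨_, hw⟩ : V) ≠ (0 : Vd) := fun h => hne (by
      have h1 : g⁻¹ * v * g * v⁻¹ = 1 := congrArg Subtype.val (Additive.ofMul.injective h)
      rw [mul_inv_eq_one, mul_assoc, inv_mul_eq_iff_eq_mul] at h1
      exact h1)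
    obtain ⟨l, hl⟩ : ∃ l : Vd →+ ZMod r, l (Additive.ofMul (⟨_, hw⟩ : V)) ≠ 0 := by
      by_contra h
      push Not at h
      exact hw0 ((Module.forall_dual_apply_eq_zero_iff (ZMod r) _).1 fun φ => h φ.toAddMonoidHom)
    let f : W := ((algebraMap (ZMod r) k).toAddMonoidHom).comp l
    refine hl ((algebraMap (ZMod r) k).injective ?_)
    rw [map_zero]
    show f (Additive.ofMul (⟨_, hw⟩ : V)) = 0
    have h1 : ρ₀ g f (Additive.ofMul ⟨v, hv⟩) = f (Additive.ofMul ⟨v, hv⟩) := by
      rw [show ρ₀ g = 1 from hx, Module.End.one_apply]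
    rw [ρ₀_apply] at h1
    rw [show (⟨_, hw⟩ : V) = ⟨g⁻¹ * v * g, by simpa using hVn.conj_mem v hv g⁻¹⟩ * ⟨v, hv⟩⁻¹
      from Subtype.ext rfl, ofMul_mul, ofMul_inv, map_add, map_neg, h1, add_neg_cancel]
  -- the `r`-core of the quotient is trivial
  have hcore : Cfsg.pCore r (G ⧸ C) = ⊥ := by
    haveI := CfsgLib.Core.characteristic_pCore (G := G ⧸ C) r
    by_contra hne
    set L := (Cfsg.pCore r (G ⧸ C)).comap (QuotientGroup.mk' C) with hL
    haveI : L.Normal := Subgroup.Normal.comap inferInstance _
    have hLi : ∀ (a : A), ∀ x ∈ L, a • x ∈ L := fun a x hx => by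
      have h := (CfsgLib.Core.characteristic_pCore (G := G ⧸ C) r).fixed
        (MulDistribMulAction.toMulEquiv (G ⧸ C) a)
      have hx' : (x : G ⧸ C) ∈ Cfsg.pCore r (G ⧸ C) := hx
      rw [← h] at hx'
      exact hx'
    have hfixV : V ⊓ Subgroup.centralizer (L : Set G) ≠ ⊥ := by
      -- an `r`-group acting on `V`
      letI : MulAction L V :=
        { smul := fun l v => ⟨(l : G) * v * (l : G)⁻¹, hVn.conj_mem _ v.2 _⟩
          one_smul := fun v => Subtype.ext (by
            show ((1 : L) : G) * v * ((1 : L) : G)⁻¹ = v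
            simp)
          mul_smul := fun l m v => Subtype.ext (by
            show ((l * m : L) : G) * v * ((l * m : L) : G)⁻¹ =
              (l : G) * ((m : G) * v * (m : G)⁻¹) * (l : G)⁻¹
            simp [mul_assoc]) }
      let π' : L →* Cfsg.pCore r (G ⧸ C) :=
        ((QuotientGroup.mk' C).comp L.subtype).codRestrict _ fun l => l.2
      let θ : L →* Equiv.Perm V := MulAction.toPermHom L V
      have hθ : π'.ker ≤ θ.ker := by
        intro l hl
        have hlC : (l : G) ∈ C := (QuotientGroup.eq_one_iff _).1 (congrArg Subtype.val hl)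
        refine Equiv.ext fun v => Subtype.ext ?_
        show (l : G) * v * (l : G)⁻¹ = v
        rw [← Subgroup.mem_centralizer_iff.1 hlC _ v.2, mul_inv_cancel_right]
      have hp : IsPGroup r θ.range := by
        intro y
        obtain ⟨l, hl⟩ := y.2
        obtain ⟨j, hj⟩ := CfsgLib.Core.isPGroup_pCore (G := G ⧸ C) r (π' l)
        refine ⟨j, Subtype.ext ?_⟩
        rw [SubgroupClass.coe_pow, ← hl, ← map_pow, OneMemClass.coe_one]
        exact hθ (by rw [MonoidHom.mem_ker, map_pow, hj])
      have hfp : (1 : V) ∈ MulAction.fixedPoints θ.range V := by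
        rintro ⟨_, l, rfl⟩
        exact Subtype.ext (by show (l : G) * 1 * (l : G)⁻¹ = 1; group)
      obtain ⟨v, hv, hv1⟩ := hp.exists_fixed_point_of_prime_dvd_card_of_fixed_point V hrV hfp
      intro hb
      refine hv1 (Subtype.ext ?_)
      have hm : (v : G) ∈ V ⊓ Subgroup.centralizer (L : Set G) := ⟨v.2,
        Subgroup.mem_centralizer_iff.2 fun l hl => by
          have := congrArg Subtype.val (hv ⟨θ ⟨l, hl⟩, ⟨_, rfl⟩⟩)
          exact mul_inv_eq_iff_eq_mul.1 this⟩
      rw [hb, Subgroup.mem_bot] at hm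
      exact hm.symm
    have hVL : V ⊓ Subgroup.centralizer (L : Set G) = V := by
      haveI : (Subgroup.centralizer (L : Set G)).Normal := Subgroup.normal_centralizer
      refine hle _ inferInstance inf_le_left (fun a x hx => ⟨hVi a x hx.1, ?_⟩) hfixV
      refine Subgroup.mem_centralizer_iff.2 fun l hl => ?_
      have h := congrArg (a • ·) (Subgroup.mem_centralizer_iff.1 hx.2 (a⁻¹ • l) (hLi _ l hl))
      simpa [smul_mul'] using h
    refine hne (eq_bot_iff.2 fun x hx => ?_)
    obtain ⟨g, rfl⟩ := QuotientGroup.mk_surjective x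
    refine Subgroup.mem_bot.2 ((QuotientGroup.eq_one_iff g).2 ?_)
    rw [hC, Subgroup.mem_centralizer_iff]
    intro v hv
    rw [← hVL] at hv
    exact (Subgroup.mem_centralizer_iff.1 hv.2 g hx).symm
  -- the quotient by the Fitting subgroup is nilpotent
  set Φ := Cfsg.fittingSubgroup (G ⧸ C) with hΦ
  haveI hΦc := CfsgLib.Core.characteristic_fittingSubgroup (G := G ⧸ C)
  haveI hΦq : Group.IsNilpotent ((G ⧸ C) ⧸ Φ) := by
    obtain ⟨N, hNn, hN, hNq⟩ := IH _ (hVlt C hVC) (G ⧸ C) rfl hsolC hcq hfq
    haveI := hNn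
    haveI := hNq
    have hNΦ : N ≤ Φ := CfsgLib.Core.le_fittingSubgroup hNn hN
    exact Group.nilpotent_of_surjective (QuotientGroup.map N Φ (MonoidHom.id _) hNΦ)
      fun x => by
        obtain ⟨y, rfl⟩ := QuotientGroup.mk_surjective x
        exact ⟨y, rfl⟩
  refine CfsgLib.Core.isNilpotent_iff_sylow_normal.2 fun t ht P => ?_
  haveI := ht
  suffices hT : ∃ T : Sylow t (G ⧸ C), (T : Subgroup (G ⧸ C)).Normal by
    obtain ⟨T, hTn⟩ := hT
    haveI := Sylow.unique_of_normal T hTn
    rwa [Subsingleton.elim P T]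
  -- an invariant Sylow subgroup
  letI : MulAction A (Sylow t (G ⧸ C)) :=
    { smul := fun b T => T.mapSurjective (f := (MulDistribMulAction.toMulEquiv (G ⧸ C) b).toMonoidHom)
        (MulDistribMulAction.toMulEquiv (G ⧸ C) b).surjective
      one_smul := fun T => Sylow.ext (by
        show (T : Subgroup (G ⧸ C)).map
          (MulDistribMulAction.toMulEquiv (G ⧸ C) (1 : A)).toMonoidHom = T
        ext x
        simp [Subgroup.mem_map])
      mul_smul := fun b c T => Sylow.ext (by
        show (T : Subgroup (G ⧸ C)).map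
            (MulDistribMulAction.toMulEquiv (G ⧸ C) (b * c)).toMonoidHom =
          ((T : Subgroup (G ⧸ C)).map (MulDistribMulAction.toMulEquiv (G ⧸ C) c).toMonoidHom).map
            (MulDistribMulAction.toMulEquiv (G ⧸ C) b).toMonoidHom
        rw [Subgroup.map_map]
        ext x
        simp [Subgroup.mem_map, mul_smul]) }
  have hmem : ∀ (b : A) (T : Sylow t (G ⧸ C)), ∀ x ∈ T, b • x ∈ b • T := fun b T x hx =>
    show b • x ∈ (T : Subgroup (G ⧸ C)).map _ from ⟨x, hx, rfl⟩
  obtain ⟨g, hg⟩ := exists_fixed_in_orbit F (G := G ⧸ C)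
    (fun (x : G ⧸ C) (T : Sylow t (G ⧸ C)) => x • T) (fun T => one_smul _ T)
    (fun x y T => mul_smul x y T)
    (fun b x T => Sylow.ext (by
      show ((x • T : Sylow t (G ⧸ C)) : Subgroup (G ⧸ C)).map _ =
        (((b • x) • (b • T) : Sylow t (G ⧸ C)) : Subgroup (G ⧸ C))
      ext z
      simp only [Sylow.coe_subgroup_smul, Subgroup.mem_map,
        Subgroup.mem_pointwise_smul_iff_inv_smul_mem]
      constructor
      · rintro ⟨w, hw, rfl⟩
        exact ⟨_, hw, by simp [smul_mul', smul_inv']⟩
      · rintro ⟨w, hw, hwz⟩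
        refine ⟨x * w * x⁻¹, by simp [mul_assoc]; exact hw, ?_⟩
        simp only [MulEquiv.coe_toMonoidHom, MulDistribMulAction.toMulEquiv_apply] at hwz ⊢
        rw [smul_mul', smul_mul', smul_inv', hwz]
        simp [mul_assoc]))
    hcq (x := P) (fun b => (MulAction.exists_smul_eq (G ⧸ C) P (b • P)).imp fun _ h => h.symm)
  refine ⟨g • P, ?_⟩
  set T := g • P with hTdef
  have hTi : ∀ (b : A), ∀ x ∈ (T : Subgroup (G ⧸ C)), b • x ∈ (T : Subgroup (G ⧸ C)) :=
    fun b x hx => by
      have h1 : b • x ∈ b • T := hmem b T x hx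
      rw [show b • T = T from hg b] at h1
      exact h1
  -- the Fitting subgroup normalises it
  have hΦT : Φ ≤ Subgroup.normalizer ((T : Subgroup (G ⧸ C)) : Set (G ⧸ C)) := by
    rw [hΦ, CfsgLib.Core.fittingSubgroup_eq_iSup_pCore]
    refine iSup_le fun s => ?_
    haveI := Fact.mk s.2
    by_cases hst : (s : ℕ) = t
    · rw [hst]
      exact (CfsgLib.Core.pCore_le_sylow T).trans Subgroup.le_normalizer
    · set E := Cfsg.pCore (s : ℕ) (G ⧸ C) with hE
      by_cases hsr : (s : ℕ) = r
      · rw [hE, hsr, hcore]; exact bot_le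
      haveI hEc := CfsgLib.Core.characteristic_pCore (G := G ⧸ C) (s : ℕ)
      have hEi : ∀ (b : A), ∀ x ∈ E, b • x ∈ E := fun b x hx => by
        have h := hEc.fixed (MulDistribMulAction.toMulEquiv (G ⧸ C) b)
        rw [hE, ← h] at hx
        exact hx
      have hEs : IsPGroup (s : ℕ) E := CfsgLib.Core.isPGroup_pCore (G := G ⧸ C) (s : ℕ)
      obtain ⟨i, hi⟩ := IsPGroup.iff_card.1 hEs
      obtain ⟨j, hj⟩ := IsPGroup.iff_card.1 T.isPGroup'
      have hEk : (Nat.card E : k) ≠ 0 := by
        rw [hi, Nat.cast_pow]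
        exact pow_ne_zero _ fun h => hsr
          ((Nat.prime_dvd_prime_iff_eq hr s.2).1 ((CharP.cast_eq_zero_iff k r s).1 h)).symm
      have hcT := centralise F ρ α hcompat hsum hfq hcq hinj hqk _ E T
        (CfsgLib.Core.normal_pCore (s : ℕ)) hEi hTi le_rfl hEs (by
          rw [hi, hj]
          exact ((Nat.coprime_primes s.2 ht.out).2 hst).symm.pow _ _) hEk
      intro x hx
      refine Subgroup.mem_normalizer_iff.2 fun y => ?_
      constructor
      · intro hy
        rw [show x * y * x⁻¹ = y by rw [← (hcT y hy x hx).eq, mul_inv_cancel_right]]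
        exact hy
      · intro hy
        have h := hcT _ hy x hx
        have e : x * y * x⁻¹ = y := by
          have h' := h.eq
          calc x * y * x⁻¹ = x⁻¹ * (x * y * x⁻¹ * x) := by rw [h']; group
            _ = y := by group
        rwa [e] at hy
  set S := (T : Subgroup (G ⧸ C)) ⊔ Φ with hS
  haveI hSn : S.Normal := by
    haveI hTm : ((T.mapSurjective (f := QuotientGroup.mk' Φ) (QuotientGroup.mk'_surjective Φ) :
        Sylow t ((G ⧸ C) ⧸ Φ)) : Subgroup ((G ⧸ C) ⧸ Φ)).Normal :=
      CfsgLib.Core.isNilpotent_iff_sylow_normal.1 hΦq t ht _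
    have := hTm.comap (QuotientGroup.mk' Φ)
    rwa [Sylow.coe_mapSurjective, Subgroup.comap_map_eq, QuotientGroup.ker_mk', ← hS] at this
  have hTN : S ≤ Subgroup.normalizer ((T : Subgroup (G ⧸ C)) : Set (G ⧸ C)) :=
    sup_le Subgroup.le_normalizer hΦT
  have h := Sylow.normalizer_sup_eq_top' (N := S) T le_sup_left
  have h' : Subgroup.normalizer ((T : Subgroup (G ⧸ C)) : Set (G ⧸ C)) ⊔ S =
      Subgroup.normalizer ((T : Subgroup (G ⧸ C)) : Set (G ⧸ C)) := sup_eq_left.2 hTN
  exact Subgroup.normalizer_eq_top_iff.1 (h'.symm.trans h)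

/-- **Fixed-point-free action of a non-abelian group of order `pq`.** -/
theorem fitting_height_le_two {G : Type u} [Group G] [Finite G] [Finite A] [MulDistribMulAction A G]
    (hsol : Group.IsSolvable G) (hp : p.Prime) (hq : q.Prime) (hpq : p ≠ q)
    (hA : Nat.card A = p * q) (hna : ¬ IsMulCommutative A)
    (hcop : (Nat.card G).Coprime (p * q)) (hfix : ∀ g : G, (∀ a : A, a • g = g) → g = 1) :
    ∃ N : Subgroup G, ∃ _ : N.Normal, Group.IsNilpotent N ∧ Group.IsNilpotent (G ⧸ N) := by
  obtain ⟨p', q', -, hmul, ⟨F⟩⟩ := exists_frame hp hq hpq hA hna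
  exact fitting_height_aux F _ G rfl hsol (hmul ▸ hcop)
    fun g hs ha => hfix g (fixed_all F hs ha)

end Main

end CfsgLib.FrobPQ
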