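import Cfsg.Agent.Lib.FgsFrobPQ

/-!
# Weights of representations compatible with a fixed-point-free group of order `pq`
-/

set_option autoImplicit false

open scoped Classical commutatorElement
open CfsgLib.S3Fpf (gact gact_apply gact_one' gact_mul' gact_mulChar stabChar IsWeight weight_gact
  eigen_indep exists_weight_ne comp_apply inv_apply)

universe u

namespace CfsgLib.FrobPQ

section Basic

variable {A : Type*} [Group A] {p q : ℕ} (F : Frame A p q)
variable {G : Type*} [Group G] [MulDistribMulAction A G]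

/-- the action on an invariant subgroup -/
@[reducible]
def subAction (H : Subgroup G) (hH : ∀ (b : A), ∀ x ∈ H, b • x ∈ H) : MulDistribMulAction A H where
  smul b x := ⟨b • (x : G), hH b x x.2⟩
  one_smul x := Subtype.ext (one_smul A (x : G))
  mul_smul a b x := Subtype.ext (mul_smul a b (x : G))
  smul_mul b x y := Subtype.ext (smul_mul' b (x : G) y)
  smul_one b := Subtype.ext (smul_one b)

variable [Finite G]

include F in
/-- a coset invariant under the whole action is the trivial one -/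
theorem mem_of_coset (hfix : Fpf F G) (hcop : (Nat.card G).Coprime (p * q)) (H : Subgroup G)
    (hH : ∀ (b : A), ∀ x ∈ H, b • x ∈ H) {g : G} (hg : ∀ b : A, g⁻¹ * b • g ∈ H) : g ∈ H := by
  letI := subAction H hH
  obtain ⟨h, hh⟩ := exists_fixed_in_orbit F (G := H) (fun (k : H) (x : G) => x * (k : G)⁻¹)
    (fun x => by simp) (fun k l x => by simp [mul_assoc])
    (fun b k x => by
      show b • (x * (k : G)⁻¹) = b • x * (b • (k : G))⁻¹
      rw [smul_mul', smul_inv'])
    (hcop.coprime_dvd_left H.card_subgroup_dvd_card) (x := g)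
    (fun b => ⟨(⟨_, hg b⟩ : H)⁻¹, by
      show b • g = g * (((⟨_, hg b⟩ : H)⁻¹ : H) : G)⁻¹
      simp⟩)
  have h1 : g * (h : G)⁻¹ = 1 := hfix _ (hh F.σ) (hh F.a)
  rw [mul_inv_eq_one.1 h1]
  exact h.2

/-- a coset invariant under the normal subgroup contains a fixed element -/
theorem exists_fixed_in_coset (hcop : (Nat.card G).Coprime (p * q)) (H : Subgroup G)
    (hH : ∀ x ∈ H, F.σ • x ∈ H) {g : G} (hg : g⁻¹ * F.σ • g ∈ H) :
    ∃ x ∈ H, F.σ • (g * x) = g * x := by
  let f : H → H := fun x => ⟨g⁻¹ * F.σ • (g * x), by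
    rw [smul_mul', ← mul_assoc]; exact mul_mem hg (hH _ x.2)⟩
  have hf : ∀ (n : ℕ) (x : H), ((f^[n] x : H) : G) = g⁻¹ * (fun y => F.σ • y)^[n] (g * x) :=
    fun n => by
      induction n with
      | zero => intro x; simp
      | succ n ih =>
        intro x
        rw [Function.iterate_succ_apply', Function.iterate_succ_apply']
        show g⁻¹ * F.σ • (g * ((f^[n] x : H) : G)) = _
        rw [ih, mul_inv_cancel_left]
  obtain ⟨x, hx⟩ := exists_fixed f F.hq
    (fun x => Subtype.ext (by rw [hf, smul_pow_q, inv_mul_cancel_left]))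
    (fun h => F.hq.ne_one (Nat.eq_one_of_dvd_coprimes hcop (h.trans H.card_subgroup_dvd_card)
      (dvd_mul_left q p)))
  exact ⟨x, x.2, inv_mul_eq_iff_eq_mul.1 (congrArg Subtype.val hx)⟩

end Basic

/-! ### Characters -/

section Chars

variable {A : Type*} [Group A] {p q : ℕ} (F : Frame A p q)
variable {G : Type*} [Group G] [MulDistribMulAction A G]
variable {k : Type*} [Field k]

/-- conjugation on characters -/
def charAct (M : Subgroup G) [M.Normal] : G →* MulAut (M →* kˣ) where
  toFun g :=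
    { toFun := gact g
      invFun := gact g⁻¹
      left_inv := fun χ => by rw [← gact_mul', inv_mul_cancel, gact_one']
      right_inv := fun χ => by rw [← gact_mul', mul_inv_cancel, gact_one']
      map_mul' := fun _ _ => rfl }
  map_one' := MulEquiv.ext fun χ => gact_one' χ
  map_mul' g h := MulEquiv.ext fun χ => gact_mul' g h χ

omit [MulDistribMulAction A G] in
theorem charAct_apply (M : Subgroup G) [M.Normal] (g : G) (χ : M →* kˣ) :
    charAct M g χ = gact g χ := rfl

variable (M : Subgroup G) (hM : ∀ (b : A), ∀ m ∈ M, b • m ∈ M)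

/-- twisting a character by an element of `A` -/
def aact (b : A) (χ : M →* kˣ) : M →* kˣ where
  toFun m := χ ⟨b⁻¹ • (m : G), hM _ _ m.2⟩
  map_one' := by
    convert χ.map_one using 2
    exact Subtype.ext (smul_one _)
  map_mul' x y := by
    rw [← map_mul]
    congr 1
    exact Subtype.ext (smul_mul' _ _ _)

theorem aact_apply (b : A) (χ : M →* kˣ) (m : M) :
    aact M hM b χ m = χ ⟨b⁻¹ • (m : G), hM _ _ m.2⟩ := rfl

theorem aact_one (χ : M →* kˣ) : aact M hM 1 χ = χ := by
  refine MonoidHom.ext fun m => ?_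
  rw [aact_apply]
  congr 1
  exact Subtype.ext (by simp)

theorem aact_mul (a b : A) (χ : M →* kˣ) :
    aact M hM (a * b) χ = aact M hM a (aact M hM b χ) := by
  refine MonoidHom.ext fun m => ?_
  simp only [aact_apply]
  congr 1
  exact Subtype.ext (by simp [mul_smul])

theorem aact_gact [M.Normal] (b : A) (g : G) (χ : M →* kˣ) :
    aact M hM b (gact g χ) = gact (b • g) (aact M hM b χ) := by
  refine MonoidHom.ext fun m => ?_
  simp only [aact_apply, gact_apply]
  congr 1
  exact Subtype.ext (by simp [smul_mul', smul_inv'])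

theorem aact_oneChar (b : A) : aact M hM b (1 : M →* kˣ) = 1 := rfl

theorem aact_smul (b : A) (χ : M →* kˣ) (m : M) :
    aact M hM b χ ⟨b • (m : G), hM _ _ m.2⟩ = χ m := by
  rw [aact_apply]
  congr 1
  exact Subtype.ext (inv_smul_smul b _)

/-- the subgroup of elements fixing a character -/
def stabA (χ : M →* kˣ) : Subgroup A where
  carrier := {b | aact M hM b χ = χ}
  mul_mem' := fun {b c} hb hc => by
    show aact M hM (b * c) χ = χ
    rw [aact_mul, show aact M hM c χ = χ from hc, show aact M hM b χ = χ from hb]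
  one_mem' := aact_one M hM χ
  inv_mem' := fun {b} hb => by
    show aact M hM b⁻¹ χ = χ
    conv_lhs => rw [← show aact M hM b χ = χ from hb, ← aact_mul, inv_mul_cancel, aact_one]

theorem mem_stabA {χ : M →* kˣ} {b : A} : b ∈ stabA M hM χ ↔ aact M hM b χ = χ := Iff.rfl

variable [Finite G]

include F hM in
/-- a character fixed by the whole action is trivial -/
theorem eq_one_of_aact_fixed (hcomm : ∀ x ∈ M, ∀ y ∈ M, x * y = y * x) (hfix : Fpf F G)
    (hcop : (Nat.card G).Coprime (p * q)) {χ : M →* kˣ} (hs : aact M hM F.σ χ = χ)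
    (ht : aact M hM F.a χ = χ) : χ = 1 := by
  haveI := F.finite
  letI := Fintype.ofFinite A
  letI : CommGroup M :=
    { (inferInstance : Group M) with mul_comm := fun x y => Subtype.ext (hcomm x x.2 y y.2) }
  refine MonoidHom.ext fun m => ?_
  have htop : stabA M hM χ = ⊤ := F.closure_pair_eq_top hs ht
  set P : M := ∏ b : A, (⟨b • (m : G), hM b m m.2⟩ : M) with hP
  have hPf : ∀ c : A, c • (P : G) = P := by
    intro c
    let φ : M →* M :=
      { toFun := fun x => ⟨c • (x : G), hM _ _ x.2⟩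
        map_one' := Subtype.ext (smul_one _)
        map_mul' := fun x y => Subtype.ext (smul_mul' _ _ _) }
    have h : φ P = P := by
      rw [hP, map_prod]
      exact Fintype.prod_equiv (Equiv.mulLeft c) _ _ fun b =>
        Subtype.ext (smul_smul c b (m : G))
    exact congrArg Subtype.val h
  have hP1 : P = 1 := Subtype.ext (hfix _ (hPf _) (hPf _))
  have h1 : χ P = χ m ^ (p * q) := by
    have hb : ∀ b : A, χ ⟨b • (m : G), hM b m m.2⟩ = χ m := fun b =>
      (DFunLike.congr_fun ((mem_stabA M hM).1 (htop ▸ Subgroup.mem_top b)) _).symm.trans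
        (aact_smul M hM b χ m)
    rw [hP, map_prod, Finset.prod_congr rfl fun b _ => hb b, Finset.prod_const, Finset.card_univ,
      ← Nat.card_eq_fintype_card, F.card]
  rw [hP1, map_one] at h1
  have h2 : χ m ^ Nat.card M = 1 := by rw [← map_pow, pow_card_eq_one', map_one]
  exact eq_of_coprime_pow (hcop.coprime_dvd_left M.card_subgroup_dvd_card).symm h1.symm h2

include F hM in
/-- the product of the conjugates by `σ` of a character fixed by `a` is trivial -/
theorem prod_aact_eq_one (hcomm : ∀ x ∈ M, ∀ y ∈ M, x * y = y * x) (hfix : Fpf F G)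
    (hcop : (Nat.card G).Coprime (p * q)) {χ : M →* kˣ} (ht : aact M hM F.a χ = χ)
    [Fintype (Subgroup.zpowers F.σ)] :
    ∏ v : Subgroup.zpowers F.σ, aact M hM (v : A) χ = 1 := by
  haveI := F.normal_zpowers
  have hmap : ∀ (b : A), aact M hM b (∏ v : Subgroup.zpowers F.σ, aact M hM (v : A) χ) =
      ∏ v : Subgroup.zpowers F.σ, aact M hM b (aact M hM (v : A) χ) := fun b =>
    map_prod ({ toFun := aact M hM b, map_one' := rfl, map_mul' := fun _ _ => rfl } :
      (M →* kˣ) →* (M →* kˣ)) _ _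
  refine eq_one_of_aact_fixed F M hM hcomm hfix hcop ?_ ?_
  · rw [hmap]
    exact Fintype.prod_equiv (Equiv.mulLeft (⟨F.σ, Subgroup.mem_zpowers _⟩ : Subgroup.zpowers F.σ))
      _ _ fun v => (aact_mul M hM F.σ v χ).symm
  · rw [hmap]
    refine Fintype.prod_equiv (MulAut.conjNormal F.a).toEquiv _ _ fun v => ?_
    show aact M hM F.a (aact M hM (v : A) χ) = aact M hM _ χ
    rw [← aact_mul, MulEquiv.toEquiv_eq_coe, EquivLike.coe_coe, MulAut.conjNormal_apply]
    conv_lhs => rw [show F.a * (v : A) = F.a * (v : A) * F.a⁻¹ * F.a by group, aact_mul, ht]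

end Chars

/-! ### Families with product one -/

section Family

variable {A : Type*} [Group A] {p q : ℕ} (F : Frame A p q)
variable {G : Type*} [Group G] [MulDistribMulAction A G] [Finite G]

include F in
/-- members of a product-one family indexed by `σ` on whose orbits `r⁻¹ (v a v⁻¹)(r)` is trivial
are fixed -/
theorem fixed_family (hfix : Fpf F G) (hcop : (Nat.card G).Coprime (p * q)) (R : Subgroup G)
    (hR : ∀ (b : A), ∀ x ∈ R, b • x ∈ R) {P : Type*} [CommGroup P] (act : R →* MulAut P)
    [Fintype (Subgroup.zpowers F.σ)] (x : Subgroup.zpowers F.σ → P)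
    (S : Subgroup.zpowers F.σ → Set P) (hxS : ∀ v, x v ∈ S v)
    (hS : ∀ v, ∀ r : R, ∀ z ∈ S v, act r z ∈ S v)
    (hb : ∀ (v : Subgroup.zpowers F.σ) (r : R), ∀ z ∈ S v,
      act ⟨((v : A) * F.a * (v : A)⁻¹) • (r : G), hR _ _ r.2⟩ z = act r z)
    (hprod : ∏ v, x v = 1) {N : ℕ} (hexp : ∀ y : P, y ^ N = 1) (hN : (Nat.card R).Coprime N)
    (i : Subgroup.zpowers F.σ) (r : R) : act r (x i) = x i := by
  haveI := F.finite
  let K : Subgroup.zpowers F.σ → Subgroup R := fun v =>
    { carrier := {r | ∀ z ∈ S v, act r z = z}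
      mul_mem' := fun {r s} hr hs z hz => by rw [map_mul, MulAut.mul_apply, hs z hz, hr z hz]
      one_mem' := fun z _ => by rw [map_one]; rfl
      inv_mem' := fun {r} hr z hz => by
        conv_lhs => rw [← hr z hz, ← MulAut.mul_apply, ← map_mul, inv_mul_cancel, map_one,
          MulAut.one_apply] }
  have hKn : ∀ v, (K v).Normal := fun v => ⟨fun r hr s z hz => by
    rw [map_mul, map_mul, MulAut.mul_apply, MulAut.mul_apply, hr _ (hS v _ z hz),
      ← MulAut.mul_apply, ← map_mul, mul_inv_cancel, map_one, MulAut.one_apply]⟩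
  have hbK : ∀ (v : Subgroup.zpowers F.σ) (r : R),
      r⁻¹ * ⟨((v : A) * F.a * (v : A)⁻¹) • (r : G), hR _ _ r.2⟩ ∈ K v := by
    intro v r z hz
    rw [map_mul, MulAut.mul_apply, hb v r z hz, ← MulAut.mul_apply, ← map_mul, inv_mul_cancel,
      map_one, MulAut.one_apply]
  refine fixed_of_prod_eq_one act x K hKn (fun v s hs => hs _ (hxS v)) ?_ hprod hexp hN i r
  intro v w hvw
  set H := K v ⊔ K w
  set H' := H.map R.subtype with hH'
  let D : Submonoid A :=
    { carrier := {d | ∀ r ∈ R, r⁻¹ * d • r ∈ H'}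
      mul_mem' := fun {c d} hc hd r hr => by
        have e : r⁻¹ * (c * d) • r = r⁻¹ * d • r * ((d • r)⁻¹ * c • d • r) := by
          rw [mul_smul]; group
        rw [e]
        exact mul_mem (hd r hr) (hc _ (hR d r hr))
      one_mem' := fun r _ => by rw [one_smul, inv_mul_cancel]; exact one_mem _ }
  let D' : Subgroup A :=
    { D with
      inv_mem' := fun {d} hd => by
        have h : d ^ (orderOf d - 1) ∈ D := D.pow_mem hd (orderOf d - 1)
        rwa [show d ^ (orderOf d - 1) = d⁻¹ by
          rw [eq_inv_iff_mul_eq_one, ← pow_succ, Nat.sub_add_cancel (orderOf_pos d),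
            pow_orderOf_eq_one]] at h }
  have hmem : ∀ u : Subgroup.zpowers F.σ, u = v ∨ u = w → (u : A) * F.a * (u : A)⁻¹ ∈ D' := by
    intro u hu r hr
    refine ⟨(⟨r, hr⟩ : R)⁻¹ * ⟨((u : A) * F.a * (u : A)⁻¹) • r, hR _ _ hr⟩, ?_, rfl⟩
    rcases hu with rfl | rfl
    · exact (le_sup_left : K u ≤ H) (hbK u ⟨r, hr⟩)
    · exact (le_sup_right : K u ≤ H) (hbK u ⟨r, hr⟩)
  have htop : D' = ⊤ := F.eq_top (hmem v (Or.inl rfl)) (hmem w (Or.inr rfl))
    (fun h => F.a_ne_one (by simpa using conj_eq_one_iff.1 h))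
    (F.conj_not_mem v.2 w.2 fun h => hvw (Subtype.ext h))
  have hall : ∀ d : A, ∀ r ∈ R, r⁻¹ * d • r ∈ H' := fun d => by
    have : d ∈ D' := htop ▸ Subgroup.mem_top d
    exact this
  have hH'R : H' ≤ R := Subgroup.map_subtype_le H
  refine eq_top_iff.2 fun r _ => ?_
  obtain ⟨s, hs, hse⟩ := mem_of_coset F hfix hcop H' (fun d y hy => by
    have := mul_mem hy (hall d y (hH'R hy))
    rwa [mul_inv_cancel_left] at this) (g := (r : G)) (fun d => hall d r r.2)
  rwa [Subtype.ext hse] at hs

end Family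

/-! ### A twisted abelian group -/

section Abelian

variable {k : Type*} [Field k] [IsAlgClosed k]

/-- an automorphism of prime order without fixed vectors fixes commuting operators -/
theorem fixed_of_commuting {N : Type u} [Group N] [Finite N] {W : Type*} [AddCommGroup W]
    [Module k W] [FiniteDimensional k W] (ρ : N →* Module.End k W)
    (hcom : ∀ x y, ρ x * ρ y = ρ y * ρ x) (a : MulAut N) (α : Module.End k W) {ℓ : ℕ}
    (hℓ : ℓ.Prime) (ha : a ^ ℓ = 1) (hcompat : ∀ x v, α (ρ x v) = ρ (a x) (α v))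
    (hα : α ^ ℓ = 1) (hsum : ∑ i ∈ Finset.range ℓ, α ^ i = 0) (hk : (Nat.card N : k) ≠ 0)
    (x : N) : ρ (a x) = ρ x := by
  set π := ρ.toHomUnits.rangeRestrict with hπ
  let Q := ρ.toHomUnits.range
  haveI : Finite Q := Finite.of_surjective _ ρ.toHomUnits.rangeRestrict_surjective
  let ι : Q →* Module.End k W := (Units.coeHom _).comp Q.subtype
  have hιπ : ∀ y, ι (π y) = ρ y := fun y => rfl
  by_contra hne
  have hm : ι (π (a x) * (π x)⁻¹) ≠ 1 := fun h => hne (by
    have e := congrArg (· * ι (π x)) h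
    simp only [← map_mul, inv_mul_cancel_right, one_mul] at e
    exact e)
  have hQc : ∀ y ∈ (⊤ : Subgroup Q), ∀ z ∈ (⊤ : Subgroup Q), y * z = z * y := by
    rintro ⟨_, y, rfl⟩ - ⟨_, z, rfl⟩ -
    exact Subtype.ext (Units.ext (hcom y z))
  obtain ⟨χ, ⟨v, hv, hχ⟩, hχm⟩ := exists_weight_ne ι ⊤ hQc (fun h => hk (by
    obtain ⟨c, hc⟩ := Subgroup.card_range_dvd ρ.toHomUnits
    rw [hc, Nat.cast_mul, show ((Nat.card Q : ℕ) : k) = 0 by rwa [Subgroup.card_top] at h,
      zero_mul])) ⟨_, Subgroup.mem_top _⟩ hm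
  let ξ : N →* kˣ := χ.comp (Subgroup.topEquiv.symm.toMonoidHom.comp π)
  have hξ : ∀ y, ρ y v = (ξ y : k) • v := fun y => hχ ⟨π y, Subgroup.mem_top _⟩
  have hξx : ξ (a x) ≠ ξ x := fun h => hχm (by
    have e : (⟨π (a x) * (π x)⁻¹, Subgroup.mem_top _⟩ : (⊤ : Subgroup Q)) =
      ⟨π (a x), Subgroup.mem_top _⟩ * ⟨π x, Subgroup.mem_top _⟩⁻¹ := rfl
    rw [e, map_mul, map_inv, mul_inv_eq_one]
    exact h)
  let S : Subgroup (MulAut N) :=
    { carrier := {b | ∀ y, ξ (b y) = ξ y}
      mul_mem' := fun {b c} hb hc y => (hb _).trans (hc y)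
      one_mem' := fun y => rfl
      inv_mem' := fun {b} hb y => by
        conv_rhs => rw [← MulAut.apply_inv_self N b y, hb] }
  have haS : a ∉ S := fun h => hξx (h x)
  have hord : orderOf a = ℓ := by
    refine (hℓ.eq_one_or_self_of_dvd _ (orderOf_dvd_of_pow_eq_one ha)).resolve_left fun h => haS ?_
    rw [orderOf_eq_one_iff.1 h]; exact one_mem S
  have hcompi : ∀ (i : ℕ) (y : N) (w : W), (α ^ i) (ρ y w) = ρ ((a ^ i) y) ((α ^ i) w) := by
    intro i
    induction i with
    | zero => intro y w; rfl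
    | succ i ih =>
      intro y w
      rw [pow_succ', pow_succ', Module.End.mul_apply, ih, hcompat]
      rfl
  let ψ : ℕ → ((⊤ : Subgroup N) →* kˣ) := fun i =>
    ξ.comp (((a ^ i)⁻¹ : MulAut N).toMonoidHom.comp (Subgroup.subtype ⊤))
  have hinj : Set.InjOn ψ (Finset.range ℓ : Set ℕ) := by
    intro i hi j hj hij
    by_contra hne'
    have hmem : a ^ i * (a ^ j)⁻¹ ∈ S := inv_mem_iff.1 fun y => by
      have e := DFunLike.congr_fun hij ⟨(a ^ j) y, Subgroup.mem_top _⟩
      change ξ ((a ^ i)⁻¹ ((a ^ j) y)) = ξ ((a ^ j)⁻¹ ((a ^ j) y)) at e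
      rw [MulAut.inv_apply_self] at e
      rw [mul_inv_rev, inv_inv, ← zpow_natCast, ← zpow_natCast, ← zpow_neg, ← zpow_add, add_comm,
        zpow_add, zpow_neg, zpow_natCast, zpow_natCast, MulAut.mul_apply]
      exact e
    refine haS (Subgroup.zpowers_le.2 hmem (mem_zpowers_symm (by rw [hord]; exact hℓ) ?_ ?_))
    · intro h
      exact hne' (pow_injOn_Iio_orderOf (by simpa [hord] using hi) (by simpa [hord] using hj)
        (mul_inv_eq_one.1 h))
    · exact mul_mem (pow_mem (Subgroup.mem_zpowers a) i)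
        (inv_mem (pow_mem (Subgroup.mem_zpowers a) j))
  let u : ((⊤ : Subgroup N) →* kˣ) → W := fun φ =>
    ∑ i ∈ (Finset.range ℓ).filter (fun i => ψ i = φ), (α ^ i) v
  have h0 := eigen_indep ρ (⊤ : Subgroup N) ((Finset.range ℓ).image ψ) u (fun φ _ y => by
      simp only [u, map_sum, Finset.smul_sum]
      refine Finset.sum_congr rfl fun i hi => ?_
      rw [← (Finset.mem_filter.1 hi).2]
      have e := hcompi i ((a ^ i)⁻¹ (y : N)) v
      rw [MulAut.apply_inv_self, hξ, map_smul] at e
      exact e.symm)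
    (by
      simp only [u]
      rw [Finset.sum_fiberwise_of_maps_to fun i hi => Finset.mem_image_of_mem ψ hi,
        ← LinearMap.sum_apply, hsum, LinearMap.zero_apply])
    (ψ 0) (Finset.mem_image_of_mem ψ (Finset.mem_range.2 hℓ.pos))
  simp only [u] at h0
  rw [show (Finset.range ℓ).filter (fun i => ψ i = ψ 0) = {0} from
    Finset.eq_singleton_iff_unique_mem.2 ⟨Finset.mem_filter.2 ⟨Finset.mem_range.2 hℓ.pos, rfl⟩,
      fun i hi => hinj (Finset.mem_filter.1 hi).1 (Finset.mem_range.2 hℓ.pos)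
        (Finset.mem_filter.1 hi).2⟩, Finset.sum_singleton, pow_zero] at h0
  exact hv h0

end Abelian

/-! ### Compatible representations -/

section Rep

variable {A : Type*} [Group A] [Fintype A] {p q : ℕ} (F : Frame A p q)
variable {G : Type u} [Group G] [Finite G] [MulDistribMulAction A G]
variable {k : Type*} [Field k] [IsAlgClosed k]
variable {W : Type*} [AddCommGroup W] [Module k W] [FiniteDimensional k W]
variable (ρ : G →* Module.End k W) (α : A →* Module.End k W)
variable (hcompat : ∀ (b : A) (g : G) (v : W), α b (ρ g v) = ρ (b • g) (α b v))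
variable (hsum : ∀ v : W, ∑ b : A, α b v = 0)
variable (hfix : Fpf F G) (hcop : (Nat.card G).Coprime (p * q))

omit [Fintype A] [IsAlgClosed k] [FiniteDimensional k W] in
theorem alpha_comp (a b : A) (v : W) : α a (α b v) = α (a * b) v := by
  rw [map_mul]; rfl

include hcompat in
omit [Fintype A] [Finite G] [IsAlgClosed k] [FiniteDimensional k W] in
theorem eigen_alpha (M : Subgroup G) (hM : ∀ (b : A), ∀ m ∈ M, b • m ∈ M)
    {χ : M →* kˣ} {v : W} (h : ∀ m : M, ρ (m : G) v = (χ m : k) • v) (b : A) (m : M) :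
    ρ (m : G) (α b v) = (aact M hM b χ m : k) • α b v := by
  have e := hcompat b (b⁻¹ • (m : G)) v
  rw [smul_inv_smul] at e
  rw [← e, h ⟨_, hM _ _ m.2⟩, map_smul, aact_apply]

include hcompat in
omit [Fintype A] [Finite G] [IsAlgClosed k] [FiniteDimensional k W] in
theorem weight_aact (M : Subgroup G) (hM : ∀ (b : A), ∀ m ∈ M, b • m ∈ M)
    {χ : M →* kˣ} (h : IsWeight ρ M χ) (b : A) : IsWeight ρ M (aact M hM b χ) := by
  obtain ⟨v, hv, hχ⟩ := h
  refine ⟨α b v, fun h0 => hv ?_, eigen_alpha ρ α hcompat M hM hχ b⟩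
  have := congrArg (α b⁻¹) h0
  rwa [alpha_comp, inv_mul_cancel, map_one, Module.End.one_apply, map_zero] at this

include hcompat hsum in
omit [Finite G] [IsAlgClosed k] [FiniteDimensional k W] in
/-- the stabiliser of a weight has no fixed vectors in its eigenspace -/
theorem sum_stabA (M : Subgroup G) (hM : ∀ (b : A), ∀ m ∈ M, b • m ∈ M)
    {χ : M →* kˣ} {v : W} (hχ : ∀ m : M, ρ (m : G) v = (χ m : k) • v) :
    ∑ b ∈ Finset.univ.filter (fun b => b ∈ stabA M hM χ), α b v = 0 := by
  let u : (M →* kˣ) → W := fun φ =>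
    ∑ b ∈ Finset.univ.filter (fun b : A => aact M hM b χ = φ), α b v
  have h0 := eigen_indep ρ M (Finset.univ.image fun b : A => aact M hM b χ) u (fun φ _ m => by
      simp only [u, map_sum, Finset.smul_sum]
      refine Finset.sum_congr rfl fun b hb => ?_
      rw [← (Finset.mem_filter.1 hb).2]
      exact eigen_alpha ρ α hcompat M hM hχ b m)
    (by
      simp only [u]
      rw [Finset.sum_fiberwise_of_maps_to (g := fun b : A => aact M hM b χ)
        fun b hb => Finset.mem_image_of_mem _ hb]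
      exact hsum v)
    χ (Finset.mem_image.2 ⟨1, Finset.mem_univ _, aact_one M hM χ⟩)
  exact h0

include hcompat hsum in
omit [Finite G] [IsAlgClosed k] [FiniteDimensional k W] in
theorem exists_stab (M : Subgroup G) (hM : ∀ (b : A), ∀ m ∈ M, b • m ∈ M)
    {χ : M →* kˣ} (h : IsWeight ρ M χ) : ∃ b : A, b ≠ 1 ∧ aact M hM b χ = χ := by
  obtain ⟨v, hv, hχ⟩ := h
  by_contra hc
  push Not at hc
  have h0 := sum_stabA ρ α hcompat hsum M hM hχ
  rw [show Finset.univ.filter (fun b => b ∈ stabA M hM χ) = {1} from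
    Finset.eq_singleton_iff_unique_mem.2 ⟨Finset.mem_filter.2 ⟨Finset.mem_univ _, one_mem _⟩,
      fun b hb => by_contra fun hb1 => hc b hb1 (Finset.mem_filter.1 hb).2⟩,
    Finset.sum_singleton, map_one, Module.End.one_apply] at h0
  exact hv h0

include hcompat hsum hfix hcop in
omit [IsAlgClosed k] [FiniteDimensional k W] in
/-- an element of `A` fixing a weight fixes its whole orbit -/
theorem exclusive (M : Subgroup G) [M.Normal] (hM : ∀ (b : A), ∀ m ∈ M, b • m ∈ M)
    (hcomm : ∀ x ∈ M, ∀ y ∈ M, x * y = y * x) {χ : M →* kˣ} (hχ : IsWeight ρ M χ)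
    {b : A} (hb : b ≠ 1) (hfb : aact M hM b χ = χ) (g : G) :
    aact M hM b (gact g χ) = gact g χ := by
  haveI := F.finite
  by_cases hne : χ = 1
  · subst hne
    exact aact_oneChar M hM b
  obtain ⟨c, hc, hfc⟩ := exists_stab ρ α hcompat hsum M hM (weight_gact ρ hχ g)
  by_cases hcb : c ∈ Subgroup.zpowers b
  · exact Subgroup.zpowers_le.2 ((mem_stabA M hM).2 hfc)
      (mem_zpowers_symm (F.prime_orderOf hb) hc hcb)
  let H : Subgroup A :=
    { carrier := {c | ∃ h, aact M hM c χ = gact h χ}
      mul_mem' := fun {c d} hc hd => by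
        obtain ⟨h1, e1⟩ := hc
        obtain ⟨h2, e2⟩ := hd
        exact ⟨c • h2 * h1, by rw [aact_mul, e2, aact_gact, e1, gact_mul']⟩
      one_mem' := ⟨1, by rw [aact_one, gact_one']⟩
      inv_mem' := fun {c} hc => by
        obtain ⟨h, e⟩ := hc
        refine ⟨c⁻¹ • h⁻¹, ?_⟩
        have e2 := congrArg (fun ψ => aact M hM c⁻¹ (gact h⁻¹ ψ)) e
        simp only [← gact_mul', inv_mul_cancel, gact_one'] at e2
        rw [aact_gact, ← aact_mul, inv_mul_cancel, aact_one] at e2
        exact e2.symm }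
  have hbH : b ∈ H := ⟨1, by rw [hfb, gact_one']⟩
  have hcH : c ∈ H := by
    refine ⟨(c • g)⁻¹ * g, ?_⟩
    rw [gact_mul']
    conv_rhs => rw [← hfc, aact_gact, ← gact_mul', inv_mul_cancel, gact_one']
  have htop := F.eq_top hbH hcH hb hcb
  letI : MulAction A (M →* kˣ) :=
    { smul := aact M hM, one_smul := aact_one M hM, mul_smul := aact_mul M hM }
  obtain ⟨h, hh⟩ := exists_fixed_in_orbit F (fun (g : G) (φ : M →* kˣ) => gact g φ) gact_one'
    gact_mul' (fun c g φ => aact_gact M hM c g φ) hcop (x := χ)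
    (fun c => (htop ▸ Subgroup.mem_top c : c ∈ H))
  have h1 : gact h χ = 1 := eq_one_of_aact_fixed F M hM hcomm hfix hcop (hh F.σ) (hh F.a)
  refine absurd ?_ hne
  have h2 := congrArg (gact h⁻¹) h1
  rw [← gact_mul', inv_mul_cancel, gact_one'] at h2
  rw [h2]
  exact MonoidHom.ext fun _ => rfl

omit [Fintype A] [Finite G] [MulDistribMulAction A G] in
include F in
/-- normalising the type of an element of `A` -/
theorem type_cases {b : A} (hb : b ≠ 1) (S : Subgroup A) (hbS : b ∈ S) :
    F.σ ∈ S ∨ ∃ u ∈ Subgroup.zpowers F.σ, u * F.a * u⁻¹ ∈ S := by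
  haveI := F.finite
  rcases F.cls b hb with h | ⟨u, hu, h⟩
  · exact Or.inl (Subgroup.zpowers_le.2 hbS (mem_zpowers_symm (by rw [F.ordσ]; exact F.hq) hb h))
  · refine Or.inr ⟨u, hu, Subgroup.zpowers_le.2 hbS (mem_zpowers_symm ?_ hb h)⟩
    exact F.prime_orderOf fun e => F.a_ne_one (conj_eq_one_iff.1 e)

include hcompat hsum hfix hcop in
omit [IsAlgClosed k] [FiniteDimensional k W] in
/-- weights of an abelian invariant normal subgroup are fixed by coprime invariant subgroups -/
theorem weight_fixed (M : Subgroup G) [M.Normal] (hM : ∀ (b : A), ∀ m ∈ M, b • m ∈ M)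
    (hcomm : ∀ x ∈ M, ∀ y ∈ M, x * y = y * x) (R : Subgroup G)
    (hR : ∀ (b : A), ∀ x ∈ R, b • x ∈ R) (hco : (Nat.card R).Coprime (Nat.card M))
    {χ : M →* kˣ} (hχ : IsWeight ρ M χ) {r : G} (hr : r ∈ R) : gact r χ = χ := by
  haveI := F.finite
  letI : Fintype (Subgroup.zpowers F.σ) := Fintype.ofFinite _
  obtain ⟨b, hb, hfb⟩ := exists_stab ρ α hcompat hsum M hM hχ
  have hMN : ∀ y : M →* kˣ, y ^ Nat.card M = 1 := fun y => MonoidHom.ext fun m => by
    rw [MonoidHom.pow_apply, ← map_pow, pow_card_eq_one', map_one, MonoidHom.one_apply]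
  rcases type_cases F hb (stabA M hM χ) hfb with hs | ⟨u, hu, ht⟩
  · -- fixed by the normal subgroup
    rw [mem_stabA] at hs
    have hex : ∀ g, aact M hM F.σ (gact g χ) = gact g χ :=
      exclusive F ρ α hcompat hsum hfix hcop M hM hcomm hχ F.σ_ne_one hs
    set S := stabChar χ ⊓ R with hS
    have hSs : ∀ x ∈ S, F.σ • x ∈ S := fun x hx => ⟨by
      show gact (F.σ • x) χ = χ
      conv_lhs => rw [← hs, ← aact_gact, show gact x χ = χ from hx.1, hs], hR _ _ hx.2⟩
    have hg : r⁻¹ * F.σ • r ∈ S := by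
      refine Subgroup.mem_inf.2 ⟨?_, mul_mem (inv_mem hr) (hR _ _ hr)⟩
      show gact _ χ = χ
      have e : gact (F.σ • r) χ = gact r χ := by
        conv_lhs => rw [← hs, ← aact_gact, hex r]
      rw [gact_mul', e, ← gact_mul', inv_mul_cancel, gact_one']
    obtain ⟨x, hxS, hx⟩ := exists_fixed_in_coset F hcop S hSs hg
    set c := r * x with hc
    suffices hcS : gact c χ = χ by
      rw [hc, gact_mul', show gact x χ = χ from hxS.1] at hcS
      exact hcS
    letI : CommGroup M :=
      { (inferInstance : Group M) with mul_comm := fun x y => Subtype.ext (hcomm x x.2 y y.2) }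
    let φ : M →* M :=
      { toFun := fun m => ⟨F.σ • (m : G), hM _ _ m.2⟩
        map_one' := Subtype.ext (smul_one _)
        map_mul' := fun x y => Subtype.ext (smul_mul' _ _ _) }
    have hφ : ∀ (i : ℕ) (m : M), (((⇑φ)^[i] m : M) : G) = (fun y => F.σ • y)^[i] (m : G) :=
      fun i => by
        induction i with
        | zero => intro m; rfl
        | succ i ih => intro m; rw [Function.iterate_succ_apply', Function.iterate_succ_apply', ← ih]
                       rfl
    refine MonoidHom.ext fun m => ?_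
    set n := ∏ i ∈ Finset.range q, (⇑φ)^[i] m with hn
    have hnf : φ n = n := by
      rw [hn, map_prod]
      simp only [← Function.iterate_succ_apply' φ]
      have h1 := Finset.prod_range_succ' (fun i => (⇑φ)^[i] m) q
      have h2 := Finset.prod_range_succ (fun i => (⇑φ)^[i] m) q
      rw [show (⇑φ)^[q] m = m from Subtype.ext (by rw [hφ, smul_pow_q])] at h2
      rw [h2, Function.iterate_zero_apply] at h1
      exact (mul_right_cancel h1).symm
    have hval : ∀ θ : M →* kˣ, aact M hM F.σ θ = θ → θ n = θ m ^ q := by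
      intro θ hθ
      rw [hn, map_prod, Finset.prod_eq_pow_card (b := θ m), Finset.card_range]
      intro i hi
      clear hi
      induction i with
      | zero => rfl
      | succ i ih =>
        rw [Function.iterate_succ_apply']
        conv_lhs => rw [← hθ]
        exact (aact_smul M hM F.σ θ _).trans ih
    have hcn : Commute c (n : G) := commute_fixed F hfix hx (congrArg Subtype.val hnf) (by
      refine (hco.coprime_dvd_left ?_).coprime_dvd_right (by
        rw [Subgroup.orderOf_coe]; exact orderOf_dvd_natCard n)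
      rw [← Subgroup.orderOf_mk c (mul_mem hr hxS.2)]
      exact orderOf_dvd_natCard _)
    have hcfix : aact M hM F.σ (gact c χ) = gact c χ := hex c
    have e := hval _ hcfix
    rw [gact_apply] at e
    have e' : (⟨c⁻¹ * (n : G) * c, by
        simpa using ‹M.Normal›.conj_mem (n : G) n.2 c⁻¹⟩ : M) = n :=
      Subtype.ext (show c⁻¹ * (n : G) * c = n by rw [mul_assoc, ← hcn.eq, inv_mul_cancel_left])
    rw [e', hval χ hs] at e
    refine mul_inv_eq_one.1 (eq_of_coprime_pow (m := q) (n := Nat.card M) ?_ ?_ ?_)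
    · exact ((hcop.coprime_dvd_left M.card_subgroup_dvd_card).coprime_dvd_right
        (dvd_mul_left q p)).symm
    · rw [mul_pow, inv_pow, ← e, mul_inv_cancel]
    · rw [mul_pow, inv_pow, ← map_pow, ← map_pow, pow_card_eq_one', map_one, map_one, inv_one,
        mul_one]
  · -- fixed by a conjugate of `a`
    set ψ := aact M hM u⁻¹ χ with hψ
    have hψa : aact M hM F.a ψ = ψ := by
      rw [mem_stabA] at ht
      calc aact M hM F.a ψ = aact M hM u⁻¹ (aact M hM (u * F.a * u⁻¹) χ) := by
            rw [hψ, ← aact_mul, ← aact_mul]; congr 1; group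
        _ = ψ := by rw [ht]
    suffices hmain : ∀ s ∈ R, gact s ψ = ψ by
      have h := congrArg (aact M hM u) (hmain _ (hR u⁻¹ r hr))
      rwa [aact_gact, smul_inv_smul, hψ, ← aact_mul, mul_inv_cancel, aact_one] at h
    intro s hs
    have hψw : IsWeight ρ M ψ := weight_aact ρ α hcompat M hM hχ _
    have hfin := fixed_family F hfix hcop R hR ((charAct M).comp R.subtype)
      (fun v => aact M hM (v : A) ψ)
      (fun v => Set.range fun t : R => gact (t : G) (aact M hM (v : A) ψ))
      (fun v => ⟨1, by simp [gact_one']⟩)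
      (fun v t _ ⟨t', ht'⟩ => ⟨t * t', by
        show gact ((t : G) * t') _ = _
        rw [gact_mul', show gact (t' : G) (aact M hM (v : A) ψ) = _ from ht']
        rfl⟩)
      (fun v t _ ⟨t', ht'⟩ => by
        have hbv : (v : A) * F.a * (v : A)⁻¹ ≠ 1 := fun e => F.a_ne_one (conj_eq_one_iff.1 e)
        have hfv : aact M hM ((v : A) * F.a * (v : A)⁻¹) (aact M hM (v : A) ψ) =
            aact M hM (v : A) ψ := by
          rw [← aact_mul, inv_mul_cancel_right, aact_mul, hψa]
        have hexv := exclusive F ρ α hcompat hsum hfix hcop M hM hcomm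
          (weight_aact ρ α hcompat M hM hψw v) hbv hfv
        subst ht'
        show gact (((v : A) * F.a * (v : A)⁻¹) • (t : G)) (gact (t' : G) _) = gact (t : G) _
        have e := hexv ((t : G) * t')
        rw [gact_mul', aact_gact, hexv] at e
        exact e)
      (prod_aact_eq_one F M hM hcomm hfix hcop hψa) hMN hco 1 ⟨s, hs⟩
    simpa [aact_one, charAct_apply] using hfin

include hcompat hsum hfix hcop in
/-- invariant coprime subgroups centralise invariant normal abelian subgroups -/
theorem commute_abelian (hinj : Function.Injective ρ) (M : Subgroup G) [M.Normal]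
    (hM : ∀ (b : A), ∀ m ∈ M, b • m ∈ M) (hcomm : ∀ x ∈ M, ∀ y ∈ M, x * y = y * x)
    (hk : (Nat.card M : k) ≠ 0) (R : Subgroup G) (hR : ∀ (b : A), ∀ x ∈ R, b • x ∈ R)
    (hco : (Nat.card R).Coprime (Nat.card M)) {r m : G} (hr : r ∈ R) (hm : m ∈ M) :
    Commute r m := by
  by_contra hne
  have hg : r⁻¹ * m * r ∈ M := by simpa using ‹M.Normal›.conj_mem m hm r⁻¹
  set x : M := ⟨r⁻¹ * m * r, hg⟩ * ⟨m, hm⟩⁻¹ with hx
  have hx1 : ρ (x : G) ≠ 1 := fun e => hne (by
    have h1 : r⁻¹ * m * r * m⁻¹ = 1 := hinj (e.trans (map_one ρ).symm)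
    rw [mul_inv_eq_one, mul_assoc, inv_mul_eq_iff_eq_mul] at h1
    exact h1.symm)
  obtain ⟨χ, hχ, hne'⟩ := exists_weight_ne ρ M hcomm hk x hx1
  refine hne' ?_
  have h2 := DFunLike.congr_fun
    (weight_fixed F ρ α hcompat hsum hfix hcop M hM hcomm R hR hco hχ hr) ⟨m, hm⟩
  rw [gact_apply] at h2
  rw [hx, map_mul, map_inv, h2, mul_inv_cancel]

end Rep

end CfsgLib.FrobPQ
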