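import Mathlib
import Cfsg.Agent.Lib.CoreGaschutz

/-!
An abelian normal subgroup has a complement if it has one locally at every prime.
-/

set_option autoImplicit false

namespace CfsgLib.FgsGaschutzLocal

open Subgroup

variable {G : Type*} [Group G] [Finite G] (A : Subgroup G) [A.Normal] [IsMulCommutative A]

/-- Elements of `A` killed by `n`. -/
def torsion (n : ℕ) : Subgroup G where
  carrier := {a | a ∈ A ∧ a ^ n = 1}
  one_mem' := ⟨one_mem _, one_pow _⟩
  inv_mem' := fun {a} ha => ⟨inv_mem ha.1, by rw [inv_pow, ha.2, inv_one]⟩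
  mul_mem' := fun {a b} ha hb => ⟨mul_mem ha.1 hb.1, by
    have hc : Commute a b :=
      congrArg Subtype.val ((inferInstance : IsMulCommutative A).is_comm.comm
        (⟨a, ha.1⟩ : A) ⟨b, hb.1⟩)
    rw [hc.mul_pow, ha.2, hb.2, one_mul]⟩

instance torsion_normal (n : ℕ) : (torsion A n).Normal :=
  ⟨fun a ha g => ⟨‹A.Normal›.conj_mem a ha.1 g, by rw [conj_pow, ha.2, mul_one, mul_inv_cancel]⟩⟩

instance torsion_comm (n : ℕ) : IsMulCommutative (torsion A n) :=
  ⟨⟨fun x y => Subtype.ext (congrArg Subtype.val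
    ((inferInstance : IsMulCommutative A).is_comm.comm (⟨x, x.2.1⟩ : A) ⟨y, y.2.1⟩) :)⟩⟩

omit [A.Normal] in
theorem torsion_le (n : ℕ) : torsion A n ≤ A := fun _ h => h.1

omit [Finite G] [A.Normal] in
theorem torsion_inf {m n : ℕ} (h : m.Coprime n) : torsion A m ⊓ torsion A n = ⊥ := by
  rw [eq_bot_iff]
  rintro a ⟨⟨-, h1⟩, -, h2⟩
  rw [mem_bot, ← orderOf_eq_one_iff]
  exact Nat.eq_one_of_dvd_coprimes h (orderOf_dvd_of_pow_eq_one h1) (orderOf_dvd_of_pow_eq_one h2)

omit [A.Normal] in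
theorem prime_of_dvd_card_torsion {n q : ℕ} (hq : q.Prime) (h : q ∣ Nat.card (torsion A n)) :
    q ∣ n := by
  haveI := Fact.mk hq
  obtain ⟨⟨a, ha⟩, hao⟩ := exists_prime_orderOf_dvd_card' q h
  rw [Subgroup.orderOf_mk] at hao
  exact hao ▸ orderOf_dvd_of_pow_eq_one ha.2

theorem exists_complement_part {p : ℕ} (hp : p.Prime) {U K : Subgroup G} (hKA : K ⊓ A = ⊥)
    (hKU : K ⊔ A = U) (hU : ¬ p ∣ U.index) :
    ∃ H : Subgroup G, H.index = p ^ (Nat.card A).factorization p ∧
      ∀ x ∈ H, x ∈ A → ¬ p ∣ orderOf x := by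
  set v := (Nat.card A).factorization p
  set m := Nat.card A / p ^ v
  have hpm : ¬ p ∣ m := Nat.not_dvd_ordCompl hp Nat.card_pos.ne'
  have hcop : (p ^ v).Coprime m := ((hp.coprime_iff_not_dvd).2 hpm).pow_left v
  have hvm : p ^ v * m = Nat.card A := Nat.ordProj_mul_ordCompl_eq_self _ p
  set P := torsion A (p ^ v)
  set B := torsion A m
  have hsup : A ≤ P ⊔ B := by
    intro a ha
    obtain ⟨u, w, huw⟩ := Int.isCoprime_iff_gcd_eq_one.2
      (show Int.gcd (p ^ v : ℕ) (m : ℤ) = 1 by rw [Int.gcd_natCast_natCast]; exact hcop)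
    have hc : a ^ (Nat.card A) = 1 :=
      congrArg Subtype.val (pow_card_eq_one' : (⟨a, ha⟩ : A) ^ Nat.card A = 1)
    have e : a = (a ^ m) ^ w * (a ^ p ^ v) ^ u := by
      rw [← zpow_natCast a m, ← zpow_natCast a (p ^ v), ← zpow_mul, ← zpow_mul, ← zpow_add]
      conv_lhs => rw [← zpow_one a, ← huw]
      congr 1
      ring
    have h1 : a ^ m ∈ P := ⟨pow_mem ha _, by rw [← pow_mul, mul_comm, hvm, hc]⟩
    have h2 : a ^ p ^ v ∈ B := ⟨pow_mem ha _, by rw [← pow_mul, hvm, hc]⟩
    rw [e]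
    exact mul_mem (zpow_mem (mem_sup_left h1) _) (zpow_mem (mem_sup_right h2) _)
  have hPA : P ≤ A := torsion_le A _
  have hBA : B ≤ A := torsion_le A _
  -- exact order of `P`
  have hPcard : Nat.card P = p ^ v := by
    have hPB : Nat.card A = Nat.card P * Nat.card B := by
      have h1 : IsComplement' (P.subgroupOf A) (B.subgroupOf A) := by
        refine isComplement'_of_disjoint_and_mul_eq_univ ?_ ?_
        · rw [disjoint_iff_inf_le]
          intro x hx
          have : (x : G) ∈ P ⊓ B := ⟨hx.1, hx.2⟩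
          rw [torsion_inf A hcop, mem_bot] at this
          exact Subtype.ext this
        · refine Set.eq_univ_of_forall fun x => ?_
          obtain ⟨a, ha, b, hb, he⟩ := (Subgroup.mem_sup_of_normal_left).1 (hsup x.2)
          exact ⟨⟨a, hPA ha⟩, ha, ⟨b, hBA hb⟩, hb, Subtype.ext he⟩
      have h2 := h1.card_mul
      rw [Nat.card_congr (subgroupOfEquivOfLe hPA).toEquiv,
        Nat.card_congr (subgroupOfEquivOfLe hBA).toEquiv] at h2
      exact h2.symm
    haveI := Fact.mk hp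
    obtain ⟨k, hk⟩ : ∃ k, Nat.card P = p ^ k := by
      have hP : IsPGroup p P := fun x => ⟨v, Subtype.ext x.2.2⟩
      exact hP.exists_card_eq
    have hB : ¬ p ∣ Nat.card B := fun h => hpm (prime_of_dvd_card_torsion A hp h)
    have := congrArg (fun n => n.factorization p) hPB
    simp only [Nat.factorization_mul Nat.card_pos.ne' Nat.card_pos.ne', Finsupp.add_apply,
      Nat.factorization_eq_zero_of_not_dvd hB, add_zero] at this
    rw [hk, hp.factorization_pow, Finsupp.single_eq_same] at this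
    rw [hk]
    congr 1
    exact this.symm
  have hAU : A ≤ U := le_sup_right.trans hKU.le
  have hle : P ⊔ (B ⊔ K) = U := by
    apply le_antisymm
    · exact sup_le (hPA.trans hAU) (sup_le (hBA.trans hAU) (le_sup_left.trans hKU.le))
    · rw [← hKU]
      exact sup_le (le_sup_right.trans le_sup_right)
        (hsup.trans (sup_le le_sup_left (le_sup_left.trans le_sup_right)))
  have hinf : (B ⊔ K) ⊓ P = ⊥ := by
    rw [eq_bot_iff]
    rintro x ⟨hx, hxP⟩
    obtain ⟨b, hb, k, hk, rfl⟩ := Subgroup.mem_sup_of_normal_left.1 hx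
    have hkA : k ∈ K ⊓ A := ⟨hk, by
      have := mul_mem (inv_mem (hBA hb)) (hPA hxP)
      rwa [inv_mul_cancel_left] at this⟩
    rw [hKA, mem_bot] at hkA
    subst hkA
    rw [mul_one] at hxP ⊢
    have : b ∈ P ⊓ B := ⟨hxP, hb⟩
    rwa [torsion_inf A hcop] at this
  obtain ⟨H, hH⟩ := CfsgLib.Core.gaschutz_exists (K := P) (U := U) (hPA.trans hAU)
    (by rw [hPcard]; exact ((hp.coprime_iff_not_dvd).2 hU).pow_left v)
    (A := B ⊔ K) (le_sup_right.trans hle.le) hinf hle
  refine ⟨H, by rw [hH.index_eq_card, hPcard], fun x hx hxA hdvd => ?_⟩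
  have hxn : x ^ (orderOf x / p) ∈ P ⊓ H := by
    refine ⟨⟨pow_mem hxA _, ?_⟩, pow_mem hx _⟩
    rw [← pow_mul, ← orderOf_dvd_iff_pow_eq_one]
    have hv : 1 ≤ v := by
      refine (hp.dvd_iff_one_le_factorization Nat.card_pos.ne').1 (hdvd.trans ?_)
      exact (Subgroup.orderOf_mk x hxA) ▸ orderOf_dvd_natCard _
    calc orderOf x = orderOf x / p * p := (Nat.div_mul_cancel hdvd).symm
      _ ∣ orderOf x / p * p ^ v := mul_dvd_mul_left _ (dvd_pow_self p (by omega))
  rw [hH.disjoint.eq_bot, mem_bot] at hxn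
  have h0 : 0 < orderOf x := orderOf_pos x
  exact pow_ne_one_of_lt_orderOf (Nat.div_pos (Nat.le_of_dvd h0 hdvd) hp.pos).ne'
    (Nat.div_lt_self h0 hp.one_lt) hxn

theorem exists_complement
    (h : ∀ p : ℕ, p.Prime → p ∣ A.index → ∃ (S : Sylow p (G ⧸ A)) (K : Subgroup G),
      K ⊓ A = ⊥ ∧ K ⊔ A = (S : Subgroup (G ⧸ A)).comap (QuotientGroup.mk' A)) :
    ∃ K : Subgroup G, K.IsComplement' A := by
  classical
  have hloc : ∀ p : (Nat.card A).primeFactors, ∃ H : Subgroup G,
      H.index = (p : ℕ) ^ (Nat.card A).factorization p ∧ ∀ x ∈ H, x ∈ A → ¬ (p : ℕ) ∣ orderOf x := by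
    intro p
    have hp := Nat.prime_of_mem_primeFactors p.2
    by_cases hd : (p : ℕ) ∣ A.index
    · haveI := Fact.mk hp
      obtain ⟨S, K, h1, h2⟩ := h p hp hd
      refine exists_complement_part A hp h1 h2 ?_
      rw [Subgroup.index_comap_of_surjective _ (QuotientGroup.mk'_surjective A)]
      exact S.not_dvd_index
    · exact exists_complement_part A hp (K := ⊥) (U := A) (bot_inf_eq A) (bot_sup_eq A) hd
  choose H hHi hHA using hloc
  refine ⟨⨅ p, H p, ?_⟩
  have hinf : Disjoint (⨅ p, H p) A := by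
    rw [disjoint_iff_inf_le]
    rintro x ⟨hx, hxA⟩
    rw [mem_bot, ← orderOf_eq_one_iff]
    by_contra hne
    obtain ⟨q, hq, hqd⟩ := Nat.exists_prime_and_dvd hne
    have hqA : q ∣ Nat.card A :=
      hqd.trans ((Subgroup.orderOf_mk x hxA) ▸ orderOf_dvd_natCard _)
    exact hHA ⟨q, Nat.mem_primeFactors.2 ⟨hq, hqA, Nat.card_pos.ne'⟩⟩ x
      (Subgroup.mem_iInf.1 hx _) hxA hqd
  refine isComplement'_of_card_mul_and_disjoint ?_ hinf
  refine le_antisymm ?_ ?_
  · rw [← Nat.card_prod]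
    exact Nat.card_le_card_of_injective _ (Subgroup.mul_injective_of_disjoint hinf)
  · have h1 := Subgroup.index_iInf_le H
    rw [Finset.prod_congr rfl (fun p _ => hHi p), Finset.univ_eq_attach,
      Finset.prod_attach (Nat.card A).primeFactors (fun p => p ^ (Nat.card A).factorization p)] at h1
    have h2 : ∏ p ∈ (Nat.card A).primeFactors, p ^ (Nat.card A).factorization p = Nat.card A :=
      Nat.factorization_prod_pow_eq_self Nat.card_pos.ne'
    rw [h2] at h1
    rw [← (⨅ p, H p).card_mul_index]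
    exact Nat.mul_le_mul_left _ h1

end CfsgLib.FgsGaschutzLocal
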