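import Cfsg.Agent.Lib.CoreHall
import Cfsg.Agent.Lib.CoreFitting
import Mathlib.GroupTheory.GroupAction.Quotient

/-!
P. Hall's theorem on the number of Hall subgroups of a soluble group.
-/

set_option autoImplicit false

universe u

namespace CfsgLib.HallNumber

open Subgroup
open scoped Pointwise
open CfsgLib.Core (IsPiNat)

variable {G : Type u} [Group G] [Finite G]

theorem decomp {q : ℕ} (hq : q.Prime) : ∀ (c : ℕ) (W H : Subgroup G), Nat.card W = c →
    IsPGroup q W → H ≤ Subgroup.normalizer (W : Set G) → ¬ q ∣ Nat.card H → Group.IsSolvable H →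
    ∃ l : List ℕ, (W ⊓ Subgroup.centralizer (H : Set G)).relIndex W = l.prod ∧
      ∀ f ∈ l, (∃ e, f = q ^ e) ∧ f ∣ Nat.card W ∧ ∃ r, r.Prime ∧ r ∣ Nat.card H ∧ f ≡ 1 [MOD r] := by
  intro c
  induction c using Nat.strong_induction_on with
  | _ c ih =>
  intro W H hc hW hn hqH hsol
  haveI := hsol
  by_cases hcen : W ≤ Subgroup.centralizer (H : Set G)
  · exact ⟨[], by rw [inf_of_le_left hcen, Subgroup.relIndex_self, List.prod_nil], by simp⟩
  let φ : H →* MulAut W := W.normalizerMonoidHom.comp (Subgroup.inclusion hn)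
  have hφ : ∀ (h : H) (w : W), ((φ h w : W) : G) = (h : G) * w * (h : G)⁻¹ := fun h w => rfl
  haveI : Group.IsSolvable φ.range := Group.isSolvable_of_surjective φ.rangeRestrict_surjective
  haveI : Nontrivial φ.range := by
    rw [Subgroup.nontrivial_iff_ne_bot, Ne, MonoidHom.range_eq_bot_iff]
    intro h1
    refine hcen fun w hw => Subgroup.mem_centralizer_iff.2 fun h hh => ?_
    have h3 : φ ⟨h, hh⟩ ⟨w, hw⟩ = ⟨w, hw⟩ := by rw [h1]; rfl
    have h4 : h * w * h⁻¹ = w := (hφ ⟨h, hh⟩ ⟨w, hw⟩).symm.trans (congrArg Subtype.val h3)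
    exact mul_inv_eq_iff_eq_mul.1 h4
  obtain ⟨r, hr, hcore⟩ := CfsgLib.Core.exists_pCore_ne_bot (G := φ.range)
  haveI := Fact.mk hr
  haveI := CfsgLib.Core.normal_pCore (G := φ.range) r
  set R0 := (Cfsg.pCore r φ.range).comap φ.rangeRestrict with hR0
  haveI hR0n : R0.Normal := Subgroup.Normal.comap inferInstance _
  let ψ : R0 →* Cfsg.pCore r φ.range :=
    (φ.rangeRestrict.comp R0.subtype).codRestrict _ fun x => x.2
  have hψ : Function.Surjective ψ := by
    rintro ⟨y, hy⟩
    obtain ⟨x, rfl⟩ := φ.rangeRestrict_surjective y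
    exact ⟨⟨x, hy⟩, rfl⟩
  let S : Sylow r R0 := Classical.arbitrary _
  have hSmap : (S : Subgroup R0).map ψ = ⊤ := by
    obtain ⟨a, ha⟩ := IsPGroup.iff_card.mp (CfsgLib.Core.isPGroup_pCore (G := φ.range) r)
    have h1 : ((S : Subgroup R0).map ψ).index ∣ r ^ a := ha ▸ Subgroup.index_dvd_card _
    have h2 : ((S : Subgroup R0).map ψ).index ∣ (S : Subgroup R0).index := Subgroup.index_map_dvd _ hψ
    rw [← Subgroup.index_eq_one]
    exact Nat.eq_one_of_dvd_coprimes
      (((hr.coprime_iff_not_dvd.2 S.not_dvd_index)).pow_left a) h1 h2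
  set W1 := W ⊓ Subgroup.centralizer ((R0.map H.subtype : Subgroup G) : Set G) with hW1
  have hW1W : W1 ≤ W := inf_le_left
  -- invariance
  have hn1 : H ≤ Subgroup.normalizer (W1 : Set G) := by
    have key : ∀ h ∈ H, ∀ w ∈ W1, h * w * h⁻¹ ∈ W1 := by
      intro h hh w hw
      refine Subgroup.mem_inf.2 ⟨(Subgroup.mem_normalizer_iff.1 (hn hh) w).1 hw.1, ?_⟩
      rw [Subgroup.mem_centralizer_iff]
      rintro _ ⟨x, hx, rfl⟩
      have h1 : (h⁻¹ * (x : G) * h) * w = w * (h⁻¹ * (x : G) * h) :=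
        Subgroup.mem_centralizer_iff.1 hw.2 _
          ⟨_, hR0n.conj_mem x hx ⟨h⁻¹, inv_mem hh⟩, by simp⟩
      show (x : G) * (h * w * h⁻¹) = h * w * h⁻¹ * x
      calc (x : G) * (h * w * h⁻¹) = h * ((h⁻¹ * x * h) * w) * h⁻¹ := by group
        _ = h * (w * (h⁻¹ * x * h)) * h⁻¹ := by rw [h1]
        _ = h * w * h⁻¹ * x := by group
    intro h hh
    rw [Subgroup.mem_normalizer_iff]
    refine fun w => ⟨fun hw => key h hh w hw, fun hw => ?_⟩
    have := key h⁻¹ (inv_mem hh) _ hw
    simpa [mul_assoc] using this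
  -- congruence
  letI act : MulAction (S : Subgroup R0) W :=
    MulAction.compHom W (φ.comp (R0.subtype.comp (S : Subgroup R0).subtype))
  have hfix : Nat.card (MulAction.fixedPoints (S : Subgroup R0) W) = Nat.card W1 := by
    refine Nat.card_congr
      { toFun := fun w => ⟨(w : W), Subgroup.mem_inf.2 ⟨(w : W).2, Subgroup.mem_centralizer_iff.2 ?_⟩⟩
        invFun := fun w => ⟨⟨w, hW1W w.2⟩, fun s => Subtype.ext ?_⟩
        left_inv := fun w => rfl
        right_inv := fun w => rfl }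
    · rintro _ ⟨x, hx, rfl⟩
      obtain ⟨s, hs, hsx⟩ : (ψ ⟨x, hx⟩) ∈ (S : Subgroup R0).map ψ := by rw [hSmap]; trivial
      have h1 : φ (s : H) = φ x :=
        congrArg Subtype.val (congrArg Subtype.val hsx : φ.rangeRestrict (s : H) = φ.rangeRestrict x)
      have h2 : φ x (w : W) = (w : W) := by rw [← h1]; exact w.2 ⟨s, hs⟩
      have h3 : (x : G) * (w : W) * (x : G)⁻¹ = ((w : W) : G) :=
        (hφ x w).symm.trans (congrArg Subtype.val h2)
      exact mul_inv_eq_iff_eq_mul.1 h3
    · show ((φ ((s : R0) : H) ⟨(w : G), hW1W w.2⟩ : W) : G) = w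
      rw [hφ]
      have := Subgroup.mem_centralizer_iff.1 (Subgroup.mem_inf.1 w.2).2 _
        ⟨((s : R0) : H), (s : R0).2, rfl⟩
      exact mul_inv_eq_iff_eq_mul.2 this
  have hmod : Nat.card W ≡ Nat.card W1 [MOD r] := hfix ▸ S.2.card_modEq_card_fixedPoints W
  haveI := Fact.mk hq
  obtain ⟨a, ha⟩ := IsPGroup.iff_card.mp hW
  obtain ⟨b, hba, hb⟩ := (Nat.dvd_prime_pow hq).1 (ha ▸ Subgroup.card_dvd_of_le hW1W)
  have hrel : W1.relIndex W = q ^ (a - b) := by
    have h := CfsgLib.Core.card_mul_relIndex hW1W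
    rw [hb, ha, ← Nat.add_sub_cancel' hba, pow_add] at h
    simpa using Nat.eq_of_mul_eq_mul_left (pow_pos hq.pos b) h
  have hrH : r ∣ Nat.card H := by
    obtain ⟨k, hk⟩ := IsPGroup.iff_card.mp (CfsgLib.Core.isPGroup_pCore (G := φ.range) r)
    have hk0 : k ≠ 0 := fun h => hcore (Subgroup.card_eq_one.1 (by rw [hk, h, pow_zero]))
    exact ((dvd_pow_self r hk0).trans (hk ▸ Subgroup.card_subgroup_dvd_card _)).trans
      (Subgroup.card_range_dvd φ)
  have hqr : q.Coprime r := (Nat.coprime_primes hq hr).2 fun h => hqH (h ▸ hrH)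
  have hf : W1.relIndex W ≡ 1 [MOD r] := by
    refine Nat.ModEq.cancel_left_of_coprime (c := Nat.card W1) ?_ ?_
    · rw [hb]; exact (hqr.pow_left b).symm
    · rw [CfsgLib.Core.card_mul_relIndex hW1W, mul_one]; exact hmod
  have hlt : Nat.card W1 < c := by
    rw [← hc]
    refine lt_of_le_of_ne (Nat.le_of_dvd Nat.card_pos (Subgroup.card_dvd_of_le hW1W)) fun h => hcore ?_
    have hWle : W ≤ W1 := (CfsgLib.Core.eq_of_le_of_card_le hW1W h.ge).ge
    refine (Subgroup.eq_bot_iff_forall _).2 fun y hy => ?_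
    obtain ⟨x, rfl⟩ := φ.rangeRestrict_surjective y
    refine Subtype.ext (MulEquiv.ext fun w => Subtype.ext ?_)
    show ((φ x w : W) : G) = w
    rw [hφ]
    exact mul_inv_eq_iff_eq_mul.2 (Subgroup.mem_centralizer_iff.1
      (Subgroup.mem_inf.1 (hWle w.2)).2 _ ⟨x, hy, rfl⟩)
  obtain ⟨l, hl, hl'⟩ := ih _ hlt W1 H rfl (hW.to_le hW1W) hn1 hqH hsol
  have heq : W1 ⊓ Subgroup.centralizer (H : Set G) = W ⊓ Subgroup.centralizer (H : Set G) := by
    refine le_antisymm (inf_le_inf_right _ hW1W) (le_inf (le_inf inf_le_left ?_) inf_le_right)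
    exact inf_le_right.trans
      (Subgroup.centralizer_le (show ((R0.map H.subtype : Subgroup G) : Set G) ⊆ H from Subgroup.map_subtype_le R0))
  refine ⟨W1.relIndex W :: l, ?_, ?_⟩
  · rw [List.prod_cons, ← hl, mul_comm, ← heq, Subgroup.relIndex_mul_relIndex _ _ _ inf_le_left hW1W]
  · intro f hf'
    rcases List.mem_cons.1 hf' with rfl | h
    · refine ⟨⟨_, hrel⟩, ?_, r, hr, hrH, hf⟩
      exact ⟨Nat.card W1, by rw [mul_comm]; exact (CfsgLib.Core.card_mul_relIndex hW1W).symm⟩
    · obtain ⟨h1, h2, h3⟩ := hl' f h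
      exact ⟨h1, h2.trans (Subgroup.card_dvd_of_le hW1W), h3⟩

theorem isHall_of_card {m n : ℕ} (hG : Nat.card G = m * n) (hmn : m.Coprime n) {H : Subgroup G}
    (h : Nat.card H = m) : CfsgLib.Core.IsHall {q | q ∣ m} H := by
  have hi : H.index = n := by
    have h' := H.card_mul_index
    rw [h, hG] at h'
    have hm : 0 < m := h ▸ Nat.card_pos
    exact Nat.eq_of_mul_eq_mul_left hm h'
  refine ⟨fun q hq hd => h ▸ hd, fun q hq hd hqm => ?_⟩
  exact hq.ne_one (Nat.eq_one_of_dvd_coprimes hmn hqm (hi ▸ hd))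

theorem exists_card [Group.IsSolvable G] {m n : ℕ} (hG : Nat.card G = m * n) (hmn : m.Coprime n) :
    ∃ H : Subgroup G, Nat.card H = m := by
  obtain ⟨H, h1, h2⟩ := CfsgLib.Core.exists_isHall (G := G) {q | q ∣ m}
  refine ⟨H, ?_⟩
  have h := H.card_mul_index
  rw [hG] at h
  have c1 : (Nat.card H).Coprime n := Nat.coprime_of_dvd fun q hq hd hd' =>
    hq.ne_one (Nat.eq_one_of_dvd_coprimes hmn (h1 q hq hd) hd')
  have c2 : m.Coprime H.index := Nat.coprime_of_dvd fun q hq hd hd' => h2 q hq hd' hd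
  exact Nat.dvd_antisymm (c1.dvd_of_dvd_mul_right ⟨_, h.symm⟩)
    (c2.dvd_of_dvd_mul_right ⟨n, h⟩)

theorem conj_of_card [Group.IsSolvable G] {m n : ℕ} (hG : Nat.card G = m * n) (hmn : m.Coprime n)
    {H K : Subgroup G} (hH : Nat.card H = m) (hK : Nat.card K = m) :
    ∃ g : G, MulAut.conj g • H = K :=
  CfsgLib.Core.isHall_conj (isHall_of_card hG hmn hH) (isHall_of_card hG hmn hK)

/-- The condition on a factor. -/
def Good (G : Type u) [Group G] (m f : ℕ) : Prop :=
  (∃ q e : ℕ, q.Prime ∧ f = q ^ e) ∧ (∃ K L : Subgroup G, K.Normal ∧ L.Normal ∧ K < L ∧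
    (∀ M : Subgroup G, M.Normal → K ≤ M → M ≤ L → M = K ∨ M = L) ∧ f ∣ K.relIndex L) ∧
    (∃ q : ℕ, q.Prime ∧ q ∣ m ∧ f ≡ 1 [MOD q])

omit [Finite G] in
theorem good_lift {V : Subgroup G} [V.Normal] {m m' f : ℕ} (hm : m' ∣ m)
    (h : Good (G ⧸ V) m' f) : Good G m f := by
  obtain ⟨h1, ⟨K, L, hK, hL, hKL, hchief, hf⟩, q, hq, hqm, hmod⟩ := h
  set π := QuotientGroup.mk' V
  have hπ : Function.Surjective π := QuotientGroup.mk'_surjective V
  refine ⟨h1, ⟨K.comap π, L.comap π, hK.comap π, hL.comap π,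
    Subgroup.comap_lt_comap_of_surjective hπ |>.2 hKL, fun M hM hKM hML => ?_, ?_⟩,
    q, hq, hqm.trans hm, hmod⟩
  · have hker : π.ker ≤ M := (MonoidHom.ker_le_comap π K).trans hKM
    rw [← Subgroup.comap_map_eq_self hker]
    rcases hchief (M.map π) (hM.map π hπ)
      (by rw [← Subgroup.map_comap_eq_self_of_surjective hπ K]; exact Subgroup.map_mono hKM)
      (by rw [← Subgroup.map_comap_eq_self_of_surjective hπ L]; exact Subgroup.map_mono hML) with h | h
    · exact Or.inl (by rw [h])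
    · exact Or.inr (by rw [h])
  · rwa [Subgroup.relIndex_comap, Subgroup.map_comap_eq_self_of_surjective hπ]

theorem main : ∀ (c : ℕ) (G : Type u) [Group G] [Finite G] [Group.IsSolvable G] (m n : ℕ),
    Nat.card G = c → Nat.card G = m * n → m.Coprime n →
    ∃ l : List ℕ, Nat.card {H : Subgroup G // Nat.card H = m} = l.prod ∧ ∀ f ∈ l, Good G m f := by
  intro c
  induction c using Nat.strong_induction_on with
  | _ c ih =>
  intro G _ _ _ m n hc hG hmn
  rcases subsingleton_or_nontrivial G with hs | hs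
  · refine ⟨[], ?_, by simp⟩
    rw [List.prod_nil, Nat.card_eq_one_iff_unique]
    have hm : m = 1 := Nat.eq_one_of_mul_eq_one_right (hG.symm.trans (Nat.card_of_subsingleton (1 : G)))
    exact ⟨⟨fun a b => Subtype.ext (Subgroup.ext fun x => by
      rw [Subsingleton.elim x 1]; exact iff_of_true (one_mem _) (one_mem _))⟩,
      ⟨⟨⊥, by rw [Subgroup.card_bot, hm]⟩⟩⟩
  obtain ⟨V, hV, hV0, -, hmin⟩ :=
    CfsgLib.Core.exists_minimal_normal_le (N := (⊤ : Subgroup G)) top_ne_bot
  haveI := hV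
  obtain ⟨q, hq, hVq⟩ := CfsgLib.Core.exists_isPGroup_of_minimal_normal hV0 hmin
  haveI := Fact.mk hq
  set π := QuotientGroup.mk' V with hπd
  have hπ : Function.Surjective π := QuotientGroup.mk'_surjective V
  have hker : π.ker = V := QuotientGroup.ker_mk' V
  obtain ⟨a, ha⟩ := IsPGroup.iff_card.mp hVq
  have ha0 : a ≠ 0 := fun h => hV0 (Subgroup.card_eq_one.1 (by rw [ha, h, pow_zero]))
  have hQc : Nat.card (G ⧸ V) * q ^ a = m * n := by
    rw [← hG, ← ha, ← Subgroup.card_eq_card_quotient_mul_card_subgroup]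
  have hlt : Nat.card (G ⧸ V) < c := by
    rw [← hc, hG, ← hQc]
    exact (lt_mul_iff_one_lt_right Nat.card_pos).2 (Nat.one_lt_pow ha0 hq.one_lt)
  have hmap : ∀ H : Subgroup G, (H ⊔ V).map π = H.map π := fun H => by
    rw [Subgroup.map_sup, QuotientGroup.map_mk'_self, sup_bot_eq]
  by_cases hqm : q ∣ m
  · -- `V` lies in every Hall subgroup
    have hcn : (q ^ a).Coprime n := (hmn.coprime_dvd_left hqm).pow_left a
    obtain ⟨m', hm'⟩ : q ^ a ∣ m := hcn.dvd_of_dvd_mul_right ⟨Nat.card (G ⧸ V), by rw [← hQc, mul_comm]⟩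
    have hQc' : Nat.card (G ⧸ V) = m' * n := by
      refine Nat.eq_of_mul_eq_mul_left (pow_pos hq.pos a) ?_
      rw [mul_comm (q ^ a) (Nat.card _), hQc, hm', mul_assoc]
    obtain ⟨l, hl, hl'⟩ := ih _ hlt (G ⧸ V) m' n rfl hQc'
      (hmn.coprime_dvd_left ⟨q ^ a, by rw [hm', mul_comm]⟩)
    refine ⟨l, ?_, fun f hf => good_lift ⟨q ^ a, by rw [hm', mul_comm]⟩ (hl' f hf)⟩
    rw [← hl]
    have hVle : ∀ H : Subgroup G, Nat.card H = m → V ≤ H := by
      intro H hH
      obtain ⟨g, hg⟩ := CfsgLib.Core.exists_conj_le_isHall (U := V) (π := {r | r ∣ m})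
        (fun r hr hd => by
          rw [ha] at hd
          exact ((Nat.prime_dvd_prime_iff_eq hr hq).1 (hr.dvd_of_dvd_pow hd)).symm ▸ hqm)
        (isHall_of_card hG hmn hH)
      intro x hx
      refine hg ?_
      rw [CfsgLib.Core.mem_conj_smul]
      simpa using hV.conj_mem x hx g⁻¹
    refine Nat.card_congr
      { toFun := fun H => ⟨H.1.map π, ?_⟩
        invFun := fun X => ⟨X.1.comap π, ?_⟩
        left_inv := fun H => Subtype.ext (Subgroup.comap_map_eq_self (hker.le.trans (hVle _ H.2)))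
        right_inv := fun X => Subtype.ext (Subgroup.map_comap_eq_self_of_surjective hπ _) }
    · have h1 := CfsgLib.Core.card_mul_relIndex (hVle _ H.2)
      have h2 : V.relIndex H.1 = Nat.card (H.1.map π) := by
        rw [← Subgroup.relIndex_ker, hker]
      rw [h2, ha] at h1
      exact Nat.eq_of_mul_eq_mul_left (pow_pos hq.pos a) (h1.trans (H.2.trans hm'))
    · have hle : V ≤ X.1.comap π := hker.ge.trans (MonoidHom.ker_le_comap π X.1)
      have h1 := CfsgLib.Core.card_mul_relIndex hle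
      have h2 : V.relIndex (X.1.comap π) = Nat.card X.1 := by
        rw [show V.relIndex (X.1.comap π) = π.ker.relIndex (X.1.comap π) from
          congrArg (fun Z : Subgroup G => Z.relIndex (X.1.comap π)) hker.symm]
        rw [Subgroup.relIndex_ker, Subgroup.map_comap_eq_self_of_surjective hπ]
      rw [← h1, h2, ha, X.2, hm']
  · -- complements
    have hcm : (q ^ a).Coprime m := ((hq.coprime_iff_not_dvd).2 hqm).pow_left a
    obtain ⟨n', hn'⟩ : q ^ a ∣ n := hcm.dvd_of_dvd_mul_left ⟨Nat.card (G ⧸ V), by rw [← hQc, mul_comm]⟩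
    have hQc' : Nat.card (G ⧸ V) = m * n' := by
      refine Nat.eq_of_mul_eq_mul_left (pow_pos hq.pos a) ?_
      rw [mul_comm (q ^ a) (Nat.card _), hQc, hn']
      ring
    have hmn' : m.Coprime n' := hmn.coprime_dvd_right ⟨q ^ a, by rw [hn', mul_comm]⟩
    obtain ⟨l, hl, hl'⟩ := ih _ hlt (G ⧸ V) m n' rfl hQc' hmn'
    obtain ⟨H₀, hH₀⟩ := exists_card hG hmn
    obtain ⟨l₀, hl₀, hl₀'⟩ := decomp hq _ V H₀ rfl hVq
      (by rw [Subgroup.normalizer_eq_top]; exact le_top) (hH₀.symm ▸ hqm) inferInstance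
    refine ⟨l₀ ++ l, ?_, fun f hf => ?_⟩
    swap
    · rcases List.mem_append.1 hf with h | h
      · obtain ⟨⟨e, he⟩, hd, r, hr, hrm, hmod⟩ := hl₀' f h
        exact ⟨⟨q, e, hq, he⟩, ⟨⊥, V, inferInstance, hV, bot_lt_iff_ne_bot.2 hV0,
          fun M hM _ hMV => hmin M hM hMV, by rwa [Subgroup.relIndex_bot_left]⟩,
          r, hr, hH₀ ▸ hrm, hmod⟩
      · exact good_lift dvd_rfl (hl' f h)
    rw [List.prod_append, ← hl, ← hl₀]
    have hdisj : ∀ H : Subgroup G, Nat.card H = m → H ⊓ V = ⊥ := fun H hH =>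
      CfsgLib.Core.inf_eq_bot_of_coprime (by rw [hH, ha]; exact hcm.symm)
    have himg : ∀ H : Subgroup G, Nat.card H = m → Nat.card (H.map π) = m := fun H hH => by
      rw [← Subgroup.relIndex_ker, hker, ← Subgroup.inf_relIndex_right, inf_comm, hdisj H hH,
        Subgroup.relIndex_bot_left, hH]
    let Φ : {H : Subgroup G // Nat.card H = m} → {X : Subgroup (G ⧸ V) // Nat.card X = m} :=
      fun H => ⟨H.1.map π, himg _ H.2⟩
    have hfib : ∀ X, Nat.card {H // Φ H = X} = (V ⊓ Subgroup.centralizer (H₀ : Set G)).relIndex V := by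
      intro X
      set Y := X.1.comap π with hY
      have hVY : V ≤ Y := hker.ge.trans (MonoidHom.ker_le_comap π X.1)
      have hYc : Nat.card Y = m * q ^ a := by
        have h2 : V.relIndex Y = Nat.card X.1 := by
          rw [show V.relIndex Y = π.ker.relIndex Y from
            congrArg (fun Z : Subgroup G => Z.relIndex Y) hker.symm]
          rw [Subgroup.relIndex_ker, hY, Subgroup.map_comap_eq_self_of_surjective hπ]
        rw [← CfsgLib.Core.card_mul_relIndex hVY, h2, ha, X.2, mul_comm]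
      obtain ⟨H1, hH1⟩ := exists_card (G := Y) hYc hcm.symm
      set H := H1.map Y.subtype with hHd
      have hH : Nat.card H = m := by rw [hHd, Subgroup.card_map_of_injective Y.subtype_injective, hH1]
      have hHY : H ≤ Y := Subgroup.map_subtype_le _
      have hHX : Φ ⟨H, hH⟩ = X := by
        refine Subtype.ext (CfsgLib.Core.eq_of_le_of_card_le ?_ ?_)
        · rw [← Subgroup.map_comap_eq_self_of_surjective hπ X.1]
          exact Subgroup.map_mono hHY
        · show Nat.card X.1 ≤ Nat.card (H.map π)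
          rw [X.2, himg H hH]
      have hsup : ∀ K : Subgroup G, Nat.card K = m → K ≤ Y → ∀ y ∈ Y, ∃ v ∈ V, ∃ k ∈ K, y = v * k := by
        intro K hK hKY y hy
        have : V ⊔ K = Y := by
          refine CfsgLib.Core.eq_of_le_of_card_le (sup_le hVY hKY) ?_
          rw [hYc, ← hK, ← ha]
          refine Nat.le_of_dvd Nat.card_pos (Nat.Coprime.mul_dvd_of_dvd_of_dvd ?_
            (Subgroup.card_dvd_of_le le_sup_right) (Subgroup.card_dvd_of_le le_sup_left))
          rw [hK, ha]; exact hcm.symm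
        rw [← this] at hy
        obtain ⟨v, hv, k, hk, rfl⟩ := Subgroup.mem_sup_of_normal_left.1 hy
        exact ⟨v, hv, k, hk, rfl⟩
      letI : MulAction V (Subgroup G) := MulAction.compHom _ (MulAut.conj.comp V.subtype)
      have hact : ∀ (v : V) (K : Subgroup G), v • K = MulAut.conj (v : G) • K := fun _ _ => rfl
      have horbit : Nat.card {K // Φ K = X} = Nat.card (MulAction.orbit V H) := by
        refine Nat.card_congr
          { toFun := fun K => ⟨K.1.1, ?_⟩
            invFun := fun K => ⟨⟨K.1, ?_⟩, ?_⟩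
            left_inv := fun K => rfl
            right_inv := fun K => rfl }
        · obtain ⟨⟨K, hK⟩, hKX⟩ := K
          have hKY : K ≤ Y := by
            rw [hY, ← Subgroup.map_le_iff_le_comap]
            exact (congrArg Subtype.val hKX).le
          haveI : Group.IsSolvable Y := inferInstance
          obtain ⟨y, hy⟩ := conj_of_card (G := Y) hYc hcm.symm
            (H := H.subgroupOf Y) (K := K.subgroupOf Y)
            (by rw [CfsgLib.Core.card_subgroupOf_of_le hHY, hH])
            (by rw [CfsgLib.Core.card_subgroupOf_of_le hKY, hK])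
          have hy' := CfsgLib.Core.map_subtype_conj_smul_subgroupOf hHY hKY hy
          obtain ⟨v, hv, h, hh, he⟩ := hsup H hH hHY y y.2
          refine ⟨⟨v, hv⟩, ?_⟩
          show MulAut.conj v • H = K
          rw [← hy', he, ← CfsgLib.Core.conj_smul_conj_smul,
            CfsgLib.Core.conj_smul_of_mem_normalizer (Subgroup.le_normalizer hh)]
        · obtain ⟨_, v, rfl⟩ := K
          show Nat.card (MulAut.conj (v : G) • H : Subgroup G) = m
          rw [CfsgLib.Core.card_conj_smul, hH]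
        · obtain ⟨_, v, rfl⟩ := K
          refine Subtype.ext (CfsgLib.Core.eq_of_le_of_card_le ?_ ?_)
          · rintro _ ⟨x, hx, rfl⟩
            change x ∈ (MulAut.conj (v : G) • H : Subgroup G) at hx
            rw [CfsgLib.Core.mem_conj_smul] at hx
            have h1 := congrArg Subtype.val hHX
            rw [← h1]
            refine ⟨_, hx, ?_⟩
            have hv : π (v : G) = 1 := (QuotientGroup.eq_one_iff _).2 v.2
            simp [map_mul, hv]
          · show Nat.card X.1 ≤ Nat.card ((v • H : Subgroup G).map π)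
            rw [himg _ (by rw [hact, CfsgLib.Core.card_conj_smul, hH]), X.2]
      rw [horbit, Nat.card_congr (MulAction.orbitEquivQuotientStabilizer V H), ← Subgroup.index_eq_card]
      have hstab : MulAction.stabilizer V H = (V ⊓ Subgroup.centralizer (H : Set G)).subgroupOf V := by
        ext v
        rw [MulAction.mem_stabilizer_iff, hact, CfsgLib.Core.conj_smul_eq_self_iff,
          Subgroup.mem_subgroupOf, Subgroup.mem_inf]
        refine ⟨fun hv => ⟨v.2, Subgroup.mem_centralizer_iff.2 fun h hh => ?_⟩,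
          fun hv => Subgroup.centralizer_le_normalizer _ hv.2⟩
        have h1 : (v : G) * h * (v : G)⁻¹ * h⁻¹ ∈ H ⊓ V := Subgroup.mem_inf.2
          ⟨H.mul_mem ((Subgroup.mem_normalizer_iff.1 hv h).1 hh) (H.inv_mem hh), by
            rw [show (v : G) * h * (v : G)⁻¹ * h⁻¹ = (v : G) * (h * (v : G)⁻¹ * h⁻¹) by group]
            exact V.mul_mem v.2 (hV.conj_mem _ (V.inv_mem v.2) h)⟩
        rw [hdisj H hH, Subgroup.mem_bot, mul_inv_eq_one, mul_inv_eq_iff_eq_mul] at h1
        exact h1.symm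
      rw [hstab]
      show (V ⊓ Subgroup.centralizer (H : Set G)).relIndex V = _
      obtain ⟨g, hg⟩ := conj_of_card hG hmn hH₀ hH
      have hcard : Nat.card (V ⊓ Subgroup.centralizer (H₀ : Set G) : Subgroup G) =
          Nat.card (V ⊓ Subgroup.centralizer (H : Set G) : Subgroup G) := by
        refine Nat.card_congr
          { toFun := fun x => ⟨g * x * g⁻¹, Subgroup.mem_inf.2 ⟨hV.conj_mem _ x.2.1 g, ?_⟩⟩
            invFun := fun x => ⟨g⁻¹ * x * g, Subgroup.mem_inf.2 ⟨by simpa using hV.conj_mem _ x.2.1 g⁻¹, ?_⟩⟩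
            left_inv := fun x => Subtype.ext (by group)
            right_inv := fun x => Subtype.ext (by group) }
        · rw [Subgroup.mem_centralizer_iff]
          intro h hh
          rw [SetLike.mem_coe, ← hg, CfsgLib.Core.mem_conj_smul] at hh
          have := Subgroup.mem_centralizer_iff.1 x.2.2 _ hh
          calc h * (g * x * g⁻¹) = g * ((g⁻¹ * h * g) * x) * g⁻¹ := by group
            _ = g * (x * (g⁻¹ * h * g)) * g⁻¹ := by rw [this]
            _ = g * x * g⁻¹ * h := by group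
        · rw [Subgroup.mem_centralizer_iff]
          intro h hh
          have := Subgroup.mem_centralizer_iff.1 x.2.2 (g * h * g⁻¹)
            (by rw [SetLike.mem_coe, ← hg, CfsgLib.Core.mem_conj_smul]; simpa [mul_assoc] using hh)
          calc h * (g⁻¹ * x * g) = g⁻¹ * ((g * h * g⁻¹) * x) * g := by group
            _ = g⁻¹ * (x * (g * h * g⁻¹)) * g := by rw [this]
            _ = g⁻¹ * x * g * h := by group
      refine Nat.eq_of_mul_eq_mul_left (Nat.card_pos
        (α := (V ⊓ Subgroup.centralizer (H₀ : Set G) : Subgroup G))) ?_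
      conv_lhs => rw [hcard, CfsgLib.Core.card_mul_relIndex inf_le_left]
      rw [CfsgLib.Core.card_mul_relIndex inf_le_left]
    rw [← Nat.card_congr (Equiv.sigmaFiberEquiv Φ)]
    haveI := Fintype.ofFinite {X : Subgroup (G ⧸ V) // Nat.card X = m}
    rw [Nat.card_sigma, Finset.sum_congr rfl (fun X _ => hfib X), Finset.sum_const, Finset.card_univ,
      smul_eq_mul, ← Nat.card_eq_fintype_card, mul_comm]

end CfsgLib.HallNumber
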