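import Mathlib.GroupTheory.GroupAction.Jordan
import Mathlib.GroupTheory.GroupAction.MultipleTransitivity
import Mathlib.GroupTheory.Sylow
import Mathlib.GroupTheory.Perm.Cycle.Type
import Mathlib.GroupTheory.SpecificGroups.Cyclic
import Mathlib.GroupTheory.SpecificGroups.Alternating.Simple
import Mathlib.RingTheory.ZMod.UnitsCyclic
import Mathlib.GroupTheory.Perm.ViaEmbedding
import Cfsg.Agent.Lib.PermJordanCycle

/-!
Groups of degree `kp + r` that are `(r + 1)`-fold transitive.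
-/

set_option autoImplicit false

namespace CfsgLib.HighTransitive

open Equiv MulAction

/-- The double transposition on four letters. -/
def d0 : Perm (Fin 4) := swap 0 1 * swap 2 3

/-- A three-cycle on three letters. -/
def c0 : Perm (Fin 3) := swap 0 1 * swap 1 2

theorem three_target : ∀ σ : Perm (Fin 3), σ ≠ 1 → ∃ τ υ : Perm (Fin 3),
    υ * (τ * σ * τ⁻¹ * σ⁻¹) * υ⁻¹ = c0 := by
  unfold c0; decide +kernel

theorem four_target_aux : ∀ σ : Perm (Fin 4), Perm.sign σ = 1 → σ ≠ 1 → ∃ τ υ : Perm (Fin 4),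
    υ * (τ * σ * τ⁻¹ * σ⁻¹) * υ⁻¹ = d0 := by
  unfold d0; decide +kernel

theorem commutator_target : ∃ σ τ : Perm (Fin 4), Perm.sign σ = 1 ∧ Perm.sign τ = 1 ∧ σ * τ * σ⁻¹ * τ⁻¹ = d0 :=
  ⟨swap 0 1 * swap 1 2, swap 0 1 * swap 1 3, by decide +kernel⟩

variable {α : Type*} [Fintype α] [DecidableEq α] {G : Subgroup (Perm α)}

/-- Transitivity on tuples. -/
theorem exists_map {m : ℕ} (hG : IsMultiplyPretransitive G α m) (x y : Fin m ↪ α) :
    ∃ g ∈ G, ∀ i, g (x i) = y i := by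
  obtain ⟨g, hg⟩ := MulAction.exists_smul_eq G x y
  exact ⟨g, g.2, fun i => DFunLike.congr_fun hg i⟩

theorem preprimitive {m : ℕ} (hm : 2 ≤ m) (hm' : m ≤ Nat.card α) (hG : IsMultiplyPretransitive G α m) :
    IsPreprimitive G α := by
  haveI := hG
  exact isPreprimitive_of_is_two_pretransitive
    (isMultiplyPretransitive_of_le (n := m) hm hm')

theorem of_three (hP : IsPreprimitive G α) {g : Perm α} (hg : g ∈ G) (e : Fin 3 ↪ α)
    (h1 : ∀ i, g (e i) = e (c0 i)) (h2 : ∀ a, a ∉ Set.range e → g a = a) : alternatingGroup α ≤ G := by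
  refine Equiv.Perm.alternatingGroup_le_of_isPreprimitive_of_isThreeCycle_mem hP ?_ hg
  have hg' : g = swap (e 0) (e 1) * swap (e 1) (e 2) := by
    ext a
    by_cases ha : a ∈ Set.range e
    · obtain ⟨i, rfl⟩ := ha
      rw [h1]
      fin_cases i <;>
        simp [c0, Perm.mul_apply, Equiv.swap_apply_def, e.injective.eq_iff]
    · rw [h2 a ha, Perm.mul_apply, swap_apply_of_ne_of_ne (fun h => ha ⟨1, h.symm⟩) (fun h => ha ⟨2, h.symm⟩),
        swap_apply_of_ne_of_ne (fun h => ha ⟨0, h.symm⟩) (fun h => ha ⟨1, h.symm⟩)]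
  rw [hg', swap_comm (e 0)]
  exact Perm.isThreeCycle_swap_mul_swap_same (e.injective.ne (by decide)) (e.injective.ne (by decide))
    (e.injective.ne (by decide))

theorem of_double {m : ℕ} (hm : 4 ≤ m) (hm' : m ≤ Nat.card α) (h5 : 5 ≤ Nat.card α)
    (hG : IsMultiplyPretransitive G α m) {g : Perm α} (hg : g ∈ G) (e : Fin 4 ↪ α)
    (h1 : ∀ i, g (e i) = e (d0 i)) (h2 : ∀ a, a ∉ Set.range e → g a = a) : alternatingGroup α ≤ G := by
  obtain ⟨x, hx⟩ : ∃ x, x ∉ Set.range e := by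
    by_contra h
    push Not at h
    have := Nat.card_le_card_of_surjective e fun a => h a
    simp at this
    rw [Fintype.card_eq_nat_card] at *
    omega
  have hP := preprimitive (by omega) hm' hG
  haveI := hG
  have h4 : IsMultiplyPretransitive G α 4 :=
    isMultiplyPretransitive_of_le (n := m) hm hm'
  have hne : ∀ i j : Fin 4, i ≠ j → e i ≠ e j := fun i j h => e.injective.ne h
  let e' : Fin 4 ↪ α := ⟨![e 0, e 1, e 2, x], by
    intro i j h
    fin_cases i <;> fin_cases j <;>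
      simp_all [e.injective.eq_iff]
    all_goals exact absurd ⟨_, h⟩ hx⟩
  obtain ⟨u, huG, hu⟩ := exists_map h4 e e'
  set g' := u * g * u⁻¹
  have hg' : g' ∈ G := G.mul_mem (G.mul_mem huG hg) (G.inv_mem huG)
  have hu' : ∀ i, u⁻¹ (e' i) = e i := fun i => by rw [← hu i]; simp
  have h1' : ∀ i, g' (e' i) = e' (d0 i) := fun i => by
    show u (g (u⁻¹ (e' i))) = _
    rw [hu', h1, hu]
  have h2' : ∀ a, a ∉ Set.range e' → g' a = a := fun a ha => by
    show u (g (u⁻¹ a)) = a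
    rw [h2 _ fun ⟨i, hi⟩ => ha ⟨i, by rw [← hu i, hi]; simp⟩]
    simp
  have eg : g = swap (e 0) (e 1) * swap (e 2) (e 3) := by
    ext a
    by_cases ha : a ∈ Set.range e
    · obtain ⟨i, rfl⟩ := ha
      rw [h1]
      fin_cases i <;>
        simp [d0, Perm.mul_apply, Equiv.swap_apply_def, e.injective.eq_iff]
    · rw [h2 a ha, Perm.mul_apply, swap_apply_of_ne_of_ne (fun h => ha ⟨2, h.symm⟩) (fun h => ha ⟨3, h.symm⟩),
        swap_apply_of_ne_of_ne (fun h => ha ⟨0, h.symm⟩) (fun h => ha ⟨1, h.symm⟩)]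
  have eg' : g' = swap (e 0) (e 1) * swap (e 2) x := by
    rw [show e 0 = e' 0 from rfl, show e 1 = e' 1 from rfl, show e 2 = e' 2 from rfl,
      show x = e' 3 from rfl]
    ext a
    by_cases ha : a ∈ Set.range e'
    · obtain ⟨i, rfl⟩ := ha
      rw [h1']
      fin_cases i <;>
        simp [d0, Perm.mul_apply, Equiv.swap_apply_def, e'.injective.eq_iff]
    · rw [h2' a ha, Perm.mul_apply, swap_apply_of_ne_of_ne (fun h => ha ⟨2, h.symm⟩) (fun h => ha ⟨3, h.symm⟩),
        swap_apply_of_ne_of_ne (fun h => ha ⟨0, h.symm⟩) (fun h => ha ⟨1, h.symm⟩)]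
  refine Equiv.Perm.alternatingGroup_le_of_isPreprimitive_of_isThreeCycle_mem hP ?_ (G.mul_mem hg hg')
  have hc : Commute (swap (e 0) (e 1)) (swap (e 2) (e 3)) := by
    refine (Perm.Disjoint.commute ?_)
    intro a
    by_cases h : a = e 0 ∨ a = e 1
    · exact Or.inr (swap_apply_of_ne_of_ne (by rcases h with h | h <;> rw [h] <;> exact hne _ _ (by decide))
        (by rcases h with h | h <;> rw [h] <;> exact hne _ _ (by decide)))
    · push Not at h
      exact Or.inl (swap_apply_of_ne_of_ne h.1 h.2)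
  rw [eg, eg', hc.eq, mul_assoc, ← mul_assoc (swap (e 0) (e 1)) (swap (e 0) (e 1)), Equiv.swap_mul_self, one_mul]
  exact Perm.isThreeCycle_swap_mul_swap_same (hne 2 3 (by decide)) (fun h => hx ⟨2, h⟩) (fun h => hx ⟨3, h⟩)

/-- The general setting. -/
structure Setting (G : Subgroup (Perm α)) (k p r : ℕ) (ι : Fin r ↪ α) (P : Subgroup (Perm α)) : Prop where
  le : P ≤ G
  fix : ∀ x ∈ P, ∀ i, x (ι i) = ι i
  moved : ∀ a, a ∉ Set.range ι → ∃ x ∈ P, x a ≠ a
  pgroup : IsPGroup p P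
  sylow : ∀ g ∈ G, (∃ σ : Perm (Fin r), ∀ i, g (ι i) = ι (σ i)) →
    ∃ h ∈ G, (∀ i, h (ι i) = ι i) ∧ ∀ x, x ∈ P ↔ (h * g) * x * (h * g)⁻¹ ∈ P

theorem exists_setting {k p r : ℕ} [hp : Fact p.Prime] (hn : Fintype.card α = k * p + r) (hk : 1 ≤ k)
    (hG : IsMultiplyPretransitive G α (r + 1)) (ι : Fin r ↪ α) :
    ∃ P, Setting G k p r ι P := by
  let H : Subgroup (Perm α) :=
    { carrier := {g | g ∈ G ∧ ∀ i, g (ι i) = ι i}
      mul_mem' := fun {g h} hg hh => ⟨G.mul_mem hg.1 hh.1, fun i => by rw [Perm.mul_apply, hh.2, hg.2]⟩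
      one_mem' := ⟨G.one_mem, fun i => rfl⟩
      inv_mem' := fun {g} hg => ⟨G.inv_mem hg.1, fun i => by nth_rw 1 [← hg.2 i]; simp⟩ }
  let S : Sylow p H := Classical.arbitrary _
  set P := (S : Subgroup H).map H.subtype with hPd
  have hPH : P ≤ H := Subgroup.map_subtype_le _
  refine ⟨P, fun x hx => (hPH hx).1, fun x hx => (hPH hx).2, ?_, S.2.map _, ?_⟩
  · intro a ha
    by_contra hno
    push Not at hno
    -- the orbit of `a` under `H` is everything outside
    let St : Subgroup H := MulAction.stabilizer H a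
    have hidx : St.index = k * p := by
      have h1 : St.index = Nat.card (MulAction.orbit H a) := by
        rw [Subgroup.index_eq_card]
        exact (Nat.card_congr (MulAction.orbitEquivQuotientStabilizer H a)).symm
      have h2 : MulAction.orbit H a = (Set.range ι)ᶜ := by
        ext b
        constructor
        · rintro ⟨g, rfl⟩ ⟨i, hi⟩
          refine ha ⟨i, (g : Perm α).injective ?_⟩
          rw [g.2.2 i]; exact hi
        · intro hb
          let x : Fin (r + 1) ↪ α := ⟨Fin.snoc ι a, Fin.snoc_injective_iff.2 ⟨ι.injective, ha⟩⟩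
          let y : Fin (r + 1) ↪ α := ⟨Fin.snoc ι b, Fin.snoc_injective_iff.2 ⟨ι.injective, hb⟩⟩
          obtain ⟨g, hg, hgxy⟩ := exists_map hG x y
          refine ⟨⟨g, hg, fun i => ?_⟩, ?_⟩
          · simpa [x, y] using hgxy i.castSucc
          · show g a = b
            simpa [x, y] using hgxy (Fin.last r)
      rw [h1, h2, Nat.card_coe_set_eq, Set.ncard_compl, Set.ncard_range_of_injective ι.injective,
        Nat.card_fin, Nat.card_eq_fintype_card, hn]
      omega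
    have hle : (S : Subgroup H) ≤ St := fun s hs => hno _ ⟨s, hs, rfl⟩
    refine S.not_dvd_index (dvd_trans ?_ (Subgroup.index_dvd_of_le hle))
    rw [hidx]; exact dvd_mul_left p k
  · rintro g hg ⟨σ, hσ⟩
    have hgi : ∀ i, g⁻¹ (ι i) = ι (σ⁻¹ i) := fun i => by
      have := hσ (σ⁻¹ i)
      rw [show σ (σ⁻¹ i) = i by simp] at this
      rw [← this]; simp
    have hconj : ∀ x ∈ H, g * x * g⁻¹ ∈ H := fun x hx =>
      ⟨G.mul_mem (G.mul_mem hg hx.1) (G.inv_mem hg), fun i => by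
        rw [Perm.mul_apply, Perm.mul_apply, hgi, hx.2, hσ]; simp⟩
    let c : H →* H := MonoidHom.mk' (fun x => ⟨g * x * g⁻¹, hconj x x.2⟩) fun x y => Subtype.ext (by
      show g * ((x : Perm α) * y) * g⁻¹ = g * x * g⁻¹ * (g * y * g⁻¹); group)
    have hc : Function.Injective c := fun x y h => Subtype.ext (by
      simpa [c] using congrArg Subtype.val h)
    let S' : Sylow p H := Sylow.ofCard ((S : Subgroup H).map c)
      (by rw [Subgroup.card_map_of_injective hc]; exact S.card_eq_multiplicity)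
    obtain ⟨h, hh⟩ := MulAction.exists_smul_eq H S' S
    refine ⟨h, h.2.1, h.2.2, fun x => ?_⟩
    have hset : (S : Subgroup H) = ((S : Subgroup H).map c).map (MulAut.conj h).toMonoidHom := by
      conv_lhs => rw [← hh]
      rw [Sylow.coe_subgroup_smul]
      rfl
    constructor
    · rintro ⟨s, hs, rfl⟩
      refine ⟨h * c s * h⁻¹, ?_, ?_⟩
      · rw [hset]; exact ⟨c s, ⟨s, hs, rfl⟩, rfl⟩
      · show (h : Perm α) * (g * s * g⁻¹) * (h : Perm α)⁻¹ = _
        show _ = ((h : Perm α) * g) * s * ((h : Perm α) * g)⁻¹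
        group
    · rintro ⟨s, hs, hs'⟩
      rw [hset] at hs
      obtain ⟨_, ⟨t, ht, rfl⟩, rfl⟩ := hs
      refine ⟨t, ht, ?_⟩
      have e1 : (h : Perm α) * (g * t * g⁻¹) * (h : Perm α)⁻¹ = ((h : Perm α) * g) * x * ((h : Perm α) * g)⁻¹ := hs'
      rw [show (h : Perm α) * (g * t * g⁻¹) * (h : Perm α)⁻¹ = ((h : Perm α) * g) * t * ((h : Perm α) * g)⁻¹ by group,
        mul_left_inj, mul_right_inj] at e1
      exact e1

variable {k p r : ℕ} [hp : Fact p.Prime] {ι : Fin r ↪ α} {P : Subgroup (Perm α)}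

/-- The orbit of `a` under `P`. -/
def orb (P : Subgroup (Perm α)) (a : α) : Set α := {b | ∃ x ∈ P, x a = b}

theorem self_mem_orb (a : α) : a ∈ orb P a := ⟨1, P.one_mem, rfl⟩

theorem orb_eq {a b : α} (h : b ∈ orb P a) : orb P b = orb P a := by
  obtain ⟨x, hx, rfl⟩ := h
  ext c
  constructor
  · rintro ⟨y, hy, rfl⟩; exact ⟨y * x, P.mul_mem hy hx, rfl⟩
  · rintro ⟨y, hy, rfl⟩; exact ⟨y * x⁻¹, P.mul_mem hy (P.inv_mem hx), by simp⟩

theorem notMem_of_orb (h : Setting G k p r ι P) {a b : α} (ha : a ∉ Set.range ι) (hb : b ∈ orb P a) :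
    b ∉ Set.range ι := by
  obtain ⟨x, hx, rfl⟩ := hb
  rintro ⟨i, hi⟩
  exact ha ⟨i, x.injective (by rw [h.fix x hx, hi])⟩

theorem orb_card (h : Setting G k p r ι P) (hn : Fintype.card α = k * p + r) (hkp : k < p) {a : α}
    (ha : a ∉ Set.range ι) : (orb P a).ncard = p := by
  have he : orb P a = MulAction.orbit P a := by
    ext b
    exact ⟨fun ⟨x, hx, e⟩ => ⟨⟨x, hx⟩, e⟩, fun ⟨⟨x, hx⟩, e⟩ => ⟨x, hx, e⟩⟩
  obtain ⟨j, hj⟩ := h.pgroup.card_orbit a
  rw [Nat.card_coe_set_eq, ← he] at hj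
  obtain ⟨x, hx, hxa⟩ := h.moved a ha
  have h2 : 1 < (orb P a).ncard :=
    (Set.one_lt_ncard (Set.toFinite _)).2 ⟨a, self_mem_orb a, x a, ⟨x, hx, rfl⟩, Ne.symm hxa⟩
  have h3 : (orb P a).ncard ≤ k * p := by
    calc (orb P a).ncard ≤ ((Set.range ι)ᶜ : Set α).ncard :=
          Set.ncard_le_ncard (fun b hb => notMem_of_orb h ha hb) (Set.toFinite _)
      _ = k * p := by
          rw [Set.ncard_compl, Set.ncard_range_of_injective ι.injective, Nat.card_fin,
            Nat.card_eq_fintype_card, hn]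
          omega
  rw [hj] at h2 h3 ⊢
  rcases j with _ | _ | j
  · simp at h2
  · rw [pow_one]
  · exfalso
    have : p * p ≤ p ^ (j + 1 + 1) := by
      rw [← pow_two]; exact Nat.pow_le_pow_right hp.out.pos (by omega)
    have : k * p < p * p := (Nat.mul_lt_mul_right hp.out.pos).2 hkp
    omega

/-- Restriction to an orbit. -/
noncomputable def res (P : Subgroup (Perm α)) (a : α) : P →* Perm (orb P a) where
  toFun x := (x : Perm α).subtypePerm fun b => by
    constructor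
    · rintro ⟨y, hy, hyb⟩
      exact ⟨x.1⁻¹ * y, P.mul_mem (P.inv_mem x.2) hy, by simp [hyb]⟩
    · rintro ⟨y, hy, rfl⟩; exact ⟨x * y, P.mul_mem x.2 hy, rfl⟩
  map_one' := rfl
  map_mul' _ _ := rfl

theorem res_apply (a : α) (x : P) (b : orb P a) : ((res P a x b : orb P a) : α) = (x : Perm α) b := rfl

theorem res_cyclic (h : Setting G k p r ι P) (hn : Fintype.card α = k * p + r) (hkp : k < p) {a : α}
    (ha : a ∉ Set.range ι) : ∃ x₀ : P, (x₀ : Perm α) a ≠ a ∧ ∀ y : P, ∃ j : ℕ, res P a y = res P a x₀ ^ j := by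
  have hcard : Nat.card (orb P a) = p := by rw [Nat.card_coe_set_eq, orb_card h hn hkp ha]
  obtain ⟨j, hj⟩ := IsPGroup.iff_card.mp ((h.pgroup.to_subgroup ⊤).map (res P a))
  have hd : p ^ j ∣ p.factorial := by
    rw [← hj, ← hcard, ← Nat.card_perm]
    exact Subgroup.card_subgroup_dvd_card _
  have hj1 : j ≤ 1 := by
    by_contra hj2
    have h1 : p ^ 2 ∣ p.factorial := (pow_dvd_pow p (by omega)).trans hd
    have h2 : p ∣ (p - 1).factorial := by
      rw [← Nat.mul_factorial_pred hp.out.ne_zero, sq] at h1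
      exact Nat.dvd_of_mul_dvd_mul_left hp.out.pos h1
    have := (hp.out.dvd_factorial).1 h2
    have := hp.out.pos
    omega
  obtain ⟨x, hx, hxa⟩ := h.moved a ha
  refine ⟨⟨x, hx⟩, hxa, fun y => ?_⟩
  have hne : res P a ⟨x, hx⟩ ≠ 1 := fun h1 => hxa (by
    have := congrArg (fun f : Perm (orb P a) => ((f ⟨a, self_mem_orb a⟩ : orb P a) : α)) h1
    simpa [res_apply] using this)
  set M := (⊤ : Subgroup P).map (res P a)
  have hM : Nat.card M = p := by
    rcases Nat.le_one_iff_eq_zero_or_eq_one.1 hj1 with h0 | h0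
    · exfalso
      rw [h0, pow_zero, Subgroup.card_eq_one] at hj
      exact hne (Subgroup.mem_bot.1 (hj ▸ ⟨_, Subgroup.mem_top _, rfl⟩))
    · rw [hj, h0, pow_one]
  have hmem : (⟨res P a y, y, Subgroup.mem_top _, rfl⟩ : M) ∈
      Submonoid.powers (⟨res P a ⟨x, hx⟩, _, Subgroup.mem_top _, rfl⟩ : M) :=
    mem_powers_of_prime_card hM (fun h1 => hne (congrArg Subtype.val h1))
  obtain ⟨i, hi⟩ := hmem
  exact ⟨i, (congrArg Subtype.val hi).symm⟩

theorem comm_P (h : Setting G k p r ι P) (hn : Fintype.card α = k * p + r) (hkp : k < p)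
    {x y : Perm α} (hx : x ∈ P) (hy : y ∈ P) : x * y = y * x := by
  ext b
  by_cases hb : b ∈ Set.range ι
  · obtain ⟨i, rfl⟩ := hb
    simp [Perm.mul_apply, h.fix x hx, h.fix y hy]
  obtain ⟨x₀, -, hgen⟩ := res_cyclic h hn hkp hb
  obtain ⟨i, hi⟩ := hgen ⟨x, hx⟩
  obtain ⟨j, hj⟩ := hgen ⟨y, hy⟩
  have e : res P b (⟨x, hx⟩ * ⟨y, hy⟩) = res P b (⟨y, hy⟩ * ⟨x, hx⟩) := by
    rw [map_mul, map_mul, hi, hj, ← pow_add, ← pow_add, add_comm]
  exact congrArg (fun f : Perm (orb P b) => ((f ⟨b, self_mem_orb b⟩ : orb P b) : α)) e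

theorem pow_p (h : Setting G k p r ι P) (hn : Fintype.card α = k * p + r) (hkp : k < p)
    {x : Perm α} (hx : x ∈ P) : x ^ p = 1 := by
  ext b
  by_cases hb : b ∈ Set.range ι
  · obtain ⟨i, rfl⟩ := hb
    rw [h.fix _ (P.pow_mem hx p)]; rfl
  obtain ⟨x₀, -, hgen⟩ := res_cyclic h hn hkp hb
  have hcard : Nat.card (orb P b) = p := by rw [Nat.card_coe_set_eq, orb_card h hn hkp hb]
  have hp0 : res P b x₀ ^ p = 1 := by
    obtain ⟨j, hj⟩ := ((h.pgroup.to_subgroup ⊤).map (res P b)) ⟨res P b x₀, x₀, Subgroup.mem_top _, rfl⟩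
    have hd : orderOf (res P b x₀) ∣ p ^ j := orderOf_dvd_of_pow_eq_one (congrArg Subtype.val hj)
    obtain ⟨i, -, hi⟩ := (Nat.dvd_prime_pow hp.out).1 hd
    have hd2 : p ^ i ∣ p.factorial := by
      rw [← hi, ← hcard, ← Nat.card_perm]; exact orderOf_dvd_natCard _
    rw [← orderOf_dvd_iff_pow_eq_one, hi]
    by_cases hi2 : i ≤ 1
    · calc p ^ i ∣ p ^ 1 := pow_dvd_pow p hi2
        _ = p := pow_one p
    · exfalso
      have h1 : p ^ 2 ∣ p.factorial := (pow_dvd_pow p (by omega)).trans hd2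
      have h2 : p ∣ (p - 1).factorial := by
        rw [← Nat.mul_factorial_pred hp.out.ne_zero, sq] at h1
        exact Nat.dvd_of_mul_dvd_mul_left hp.out.pos h1
      have := (hp.out.dvd_factorial).1 h2
      have := hp.out.pos
      omega
  obtain ⟨i, hi⟩ := hgen ⟨x, hx⟩
  have e : res P b (⟨x, hx⟩ ^ p) = 1 := by
    rw [map_pow, hi, ← pow_mul, mul_comm, pow_mul, hp0, one_pow]
  exact congrArg (fun f : Perm (orb P b) => ((f ⟨b, self_mem_orb b⟩ : orb P b) : α)) e

/-- The elements normalizing `P` and fixing each of its orbits. -/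
def N0 (G P : Subgroup (Perm α)) (ι : Fin r ↪ α) : Set (Perm α) :=
  {g | g ∈ G ∧ (∀ x, x ∈ P ↔ g * x * g⁻¹ ∈ P) ∧ ∀ a, a ∉ Set.range ι → g a ∈ orb P a}

/-- An element normalizing `P` acts on an orbit it fixes as a power. -/
theorem exists_exponent (h : Setting G k p r ι P) (hn : Fintype.card α = k * p + r) (hkp : k < p)
    {g : Perm α} (hg : g ∈ N0 G P ι) {a : α} (ha : a ∉ Set.range ι) :
    ∃ m : ℕ, ∀ y ∈ P, ∀ b ∈ orb P a, (g * y * g⁻¹) b = (y ^ m) b := by
  obtain ⟨x₀, hx₀, hgen⟩ := res_cyclic h hn hkp ha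
  obtain ⟨m, hm⟩ := hgen ⟨g * x₀ * g⁻¹, (hg.2.1 _).1 x₀.2⟩
  have hgO : ∀ b ∈ orb P a, g⁻¹ b ∈ orb P a := by
    intro b hb
    have hnot : g⁻¹ b ∉ Set.range ι := by
      rintro ⟨i, hi⟩
      obtain ⟨y, hy, hyi⟩ := h.moved b (notMem_of_orb h ha hb)
      refine hyi ?_
      have h1 : g⁻¹ * y * g ∈ P := (hg.2.1 _).2 (by simpa [mul_assoc] using hy)
      have h2 := h.fix _ h1 i
      rw [hi] at h2
      simpa using congrArg g h2
    have h1 := hg.2.2 _ hnot
    rw [show g (g⁻¹ b) = b by simp] at h1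
    rw [← orb_eq hb, orb_eq h1]
    exact self_mem_orb _
  refine ⟨m, fun y hy b hb => ?_⟩
  obtain ⟨j, hj⟩ := hgen ⟨y, hy⟩
  have key : ∀ (j : ℕ) (c : α), c ∈ orb P a → (g * ((x₀ : Perm α) ^ j) * g⁻¹) c = (((x₀ : Perm α) ^ m) ^ j) c := by
    intro j
    induction j with
    | zero => intro c _; simp
    | succ j ih =>
      intro c hc
      have e : (g * (x₀ : Perm α) * g⁻¹) c = ((x₀ : Perm α) ^ m) c :=
        congrArg (fun f : Perm (orb P a) => ((f ⟨c, hc⟩ : orb P a) : α))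
          (hm.trans (map_pow (res P a) x₀ m).symm)
      rw [show g * (x₀ : Perm α) ^ (j + 1) * g⁻¹ = (g * (x₀ : Perm α) ^ j * g⁻¹) * (g * x₀ * g⁻¹) by
        rw [pow_succ]; group, Perm.mul_apply, e, pow_succ _ j, Perm.mul_apply]
      apply ih
      rw [← orb_eq hc]
      exact ⟨_, P.pow_mem x₀.2 m, rfl⟩
  have hyx : ∀ c ∈ orb P a, y c = ((x₀ : Perm α) ^ j) c := fun c hc =>
    congrArg (fun f : Perm (orb P a) => ((f ⟨c, hc⟩ : orb P a) : α)) (hj.trans (map_pow (res P a) x₀ j).symm)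
  have hym : (y ^ m) b = (((x₀ : Perm α) ^ j) ^ m) b :=
    congrArg (fun f : Perm (orb P a) => ((f ⟨b, hb⟩ : orb P a) : α))
      (show res P a (⟨y, hy⟩ ^ m) = res P a ((x₀ ^ j) ^ m) by rw [map_pow, map_pow (res P a) (x₀ ^ j), hj, map_pow])
  rw [hym, ← pow_mul, mul_comm, pow_mul, ← key j b hb]
  show g (y (g⁻¹ b)) = g (((x₀ : Perm α) ^ j) (g⁻¹ b))
  rw [hyx _ (hgO b hb)]

theorem N0_mul (h : Setting G k p r ι P) {g u : Perm α} (hg : g ∈ N0 G P ι) (hu : u ∈ N0 G P ι) :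
    g * u ∈ N0 G P ι := by
  refine ⟨G.mul_mem hg.1 hu.1, fun x => ?_, fun a ha => ?_⟩
  · rw [show g * u * x * (g * u)⁻¹ = g * (u * x * u⁻¹) * g⁻¹ by group]
    exact (hu.2.1 x).trans (hg.2.1 _)
  · have h1 := hu.2.2 a ha
    rw [← orb_eq h1]
    exact hg.2.2 _ (notMem_of_orb h ha h1)

theorem N0_inv (h : Setting G k p r ι P) {g : Perm α} (hg : g ∈ N0 G P ι) :
    g⁻¹ ∈ N0 G P ι := by
  refine ⟨G.inv_mem hg.1, fun x => ?_, fun a ha => ?_⟩
  · rw [hg.2.1 (g⁻¹ * x * g⁻¹⁻¹), show g * (g⁻¹ * x * g⁻¹⁻¹) * g⁻¹ = x by group]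
  · have hnot : g⁻¹ a ∉ Set.range ι := by
      rintro ⟨i, hi⟩
      obtain ⟨y, hy, hyi⟩ := h.moved a ha
      refine hyi ?_
      have h1 : g⁻¹ * y * g ∈ P := (hg.2.1 _).2 (by simpa [mul_assoc] using hy)
      have h2 := h.fix _ h1 i
      rw [hi] at h2
      simpa using congrArg g h2
    have h1 := hg.2.2 _ hnot
    rw [show g (g⁻¹ a) = a by simp] at h1
    rw [orb_eq h1]
    exact self_mem_orb _

/-- Commutators of elements of `N0` centralize `P`. -/
theorem comm_centralizes (h : Setting G k p r ι P) (hn : Fintype.card α = k * p + r) (hkp : k < p)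
    {g u : Perm α} (hg : g ∈ N0 G P ι) (hu : u ∈ N0 G P ι) {y : Perm α} (hy : y ∈ P) :
    (g * u) * y * (g * u)⁻¹ = (u * g) * y * (u * g)⁻¹ := by
  have hN1 := (N0_mul h hg hu).2.1 y
  have hN2 := (N0_mul h hu hg).2.1 y
  ext b
  by_cases hb : b ∈ Set.range ι
  · obtain ⟨i, rfl⟩ := hb
    rw [h.fix _ (hN1.1 hy), h.fix _ (hN2.1 hy)]
  obtain ⟨m, hm⟩ := exists_exponent h hn hkp hg hb
  obtain ⟨m', hm'⟩ := exists_exponent h hn hkp hu hb
  have hpow : ∀ (w : Perm α) (z : Perm α) (n : ℕ), z ∈ P → w ∈ N0 G P ι →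
      w * z ^ n * w⁻¹ = (w * z * w⁻¹) ^ n := fun w z n _ _ => conj_pow.symm
  have step : ∀ (w v : Perm α) (mw mv : ℕ), w ∈ N0 G P ι → v ∈ N0 G P ι →
      (∀ y ∈ P, ∀ c ∈ orb P b, (w * y * w⁻¹) c = (y ^ mw) c) →
      (∀ y ∈ P, ∀ c ∈ orb P b, (v * y * v⁻¹) c = (y ^ mv) c) →
      ((w * v) * y * (w * v)⁻¹) b = (y ^ (mw * mv)) b := by
    intro w v mw mv hw hv h1 h2
    have hvy : v * y * v⁻¹ ∈ P := (hv.2.1 y).1 hy
    rw [show (w * v) * y * (w * v)⁻¹ = w * (v * y * v⁻¹) * w⁻¹ by group,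
      h1 _ hvy b (self_mem_orb b)]
    have : ∀ (n : ℕ) (c : α), c ∈ orb P b → ((v * y * v⁻¹) ^ n) c = ((y ^ mv) ^ n) c := by
      intro n
      induction n with
      | zero => intro c _; simp
      | succ n ih =>
        intro c hc
        rw [pow_succ, pow_succ (y ^ mv), Perm.mul_apply _ (v * y * v⁻¹), Perm.mul_apply _ (y ^ mv), h2 y hy c hc]
        apply ih
        rw [← orb_eq hc]
        exact ⟨_, P.pow_mem hy mv, rfl⟩
    rw [this mw b (self_mem_orb b), ← pow_mul, mul_comm]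
  rw [step g u m m' hg hu hm hm', step u g m' m hu hg hm' hm, mul_comm]

/-- Elements of `N0` centralizing `P` have `p`-th power fixing all points outside. -/
theorem pow_fix (h : Setting G k p r ι P) (hn : Fintype.card α = k * p + r) (hkp : k < p)
    {g : Perm α} (hg : g ∈ N0 G P ι) (hc : ∀ x ∈ P, g * x = x * g) {a : α} (ha : a ∉ Set.range ι) :
    (g ^ p) a = a := by
  obtain ⟨x, hx, hxa⟩ := hg.2.2 a ha
  have : ∀ n : ℕ, (g ^ n) a = (x ^ n) a := by
    intro n
    induction n with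
    | zero => simp
    | succ n ih =>
      rw [pow_succ', pow_succ, Perm.mul_apply, ih, Perm.mul_apply, hxa]
      exact DFunLike.congr_fun (hc _ (P.pow_mem hx n)) a
  rw [this, pow_p h hn hkp hx]; rfl

theorem card_orbits (h : Setting G k p r ι P) (hn : Fintype.card α = k * p + r) (hkp : k < p) :
    {O : Set α | ∃ a, a ∉ Set.range ι ∧ orb P a = O}.ncard = k := by
  classical
  set Ω := {O : Set α | ∃ a, a ∉ Set.range ι ∧ orb P a = O}
  let f : {a : α // a ∉ Set.range ι} → Ω := fun a => ⟨orb P a, a, a.2, rfl⟩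
  have hfib : ∀ O : Ω, Nat.card {a // f a = O} = p := by
    rintro ⟨O, a, ha, rfl⟩
    have e : {a' // f a' = ⟨orb P a, a, ha, rfl⟩} ≃ orb P a :=
      { toFun := fun x => ⟨x.1.1, by
          have e2 : orb P x.1.1 = orb P a := congrArg Subtype.val x.2
          exact e2.le (self_mem_orb _)⟩
        invFun := fun b => ⟨⟨b.1, notMem_of_orb h ha b.2⟩, Subtype.ext (orb_eq b.2)⟩
        left_inv := fun x => rfl
        right_inv := fun b => rfl }
    rw [Nat.card_congr e, Nat.card_coe_set_eq, orb_card h hn hkp ha]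
  have hC : Nat.card {a : α // a ∉ Set.range ι} = k * p := by
    show Nat.card ((Set.range ι)ᶜ : Set α) = k * p
    rw [Nat.card_coe_set_eq, Set.ncard_compl, Set.ncard_range_of_injective ι.injective, Nat.card_fin,
      Nat.card_eq_fintype_card, hn]
    omega
  rw [← Nat.card_congr (Equiv.sigmaFiberEquiv f)] at hC
  haveI := Fintype.ofFinite Ω
  rw [Nat.card_sigma, Finset.sum_congr rfl (fun O _ => hfib O), Finset.sum_const, smul_eq_mul,
    Finset.card_univ, ← Nat.card_eq_fintype_card] at hC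
  rw [← Nat.card_coe_set_eq]
  exact Nat.eq_of_mul_eq_mul_right hp.out.pos hC

/-- The permutations of the fixed points induced by elements of `N0` in a subgroup. -/
def imageI (h : Setting G k p r ι P) : Subgroup (Perm (Fin r)) where
  carrier := {σ | ∃ g ∈ N0 G P ι, ∀ i, g (ι i) = ι (σ i)}
  mul_mem' := by
    rintro σ τ ⟨g, hg, hg'⟩ ⟨u, hu, hu'⟩
    exact ⟨g * u, N0_mul h hg hu, fun i => by rw [Perm.mul_apply, hu', hg']; rfl⟩
  one_mem' := ⟨1, ⟨G.one_mem, fun x => by simp, fun a _ => self_mem_orb a⟩, fun i => rfl⟩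
  inv_mem' := by
    rintro σ ⟨g, hg, hg'⟩
    refine ⟨g⁻¹, N0_inv h hg, fun i => g.injective ?_⟩
    rw [hg']; simp

/-- A lift in the normalizer. -/
theorem exists_lift (h : Setting G k p r ι P) (hG : IsMultiplyPretransitive G α (r + 1))
    (hr : r + 1 ≤ Nat.card α) (σ : Perm (Fin r)) :
    ∃ g ∈ G, (∀ x, x ∈ P ↔ g * x * g⁻¹ ∈ P) ∧ ∀ i, g (ι i) = ι (σ i) := by
  haveI := hG
  have hGr : IsMultiplyPretransitive G α r :=
    isMultiplyPretransitive_of_le (n := r + 1) (Nat.le_succ r) hr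
  obtain ⟨g, hg, hgσ⟩ := exists_map hGr ι (σ.toEmbedding.trans ι)
  obtain ⟨u, hu, hufix, hnorm⟩ := h.sylow g hg ⟨σ, hgσ⟩
  exact ⟨u * g, G.mul_mem hu hg, hnorm, fun i => by rw [Perm.mul_apply, hgσ]; exact hufix _⟩

omit hp in
theorem lift_range {g : Perm α} {σ : Perm (Fin r)} (hg : ∀ i, g (ι i) = ι (σ i)) {a : α}
    (ha : a ∉ Set.range ι) : g a ∉ Set.range ι := by
  rintro ⟨i, hi⟩
  refine ha ⟨σ⁻¹ i, g.injective ?_⟩
  rw [hg, ← hi]; simp

theorem conj_N0 (h : Setting G k p r ι P) {g n : Perm α} (hg : g ∈ N0 G P ι) (hn : n ∈ G)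
    (hnP : ∀ x, x ∈ P ↔ n * x * n⁻¹ ∈ P) {σ : Perm (Fin r)} (hnσ : ∀ i, n (ι i) = ι (σ i)) :
    n * g * n⁻¹ ∈ N0 G P ι := by
  refine ⟨G.mul_mem (G.mul_mem hn hg.1) (G.inv_mem hn), fun x => ?_, fun a ha => ?_⟩
  · rw [show n * g * n⁻¹ * x * (n * g * n⁻¹)⁻¹ = n * (g * (n⁻¹ * x * n) * g⁻¹) * n⁻¹ by group,
      ← hnP, ← hg.2.1, hnP (n⁻¹ * x * n), show n * (n⁻¹ * x * n) * n⁻¹ = x by group]
  · have hni : ∀ i, n⁻¹ (ι i) = ι (σ⁻¹ i) := fun i => n.injective (by rw [hnσ]; simp)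
    obtain ⟨x, hx, hxa⟩ := hg.2.2 _ (lift_range hni ha)
    refine ⟨n * x * n⁻¹, (hnP x).1 hx, ?_⟩
    show (n * x * n⁻¹) a = (n * g * n⁻¹) a
    simp only [Perm.mul_apply]; rw [hxa]

theorem imageI_normal (h : Setting G k p r ι P) (hG : IsMultiplyPretransitive G α (r + 1))
    (hr : r + 1 ≤ Nat.card α) : (imageI h).Normal := by
  constructor
  rintro τ ⟨g, hg, hg'⟩ σ
  obtain ⟨n, hn, hnP, hnσ⟩ := exists_lift h hG hr σ
  refine ⟨n * g * n⁻¹, conj_N0 h hg hn hnP hnσ, fun i => ?_⟩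
  have hni : n⁻¹ (ι i) = ι (σ⁻¹ i) := n.injective (by rw [hnσ]; simp)
  rw [Perm.mul_apply, Perm.mul_apply, hni, hg', hnσ]; rfl

theorem imageI_ne_bot (h : Setting G k p r ι P) (hn : Fintype.card α = k * p + r) (hkp : k < p)
    (hkr : k < r) (hG : IsMultiplyPretransitive G α (r + 1)) (hr : r + 1 ≤ Nat.card α) :
    imageI h ≠ ⊥ := by
  classical
  intro hbot
  choose g hg hgP hgσ using fun σ : Perm (Fin r) => exists_lift h hG hr σ
  set Ω := {O : Set α | ∃ a, a ∉ Set.range ι ∧ orb P a = O}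
  have himg : ∀ σ (a : α), (g σ) '' orb P a = orb P (g σ a) := by
    intro σ a
    ext b
    constructor
    · rintro ⟨_, ⟨x, hx, rfl⟩, rfl⟩
      exact ⟨g σ * x * (g σ)⁻¹, (hgP σ x).1 hx, by simp [Perm.mul_apply]⟩
    · rintro ⟨y, hy, rfl⟩
      refine ⟨(g σ)⁻¹ (y (g σ a)), ⟨(g σ)⁻¹ * y * g σ, (hgP σ _).2 ?_, rfl⟩, by simp⟩
      rw [show g σ * ((g σ)⁻¹ * y * g σ) * (g σ)⁻¹ = y by group]
      exact hy
  have hψ : ∀ σ, ∀ O : Ω, (g σ) '' (O : Set α) ∈ Ω := by
    rintro σ ⟨O, a, ha, rfl⟩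
    exact ⟨g σ a, lift_range (hgσ σ) ha, (himg σ a).symm⟩
  have hinjO : ∀ σ, Function.Injective (fun O : Ω => (⟨_, hψ σ O⟩ : Ω)) := fun σ O O' e =>
    Subtype.ext ((Set.image_injective.2 (g σ).injective) (congrArg Subtype.val e))
  let Φ : Perm (Fin r) → Perm Ω := fun σ =>
    Equiv.ofBijective _ (Finite.injective_iff_bijective.1 (hinjO σ))
  have hinj : Function.Injective Φ := by
    intro σ τ e
    have hmem : (g σ)⁻¹ * g τ ∈ N0 G P ι := by
      refine ⟨G.mul_mem (G.inv_mem (hg σ)) (hg τ), fun x => ?_, fun a ha => ?_⟩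
      · rw [show (g σ)⁻¹ * g τ * x * ((g σ)⁻¹ * g τ)⁻¹ = (g σ)⁻¹ * (g τ * x * (g τ)⁻¹) * g σ by group,
          hgP τ x, hgP σ ((g σ)⁻¹ * (g τ * x * (g τ)⁻¹) * g σ),
          show g σ * ((g σ)⁻¹ * (g τ * x * (g τ)⁻¹) * g σ) * (g σ)⁻¹ = g τ * x * (g τ)⁻¹ by group]
      · have h1 : (g σ) '' orb P a = (g τ) '' orb P a :=
          congrArg (fun f : Perm Ω => ((f ⟨orb P a, a, ha, rfl⟩ : Ω) : Set α)) e
        obtain ⟨b, hb, hbe⟩ := h1.ge ⟨a, self_mem_orb a, rfl⟩
        rwa [Perm.mul_apply, ← hbe, show (g σ)⁻¹ (g σ b) = b by simp]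
    have h1 : σ⁻¹ * τ ∈ imageI h := ⟨_, hmem, fun i => by
      rw [Perm.mul_apply, hgσ]
      exact (g σ).injective (by rw [hgσ]; simp)⟩
    rw [hbot, Subgroup.mem_bot, inv_mul_eq_one] at h1
    exact h1
  have := Nat.card_le_card_of_injective Φ hinj
  rw [Nat.card_perm, Nat.card_perm, Nat.card_fin, Nat.card_coe_set_eq, card_orbits h hn hkp] at this
  exact absurd this (not_le.2 ((Nat.factorial_lt (by
    rcases Nat.eq_zero_or_pos k with h0 | h0
    · exfalso
      subst h0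
      rw [zero_mul, zero_add] at hn
      rw [Nat.card_eq_fintype_card] at hr
      omega
    · exact h0)).2 hkr))

/-- Either every element of `N0` acts on `P` as a power, or `G` contains a `p`-cycle. -/
theorem scalar_or_cycle (h : Setting G k p r ι P) (hn : Fintype.card α = k * p + r) (hkp : k < p)
    (hk1 : 1 ≤ k) (hk3 : k ≤ 3) (hr : 3 ≤ r) (hP : IsPreprimitive G α) {g : Perm α} (hg : g ∈ N0 G P ι) :
    alternatingGroup α ≤ G ∨ ∃ m : ℕ, ∀ y ∈ P, g * y * g⁻¹ = y ^ m := by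
  classical
  set Ω := {O : Set α | ∃ a, a ∉ Set.range ι ∧ orb P a = O} with hΩ
  choose M hM using fun O : Ω => exists_exponent h hn hkp hg O.2.choose_spec.1
  have hMO : ∀ O : Ω, ∀ y ∈ P, ∀ b ∈ (O : Set α), (g * y * g⁻¹) b = (y ^ M O) b := fun O y hy b hb =>
    hM O y hy b (O.2.choose_spec.2.symm ▸ hb)
  -- compare two exponents on an orbit
  let same : Ω → Ω → Prop := fun O O' => ∀ y ∈ P, ∀ b ∈ (O : Set α), (y ^ M O) b = (y ^ M O') b
  by_cases hall : ∃ O₀ : Ω, ∀ O, same O O₀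
  · obtain ⟨O₀, hO₀⟩ := hall
    refine Or.inr ⟨M O₀, fun y hy => ?_⟩
    ext b
    by_cases hb : b ∈ Set.range ι
    · obtain ⟨i, rfl⟩ := hb
      rw [h.fix _ ((hg.2.1 y).1 hy), h.fix _ (P.pow_mem hy _)]
    · rw [hMO ⟨orb P b, b, hb, rfl⟩ y hy b (self_mem_orb b)]
      exact hO₀ ⟨orb P b, b, hb, rfl⟩ y hy b (self_mem_orb b)
  left
  push Not at hall
  haveI := Fintype.ofFinite Ω
  have hcard : Fintype.card Ω = k := by
    rw [← Nat.card_eq_fintype_card, Nat.card_coe_set_eq, hΩ, card_orbits h hn hkp]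
  -- exponents agree on an orbit iff they are congruent
  have hsame : ∀ O O', same O O' ↔ M O ≡ M O' [MOD p] := by
    intro O O'
    constructor
    · intro hs
      obtain ⟨a, ha, hO⟩ := O.2
      obtain ⟨x, hx, hxa⟩ := h.moved a ha
      have hper : MulAction.period x a = p := by
        refine ((Nat.dvd_prime hp.out).1 (MulAction.pow_smul_eq_iff_period_dvd.1 ?_)).resolve_left fun h1 => hxa ?_
        · show (x ^ p) a = a
          rw [pow_p h hn hkp hx]; rfl
        · exact MulAction.period_eq_one_iff.1 h1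
      have h2 := hs x hx a (hO ▸ self_mem_orb a)
      rw [Nat.modEq_iff_dvd, ← hper, ← MulAction.zpow_smul_eq_iff_period_dvd]
      show (x ^ ((M O' : ℤ) - (M O : ℤ))) a = a
      rw [zpow_sub, zpow_natCast, zpow_natCast]
      have hc : x ^ M O' * (x ^ M O)⁻¹ = (x ^ M O)⁻¹ * x ^ M O' :=
        ((Commute.refl x).pow_pow _ _).inv_right.eq
      rw [hc, Perm.mul_apply, ← h2]; simp
    · intro hs y hy b _
      rw [pow_eq_pow_mod (M O) (pow_p h hn hkp hy), pow_eq_pow_mod (M O') (pow_p h hn hkp hy),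
        (show M O % p = M O' % p from hs)]
  -- a singular exponent
  obtain ⟨O₁, hO₁⟩ : ∃ O₁ : Ω, ∀ O, O ≠ O₁ → ¬ same O₁ O := by
    by_contra hc
    push Not at hc
    haveI : Nonempty Ω := Fintype.card_pos_iff.1 (by omega)
    have O := Classical.arbitrary Ω
    obtain ⟨O', hne, hOO'⟩ := hc O
    obtain ⟨O₂, hO₂⟩ := hall O
    obtain ⟨O₃, hne3, h23⟩ := hc O₂
    have h32 : ¬ same O₃ O := fun h3 => hO₂ ((hsame _ _).2 (((hsame _ _).1 h23).trans ((hsame _ _).1 h3)))
    have d1 : O ≠ O₂ := fun e => hO₂ (e ▸ fun _ _ _ _ => rfl)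
    have d2 : O' ≠ O₂ := fun e => hO₂ ((hsame _ _).2 ((hsame _ _).1 (e ▸ hOO')).symm)
    have d3 : O₃ ≠ O := fun e => h32 (e ▸ fun _ _ _ _ => rfl)
    have d4 : O₃ ≠ O' := fun e => h32 ((hsame _ _).2 (e ▸ ((hsame _ _).1 hOO').symm))
    have h4 : ({O, O', O₂, O₃} : Finset Ω).card = 4 := by
      rw [Finset.card_insert_of_notMem, Finset.card_insert_of_notMem, Finset.card_pair (Ne.symm hne3)]
      · simp [d2, Ne.symm d4]
      · simp [Ne.symm hne, d1, Ne.symm d3]
    have := Finset.card_le_univ ({O, O', O₂, O₃} : Finset Ω)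
    omega
  have hkey : ∀ S : Finset Ω, O₁ ∉ S → ∃ y ∈ P, (∀ O ∈ S, ∀ b ∈ (O : Set α), y b = b) ∧
      ∃ b ∈ (O₁ : Set α), y b ≠ b := by
    intro S
    induction S using Finset.induction_on with
    | empty =>
      intro _
      obtain ⟨a, ha, hO⟩ := O₁.2
      obtain ⟨x, hx, hxa⟩ := h.moved a ha
      exact ⟨x, hx, by simp, a, hO ▸ self_mem_orb a, hxa⟩
    | insert O S hOS ih =>
      intro hnot
      simp only [Finset.mem_insert, not_or] at hnot
      obtain ⟨y, hy, hyS, b, hb, hyb⟩ := ih hnot.2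
      refine ⟨(g * y * g⁻¹) * (y ^ M O)⁻¹, P.mul_mem ((hg.2.1 y).1 hy) (P.inv_mem (P.pow_mem hy _)), ?_, ?_⟩
      · intro O' hO' c hc
        have hcc : c ∈ (O' : Set α) := hc
        have hz : ∀ (n : ℕ) (O'' : Ω) (c : α), c ∈ (O'' : Set α) → (y ^ n)⁻¹ c ∈ (O'' : Set α) := by
          intro n O'' c hc
          obtain ⟨a, ha, hO''⟩ := O''.2
          rw [← hO''] at hc ⊢
          rw [← orb_eq hc]
          exact ⟨_, P.inv_mem (P.pow_mem hy n), rfl⟩
        rw [Perm.mul_apply, hMO O' y hy _ (hz _ O' c hc)]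
        rcases Finset.mem_insert.1 hO' with e | hS
        · subst e; simp
        · have hfix : ∀ (n : ℕ) (d : α), d ∈ (O' : Set α) → (y ^ n) d = d := fun n => by
            induction n with
            | zero => simp
            | succ n ihn =>
              intro d hd
              rw [pow_succ, Perm.mul_apply, hyS O' hS d hd, ihn d hd]
          rw [show (y ^ M O)⁻¹ c = c from (y ^ M O).injective (by rw [hfix _ c hc]; simp), hfix _ c hc]
      · refine ⟨(y ^ M O) b, ?_, ?_⟩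
        · obtain ⟨a, ha, hO''⟩ := O₁.2
          rw [← hO''] at hb ⊢
          rw [← orb_eq hb]
          exact ⟨_, P.pow_mem hy _, rfl⟩
        · rw [Perm.mul_apply, show (y ^ M O)⁻¹ ((y ^ M O) b) = b by simp, hMO O₁ y hy b hb]
          intro e
          have hper : MulAction.period y b = p := by
            refine ((Nat.dvd_prime hp.out).1 (MulAction.pow_smul_eq_iff_period_dvd.1 ?_)).resolve_left fun h1 => hyb ?_
            · show (y ^ p) b = b
              rw [pow_p h hn hkp hy]; rfl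
            · exact MulAction.period_eq_one_iff.1 h1
          refine hO₁ O (Ne.symm hnot.1) ((hsame _ _).2 ?_)
          rw [Nat.modEq_iff_dvd, ← hper, ← MulAction.zpow_smul_eq_iff_period_dvd]
          show (y ^ ((M O : ℤ) - (M O₁ : ℤ))) b = b
          rw [zpow_sub, zpow_natCast, zpow_natCast,
            show y ^ M O * (y ^ M O₁)⁻¹ = (y ^ M O₁)⁻¹ * y ^ M O from ((Commute.refl y).pow_pow _ _).inv_right.eq,
            Perm.mul_apply, ← e]
          simp
  obtain ⟨y, hy, hfix, b, hb, hyb⟩ := hkey (Finset.univ.erase O₁) (Finset.notMem_erase _ _)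
  have hord : orderOf y = p := orderOf_eq_prime (pow_p h hn hkp hy) fun e => hyb (by rw [e]; rfl)
  have hsub : (y.support : Set α) ⊆ (O₁ : Set α) := by
    intro c hc
    simp only [Finset.mem_coe, Perm.mem_support] at hc
    by_contra hcO
    by_cases hcr : c ∈ Set.range ι
    · obtain ⟨i, rfl⟩ := hcr; exact hc (h.fix y hy i)
    · exact hc (hfix ⟨orb P c, c, hcr, rfl⟩ (Finset.mem_erase.2
        ⟨fun e => hcO (e ▸ self_mem_orb c), Finset.mem_univ _⟩) c (self_mem_orb c))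
  have hcardO : (O₁ : Set α).ncard = p := by
    obtain ⟨a, ha, hO⟩ := O₁.2
    rw [← hO, orb_card h hn hkp ha]
  have hle : y.support.card ≤ p := by
    rw [← hcardO, ← Set.ncard_coe_finset]
    exact Set.ncard_le_ncard hsub (Set.toFinite _)
  have hcyc : y.IsCycle := Perm.isCycle_of_prime_order (hord ▸ hp.out) (by rw [hord]; have := hp.out.pos; omega)
  refine CfsgLib.Perm.alternatingGroup_le_of_prime_cycle hP hp.out ?_ hcyc
    (by rw [← hcyc.orderOf]; exact hord) (h.le hy)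
  rw [Nat.card_eq_fintype_card, hn]
  have : 1 * p ≤ k * p := Nat.mul_le_mul_right p hk1
  omega

/-- `σ` is induced by an element of `N0` centralizing `P`. -/
def Cent (G P : Subgroup (Perm α)) (ι : Fin r ↪ α) (σ : Perm (Fin r)) : Prop :=
  ∃ g ∈ N0 G P ι, (∀ x ∈ P, g * x = x * g) ∧ ∀ i, g (ι i) = ι (σ i)

omit hp in
theorem lift_inv {g : Perm α} {σ : Perm (Fin r)} (hg : ∀ i, g (ι i) = ι (σ i)) :
    ∀ i, g⁻¹ (ι i) = ι (σ⁻¹ i) := fun i => g.injective (by rw [hg]; simp)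

omit hp in
theorem lift_mul {g u : Perm α} {σ τ : Perm (Fin r)} (hg : ∀ i, g (ι i) = ι (σ i))
    (hu : ∀ i, u (ι i) = ι (τ i)) : ∀ i, (g * u) (ι i) = ι ((σ * τ) i) := fun i => by
  rw [Perm.mul_apply, hu, hg]; rfl

theorem Cent.mul (h : Setting G k p r ι P) {σ τ : Perm (Fin r)} (h1 : Cent G P ι σ) (h2 : Cent G P ι τ) :
    Cent G P ι (σ * τ) := by
  obtain ⟨g, hg, hgc, hgσ⟩ := h1
  obtain ⟨u, hu, huc, huτ⟩ := h2
  exact ⟨g * u, N0_mul h hg hu, fun x hx => by rw [mul_assoc, huc x hx, ← mul_assoc, hgc x hx, mul_assoc],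
    lift_mul hgσ huτ⟩

theorem Cent.conj (h : Setting G k p r ι P) (hG : IsMultiplyPretransitive G α (r + 1))
    (hr : r + 1 ≤ Nat.card α) {σ : Perm (Fin r)} (h1 : Cent G P ι σ) (υ : Perm (Fin r)) :
    Cent G P ι (υ * σ * υ⁻¹) := by
  obtain ⟨g, hg, hgc, hgσ⟩ := h1
  obtain ⟨n, hn, hnP, hnυ⟩ := exists_lift h hG hr υ
  refine ⟨n * g * n⁻¹, conj_N0 h hg hn hnP hnυ, fun x hx => ?_, lift_mul (lift_mul hnυ hgσ) (lift_inv hnυ)⟩
  have h2 : n⁻¹ * x * n ∈ P := (hnP _).2 (by rwa [show n * (n⁻¹ * x * n) * n⁻¹ = x by group])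
  calc n * g * n⁻¹ * x = n * (g * (n⁻¹ * x * n)) * n⁻¹ := by group
    _ = n * ((n⁻¹ * x * n) * g) * n⁻¹ := by rw [hgc _ h2]
    _ = x * (n * g * n⁻¹) := by group

theorem Cent.of_comm (h : Setting G k p r ι P) (hn : Fintype.card α = k * p + r) (hkp : k < p)
    {σ τ : Perm (Fin r)} (h1 : σ ∈ imageI h) (h2 : τ ∈ imageI h) : Cent G P ι (σ * τ * σ⁻¹ * τ⁻¹) := by
  obtain ⟨g, hg, hgσ⟩ := h1
  obtain ⟨u, hu, huτ⟩ := h2
  refine ⟨g * u * g⁻¹ * u⁻¹, N0_mul h (N0_mul h (N0_mul h hg hu) (N0_inv h hg)) (N0_inv h hu),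
    fun x hx => ?_, lift_mul (lift_mul (lift_mul hgσ huτ) (lift_inv hgσ)) (lift_inv huτ)⟩
  have hy : (u * g)⁻¹ * x * (u * g) ∈ P := ((N0_mul h hu hg).2.1 _).2 (by
    rwa [show (u * g) * ((u * g)⁻¹ * x * (u * g)) * (u * g)⁻¹ = x by group])
  have e := comm_centralizes h hn hkp hg hu hy
  rw [show (u * g) * ((u * g)⁻¹ * x * (u * g)) * (u * g)⁻¹ = x by group] at e
  calc g * u * g⁻¹ * u⁻¹ * x = (g * u) * ((u * g)⁻¹ * x * (u * g)) * (g * u)⁻¹ * (g * u * g⁻¹ * u⁻¹) := by group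
    _ = x * (g * u * g⁻¹ * u⁻¹) := by rw [e]

/-- An element acting as a power on `P` gives commutators centralizing `P`. -/
theorem Cent.of_scalar (h : Setting G k p r ι P) (hG : IsMultiplyPretransitive G α (r + 1))
    (hr : r + 1 ≤ Nat.card α) {σ : Perm (Fin r)} {g : Perm α} (hg : g ∈ N0 G P ι) (m : ℕ)
    (hm : ∀ y ∈ P, g * y * g⁻¹ = y ^ m) (hgσ : ∀ i, g (ι i) = ι (σ i)) (τ : Perm (Fin r)) :
    Cent G P ι (τ * σ * τ⁻¹ * σ⁻¹) := by
  obtain ⟨n, hn, hnP, hnτ⟩ := exists_lift h hG hr τ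
  refine ⟨n * g * n⁻¹ * g⁻¹, N0_mul h (conj_N0 h hg hn hnP hnτ) (N0_inv h hg), fun x hx => ?_,
    lift_mul (lift_mul (lift_mul hnτ hgσ) (lift_inv hnτ)) (lift_inv hgσ)⟩
  have hz : g⁻¹ * x * g ∈ P := (hg.2.1 _).2 (by rwa [show g * (g⁻¹ * x * g) * g⁻¹ = x by group])
  have hz' : n⁻¹ * (g⁻¹ * x * g) * n ∈ P := (hnP _).2 (by
    rwa [show n * (n⁻¹ * (g⁻¹ * x * g) * n) * n⁻¹ = g⁻¹ * x * g by group])
  have e1 : x = (g⁻¹ * x * g) ^ m := by rw [← hm _ hz]; group
  have e2 : n * (g * (n⁻¹ * (g⁻¹ * x * g) * n) * g⁻¹) * n⁻¹ = x := by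
    rw [hm _ hz']
    conv_rhs => rw [e1]
    rw [← conj_pow]; congr 1; group
  calc n * g * n⁻¹ * g⁻¹ * x = (n * (g * (n⁻¹ * (g⁻¹ * x * g) * n) * g⁻¹) * n⁻¹) * (n * g * n⁻¹ * g⁻¹) := by group
    _ = x * (n * g * n⁻¹ * g⁻¹) := by rw [e2]

theorem finish_double (h : Setting G k p r ι P) (hn : Fintype.card α = k * p + r) (hkp : k < p)
    (hodd : Odd p) (hr4 : 4 ≤ r) (hG : IsMultiplyPretransitive G α (r + 1)) (hr : r + 1 ≤ Nat.card α)
    {σ : Perm (Fin r)} (e : Fin 4 ↪ Fin r) (h1 : ∀ i, σ (e i) = e (d0 i))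
    (h2 : ∀ j, j ∉ Set.range e → σ j = j) (hc : Cent G P ι σ) : alternatingGroup α ≤ G := by
  obtain ⟨g, hg, hgc, hgσ⟩ := hc
  have hgn : ∀ (n : ℕ) (i : Fin r), (g ^ n) (ι i) = ι ((σ ^ n) i) := by
    intro n
    induction n with
    | zero => intro i; rfl
    | succ n ih => intro i; rw [pow_succ, pow_succ, Perm.mul_apply, hgσ, ih]; rfl
  have hσp : σ ^ p = σ := by
    have hσ2 : σ ^ 2 = 1 := by
      refine Equiv.ext fun j => ?_
      rw [pow_two, Perm.mul_apply]
      by_cases hj : j ∈ Set.range e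
      · obtain ⟨i, rfl⟩ := hj
        rw [h1, h1]
        have : ∀ i : Fin 4, d0 (d0 i) = i := by unfold d0; decide +kernel
        rw [this]; rfl
      · rw [h2 j hj, h2 j hj]; rfl
    obtain ⟨q, rfl⟩ := hodd
    rw [pow_succ, pow_mul, hσ2, one_pow, one_mul]
  refine of_double (show 4 ≤ r + 1 by omega) hr (by omega) hG (G.pow_mem hg.1 p) (e.trans ι)
    (fun i => ?_) fun a ha => ?_
  · show (g ^ p) (ι (e i)) = ι (e (d0 i))
    rw [hgn, hσp, h1]
  · by_cases hai : a ∈ Set.range ι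
    · obtain ⟨j, rfl⟩ := hai
      rw [hgn, hσp, h2 j fun ⟨i, hi⟩ => ha ⟨i, by show ι (e i) = ι j; rw [hi]⟩]
    · exact pow_fix h hn hkp hg hgc hai

/-- In degree at most nine an element fixing four points gives the alternating group. -/
theorem of_fix_four (hG : IsMultiplyPretransitive G α 4) (h9 : Nat.card α = 9) {w : Perm α}
    (hw : w ∈ G) (hw1 : w ≠ 1) (e : Fin 4 ↪ α) (he : ∀ i, w (e i) = e i) : alternatingGroup α ≤ G := by
  have hP : IsPreprimitive G α := preprimitive (m := 4) (by omega) (by omega) hG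
  have hs : w.support.card ≤ 5 := by
    have hd : _root_.Disjoint w.support (Finset.univ.map e) := by
      rw [Finset.disjoint_right]
      intro a ha
      obtain ⟨i, -, rfl⟩ := Finset.mem_map.1 ha
      simpa using he i
    have := Finset.card_union_of_disjoint hd
    have := Finset.card_le_univ (w.support ∪ Finset.univ.map e)
    simp only [Finset.card_map, Finset.card_univ, Fintype.card_fin] at *
    rw [Nat.card_eq_fintype_card] at h9
    omega
  have ho : orderOf w ≠ 1 := fun h => hw1 (orderOf_eq_one_iff.1 h)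
  set q := (orderOf w).minFac
  have hq : q.Prime := Nat.minFac_prime ho
  set v := w ^ (orderOf w / q)
  have hv : orderOf v = q := orderOf_pow_orderOf_div (orderOf_pos w).ne' (Nat.minFac_dvd _)
  have hvG : v ∈ G := G.pow_mem hw _
  have hvs : v.support.card ≤ 5 := le_trans (Finset.card_le_card (Perm.support_pow_le w _)) hs
  obtain ⟨n, hn⟩ := Perm.cycleType_prime_order (σ := v) (by rw [hv]; exact hq)
  have hsum : v.support.card = (n + 1) * q := by
    rw [← v.sum_cycleType, hn, hv, Multiset.sum_replicate, smul_eq_mul]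
  rcases Nat.eq_zero_or_pos n with rfl | hn0
  · rw [zero_add, one_mul] at hsum
    refine CfsgLib.Perm.alternatingGroup_le_of_prime_cycle hP hq (by omega) ?_ hsum hvG
    refine Perm.isCycle_of_prime_order (by rw [hv]; exact hq) ?_
    rw [hv, hsum]
    have := hq.pos
    omega
  · have hq2 : q = 2 := by
      have := hq.two_le
      have : 2 * q ≤ (n + 1) * q := Nat.mul_le_mul_right q (by omega)
      omega
    have hcard : v.support.card = 4 := by
      rw [hsum, hq2] at hvs ⊢; omega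
    have hvv : ∀ a, v (v a) = a := fun a => by
      have : v ^ 2 = 1 := by rw [← hq2, ← hv]; exact pow_orderOf_eq_one v
      rw [pow_two] at this
      exact DFunLike.congr_fun this a
    obtain ⟨a, ha⟩ := Finset.card_pos.1 (show 0 < v.support.card by omega)
    have hba : v a ≠ a := Perm.mem_support.1 ha
    obtain ⟨c, hc, hc'⟩ : ∃ c ∈ v.support, c ∉ ({a, v a} : Finset α) := by
      refine Finset.exists_mem_notMem_of_card_lt_card ?_
      rw [Finset.card_pair hba.symm, hcard]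
      omega
    simp only [Finset.mem_insert, Finset.mem_singleton, not_or] at hc'
    have hdc : v c ≠ c := Perm.mem_support.1 hc
    let e' : Fin 4 ↪ α := ⟨![a, v a, c, v c], by
      intro i j hij
      have hx1 : v c ≠ a := fun h => hc'.2 (by rw [← h, hvv])
      have hx2 : v c ≠ v a := fun h => hc'.1 (v.injective h)
      fin_cases i <;> fin_cases j <;>
        simp_all [Ne.symm hba, Ne.symm hdc, Ne.symm hx1, Ne.symm hx2, Ne.symm hc'.1, Ne.symm hc'.2]⟩
    refine of_double (le_refl 4) (by omega) (by omega) hG hvG e' (fun i => ?_) fun x hx => ?_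
    · have q0 : e' 0 = a := rfl
      have q1 : e' 1 = v a := rfl
      have q2 : e' 2 = c := rfl
      have q3 : e' 3 = v c := rfl
      have d : ∀ i : Fin 4, d0 i = ![1, 0, 3, 2] i := by unfold d0; decide +kernel
      rw [d]
      fin_cases i <;> simp [q0, q1, q2, q3, hvv]
    · have hsub : Finset.univ.map e' = v.support := by
        refine Finset.eq_of_subset_of_card_le ?_ (by simp [hcard])
        intro y hy
        obtain ⟨i, -, rfl⟩ := Finset.mem_map.1 hy
        rw [Perm.mem_support]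
        have q0 : e' 0 = a := rfl
        have q1 : e' 1 = v a := rfl
        have q2 : e' 2 = c := rfl
        have q3 : e' 3 = v c := rfl
        fin_cases i <;> simp [q0, q1, q2, q3, hvv, hba, hdc, Ne.symm hba, Ne.symm hdc]
      by_contra hne
      obtain ⟨i, -, rfl⟩ := Finset.mem_map.1 (hsub.ge (Perm.mem_support.2 hne))
      exact hx ⟨i, rfl⟩

theorem nine_arith {i j : ℕ} (hi : i < 6) (hj : j < 6) (h1 : (i * 3) % 6 = 0) (h2 : i ≠ 0)
    (h3 : (i * j) % 6 = i) (h4 : (j * 2) % 6 ≠ 0) (h5 : (j * 3) % 6 ≠ 0) : j = 1 := by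
  interval_cases i <;> interval_cases j <;> omega

set_option maxHeartbeats 1600000 in
/-- The exceptional degree nine. -/
theorem nine (hG : IsMultiplyPretransitive G α 4) (h9 : Nat.card α = 9) (ι : Fin 3 ↪ α)
    {g x : Perm α} (hg : g ∈ G) (hgι : ∀ i, g (ι i) = ι (c0 i)) (hx : x ∈ G)
    (hxι : ∀ i, x (ι i) = ι i) (hxp : x ^ 3 = 1) (hx1 : x ≠ 1) (hgx : g * x = x * g) :
    alternatingGroup α ≤ G := by
  classical
  by_cases hfix : ∀ w ∈ G, ∀ e : Fin 4 ↪ α, (∀ i, w (e i) = e i) → w = 1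
  swap
  · push Not at hfix
    obtain ⟨w, hw, e, he, hw1⟩ := hfix
    exact of_fix_four hG h9 hw hw1 e he
  let H : Subgroup (Perm α) :=
    { carrier := {w | w ∈ G ∧ ∀ i, w (ι i) = ι i}
      mul_mem' := fun {u v} hu hv => ⟨G.mul_mem hu.1 hv.1, fun i => by rw [Perm.mul_apply, hv.2, hu.2]⟩
      one_mem' := ⟨G.one_mem, fun i => rfl⟩
      inv_mem' := fun {u} hu => ⟨G.inv_mem hu.1, fun i => by nth_rw 1 [← hu.2 i]; simp⟩ }
  obtain ⟨a, ha⟩ : ∃ a, a ∉ Set.range ι := by
    by_contra h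
    push Not at h
    have := Nat.card_le_card_of_surjective ι fun a => h a
    rw [Nat.card_fin, h9] at this
    omega
  -- the fixer of `ι` is regular on the other points
  have hreg : ∀ w ∈ H, ∀ b, b ∉ Set.range ι → w b = b → w = 1 := fun w hw b hb hwb =>
    hfix w hw.1 ⟨Fin.snoc ι b, Fin.snoc_injective_iff.2 ⟨ι.injective, hb⟩⟩ fun i => by
      show w ((Fin.snoc (⇑ι) b : Fin 4 → α) i) = (Fin.snoc (⇑ι) b : Fin 4 → α) i
      refine Fin.lastCases ?_ (fun j => ?_) i
      · rw [Fin.snoc_last]; exact hwb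
      · rw [Fin.snoc_castSucc]; exact hw.2 j
  have htrans : ∀ b, b ∉ Set.range ι → ∃ w ∈ H, w a = b := by
    intro b hb
    obtain ⟨w, hw, hwe⟩ := exists_map hG ⟨Fin.snoc ι a, Fin.snoc_injective_iff.2 ⟨ι.injective, ha⟩⟩
      ⟨Fin.snoc ι b, Fin.snoc_injective_iff.2 ⟨ι.injective, hb⟩⟩
    exact ⟨w, ⟨hw, fun i => by simpa using hwe i.castSucc⟩, by
      have h := hwe (Fin.last 3)
      simp only [Function.Embedding.coeFn_mk, Fin.snoc_last] at h
      exact h⟩
  have hout : ∀ w ∈ H, w a ∉ Set.range ι := fun w hw ⟨i, hi⟩ =>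
    ha ⟨i, w.injective (by rw [hw.2, hi])⟩
  have hH6 : Nat.card H = 6 := by
    have e : H ≃ {b : α // b ∉ Set.range ι} := Equiv.ofBijective (fun w => ⟨w.1 a, hout w.1 w.2⟩)
      ⟨fun u v huv => Subtype.ext (inv_mul_eq_one.1 (hreg _ (H.mul_mem (H.inv_mem u.2) v.2) a ha (by
        rw [Perm.mul_apply, ← show u.1 a = v.1 a from congrArg Subtype.val huv]; simp))),
      fun b => by
        obtain ⟨w, hw, hwb⟩ := htrans b.1 b.2
        exact ⟨⟨w, hw⟩, Subtype.ext hwb⟩⟩
    rw [Nat.card_congr e]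
    show Nat.card ((Set.range ι)ᶜ : Set α) = 6
    rw [Nat.card_coe_set_eq, Set.ncard_compl, Set.ncard_range_of_injective ι.injective, Nat.card_fin, h9]
  -- the fixer of two points
  let S : Subgroup (Perm α) :=
    { carrier := {w | w ∈ G ∧ w (ι 0) = ι 0 ∧ w (ι 1) = ι 1}
      mul_mem' := fun {u v} hu hv => ⟨G.mul_mem hu.1 hv.1, by rw [Perm.mul_apply, hv.2.1, hu.2.1],
        by rw [Perm.mul_apply, hv.2.2, hu.2.2]⟩
      one_mem' := ⟨G.one_mem, rfl, rfl⟩
      inv_mem' := fun {u} hu => ⟨G.inv_mem hu.1, by nth_rw 1 [← hu.2.1]; simp, by nth_rw 1 [← hu.2.2]; simp⟩ }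
  have hfin3 : ∀ i : Fin 3, i = 0 ∨ i = 1 ∨ i = 2 := by decide
  have hS : Nat.card S = 42 := by
    have hstab : Nat.card (MulAction.stabilizer S (ι 2)) = Nat.card H := by
      refine Nat.card_congr
        { toFun := fun w => ⟨w.1.1, w.1.2.1, fun i => by
            rcases hfin3 i with rfl | rfl | rfl
            exacts [w.1.2.2.1, w.1.2.2.2, w.2]⟩
          invFun := fun w => ⟨⟨w.1, w.2.1, w.2.2 0, w.2.2 1⟩, w.2.2 2⟩
          left_inv := fun w => rfl
          right_inv := fun w => rfl }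
    have horb : MulAction.orbit S (ι 2) = ({ι 0, ι 1} : Set α)ᶜ := by
      ext b
      constructor
      · rintro ⟨⟨w, hw⟩, rfl⟩ hb
        rcases hb with hb | hb
        · exact absurd (ι.injective (w.injective (hb.trans hw.2.1.symm))) (by decide)
        · exact absurd (ι.injective (w.injective (hb.trans hw.2.2.symm))) (by decide)
      · intro hb
        simp only [Set.mem_compl_iff, Set.mem_insert_iff, Set.mem_singleton_iff, not_or] at hb
        have h01 : ι 0 ≠ ι 1 := ι.injective.ne (by decide)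
        haveI := hG
        have h3 : IsMultiplyPretransitive G α 3 :=
          isMultiplyPretransitive_of_le (n := 4) (by omega) (by omega)
        let y : Fin 3 ↪ α := ⟨![ι 0, ι 1, b], by
          intro i j hij
          fin_cases i <;> fin_cases j <;> simp_all [Ne.symm h01, Ne.symm hb.1, Ne.symm hb.2]⟩
        obtain ⟨w, hw, hwy⟩ := exists_map h3 ι y
        exact ⟨⟨w, hw, hwy 0, hwy 1⟩, hwy 2⟩
    have h1 := (MulAction.stabilizer S (ι 2)).index_mul_card
    rw [hstab, hH6, Subgroup.index_eq_card,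
      ← Nat.card_congr (MulAction.orbitEquivQuotientStabilizer S (ι 2)), horb, Nat.card_coe_set_eq,
      Set.ncard_compl, Set.ncard_pair (ι.injective.ne (by decide)), h9] at h1
    omega
  haveI : Fact (Nat.Prime 7) := ⟨by norm_num⟩
  let N : Sylow 7 S := Classical.arbitrary _
  have hN7 : Nat.card N = 7 := by
    rw [N.card_eq_multiplicity, hS]
    have : (42 : ℕ).factorization 7 = 1 := by
      rw [show (42 : ℕ) = 7 ^ 1 * 6 by norm_num, Nat.factorization_mul (by norm_num) (by norm_num)]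
      simp [Nat.Prime.factorization (show Nat.Prime 7 by norm_num), Nat.factorization_eq_zero_of_not_dvd]
    rw [this, pow_one]
  haveI hNn : (N : Subgroup S).Normal := by
    have h1 := card_sylow_modEq_one 7 S
    have h2 : Nat.card (Sylow 7 S) ∣ (N : Subgroup S).index := N.card_dvd_index
    have hidx : (N : Subgroup S).index = 6 := by
      have := (N : Subgroup S).index_mul_card
      rw [hN7, hS] at this
      omega
    rw [hidx] at h2
    have h3 : Nat.card (Sylow 7 S) = 1 := by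
      have := Nat.le_of_dvd (by norm_num) h2
      unfold Nat.ModEq at h1
      omega
    haveI : Subsingleton (Sylow 7 S) := (Nat.card_eq_one_iff_unique.1 h3).1
    exact N.normal_of_subsingleton
  haveI : IsCyclic N := isCyclic_of_prime_card hN7
  obtain ⟨nu, hnu⟩ := IsCyclic.exists_generator (α := N)
  have hnu7 : orderOf (nu.1.1) = 7 := by
    rw [Subgroup.orderOf_coe, Subgroup.orderOf_coe, orderOf_eq_card_of_forall_mem_zpowers hnu]
    exact hN7
  let c : H →* MulAut N :=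
    (MulAut.conjNormal (H := (N : Subgroup S))).comp
      (Subgroup.inclusion (show H ≤ S from fun w hw => ⟨hw.1, hw.2 0, hw.2 1⟩))
  have hc : Function.Injective c := by
    rw [injective_iff_map_eq_one]
    intro w hw
    have h0 : ((c w nu : N) : S) = (nu : S) := by rw [hw, MulAut.one_apply]
    simp only [c, MonoidHom.comp_apply, MulAut.conjNormal_apply] at h0
    have h1 : (w : Perm α) * nu.1.1 * (w : Perm α)⁻¹ = nu.1.1 := by
      simpa using congrArg Subtype.val h0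
    have hcomm : Commute (w : Perm α) nu.1.1 := mul_inv_eq_iff_eq_mul.1 h1
    have hinj : Function.Injective fun i : Fin 4 => (nu.1.1 ^ (i : ℕ)) (ι 2) := by
      have key : ∀ d : ℕ, 0 < d → d < 4 → (nu.1.1 ^ d) (ι 2) ≠ ι 2 := by
        intro d hd0 hd hfx
        have hmem : nu.1.1 ^ d ∈ H := ⟨G.pow_mem nu.1.2.1 d, fun i => by
          rcases hfin3 i with rfl | rfl | rfl
          exacts [(S.pow_mem nu.1.2 d).2.1, (S.pow_mem nu.1.2 d).2.2, hfx]⟩
        have ho : orderOf (nu.1.1 ^ d) = 7 := by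
          rw [orderOf_pow, hnu7]
          interval_cases d <;> rfl
        have := Subgroup.orderOf_dvd_natCard H hmem
        rw [ho, hH6] at this
        omega
      intro i j hij
      have aux : ∀ i j : Fin 4, i < j → (nu.1.1 ^ (i : ℕ)) (ι 2) = (nu.1.1 ^ (j : ℕ)) (ι 2) → False := by
        intro i j hlt h
        rw [show (j : ℕ) = i + ((j : ℕ) - i) by omega, pow_add, Perm.mul_apply] at h
        exact key _ (by omega) (by omega) ((Equiv.injective _ h).symm)
      rcases lt_trichotomy i j with h | h | h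
      · exact (aux i j h hij).elim
      · exact h
      · exact (aux j i h hij.symm).elim
    refine Subtype.ext (hfix w w.2.1 ⟨_, hinj⟩ fun i => ?_)
    show (w : Perm α) ((nu.1.1 ^ (i : ℕ)) (ι 2)) = (nu.1.1 ^ (i : ℕ)) (ι 2)
    rw [← Perm.mul_apply, (hcomm.pow_right i).eq, Perm.mul_apply, w.2.2 2]
  haveI : IsCyclic (MulAut N) := by
    rw [(IsCyclic.mulAutMulEquiv N).isCyclic, hN7]
    exact ZMod.isCyclic_units_prime (by norm_num)
  haveI : IsCyclic H := isCyclic_of_injective c hc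
  obtain ⟨⟨q, hqH⟩, hq⟩ := IsCyclic.exists_generator (α := H)
  have hq6 : orderOf q = 6 := by
    rw [← Subgroup.orderOf_mk q hqH, orderOf_eq_card_of_forall_mem_zpowers hq, hH6]
  have hpow : ∀ w ∈ H, ∃ i : ℕ, i < 6 ∧ w = q ^ i := by
    intro w hw
    obtain ⟨z, hz⟩ := Subgroup.mem_zpowers_iff.1 (hq ⟨w, hw⟩)
    have hz' : q ^ z = w := by simpa using congrArg Subtype.val hz
    refine ⟨(z % 6).toNat, by omega, ?_⟩
    rw [← hz', ← zpow_natCast, Int.toNat_of_nonneg (by omega)]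
    rw [show (6 : ℤ) = ((orderOf q : ℕ) : ℤ) by rw [hq6]; rfl, zpow_mod_orderOf]
  -- `g` commutes with `q`
  have hgH : g * q * g⁻¹ ∈ H := ⟨G.mul_mem (G.mul_mem hg hqH.1) (G.inv_mem hg), fun i => by
    have hgi : g⁻¹ (ι i) = ι (c0⁻¹ i) := g.injective (by rw [hgι]; simp)
    rw [Perm.mul_apply, Perm.mul_apply, hgi, hqH.2, hgι]; simp⟩
  obtain ⟨j, hj6, hj⟩ := hpow _ hgH
  obtain ⟨i, hi6, hi⟩ := hpow x ⟨hx, hxι⟩
  have hord : ∀ n : ℕ, q ^ n = 1 ↔ n % 6 = 0 := fun n => by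
    rw [← orderOf_dvd_iff_pow_eq_one, hq6, Nat.dvd_iff_mod_eq_zero]
  have hj2 : ∀ n : ℕ, n % 6 ≠ 0 → (j * n) % 6 ≠ 0 := fun n hn h0 => hn ((hord n).1 (by
    rw [← hord, pow_mul, ← hj, conj_pow] at h0
    exact conj_eq_one_iff.1 h0))
  have hij : (i * j) % 6 = i := by
    have h1 : g * x * g⁻¹ = x := by rw [hgx]; group
    rw [hi, ← conj_pow, hj, ← pow_mul] at h1
    have := pow_inj_mod.1 h1
    rw [hq6, Nat.mul_comm, Nat.mod_eq_of_lt hi6] at this
    exact this
  have hi3 : (i * 3) % 6 = 0 := (hord _).1 (by rw [pow_mul, ← hi, hxp])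
  have hi0 : i ≠ 0 := fun h0 => hx1 (by rw [hi, h0, pow_zero])
  have hj1 : j = 1 := by
    exact nine_arith hi6 hj6 hi3 hi0 hij (hj2 2 (by norm_num)) (hj2 3 (by norm_num))
  have hgq : Commute g q := by
    rw [hj1, pow_one] at hj
    exact mul_inv_eq_iff_eq_mul.1 hj
  have hga : g a ∉ Set.range ι := lift_range hgι ha
  obtain ⟨w, hw, hwa⟩ := htrans _ hga
  obtain ⟨l, -, hl⟩ := hpow w hw
  refine of_three (preprimitive (m := 4) (by omega) (by omega) hG)
    (G.mul_mem (G.inv_mem hw.1) hg) ι (fun i => ?_) fun b hb => ?_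
  · rw [Perm.mul_apply, hgι]
    exact (H.inv_mem hw).2 _
  · obtain ⟨u, hu, hub⟩ := htrans b hb
    obtain ⟨s, -, hs⟩ := hpow u hu
    have hcs : Commute (w⁻¹ * g) (q ^ s) := by
      rw [hl]
      exact ((((Commute.refl q).pow_left l).inv_left).mul_left hgq).pow_right s
    rw [← hub, hs, ← Perm.mul_apply, hcs.eq, Perm.mul_apply, Perm.mul_apply, ← hwa]
    simp

/-- The main theorem. -/
theorem main (hn : Fintype.card α = k * p + r) (hk : 1 ≤ k) (hkp : k < p) (hkr : k < r)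
    (hex : ¬ (k = 1 ∧ r = 2)) (hG : IsMultiplyPretransitive G α (r + 1)) : alternatingGroup α ≤ G := by
  classical
  have hp2 := hp.out.two_le
  have hkp2 : p ≤ k * p := Nat.le_mul_of_pos_left p hk
  have hcard : Nat.card α = k * p + r := by rw [Nat.card_eq_fintype_card, hn]
  have hr : r + 1 ≤ Nat.card α := by omega
  haveI := hG
  by_cases h3 : k * p ≤ 3
  · exact _root_.IsMultiplyPretransitive.alternatingGroup_le α G
      (isMultiplyPretransitive_of_le (m := Nat.card α - 2) (n := r + 1) (by omega) hr)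
  have hp3 : 3 ≤ p := by
    rcases lt_or_ge p 3 with h | h
    · interval_cases p
      interval_cases k
      omega
    · exact h
  have hodd : Odd p := hp.out.odd_of_ne_two (by omega)
  have hr3 : 3 ≤ r := by
    rcases lt_or_ge r 3 with h | h
    · exact absurd ⟨by omega, by omega⟩ hex
    · exact h
  have hP := preprimitive (m := r + 1) (by omega) hr hG
  let ι : Fin r ↪ α := (Fin.castLEEmb (show r ≤ Fintype.card α by omega)).trans (Fintype.equivFin α).symm.toEmbedding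
  obtain ⟨P, h⟩ := exists_setting hn hk hG ι
  haveI := imageI_normal h hG hr
  have hI := imageI_ne_bot h hn hkp hkr hG hr
  obtain ⟨σ, hσI, hσ1⟩ := (Subgroup.bot_or_exists_ne_one _).resolve_left hI
  have hIc : ∀ τ : Perm (Fin r), ∀ s ∈ imageI h, τ * s * τ⁻¹ ∈ imageI h := fun τ s hs =>
    Subgroup.Normal.conj_mem inferInstance s hs τ
  have hIcomm : ∀ τ υ : Perm (Fin r), ∀ s ∈ imageI h, υ * (τ * s * τ⁻¹ * s⁻¹) * υ⁻¹ ∈ imageI h :=
    fun τ υ s hs => hIc υ _ (mul_mem (hIc τ s hs) (inv_mem hs))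
  obtain rfl | rfl | h5 : r = 3 ∨ r = 4 ∨ 5 ≤ r := by omega
  · -- three points
    obtain ⟨τ, υ, e⟩ := three_target σ hσ1
    obtain ⟨g, hg, hgc0⟩ := e ▸ hIcomm τ υ σ hσI
    rcases scalar_or_cycle h hn hkp hk (by omega) le_rfl hP hg with hA | ⟨m, hm⟩
    · exact hA
    obtain ⟨τ', υ', e'⟩ := three_target c0 (by unfold c0; decide +kernel)
    have hc : Cent G P ι c0 := e' ▸ (Cent.of_scalar h hG hr hg m hm hgc0 τ').conj h hG hr υ'
    rcases eq_or_ne p 3 with rfl | hp3'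
    · -- degree nine
      have hk2 : k = 2 := by omega
      subst hk2
      obtain ⟨u, hu, huc, huι⟩ := hc
      obtain ⟨a, ha⟩ : ∃ a, a ∉ Set.range ι := by
        by_contra hh
        push Not at hh
        have := Nat.card_le_card_of_surjective ι fun a => hh a
        rw [Nat.card_fin, hcard] at this
        omega
      obtain ⟨x, hx, hxa⟩ := h.moved a ha
      exact nine hG (by omega) ι hu.1 huι (h.le hx) (h.fix x hx) (pow_p h hn hkp hx)
        (fun h1 => hxa (by rw [h1]; rfl)) (huc x hx)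
    have hex' : ∃ σ', Cent G P ι σ' ∧ σ' ^ p = c0 := by
      have h3' : c0 ^ 3 = 1 := by unfold c0; decide +kernel
      rcases (show p % 3 = 1 ∨ p % 3 = 2 by
        have := (Nat.prime_dvd_prime_iff_eq Nat.prime_three hp.out).not.2 (Ne.symm hp3')
        omega) with h1 | h1
      · exact ⟨c0, hc, by rw [pow_eq_pow_mod p h3', h1, pow_one]⟩
      · exact ⟨c0 * c0, hc.mul h hc, by
          rw [← pow_two, ← pow_mul, pow_eq_pow_mod _ h3', Nat.mul_mod, h1]; norm_num⟩
    obtain ⟨σ', ⟨u, hu, huc, huι⟩, hσ'⟩ := hex'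
    have hun : ∀ (n : ℕ) (i : Fin 3), (u ^ n) (ι i) = ι ((σ' ^ n) i) := by
      intro n
      induction n with
      | zero => intro i; rfl
      | succ n ih => intro i; rw [pow_succ, pow_succ, Perm.mul_apply, huι, ih]; rfl
    exact of_three hP (G.pow_mem hu.1 p) ι (fun i => by rw [hun, hσ']) fun a ha => pow_fix h hn hkp hu huc ha
  · -- four points
    have aux : ∀ σ : Perm (Fin 4), σ ≠ 1 → ∃ τ, Perm.sign (τ * σ * τ⁻¹ * σ⁻¹) = 1 ∧
        τ * σ * τ⁻¹ * σ⁻¹ ≠ 1 := by decide +kernel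
    obtain ⟨τ₁, hs, hne⟩ := aux σ hσ1
    obtain ⟨τ, υ, e⟩ := four_target_aux _ hs hne
    obtain ⟨g, hg, hgd0⟩ := e ▸ hIcomm τ υ _ (mul_mem (hIc τ₁ σ hσI) (inv_mem hσI))
    rcases scalar_or_cycle h hn hkp hk (by omega) (by omega) hP hg with hA | ⟨m, hm⟩
    · exact hA
    obtain ⟨τ', υ', e'⟩ := four_target_aux d0 (by unfold d0; decide +kernel) (by unfold d0; decide +kernel)
    exact finish_double h hn hkp hodd le_rfl hG hr (Function.Embedding.refl _) (fun i => rfl)
      (fun j hj => absurd ⟨j, rfl⟩ hj) (e' ▸ (Cent.of_scalar h hG hr hg m hm hgd0 τ').conj h hG hr υ')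
  · -- five or more points
    let f : Fin 4 ↪ Fin r := Fin.castLEEmb (show 4 ≤ r by omega)
    haveI : Nontrivial (imageI h) := (Subgroup.nontrivial_iff_ne_bot _).2 hI
    have hA : alternatingGroup (Fin r) ≤ imageI h :=
      Equiv.Perm.alternatingGroup_le_of_normal (by rw [Nat.card_fin]; omega) inferInstance
    have hsgn : ∀ s : Perm (Fin 4), Perm.sign s = 1 → Perm.viaEmbeddingHom f s ∈ imageI h := fun s hs =>
      hA (by
        rw [Perm.mem_alternatingGroup]
        show Perm.sign (Perm.viaEmbedding s f) = 1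
        rw [Perm.viaEmbedding, Perm.sign_extendDomain, hs])
    obtain ⟨s, t, hs, ht, e⟩ := commutator_target
    have hc := Cent.of_comm h hn hkp (hsgn s hs) (hsgn t ht)
    rw [← map_inv, ← map_inv, ← map_mul, ← map_mul, ← map_mul, e] at hc
    exact finish_double h hn hkp hodd (by omega) hG hr f (fun i => Perm.viaEmbedding_apply _ _ i)
      (fun j hj => Perm.viaEmbedding_apply_of_notMem _ _ j hj) hc


end CfsgLib.HighTransitive
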