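import Mathlib.GroupTheory.Index
import Mathlib.Algebra.Group.Subgroup.Finite
import Mathlib.Algebra.Group.Pi.Lemmas
import Mathlib.Algebra.BigOperators.Group.List.Basic
import Mathlib.Data.Fintype.Card
import Mathlib.Data.Finite.Prod
import Mathlib.Logic.Equiv.Fin.Basic
import Mathlib.GroupTheory.Coset.Card
import Mathlib.Tactic.Group

/-!
The theorem of Krull, Remak and Schmidt for finite groups.
-/

set_option autoImplicit false

universe u v

namespace CfsgLib.KrullSchmidt

/-- Directly indecomposable. -/
def Indec (A : Type*) [Group A] : Prop :=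
  Nontrivial A ∧ ∀ H K : Subgroup A, H.Normal → K.Normal → H ⊓ K = ⊥ → H ⊔ K = ⊤ → H = ⊥ ∨ K = ⊥

/-- An endomorphism commuting with the inner automorphisms. -/
def NormalEndo {A : Type*} [Group A] (f : A →* A) : Prop :=
  ∀ a x : A, f (a * x * a⁻¹) = a * f x * a⁻¹

variable {A : Type*} [Group A] [Finite A]

theorem normal_range {f : A →* A} (hf : NormalEndo f) : f.range.Normal :=
  ⟨fun _ ⟨x, hx⟩ a => ⟨a * x * a⁻¹, by rw [hf, hx]⟩⟩

theorem normalEndo_pow {f : A →* A} (hf : NormalEndo f) :
    ∀ n : ℕ, ∃ g : A →* A, NormalEndo g ∧ ∀ x, g x = f^[n] x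
  | 0 => ⟨MonoidHom.id A, fun _ _ => rfl, fun _ => rfl⟩
  | n + 1 => by
    obtain ⟨g, hg, hg'⟩ := normalEndo_pow hf n
    refine ⟨g.comp f, fun a x => ?_, fun x => ?_⟩
    · simp [hf a x, hg a]
    · simp [hg', Function.iterate_succ_apply]

/-- Fitting's lemma. -/
theorem bijective_or_nilpotent (hA : Indec A) {f : A →* A} (hf : NormalEndo f) :
    Function.Bijective f ∨ ∀ x, ∃ n : ℕ, f^[n] x = 1 := by
  classical
  by_cases hinj : Function.Injective f
  · exact Or.inl (Finite.injective_iff_bijective.1 hinj)
  right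
  haveI := Fintype.ofFinite A
  -- stabilisation of the kernels
  set c : ℕ → ℕ := fun n => (Finset.univ.filter fun x => f^[n] x = 1).card
  have hmono : ∀ n, c n ≤ c (n + 1) := fun n => Finset.card_le_card fun x hx => by
    simp only [Finset.mem_filter, Finset.mem_univ, true_and] at hx ⊢
    rw [Function.iterate_succ_apply', hx, map_one]
  have hmon : Monotone c := monotone_nat_of_le_succ hmono
  obtain ⟨N, hN⟩ : ∃ N, ∀ n, N ≤ n → c n = c N := by
    have hb : BddAbove (Set.range c) := ⟨Fintype.card A, by
      rintro _ ⟨n, rfl⟩; exact Finset.card_le_univ _⟩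
    obtain ⟨N, hN⟩ := Nat.sSup_mem (Set.range_nonempty c) hb
    exact ⟨N, fun n hn => le_antisymm (hN ▸ le_csSup hb ⟨n, rfl⟩) (hmon hn)⟩
  obtain ⟨g, hg, hg'⟩ := normalEndo_pow hf (N + 1)
  have hdisj : g.ker ⊓ g.range = ⊥ := by
    refine (Subgroup.eq_bot_iff_forall _).2 ?_
    rintro _ ⟨h1, y, rfl⟩
    have hy2 : f^[N + 1 + (N + 1)] y = 1 := by
      rw [Function.iterate_add_apply, ← hg', ← hg']
      exact MonoidHom.mem_ker.1 h1
    have heq : (Finset.univ.filter fun x => f^[N + 1] x = 1) =
        Finset.univ.filter fun x => f^[N + 1 + (N + 1)] x = 1 := by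
      refine Finset.eq_of_subset_of_card_le (fun x hx => ?_) ?_
      · simp only [Finset.mem_filter, Finset.mem_univ, true_and] at hx ⊢
        rw [Function.iterate_add_apply, hx, Function.iterate_fixed (map_one f)]
      · show c (N + 1 + (N + 1)) ≤ c (N + 1)
        rw [hN _ (by omega), hN (N + 1) (by omega)]
    have : y ∈ (Finset.univ.filter fun x => f^[N + 1] x = 1) := by
      rw [heq]; simp [hy2]
    rw [hg']
    exact (Finset.mem_filter.1 this).2
  haveI := normal_range hg
  have hsup : g.ker ⊔ g.range = ⊤ := by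
    refine (Subgroup.card_eq_iff_eq_top _).1 ?_
    have h1 : Nat.card (g.ker ⊔ g.range : Subgroup A) = Nat.card g.ker * Nat.card g.range := by
      have h3 := Subgroup.relIndex_mul_relIndex ⊥ g.range (g.ker ⊔ g.range) bot_le le_sup_right
      rw [Subgroup.relIndex_bot_left, Subgroup.relIndex_bot_left, Subgroup.relIndex_sup_right,
        ← Subgroup.inf_relIndex_left, hdisj, Subgroup.relIndex_bot_left] at h3
      rw [← h3, mul_comm]
    rw [h1, ← Nat.card_congr (QuotientGroup.quotientKerEquivRange g).toEquiv, mul_comm]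
    exact (Subgroup.card_eq_card_quotient_mul_card_subgroup g.ker).symm
  rcases hA.2 g.ker g.range inferInstance (normal_range hg) hdisj hsup with h | h
  · exfalso
    apply hinj
    intro x y hxy
    have : g x = g y := by
      rw [hg', hg', Function.iterate_succ_apply, Function.iterate_succ_apply, hxy]
    exact (g.ker_eq_bot_iff.1 h) this
  · intro x
    refine ⟨N + 1, ?_⟩
    rw [← hg']
    have : g x ∈ g.range := ⟨x, rfl⟩
    rw [h] at this
    simpa using this

theorem normalEndo_symm {e : A ≃* A} (h : NormalEndo e.toMonoidHom) :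
    NormalEndo e.symm.toMonoidHom := fun a x => e.injective (by
  simp only [MulEquiv.coe_toMonoidHom, MulEquiv.apply_symm_apply]
  have := h a (e.symm x)
  simp only [MulEquiv.coe_toMonoidHom, MulEquiv.apply_symm_apply] at this
  exact this.symm)

/-- If a pointwise product of two normal endomorphisms is bijective, so is one of them. -/
theorem bijective_of_mul (hA : Indec A) {s f t : A →* A} (hf : NormalEndo f)
    (ht : NormalEndo t) (hst : ∀ x, t x = s x * f x) (htb : Function.Bijective t) :
    Function.Bijective s ∨ Function.Bijective f := by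
  let e := MulEquiv.ofBijective t htb
  have he : NormalEndo e.symm.toMonoidHom := normalEndo_symm (e := e) ht
  have hf' : NormalEndo (e.symm.toMonoidHom.comp f) := fun a x => by
    simp only [MonoidHom.comp_apply, hf a x]
    exact he a (f x)
  rcases bijective_or_nilpotent hA hf' with h | h
  · right
    have h2 := e.bijective.comp h
    have : (e : A → A) ∘ (e.symm.toMonoidHom.comp f) = f := by ext x; simp
    rwa [this] at h2
  · left
    refine Finite.injective_iff_bijective.1 ((injective_iff_map_eq_one s).2 fun x hx => ?_)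
    have hfx : e.symm (f x) = x := by
      apply e.injective
      rw [MulEquiv.apply_symm_apply]
      show f x = t x
      rw [hst, hx, one_mul]
    obtain ⟨n, hn⟩ := h x
    rwa [Function.iterate_fixed (show (e.symm.toMonoidHom.comp f) x = x from hfx)] at hn

section Exchange

variable {n : ℕ} {A' : Type*} [Group A'] {B : Fin n → Type v} [∀ j, Group (B j)]

theorem exchange [Finite A] [∀ j, Finite (B j)] (hA : Indec A) (hB : ∀ j, Indec (B j))
    (e : A × A' ≃* ((j : Fin n) → B j)) :
    ∃ j, ∃ α : A ≃* B j, Function.Bijective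
      (fun b : B j => (e.symm (Pi.mulSingle j b)).1) ∧ ∀ a, α a = e (a, 1) j := by
  classical
  let β : (j : Fin n) → B j →* A := fun j =>
    (MonoidHom.fst A A').comp (e.symm.toMonoidHom.comp (MonoidHom.mulSingle B j))
  let α : (j : Fin n) → A →* B j := fun j =>
    (Pi.evalMonoidHom B j).comp (e.toMonoidHom.comp (MonoidHom.inl A A'))
  -- conjugation in one coordinate
  have hsingle : ∀ (g : (j : Fin n) → B j) (j : Fin n) (b : B j),
      g * Pi.mulSingle j b * g⁻¹ = Pi.mulSingle j (g j * b * (g j)⁻¹) := by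
    intro g j b
    funext i
    rcases eq_or_ne i j with rfl | hne
    · simp
    · simp [Pi.mulSingle_eq_of_ne hne]
  have hf : ∀ j, NormalEndo ((β j).comp (α j)) := by
    intro j a x
    have h1 : α j (a * x * a⁻¹) = e (a, 1) j * α j x * (e (a, 1) j)⁻¹ := by
      simp [α, map_mul, map_inv]
    simp only [MonoidHom.comp_apply, h1]
    show (e.symm (Pi.mulSingle j _)).1 = _
    rw [← hsingle, map_mul, map_mul, map_inv, MulEquiv.symm_apply_apply]
    rfl
  -- partial products
  let cut : ℕ → A → ((j : Fin n) → B j) := fun k a j => if (j : ℕ) < k then e (a, 1) j else 1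
  let s : ℕ → A →* A := fun k => MonoidHom.mk' (fun a => (e.symm (cut k a)).1) fun a b => by
    rw [← Prod.fst_mul, ← map_mul]
    congr 2
    funext j
    simp only [cut, Pi.mul_apply]
    split_ifs
    · rw [show ((a * b, 1) : A × A') = (a, 1) * (b, 1) by simp, map_mul, Pi.mul_apply]
    · simp
  have hs : ∀ k, NormalEndo (s k) := by
    intro k a x
    show (e.symm (cut k (a * x * a⁻¹))).1 = a * (e.symm (cut k x)).1 * a⁻¹
    have : cut k (a * x * a⁻¹) = e (a, 1) * cut k x * (e (a, 1))⁻¹ := by
      funext j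
      simp only [cut, Pi.mul_apply, Pi.inv_apply]
      split_ifs
      · rw [show ((a * x * a⁻¹, 1) : A × A') = (a, 1) * (x, 1) * (a, 1)⁻¹ by simp, map_mul, map_mul,
          map_inv]
        rfl
      · simp
    rw [this, map_mul, map_mul, map_inv, MulEquiv.symm_apply_apply]
    rfl
  have hex : ∀ k, k ≤ n → Function.Bijective (s k) → ∃ j, Function.Bijective ((β j).comp (α j)) := by
    intro k
    induction k with
    | zero =>
      intro _ hb
      exfalso
      obtain ⟨a, ha⟩ := @exists_ne A hA.1 1
      refine ha (hb.1 (?_ : s 0 a = s 0 1))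
      rw [map_one]
      show (e.symm (cut 0 a)).1 = 1
      rw [show cut 0 a = 1 from funext fun j => by simp [cut], map_one]
      rfl
    | succ k ih =>
      intro hk hb
      have hdec : ∀ x, s (k + 1) x = s k x * (β ⟨k, hk⟩).comp (α ⟨k, hk⟩) x := by
        intro x
        show (e.symm (cut (k + 1) x)).1 = (e.symm (cut k x)).1 * (e.symm (Pi.mulSingle ⟨k, hk⟩ _)).1
        rw [← Prod.fst_mul, ← map_mul]
        congr 2
        funext j
        simp only [cut, Pi.mul_apply]
        rcases lt_trichotomy (j : ℕ) k with h | h | h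
        · rw [if_pos (by omega), if_pos h, Pi.mulSingle_eq_of_ne (by rintro rfl; simp at h), mul_one]
        · have : j = ⟨k, hk⟩ := Fin.ext h
          subst this
          rw [if_pos (by simp), if_neg (by simp), Pi.mulSingle_eq_same, one_mul]
          rfl
        · rw [if_neg (by omega), if_neg (by omega),
            Pi.mulSingle_eq_of_ne (by rintro rfl; simp at h), mul_one]
      rcases bijective_of_mul hA (hf _) (hs _) hdec hb with h | h
      · exact ih (by omega) h
      · exact ⟨_, h⟩
  obtain ⟨j, hj⟩ := hex n le_rfl (by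
    have : (s n : A → A) = id := by
      funext a
      show (e.symm (cut n a)).1 = a
      rw [show cut n a = e (a, 1) from funext fun j => by simp [cut, j.2], MulEquiv.symm_apply_apply]
    rw [this]; exact Function.bijective_id)
  -- `B j` is the image of `A`
  have hinj : Function.Injective (α j) := Function.Injective.of_comp (f := β j) hj.1
  haveI hRn : (α j).range.Normal := by
    constructor
    rintro _ ⟨a, rfl⟩ b
    refine ⟨(e.symm (Pi.mulSingle j b)).1 * a * (e.symm (Pi.mulSingle j b)).1⁻¹, ?_⟩
    set p := e.symm (Pi.mulSingle j b)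
    show e (p.1 * a * p.1⁻¹, 1) j = b * e (a, 1) j * b⁻¹
    rw [show ((p.1 * a * p.1⁻¹, 1) : A × A') = p * (a, 1) * p⁻¹ by
        refine Prod.ext ?_ ?_ <;> simp, map_mul, map_mul, map_inv, MulEquiv.apply_symm_apply]
    simp
  have hd : (α j).range ⊓ (β j).ker = ⊥ := by
    refine (Subgroup.eq_bot_iff_forall _).2 ?_
    rintro _ ⟨⟨a, rfl⟩, h⟩
    have : ((β j).comp (α j)) a = ((β j).comp (α j)) 1 := by
      rw [map_one]; exact MonoidHom.mem_ker.1 h
    rw [hj.1 this, map_one]
  have hs' : (α j).range ⊔ (β j).ker = ⊤ := by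
    refine eq_top_iff.2 fun b _ => ?_
    obtain ⟨a, ha⟩ := hj.2 (β j b)
    rw [show b = α j a * ((α j a)⁻¹ * b) by group]
    refine Subgroup.mul_mem _ (Subgroup.mem_sup_left ⟨a, rfl⟩) (Subgroup.mem_sup_right ?_)
    rw [MonoidHom.mem_ker, map_mul, map_inv, ← ha]
    exact inv_mul_cancel _
  have hker : (β j).ker = ⊥ := by
    refine ((hB j).2 _ _ hRn inferInstance hd hs').resolve_left fun h => ?_
    obtain ⟨a, ha⟩ := @exists_ne A hA.1 1
    refine ha (hinj (?_ : α j a = α j 1))
    rw [map_one]
    exact Subgroup.mem_bot.1 (h ▸ ⟨a, rfl⟩)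
  rw [hker, sup_bot_eq] at hs'
  refine ⟨j, MulEquiv.ofBijective (α j) ⟨hinj, MonoidHom.range_eq_top.1 hs'⟩, ?_, fun _ => rfl⟩
  exact ⟨(β j).ker_eq_bot_iff.1 hker, fun a => by
    obtain ⟨x, hx⟩ := hj.2 a
    exact ⟨α j x, hx⟩⟩

end Exchange

theorem main : ∀ (m n : ℕ) (A : Fin m → Type u) (B : Fin n → Type v) [∀ i, Group (A i)]
    [∀ j, Group (B j)] [∀ i, Finite (A i)] [∀ j, Finite (B j)],
    (∀ i, Indec (A i)) → (∀ j, Indec (B j)) → ((i : Fin m) → A i) ≃* ((j : Fin n) → B j) →
    ∃ σ : Fin m ≃ Fin n, ∀ i, Nonempty (A i ≃* B (σ i)) := by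
  intro m
  induction m with
  | zero =>
    intro n A B _ _ _ _ _ hB e
    have hn : n = 0 := by
      by_contra h
      obtain ⟨b, hb⟩ := @exists_ne (B ⟨0, Nat.pos_of_ne_zero h⟩) (hB _).1 1
      refine hb ?_
      have : e.symm (Pi.mulSingle ⟨0, Nat.pos_of_ne_zero h⟩ b) = e.symm 1 := Subsingleton.elim _ _
      simpa using congrFun (e.symm.injective this) ⟨0, Nat.pos_of_ne_zero h⟩
    subst hn
    exact ⟨Equiv.refl _, fun i => i.elim0⟩
  | succ m ih =>
    intro n A B _ _ _ _ hA hB e
    let split : A 0 × ((i : Fin m) → A i.succ) ≃* ((i : Fin (m + 1)) → A i) :=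
      { Fin.consEquiv A with
        map_mul' := fun x y => by
          funext i
          refine Fin.cases ?_ (fun i => ?_) i <;> simp }
    obtain ⟨j, α, hβ, -⟩ := exchange (hA 0) hB (split.trans e)
    obtain ⟨n, rfl⟩ : ∃ n', n = n' + 1 := ⟨n - 1, by have := j.2; omega⟩
    let h : ((i : Fin m) → A i.succ) →* ((i : Fin n) → B (j.succAbove i)) :=
      MonoidHom.mk' (fun x i => (split.trans e) (1, x) (j.succAbove i)) fun x y => by
        funext i
        show (split.trans e) (1, x * y) _ = _
        rw [show ((1, x * y) : A 0 × ((i : Fin m) → A i.succ)) = (1, x) * (1, y) by simp, map_mul]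
        rfl
    have hinj : Function.Injective h := by
      refine (injective_iff_map_eq_one h).2 fun x hx => ?_
      have h1 : (split.trans e) (1, x) = Pi.mulSingle j ((split.trans e) (1, x) j) := by
        funext i
        rcases eq_or_ne i j with rfl | hne
        · rw [Pi.mulSingle_eq_same]
        · obtain ⟨i', rfl⟩ := Fin.exists_succAbove_eq hne
          rw [Pi.mulSingle_eq_of_ne hne]
          exact congrFun hx i'
      set b := (split.trans e) (1, x) j
      have h2 : (split.trans e).symm (Pi.mulSingle j b) = (1, x) := by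
        rw [← h1, MulEquiv.symm_apply_apply]
      have hb : b = 1 := hβ.1 (by simp [h2])
      rw [hb, Pi.mulSingle_one, map_one] at h2
      exact (congrArg Prod.snd h2).symm
    have hbij : Function.Bijective h := by
      refine ⟨hinj, ((Nat.bijective_iff_injective_and_card _).2 ⟨hinj, ?_⟩).2⟩
      have h1 := Nat.card_congr (split.trans e).toEquiv
      rw [Nat.card_prod, Nat.card_congr α.toEquiv, Nat.card_congr (Fin.insertNthEquiv B j).symm,
        Nat.card_prod] at h1
      exact Nat.eq_of_mul_eq_mul_left Nat.card_pos h1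
    obtain ⟨σ, hσ⟩ := ih n (fun i => A i.succ) (fun i => B (j.succAbove i)) (fun i => hA _)
      (fun i => hB _) (MulEquiv.ofBijective h hbij)
    refine ⟨((finSuccEquiv m).trans (Equiv.optionCongr σ)).trans (finSuccEquiv' j).symm, ?_⟩
    refine Fin.cases ?_ (fun i => ?_)
    · simp only [Equiv.trans_apply, finSuccEquiv_zero, Equiv.optionCongr_apply, Option.map_none,
        finSuccEquiv'_symm_none]
      exact ⟨α⟩
    · simp only [Equiv.trans_apply, finSuccEquiv_succ, Equiv.optionCongr_apply, Option.map_some,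
        finSuccEquiv'_symm_some]
      exact hσ i

end CfsgLib.KrullSchmidt
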