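import Mathlib.FieldTheory.Finite.GaloisField
import Mathlib.NumberTheory.LegendreSymbol.Complex
import Mathlib.RingTheory.AdjoinRoot
import Mathlib.Algebra.Polynomial.SpecificDegree
import Mathlib.Analysis.Complex.Basic
import Mathlib.Analysis.SpecialFunctions.Complex.Circle

/-!
Pairs of norm-one elements with sum two in finite fields.
-/

set_option autoImplicit false

namespace CfsgLib.NormOnePairs

open Finset Polynomial
open scoped ComplexConjugate

section Count

variable {F : Type*} [Field F] [Fintype F] [DecidableEq F]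

/-- The counting estimate. -/
theorem count (k : ℕ) (hk : 0 < k) (t : F) (ht : t ≠ 0) (A : Finset F) (hA : ∀ x, x ∈ A ↔ x ^ k = 1) :
    (A.card : ℝ) ^ 2 ≤ Fintype.card F * ((A.filter fun a => t - a ∈ A).card : ℝ) +
      Fintype.card F * Real.sqrt (Fintype.card F) := by
  set ψ := AddChar.FiniteField.primitiveChar_to_Complex F
  have hψ : ψ.IsPrimitive := AddChar.FiniteField.primitiveChar_to_Complex_isPrimitive F
  set P := Fintype.card F
  have hP0 : (0 : ℝ) < P := by exact_mod_cast Fintype.card_pos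
  have hApos : (0 : ℝ) < A.card := by
    have : (1 : F) ∈ A := (hA 1).2 (one_pow k)
    exact_mod_cast Finset.card_pos.2 ⟨1, this⟩
  let S : F → ℂ := fun c => ∑ a ∈ A, ψ (c * a)
  -- invariance under multiplication by `A`
  have hinv : ∀ a ∈ A, ∀ c, S (c * a) = S c := by
    intro a ha c
    have ha0 : a ≠ 0 := fun h => by
      have := (hA a).1 ha
      rw [h, zero_pow hk.ne'] at this
      exact zero_ne_one this
    refine Finset.sum_nbij' (fun x => a * x) (fun x => a⁻¹ * x) ?_ ?_ ?_ ?_ ?_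
    · intro x hx
      exact (hA _).2 (by rw [mul_pow, (hA a).1 ha, (hA x).1 hx, one_mul])
    · intro x hx
      exact (hA _).2 (by rw [mul_pow, inv_pow, (hA a).1 ha, (hA x).1 hx]; simp)
    · intro x _; simp [ha0]
    · intro x _; simp [ha0]
    · intro x _; rw [mul_assoc]
  -- Parseval
  have hconj : ∀ c, conj (S c) = ∑ a ∈ A, ψ (-(c * a)) := fun c => by
    rw [map_sum]
    exact Finset.sum_congr rfl fun a _ => (AddChar.map_neg_eq_conj ψ _).symm
  have hpars : ∑ c, Complex.normSq (S c) = (P : ℝ) * A.card := by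
    have h : ∑ c, (S c * conj (S c)) = (P : ℂ) * A.card := by
      simp only [hconj, S, Finset.sum_mul, Finset.mul_sum]
      rw [Finset.sum_comm]
      simp only [← AddChar.map_add_eq_mul]
      have : ∀ a ∈ A, ∑ c, ∑ b ∈ A, ψ (c * b + -(c * a)) = (P : ℂ) := by
        intro a ha
        rw [Finset.sum_comm]
        simp only [show ∀ c b : F, c * b + -(c * a) = c * (b - a) from fun c b => by ring,
          AddChar.sum_mulShift _ hψ, sub_eq_zero]
        rw [Finset.sum_eq_single a]
        · simp [P]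
        · intro b _ hb; simp [hb]
        · exact fun h => absurd ha h
      rw [Finset.sum_congr rfl this, Finset.sum_const, nsmul_eq_mul, mul_comm]
    simp only [Complex.mul_conj, ← Complex.ofReal_sum] at h
    exact_mod_cast h
  have hmax : ∀ c ≠ 0, ‖S c‖ ≤ Real.sqrt P := by
    intro c hc
    apply Real.le_sqrt_of_sq_le
    have h1 : ∑ a ∈ A, Complex.normSq (S (c * a)) ≤ ∑ x, Complex.normSq (S x) := by
      rw [← Finset.sum_image (f := fun x => Complex.normSq (S x)) (g := fun a => c * a)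
        fun a _ b _ h => mul_left_cancel₀ hc h]
      exact Finset.sum_le_univ_sum_of_nonneg fun x => Complex.normSq_nonneg _
    rw [Finset.sum_congr rfl fun a ha => by rw [hinv a ha], Finset.sum_const, nsmul_eq_mul, hpars,
      mul_comm (P : ℝ)] at h1
    rw [← Complex.normSq_eq_norm_sq]
    exact le_of_mul_le_mul_left h1 hApos
  -- the main identity
  set N := (A.filter fun a => t - a ∈ A).card
  have hid : ∑ c, S c * S c * ψ (-(c * t)) = (P : ℂ) * N := by
    simp only [S, Finset.sum_mul, Finset.mul_sum]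
    rw [Finset.sum_comm]
    simp only [← AddChar.map_add_eq_mul]
    have : ∀ a ∈ A, ∑ c, ∑ b ∈ A, ψ (c * b + c * a + -(c * t)) = if t - a ∈ A then (P : ℂ) else 0 := by
      intro a _
      rw [Finset.sum_comm]
      simp only [show ∀ c b : F, c * b + c * a + -(c * t) = c * (b - (t - a)) from fun c b => by ring,
        AddChar.sum_mulShift _ hψ, sub_eq_zero]
      simp [P]
    rw [Finset.sum_congr rfl this, Finset.sum_ite, Finset.sum_const, Finset.sum_const_zero, add_zero,
      nsmul_eq_mul, mul_comm]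
  have hzero : S 0 = A.card := by simp [S]
  set U := (Finset.univ : Finset F).erase 0
  have hsplit : ∑ c ∈ U, S c * S c * ψ (-(c * t)) = (P : ℂ) * N - (A.card : ℂ) ^ 2 := by
    rw [← hid, ← Finset.add_sum_erase _ _ (Finset.mem_univ (0 : F)), hzero]
    simp [U, sq]
  -- average over `A`
  have havg : (A.card : ℂ) * ∑ c ∈ U, S c * S c * ψ (-(c * t)) = ∑ c ∈ U, S c * S c * S (-(c * t) * 1) := by
    have h1 : ∀ a ∈ A, ∑ c ∈ U, S c * S c * ψ (-(c * t)) = ∑ c ∈ U, S c * S c * ψ (-(c * t) * a) := by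
      intro a ha
      have ha0 : a ≠ 0 := fun h => by
        have := (hA a).1 ha
        rw [h, zero_pow hk.ne'] at this
        exact zero_ne_one this
      refine Finset.sum_nbij' (fun c => c * a⁻¹) (fun c => c * a) ?_ ?_ ?_ ?_ ?_
      · intro c hc; simp [U] at hc ⊢; exact ⟨hc, ha0⟩
      · intro c hc; simp [U] at hc ⊢; exact ⟨hc, ha0⟩
      · intro c _; simp [ha0, mul_assoc]
      · intro c _; simp [ha0, mul_assoc]
      · intro c _
        rw [← hinv a ha (c * a⁻¹), inv_mul_cancel_right₀ ha0]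
        congr 2
        field_simp
    rw [← nsmul_eq_mul, ← Finset.sum_const, Finset.sum_congr rfl h1, Finset.sum_comm]
    refine Finset.sum_congr rfl fun c _ => ?_
    simp only [S, mul_one, Finset.mul_sum]
  have hbound : ‖∑ c ∈ U, S c * S c * S (-(c * t) * 1)‖ ≤ Real.sqrt P * ((P : ℝ) * A.card) := by
    refine (norm_sum_le _ _).trans ?_
    calc ∑ c ∈ U, ‖S c * S c * S (-(c * t) * 1)‖ ≤ ∑ c ∈ U, Real.sqrt P * Complex.normSq (S c) := by
          refine Finset.sum_le_sum fun c hc => ?_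
          rw [norm_mul, norm_mul, Complex.normSq_eq_norm_sq, sq, mul_comm (Real.sqrt P)]
          refine mul_le_mul_of_nonneg_left (hmax _ ?_) (by positivity)
          simp only [U, Finset.mem_erase, ne_eq, Finset.mem_univ, and_true] at hc
          simp [hc, ht]
      _ ≤ ∑ c, Real.sqrt P * Complex.normSq (S c) :=
          Finset.sum_le_univ_sum_of_nonneg fun c => mul_nonneg (Real.sqrt_nonneg _) (Complex.normSq_nonneg _)
      _ = Real.sqrt P * ((P : ℝ) * A.card) := by rw [← Finset.mul_sum, hpars]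
  rw [← havg, hsplit, norm_mul, Complex.norm_natCast, show ((P : ℂ) * N - (A.card : ℂ) ^ 2) =
    (((P : ℝ) * N - (A.card : ℝ) ^ 2 : ℝ) : ℂ) by push_cast; ring, Complex.norm_real, Real.norm_eq_abs] at hbound
  have h2 : |(P : ℝ) * N - (A.card : ℝ) ^ 2| ≤ Real.sqrt P * P :=
    le_of_mul_le_mul_left (by linarith [hbound]) hApos
  have := (abs_le.1 h2).1
  linarith

end Count

theorem card_roots_one {F : Type*} [Field F] [Fintype F] [DecidableEq F] (k : ℕ) (hk : k ∣ Fintype.card F - 1)
    (A : Finset F) (hA : ∀ x, x ∈ A ↔ x ^ k = 1) : A.card = k := by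
  have hk0 : 0 < k := Nat.pos_of_dvd_of_pos hk (Nat.sub_pos_of_lt Fintype.one_lt_card)
  obtain ⟨g, hg⟩ := IsCyclic.exists_generator (α := Fˣ)
  have hord : orderOf g = Fintype.card F - 1 := by
    rw [orderOf_eq_card_of_forall_mem_zpowers hg, Nat.card_units, Nat.card_eq_fintype_card]
  obtain ⟨d, hd⟩ := hk
  have hd0 : d ≠ 0 := fun h => by
    rw [h, mul_zero] at hd
    have := Fintype.one_lt_card (α := F)
    omega
  have hprim : IsPrimitiveRoot ((g ^ d : Fˣ) : F) k := by
    rw [IsPrimitiveRoot.coe_units_iff, IsPrimitiveRoot.iff_orderOf, orderOf_pow' g hd0, hord, hd,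
      Nat.gcd_mul_left_left, Nat.mul_div_cancel _ (Nat.pos_of_ne_zero hd0)]
  rw [show A = nthRootsFinset k (1 : F) from Finset.ext fun x => by rw [hA, mem_nthRootsFinset hk0]]
  exact hprim.card_nthRootsFinset

variable (p : ℕ) [Fact p.Prime]

/-- An irreducible cubic. -/
theorem exists_cubic (hp : p ≠ 2) : ∃ b : ZMod p, ∀ x : ZMod p, x ^ 3 + b * x ^ 2 + (-3 - 2 * b) * x - 1 ≠ 0 := by
  classical
  have h2 : (2 : ZMod p) ≠ 0 := fun h => hp ((Nat.prime_dvd_prime_iff_eq (Fact.out) Nat.prime_two).1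
    ((ZMod.natCast_eq_zero_iff 2 p).1 (by exact_mod_cast h)))
  obtain ⟨b, hb⟩ : ∃ b : ZMod p, b ∉ (({0, 2}ᶜ : Finset (ZMod p)).image fun x => -(x ^ 3 - 3 * x - 1) / (x * (x - 2))) := by
    by_contra h
    push Not at h
    have h1 := Finset.card_le_card (s := (Finset.univ : Finset (ZMod p))) (fun x _ => h x)
    have h3 := h1.trans Finset.card_image_le
    rw [Finset.card_compl, Finset.card_univ, Finset.card_pair h2.symm] at h3
    have := (Fintype.card_pos (α := ZMod p))
    omega
  refine ⟨b, fun x hx => ?_⟩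
  by_cases hx0 : x = 0
  · rw [hx0] at hx; simp at hx
  by_cases hx2 : x = 2
  · rw [hx2] at hx
    exact one_ne_zero (show (1 : ZMod p) = 0 by rw [← hx]; ring)
  apply hb
  refine Finset.mem_image.2 ⟨x, by simp [hx0, hx2], ?_⟩
  rw [div_eq_iff (mul_ne_zero hx0 (sub_ne_zero.2 hx2))]
  linear_combination -hx

theorem norm_eq_one_iff (n : ℕ) (hn : n ≠ 0) (a : GaloisField p n) :
    Algebra.norm (ZMod p) a = 1 ↔ a ^ ((p ^ n - 1) / (p - 1)) = 1 := by
  rw [← (algebraMap (ZMod p) (GaloisField p n)).injective.eq_iff, map_one, FiniteField.algebraMap_norm_eq_pow,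
    GaloisField.card p n hn, Nat.card_zmod]

theorem exists_three (hp : p ≠ 2) : ∃ a : GaloisField p 3, a ≠ 1 ∧
    Algebra.norm (ZMod p) a = 1 ∧ Algebra.norm (ZMod p) (2 - a) = 1 := by
  obtain ⟨b, hb⟩ := exists_cubic p hp
  set f : (ZMod p)[X] := X ^ 3 + C b * X ^ 2 + C (-3 - 2 * b) * X + C (-1) with hf
  have hdeg : f.natDegree = 3 := by rw [hf]; compute_degree!
  have hirr : Irreducible f := by
    rw [Polynomial.irreducible_iff_roots_eq_zero_of_degree_le_three (by omega) (by omega)]
    refine Multiset.eq_zero_of_forall_notMem fun x hx => hb x ?_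
    rw [mem_roots', IsRoot.def] at hx
    have := hx.2
    simp [hf] at this
    linear_combination this
  haveI := Fact.mk hirr
  haveI hfin : Module.Finite (ZMod p) (AdjoinRoot f) := (AdjoinRoot.powerBasis hirr.ne_zero).finite
  haveI : Finite (AdjoinRoot f) := Module.finite_of_finite (ZMod p)
  have hcard : Nat.card (AdjoinRoot f) = p ^ 3 := by
    rw [Module.natCard_eq_pow_finrank (K := ZMod p), Nat.card_zmod, PowerBasis.finrank (AdjoinRoot.powerBasis hirr.ne_zero),
      AdjoinRoot.powerBasis_dim, hdeg]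
  set e := GaloisField.algEquivGaloisField p 3 hcard
  set a := e (AdjoinRoot.root f) with had
  set i := algebraMap (ZMod p) (GaloisField p 3)
  have hroot : a ^ 3 + i b * a ^ 2 + (-3 - 2 * i b) * a - 1 = 0 := by
    have h := congrArg e (AdjoinRoot.eval₂_root f)
    rw [map_zero] at h
    have h' : Polynomial.aeval a f = 0 := by
      rw [had, Polynomial.aeval_algHom_apply]
      simpa [AdjoinRoot.aeval_eq] using h
    simp [hf, map_ofNat] at h'
    linear_combination h'
  have hnot : ∀ x : ZMod p, i x ≠ a := by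
    intro x hx
    apply hb x
    apply i.injective
    rw [← hx] at hroot
    simp only [map_zero, map_sub, map_add, map_mul, map_pow, map_one, map_neg, map_ofNat] at hroot ⊢
    exact hroot
  haveI : CharP (GaloisField p 3) p := charP_of_injective_algebraMap i.injective p
  set r2 := a ^ p
  set r3 := r2 ^ p
  have hfix : i b ^ p = i b := by rw [← map_pow, ZMod.pow_card]
  have hfrob : ∀ y : GaloisField p 3, y ^ 3 + i b * y ^ 2 + (-3 - 2 * i b) * y - 1 = 0 →
      (y ^ p) ^ 3 + i b * (y ^ p) ^ 2 + (-3 - 2 * i b) * y ^ p - 1 = 0 := by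
    intro y hy
    have h := congrArg (frobenius (GaloisField p 3) p) hy
    simp only [map_zero, map_sub, map_add, map_mul, map_pow, map_one, map_neg, map_ofNat, frobenius_def, hfix] at h
    linear_combination h
  have h12 : a ≠ r2 := by
    intro h
    obtain ⟨x, hx⟩ : a ∈ Set.range i := by
      have hmem : a ∈ (⊥ : Subfield (GaloisField p 3)) := (Subfield.mem_bot_iff_pow_eq_self _ p).2 h.symm
      have hle : (⊥ : Subfield (GaloisField p 3)) ≤ i.fieldRange := bot_le
      exact RingHom.mem_fieldRange.1 (hle hmem)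
    exact hnot x hx
  have hp3 : r3 ^ p = a := by
    show ((a ^ p) ^ p) ^ p = a
    rw [← pow_mul, ← pow_mul, show p * (p * p) = p ^ 3 by ring]
    haveI := Fintype.ofFinite (GaloisField p 3)
    conv_rhs => rw [← FiniteField.pow_card a]
    rw [← Nat.card_eq_fintype_card, GaloisField.card p 3 (by norm_num)]
  have h23 : r2 ≠ r3 := fun h => h12 (frobenius_inj (GaloisField p 3) p (show a ^ p = r2 ^ p from h))
  have h13 : a ≠ r3 := fun h => h12 (by
    have : a ^ p = a := (congrArg (fun y => y ^ p) h).trans hp3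
    exact this.symm)
  have e2 := hfrob a hroot
  have e3 := hfrob r2 e2
  have q12 : a ^ 2 + a * r2 + r2 ^ 2 + i b * (a + r2) + (-3 - 2 * i b) = 0 := by
    refine (mul_eq_zero.1 (?_ : (a - r2) * (a ^ 2 + a * r2 + r2 ^ 2 + i b * (a + r2) + (-3 - 2 * i b)) = 0)).resolve_left (sub_ne_zero.2 h12)
    linear_combination hroot - e2
  have q23 : r2 ^ 2 + r2 * r3 + r3 ^ 2 + i b * (r2 + r3) + (-3 - 2 * i b) = 0 := by
    refine (mul_eq_zero.1 (?_ : (r2 - r3) * (r2 ^ 2 + r2 * r3 + r3 ^ 2 + i b * (r2 + r3) + (-3 - 2 * i b)) = 0)).resolve_left (sub_ne_zero.2 h23)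
    linear_combination e2 - e3
  have hsum : a + r2 + r3 + i b = 0 := by
    refine (mul_eq_zero.1 (?_ : (a - r3) * (a + r2 + r3 + i b) = 0)).resolve_left (sub_ne_zero.2 h13)
    linear_combination q12 - q23
  have hc : a * r2 + a * r3 + r2 * r3 = -3 - 2 * i b := by linear_combination (a + r2) * hsum - q12
  have hprod : a * r2 * r3 = 1 := by linear_combination a * hc - a ^ 2 * hsum + hroot
  have hdiv : (p ^ 3 - 1) / (p - 1) = 1 + p + p * p := by
    rw [← Nat.geomSum_eq (Fact.out : p.Prime).two_le]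
    simp [Finset.sum_range_succ, sq]
  refine ⟨a, fun h => hnot 1 (by rw [map_one, h]), (norm_eq_one_iff p 3 (by norm_num) a).2 ?_,
    (norm_eq_one_iff p 3 (by norm_num) _).2 ?_⟩
  · rw [hdiv, pow_add, pow_add, pow_one, pow_mul]; exact hprod
  · rw [hdiv, pow_add, pow_add, pow_one, pow_mul]
    have h2p : (2 : GaloisField p 3) ^ p = 2 := by rw [← map_ofNat i 2, ← map_pow, ZMod.pow_card]
    simp only [sub_pow_char, h2p]
    linear_combination 2 * hc - 4 * hsum - hprod

theorem main (q : ℕ) [Fact q.Prime] (hp : p ≠ 2) (hq : q ≠ 2) :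
    2 ≤ Set.ncard {a : GaloisField p q | Algebra.norm (ZMod p) a = 1 ∧ Algebra.norm (ZMod p) (2 - a) = 1} := by
  classical
  have hp3 : 3 ≤ p := by
    have := (Fact.out : p.Prime).two_le
    omega
  have hq3 : 3 ≤ q := by
    have := (Fact.out : q.Prime).two_le
    omega
  have hq0 : q ≠ 0 := by omega
  haveI := Fintype.ofFinite (GaloisField p q)
  have hone : (1 : GaloisField p q) ∈ {a : GaloisField p q | Algebra.norm (ZMod p) a = 1 ∧ Algebra.norm (ZMod p) (2 - a) = 1} := by
    refine ⟨map_one _, ?_⟩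
    rw [show (2 : GaloisField p q) - 1 = 1 by norm_num, map_one]
  rcases eq_or_lt_of_le hq3 with hq' | hq'
  · subst hq'
    obtain ⟨a, ha1, ha, ha'⟩ := exists_three p hp
    rw [← Set.ncard_pair ha1]
    refine Set.ncard_le_ncard ?_ (Set.toFinite _)
    rintro x (rfl | rfl)
    exacts [⟨ha, ha'⟩, hone]
  have hq5 : 5 ≤ q := by
    by_contra h
    have h4 : q = 4 := by omega
    exact absurd (h4 ▸ (Fact.out : q.Prime)) (by decide)
  set k := (p ^ q - 1) / (p - 1) with hk
  have hkdvd : p - 1 ∣ p ^ q - 1 := by simpa using Nat.sub_dvd_pow_sub_pow p 1 q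
  set A := (Finset.univ : Finset (GaloisField p q)).filter fun x => x ^ k = 1 with hAd
  have hA : ∀ x, x ∈ A ↔ x ^ k = 1 := fun x => by simp [hAd]
  have hP : Fintype.card (GaloisField p q) = p ^ q := by rw [← Nat.card_eq_fintype_card, GaloisField.card p q hq0]
  have hAk : A.card = k := card_roots_one k (hP ▸ ⟨p - 1, (Nat.div_mul_cancel hkdvd).symm⟩) A hA
  have hklb : p ^ (q - 1) ≤ k := by
    rw [hk, ← Nat.geomSum_eq (Fact.out : p.Prime).two_le]
    exact Finset.single_le_sum (f := fun i => p ^ i) (fun i _ => Nat.zero_le _) (Finset.mem_range.2 (by omega))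
  have h2 : (2 : GaloisField p q) ≠ 0 := by
    rw [← map_ofNat (algebraMap (ZMod p) (GaloisField p q)) 2]
    refine (_root_.map_ne_zero _).2 fun h => hp ((Nat.prime_dvd_prime_iff_eq (Fact.out) Nat.prime_two).1
      ((ZMod.natCast_eq_zero_iff 2 p).1 (by exact_mod_cast h)))
  have hc := count k (by have := pow_pos (show 0 < p by omega) (q - 1); omega) (2 : GaloisField p q) h2 A hA
  set N := (A.filter fun a => (2 : GaloisField p q) - a ∈ A).card
  have hN : N = Set.ncard {a : GaloisField p q | Algebra.norm (ZMod p) a = 1 ∧ Algebra.norm (ZMod p) (2 - a) = 1} := by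
    simp only [N]
    rw [← Set.ncard_coe_finset]
    congr 1
    ext x
    simp [hAd, norm_eq_one_iff p q hq0, ← hk]
  rw [← hN]
  by_contra hlt
  have hN1 : (N : ℝ) ≤ 1 := by exact_mod_cast (show N ≤ 1 by omega)
  rw [hP, hAk] at hc
  push_cast at hc
  have hk2 : ((p : ℝ) ^ (q - 1)) ≤ k := by exact_mod_cast hklb
  have hp3' : (3 : ℝ) ≤ p := by exact_mod_cast hp3
  set P : ℝ := (p : ℝ) ^ q with hPd
  have hPpos : 0 < P := pow_pos (by linarith) q
  have h4 : P * (p : ℝ) ^ (q - 2) ≤ (k : ℝ) ^ 2 := by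
    have := pow_le_pow_left₀ (pow_nonneg (by linarith) _) hk2 2
    rw [hPd, ← pow_add]
    rw [← pow_mul] at this
    rwa [show q + (q - 2) = (q - 1) * 2 by omega]
  have h5 : (p : ℝ) ^ (q - 2) ≤ 1 + Real.sqrt P := by
    refine le_of_mul_le_mul_left ?_ hPpos
    nlinarith [mul_le_mul_of_nonneg_left hN1 hPpos.le]
  set X : ℝ := (p : ℝ) ^ (q - 2) with hX
  have hX27 : 27 ≤ X := by
    calc (27 : ℝ) = 3 ^ 3 := by norm_num
      _ ≤ (p : ℝ) ^ 3 := pow_le_pow_left₀ (by norm_num) hp3' 3
      _ ≤ X := pow_le_pow_right₀ (by linarith) (by omega)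
  have h6 : 3 * P ≤ X ^ 2 := by
    rw [hX, ← pow_mul, hPd]
    calc 3 * (p : ℝ) ^ q ≤ p * (p : ℝ) ^ q := by nlinarith
      _ = (p : ℝ) ^ (q + 1) := by rw [pow_succ']
      _ ≤ (p : ℝ) ^ ((q - 2) * 2) := pow_le_pow_right₀ (by linarith) (by omega)
  nlinarith [Real.sq_sqrt hPpos.le, Real.sqrt_nonneg P]

end CfsgLib.NormOnePairs
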