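import Mathlib

/-!
# The Principal Ideal Theorem

Artin–Furtwängler: for a finite group `G` the transfer from `G` into `G' / G''` is trivial.
The proof is Witt's determinant argument in the augmentation module.
-/

set_option autoImplicit false

namespace CfsgLib.Fgs.PIT

open MonoidAlgebra Finset
open scoped commutatorElement

variable (G : Type*) [Group G]

/-- The integral group ring. -/
abbrev GR := MonoidAlgebra ℤ G

/-- `g - 1` in the group ring. -/
noncomputable def d (g : G) : GR G := of ℤ G g - 1

theorem d_mul (g h : G) : d G (g * h) = d G g + of ℤ G g * d G h := by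
  simp only [d, map_mul, mul_sub, mul_one]
  abel

/-- The additive subgroup spanned by `(a - 1)(g - 1)`, `a ∈ G'`. -/
noncomputable def J : AddSubgroup (GR G) :=
  AddSubgroup.closure (Set.range fun p : commutator G × G => d G (p.1 : G) * d G p.2)

/-- The ambient module. -/
abbrev M := GR G ⧸ J G

/-- The class of `g - 1`. -/
noncomputable def δ (g : G) : M G := QuotientAddGroup.mk (d G g)

theorem mulLeft_J (g : G) : J G ≤ (J G).comap (AddMonoidHom.mulLeft (of ℤ G g)) := by
  rw [J, AddSubgroup.closure_le]
  rintro _ ⟨⟨a, h⟩, rfl⟩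
  show of ℤ G g * (d G (a : G) * d G h) ∈ AddSubgroup.closure _
  have ha : g * (a : G) * g⁻¹ ∈ commutator G :=
    (inferInstance : (commutator G).Normal).conj_mem _ a.2 g
  have e1 : of ℤ G g * d G (a : G) = d G (g * (a : G) * g⁻¹) * of ℤ G g := by
    simp only [d, mul_sub, sub_mul, one_mul, mul_one, ← map_mul]
    rw [show g * (a : G) * g⁻¹ * g = g * a by group]
  have e2 : of ℤ G g * d G h = d G (g * h) - d G g := by rw [d_mul]; abel
  rw [← mul_assoc, e1, mul_assoc, e2, mul_sub]
  exact sub_mem (AddSubgroup.subset_closure ⟨(⟨_, ha⟩, g * h), rfl⟩)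
    (AddSubgroup.subset_closure ⟨(⟨_, ha⟩, g), rfl⟩)

/-- Left multiplication by a group element. -/
noncomputable def L (g : G) : M G →+ M G :=
  QuotientAddGroup.map (J G) (J G) (AddMonoidHom.mulLeft (of ℤ G g)) (mulLeft_J G g)

theorem L_mk (g : G) (x : GR G) :
    L G g (QuotientAddGroup.mk x) = QuotientAddGroup.mk (of ℤ G g * x) := rfl

theorem δ_mul (g h : G) : δ G (g * h) = δ G g + L G g (δ G h) := by
  rw [δ, d_mul, QuotientAddGroup.mk_add]
  rfl

/-- The augmentation module. -/
noncomputable def Bs : AddSubgroup (M G) := AddSubgroup.closure (Set.range (δ G))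

theorem δ_mem (g : G) : δ G g ∈ Bs G := AddSubgroup.subset_closure ⟨g, rfl⟩

theorem L_mem (g : G) {x : M G} (hx : x ∈ Bs G) : L G g x ∈ Bs G := by
  have : Bs G ≤ (Bs G).comap (L G g) := by
    rw [Bs, AddSubgroup.closure_le]
    rintro _ ⟨h, rfl⟩
    show L G g (δ G h) ∈ Bs G
    rw [show L G g (δ G h) = δ G (g * h) - δ G g by rw [δ_mul]; abel]
    exact sub_mem (δ_mem G _) (δ_mem G _)
  exact this hx

/-- The action of `G`. -/
noncomputable def σ : G →* AddMonoid.End (Bs G) where
  toFun g := AddMonoidHom.codRestrict ((L G g).comp (Bs G).subtype) (Bs G) fun x => L_mem G g x.2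
  map_one' := AddMonoidHom.ext fun x => Subtype.ext (by
    obtain ⟨x, hx⟩ := x
    induction x using QuotientAddGroup.induction_on with
    | H y =>
      show L G 1 (QuotientAddGroup.mk y) = QuotientAddGroup.mk y
      rw [L_mk, map_one, one_mul])
  map_mul' g h := AddMonoidHom.ext fun x => Subtype.ext (by
    obtain ⟨x, hx⟩ := x
    induction x using QuotientAddGroup.induction_on with
    | H y =>
      show L G (g * h) (QuotientAddGroup.mk y) = L G g (L G h (QuotientAddGroup.mk y))
      rw [L_mk, L_mk, L_mk, map_mul, mul_assoc])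

theorem L_commutator {a : G} (ha : a ∈ commutator G) {x : M G} (hx : x ∈ Bs G) : L G a x = x := by
  have : Bs G ≤ AddMonoidHom.eqLocus (L G a) (AddMonoidHom.id _) := by
    rw [Bs, AddSubgroup.closure_le]
    rintro _ ⟨h, rfl⟩
    show L G a (QuotientAddGroup.mk (d G h)) = QuotientAddGroup.mk (d G h)
    rw [L_mk, QuotientAddGroup.eq_iff_sub_mem]
    have e : of ℤ G a * d G h - d G h = d G a * d G h := by simp [d, sub_mul]
    rw [e]
    exact AddSubgroup.subset_closure ⟨(⟨a, ha⟩, h), rfl⟩
  exact this hx

theorem σ_eq {g h : G} (e : Abelianization.of g = Abelianization.of h) : σ G g = σ G h := by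
  have hmem : h⁻¹ * g ∈ commutator G := by
    rw [← Abelianization.ker_of, MonoidHom.mem_ker, map_mul, map_inv, e, inv_mul_cancel]
  have h1 : σ G (h⁻¹ * g) = 1 := AddMonoidHom.ext fun x => Subtype.ext (L_commutator G hmem x.2)
  calc σ G g = σ G h * σ G (h⁻¹ * g) := by rw [← map_mul, mul_inv_cancel_left]
    _ = σ G h := by rw [h1, mul_one]

/-- A section of the abelianization. -/
noncomputable def t (q : Abelianization G) : G := Quotient.out q

theorem of_t (q : Abelianization G) : Abelianization.of (t G q) = q := QuotientGroup.out_eq' q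

/-- The action of the abelianization. -/
noncomputable def σQ : Abelianization G →* AddMonoid.End (Bs G) where
  toFun q := σ G (t G q)
  map_one' := by
    rw [← map_one (σ G)]
    exact σ_eq G (by rw [of_t, map_one])
  map_mul' q r := by
    rw [← map_mul]
    exact σ_eq G (by rw [of_t, map_mul, of_t, of_t])

theorem σQ_of (g : G) : σQ G (Abelianization.of g) = σ G g := σ_eq G (of_t G _)

/-- The commutative group ring. -/
abbrev R := MonoidAlgebra ℤ (Abelianization G)

/-- The representation of the commutative group ring. -/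
noncomputable def Φ : R G →+* AddMonoid.End (Bs G) :=
  MonoidAlgebra.liftNCRingHom (Int.castRingHom (AddMonoid.End (Bs G))) (σQ G) fun n x => by rw [eq_intCast]; exact Int.cast_commute n _

noncomputable instance : Module (R G) (Bs G) := Module.compHom _ (Φ G)

theorem of_smul (q : Abelianization G) (b : Bs G) :
    of ℤ (Abelianization G) q • b = σQ G q b :=
  congrArg (fun f : AddMonoid.End (Bs G) => f b) (show Φ G (of ℤ (Abelianization G) q) = σQ G q by
    rw [MonoidAlgebra.of_apply, Φ, MonoidAlgebra.liftNCRingHom_single, map_one, one_mul])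

/-- The class of `g - 1` in the augmentation module. -/
noncomputable def δ' (g : G) : Bs G := ⟨δ G g, δ_mem G g⟩

theorem δ'_mul (g h : G) :
    δ' G (g * h) = δ' G g + of ℤ (Abelianization G) (Abelianization.of g) • δ' G h := by
  rw [of_smul, σQ_of]
  exact Subtype.ext (δ_mul G g h)

theorem δ'_one : δ' G 1 = 0 := Subtype.ext (by show δ G 1 = 0; simp [δ, d, MonoidAlgebra.one_def])

theorem δ'_inv (g : G) :
    δ' G g⁻¹ = -(of ℤ (Abelianization G) (Abelianization.of g⁻¹) • δ' G g) := by
  rw [eq_neg_iff_add_eq_zero, ← δ'_mul, inv_mul_cancel, δ'_one]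

theorem δ'_commutator {c : G} (hc : c ∈ commutator G) (h : G) :
    δ' G (c * h) = δ' G c + δ' G h := by
  have : Abelianization.of c = 1 := by rwa [← MonoidHom.mem_ker, Abelianization.ker_of]
  rw [δ'_mul, this, map_one, one_smul]

theorem δ'_pow (g : G) (n : ℕ) :
    δ' G (g ^ n) = (∑ k ∈ range n, of ℤ (Abelianization G) (Abelianization.of g) ^ k) • δ' G g := by
  induction n with
  | zero => rw [pow_zero, δ'_one, Finset.sum_range_zero]; exact (zero_smul (R G) (δ' G g)).symm
  | succ n ih =>
    rw [pow_succ, δ'_mul, ih, Finset.sum_range_succ, add_smul, map_pow, map_pow]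

/-- Elements whose class lies in a given submodule form a subgroup. -/
noncomputable def memSubgroup (U : Submodule (R G) (Bs G)) : Subgroup G where
  carrier := {g | δ' G g ∈ U}
  one_mem' := by simp only [Set.mem_setOf_eq, δ'_one]; exact U.zero_mem
  mul_mem' {a b} ha hb := by
    simp only [Set.mem_setOf_eq, δ'_mul] at ha hb ⊢
    exact U.add_mem ha (U.smul_mem _ hb)
  inv_mem' {a} ha := by
    simp only [Set.mem_setOf_eq, δ'_inv] at ha ⊢
    exact U.neg_mem (U.smul_mem _ ha)

theorem δ'_commutatorElement (g h : G) :
    δ' G ⁅g, h⁆ = (1 - of ℤ (Abelianization G) (Abelianization.of h)) • δ' G g +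
      (of ℤ (Abelianization G) (Abelianization.of g) - 1) • δ' G h := by
  have e : g * h = ⁅g, h⁆ * (h * g) := by rw [commutatorElement_def]; group
  have hc : ⁅g, h⁆ ∈ commutator G :=
    Subgroup.commutator_mem_commutator (Subgroup.mem_top g) (Subgroup.mem_top h)
  have := congrArg (δ' G) e
  rw [δ'_mul, δ'_commutator G hc, δ'_mul] at this
  rw [sub_smul, sub_smul, one_smul, one_smul, eq_sub_of_add_eq this.symm]
  abel

/-- The augmentation. -/
noncomputable def ε : R G →+* ℤ :=
  (MonoidAlgebra.lift ℤ ℤ (Abelianization G) 1).toRingHom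

theorem ε_of (q : Abelianization G) : ε G (of ℤ (Abelianization G) q) = 1 :=
  MonoidAlgebra.lift_of (1 : Abelianization G →* ℤ) q

/-- The projection to the commutative group ring. -/
noncomputable def proj : Bs G →+ R G :=
  (QuotientAddGroup.lift (J G)
    (MonoidAlgebra.mapDomainRingHom ℤ (Abelianization.of (G := G))).toAddMonoidHom (by
      rw [J, AddSubgroup.closure_le]
      rintro _ ⟨⟨a, h⟩, rfl⟩
      have ha : Abelianization.of (a : G) = 1 := by
        rw [← MonoidHom.mem_ker, Abelianization.ker_of]; exact a.2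
      show (MonoidAlgebra.mapDomainRingHom ℤ Abelianization.of) (d G (a : G) * d G h) = 0
      rw [map_mul]
      have : (MonoidAlgebra.mapDomainRingHom ℤ Abelianization.of) (d G (a : G)) = 0 := by
        rw [d, map_sub, map_one, MonoidAlgebra.of_apply, MonoidAlgebra.mapDomainRingHom_apply,
          MonoidAlgebra.mapDomain_single, ha, ← MonoidAlgebra.one_def, sub_self]
      rw [this, zero_mul])).comp (Bs G).subtype

theorem proj_δ' (g : G) : proj G (δ' G g) = of ℤ (Abelianization G) (Abelianization.of g) - 1 := by
  show (MonoidAlgebra.mapDomainRingHom ℤ Abelianization.of) (d G g) = _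
  rw [d, map_sub, map_one, MonoidAlgebra.of_apply, MonoidAlgebra.mapDomainRingHom_apply,
          MonoidAlgebra.mapDomain_single, MonoidAlgebra.of_apply]

theorem proj_smul (r : R G) (b : Bs G) : proj G (r • b) = r * proj G b := by
  induction r using MonoidAlgebra.induction_on with
  | of q =>
    rw [of_smul]
    obtain ⟨x, hx⟩ := b
    induction x using QuotientAddGroup.induction_on with
    | H y =>
      show (MonoidAlgebra.mapDomainRingHom ℤ Abelianization.of) (of ℤ G (t G q) * y) =
        of ℤ _ q * (MonoidAlgebra.mapDomainRingHom ℤ Abelianization.of) y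
      rw [map_mul]
      congr 1
      simp [of_t]
  | add x y hx hy => rw [add_smul, map_add, hx, hy, add_mul]
  | smul c x hx =>
    rw [zsmul_eq_mul, mul_smul, Int.cast_smul_eq_zsmul, map_zsmul, hx, zsmul_eq_mul, mul_assoc]

/-- The value group of the transfer. -/
abbrev V := Additive (Abelianization (commutator G))

/-- The value of the retraction at a group element. -/
noncomputable def val (x : G) : V G :=
  Additive.ofMul (Abelianization.of (⟨x * (t G (Abelianization.of x))⁻¹, by
    rw [← Abelianization.ker_of, MonoidHom.mem_ker, map_mul, map_inv, of_t, mul_inv_cancel]⟩ :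
      commutator G))

/-- The retraction on the group ring. -/
noncomputable def retr₀ : GR G →+ V G :=
  (Finsupp.liftAddHom fun x : G => zmultiplesHom (V G) (val G x)).comp
    MonoidAlgebra.coeffAddEquiv.toAddMonoidHom

theorem retr₀_of (x : G) : retr₀ G (of ℤ G x) = val G x := by
  show (Finsupp.liftAddHom fun x : G => zmultiplesHom (V G) (val G x)) (of ℤ G x).coeff = _
  rw [MonoidAlgebra.of_apply, MonoidAlgebra.coeff_single, Finsupp.liftAddHom_apply_single,
    zmultiplesHom_apply, one_zsmul]

theorem val_mul {a : G} (ha : a ∈ commutator G) (h : G) :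
    val G (a * h) = Additive.ofMul (Abelianization.of (⟨a, ha⟩ : commutator G)) + val G h := by
  have ha' : Abelianization.of a = 1 := by rwa [← MonoidHom.mem_ker, Abelianization.ker_of]
  rw [val, val, ← ofMul_mul, ← map_mul]
  congr 2
  apply Subtype.ext
  simp [ha', mul_assoc]

/-- The retraction. -/
noncomputable def retr : M G →+ V G :=
  QuotientAddGroup.lift (J G) (retr₀ G) (by
      rw [J, AddSubgroup.closure_le]
      rintro _ ⟨⟨⟨a, ha⟩, h⟩, rfl⟩
      show retr₀ G (d G a * d G h) = 0
      simp only [d, sub_mul, mul_sub, one_mul, mul_one, ← map_mul, map_sub]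
      rw [← map_one (of ℤ G)]
      simp only [retr₀_of]
      have e := val_mul G ha 1
      rw [mul_one] at e
      rw [val_mul G ha h, e]
      abel)

theorem retr_δ {a : G} (ha : a ∈ commutator G) :
    retr G (δ G a) = Additive.ofMul (Abelianization.of (⟨a, ha⟩ : commutator G)) := by
  show retr₀ G (d G a) = _
  rw [d, ← map_one (of ℤ G), map_sub, retr₀_of, retr₀_of]
  conv_lhs => rw [← mul_one a]
  rw [val_mul G ha 1, add_sub_cancel_right]

variable [Finite G]

/-- Witt's element: multiplication by the sum of all elements kills the augmentation module. -/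
theorem sum_smul_eq_zero [Fintype (Abelianization G)] (g : G) :
    (∑ q : Abelianization G, of ℤ (Abelianization G) q) • δ' G g = 0 := by
  classical
  obtain ⟨ι, hι, n, hn, ⟨e⟩⟩ := CommGroup.equiv_prod_multiplicative_zmod_of_finite (Abelianization G)
  let x : ι → G := fun i => t G (e.symm (Pi.mulSingle i (Multiplicative.ofAdd 1)))
  haveI := Fintype.ofFinite (commutator G)
  let v : ι ⊕ commutator G → Bs G := Sum.elim (fun i => δ' G (x i)) (fun a => δ' G (a : G))
  let U := Submodule.span (R G) (Set.range v)
  -- the lifts and the commutator subgroup generate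
  have hgen : ∀ S : Subgroup G, commutator G ≤ S → (∀ i, x i ∈ S) → S = ⊤ := by
    intro S hS hx
    haveI : S.Normal := by
      refine ⟨fun s hs w => ?_⟩
      have h1 : ⁅w, s⁆ ∈ S :=
        hS (Subgroup.commutator_mem_commutator (Subgroup.mem_top w) (Subgroup.mem_top s))
      simpa [commutatorElement_def, mul_assoc] using S.mul_mem h1 hs
    set S' := S.map (Abelianization.of (G := G)) with hS'
    have hall : ∀ q, q ∈ S' := by
      intro q
      have hq : q = ∏ i, (e.symm (Pi.mulSingle i (Multiplicative.ofAdd 1))) ^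
          ((e q i).toAdd).val := by
        apply e.injective
        rw [map_prod]
        conv_lhs => rw [← Finset.univ_prod_mulSingle (e q)]
        refine Finset.prod_congr rfl fun i _ => ?_
        haveI : NeZero (n i) := ⟨by have := hn i; omega⟩
        rw [map_pow, MulEquiv.apply_symm_apply, ← Pi.mulSingle_pow]
        congr 1
        rw [← ofAdd_nsmul, nsmul_one, ZMod.natCast_zmod_val, ofAdd_toAdd]
      rw [hq]
      exact S'.prod_mem fun i _ => S'.pow_mem ⟨x i, hx i, of_t G _⟩ _
    rw [eq_top_iff]
    intro w _
    obtain ⟨s, hs, hsw⟩ := hall (Abelianization.of w)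
    have : s⁻¹ * w ∈ commutator G := by
      rw [← Abelianization.ker_of, MonoidHom.mem_ker, map_mul, map_inv, hsw, inv_mul_cancel]
    simpa using S.mul_mem hs (hS this)
  have hU : ∀ w, δ' G w ∈ U := fun w => by
    have h : memSubgroup G U = ⊤ := hgen _
      (fun a ha => Submodule.subset_span ⟨Sum.inr ⟨a, ha⟩, rfl⟩)
      (fun i => Submodule.subset_span ⟨Sum.inl i, rfl⟩)
    exact h.ge (Subgroup.mem_top w)
  set I : Ideal (R G) := RingHom.ker (ε G) with hI
  have hIU : ∀ a ∈ commutator G, δ' G a ∈ I • U := by
    intro a ha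
    have hle : commutator G ≤ memSubgroup G (I • U) := by
      rw [commutator_def, Subgroup.commutator_le]
      intro u _ w _
      show δ' G ⁅u, w⁆ ∈ I • U
      rw [δ'_commutatorElement]
      refine add_mem (Submodule.smul_mem_smul ?_ (hU u)) (Submodule.smul_mem_smul ?_ (hU w))
      · rw [hI, RingHom.mem_ker, map_sub, ε_of, map_one, sub_self]
      · rw [hI, RingHom.mem_ker, map_sub, ε_of, map_one, sub_self]
    exact hle ha
  have hxn : ∀ i, x i ^ n i ∈ commutator G := by
    intro i
    rw [← Abelianization.ker_of, MonoidHom.mem_ker, map_pow, of_t, ← map_pow, ← Pi.mulSingle_pow,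
      ← ofAdd_nsmul, nsmul_one, ZMod.natCast_self, ofAdd_zero, Pi.mulSingle_one, map_one]
  let a : ι ⊕ commutator G → G := Sum.elim (fun i => x i ^ n i) (fun a => (a : G))
  have hamem : ∀ k, a k ∈ commutator G := by
    rintro (i | b)
    · exact hxn i
    · exact b.2
  let D : ι ⊕ commutator G → R G :=
    Sum.elim (fun i => ∑ k ∈ range (n i), of ℤ (Abelianization G) (Abelianization.of (x i)) ^ k) (fun _ => 1)
  have hD : ∀ k, D k • v k = δ' G (a k) := by
    rintro (i | b)
    · exact (δ'_pow G (x i) (n i)).symm
    · exact one_smul _ _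
  choose c hcI hc using fun k =>
    (Submodule.mem_ideal_smul_span_iff_exists_sum I v (δ' G (a k))).mp (hIU _ (hamem k))
  let W : Matrix (ι ⊕ commutator G) (ι ⊕ commutator G) (R G) :=
    Matrix.diagonal D - Matrix.of fun k l => c k l
  have hW : ∀ k, ∑ l, W k l • v l = 0 := by
    intro k
    have hck : ∑ l, c k l • v l = δ' G (a k) := by
      rw [← hc k, Finsupp.sum_fintype _ (fun i c => c • v i) fun l => zero_smul (R G) (v l)]
    simp only [W, Matrix.sub_apply, Matrix.of_apply, sub_smul, Finset.sum_sub_distrib, hck]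
    rw [Finset.sum_eq_single k (fun l _ hl => by rw [Matrix.diagonal_apply_ne' D hl]; exact zero_smul (R G) (v l))
      (fun h => absurd (Finset.mem_univ k) h), Matrix.diagonal_apply_eq, hD, sub_self]
  have hdet : ∀ k, W.det • v k = 0 := by
    intro k
    have h : ∑ m, W.adjugate k m • ∑ l, W m l • v l = 0 := by simp [hW]
    simp only [Finset.smul_sum, smul_smul] at h
    rw [Finset.sum_comm] at h
    simp only [← Finset.sum_smul, ← Matrix.mul_apply, Matrix.adjugate_mul] at h
    rw [Finset.sum_eq_single k (fun l _ hl => by simp [Matrix.one_apply_ne' hl])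
      (fun h => absurd (Finset.mem_univ k) h)] at h
    simpa using h
  set μ := W.det with hμ
  have hkill : ∀ w, μ • δ' G w = 0 := by
    intro w
    have hle : U ≤ LinearMap.ker (DistribSMul.toLinearMap (R G) (Bs G) μ) := by
      rw [Submodule.span_le]
      rintro _ ⟨k, rfl⟩
      exact hdet k
    exact hle (hU w)
  have hεμ : ε G μ = Nat.card (Abelianization G) := by
    rw [hμ, RingHom.map_det]
    have : (ε G).mapMatrix W = Matrix.diagonal fun k => ε G (D k) := by
      ext k l
      simp only [W, RingHom.mapMatrix_apply, Matrix.map_apply, Matrix.sub_apply, Matrix.of_apply, map_sub]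
      rw [show ε G (c k l) = 0 from hcI k l, sub_zero]
      rcases eq_or_ne k l with rfl | h
      · simp
      · simp [h]
    rw [this, Matrix.det_diagonal, Fintype.prod_sum_type]
    simp only [D, Sum.elim_inl, Sum.elim_inr, map_one, Finset.prod_const_one, mul_one, map_sum, map_pow,
      ε_of, one_pow, Finset.sum_const, Finset.card_range, nsmul_eq_mul]
    rw [Nat.card_congr e.toEquiv, Nat.card_pi, Nat.cast_prod]
    refine Finset.prod_congr rfl fun i _ => ?_
    rw [Nat.card_congr Multiplicative.toAdd, Nat.card_zmod]
  -- `μ` has constant coefficients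
  have hshift : ∀ q, μ * of ℤ (Abelianization G) q = μ := by
    intro q
    have h := congrArg (proj G) (hkill (t G q))
    rw [proj_smul, proj_δ', map_zero, of_t, mul_sub, mul_one, sub_eq_zero] at h
    exact h
  have hconst : ∀ q, μ.coeff q = μ.coeff 1 := by
    intro q
    conv_lhs => rw [← hshift q]
    simp [MonoidAlgebra.of_apply, MonoidAlgebra.coeff_mul_single_apply]
  have hμeq : μ = μ.coeff 1 • ∑ q : Abelianization G, of ℤ (Abelianization G) q := by
    apply MonoidAlgebra.coeff_injective
    apply Finsupp.ext
    intro q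
    rw [hconst q, Finset.smul_sum, MonoidAlgebra.coeff_sum, Finsupp.coe_finsetSum, Finset.sum_apply,
      Finset.sum_eq_single q]
    · simp [MonoidAlgebra.of_apply]
    · intro b _ hb
      simp [MonoidAlgebra.of_apply, hb.symm]
    · simp
  have hone : μ.coeff 1 = 1 := by
    have h := hεμ
    rw [hμeq, map_zsmul, map_sum] at h
    simp only [ε_of, Finset.sum_const, Finset.card_univ, nsmul_eq_mul, mul_one, smul_eq_mul] at h
    rw [Nat.card_eq_fintype_card] at h
    have hpos : (Fintype.card (Abelianization G) : ℤ) ≠ 0 := by exact_mod_cast Fintype.card_ne_zero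
    exact mul_right_cancel₀ hpos (h.trans (one_mul _).symm)
  have := hkill g
  rwa [hμeq, hone, one_smul] at this

theorem transfer_eq_one :
    MonoidHom.transfer (Abelianization.of : commutator G →* Abelianization (commutator G)) =
      (1 : G →* Abelianization (commutator G)) := by
  classical
  haveI := Fintype.ofFinite (Abelianization G)
  ext g
  let T : (commutator G).LeftTransversal := default
  rw [MonoidHom.transfer_def _ T, MonoidHom.one_apply]
  -- right representatives
  let s : Abelianization G → G := fun q => (T.2.leftQuotientEquiv q⁻¹ : G)⁻¹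
  have hs : ∀ q, Abelianization.of (s q) = q := by
    intro q
    show Abelianization.of (T.2.leftQuotientEquiv q⁻¹ : G)⁻¹ = q
    rw [map_inv, inv_eq_iff_eq_inv]
    exact T.2.leftQuotientEquiv.symm_apply_apply q⁻¹
  have hmem : ∀ q, s q * g * (s (q * Abelianization.of g))⁻¹ ∈ commutator G := fun q => by
    have e1 := hs q
    have e2 := hs (q * Abelianization.of g)
    generalize s q = u at e1 ⊢
    generalize s (q * Abelianization.of g) = w at e2 ⊢
    rw [← Abelianization.ker_of, MonoidHom.mem_ker, map_mul, map_mul, map_inv, e1, e2, mul_inv_cancel]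
  -- apply Witt's element
  have h0 := sum_smul_eq_zero G g
  rw [Finset.sum_smul] at h0
  have hterm : ∀ q, of ℤ (Abelianization G) q • δ' G g =
      δ' G (s q * g * (s (q * Abelianization.of g))⁻¹) + (δ' G (s (q * Abelianization.of g)) - δ' G (s q)) := by
    intro q
    have e : δ' G (s q * g) =
        δ' G (s q * g * (s (q * Abelianization.of g))⁻¹) + δ' G (s (q * Abelianization.of g)) := by
      rw [← δ'_commutator G (hmem q), inv_mul_cancel_right]
    rw [δ'_mul, hs] at e
    rw [← add_sub_assoc, ← e, add_sub_cancel_left]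
  rw [Finset.sum_congr rfl fun q _ => hterm q, Finset.sum_add_distrib, Finset.sum_sub_distrib,
    show (∑ q, δ' G (s (q * Abelianization.of g))) = ∑ q, δ' G (s q) from
      Fintype.sum_equiv (Equiv.mulRight (Abelianization.of g)) _ _ fun q => rfl, sub_self, add_zero] at h0
  have h1 := congrArg (fun b : Bs G => retr G (b : M G)) h0
  simp only [AddSubgroup.val_finsetSum, map_sum, ZeroMemClass.coe_zero, map_zero] at h1
  rw [Finset.sum_congr rfl fun q _ =>
      show retr G ((δ' G (s q * g * (s (q * Abelianization.of g))⁻¹) : Bs G) : M G) = _ from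
        retr_δ G (hmem q), ← ofMul_prod, ofMul_eq_zero] at h1
  rw [← h1]
  unfold Subgroup.leftTransversals.diff
  dsimp only
  refine Finset.prod_equiv (Equiv.inv (Abelianization G)) (fun q => ?_) (fun q _ => ?_)
  · constructor <;> intro
    · exact Finset.mem_univ _
    · letI : Fintype (G ⧸ commutator G) := (commutator G).fintypeQuotientOfFiniteIndex
      exact Finset.mem_univ _
  obtain ⟨w, rfl⟩ := QuotientGroup.mk_surjective q
  refine congrArg _ (Subtype.ext ?_)
  show (T.2.leftQuotientEquiv (w : G ⧸ commutator G) : G)⁻¹ *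
      ((g • T).2.leftQuotientEquiv (w : G ⧸ commutator G) : G) =
    s (Abelianization.of w)⁻¹ * g * (s ((Abelianization.of w)⁻¹ * Abelianization.of g))⁻¹
  have key : ∀ (u : Abelianization G) (v : G ⧸ commutator G), u⁻¹ = v →
      s u = (T.2.leftQuotientEquiv v : G)⁻¹ := by rintro u _ rfl; rfl
  rw [key _ (w : G ⧸ commutator G) (inv_inv (Abelianization.of w)),
    key _ (g⁻¹ • (w : G ⧸ commutator G)) ?_, inv_inv, mul_assoc,
    Subgroup.smul_apply_eq_smul_apply_inv_smul, smul_eq_mul]
  show ((Abelianization.of w)⁻¹ * Abelianization.of g)⁻¹ = Abelianization.of (g⁻¹ * w)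
  rw [map_mul, map_inv, mul_inv_rev, inv_inv]

end CfsgLib.Fgs.PIT
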