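import Cfsg.Agent.Lib.FgsS3Fpf
import Mathlib.GroupTheory.Perm.Cycle.Type
import Mathlib.Algebra.BigOperators.Group.Finset.Piecewise

/-!
# Tools for coprime actions of a group of order `pq`
-/

set_option autoImplicit false

open scoped Classical

namespace CfsgLib.FrobPQ

theorem exists_fixed {X : Type*} [Finite X] (f : X → X) {ℓ : ℕ} (hℓ : ℓ.Prime)
    (hf : ∀ x, f^[ℓ] x = x) (hcard : ¬ ℓ ∣ Nat.card X) : ∃ x, f x = x := by
  haveI : Fintype X := Fintype.ofFinite X
  haveI : Fact ℓ.Prime := ⟨hℓ⟩
  have h1 : ∀ x, f (f^[ℓ - 1] x) = x := fun x => by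
    rw [← Function.iterate_succ_apply' f, Nat.succ_eq_add_one, Nat.sub_add_cancel hℓ.pos, hf]
  have h2 : ∀ x, f^[ℓ - 1] (f x) = x := fun x => by
    rw [← Function.iterate_succ_apply, Nat.succ_eq_add_one, Nat.sub_add_cancel hℓ.pos, hf]
  let e : Equiv.Perm X := ⟨f, f^[ℓ - 1], h2, h1⟩
  have hpow : ∀ (i : ℕ) (x : X), (e ^ i) x = f^[i] x := fun i => by
    induction i with
    | zero => intro x; rfl
    | succ i ih =>
      intro x
      rw [pow_succ', Equiv.Perm.mul_apply, ih, Function.iterate_succ_apply']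
      rfl
  exact Equiv.Perm.exists_fixed_point_of_prime (p := ℓ) (n := 1)
    (by rwa [← Nat.card_eq_fintype_card]) (σ := e)
    (Equiv.ext fun x => by rw [pow_one, hpow, hf]; rfl)

section Norm

variable {R : Type*} [Group R] [Finite R] {P : Type*} [CommGroup P]
variable (act : R →* MulAut P)

omit [Finite R] in
theorem eq_of_coprime_pow {x : P} {m n : ℕ} (hmn : m.Coprime n) (hm : x ^ m = 1) (hn : x ^ n = 1) :
    x = 1 := by
  have h := Nat.dvd_gcd (orderOf_dvd_of_pow_eq_one hm) (orderOf_dvd_of_pow_eq_one hn)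
  rw [hmn.gcd_eq_one, Nat.dvd_one, orderOf_eq_one_iff] at h
  exact h

/-- the norm over a subgroup -/
noncomputable def norm (K : Subgroup R) (x : P) : P :=
  letI := Fintype.ofFinite K
  ∏ k : K, act (k : R) x

theorem norm_fixed (K : Subgroup R) (x : P) {k : R} (hk : k ∈ K) :
    act k (norm act K x) = norm act K x := by
  letI := Fintype.ofFinite K
  rw [norm, map_prod]
  refine Fintype.prod_equiv (Equiv.mulLeft (⟨k, hk⟩ : K)) _ _ fun l => ?_
  rw [← MulAut.mul_apply, ← map_mul]
  rfl

theorem norm_of_fixed {K : Subgroup R} {x : P} (h : ∀ k ∈ K, act k x = x) :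
    norm act K x = x ^ Nat.card K := by
  letI := Fintype.ofFinite K
  rw [norm, Finset.prod_congr rfl fun (k : K) _ => h k k.2, Finset.prod_const, Finset.card_univ,
    Nat.card_eq_fintype_card]

/-- A product-one family, each member fixed by a normal subgroup, any two of which generate: all
members are fixed. -/
theorem fixed_of_prod_eq_one {J : Type*} [Fintype J] (x : J → P) (K : J → Subgroup R)
    (hn : ∀ j, (K j).Normal) (hfix : ∀ j, ∀ k ∈ K j, act k (x j) = x j)
    (hgen : ∀ i j, i ≠ j → K i ⊔ K j = ⊤) (hprod : ∏ j, x j = 1) {N : ℕ}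
    (hexp : ∀ y : P, y ^ N = 1) (hcop : (Nat.card R).Coprime N) (i : J) (r : R) :
    act r (x i) = x i := by
  have hother : ∀ j, j ≠ i → ∀ r : R, act r (norm act (K i) (x j)) = norm act (K i) (x j) := by
    intro j hj
    let S : Subgroup R :=
      { carrier := {r | act r (norm act (K i) (x j)) = norm act (K i) (x j)}
        mul_mem' := fun {a b} ha hb => by
          show act (a * b) _ = _
          rw [map_mul, MulAut.mul_apply, hb, ha]
        one_mem' := by show act 1 _ = _; rw [map_one]; rfl
        inv_mem' := fun {a} ha => by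
          show act a⁻¹ _ = _
          conv_lhs => rw [← show act a (norm act (K i) (x j)) = norm act (K i) (x j) from ha,
            ← MulAut.mul_apply, ← map_mul, inv_mul_cancel, map_one, MulAut.one_apply] }
    have h1 : K i ≤ S := fun k hk => norm_fixed act _ _ hk
    have h2 : K j ≤ S := by
      intro k hk
      letI := Fintype.ofFinite (K i)
      show act k (norm act (K i) (x j)) = norm act (K i) (x j)
      rw [norm, map_prod]
      refine Finset.prod_congr rfl fun l _ => ?_
      have hk' : (l : R)⁻¹ * k * l ∈ K j := by simpa using (hn j).conj_mem k hk (l : R)⁻¹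
      calc act k (act (l : R) (x j)) = act (l : R) (act ((l : R)⁻¹ * k * l) (x j)) := by
            rw [← MulAut.mul_apply, ← MulAut.mul_apply, ← map_mul, ← map_mul, ← mul_assoc,
              ← mul_assoc, mul_inv_cancel, one_mul]
        _ = _ := by rw [hfix j _ hk']
    intro r
    have : r ∈ S := by
      have h3 := sup_le h1 h2
      rw [hgen i j hj.symm] at h3
      exact h3 trivial
    exact this
  have hsplit : norm act (K i) (x i) * ∏ j ∈ Finset.univ.erase i, norm act (K i) (x j) = 1 := by
    rw [Finset.mul_prod_erase _ (fun j => norm act (K i) (x j)) (Finset.mem_univ i)]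
    letI := Fintype.ofFinite (K i)
    show ∏ j, ∏ k : K i, act (k : R) (x j) = 1
    rw [Finset.prod_comm, Finset.prod_congr rfl fun (k : K i) _ => (map_prod (act (k : R)) x _).symm,
      hprod]
    simp
  rw [norm_of_fixed act (hfix i)] at hsplit
  have hpow : act r (x i ^ Nat.card (K i)) = x i ^ Nat.card (K i) := by
    rw [eq_inv_of_mul_eq_one_left hsplit, map_inv, map_prod,
      Finset.prod_congr rfl fun j hj => hother j (Finset.ne_of_mem_erase hj) r]
  rw [map_pow] at hpow
  refine mul_inv_eq_one.1 (eq_of_coprime_pow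
    (hcop.coprime_dvd_left (K i).card_subgroup_dvd_card) ?_ (hexp _))
  rw [mul_pow, inv_pow, hpow, mul_inv_cancel]

end Norm

section PairAction

variable {R : Type*} [Group R] [Finite R] {P : Type*} [CommGroup P] [Finite P]
variable (act : R →* MulAut P)

/-- Let `c` be compatible operators of odd prime order on `R` and `P`, with `R` acting on `P`
through an abelian quotient.  If the pairs `(r y, r⁻¹ y)` of every fixed `y` have fixed products,
then `r⁻¹ c(r)` acts trivially. -/
theorem act_eq_of_pairs (hab : ∀ r s : R, ∀ x, act r (act s x) = act s (act r x))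
    (cR : R →* R) (cP : P →* P) {p : ℕ} (hp : p.Prime) (hp2 : p ≠ 2)
    (hcR : ∀ r, (⇑cR)^[p] r = r) (hcP : ∀ x, (⇑cP)^[p] x = x)
    (hcompat : ∀ r x, cP (act r x) = act (cR r) (cP x)) (hpR : ¬ p ∣ Nat.card R)
    (hcop : (Nat.card R).Coprime (Nat.card P))
    (hpair : ∀ y, cP y = y → ∀ r : R,
      act (cR r) y * act (cR r)⁻¹ y = act r y * act r⁻¹ y) :
    ∀ (r : R) (x : P), act (cR r) x = act r x := by
  have hinv : ∀ (r : R) (x : P), act r (act r⁻¹ x) = x := fun r x => by
    rw [← MulAut.mul_apply, ← map_mul, mul_inv_cancel, map_one, MulAut.one_apply]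
  have hinv' : ∀ (r : R) (x : P), act r⁻¹ (act r x) = x := fun r x => by
    rw [← MulAut.mul_apply, ← map_mul, inv_mul_cancel, map_one, MulAut.one_apply]
  -- the subgroup generated by the displacements
  set R₀ := Subgroup.closure (Set.range fun r => r⁻¹ * cR r) with hR₀
  have hR₀inv : ∀ x ∈ R₀, cR x ∈ R₀ := by
    have : R₀ ≤ R₀.comap cR := by
      rw [hR₀, Subgroup.closure_le]
      rintro _ ⟨r, rfl⟩
      exact Subgroup.subset_closure ⟨cR r, by simp [map_mul, map_inv]⟩
    exact fun x hx => this hx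
  -- every displacement comes from `R₀`
  have hsurj : ∀ r : R, ∃ x ∈ R₀, x⁻¹ * cR x = r⁻¹ * cR r := by
    intro r
    have hk : r⁻¹ * cR r ∈ R₀ := Subgroup.subset_closure ⟨r, rfl⟩
    let f : R₀ → R₀ := fun x => ⟨r⁻¹ * cR (r * x), by
      rw [map_mul, ← mul_assoc]; exact mul_mem hk (hR₀inv _ x.2)⟩
    have hf : ∀ (i : ℕ) (x : R₀), ((f^[i] x : R₀) : R) = r⁻¹ * (⇑cR)^[i] (r * x) := by
      intro i
      induction i with
      | zero => intro x; simp
      | succ i ih =>
        intro x
        rw [Function.iterate_succ_apply', Function.iterate_succ_apply']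
        show r⁻¹ * cR (r * ((f^[i] x : R₀) : R)) = _
        rw [ih, mul_inv_cancel_left]
    obtain ⟨x, hx⟩ := exists_fixed f hp (fun x => Subtype.ext (by
      rw [hf, hcR, inv_mul_cancel_left]))
      (fun h => hpR (h.trans R₀.card_subgroup_dvd_card))
    have hd : cR (r * x) = r * x := inv_mul_eq_iff_eq_mul.1 (congrArg Subtype.val hx)
    refine ⟨(x : R)⁻¹, inv_mem x.2, ?_⟩
    rw [map_mul] at hd
    rw [inv_inv, map_inv, show cR r = r * x * (cR x)⁻¹ by rw [← hd, mul_inv_cancel_right]]
    group
  -- fixed elements of `P` are fixed by `R₀`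
  have hfixed : ∀ y, cP y = y → ∀ z ∈ R₀, act z y = y := by
    intro y hy
    by_contra hmove
    push Not at hmove
    obtain ⟨z₀, hz₀, hzy⟩ := hmove
    set L := Subgroup.closure (Set.range fun z : R₀ => act (z : R) y) with hL
    have hyL : y ∈ L := Subgroup.subset_closure ⟨1, by simp⟩
    have hLinv : ∀ z ∈ R₀, ∀ v ∈ L, act z v ∈ L := by
      intro z hz
      have : L ≤ L.comap (act z).toMonoidHom := by
        rw [hL, Subgroup.closure_le]
        rintro _ ⟨w, rfl⟩
        refine Subgroup.subset_closure ⟨⟨z * w, mul_mem hz w.2⟩, ?_⟩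
        show act (z * (w : R)) y = act z (act (w : R) y)
        rw [map_mul]; rfl
      exact fun v hv => this hv
    let Fx : Subgroup P :=
      { carrier := {v | v ∈ L ∧ ∀ z ∈ R₀, act z v = v}
        mul_mem' := fun {a b} ha hb => ⟨mul_mem ha.1 hb.1, fun z hz => by
          rw [map_mul, ha.2 z hz, hb.2 z hz]⟩
        one_mem' := ⟨one_mem _, fun z _ => map_one _⟩
        inv_mem' := fun {a} ha => ⟨inv_mem ha.1, fun z hz => by rw [map_inv, ha.2 z hz]⟩ }
    obtain ⟨L₀, ⟨hFL, hL₀L, hL₀inv⟩, hmax⟩ := (Finite.to_wellFoundedGT (α := Subgroup P)).wf.has_min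
      {M | Fx ≤ M ∧ M < L ∧ ∀ z ∈ R₀, ∀ v ∈ M, act z v ∈ M}
      ⟨Fx, le_rfl, lt_of_le_of_ne (fun v hv => hv.1) (fun h => hzy (by
        have : y ∈ Fx := h ▸ hyL
        exact this.2 z₀ hz₀)), fun z hz v hv => by rw [hv.2 z hz]; exact hv⟩
    have hyL₀ : y ∉ L₀ := fun h => hL₀L.not_ge (by
      rw [hL, Subgroup.closure_le]
      rintro _ ⟨w, rfl⟩
      exact hL₀inv _ w.2 _ h)
    -- a displacement fixing one point off `L₀` fixes all
    have hirr : ∀ k ∈ R₀, ∀ w ∈ L, w ∉ L₀ → act k w / w ∈ L₀ → ∀ v ∈ L, act k v / v ∈ L₀ := by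
      intro k hk w hwL hw hkw
      let M : Subgroup P :=
        { carrier := {v | v ∈ L ∧ act k v / v ∈ L₀}
          mul_mem' := fun {a b} ha hb => ⟨mul_mem ha.1 hb.1, by
            rw [map_mul, mul_div_mul_comm]; exact mul_mem ha.2 hb.2⟩
          one_mem' := ⟨one_mem _, by simp⟩
          inv_mem' := fun {a} ha => ⟨inv_mem ha.1, by
            rw [map_inv, inv_div_inv, ← inv_div]; exact inv_mem ha.2⟩ }
      have hM0 : L₀ ≤ M := fun v hv =>
        ⟨hL₀L.le hv, div_mem (hL₀inv k hk v hv) hv⟩
      have hMinv : ∀ z ∈ R₀, ∀ v ∈ M, act z v ∈ M := by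
        rintro z hz v ⟨hv, hv'⟩
        refine ⟨hLinv z hz v hv, ?_⟩
        rw [hab k z, ← map_div]
        exact hL₀inv z hz _ hv'
      have hML : M = L := by
        by_contra hne
        exact hmax M ⟨hFL.trans hM0, lt_of_le_of_ne (fun v hv => hv.1) hne, hMinv⟩
          (lt_of_le_of_ne hM0 fun h => hw (h ▸ (⟨hwL, hkw⟩ : w ∈ M)))
      intro v hv
      rw [← hML] at hv
      exact hv.2
    -- the subgroup of elements fixing the image of `y`
    let K : Subgroup R₀ :=
      { carrier := {z | ∀ v ∈ L, act (z : R) v / v ∈ L₀}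
        mul_mem' := fun {a b} ha hb v hv => by
          show act ((a : R) * (b : R)) v / v ∈ L₀
          rw [map_mul, MulAut.mul_apply, ← div_mul_div_cancel _ (act (b : R) v)]
          exact mul_mem (ha _ (hLinv _ b.2 v hv)) (hb v hv)
        one_mem' := fun v _ => by simp
        inv_mem' := fun {a} ha v hv => by
          have h := inv_mem (ha _ (hLinv _ (inv_mem a.2) v hv))
          rw [hinv, inv_div] at h
          exact h }
    have hKy : ∀ z : R₀, act (z : R) y / y ∈ L₀ → z ∈ K := fun z hz => hirr _ z.2 y hyL hyL₀ hz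
    have hKcongr : ∀ (z : R₀) (w : R) (hw : w ∈ R₀), (∀ v, act w v = act (z : R) v) → z ∈ K →
        (⟨w, hw⟩ : R₀) ∈ K := fun z w hw e hz v hv => by
      show act w v / v ∈ L₀
      rw [e]; exact hz v hv
    let c₀ : R₀ → R₀ := fun z => ⟨cR z, hR₀inv _ z.2⟩
    let Sp : Subgroup R₀ :=
      { carrier := {z | z⁻¹ * c₀ z ∈ K}
        mul_mem' := fun {a b} ha hb => by
          refine hKcongr ((a⁻¹ * c₀ a) * (b⁻¹ * c₀ b)) _ ((a * b)⁻¹ * c₀ (a * b)).2 (fun v => ?_)
            (mul_mem ha hb)
          show act (((a : R) * b)⁻¹ * cR ((a : R) * b)) v =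
            act ((a : R)⁻¹ * cR a * ((b : R)⁻¹ * cR b)) v
          simp only [mul_inv_rev, map_mul, MulAut.mul_apply]
          rw [hab (b : R)⁻¹ (a : R)⁻¹, hab (b : R)⁻¹ (cR (a : R))]
        one_mem' := by
          show (1 : R₀)⁻¹ * c₀ 1 ∈ K
          have : c₀ 1 = 1 := Subtype.ext (map_one cR)
          rw [this, inv_one, one_mul]; exact one_mem _
        inv_mem' := fun {a} ha => by
          refine hKcongr (a⁻¹ * c₀ a)⁻¹ _ ((a⁻¹)⁻¹ * c₀ a⁻¹).2 (fun v => ?_) (inv_mem ha)
          show act (((a : R)⁻¹)⁻¹ * cR (a : R)⁻¹) v = act (((a : R)⁻¹ * cR a)⁻¹) v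
          simp only [inv_inv, mul_inv_rev, map_inv cR, map_mul, MulAut.mul_apply]
          rw [hab] }
    let Sm : Subgroup R₀ :=
      { carrier := {z | z * c₀ z ∈ K}
        mul_mem' := fun {a b} ha hb => by
          refine hKcongr ((a * c₀ a) * (b * c₀ b)) _ (a * b * c₀ (a * b)).2 (fun v => ?_)
            (mul_mem ha hb)
          show act ((a : R) * b * cR ((a : R) * b)) v = act ((a : R) * cR a * ((b : R) * cR b)) v
          simp only [map_mul, MulAut.mul_apply]
          rw [hab (b : R) (cR (a : R))]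
        one_mem' := by
          show (1 : R₀) * c₀ 1 ∈ K
          have : c₀ 1 = 1 := Subtype.ext (map_one cR)
          rw [this, one_mul]; exact one_mem _
        inv_mem' := fun {a} ha => by
          refine hKcongr (a * c₀ a)⁻¹ _ (a⁻¹ * c₀ a⁻¹).2 (fun v => ?_) (inv_mem ha)
          show act ((a : R)⁻¹ * cR (a : R)⁻¹) v = act (((a : R) * cR a)⁻¹) v
          simp only [mul_inv_rev, map_inv cR, map_mul, MulAut.mul_apply]
          rw [hab] }
    have hunion : ∀ z : R₀, z ∈ Sp ∨ z ∈ Sm := by
      intro z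
      set r := (z : R)
      set k := r⁻¹ * cR r
      set w := act k y / y with hw
      have hkR : k ∈ R₀ := Subgroup.subset_closure ⟨r, rfl⟩
      by_cases hw0 : w ∈ L₀
      · exact Or.inl (hKy (z⁻¹ * c₀ z) hw0)
      refine Or.inr fun v hv => hirr _ (z * c₀ z).2 w (div_mem (hLinv k hkR y hyL) hyL) hw0 ?_ v hv
      have h := hpair y hy r
      have e1 : act (cR r) y = act r (w * y) := by
        rw [hw, div_mul_cancel, ← MulAut.mul_apply, ← map_mul, show r * k = cR r from
          mul_inv_cancel_left r _]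
      have e2 : act (cR r)⁻¹ y = act r⁻¹ ((act k⁻¹ w)⁻¹ * y) := by
        rw [hw, map_div, hinv', inv_div, div_mul_cancel, hab, ← MulAut.mul_apply, ← map_mul,
          show k⁻¹ * r⁻¹ = (cR r)⁻¹ by simp [k]]
      rw [e1, e2, map_mul, map_mul, mul_mul_mul_comm, mul_eq_right, map_inv, mul_inv_eq_one] at h
      have e3 : act (((z * c₀ z : R₀) : R)) w = w := by
        show act (r * cR r) w = w
        calc act (r * cR r) w = act (r * r * k) w := by
              congr 2; simp only [k]; group
          _ = act r (act k (act r w)) := by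
              rw [map_mul, map_mul, MulAut.mul_apply, MulAut.mul_apply, hab r k]
          _ = _ := by rw [h, hab k r⁻¹, hinv, hinv]
      rw [e3, div_self']
      exact one_mem _
    have hSp : ∀ z : R₀, z ∈ Sp := by
      have hone : Sp = ⊤ ∨ Sm = ⊤ := by
        by_contra hc
        push Not at hc
        obtain ⟨a, ha⟩ := SetLike.exists_not_mem_of_ne_top _ hc.1 rfl
        obtain ⟨b, hb⟩ := SetLike.exists_not_mem_of_ne_top _ hc.2 rfl
        have ha' := (hunion a).resolve_left ha
        have hb' := (hunion b).resolve_right hb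
        rcases hunion (a * b) with h | h
        · exact ha (by simpa using mul_mem h (inv_mem hb'))
        · exact hb (by simpa using mul_mem (inv_mem ha') h)
      rcases hone with h | h
      · intro z; rw [h]; trivial
      -- the anti-fixed case collapses since `p` is odd
      intro z
      have hm : ∀ w : R₀, w * c₀ w ∈ K := fun w => by
        have : w ∈ Sm := by rw [h]; trivial
        exact this
      have hit : ∀ i : ℕ, (if Even i then z⁻¹ * c₀^[i] z else z * c₀^[i] z) ∈ K := by
        intro i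
        induction i with
        | zero => simp
        | succ i ih =>
          rw [Function.iterate_succ_apply']
          have hu := hm (c₀^[i] z)
          by_cases he : Even i
          · rw [if_pos he] at ih
            rw [if_neg (by rw [Nat.even_add_one]; exact not_not.2 he)]
            have e : z * c₀ (c₀^[i] z) = z * (c₀^[i] z)⁻¹ * (c₀^[i] z * c₀ (c₀^[i] z)) := by group
            rw [e]
            refine mul_mem ?_ hu
            refine hKcongr (z⁻¹ * c₀^[i] z)⁻¹ _ (z * (c₀^[i] z)⁻¹).2 (fun v => ?_) (inv_mem ih)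
            show act ((z : R) * ((c₀^[i] z : R₀) : R)⁻¹) v =
              act (((z : R)⁻¹ * ((c₀^[i] z : R₀) : R))⁻¹) v
            simp only [mul_inv_rev, inv_inv, map_mul, MulAut.mul_apply]
            rw [hab]
          · rw [if_neg he] at ih
            rw [if_pos (by rw [Nat.even_add_one]; exact he)]
            have e : z⁻¹ * c₀ (c₀^[i] z) = z⁻¹ * (c₀^[i] z)⁻¹ * (c₀^[i] z * c₀ (c₀^[i] z)) := by
              group
            rw [e]
            refine mul_mem ?_ hu
            refine hKcongr (z * c₀^[i] z)⁻¹ _ (z⁻¹ * (c₀^[i] z)⁻¹).2 (fun v => ?_) (inv_mem ih)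
            show act ((z : R)⁻¹ * ((c₀^[i] z : R₀) : R)⁻¹) v =
              act (((z : R) * ((c₀^[i] z : R₀) : R))⁻¹) v
            simp only [mul_inv_rev, map_mul, MulAut.mul_apply]
            rw [hab]
      have hp' := hit p
      rw [if_neg (Nat.not_even_iff_odd.2 (hp.odd_of_ne_two hp2))] at hp'
      have hzp : c₀^[p] z = z := by
        apply Subtype.ext
        have : ∀ i : ℕ, ((c₀^[i] z : R₀) : R) = (⇑cR)^[i] (z : R) := fun i => by
          induction i with
          | zero => rfl
          | succ i ih => rw [Function.iterate_succ_apply', Function.iterate_succ_apply', ← ih]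
        rw [this, hcR]
      rw [hzp] at hp'
      -- `z² ∈ K` and the order of `z` is odd or coprime
      have hzz : z * z ∈ K := hp'
      have hmz := hm z
      show z⁻¹ * c₀ z ∈ K
      rw [show z⁻¹ * c₀ z = (z * z)⁻¹ * (z * c₀ z) by group]
      exact mul_mem (inv_mem hzz) hmz
    -- so `R₀` acts trivially on the quotient
    have hall : R₀ ≤ (K.map R₀.subtype) := by
      refine (Subgroup.closure_le (K.map R₀.subtype)).2 ?_
      rintro _ ⟨r, rfl⟩
      obtain ⟨x, hx, hxe⟩ := hsurj r
      exact ⟨(⟨x, hx⟩ : R₀)⁻¹ * c₀ ⟨x, hx⟩, hSp ⟨x, hx⟩, hxe⟩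
    set n := Nat.card R₀ with hn
    have hNy : norm act R₀ y / y ^ n ∈ L₀ := by
      letI := Fintype.ofFinite R₀
      rw [norm, hn, Nat.card_eq_fintype_card, ← Finset.card_univ, ← Finset.prod_const,
        ← Finset.prod_div_distrib]
      refine prod_mem fun z _ => ?_
      obtain ⟨z', hz', hze⟩ := hall z.2
      rw [← hze]
      exact hz' y hyL
    have hNF : norm act R₀ y ∈ Fx := ⟨by
      letI := Fintype.ofFinite R₀
      exact prod_mem fun z _ => hLinv _ z.2 y hyL, fun z hz => norm_fixed act _ _ hz⟩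
    have hyn : y ^ n ∈ L₀ := by
      have := div_mem (hFL hNF) hNy
      rwa [div_div_cancel] at this
    refine hyL₀ ?_
    obtain ⟨e, he⟩ : ∃ e, (y ^ n) ^ e = y :=
      exists_pow_eq_self_of_coprime ((hcop.coprime_dvd_left R₀.card_subgroup_dvd_card).coprime_dvd_right
        (orderOf_dvd_natCard y))
    rw [← he]
    exact pow_mem hyn e
  intro r x
  -- the orbit sums
  let T : P → P := fun x => ∏ i ∈ Finset.range p, (⇑cP)^[i] x
  have hT : ∀ x, cP (T x) = T x := by
    intro x
    have hrot := Finset.prod_range_succ' (fun i => (⇑cP)^[i] x) p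
    rw [Finset.prod_range_succ] at hrot
    simp only [Function.iterate_zero, id_eq, hcP, mul_left_inj] at hrot
    show cP (∏ i ∈ Finset.range p, (⇑cP)^[i] x) = _
    rw [map_prod]
    refine Eq.trans ?_ hrot.symm
    exact Finset.prod_congr rfl fun i _ => (Function.iterate_succ_apply' _ _ _).symm
  letI := Fintype.ofFinite R₀
  have hcompat' : ∀ (i : ℕ) (s : R) (v : P),
      (⇑cP)^[i] (act s v) = act ((⇑cR)^[i] s) ((⇑cP)^[i] v) := fun i => by
    induction i with
    | zero => intro s v; rfl
    | succ i ih =>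
      intro s v
      rw [Function.iterate_succ_apply', ih, hcompat, ← Function.iterate_succ_apply' (⇑cR),
        ← Function.iterate_succ_apply' (⇑cP)]
  have hψ : ∀ i ∈ Finset.range p, i ≠ 0 → ∀ k ∈ R₀,
      act k (∏ s : R₀, act ((s : R)⁻¹ * (⇑cR)^[i] (s : R)) ((⇑cP)^[i] x)) =
        ∏ s : R₀, act ((s : R)⁻¹ * (⇑cR)^[i] (s : R)) ((⇑cP)^[i] x) := by
    intro i hi hi0
    set z := ∏ s : R₀, act ((s : R)⁻¹ * (⇑cR)^[i] (s : R)) ((⇑cP)^[i] x) with hz
    let St : Subgroup R :=
      { carrier := {k | act k z = z}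
        mul_mem' := fun {a b} ha hb => by
          show act (a * b) z = z
          rw [map_mul, MulAut.mul_apply, hb, ha]
        one_mem' := by show act 1 z = z; simp
        inv_mem' := fun {a} ha => by
          show act a⁻¹ z = z
          conv_lhs => rw [← show act a z = z from ha, hinv'] }
    have himg : ∀ s₀ ∈ R₀, s₀⁻¹ * (⇑cR)^[i] s₀ ∈ St := by
      intro s₀ hs₀
      show act _ z = z
      rw [hz, map_prod]
      refine Fintype.prod_equiv (Equiv.mulLeft (⟨s₀, hs₀⟩ : R₀)) _ _ fun s => ?_
      show act _ (act _ _) = act ((s₀ * (s : R))⁻¹ * (⇑cR)^[i] (s₀ * s)) ((⇑cP)^[i] x)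
      rw [iterate_map_mul, mul_inv_rev]
      simp only [map_mul, MulAut.mul_apply]
      rw [hab ((⇑cR)^[i] s₀) (s : R)⁻¹, hab (s₀)⁻¹ (s : R)⁻¹]
    -- the displacement of `cR` telescopes
    obtain ⟨e, -, he⟩ := Nat.exists_mul_mod_eq_one_of_coprime (n := i) (k := p)
      ((hp.coprime_iff_not_dvd.2
        (Nat.not_dvd_of_pos_of_lt (Nat.pos_of_ne_zero hi0) (Finset.mem_range.1 hi))).symm) hp.one_lt
    have htel : ∀ (n : ℕ) (s : R), s ∈ R₀ → s⁻¹ * (⇑cR)^[n * i] s ∈ St := by
      intro n
      induction n with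
      | zero => intro s _; simp
      | succ n ih =>
        intro s hs
        have hs' : (⇑cR)^[i] s ∈ R₀ := by
          clear ih
          induction i with
          | zero => exact hs
          | succ i ihi =>
            rw [Function.iterate_succ_apply']
            exact hR₀inv _ (by
              have : ∀ j : ℕ, (⇑cR)^[j] s ∈ R₀ := fun j => by
                induction j with
                | zero => exact hs
                | succ j ihj => rw [Function.iterate_succ_apply']; exact hR₀inv _ ihj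
              exact this i)
        have := mul_mem (himg s hs) (ih _ hs')
        rwa [← Function.iterate_add_apply, ← Nat.succ_mul, mul_assoc, mul_inv_cancel_left] at this
    have hle : R₀ ≤ St := by
      conv_lhs => rw [hR₀]
      rw [Subgroup.closure_le]
      rintro _ ⟨s, rfl⟩
      obtain ⟨w, hw, hwe⟩ := hsurj s
      show s⁻¹ * cR s ∈ St
      rw [← hwe]
      have := htel e w hw
      have hper : Function.IsPeriodicPt (⇑cR) p w := hcR w
      rw [← hper.iterate_mod_apply, mul_comm e i, he] at this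
      exact this
    exact fun k hk => hle hk
  have hsum : ∏ s : R₀, act (s : R)⁻¹ (T (act (s : R) x)) =
      x ^ Nat.card R₀ * ∏ i ∈ (Finset.range p).erase 0,
        ∏ s : R₀, act ((s : R)⁻¹ * (⇑cR)^[i] (s : R)) ((⇑cP)^[i] x) := by
    show ∏ s : R₀, act (s : R)⁻¹ (∏ i ∈ Finset.range p, (⇑cP)^[i] (act (s : R) x)) = _
    simp only [map_prod]
    rw [Finset.prod_comm, ← Finset.mul_prod_erase _ _ (Finset.mem_range.2 hp.pos)]
    congr 1
    · simp only [Function.iterate_zero, id_eq, hinv', Finset.prod_const, Finset.card_univ,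
        Nat.card_eq_fintype_card]
    · refine Finset.prod_congr rfl fun i _ => Finset.prod_congr rfl fun s _ => ?_
      rw [hcompat', map_mul, MulAut.mul_apply]
  have hfix1 : ∀ k ∈ R₀, act k (∏ s : R₀, act (s : R)⁻¹ (T (act (s : R) x))) =
      ∏ s : R₀, act (s : R)⁻¹ (T (act (s : R) x)) := fun k hk => by
    rw [map_prod]
    exact Finset.prod_congr rfl fun s _ => by
      rw [hfixed _ (hT _) _ (inv_mem s.2), hfixed _ (hT _) k hk]
  set k := r⁻¹ * cR r with hk
  have hkR : k ∈ R₀ := Subgroup.subset_closure ⟨r, rfl⟩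
  have h1 := hfix1 k hkR
  rw [hsum, map_mul, map_pow, map_prod,
    Finset.prod_congr rfl fun i hi => hψ i (Finset.mem_of_mem_erase hi) (Finset.ne_of_mem_erase hi)
      k hkR, mul_left_inj] at h1
  have h2 : act k x = x := by
    refine mul_inv_eq_one.1 (eq_of_coprime_pow
      (hcop.coprime_dvd_left R₀.card_subgroup_dvd_card) ?_ pow_card_eq_one')
    rw [mul_pow, inv_pow, h1, mul_inv_cancel]
  rw [show cR r = r * k by rw [hk, mul_inv_cancel_left], map_mul, MulAut.mul_apply, h2]

end PairAction

end CfsgLib.FrobPQ
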