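import Cfsg.Agent.Lib.CoreFrobeniusCount

/-!
Frobenius: the number of `n`-th roots of a conjugacy class.
-/

set_option autoImplicit false

namespace CfsgLib.FgsRootCount

universe u

variable {G : Type u} [Group G] [Finite G]

theorem dvd_of_dvd_orderOf {c : G} {n q : ℕ} (hq : q.Prime) (hqc : q ∣ orderOf c) :
    q ^ n.factorization q ∣ Nat.card {x : G // x ^ n = c} := by
  classical
  set a := n.factorization q
  set Q := q ^ a with hQ
  haveI := Fintype.ofFinite G
  have hQo : ∀ x : G, x ^ n = c → Q ∣ orderOf x := by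
    intro x hx
    obtain ⟨b, o', ho', ho⟩ := Nat.exists_eq_pow_mul_and_not_dvd (orderOf_pos x).ne' q hq.ne_one
    rw [hQ, ho]
    by_contra hno
    have hba : b ≤ a := by
      by_contra hc
      exact hno ((pow_dvd_pow q (by omega : a ≤ b)).trans (Dvd.intro _ rfl))
    have hd : q ^ b ∣ n := (pow_dvd_pow q hba).trans (Nat.ordProj_dvd n q)
    obtain ⟨j, hj⟩ := hd
    have h1 : c ^ o' = 1 := by
      rw [← hx, ← pow_mul, ← orderOf_dvd_iff_pow_eq_one, ho, hj]
      exact ⟨j, by ring⟩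
    exact ho' (hqc.trans (orderOf_dvd_of_pow_eq_one h1))
  let T : G → Subgroup G := fun x => Subgroup.zpowers (x ^ (orderOf x / Q))
  have hTcard : ∀ x, x ^ n = c → Nat.card (T x) = Q := by
    intro x hx
    rw [Nat.card_zpowers, orderOf_pow, Nat.gcd_eq_right (Nat.div_dvd_of_dvd (hQo x hx)),
      Nat.div_div_self (hQo x hx) (orderOf_pos x).ne']
  have hmem : ∀ x z, x ^ n = c → z ∈ Subgroup.zpowers x → z ^ Q = 1 → z ∈ T x := by
    intro x z hx hz hzQ
    obtain ⟨i, rfl⟩ := Subgroup.mem_zpowers_iff.1 hz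
    rw [← zpow_natCast, ← zpow_mul, ← orderOf_dvd_iff_zpow_eq_one] at hzQ
    obtain ⟨r, hr⟩ := hQo x hx
    have hQ0 : 0 < Q := pow_pos hq.pos _
    rw [hr, Nat.cast_mul, mul_comm i] at hzQ
    obtain ⟨j, hj⟩ := (mul_dvd_mul_iff_left (by exact_mod_cast hQ0.ne')).1 hzQ
    refine Subgroup.mem_zpowers_iff.2 ⟨j, ?_⟩
    rw [← zpow_natCast, ← zpow_mul, hr, Nat.mul_div_cancel_left _ hQ0, ← hj]
  have hT1 : ∀ x t, t ∈ T x → x ^ n = c → t ^ Q = 1 := by
    intro x t ht hx
    rw [← hTcard x hx]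
    exact congrArg Subtype.val (pow_card_eq_one' : (⟨t, ht⟩ : T x) ^ Nat.card (T x) = 1)
  have hstep : ∀ x t, x ^ n = c → t ∈ T x → (x * t) ^ n = c ∧ T (x * t) = T x := by
    intro x t hx ht
    have htx : t ∈ Subgroup.zpowers x :=
      Subgroup.zpowers_le.2 (pow_mem (Subgroup.mem_zpowers x) _) ht
    have hcomm : Commute x t := by
      obtain ⟨i, rfl⟩ := Subgroup.mem_zpowers_iff.1 htx
      exact Commute.self_zpow x i
    have hn : (x * t) ^ n = c := by
      obtain ⟨j, hj⟩ := Nat.ordProj_dvd n q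
      rw [hcomm.mul_pow, hx, hj, pow_mul, hT1 x t ht hx, one_pow, mul_one]
    refine ⟨hn, Subgroup.eq_of_le_of_card_ge (fun z hz => hmem x z hx ?_ ?_) ?_⟩
    · exact Subgroup.zpowers_le.2 (pow_mem (mul_mem (Subgroup.mem_zpowers x) htx) _) hz
    · exact hT1 _ z hz hn
    · rw [hTcard x hx, hTcard _ hn]
  let key : G → Finset G := fun x => (Finset.univ.filter fun t => t ∈ T x).image (x * ·)
  set s := Finset.univ.filter fun x : G => x ^ n = c
  rw [Nat.card_eq_fintype_card, Fintype.card_subtype, Finset.card_eq_sum_card_image key]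
  refine Finset.dvd_sum fun K hK => ?_
  obtain ⟨x, hx, rfl⟩ := Finset.mem_image.1 hK
  rw [Finset.mem_filter] at hx
  have e : s.filter (fun y => key y = key x) = key x := by
    ext y
    constructor
    · intro hy
      rw [Finset.mem_filter] at hy
      rw [← hy.2]
      exact Finset.mem_image.2 ⟨1, Finset.mem_filter.2 ⟨Finset.mem_univ _, one_mem _⟩, mul_one y⟩
    · intro hy
      obtain ⟨t, ht, rfl⟩ := Finset.mem_image.1 hy
      rw [Finset.mem_filter] at ht
      obtain ⟨h1, h2⟩ := hstep x t hx.2 ht.2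
      refine Finset.mem_filter.2 ⟨Finset.mem_filter.2 ⟨Finset.mem_univ _, h1⟩, ?_⟩
      ext z
      simp only [key, Finset.mem_image, Finset.mem_filter, Finset.mem_univ, true_and, h2]
      constructor
      · rintro ⟨u, hu, rfl⟩
        exact ⟨t * u, mul_mem ht.2 hu, by rw [mul_assoc]⟩
      · rintro ⟨u, hu, rfl⟩
        exact ⟨t⁻¹ * u, mul_mem (inv_mem ht.2) hu, by group⟩
  rw [e, Finset.card_image_of_injective _ (mul_right_injective x), ← Fintype.card_subtype,
    ← Nat.card_eq_fintype_card]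
  exact dvd_of_eq (hTcard x hx.2).symm

theorem gcd_dvd_of_not_dvd_orderOf {c : G} (hc : c ∈ Subgroup.center G) {n q : ℕ} (hq : q.Prime)
    (hqc : ¬ q ∣ orderOf c) :
    Nat.gcd (q ^ n.factorization q) (Nat.card G) ∣ Nat.card {x : G // x ^ n = c} := by
  classical
  set Q := q ^ n.factorization q with hQdef
  set M := Nat.card G with hM
  obtain ⟨k, M', hM', hMe⟩ :=
    Nat.exists_eq_pow_mul_and_not_dvd (Nat.card_pos (α := G)).ne' q hq.ne_one
  have hcop : (q ^ k).Coprime M' := (hq.coprime_iff_not_dvd.2 hM').pow_left k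
  obtain ⟨e, he0, he1⟩ := Nat.chineseRemainder hcop 0 1
  obtain ⟨f, hf1, hf0⟩ := Nat.chineseRemainder hcop 1 0
  have hef : e + f ≡ 1 [MOD M] := by
    rw [hM, hMe]
    exact (Nat.modEq_and_modEq_iff_modEq_mul hcop).1
      ⟨by simpa using he0.add hf1, by simpa using he1.add hf0⟩
  have hpow : ∀ (x : G) {i j : ℕ} (r : ℕ), x ^ r = 1 → i ≡ j [MOD r] → x ^ i = x ^ j :=
    fun x i j r hr hij => pow_eq_pow_iff_modEq.2 (hij.of_dvd (orderOf_dvd_of_pow_eq_one hr))
  have hxM : ∀ x : G, x ^ M = 1 := fun x => pow_card_eq_one'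
  have hcM : c ^ M' = 1 := by
    rw [← orderOf_dvd_iff_pow_eq_one]
    refine ((hq.coprime_iff_not_dvd.2 hqc).pow_left k).symm.dvd_of_dvd_mul_left ?_
    rw [← hMe]; exact orderOf_dvd_natCard c
  have hvk : ∀ v : G, v ^ Q = 1 → v ^ q ^ k = 1 := by
    intro v hv
    rw [← orderOf_dvd_iff_pow_eq_one]
    have h1 : orderOf v ∣ Q := orderOf_dvd_of_pow_eq_one hv
    have h2 : (orderOf v).Coprime M' :=
      ((hq.coprime_iff_not_dvd.2 hM').pow_left _).coprime_dvd_left h1
    exact h2.dvd_of_dvd_mul_right (hMe ▸ orderOf_dvd_natCard v)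
  by_cases hn0 : n = 0
  · rw [hQdef, hn0, Nat.factorization_zero, Finsupp.zero_apply, pow_zero, Nat.gcd_one_left]
    exact one_dvd _
  have hQn : Q ∣ n := Nat.ordProj_dvd n q
  haveI := Fintype.ofFinite G
  set Ws := Finset.univ.filter fun w : G => w ^ n = c ∧ w ^ M' = 1 with hWs
  let F : G → ℕ := fun w => Nat.card {v : Subgroup.centralizer ({w} : Set G) // v ^ Q = 1}
  have hmaps : ∀ x ∈ Finset.univ.filter (fun x : G => x ^ n = c), x ^ e ∈ Ws := by
    intro x hx
    rw [Finset.mem_filter] at hx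
    refine Finset.mem_filter.2 ⟨Finset.mem_univ _, ?_, ?_⟩
    · rw [← pow_mul, mul_comm, pow_mul, hx.2, hpow c M' hcM he1, pow_one]
    · rw [← pow_mul, ← orderOf_dvd_iff_pow_eq_one]
      obtain ⟨j, hj⟩ := Nat.modEq_zero_iff_dvd.1 he0
      exact (orderOf_dvd_natCard x).trans ⟨j, by rw [hMe, hj]; ring⟩
  have hfib : ∀ w ∈ Ws,
      ((Finset.univ.filter fun x : G => x ^ n = c).filter fun x => x ^ e = w).card = F w := by
    intro w hw
    rw [Finset.mem_filter] at hw
    change _ = Nat.card {v : Subgroup.centralizer ({w} : Set G) // v ^ Q = 1}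
    rw [Finset.filter_filter, ← Fintype.card_subtype, ← Nat.card_eq_fintype_card]
    have hv : ∀ x : G, x ^ n = c → x ^ e = w → (x ^ f) ^ Q = 1 := by
      intro x hx hxe
      have h1 : orderOf (x ^ f) ∣ q ^ k := orderOf_dvd_of_pow_eq_one (by
        rw [← pow_mul, ← orderOf_dvd_iff_pow_eq_one]
        obtain ⟨j, hj⟩ := Nat.modEq_zero_iff_dvd.1 hf0
        exact (orderOf_dvd_natCard x).trans ⟨j, by rw [hMe, hj]; ring⟩)
      have h2 : orderOf (x ^ f) ∣ n := orderOf_dvd_of_pow_eq_one (by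
        rw [← pow_mul, mul_comm, pow_mul, hx, hpow c M' hcM hf0, pow_zero])
      obtain ⟨i, -, hi⟩ := (Nat.dvd_prime_pow hq).1 h1
      rw [← orderOf_dvd_iff_pow_eq_one, hi]
      exact pow_dvd_pow q ((hq.pow_dvd_iff_le_factorization hn0).1 (hi ▸ h2))
    refine Nat.card_congr
      { toFun := fun x => ⟨⟨x.1 ^ f, Subgroup.mem_centralizer_singleton_iff.2
          ((congrArg (fun z => x.1 ^ f * z = z * x.1 ^ f) x.2.2).mp ((Commute.refl x.1).pow_pow f e).eq)⟩,
          Subtype.ext (hv x.1 x.2.1 x.2.2)⟩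
        invFun := fun v => ⟨w * (v.1 : G), ?_, ?_⟩
        left_inv := fun x => Subtype.ext ?_
        right_inv := fun v => Subtype.ext (Subtype.ext ?_) }
    · have hcm : Commute w (v.1 : G) := (Subgroup.mem_centralizer_singleton_iff.1 v.1.2).symm
      have hv' : (v.1 : G) ^ Q = 1 := congrArg Subtype.val v.2
      obtain ⟨j, hj⟩ := hQn
      rw [hcm.mul_pow, hw.2.1, hj, pow_mul, hv', one_pow, mul_one]
    · have hcm : Commute w (v.1 : G) := (Subgroup.mem_centralizer_singleton_iff.1 v.1.2).symm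
      have hv' : (v.1 : G) ^ Q = 1 := congrArg Subtype.val v.2
      rw [hcm.mul_pow, hpow w M' hw.2.2 he1, hpow (v.1 : G) _ (hvk _ hv') he0, pow_one, pow_zero,
        mul_one]
    · change w * x.1 ^ f = x.1
      refine ((congrArg (fun z => z * x.1 ^ f) x.2.2).symm.trans ?_)
      rw [← pow_add, hpow x.1 M (hxM _) hef, pow_one]
    · change (w * (v.1 : G)) ^ f = v.1
      have hcm : Commute w (v.1 : G) := (Subgroup.mem_centralizer_singleton_iff.1 v.1.2).symm
      have hv' : (v.1 : G) ^ Q = 1 := congrArg Subtype.val v.2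
      rw [hcm.mul_pow, hpow w M' hw.2.2 hf0, hpow (v.1 : G) _ (hvk _ hv') hf1, pow_one, pow_zero,
        one_mul]
  rw [Nat.card_eq_fintype_card (α := {x : G // x ^ n = c}), Fintype.card_subtype,
    Finset.card_eq_sum_card_fiberwise hmaps, Finset.sum_congr rfl hfib,
    ← Finset.sum_fiberwise_of_maps_to (g := ConjClasses.mk) (fun w hw => Finset.mem_image_of_mem _ hw)]
  refine Finset.dvd_sum fun K hK => ?_
  obtain ⟨w₀, hw₀, rfl⟩ := Finset.mem_image.1 hK
  rw [Finset.mem_filter] at hw₀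
  have hinv : ∀ g : G, g * w₀ * g⁻¹ ∈ Ws := fun g => by
    refine Finset.mem_filter.2 ⟨Finset.mem_univ _, ?_, ?_⟩
    · rw [conj_pow, hw₀.2.1, Subgroup.mem_center_iff.1 hc g, mul_inv_cancel_right]
    · rw [conj_pow, hw₀.2.2, mul_one, mul_inv_cancel]
  have hcls : Ws.filter (fun w => ConjClasses.mk w = ConjClasses.mk w₀) =
      Finset.univ.filter (fun w => IsConj w₀ w) := by
    ext w
    simp only [Finset.mem_filter, Finset.mem_univ, true_and, ConjClasses.mk_eq_mk_iff_isConj]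
    refine ⟨fun h => h.2.symm, fun h => ?_⟩
    obtain ⟨g, rfl⟩ := isConj_iff.1 h
    exact ⟨hinv g, h.symm⟩
  have hconst : ∀ w, IsConj w₀ w → F w = F w₀ := by
    intro w h
    obtain ⟨g, rfl⟩ := isConj_iff.1 h
    refine Nat.card_congr (Equiv.subtypeEquiv
      ((MulAut.conj g).toEquiv.symm.subtypeEquiv fun v => ?_) fun v => ?_)
    · show v ∈ Subgroup.centralizer {g * w₀ * g⁻¹} ↔ g⁻¹ * v * g ∈ Subgroup.centralizer {w₀}
      rw [Subgroup.mem_centralizer_singleton_iff, Subgroup.mem_centralizer_singleton_iff]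
      constructor
      · intro h
        calc g⁻¹ * v * g * w₀ = g⁻¹ * (v * (g * w₀ * g⁻¹)) * g := by group
          _ = _ := by rw [h]; group
      · intro h
        calc v * (g * w₀ * g⁻¹) = g * (g⁻¹ * v * g * w₀) * g⁻¹ := by group
          _ = _ := by rw [h]; group
    · rw [Subtype.ext_iff, Subtype.ext_iff, SubmonoidClass.coe_pow, SubmonoidClass.coe_pow]
      show (v : G) ^ Q = 1 ↔ ((MulAut.conj g).symm (v : G)) ^ Q = 1
      rw [← map_pow, MulEquiv.map_eq_one_iff]
  rw [hcls, Finset.sum_congr rfl (fun w hw => hconst w (Finset.mem_filter.1 hw).2), Finset.sum_const,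
    smul_eq_mul, ← Fintype.card_subtype, ← Nat.card_eq_fintype_card,
    CfsgLib.Invol.card_isConj_eq_index]
  set C := Subgroup.centralizer ({w₀} : Set G)
  refine dvd_trans ?_ (mul_dvd_mul_left _ (CfsgLib.Core.FrobeniusCount.gcd_dvd_card
    (fun m hm => CfsgLib.Core.FrobeniusCount.frobenius _ C le_rfl m hm) Q))
  rw [← Nat.gcd_mul_left, C.index_mul_card]
  exact Nat.gcd_dvd_gcd_mul_left_left _ _ _

theorem gcd_dvd_card_roots {c : G} (hc : c ∈ Subgroup.center G) (n : ℕ) :
    Nat.gcd n (Nat.card G) ∣ Nat.card {x : G // x ^ n = c} := by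
  by_cases hn : n = 0
  · subst hn
    rw [Nat.gcd_zero_left]
    by_cases h1 : c = 1
    · subst h1
      rw [Nat.card_congr (Equiv.subtypeUnivEquiv fun x : G => pow_zero x)]
    · haveI : IsEmpty {x : G // x ^ 0 = c} := ⟨fun x => h1 ((x.2).symm.trans (pow_zero x.1))⟩
      rw [@Nat.card_of_isEmpty {x : G // x ^ 0 = c} _]
      exact dvd_zero _
  rw [Nat.dvd_iff_prime_pow_dvd_dvd]
  intro q j hq hj
  have hjn : q ^ j ∣ q ^ n.factorization q :=
    pow_dvd_pow q ((hq.pow_dvd_iff_le_factorization hn).1 (hj.trans (Nat.gcd_dvd_left _ _)))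
  by_cases hqc : q ∣ orderOf c
  · exact hjn.trans (dvd_of_dvd_orderOf hq hqc)
  · exact (Nat.dvd_gcd hjn (hj.trans (Nat.gcd_dvd_right _ _))).trans
      (gcd_dvd_of_not_dvd_orderOf hc hq hqc)

end CfsgLib.FgsRootCount
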