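import Cfsg.Agent.Lib.CoreFitting
import Cfsg.Agent.Lib.CoreLayer
import Mathlib.LinearAlgebra.Eigenspace.Triangularizable
import Mathlib.RingTheory.Artinian.Module
import Mathlib.Algebra.Group.Conj
import Mathlib.GroupTheory.Perm.Cycle.Type
import Mathlib.GroupTheory.FixedPointFree

/-!
# Fixed-point-free actions of the symmetric group of degree three
-/

set_option autoImplicit false

open scoped Classical

namespace CfsgLib.S3Fpf

/-- the symmetric group of degree three -/
abbrev S3 := Equiv.Perm (Fin 3)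

/-- a three-cycle -/
def rot : S3 := finRotate 3

/-- a transposition -/
def flip : S3 := Equiv.swap 0 1

theorem rot_cube : rot * rot * rot = 1 := by decide
theorem flip_sq : flip * flip = 1 := by decide
theorem flip_rot : flip * rot = rot * rot * flip := by decide
theorem rot_flip : rot * flip = flip * rot * rot := by decide

theorem cases_S3 : ∀ a : S3, a = 1 ∨ a = rot ∨ a = rot * rot ∨ a = flip ∨ a = rot * flip ∨
    a = rot * rot * flip := by decide

theorem gen_of_two_aux : ∀ a b : S3, a ≠ 1 → b ≠ 1 → b ≠ a → b ≠ a⁻¹ →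
    (rot = a ∨ rot = a⁻¹ ∨ rot = b ∨ rot = b⁻¹ ∨ rot = a * b ∨ rot = b * a) ∧
    (flip = a ∨ flip = b ∨ flip = a * b ∨ flip = b * a ∨ flip = a * b * a⁻¹ ∨ flip = b * a * b⁻¹
      ∨ flip = a⁻¹ * b * a ∨ flip = b⁻¹ * a * b) := by decide

theorem gen_of_two (H : Subgroup S3) {a b : S3} (ha : a ∈ H) (hb : b ∈ H) (ha1 : a ≠ 1)
    (hb1 : b ≠ 1) (hba : b ≠ a) (hba' : b ≠ a⁻¹) : rot ∈ H ∧ flip ∈ H := by
  obtain ⟨h1, h2⟩ := gen_of_two_aux a b ha1 hb1 hba hba'
  have hab := mul_mem ha hb
  have hba2 := mul_mem hb ha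
  have hai := inv_mem ha
  have hbi := inv_mem hb
  constructor
  · rcases h1 with h | h | h | h | h | h <;> rw [h] <;> assumption
  · rcases h2 with h | h | h | h | h | h | h | h <;> rw [h]
    · exact ha
    · exact hb
    · exact hab
    · exact hba2
    · exact mul_mem hab hai
    · exact mul_mem hba2 hbi
    · exact mul_mem (mul_mem hai hb) ha
    · exact mul_mem (mul_mem hbi ha) hb

variable {G : Type*} [Group G] [MulDistribMulAction S3 G]

/-- the only element fixed by the whole action is trivial -/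
def Fpf (G : Type*) [Group G] [MulDistribMulAction S3 G] : Prop :=
  ∀ g : G, rot • g = g → flip • g = g → g = 1

theorem rot3_smul {α : Type*} [MulAction S3 α] (x : α) : rot • rot • rot • x = x := by
  rw [smul_smul, smul_smul, rot_cube, one_smul]

theorem flip2_smul {α : Type*} [MulAction S3 α] (x : α) : flip • flip • x = x := by
  rw [smul_smul, flip_sq, one_smul]

theorem flip_rot_smul {α : Type*} [MulAction S3 α] (x : α) :
    flip • rot • x = rot • rot • flip • x := by
  rw [smul_smul, smul_smul, smul_smul, flip_rot]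

theorem exists_fixed3 {X : Type*} [Finite X] (f : X → X) (hf : ∀ x, f (f (f x)) = x)
    (hcard : ¬ 3 ∣ Nat.card X) : ∃ x, f x = x := by
  haveI : Fintype X := Fintype.ofFinite X
  haveI : Fact (Nat.Prime 3) := ⟨Nat.prime_three⟩
  let e : Equiv.Perm X := ⟨f, fun x => f (f x), hf, hf⟩
  exact Equiv.Perm.exists_fixed_point_of_prime (p := 3) (n := 1)
    (by rwa [← Nat.card_eq_fintype_card]) (σ := e)
    (Equiv.ext fun x => by simp [e, pow_succ, hf])

variable [Finite G]

theorem not_dvd_of_coprime (hcop : (Nat.card G).Coprime 6) {d : ℕ} (hd : d ∣ Nat.card G) :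
    ¬ 3 ∣ d ∧ Odd d := by
  have h := hcop.coprime_dvd_left hd
  refine ⟨fun h3 => ?_, ?_⟩
  · have := Nat.Coprime.coprime_dvd_left h3 h
    norm_num at this
  · exact Nat.coprime_two_right.1 (h.coprime_dvd_right (by norm_num))

theorem sq_root_mem (hcop : (Nat.card G).Coprime 6) (S : Subgroup G) {c : G} (h : c * c ∈ S) :
    c ∈ S := by
  obtain ⟨m, hm⟩ := (not_dvd_of_coprime hcop (orderOf_dvd_natCard c)).2
  have e : (c * c) ^ (m + 1) = c := by
    rw [← pow_two, ← pow_mul, show 2 * (m + 1) = orderOf c + 1 by omega, pow_succ,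
      pow_orderOf_eq_one, one_mul]
  rw [← e]
  exact pow_mem h _

/-- the three-cycle's fixed points are inverted by the transposition -/
theorem flip_inverts (hfix : Fpf G) {c : G} (hc : rot • c = c) : flip • c = c⁻¹ := by
  let C : Subgroup G :=
    { carrier := {x | rot • x = x}
      mul_mem' := fun {x y} hx hy => by
        show rot • (x * y) = x * y
        rw [smul_mul', show rot • x = x from hx, show rot • y = y from hy]
      one_mem' := smul_one _
      inv_mem' := fun {x} hx => by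
        show rot • x⁻¹ = x⁻¹
        rw [smul_inv', show rot • x = x from hx] }
  have hinv : ∀ x : G, x ∈ C → flip • x ∈ C := fun x hx => by
    show rot • flip • x = flip • x
    rw [smul_smul, rot_flip, mul_smul, mul_smul, show rot • x = x from hx,
      show rot • x = x from hx]
  let φ : C →* C :=
    { toFun := fun x => ⟨flip • (x : G), hinv _ x.2⟩
      map_one' := Subtype.ext (smul_one _)
      map_mul' := fun x y => Subtype.ext (smul_mul' _ _ _) }
  have h1 : MonoidHom.FixedPointFree φ := fun x hx =>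
    Subtype.ext (hfix x x.2 (congrArg Subtype.val hx))
  have h2 : Function.Involutive φ := fun x => Subtype.ext (flip2_smul (x : G))
  exact congrArg Subtype.val (congrFun (h1.coe_eq_inv_of_involutive h2) ⟨c, hc⟩)

theorem fixed_comm (hfix : Fpf G) {b c : G} (hb : rot • b = b) (hc : rot • c = c) :
    b * c = c * b := by
  have h := flip_inverts hfix (c := b * c) (by rw [smul_mul', hb, hc])
  rw [smul_mul', flip_inverts hfix hb, flip_inverts hfix hc, mul_inv_rev] at h
  have h' := congrArg (·⁻¹) h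
  simp only [mul_inv_rev, inv_inv] at h'
  exact h'.symm

/-- a coset fixed by the whole action is the trivial one -/
theorem mem_of_coset_fixed (hfix : Fpf G) (hcop : (Nat.card G).Coprime 6) (S : Subgroup G)
    (hSs : ∀ x ∈ S, rot • x ∈ S) (hSt : ∀ x ∈ S, flip • x ∈ S) {g : G}
    (hs : g⁻¹ * (rot • g) ∈ S) (ht : g⁻¹ * (flip • g) ∈ S) : g ∈ S := by
  let f : S → S := fun x => ⟨g⁻¹ * (rot • (g * x)), by
    rw [smul_mul', ← mul_assoc]; exact mul_mem hs (hSs _ x.2)⟩
  have hf : ∀ x, f (f (f x)) = x := fun x => by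
    apply Subtype.ext
    show g⁻¹ * (rot • (g * (g⁻¹ * (rot • (g * (g⁻¹ * (rot • (g * (x : G))))))))) = (x : G)
    rw [mul_inv_cancel_left, mul_inv_cancel_left, rot3_smul, inv_mul_cancel_left]
  obtain ⟨x, hx⟩ := exists_fixed3 f hf (not_dvd_of_coprime hcop S.card_subgroup_dvd_card).1
  have hc : rot • (g * (x : G)) = g * x := by
    have h := congrArg Subtype.val hx
    exact inv_mul_eq_iff_eq_mul.1 h
  have h1 : (g * (x : G))⁻¹ * (g * (x : G))⁻¹ ∈ S := by
    have e : (g * (x : G))⁻¹ * flip • (g * (x : G)) =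
        (x : G)⁻¹ * (g⁻¹ * flip • g) * flip • (x : G) := by rw [smul_mul']; group
    rw [flip_inverts hfix hc] at e
    rw [e]
    exact mul_mem (mul_mem (inv_mem x.2) ht) (hSt _ x.2)
  have h2 := inv_mem (sq_root_mem hcop S h1)
  rw [inv_inv] at h2
  have := mul_mem h2 (inv_mem x.2)
  rwa [mul_inv_cancel_right] at this

/-! ### Characters of an invariant normal subgroup -/

variable {k : Type*} [Field k]

/-- conjugate of a character -/
def gact {M : Subgroup G} [M.Normal] (g : G) (χ : M →* kˣ) : M →* kˣ :=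
  χ.comp (MulAut.conjNormal g⁻¹).toMonoidHom

omit [MulDistribMulAction S3 G] [Finite G] in
theorem gact_apply {M : Subgroup G} [M.Normal] (g : G) (χ : M →* kˣ) (m : M) :
    gact g χ m = χ ⟨g⁻¹ * m * g, by
      simpa using ‹M.Normal›.conj_mem (m : G) m.2 g⁻¹⟩ := by
  show χ (MulAut.conjNormal g⁻¹ m) = _
  congr 1
  exact Subtype.ext (by simp [MulAut.conjNormal_apply])

omit [MulDistribMulAction S3 G] [Finite G] in
theorem gact_one' {M : Subgroup G} [M.Normal] (χ : M →* kˣ) : gact 1 χ = χ := by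
  refine MonoidHom.ext fun m => ?_
  rw [gact_apply]
  congr 1
  exact Subtype.ext (by simp)

omit [MulDistribMulAction S3 G] [Finite G] in
theorem gact_mul' {M : Subgroup G} [M.Normal] (g h : G) (χ : M →* kˣ) :
    gact (g * h) χ = gact g (gact h χ) := by
  refine MonoidHom.ext fun m => ?_
  simp only [gact_apply]
  congr 1
  exact Subtype.ext (by simp [mul_assoc])

omit [MulDistribMulAction S3 G] [Finite G] in
theorem gact_mulChar {M : Subgroup G} [M.Normal] (g : G) (χ ψ : M →* kˣ) :
    gact g (χ * ψ) = gact g χ * gact g ψ := rfl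

/-- the stabiliser of a character -/
def stabChar {M : Subgroup G} [M.Normal] (χ : M →* kˣ) : Subgroup G where
  carrier := {g | gact g χ = χ}
  mul_mem' := fun {g h} hg hh => by
    show gact (g * h) χ = χ
    rw [gact_mul', show gact h χ = χ from hh, show gact g χ = χ from hg]
  one_mem' := gact_one' χ
  inv_mem' := fun {g} hg => by
    show gact g⁻¹ χ = χ
    conv_lhs => rw [← show gact g χ = χ from hg, ← gact_mul', inv_mul_cancel, gact_one']

section Inv

variable (M : Subgroup G) [M.Normal] (hM : ∀ (a : S3), ∀ m ∈ M, a • m ∈ M)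

/-- twisting a character by an element of `S3` -/
def aact (a : S3) (χ : M →* kˣ) : M →* kˣ where
  toFun m := χ ⟨a⁻¹ • (m : G), hM _ _ m.2⟩
  map_one' := by
    convert χ.map_one using 2
    exact Subtype.ext (smul_one _)
  map_mul' x y := by
    rw [← map_mul]
    congr 1
    exact Subtype.ext (smul_mul' _ _ _)

theorem aact_apply (a : S3) (χ : M →* kˣ) (m : M) :
    aact M hM a χ m = χ ⟨a⁻¹ • (m : G), hM _ _ m.2⟩ := rfl

theorem aact_one (χ : M →* kˣ) : aact M hM 1 χ = χ := by
  refine MonoidHom.ext fun m => ?_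
  rw [aact_apply]
  congr 1
  exact Subtype.ext (by simp)

theorem aact_mul (a b : S3) (χ : M →* kˣ) :
    aact M hM (a * b) χ = aact M hM a (aact M hM b χ) := by
  refine MonoidHom.ext fun m => ?_
  simp only [aact_apply]
  congr 1
  exact Subtype.ext (by simp [mul_smul])

theorem aact_gact (a : S3) (g : G) (χ : M →* kˣ) :
    aact M hM a (gact g χ) = gact (a • g) (aact M hM a χ) := by
  refine MonoidHom.ext fun m => ?_
  simp only [aact_apply, gact_apply]
  congr 1
  exact Subtype.ext (by simp [smul_mul', smul_inv'])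

theorem aact_mulChar (a : S3) (χ ψ : M →* kˣ) :
    aact M hM a (χ * ψ) = aact M hM a χ * aact M hM a ψ := rfl

theorem aact_oneChar (a : S3) : aact M hM a (1 : M →* kˣ) = 1 := rfl

theorem aact_invChar (a : S3) (χ : M →* kˣ) : aact M hM a χ⁻¹ = (aact M hM a χ)⁻¹ := rfl

include hM in
/-- a character fixed by the whole action is trivial -/
theorem eq_one_of_aact_fixed (hcomm : ∀ x ∈ M, ∀ y ∈ M, x * y = y * x) (hfix : Fpf G)
    (hcop : (Nat.card G).Coprime 6) {χ : M →* kˣ} (hs : aact M hM rot χ = χ)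
    (ht : aact M hM flip χ = χ) : χ = 1 := by
  have hstep : ∀ (a : S3) (x : G) (hx : x ∈ M), aact M hM a χ = χ →
      χ ⟨a • x, hM a x hx⟩ = χ ⟨x, hx⟩ := by
    intro a x hx ha
    have h := DFunLike.congr_fun ha ⟨a • x, hM a x hx⟩
    rw [aact_apply] at h
    rw [← h]
    congr 1
    exact Subtype.ext (inv_smul_smul a x)
  refine MonoidHom.ext fun m => ?_
  set x : G := (m : G) with hx
  set u := x * rot • x * rot • rot • x with hu
  have huM : u ∈ M := mul_mem (mul_mem m.2 (hM _ _ m.2)) (hM _ _ (hM _ _ m.2))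
  have hus : rot • u = u := by
    rw [hu, smul_mul', smul_mul', rot3_smul, hcomm _ (mul_mem (hM _ _ m.2) (hM _ _ (hM _ _ m.2)))
      _ m.2, ← mul_assoc]
  have hw : u * flip • u = 1 := by
    refine hfix _ ?_ ?_
    · rw [smul_mul', hus]
      congr 1
      rw [smul_smul, rot_flip, mul_smul, mul_smul, hus, hus]
    · rw [smul_mul', flip2_smul, hcomm _ (hM _ _ huM) _ huM]
  have h6 : χ m ^ 6 = 1 := by
    have e1 : χ ⟨u, huM⟩ = χ m ^ 3 := by
      have e : (⟨u, huM⟩ : M) =
          m * ⟨rot • x, hM _ _ m.2⟩ * ⟨rot • rot • x, hM _ _ (hM _ _ m.2)⟩ := Subtype.ext rfl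
      rw [e, map_mul, map_mul, hstep rot _ (hM _ _ m.2) hs, hstep rot _ m.2 hs]
      show χ m * χ m * χ m = _
      rw [pow_succ, pow_two]
    have e2 : χ ⟨u * flip • u, mul_mem huM (hM _ _ huM)⟩ = χ m ^ 6 := by
      have e : (⟨u * flip • u, mul_mem huM (hM _ _ huM)⟩ : M) =
          ⟨u, huM⟩ * ⟨flip • u, hM _ _ huM⟩ := rfl
      rw [e, map_mul, hstep flip _ huM ht, e1, ← pow_add]
    rw [← e2]
    convert χ.map_one using 2
    exact Subtype.ext hw
  have hN : χ m ^ Nat.card M = 1 := by rw [← map_pow, pow_card_eq_one', map_one]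
  have h1 := Nat.dvd_gcd (orderOf_dvd_of_pow_eq_one h6) (orderOf_dvd_of_pow_eq_one hN)
  rw [((hcop.coprime_dvd_left M.card_subgroup_dvd_card).symm).gcd_eq_one, Nat.dvd_one,
    orderOf_eq_one_iff] at h1
  rw [h1, MonoidHom.one_apply]

include hM in
/-- an orbit of characters invariant under the action consists of the trivial character -/
theorem orbit_fixed (hcomm : ∀ x ∈ M, ∀ y ∈ M, x * y = y * x) (hfix : Fpf G)
    (hcop : (Nat.card G).Coprime 6) {χ : M →* kˣ} (hs : ∃ g, aact M hM rot χ = gact g χ)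
    (ht : ∃ g, aact M hM flip χ = gact g χ) : χ = 1 := by
  letI : MulAction G (M →* kˣ) :=
    { smul := fun g χ => gact g χ
      one_smul := gact_one'
      mul_smul := gact_mul' }
  have hinv : ∀ (a : S3), (∃ g, aact M hM a χ = gact g χ) → ∀ ψ ∈ MulAction.orbit G χ,
      aact M hM a ψ ∈ MulAction.orbit G χ := by
    rintro a ⟨g, hg⟩ _ ⟨h, rfl⟩
    refine ⟨a • h * g, ?_⟩
    show gact (a • h * g) χ = aact M hM a (gact h χ)
    rw [gact_mul', ← hg, aact_gact]
  haveI : Finite (MulAction.orbit G χ) := Set.finite_range _ |>.to_subtype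
  have hcard : Nat.card (MulAction.orbit G χ) ∣ Nat.card G := by
    rw [Nat.card_congr (MulAction.orbitEquivQuotientStabilizer G χ)]
    exact Subgroup.index_dvd_card _
  obtain ⟨⟨ψ, hψ⟩, hfixψ⟩ := exists_fixed3
    (fun ψ : MulAction.orbit G χ => (⟨aact M hM rot ψ.1, hinv rot hs _ ψ.2⟩ : MulAction.orbit G χ))
    (fun ψ => Subtype.ext (show aact M hM rot (aact M hM rot (aact M hM rot ψ.1)) = ψ.1 by
      rw [← aact_mul, ← aact_mul, rot_cube, aact_one]))
    (not_dvd_of_coprime hcop hcard).1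
  have hψs : aact M hM rot ψ = ψ := congrArg Subtype.val hfixψ
  -- the transposition moves `ψ` by a fixed point of the three-cycle
  obtain ⟨g0, hg0⟩ := hψ
  obtain ⟨g1, hg1⟩ := hinv flip ht ψ ⟨g0, hg0⟩
  have hg0' : gact g0 χ = ψ := hg0
  have hg1' : gact g1 χ = aact M hM flip ψ := hg1
  set h := g1 * g0⁻¹ with hh
  have hh' : gact h ψ = aact M hM flip ψ := by
    rw [← hg0', ← gact_mul', hh, inv_mul_cancel_right, hg1', hg0']
  set S := stabChar ψ
  have hSs : ∀ x ∈ S, rot • x ∈ S := fun x hx => by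
    show gact (rot • x) ψ = ψ
    conv_lhs => rw [← hψs, ← aact_gact, show gact x ψ = ψ from hx, hψs]
  have hfl : aact M hM rot (aact M hM flip ψ) = aact M hM flip ψ := by
    rw [← aact_mul, rot_flip, aact_mul, aact_mul, hψs, hψs]
  have hsh : h⁻¹ * (rot • h) ∈ S := by
    show gact (h⁻¹ * (rot • h)) ψ = ψ
    have e : gact (rot • h) ψ = gact h ψ := by
      conv_lhs => rw [← hψs, ← aact_gact, hh', hfl]
      exact hh'.symm
    rw [gact_mul', e, ← gact_mul', inv_mul_cancel, gact_one']
  let f : S → S := fun x => ⟨h⁻¹ * (rot • (h * x)), by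
    rw [smul_mul', ← mul_assoc]; exact mul_mem hsh (hSs _ x.2)⟩
  have hf : ∀ x, f (f (f x)) = x := fun x => by
    apply Subtype.ext
    show h⁻¹ * (rot • (h * (h⁻¹ * (rot • (h * (h⁻¹ * (rot • (h * (x : G))))))))) = (x : G)
    rw [mul_inv_cancel_left, mul_inv_cancel_left, rot3_smul, inv_mul_cancel_left]
  obtain ⟨x, hx⟩ := exists_fixed3 f hf (not_dvd_of_coprime hcop S.card_subgroup_dvd_card).1
  set c := h * (x : G) with hc'
  have hc : rot • c = c := inv_mul_eq_iff_eq_mul.1 (congrArg Subtype.val hx)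
  have hcψ : gact c ψ = aact M hM flip ψ := by
    rw [hc', gact_mul', show gact (x : G) ψ = ψ from x.2, hh']
  obtain ⟨d, hd, hdc⟩ : ∃ d, rot • d = d ∧ d * d = c := by
    obtain ⟨j, hj⟩ := (not_dvd_of_coprime hcop (orderOf_dvd_natCard c)).2
    refine ⟨c ^ (j + 1), by rw [smul_pow', hc], ?_⟩
    rw [← pow_add, show j + 1 + (j + 1) = orderOf c + 1 by omega, pow_succ, pow_orderOf_eq_one,
      one_mul]
  have hfin : gact d ψ = 1 := by
    refine eq_one_of_aact_fixed M hM hcomm hfix hcop ?_ ?_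
    · rw [aact_gact, hd, hψs]
    · rw [aact_gact, flip_inverts hfix hd, ← hcψ, ← gact_mul', ← hdc, inv_mul_cancel_left]
  have h1 : gact (d * g0) χ = 1 := by rw [gact_mul', hg0', hfin]
  have h2 := congrArg (gact (d * g0)⁻¹) h1
  rw [← gact_mul', inv_mul_cancel, gact_one'] at h2
  rw [h2]
  exact MonoidHom.ext fun _ => rfl

end Inv

omit [Finite G] in
theorem exists_rot_fixed [Finite G] (hcop : (Nat.card G).Coprime 6) (S : Subgroup G)
    (hSs : ∀ x ∈ S, rot • x ∈ S) {g : G} (hs : g⁻¹ * (rot • g) ∈ S) :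
    ∃ x ∈ S, rot • (g * x) = g * x := by
  let f : S → S := fun x => ⟨g⁻¹ * (rot • (g * x)), by
    rw [smul_mul', ← mul_assoc]; exact mul_mem hs (hSs _ x.2)⟩
  have hf : ∀ x, f (f (f x)) = x := fun x => by
    apply Subtype.ext
    show g⁻¹ * (rot • (g * (g⁻¹ * (rot • (g * (g⁻¹ * (rot • (g * (x : G))))))))) = (x : G)
    rw [mul_inv_cancel_left, mul_inv_cancel_left, rot3_smul, inv_mul_cancel_left]
  obtain ⟨x, hx⟩ := exists_fixed3 f hf (not_dvd_of_coprime hcop S.card_subgroup_dvd_card).1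
  exact ⟨x, x.2, inv_mul_eq_iff_eq_mul.1 (congrArg Subtype.val hx)⟩

theorem conj_to_flip : ∀ a : S3, a ≠ 1 → a ≠ rot → a ≠ rot * rot →
    ∃ b : S3, (b = 1 ∨ b = rot ∨ b = rot * rot) ∧ b * a * b⁻¹ = flip := by decide

theorem sum_S3 {B : Type*} [AddCommMonoid B] (f : S3 → B) :
    ∑ a : S3, f a = f 1 + f rot + f (rot * rot) + f flip + f (rot * flip) + f (rot * rot * flip) := by
  have h : (Finset.univ : Finset S3) = {1, rot, rot * rot, flip, rot * flip, rot * rot * flip} := by
    decide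
  rw [h, Finset.sum_insert (by decide), Finset.sum_insert (by decide), Finset.sum_insert (by decide),
    Finset.sum_insert (by decide), Finset.sum_insert (by decide), Finset.sum_singleton]
  simp only [add_assoc]

/-! ### Representations compatible with the action -/

section Rep

variable {W : Type*} [AddCommGroup W] [Module k W]

/-- a weight of a subgroup in a representation -/
def IsWeight (ρ : G →* Module.End k W) (M : Subgroup G) (χ : M →* kˣ) : Prop :=
  ∃ v : W, v ≠ 0 ∧ ∀ m : M, ρ (m : G) v = (χ m : k) • v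

variable (ρ : G →* Module.End k W) (α : S3 →* Module.End k W)

omit [MulDistribMulAction S3 G] [Finite G] in
theorem comp_apply (g h : G) (v : W) : ρ g (ρ h v) = ρ (g * h) v := by
  rw [map_mul]; rfl

omit [MulDistribMulAction S3 G] [Finite G] in
theorem inv_apply (g : G) (v : W) : ρ g⁻¹ (ρ g v) = v := by
  rw [comp_apply, inv_mul_cancel, map_one]; rfl

theorem alpha_comp (a b : S3) (v : W) : α a (α b v) = α (a * b) v := by
  rw [map_mul]; rfl

omit [MulDistribMulAction S3 G] [Finite G] in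
theorem weight_gact {M : Subgroup G} [M.Normal] {χ : M →* kˣ} (h : IsWeight ρ M χ) (g : G) :
    IsWeight ρ M (gact g χ) := by
  obtain ⟨v, hv, hχ⟩ := h
  refine ⟨ρ g v, fun h0 => hv ?_, fun m => ?_⟩
  · rw [← inv_apply ρ g v, h0, map_zero]
  · have hm : g⁻¹ * (m : G) * g ∈ M := by
      simpa using ‹M.Normal›.conj_mem (m : G) m.2 g⁻¹
    have e : ρ (m : G) (ρ g v) = ρ g (ρ (g⁻¹ * (m : G) * g) v) := by
      rw [comp_apply, comp_apply, ← mul_assoc, ← mul_assoc, mul_inv_cancel, one_mul]
    rw [e, hχ ⟨_, hm⟩, map_smul, gact_apply]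

variable (hcompat : ∀ (a : S3) (g : G) (v : W), α a (ρ g v) = ρ (a • g) (α a v))

include hcompat in
theorem eigen_alpha (M : Subgroup G) [M.Normal] (hM : ∀ (a : S3), ∀ m ∈ M, a • m ∈ M)
    {χ : M →* kˣ} {v : W} (h : ∀ m : M, ρ (m : G) v = (χ m : k) • v) (a : S3) (m : M) :
    ρ (m : G) (α a v) = (aact M hM a χ m : k) • α a v := by
  have e := hcompat a (a⁻¹ • (m : G)) v
  rw [smul_inv_smul] at e
  rw [← e, h ⟨_, hM _ _ m.2⟩, map_smul, aact_apply]

omit [MulDistribMulAction S3 G] [Finite G] in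
/-- eigenvectors for distinct characters are independent -/
theorem eigen_indep (M : Subgroup G) (I : Finset (M →* kˣ)) : ∀ (v : (M →* kˣ) → W),
    (∀ χ ∈ I, ∀ m : M, ρ (m : G) (v χ) = (χ m : k) • v χ) → ∑ χ ∈ I, v χ = 0 →
      ∀ χ ∈ I, v χ = 0 := by
  induction I using Finset.induction_on with
  | empty => intro v _ _ χ h; exact absurd h (Finset.notMem_empty χ)
  | insert χ₀ I h₀ IH =>
    intro v hv hsum χ hχ
    rw [Finset.sum_insert h₀] at hsum
    have key : ∀ ψ ∈ I, v ψ = 0 := by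
      intro ψ hψ
      obtain ⟨m, hm⟩ : ∃ m, ψ m ≠ χ₀ m := by
        by_contra hc
        push Not at hc
        exact h₀ (MonoidHom.ext hc ▸ hψ)
      have hz : ∑ φ ∈ I, ((φ m : k) - (χ₀ m : k)) • v φ = 0 := by
        have h1 : ρ (m : G) (v χ₀ + ∑ φ ∈ I, v φ) = 0 := by rw [hsum, map_zero]
        rw [map_add, map_sum, hv χ₀ (Finset.mem_insert_self _ _) m,
          Finset.sum_congr rfl fun φ hφ => hv φ (Finset.mem_insert_of_mem hφ) m,
          eq_neg_of_add_eq_zero_left hsum, smul_neg, Finset.smul_sum] at h1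
        simp only [sub_smul, Finset.sum_sub_distrib]
        rw [sub_eq_add_neg, add_comm]
        exact h1
      have h2 := IH (fun φ => ((φ m : k) - (χ₀ m : k)) • v φ) (fun φ hφ m' => by
        rw [map_smul, hv φ (Finset.mem_insert_of_mem hφ) m', smul_comm]) hz ψ hψ
      exact (smul_eq_zero.1 h2).resolve_left
        (sub_ne_zero.2 fun e => hm (Units.ext e))
    rcases Finset.mem_insert.1 hχ with rfl | h
    · rwa [Finset.sum_eq_zero key, add_zero] at hsum
    · exact key χ h

variable [FiniteDimensional k W] [IsAlgClosed k]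

omit [MulDistribMulAction S3 G] [Finite G] in
theorem exists_weight (M : Subgroup G) (hcomm : ∀ x ∈ M, ∀ y ∈ M, x * y = y * x)
    (U : Submodule k W) (hU : U ≠ ⊥) (hinv : ∀ m : M, ∀ v ∈ U, ρ (m : G) v ∈ U) :
    ∃ χ : M →* kˣ, ∃ v ∈ U, v ≠ 0 ∧ ∀ m : M, ρ (m : G) v = (χ m : k) • v := by
  obtain ⟨V, ⟨hVb, hVi, hVU⟩, hmin⟩ := (IsWellFounded.wf (r := ((· < ·) :
    Submodule k W → Submodule k W → Prop))).has_min
      {V | V ≠ ⊥ ∧ (∀ m : M, ∀ v ∈ V, ρ (m : G) v ∈ V) ∧ V ≤ U} ⟨U, hU, hinv, le_rfl⟩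
  have hscal : ∀ m : M, ∃ c : k, ∀ v ∈ V, ρ (m : G) v = c • v := by
    intro m
    haveI : Nontrivial V := Submodule.nontrivial_iff_ne_bot.2 hVb
    obtain ⟨c, hc⟩ := Module.End.exists_eigenvalue ((ρ (m : G)).restrict (hVi m))
    obtain ⟨w, hw⟩ := hc.exists_hasEigenvector
    refine ⟨c, fun v hv => ?_⟩
    set E := V ⊓ Module.End.eigenspace (ρ (m : G)) c with hE
    have hwE : (w : W) ∈ E := ⟨w.2, Module.End.mem_eigenspace_iff.2
      (congrArg Subtype.val hw.apply_eq_smul)⟩
    have hEV : E = V := by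
      by_contra hne
      refine hmin E ⟨fun h => hw.2 ?_, fun m' u hu => ⟨hVi m' u hu.1, ?_⟩,
        inf_le_left.trans hVU⟩ (lt_of_le_of_ne inf_le_left hne)
      · exact Subtype.ext ((Submodule.mem_bot k).1 (h ▸ hwE))
      · refine Module.End.mem_eigenspace_iff.2 ?_
        rw [comp_apply, hcomm _ m.2 _ m'.2, ← comp_apply,
          Module.End.mem_eigenspace_iff.1 hu.2, map_smul]
    rw [← hEV] at hv
    exact Module.End.mem_eigenspace_iff.1 hv.2
  choose c hc using hscal
  obtain ⟨v, hv, hv0⟩ := V.exists_mem_ne_zero_of_ne_bot hVb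
  have hone : c 1 = 1 := by
    have h := hc 1 v hv
    rw [OneMemClass.coe_one, map_one, Module.End.one_apply] at h
    exact smul_left_injective k hv0 (h.symm.trans (one_smul k v).symm)
  have hmul : ∀ a b : M, c (a * b) = c a * c b := fun a b => by
    have h := hc (a * b) v hv
    rw [Subgroup.coe_mul, ← comp_apply, hc b v hv, map_smul, hc a v hv, smul_smul] at h
    rw [mul_comm]
    exact smul_left_injective k hv0 h.symm
  let χ : M →* k := ⟨⟨c, hone⟩, hmul⟩
  exact ⟨χ.toHomUnits, v, hVU hv, hv0, fun m => hc m v hv⟩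

omit [MulDistribMulAction S3 G] in
theorem exists_weight_ne (M : Subgroup G) (hcomm : ∀ x ∈ M, ∀ y ∈ M, x * y = y * x)
    (hk : (Nat.card M : k) ≠ 0) (m₀ : M) (hm : ρ (m₀ : G) ≠ 1) :
    ∃ χ : M →* kˣ, IsWeight ρ M χ ∧ χ m₀ ≠ 1 := by
  set T := ρ (m₀ : G) with hT
  have hU : LinearMap.range (T - 1) ≠ ⊥ := by
    rw [Ne, LinearMap.range_eq_bot, sub_eq_zero]; exact hm
  obtain ⟨χ, u, hu, hu0, hχ⟩ := exists_weight ρ M hcomm _ hU (by
    rintro m _ ⟨w, rfl⟩
    refine ⟨ρ (m : G) w, ?_⟩
    simp only [LinearMap.sub_apply, Module.End.one_apply, map_sub, hT]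
    rw [comp_apply, comp_apply, hcomm _ m₀.2 _ m.2])
  refine ⟨χ, ⟨u, hu0, hχ⟩, fun h1 => hu0 ?_⟩
  obtain ⟨w, rfl⟩ := hu
  set x := (T - 1) w with hx
  have hTx : T x = x := by rw [hT, hχ m₀, h1, Units.val_one, one_smul]
  have hpow : ∀ n : ℕ, (T ^ n) w = w + (n : k) • x := by
    intro n
    induction n with
    | zero => simp
    | succ n ih =>
      rw [pow_succ', Module.End.mul_apply, ih, map_add, map_smul, hTx, Nat.cast_succ, add_smul,
        one_smul, hx, LinearMap.sub_apply, Module.End.one_apply]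
      abel
  have h2 := hpow (Nat.card M)
  have hp : T ^ Nat.card M = 1 := by
    rw [hT, ← map_pow, ← SubgroupClass.coe_pow, pow_card_eq_one', OneMemClass.coe_one, map_one]
  rw [hp, Module.End.one_apply, left_eq_add] at h2
  exact (smul_eq_zero.1 h2).resolve_left hk

variable (hsum : ∀ v : W, ∑ a : S3, α a v = 0)

include hcompat hsum in
omit [FiniteDimensional k W] [IsAlgClosed k] in
theorem exists_stab (M : Subgroup G) [M.Normal] (hM : ∀ (a : S3), ∀ m ∈ M, a • m ∈ M)
    {χ : M →* kˣ} (h : IsWeight ρ M χ) : ∃ a : S3, a ≠ 1 ∧ aact M hM a χ = χ := by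
  obtain ⟨v, hv, hχ⟩ := h
  by_contra hc
  push Not at hc
  have hinj : Function.Injective fun a : S3 => aact M hM a χ := by
    intro a b hab
    by_contra hne
    refine hc (b⁻¹ * a) (fun e => hne (inv_mul_eq_one.1 e).symm) ?_
    rw [aact_mul]
    rw [show aact M hM a χ = aact M hM b χ from hab, ← aact_mul, inv_mul_cancel, aact_one]
  let u : (M →* kˣ) → W := Function.extend (fun a : S3 => aact M hM a χ) (fun a => α a v) 0
  have hu : ∀ a : S3, u (aact M hM a χ) = α a v := fun a => hinj.extend_apply _ _ a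
  have h0 := eigen_indep ρ M (Finset.univ.image fun a : S3 => aact M hM a χ) u
    (fun ψ hψ m => by
      obtain ⟨a, -, rfl⟩ := Finset.mem_image.1 hψ
      rw [hu]
      exact eigen_alpha ρ α hcompat M hM hχ a m)
    (by rw [Finset.sum_image fun a _ b _ e => hinj e, Finset.sum_congr rfl fun a _ => hu a]
        exact hsum v)
    (aact M hM 1 χ) (Finset.mem_image_of_mem _ (Finset.mem_univ _))
  rw [hu, map_one, Module.End.one_apply] at h0
  exact hv h0

variable (hfix : Fpf G) (hcop : (Nat.card G).Coprime 6)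

include hcompat hsum hfix hcop in
omit [FiniteDimensional k W] [IsAlgClosed k] in
/-- an element of `S3` fixing a non-trivial weight fixes its whole orbit -/
theorem exclusive (M : Subgroup G) [M.Normal] (hM : ∀ (a : S3), ∀ m ∈ M, a • m ∈ M)
    (hcomm : ∀ x ∈ M, ∀ y ∈ M, x * y = y * x) {χ : M →* kˣ} (hχ : IsWeight ρ M χ) (hne : χ ≠ 1)
    {a : S3} (ha : a ≠ 1) (hfa : aact M hM a χ = χ) (g : G) :
    aact M hM a (gact g χ) = gact g χ := by
  obtain ⟨b, hb, hfb⟩ := exists_stab ρ α hcompat hsum M hM (weight_gact ρ hχ g)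
  let H : Subgroup S3 :=
    { carrier := {c | ∃ h, aact M hM c χ = gact h χ}
      mul_mem' := fun {c d} hc hd => by
        obtain ⟨h1, e1⟩ := hc
        obtain ⟨h2, e2⟩ := hd
        exact ⟨c • h2 * h1, by rw [aact_mul, e2, aact_gact, e1, gact_mul']⟩
      one_mem' := ⟨1, by rw [aact_one, gact_one']⟩
      inv_mem' := fun {c} hc => by
        obtain ⟨h, e⟩ := hc
        refine ⟨c⁻¹ • h⁻¹, ?_⟩
        have e2 := congrArg (fun ψ => aact M hM c⁻¹ (gact h⁻¹ ψ)) e
        simp only [← gact_mul', inv_mul_cancel, gact_one'] at e2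
        rw [aact_gact, ← aact_mul, inv_mul_cancel, aact_one] at e2
        exact e2.symm }
  by_cases h1 : b = a
  · rw [← h1]; exact hfb
  by_cases h2 : b = a⁻¹
  · conv_lhs => rw [← hfb, ← aact_mul, h2, mul_inv_cancel, aact_one]
  have haH : a ∈ H := ⟨1, by rw [hfa, gact_one']⟩
  have hbH : b ∈ H := by
    refine ⟨(b • g)⁻¹ * g, ?_⟩
    rw [gact_mul']
    conv_rhs => rw [← hfb, aact_gact, ← gact_mul', inv_mul_cancel, gact_one']
  obtain ⟨hr, hf⟩ := gen_of_two H haH hbH ha hb h1 h2
  exact absurd (orbit_fixed M hM hcomm hfix hcop hr hf) hne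

include hcompat hsum hfix hcop in
omit [FiniteDimensional k W] [IsAlgClosed k] in
/-- every weight of an invariant normal abelian subgroup is fixed by `G` -/
theorem weight_fixed (M : Subgroup G) [M.Normal] (hM : ∀ (a : S3), ∀ m ∈ M, a • m ∈ M)
    (hcomm : ∀ x ∈ M, ∀ y ∈ M, x * y = y * x) {χ : M →* kˣ} (hχ : IsWeight ρ M χ) (g : G) :
    gact g χ = χ := by
  by_cases hne : χ = 1
  · subst hne; rfl
  obtain ⟨a, ha, hfa⟩ := exists_stab ρ α hcompat hsum M hM hχ
  have hex : ∀ {φ : M →* kˣ}, IsWeight ρ M φ → φ ≠ 1 → ∀ {c : S3}, c ≠ 1 →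
      aact M hM c φ = φ → ∀ x : G, aact M hM c (gact x φ) = gact x φ :=
    fun {_} h1 h2 {_} h3 h4 x => exclusive ρ α hcompat hsum hfix hcop M hM hcomm h1 h2 h3 h4 x
  by_cases hrot : aact M hM rot χ = χ
  · -- fixed by the three-cycle
    set S := stabChar χ with hS
    have hSs : ∀ x ∈ S, rot • x ∈ S := fun x hx => by
      show gact (rot • x) χ = χ
      conv_lhs => rw [← hrot, ← aact_gact, show gact x χ = χ from hx, hrot]
    have hg : g⁻¹ * (rot • g) ∈ S := by
      show gact _ χ = χ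
      have e : gact (rot • g) χ = gact g χ := by
        conv_lhs => rw [← hrot, ← aact_gact, hex hχ hne (by decide) hrot g]
      rw [gact_mul', e, ← gact_mul', inv_mul_cancel, gact_one']
    obtain ⟨x, hxS, hx⟩ := exists_rot_fixed hcop S hSs hg
    set c := g * x with hc
    suffices hcS : gact c χ = χ by
      rw [hc, gact_mul', show gact x χ = χ from hxS] at hcS
      exact hcS
    refine MonoidHom.ext fun m => ?_
    have hm' : c⁻¹ * (m : G) * c ∈ M := by
      simpa using ‹M.Normal›.conj_mem (m : G) m.2 c⁻¹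
    have hcube : ∀ (y : G) (hy : y ∈ M), χ ⟨y * rot • y * rot • rot • y,
        mul_mem (mul_mem hy (hM _ _ hy)) (hM _ _ (hM _ _ hy))⟩ = χ ⟨y, hy⟩ ^ 3 := by
      intro y hy
      have hst : ∀ (z : G) (hz : z ∈ M), χ ⟨rot • z, hM _ _ hz⟩ = χ ⟨z, hz⟩ := by
        intro z hz
        have h := DFunLike.congr_fun hrot ⟨rot • z, hM _ _ hz⟩
        rw [aact_apply] at h
        rw [← h]
        congr 1
        exact Subtype.ext (inv_smul_smul rot z)
      rw [show (⟨y * rot • y * rot • rot • y, mul_mem (mul_mem hy (hM _ _ hy))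
          (hM _ _ (hM _ _ hy))⟩ : M) = ⟨y, hy⟩ * ⟨rot • y, hM _ _ hy⟩ *
          ⟨rot • rot • y, hM _ _ (hM _ _ hy)⟩ from rfl, map_mul, map_mul, hst _ (hM _ _ hy),
        hst _ hy, pow_succ, pow_two]
    set n := (m : G) * rot • (m : G) * rot • rot • (m : G) with hn
    have hnM : n ∈ M := mul_mem (mul_mem m.2 (hM _ _ m.2)) (hM _ _ (hM _ _ m.2))
    have hnfix : rot • n = n := by
      rw [hn, smul_mul', smul_mul', rot3_smul,
        hcomm _ (mul_mem (hM _ _ m.2) (hM _ _ (hM _ _ m.2))) _ m.2, ← mul_assoc]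
    have h3 : χ ⟨c⁻¹ * m * c, hm'⟩ ^ 3 = χ m ^ 3 := by
      rw [← hcube _ hm', ← hcube _ m.2]
      congr 1
      apply Subtype.ext
      have hcn : c⁻¹ * n * c = n := by
        rw [mul_assoc, fixed_comm hfix hnfix hx, inv_mul_cancel_left]
      show c⁻¹ * m * c * rot • (c⁻¹ * m * c) * rot • rot • (c⁻¹ * m * c) = n
      rw [smul_mul', smul_mul', smul_inv', hx, smul_mul', smul_mul', smul_inv', hx, ← hcn, hn]
      group
    rw [gact_apply]
    have hcopM : (Nat.card M).Coprime 3 :=
      (hcop.coprime_dvd_left M.card_subgroup_dvd_card).coprime_dvd_right (by norm_num)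
    have e3 : (χ ⟨c⁻¹ * m * c, hm'⟩ * (χ m)⁻¹) ^ 3 = 1 := by
      rw [mul_pow, h3, inv_pow, mul_inv_cancel]
    have eN : (χ ⟨c⁻¹ * m * c, hm'⟩ * (χ m)⁻¹) ^ Nat.card M = 1 := by
      rw [mul_pow, inv_pow, ← map_pow, ← map_pow, pow_card_eq_one', pow_card_eq_one', map_one,
        inv_one, mul_one]
    have e1 := Nat.dvd_gcd (orderOf_dvd_of_pow_eq_one eN) (orderOf_dvd_of_pow_eq_one e3)
    rw [hcopM.gcd_eq_one, Nat.dvd_one, orderOf_eq_one_iff, mul_inv_eq_one] at e1
    exact e1
  · -- fixed by a transposition, which we may take to be `flip`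
    have har : a ≠ rot := fun e => hrot (e ▸ hfa)
    have har2 : a ≠ rot * rot := fun e => hrot (by
      subst e
      conv_lhs => rw [← hfa, ← aact_mul, ← mul_assoc, rot_cube, aact_one])
    obtain ⟨b, hb, hba⟩ := conj_to_flip a ha har har2
    suffices hmain : ∀ (ψ : M →* kˣ), IsWeight ρ M ψ → ψ ≠ 1 → aact M hM flip ψ = ψ →
        ∀ h : G, gact h ψ = ψ by
      have hw : IsWeight ρ M (aact M hM b χ) := by
        obtain ⟨v, hv, hv'⟩ := hχ
        exact ⟨α b v, fun h0 => hv (by
          have := congrArg (α b⁻¹) h0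
          rwa [alpha_comp, inv_mul_cancel, map_one, Module.End.one_apply, map_zero] at this),
          eigen_alpha ρ α hcompat M hM hv' b⟩
      have hw1 : aact M hM b χ ≠ 1 := fun e => hne (by
        have := congrArg (aact M hM b⁻¹) e
        rwa [← aact_mul, inv_mul_cancel, aact_one, aact_oneChar] at this)
      have h1 := hmain _ hw hw1 (by
        rw [← hba, ← aact_mul, inv_mul_cancel_right, aact_mul, hfa]) (b • g)
      rw [← aact_gact] at h1
      have := congrArg (aact M hM b⁻¹) h1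
      rwa [← aact_mul, ← aact_mul, inv_mul_cancel, aact_one, aact_one] at this
    clear! a b
    intro ψ hψ hψ1 hflip h
    set μ := aact M hM rot ψ with hμ
    set ν := aact M hM rot μ with hν
    have hrr : aact M hM rot ν = ψ := by
      rw [hν, hμ, ← aact_mul, ← aact_mul, rot_cube, aact_one]
    have hfμ : aact M hM flip μ = ν := by
      rw [hν, hμ, ← aact_mul, flip_rot, aact_mul, aact_mul, hflip]
    have hfν : aact M hM flip ν = μ := by
      rw [← hfμ, ← aact_mul, flip_sq, aact_one]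
    have hP : ψ * μ * ν = 1 := by
      refine eq_one_of_aact_fixed M hM hcomm hfix hcop ?_ ?_
      · rw [aact_mulChar, aact_mulChar, ← hμ, ← hν, hrr]
        refine MonoidHom.ext fun m => ?_
        simp only [MonoidHom.mul_apply]
        ac_rfl
      · rw [aact_mulChar, aact_mulChar, hflip, hfμ, hfν]
        refine MonoidHom.ext fun m => ?_
        simp only [MonoidHom.mul_apply]
        ac_rfl
    have hwμ : IsWeight ρ M μ ∧ IsWeight ρ M ν := by
      obtain ⟨v, hv, hv'⟩ := hψ
      have hne' : ∀ b : S3, α b v ≠ 0 := fun b h0 => hv (by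
        have := congrArg (α b⁻¹) h0
        rwa [alpha_comp, inv_mul_cancel, map_one, Module.End.one_apply, map_zero] at this)
      refine ⟨⟨_, hne' rot, eigen_alpha ρ α hcompat M hM hv' rot⟩,
        ⟨_, hne' (rot * rot), fun m => ?_⟩⟩
      rw [hν, hμ, ← aact_mul]
      exact eigen_alpha ρ α hcompat M hM hv' _ m
    have hν1 : ν ≠ 1 := fun e => hψ1 (by rw [← hrr, e, aact_oneChar])
    have hμ1 : μ ≠ 1 := fun e => hν1 (by rw [hν, e, aact_oneChar])
    have ht3 : aact M hM (rot * rot * flip * rot) ν = ν := by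
      rw [aact_mul, hrr, aact_mul, aact_mul, hflip]
    have ht2 : aact M hM (rot * flip * (rot * rot)) μ = μ := by
      rw [hμ, ← aact_mul, show rot * flip * (rot * rot) * rot = rot * flip by decide, aact_mul,
        hflip]
    have hμψ : ∀ x, gact x μ = μ → gact x ψ = ψ := by
      intro x hx
      have e1 : gact x ψ * μ * gact x ν = ψ * μ * ν := by
        rw [hP]
        nth_rewrite 1 [← hx]
        rw [← gact_mulChar, ← gact_mulChar, hP]
        rfl
      have hXZ : gact x ψ * ψ⁻¹ = (gact x ν * ν⁻¹)⁻¹ := by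
        refine MonoidHom.ext fun m => ?_
        have e := DFunLike.congr_fun e1 m
        simp only [MonoidHom.mul_apply, MonoidHom.inv_apply] at e ⊢
        refine eq_inv_of_mul_eq_one_left ?_
        calc gact x ψ m * (ψ m)⁻¹ * (gact x ν m * (ν m)⁻¹)
            = (gact x ψ m * μ m * gact x ν m) * (ψ m * μ m * ν m)⁻¹ := by
              rw [mul_right_comm (gact x ψ m) (μ m), mul_right_comm (ψ m) (μ m),
                mul_inv (ψ m * ν m), mul_mul_mul_comm (gact x ψ m * gact x ν m) (μ m),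
                mul_inv_cancel, mul_one, mul_inv, mul_mul_mul_comm]
          _ = 1 := by rw [e, mul_inv_cancel]
      have f1 : aact M hM flip (gact x ψ * ψ⁻¹) = gact x ψ * ψ⁻¹ := by
        rw [aact_mulChar, aact_invChar, hex hψ hψ1 (by decide) hflip x, hflip]
      have f2 : aact M hM (rot * rot * flip * rot) (gact x ψ * ψ⁻¹) = gact x ψ * ψ⁻¹ := by
        rw [hXZ, aact_invChar, aact_mulChar, aact_invChar, hex hwμ.2 hν1 (by decide) ht3 x, ht3]
      have f0 : aact M hM (flip * (rot * rot * flip * rot)) (gact x ψ * ψ⁻¹) = gact x ψ * ψ⁻¹ := by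
        rw [aact_mul, f2, f1]
      have f3 : aact M hM rot (gact x ψ * ψ⁻¹) = gact x ψ * ψ⁻¹ := by
        rw [show rot = flip * (rot * rot * flip * rot) * (flip * (rot * rot * flip * rot)) by decide,
          aact_mul, f0, f0]
      refine MonoidHom.ext fun m => ?_
      have e := DFunLike.congr_fun (eq_one_of_aact_fixed M hM hcomm hfix hcop f3 f1) m
      rw [MonoidHom.mul_apply, MonoidHom.inv_apply, MonoidHom.one_apply, mul_inv_eq_one] at e
      exact e
    set S := stabChar ψ with hS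
    have hSt : ∀ x ∈ S, flip • x ∈ S := fun x hx => by
      show gact (flip • x) ψ = ψ
      conv_lhs => rw [← hflip, ← aact_gact, show gact x ψ = ψ from hx, hflip]
    have hSs : ∀ x ∈ S, rot • x ∈ S := fun x hx => hμψ _ (by
      rw [hμ, ← aact_gact, show gact x ψ = ψ from hx])
    have h1 : h⁻¹ * (flip • h) ∈ S := by
      show gact _ ψ = ψ
      have e : gact (flip • h) ψ = gact h ψ := by
        conv_lhs => rw [← hflip, ← aact_gact, hex hψ hψ1 (by decide) hflip h]
      rw [gact_mul', e, ← gact_mul', inv_mul_cancel, gact_one']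
    have h2 : h⁻¹ * ((rot * flip * (rot * rot)) • h) ∈ S := hμψ _ (by
      have e : gact ((rot * flip * (rot * rot)) • h) μ = gact h μ := by
        conv_lhs => rw [← ht2, ← aact_gact, hex hwμ.1 hμ1 (by decide) ht2 h]
      rw [gact_mul', e, ← gact_mul', inv_mul_cancel, gact_one'])
    have h3 : h⁻¹ * (rot • h) ∈ S := by
      have e : rot • h = flip • (rot * flip * (rot * rot)) • h := by
        rw [smul_smul, show flip * (rot * flip * (rot * rot)) = rot by decide]
      rw [e]
      have := mul_mem h1 (hSt _ h2)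
      rwa [smul_mul', smul_inv', ← mul_assoc, mul_inv_cancel_right] at this
    exact mem_of_coset_fixed hfix hcop S hSs hSt h3 h1

include hcompat hsum hfix hcop in
/-- invariant normal abelian subgroups of a faithful representation are central -/
theorem le_center_of_abelian (hinj : Function.Injective ρ) (M : Subgroup G) [M.Normal]
    (hM : ∀ (a : S3), ∀ m ∈ M, a • m ∈ M) (hcomm : ∀ x ∈ M, ∀ y ∈ M, x * y = y * x)
    (hk : (Nat.card M : k) ≠ 0) : M ≤ Subgroup.center G := by
  intro m hm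
  refine Subgroup.mem_center_iff.2 fun g => ?_
  by_contra hne
  have hg : g⁻¹ * m * g ∈ M := by simpa using ‹M.Normal›.conj_mem m hm g⁻¹
  set x : M := ⟨g⁻¹ * m * g, hg⟩ * ⟨m, hm⟩⁻¹ with hx
  have hx1 : ρ (x : G) ≠ 1 := fun e => hne (by
    have h1 : g⁻¹ * m * g * m⁻¹ = 1 := hinj (e.trans (map_one ρ).symm)
    rw [mul_inv_eq_one, mul_assoc, inv_mul_eq_iff_eq_mul] at h1
    exact h1.symm)
  obtain ⟨χ, hχ, hne'⟩ := exists_weight_ne ρ M hcomm hk x hx1
  refine hne' ?_
  have h2 := DFunLike.congr_fun (weight_fixed ρ α hcompat hsum hfix hcop M hM hcomm hχ g) ⟨m, hm⟩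
  rw [gact_apply] at h2
  rw [hx, map_mul, map_inv, h2, mul_inv_cancel]

end Rep

end CfsgLib.S3Fpf
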