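import Cfsg.Agent.Lib.FgsS3Fpf
import Cfsg.Agent.Lib.CoreFitting
import Cfsg.Agent.Lib.CoreLayer
import Mathlib.FieldTheory.IsAlgClosed.AlgebraicClosure
import Mathlib.LinearAlgebra.FreeModule.Basic

/-!
# A soluble group with a fixed-point-free action of `S3` has nilpotent derived subgroup
-/

set_option autoImplicit false

open scoped Classical commutatorElement

universe u

namespace CfsgLib.S3Fpf

section Nilpotent

variable {G : Type*} [Group G] [MulDistribMulAction S3 G] [Finite G]
variable {k : Type*} [Field k] [IsAlgClosed k]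
variable {W : Type*} [AddCommGroup W] [Module k W] [FiniteDimensional k W]
variable (ρ : G →* Module.End k W) (α : S3 →* Module.End k W)
variable (hcompat : ∀ (a : S3) (g : G) (v : W), α a (ρ g v) = ρ (a • g) (α a v))
variable (hsum : ∀ v : W, ∑ a : S3, α a v = 0)
variable (hfix : Fpf G) (hcop : (Nat.card G).Coprime 6)

omit [MulDistribMulAction S3 G] [Finite G] [IsAlgClosed k] [FiniteDimensional k W] in
/-- isolating one term of a vanishing combination of twisted-commuting operators -/
theorem separate {ι : Type*} (U : Submodule k W) (P : Module.End k W)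
    (hP : ∀ v ∈ U, ∃ w ∈ U, P w = v) (T : ι → Module.End k W) (μ : ι → k)
    (hμ : ∀ i, ∀ v ∈ U, P (T i v) = μ i • T i (P v)) (j : ι) :
    ∀ (I : Finset ι), j ∈ I → (∀ i ∈ I, i ≠ j → μ i ≠ μ j) → ∀ (c : ι → k),
      (∀ v ∈ U, ∑ i ∈ I, c i • T i v = 0) → ∀ v ∈ U, c j • T j v = 0 := by
  intro I
  induction I using Finset.strongInduction with
  | H I IH =>
    intro hj hne c hc v hv
    by_cases h1 : ∀ i ∈ I, i = j
    · have h := hc v hv
      rw [show I = {j} from Finset.eq_singleton_iff_unique_mem.2 ⟨hj, h1⟩,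
        Finset.sum_singleton] at h
      exact h
    push Not at h1
    obtain ⟨i, hi, hij⟩ := h1
    obtain ⟨w, hw, rfl⟩ := hP v hv
    have hnew : ∀ x ∈ U, ∑ l ∈ I.erase i, (c l * (μ l - μ i)) • T l x = 0 := by
      intro x hx
      obtain ⟨y, hy, rfl⟩ := hP x hx
      have e1 : ∑ l ∈ I, (c l * μ l) • T l (P y) = 0 := by
        have h := congrArg P (hc y hy)
        rw [map_sum, map_zero] at h
        rw [← h]
        exact Finset.sum_congr rfl fun l _ => by rw [map_smul, hμ l y hy, smul_smul]
      have e2 : ∑ l ∈ I, (c l * (μ l - μ i)) • T l (P y) = 0 := by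
        simp only [mul_sub, sub_smul, Finset.sum_sub_distrib, e1, zero_sub, neg_eq_zero]
        rw [Finset.sum_congr rfl fun l _ => (by rw [mul_comm, mul_smul] :
          (c l * μ i) • T l (P y) = μ i • c l • T l (P y)), ← Finset.smul_sum, hc _ hx, smul_zero]
      rw [← Finset.add_sum_erase I _ hi, sub_self, mul_zero, zero_smul, zero_add] at e2
      exact e2
    have h := IH (I.erase i) (Finset.erase_ssubset hi) (Finset.mem_erase.2 ⟨hij.symm, hj⟩)
      (fun l hl => hne l (Finset.mem_of_mem_erase hl)) _ hnew _ hv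
    rw [mul_comm, mul_smul] at h
    exact (smul_eq_zero.1 h).resolve_left (sub_ne_zero.2 (hne i hi hij).symm)

include hcompat hsum hfix hcop in
/-- a nilpotent group in this situation is abelian -/
theorem abelian_of_nilpotent [Group.IsNilpotent G] (hinj : Function.Injective ρ)
    (hk : (Nat.card G : k) ≠ 0) (h3 : (3 : k) ≠ 0) (a b : G) : a * b = b * a := by
  have hcent : ∀ (M : Subgroup G) [M.Normal], (∀ (a : S3), ∀ m ∈ M, a • m ∈ M) →
      (∀ x ∈ M, ∀ y ∈ M, x * y = y * x) → M ≤ Subgroup.center G := by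
    intro M _ hM hc
    refine le_center_of_abelian ρ α hcompat hsum hfix hcop hinj M hM hc fun h0 => hk ?_
    obtain ⟨c, hc'⟩ := M.card_subgroup_dvd_card
    rw [hc', Nat.cast_mul, h0, zero_mul]
  -- invariance of the characteristic subgroups
  have hchar : ∀ (H : Subgroup G) [H.Characteristic] (a : S3) (x : G), x ∈ H → a • x ∈ H := by
    intro H hH a x hx
    have h := hH.fixed (MulDistribMulAction.toMulEquiv G a)
    rw [← h] at hx
    exact hx
  set Z := Subgroup.center G with hZ
  -- the group has class at most two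
  have hZ2 : ∀ x ∈ Subgroup.upperCentralSeries G 2, ∀ y ∈ commutator G, x * y = y * x := by
    intro x hx
    have hc : ∀ y, x * y * x⁻¹ * y⁻¹ ∈ Z := fun y => by
      have := Subgroup.mem_upperCentralSeries_succ_iff.1 hx y
      rwa [Subgroup.upperCentralSeries_one] at this
    let f : G →* Z :=
      { toFun := fun y => ⟨x * y * x⁻¹ * y⁻¹, hc y⟩
        map_one' := Subtype.ext (by simp)
        map_mul' := fun y z => Subtype.ext (by
          show x * (y * z) * x⁻¹ * (y * z)⁻¹ = x * y * x⁻¹ * y⁻¹ * (x * z * x⁻¹ * z⁻¹)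
          rw [show x * (y * z) * x⁻¹ * (y * z)⁻¹ =
            x * y * x⁻¹ * (x * z * x⁻¹ * z⁻¹) * y⁻¹ by group]
          rw [mul_assoc (x * y * x⁻¹) _ y⁻¹, ← Subgroup.mem_center_iff.1 (hc z) y⁻¹, ← mul_assoc]) }
    intro y hy
    have hle : commutator G ≤ f.ker := by
      rw [commutator_def, Subgroup.commutator_le]
      intro g _ h _
      rw [MonoidHom.mem_ker, map_commutatorElement, commutatorElement_eq_one_iff_mul_comm]
      exact Subtype.ext (Subgroup.mem_center_iff.1 (f h).2 _)
    have h1 := congrArg Subtype.val (hle hy)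
    exact mul_inv_eq_iff_eq_mul.1 (mul_inv_eq_one.1 h1)
  have hM0 : commutator G ⊓ Subgroup.upperCentralSeries G 2 ≤ Z :=
    hcent _ (fun a m hm => ⟨hchar _ a m hm.1, hchar _ a m hm.2⟩)
      (fun x hx y hy => hZ2 x hx.2 y hy.1)
  have hclass : commutator G ≤ Z := by
    have hn : ∀ n, commutator G ⊓ Subgroup.upperCentralSeries G n ≤ Z := by
      intro n
      induction n with
      | zero => simp
      | succ n ih =>
        rintro x ⟨hx1, hx2⟩
        refine hM0 ⟨hx1, Subgroup.mem_upperCentralSeries_succ_iff.2 fun y => ?_⟩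
        rw [Subgroup.upperCentralSeries_one]
        refine ih ⟨?_, Subgroup.mem_upperCentralSeries_succ_iff.1 hx2 y⟩
        rw [commutatorElement_def, mul_assoc x y, mul_assoc x]
        exact mul_mem hx1 ((inferInstance : (commutator G).Normal).conj_mem _ (inv_mem hx1) y)
    obtain ⟨n, hn'⟩ := Group.IsNilpotent.nilpotent G
    intro x hx
    exact hn n ⟨hx, by rw [hn']; trivial⟩
  set π := QuotientGroup.mk' Z with hπ
  have hπc : ∀ a b : G, π a * π b = π b * π a := fun a b => by
    rw [← map_mul, ← map_mul, hπ, QuotientGroup.mk'_apply, QuotientGroup.mk'_apply,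
      QuotientGroup.eq, show (a * b)⁻¹ * (b * a) = ⁅b⁻¹, a⁻¹⁆ by
        rw [commutatorElement_def]; group]
    exact hclass (Subgroup.commutator_mem_commutator (Subgroup.mem_top _) (Subgroup.mem_top _))
  have hZinv : ∀ (a : S3), ∀ z ∈ Z, a • z ∈ Z := fun a z hz => hchar Z a z hz
  have hbig : ∀ (s : Set G), (∀ x ∈ s, ∀ y ∈ s, x * y = y * x) →
      (∀ (a : S3), ∀ x ∈ s, a • x ∈ Z ⊔ Subgroup.closure s) → s ⊆ Z := by
    intro s hs hsinv
    set M := Z ⊔ Subgroup.closure s with hM
    haveI : M.Normal := Subgroup.Normal.of_commutator_le G (hclass.trans le_sup_left)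
    have hMeq : M = Subgroup.closure ((Z : Set G) ∪ s) := by
      rw [Subgroup.closure_union, Subgroup.closure_eq]
    refine fun x hx => hcent M ?_ ?_ (le_sup_right (a := Z) (Subgroup.subset_closure hx))
    · intro a m hm
      have hle : M ≤ M.comap (MulDistribMulAction.toMonoidHom G a) := by
        refine sup_le (fun z hz => ?_) ((Subgroup.closure_le _).2 fun y hy => hsinv a y hy)
        exact le_sup_left (b := Subgroup.closure s) (hZinv a z hz)
      exact hle hm
    · rw [hMeq]
      intro p hp q hq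
      haveI := Subgroup.isMulCommutative_closure (k := (Z : Set G) ∪ s) (by
        rintro p (hp | hp) q (hq | hq)
        · exact Subgroup.mem_center_iff.1 hq p
        · exact (Subgroup.mem_center_iff.1 hp q).symm
        · exact Subgroup.mem_center_iff.1 hq p
        · exact hs p hp q hq)
      exact congrArg Subtype.val (mul_comm' (⟨p, hp⟩ : Subgroup.closure ((Z : Set G) ∪ s)) ⟨q, hq⟩)
  -- fixed points of the transposition are central
  have hD : ∀ x : G, flip • x = x → x ∈ Z := by
    intro x hx
    set u₁ := rot • x with hu1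
    set u₂ := rot • u₁ with hu2
    have hru2 : rot • u₂ = x := rot3_smul x
    have hfu1 : flip • u₁ = u₂ := by rw [hu1, flip_rot_smul, hx]
    have hfu2 : flip • u₂ = u₁ := by rw [← hfu1, flip2_smul]
    -- the product of the orbit is central
    have hP : x * u₁ * u₂ ∈ Z := by
      refine mem_of_coset_fixed hfix hcop Z (hZinv _) (hZinv _) ?_ ?_
      · rw [smul_mul', smul_mul', ← hu1, ← hu2, hru2, ← QuotientGroup.eq]
        show π (x * u₁ * u₂) = π (u₁ * u₂ * x)
        simp only [map_mul]
        rw [mul_assoc (π x)]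
        rw [← map_mul π u₁ u₂, hπc x (u₁ * u₂)]
      · rw [smul_mul', smul_mul', hx, hfu1, hfu2, ← QuotientGroup.eq]
        show π (x * u₁ * u₂) = π (x * u₂ * u₁)
        simp only [map_mul]
        rw [mul_assoc, hπc u₁ u₂, ← mul_assoc]
    obtain ⟨z, hz, hzu⟩ : ∃ z ∈ Z, u₂ = u₁⁻¹ * x⁻¹ * z := ⟨_, hP, by group⟩
    set c := x * u₁ * x⁻¹ * u₁⁻¹ with hc
    have hcZ : c ∈ Z := hclass (Subgroup.commutator_mem_commutator (Subgroup.mem_top _)
      (Subgroup.mem_top _))
    have hcc : ∀ g : G, g⁻¹ * c * g = c := fun g => by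
      rw [mul_assoc, ← Subgroup.mem_center_iff.1 hcZ g, inv_mul_cancel_left]
    have hzc : ∀ g : G, z * g = g * z := fun g => (Subgroup.mem_center_iff.1 hz g).symm
    have hrc : rot • c = c := by
      have e : u₁ * u₂ * u₁⁻¹ * u₂⁻¹ = (x * u₁)⁻¹ * c * (x * u₁) := by
        rw [hzu, hc]
        rw [show u₁ * (u₁⁻¹ * x⁻¹ * z) * u₁⁻¹ = x⁻¹ * (z * u₁⁻¹) by group, hzc]
        group
      rw [hcc] at e
      calc rot • c = u₁ * u₂ * u₁⁻¹ * u₂⁻¹ := by
            rw [hc]; simp only [smul_mul', smul_inv', ← hu1, ← hu2]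
        _ = c := e
    have hfc : flip • c = c⁻¹ := by
      have e : x * u₂ * x⁻¹ * u₂⁻¹ = u₁⁻¹ * c⁻¹ * u₁ := by
        rw [hzu, hc]
        rw [show x * (u₁⁻¹ * x⁻¹ * z) * x⁻¹ = x * u₁⁻¹ * x⁻¹ * (z * x⁻¹) by group, hzc]
        group
      have hci : u₁⁻¹ * c⁻¹ * u₁ = c⁻¹ := by
        rw [mul_assoc, ← Subgroup.mem_center_iff.1 (inv_mem hcZ) u₁, inv_mul_cancel_left]
      rw [hci] at e
      rw [← e, hc]
      simp only [smul_mul', smul_inv', hx, hfu1]
    by_cases hc1 : c = 1
    · have hxu : x * u₁ = u₁ * x := mul_inv_eq_iff_eq_mul.1 (mul_inv_eq_one.1 (hc1 ▸ hc).symm)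
      have h12 : u₁ * u₂ = u₂ * u₁ := by
        have h := congrArg (rot • ·) hxu
        simpa [smul_mul', ← hu1, ← hu2] using h
      have h20 : u₂ * x = x * u₂ := by
        have h := congrArg (rot • ·) h12
        simpa [smul_mul', ← hu2, hru2] using h
      refine hbig {x, u₁, u₂} ?_ ?_ (Set.mem_insert _ _)
      · intro p hp q hq
        rcases hp with rfl | rfl | rfl <;> rcases hq with rfl | rfl | rfl <;>
          first | rfl | assumption | (symm; assumption)
      · intro a y hy
        have hmem : ∀ w ∈ ({x, u₁, u₂} : Set G),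
            rot • w ∈ ({x, u₁, u₂} : Set G) ∧ flip • w ∈ ({x, u₁, u₂} : Set G) := by
          rintro w (rfl | rfl | rfl)
          · exact ⟨by simp [← hu1], by simp [hx]⟩
          · exact ⟨by simp [← hu2], by simp [hfu1]⟩
          · exact ⟨by simp [hru2], by simp [hfu2]⟩
        refine le_sup_right (a := Z) (Subgroup.subset_closure ?_)
        rcases cases_S3 a with rfl | rfl | rfl | rfl | rfl | rfl
        · rwa [one_smul]
        · exact (hmem _ hy).1
        · rw [mul_smul]; exact (hmem _ (hmem _ hy).1).1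
        · exact (hmem _ hy).2
        · rw [mul_smul]; exact (hmem _ (hmem _ hy).2).1
        · rw [mul_smul, mul_smul]; exact (hmem _ (hmem _ (hmem _ hy).2).1).1
    exfalso
    -- the weight space on which the commutator acts as a non-trivial scalar
    have hZcomm : ∀ p ∈ Z, ∀ q ∈ Z, p * q = q * p := fun p _ q hq =>
      Subgroup.mem_center_iff.1 hq p
    obtain ⟨χ, hχ, hχc⟩ := exists_weight_ne ρ Z hZcomm (fun h0 => hk (by
        obtain ⟨d, hd⟩ := Z.card_subgroup_dvd_card
        rw [hd, Nat.cast_mul, h0, zero_mul])) ⟨c, hcZ⟩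
      (fun h => hc1 (hinj (h.trans (map_one ρ).symm)))
    have hord : ∀ n : ℕ, n ∣ 6 → χ ⟨c, hcZ⟩ ^ n ≠ 1 := by
      intro n hn h
      refine hχc ?_
      have e1 := Nat.dvd_gcd ((orderOf_dvd_of_pow_eq_one h).trans hn)
        ((orderOf_map_dvd χ _).trans (orderOf_dvd_natCard (⟨c, hcZ⟩ : Z)))
      rw [((hcop.coprime_dvd_left Z.card_subgroup_dvd_card).symm).gcd_eq_one, Nat.dvd_one,
        orderOf_eq_one_iff] at e1
      exact e1
    obtain ⟨a, ha, hfa⟩ := exists_stab ρ α hcompat hsum Z hZinv hχ
    have hrot : aact Z hZinv rot χ = χ := by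
      have hinv : ∀ b : S3, b⁻¹ • c = c⁻¹ → aact Z hZinv b χ ≠ χ := by
        intro b hb h
        refine hord 2 (by norm_num) ?_
        have h1 := DFunLike.congr_fun h ⟨c, hcZ⟩
        rw [aact_apply] at h1
        rw [show (⟨b⁻¹ • c, hZinv _ _ hcZ⟩ : Z) = ⟨c, hcZ⟩⁻¹ from Subtype.ext hb, map_inv,
          inv_eq_iff_mul_eq_one] at h1
        rw [pow_two]; exact h1
      rcases cases_S3 a with rfl | rfl | rfl | rfl | rfl | rfl
      · exact absurd rfl ha
      · exact hfa
      · conv_lhs => rw [← hfa, ← aact_mul, ← mul_assoc, rot_cube, aact_one]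
      · exact absurd hfa (hinv _ (by rw [show flip⁻¹ = flip by decide, hfc]))
      · exact absurd hfa (hinv _ (by
          rw [show (rot * flip)⁻¹ = rot * flip by decide, mul_smul, hfc, smul_inv', hrc]))
      · exact absurd hfa (hinv _ (by
          rw [show (rot * rot * flip)⁻¹ = rot * rot * flip by decide, mul_smul, mul_smul, hfc,
            smul_inv', smul_inv', hrc, hrc]))
    have hflip : aact Z hZinv flip χ ≠ χ := by
      intro h
      refine hord 2 (by norm_num) ?_
      have h1 := DFunLike.congr_fun h ⟨c, hcZ⟩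
      rw [aact_apply] at h1
      rw [show (⟨flip⁻¹ • c, hZinv _ _ hcZ⟩ : Z) = ⟨c, hcZ⟩⁻¹ from Subtype.ext (by
        show flip⁻¹ • c = c⁻¹
        rw [show flip⁻¹ = flip by decide, hfc]), map_inv, inv_eq_iff_mul_eq_one] at h1
      rw [pow_two]; exact h1
    let U : Submodule k W :=
      { carrier := {v | ∀ m : Z, ρ (m : G) v = (χ m : k) • v}
        add_mem' := fun {v w} hv hw m => by rw [map_add, hv m, hw m, smul_add]
        zero_mem' := fun m => by rw [map_zero, smul_zero]
        smul_mem' := fun r v hv m => by rw [map_smul, hv m, smul_comm] }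
    have hUρ : ∀ (g : G), ∀ v ∈ U, ρ g v ∈ U := fun g v hv m => by
      rw [comp_apply, ← Subgroup.mem_center_iff.1 m.2 g, ← comp_apply, hv m, map_smul]
    have hUr : ∀ v ∈ U, α rot v ∈ U := fun v hv m => by
      have := eigen_alpha ρ α hcompat Z hZinv hv rot m
      rwa [hrot] at this
    -- the three-cycle fixes no vector of this space
    have hq : ∀ v ∈ U, v + α rot v + α rot (α rot v) = 0 := by
      intro v hv
      set w := v + α rot v + α rot (α rot v) with hw
      have hwU : w ∈ U := U.add_mem (U.add_mem hv (hUr _ hv)) (hUr _ (hUr _ hv))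
      have hwf : α rot w = w := by
        rw [hw, map_add, map_add, alpha_comp α rot rot, alpha_comp α rot (rot * rot),
          ← mul_assoc, rot_cube, map_one, Module.End.one_apply]
        abel
      have h := hsum w
      rw [sum_S3] at h
      have e1 : α (rot * rot) w = w := by rw [← alpha_comp, hwf, hwf]
      have e2 : α (rot * flip) w = α flip w := by
        rw [rot_flip, mul_assoc, ← alpha_comp, e1]
      have e3 : α (rot * rot * flip) w = α flip w := by
        rw [← flip_rot, ← alpha_comp, hwf]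
      rw [map_one, Module.End.one_apply, hwf, e1, e2, e3] at h
      have h' : (3 : k) • (w + α flip w) = 0 := by
        rw [← h, show (3 : k) = 1 + 1 + 1 by norm_num, add_smul, add_smul, one_smul]
        abel
      have h2 : α flip w = -w := eq_neg_of_add_eq_zero_right ((smul_eq_zero.1 h').resolve_left h3)
      by_contra hw0
      refine hflip (MonoidHom.ext fun m => Units.ext (smul_left_injective k hw0 ?_))
      have h4 := eigen_alpha ρ α hcompat Z hZinv hwU flip m
      rw [h2, map_neg, hwU m, smul_neg, neg_inj] at h4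
      exact h4.symm
    obtain ⟨ω, hω⟩ := IsAlgClosed.exists_root
      (Polynomial.X ^ 2 + Polynomial.X + 1 : Polynomial k) (by
        rw [show (Polynomial.X ^ 2 + Polynomial.X + 1 : Polynomial k) =
          Polynomial.C 1 * Polynomial.X ^ 2 + Polynomial.C 1 * Polynomial.X + Polynomial.C 1 by simp,
          Polynomial.degree_quadratic one_ne_zero]
        decide)
    simp only [Polynomial.IsRoot, Polynomial.eval_add, Polynomial.eval_pow, Polynomial.eval_X,
      Polynomial.eval_one] at hω
    have hω1 : ω ≠ 1 := fun e => h3 (by rw [e] at hω; rw [← hω]; norm_num)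
    have hω0 : ω ≠ 0 := fun e => by rw [e] at hω; simp at hω
    have hω3 : ω ^ 3 = 1 := by linear_combination (ω - 1) * hω
    -- the eigenvector of conjugation by the three-cycle squares to zero
    let e : Module.End k W := ρ x + ω ^ 2 • ρ u₁ + ω • ρ u₂
    have heU : ∀ v ∈ U, e v ∈ U := fun v hv =>
      U.add_mem (U.add_mem (hUρ _ _ hv) (U.smul_mem _ (hUρ _ _ hv))) (U.smul_mem _ (hUρ _ _ hv))
    have hse : ∀ v, α rot (e v) = ω • e (α rot v) := by
      intro v
      simp only [e, LinearMap.add_apply, LinearMap.smul_apply, map_add, map_smul, hcompat,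
        ← hu1, ← hu2, hru2, smul_add, smul_smul]
      rw [show ω * ω ^ 2 = 1 by linear_combination hω3, one_smul, ← pow_two]
      abel
    have hes : ∀ v ∈ U, e (α rot v) = ω • e v := by
      intro v hv
      have a1 := congrArg e (hq v hv)
      have a2 := hq (e v) (heU v hv)
      rw [hse, map_smul (α rot), hse, smul_smul] at a2
      rw [map_add, map_add, map_zero] at a1
      have key : (ω * ω) • (e v + e (α rot v) + e (α rot (α rot v))) -
          (e v + ω • e (α rot v) + (ω * ω) • e (α rot (α rot v))) = 0 := by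
        rw [a1, a2, smul_zero, sub_zero]
      have key2 : (ω * ω - 1) • e v + (ω * ω - ω) • e (α rot v) = 0 := by
        rw [← key]
        simp only [smul_add, sub_smul, one_smul]
        abel
      have key3 : (ω - 1) • ((ω + 1) • e v + ω • e (α rot v)) = 0 := by
        rw [← key2, smul_add, smul_smul, smul_smul]
        congr 2 <;> ring
      have key4 := (smul_eq_zero.1 key3).resolve_left (sub_ne_zero.2 hω1)
      rw [show ω + 1 = -(ω * ω) by linear_combination hω, neg_smul, neg_add_eq_zero] at key4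
      rw [mul_smul] at key4
      exact ((smul_right_injective W hω0) key4).symm
    have hee : ∀ v ∈ U, e (e v) = 0 := by
      intro v hv
      have h1 := hes (e v) (heU v hv)
      rw [hse, map_smul, hes v hv, map_smul, smul_smul] at h1
      have h2 : (ω * ω - ω) • e (e v) = 0 := by rw [sub_smul, h1, sub_self]
      refine (smul_eq_zero.1 h2).resolve_left ?_
      rw [show ω * ω - ω = ω * (ω - 1) by ring]
      exact mul_ne_zero hω0 (sub_ne_zero.2 hω1)
    -- commutation of the three operators
    set ζ : k := (χ ⟨c, hcZ⟩ : k) with hζ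
    have hζ0 : ζ ≠ 0 := Units.ne_zero _
    let Ui : Fin 3 → Module.End k W := ![ρ x, ρ u₁, ρ u₂]
    let mu : Fin 3 → k := ![1, ζ, ζ⁻¹]
    have hcomm1 : ∀ i : Fin 3, ∀ v ∈ U, ρ x (Ui i v) = mu i • Ui i (ρ x v) := by
      intro i v hv
      have hcv : ∀ w ∈ U, ρ c w = ζ • w := fun w hw => hw ⟨c, hcZ⟩
      have hcv' : ∀ w ∈ U, ρ c⁻¹ w = ζ⁻¹ • w := fun w hw => by
        have h := hw (⟨c, hcZ⟩⁻¹)
        rw [map_inv, Units.val_inv_eq_inv_val] at h
        exact h
      have hfix2 : x * u₂ * x⁻¹ * u₂⁻¹ = c⁻¹ := by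
        rw [← hfc, hc]
        simp only [smul_mul', smul_inv', hx, hfu1]
      fin_cases i
      · simp [Ui, mu]
      · show ρ x (ρ u₁ v) = ζ • ρ u₁ (ρ x v)
        rw [← hcv _ (hUρ _ _ (hUρ _ _ hv)), comp_apply, comp_apply, comp_apply, hc]
        congr 2; group
      · show ρ x (ρ u₂ v) = ζ⁻¹ • ρ u₂ (ρ x v)
        rw [← hcv' _ (hUρ _ _ (hUρ _ _ hv)), comp_apply, comp_apply, comp_apply, ← hfix2]
        congr 2; group
    have hUiU : ∀ i : Fin 3, ∀ v ∈ U, Ui i v ∈ U := fun i v hv => by
      fin_cases i <;> exact hUρ _ _ hv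
    let cc : Fin 3 → k := ![1, ω ^ 2, ω]
    have hexp : ∀ v ∈ U, ∑ p ∈ (Finset.univ : Finset (Fin 3 × Fin 3)),
        (cc p.1 * cc p.2) • (Ui p.1 * Ui p.2) v = 0 := by
      intro v hv
      rw [← hee v hv, Fintype.sum_prod_type]
      simp only [Fin.sum_univ_three, e, Ui, cc, Module.End.mul_apply, LinearMap.add_apply,
        LinearMap.smul_apply, map_add, map_smul, smul_add, smul_smul, Matrix.cons_val,
        Matrix.cons_val_zero, Matrix.cons_val_one, one_mul, mul_one, one_smul]
      simp only [mul_comm]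
      abel
    have hpows : ∀ n ∈ ({1, 2, 3} : Finset ℕ), ζ ^ n ≠ 1 := by
      intro n hn h
      refine hord n ?_ (Units.ext (by rw [Units.val_pow_eq_pow_val]; exact h))
      simp only [Finset.mem_insert, Finset.mem_singleton] at hn
      rcases hn with rfl | rfl | rfl <;> norm_num
    have h4 : ζ ^ 4 ≠ 1 := by
      intro h
      have h2 : (χ ⟨c, hcZ⟩ ^ 2) ^ 2 = 1 := Units.ext (by
        rw [← pow_mul, Units.val_pow_eq_pow_val, ← hζ]; exact h)
      refine hord 2 (by norm_num) ?_
      have e1 := Nat.dvd_gcd ((orderOf_dvd_of_pow_eq_one h2).trans (by norm_num : 2 ∣ 6))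
        ((orderOf_pow_dvd 2).trans
          ((orderOf_map_dvd χ _).trans (orderOf_dvd_natCard (⟨c, hcZ⟩ : Z))))
      rw [((hcop.coprime_dvd_left Z.card_subgroup_dvd_card).symm).gcd_eq_one, Nat.dvd_one,
        orderOf_eq_one_iff] at e1
      exact e1
    have h1' := hpows 1 (by simp)
    have h2' := hpows 2 (by simp)
    have h3' := hpows 3 (by simp)
    rw [pow_one] at h1'
    have hres := separate U (ρ x) (fun v hv => ⟨ρ x⁻¹ v, hUρ _ _ hv, by
        rw [comp_apply, mul_inv_cancel, map_one, Module.End.one_apply]⟩)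
      (fun p : Fin 3 × Fin 3 => Ui p.1 * Ui p.2) (fun p => mu p.1 * mu p.2)
      (fun p v hv => by
        rw [Module.End.mul_apply, hcomm1 _ _ (hUiU _ _ hv), hcomm1 _ _ hv, map_smul, smul_smul,
          Module.End.mul_apply])
      (1, 1) Finset.univ (Finset.mem_univ _) (by
        rintro ⟨i, j⟩ - hne heq
        fin_cases i <;> fin_cases j <;> simp [mu] at hne heq <;>
          first
            | exact h1' (by field_simp at heq; linear_combination heq)
            | exact h1' (by field_simp at heq; linear_combination -heq)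
            | exact h2' (by field_simp at heq; linear_combination heq)
            | exact h2' (by field_simp at heq; linear_combination -heq)
            | exact h3' (by field_simp at heq; linear_combination heq)
            | exact h3' (by field_simp at heq; linear_combination -heq)
            | exact h4 (by field_simp at heq; linear_combination heq)
            | exact h4 (by field_simp at heq; linear_combination -heq))
      (fun p => cc p.1 * cc p.2) hexp
    obtain ⟨v, hv0, hv⟩ := hχ
    have h := hres v hv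
    simp only [cc, Ui, Module.End.mul_apply, Matrix.cons_val_one, Matrix.cons_val_zero] at h
    rcases smul_eq_zero.1 h with h | h
    · exact mul_ne_zero (pow_ne_zero 2 hω0) (pow_ne_zero 2 hω0) h
    · refine hv0 ?_
      rw [← inv_apply ρ u₁ v, ← inv_apply ρ u₁ (ρ u₁ v), h, map_zero, map_zero]
  -- the fixed points of the three-cycle are central
  have hC : ∀ g : G, rot • g = g → g ∈ Z := by
    intro g hg
    refine hbig {y | rot • y = y} (fun p hp q hq => fixed_comm hfix hp hq) ?_ hg
    intro a y hy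
    have hy' : rot • y = y := hy
    refine le_sup_right (a := Z) ?_
    have hyc : y ∈ Subgroup.closure {y : G | rot • y = y} := Subgroup.subset_closure hy
    rcases cases_S3 a with rfl | rfl | rfl | rfl | rfl | rfl
    · rwa [one_smul]
    · rwa [hy']
    · rwa [mul_smul, hy', hy']
    · rw [flip_inverts hfix hy']; exact inv_mem hyc
    · rw [mul_smul, flip_inverts hfix hy', smul_inv', hy']; exact inv_mem hyc
    · rw [mul_smul, mul_smul, flip_inverts hfix hy', smul_inv', hy', smul_inv', hy']
      exact inv_mem hyc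
  have hflipq : ∀ g : G, π (flip • g) = (π g)⁻¹ := by
    intro g
    set w := g * flip • g with hw
    have hfw : π (flip • w) = π w := by
      rw [hw, smul_mul', flip2_smul, map_mul, map_mul, hπc]
    set z := w⁻¹ * flip • w with hz
    have hzZ : z ∈ Z := QuotientGroup.eq.1 hfw.symm
    have hfz : flip • z = z⁻¹ := by rw [hz, smul_mul', smul_inv', flip2_smul, mul_inv_rev, inv_inv]
    obtain ⟨j, hj⟩ := (not_dvd_of_coprime hcop (orderOf_dvd_natCard z)).2
    set y := z ^ (j + 1) with hy
    have hyy : y * y = z := by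
      rw [hy, ← pow_add, show j + 1 + (j + 1) = orderOf z + 1 by omega, pow_succ,
        pow_orderOf_eq_one, one_mul]
    have hfy : flip • (w * y) = w * y := by
      rw [smul_mul', hy, smul_pow', hfz, inv_pow, ← hy, show flip • w = w * z by rw [hz]; group,
        ← hyy]
      group
    have hwZ : w ∈ Z := by
      have := mul_mem (hD _ hfy) (inv_mem (pow_mem hzZ (j + 1)))
      rwa [← hy, mul_inv_cancel_right] at this
    have h1 : π w = 1 := (QuotientGroup.eq_one_iff w).2 hwZ
    rw [hw, map_mul] at h1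
    exact eq_inv_of_mul_eq_one_right h1
  have hsmulπ : ∀ (a : S3) (g h : G), π g = π h → π (a • g) = π (a • h) := by
    intro a g h e
    have h1 : g⁻¹ * h ∈ Z := QuotientGroup.eq.1 e
    refine QuotientGroup.eq.2 ?_
    rw [← smul_inv', ← smul_mul']
    exact hZinv a _ h1
  have hrotq : ∀ g : G, g⁻¹ * (rot • g) ∈ Z := by
    intro g
    refine QuotientGroup.eq.1 ?_
    show π g = π (rot • g)
    -- `flip` and `flip * rot` both invert modulo the centre
    have e2 : π (rot • flip • g) = π ((rot • g)⁻¹) := by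
      rw [← smul_inv']
      refine hsmulπ rot _ _ ?_
      rw [hflipq, map_inv]
    have e3 : π (rot • flip • g) = (π (rot • rot • g))⁻¹ := by
      rw [smul_smul, rot_flip, mul_smul, mul_smul, hflipq]
    have e4 : π (rot • g) = π (rot • rot • g) := by
      rw [e2, map_inv] at e3
      exact inv_injective e3
    have e5 := hsmulπ rot _ _ e4
    have e6 := hsmulπ rot _ _ e5
    rw [rot3_smul] at e5 e6
    exact (e6.trans rfl)
  have hall : ∀ g : G, g ∈ Z := by
    intro g
    obtain ⟨z, hz, hzf⟩ := exists_rot_fixed hcop Z (hZinv rot) (hrotq g)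
    have := mul_mem (hC _ hzf) (inv_mem hz)
    rwa [mul_inv_cancel_right] at this
  exact Subgroup.mem_center_iff.1 (hall b) a

end Nilpotent

/-! ### The main theorem -/

/-- the action on a quotient by an invariant subgroup -/
@[reducible]
def quotAction {G : Type u} [Group G] [MulDistribMulAction S3 G] (N : Subgroup G) [N.Normal]
    (hN : ∀ (a : S3), ∀ x ∈ N, a • x ∈ N) : MulDistribMulAction S3 (G ⧸ N) where
  smul a := QuotientGroup.map N N (MulDistribMulAction.toMonoidHom G a) fun x hx => hN a x hx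
  one_smul q := by
    obtain ⟨g, rfl⟩ := QuotientGroup.mk_surjective q
    exact congrArg QuotientGroup.mk (one_smul S3 g)
  mul_smul a b q := by
    obtain ⟨g, rfl⟩ := QuotientGroup.mk_surjective q
    exact congrArg QuotientGroup.mk (mul_smul a b g)
  smul_mul a q r := map_mul (QuotientGroup.map N N (MulDistribMulAction.toMonoidHom G a) _) q r
  smul_one a := map_one (QuotientGroup.map N N (MulDistribMulAction.toMonoidHom G a) _)

theorem fpf_quotient {G : Type u} [Group G] [Finite G] [MulDistribMulAction S3 G] (hfix : Fpf G)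
    (hcop : (Nat.card G).Coprime 6) (N : Subgroup G) [N.Normal]
    (hN : ∀ (a : S3), ∀ x ∈ N, a • x ∈ N) :
    letI := quotAction N hN
    Fpf (G ⧸ N) := by
  letI := quotAction N hN
  intro q hs ht
  obtain ⟨g, rfl⟩ := QuotientGroup.mk_surjective q
  refine (QuotientGroup.eq_one_iff g).2 (mem_of_coset_fixed hfix hcop N (hN _) (hN _) ?_ ?_)
  · exact QuotientGroup.eq.1 hs.symm
  · exact QuotientGroup.eq.1 ht.symm

theorem exists_dual_ne {A : Type*} [AddCommGroup A] (K : Type*) [Field K] [Module K A] {v : A}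
    (hv : v ≠ 0) : ∃ l : A →+ K, l v ≠ 0 := by
  by_contra h
  push Not at h
  exact hv ((Module.forall_dual_apply_eq_zero_iff K v).1 fun φ => h φ.toAddMonoidHom)

theorem nilpotent_commutator_aux : ∀ (n : ℕ) (G : Type u) [Group G] [Finite G]
    [MulDistribMulAction S3 G], Nat.card G = n → Group.IsSolvable G → (Nat.card G).Coprime 6 →
    Fpf G → Group.IsNilpotent ↥(commutator G) := by
  intro n
  induction n using Nat.strong_induction_on with
  | h n IH =>
  intro G _ _ _ hn hsol hcop hfix
  rcases subsingleton_or_nontrivial G with hsub | hnt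
  · infer_instance
  haveI := hsol
  -- a minimal invariant normal subgroup
  obtain ⟨V, ⟨hVb, hVn, hVi⟩, hmin⟩ := (Finite.to_wellFoundedLT (α := Subgroup G)).wf.has_min
    {V | V ≠ ⊥ ∧ V.Normal ∧ ∀ (a : S3), ∀ x ∈ V, a • x ∈ V}
    ⟨⊤, top_ne_bot, inferInstance, fun _ _ _ => trivial⟩
  haveI := hVn
  have hle : ∀ N : Subgroup G, N.Normal → N ≤ V → (∀ (a : S3), ∀ x ∈ N, a • x ∈ N) → N ≠ ⊥ →
      N = V := fun N h1 h2 h3 h4 => by
    by_contra hne
    exact hmin N ⟨h4, h1, h3⟩ (lt_of_le_of_ne h2 hne)
  have hVc : ⁅V, V⁆ = ⊥ := by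
    by_contra hne
    have h := hle ⁅V, V⁆ inferInstance (Subgroup.commutator_le_left V V) ?_ hne
    · haveI : Nontrivial V := (Subgroup.nontrivial_iff_ne_bot V).2 hVb
      refine (IsSolvable.commutator_lt_top_of_nontrivial V).ne ?_
      apply Subgroup.map_injective V.subtype_injective
      rw [commutator_def, Subgroup.map_commutator, ← MonoidHom.range_eq_map, Subgroup.range_subtype, h]
    · intro a x hx
      have hle' : ⁅V, V⁆ ≤ (⁅V, V⁆).comap (MulDistribMulAction.toMonoidHom G a) := by
        rw [Subgroup.commutator_le]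
        intro p hp q hq
        show a • ⁅p, q⁆ ∈ ⁅V, V⁆
        rw [commutatorElement_def, smul_mul', smul_mul', smul_mul', smul_inv', smul_inv']
        exact Subgroup.commutator_mem_commutator (hVi a p hp) (hVi a q hq)
      exact hle' hx
  have hcomm : ∀ x ∈ V, ∀ y ∈ V, x * y = y * x := fun x hx y hy =>
    commutatorElement_eq_one_iff_mul_comm.1
      (Subgroup.mem_bot.1 (hVc ▸ Subgroup.commutator_mem_commutator hx hy))
  obtain ⟨r, hr, hrV⟩ := Nat.exists_prime_and_dvd
    ((Subgroup.one_lt_card_iff_ne_bot V).2 hVb).ne'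
  haveI : Fact r.Prime := ⟨hr⟩
  have hexp : ∀ v ∈ V, v ^ r = 1 := by
    let T : Subgroup G :=
      { carrier := {x | x ∈ V ∧ x ^ r = 1}
        mul_mem' := fun {x y} hx hy => ⟨mul_mem hx.1 hy.1, by
          rw [Commute.mul_pow (hcomm x hx.1 y hy.1), hx.2, hy.2, one_mul]⟩
        one_mem' := ⟨one_mem V, one_pow r⟩
        inv_mem' := fun {x} hx => ⟨inv_mem hx.1, by rw [inv_pow, hx.2, inv_one]⟩ }
    have hT := hle T ⟨fun x hx g => ⟨hVn.conj_mem x hx.1 g, by
        rw [conj_pow, hx.2, mul_one, mul_inv_cancel]⟩⟩ (fun x hx => hx.1)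
      (fun a x hx => ⟨hVi a x hx.1, by rw [← smul_pow', hx.2, smul_one]⟩) ?_
    · intro v hv; rw [← hT] at hv; exact hv.2
    · obtain ⟨x, hx⟩ := exists_prime_orderOf_dvd_card' r hrV
      intro hb
      have hm : (x : G) ∈ T := ⟨x.2, by
        rw [← SubgroupClass.coe_pow, ← hx, pow_orderOf_eq_one, OneMemClass.coe_one]⟩
      rw [hb, Subgroup.mem_bot] at hm
      have : x = 1 := Subtype.ext hm
      rw [this, orderOf_one] at hx
      exact hr.one_lt.ne hx
  have hr6 : ¬ r ∣ 6 := fun h => by
    have h1 := Nat.dvd_gcd (hrV.trans V.card_subgroup_dvd_card) h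
    rw [hcop.gcd_eq_one, Nat.dvd_one] at h1
    exact hr.one_lt.ne' h1
  -- the derived subgroup centralises `V`
  suffices hcen : commutator G ≤ Subgroup.centralizer (V : Set G) by
    letI := quotAction V hVi
    haveI hsq : Group.IsSolvable (G ⧸ V) := solvable_of_surjective (QuotientGroup.mk'_surjective V)
    have hlt : Nat.card (G ⧸ V) < n := by
      rw [← hn, Subgroup.card_eq_card_quotient_mul_card_subgroup V]
      exact lt_mul_of_one_lt_right Nat.card_pos ((Subgroup.one_lt_card_iff_ne_bot V).2 hVb)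
    haveI := IH _ hlt (G ⧸ V) rfl hsq (hcop.coprime_dvd_left V.card_quotient_dvd_card)
      (fpf_quotient hfix hcop V hVi)
    have hmap : (commutator G).map (QuotientGroup.mk' V) ≤ commutator (G ⧸ V) := by
      rw [commutator_def, Subgroup.map_commutator]
      exact Subgroup.commutator_mono le_top le_top
    let f : commutator G →* commutator (G ⧸ V) :=
      ((QuotientGroup.mk' V).comp (commutator G).subtype).codRestrict _ fun x =>
        hmap ⟨x, x.2, rfl⟩
    refine Subgroup.isNilpotent_of_ker_le_center f ?_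
    intro x hx
    have hxV : (x : G) ∈ V := (QuotientGroup.eq_one_iff _).1 (congrArg Subtype.val hx)
    exact Subgroup.mem_center_iff.2 fun y =>
      Subtype.ext ((Subgroup.mem_centralizer_iff.1 (hcen y.2) _ hxV).symm)
  -- the representation
  set C := Subgroup.centralizer (V : Set G) with hC
  haveI hCn : C.Normal := Subgroup.normal_centralizer
  have hCi : ∀ (a : S3), ∀ x ∈ C, a • x ∈ C := fun a x hx => by
    rw [hC, Subgroup.mem_centralizer_iff] at hx ⊢
    intro v hv
    have h := congrArg (a • ·) (hx (a⁻¹ • v) (hVi _ v hv))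
    simpa [smul_mul'] using h
  letI := quotAction C hCi
  have hfq : Fpf (G ⧸ C) := fpf_quotient hfix hcop C hCi
  haveI : Group.IsSolvable (G ⧸ C) := solvable_of_surjective (QuotientGroup.mk'_surjective C)
  have hcq : (Nat.card (G ⧸ C)).Coprime 6 := hcop.coprime_dvd_left C.card_quotient_dvd_card
  letI : CommGroup V :=
    { (inferInstance : Group V) with mul_comm := fun x y => Subtype.ext (hcomm x x.2 y y.2) }
  let k := AlgebraicClosure (ZMod r)
  haveI : CharP k r := charP_of_injective_algebraMap (algebraMap (ZMod r) k).injective r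
  let A := Additive V
  let W := A →+ k
  have h3 : (3 : k) ≠ 0 := fun h => by
    have h' : r ∣ 3 := (CharP.cast_eq_zero_iff k r 3).1 (by exact_mod_cast h)
    exact hr6 (h'.trans (by norm_num))
  haveI : FiniteDimensional k W :=
    Module.Finite.of_injective
      ({ toFun := fun f => (f : A → k), map_add' := fun _ _ => rfl,
         map_smul' := fun _ _ => rfl } : W →ₗ[k] (A → k))
      DFunLike.coe_injective
  let cj : G → A →+ A := fun g => MonoidHom.toAdditive
    { toFun := fun v : V => (⟨g⁻¹ * v * g, by simpa using hVn.conj_mem (v : G) v.2 g⁻¹⟩ : V)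
      map_one' := Subtype.ext (by simp)
      map_mul' := fun v w => Subtype.ext (by simp [mul_assoc]) }
  have cj_apply : ∀ g (v : V), cj g (Additive.ofMul v) =
      Additive.ofMul (⟨g⁻¹ * v * g, by simpa using hVn.conj_mem (v : G) v.2 g⁻¹⟩ : V) :=
    fun _ _ => rfl
  let ρ₀ : G →* Module.End k W :=
    { toFun := fun g =>
        { toFun := fun f => f.comp (cj g), map_add' := fun _ _ => rfl, map_smul' := fun _ _ => rfl }
      map_one' := LinearMap.ext fun f => AddMonoidHom.ext fun v => by
        obtain ⟨v, rfl⟩ := Additive.ofMul.surjective v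
        show f (cj 1 (Additive.ofMul v)) = f (Additive.ofMul v)
        rw [cj_apply]
        congr 2
        exact Subtype.ext (by simp)
      map_mul' := fun g h => LinearMap.ext fun f => AddMonoidHom.ext fun v => by
        obtain ⟨v, rfl⟩ := Additive.ofMul.surjective v
        show f (cj (g * h) (Additive.ofMul v)) = f (cj h (cj g (Additive.ofMul v)))
        simp only [cj_apply]
        congr 2
        exact Subtype.ext (by simp [mul_assoc]) }
  have ρ₀_apply : ∀ g (f : W) (v : V), ρ₀ g f (Additive.ofMul v) =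
      f (Additive.ofMul (⟨g⁻¹ * v * g, by simpa using hVn.conj_mem (v : G) v.2 g⁻¹⟩ : V)) :=
    fun _ _ _ => rfl
  have hker : C ≤ ρ₀.ker := fun g hg => MonoidHom.mem_ker.2 (LinearMap.ext fun f =>
    AddMonoidHom.ext fun v => by
      obtain ⟨v, rfl⟩ := Additive.ofMul.surjective v
      rw [ρ₀_apply, Module.End.one_apply]
      congr 2
      apply Subtype.ext
      show g⁻¹ * (v : G) * g = v
      rw [mul_assoc, Subgroup.mem_centralizer_iff.1 hg _ v.2, inv_mul_cancel_left])
  let ρ : G ⧸ C →* Module.End k W := QuotientGroup.lift C ρ₀ hker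
  let ca : S3 → A →+ A := fun a => MonoidHom.toAdditive
    { toFun := fun v : V => (⟨a⁻¹ • (v : G), hVi _ _ v.2⟩ : V)
      map_one' := Subtype.ext (smul_one _)
      map_mul' := fun v w => Subtype.ext (smul_mul' _ _ _) }
  let α : S3 →* Module.End k W :=
    { toFun := fun a =>
        { toFun := fun f => f.comp (ca a), map_add' := fun _ _ => rfl, map_smul' := fun _ _ => rfl }
      map_one' := LinearMap.ext fun f => AddMonoidHom.ext fun v => by
        obtain ⟨v, rfl⟩ := Additive.ofMul.surjective v
        show f (Additive.ofMul (⟨(1 : S3)⁻¹ • (v : G), _⟩ : V)) = f (Additive.ofMul v)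
        congr 2
        exact Subtype.ext (by simp)
      map_mul' := fun a b => LinearMap.ext fun f => AddMonoidHom.ext fun v => by
        obtain ⟨v, rfl⟩ := Additive.ofMul.surjective v
        show f (Additive.ofMul (⟨(a * b)⁻¹ • (v : G), _⟩ : V)) =
          f (Additive.ofMul (⟨b⁻¹ • (a⁻¹ • (v : G)), hVi _ _ (hVi _ _ v.2)⟩ : V))
        congr 2
        exact Subtype.ext (by simp [mul_smul]) }
  have hcompat : ∀ (a : S3) (q : G ⧸ C) (f : W), α a (ρ q f) = ρ (a • q) (α a f) := by
    intro a q f
    obtain ⟨g, rfl⟩ := QuotientGroup.mk_surjective q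
    refine AddMonoidHom.ext fun v => ?_
    obtain ⟨v, rfl⟩ := Additive.ofMul.surjective v
    show ρ₀ g f (Additive.ofMul (⟨a⁻¹ • (v : G), hVi _ _ v.2⟩ : V)) =
      ρ₀ (a • g) (α a f) (Additive.ofMul v)
    simp only [ρ₀_apply]
    show f _ = f (Additive.ofMul (⟨a⁻¹ • ((a • g)⁻¹ * (v : G) * (a • g)), _⟩ : V))
    congr 2
    exact Subtype.ext (by simp [smul_mul', smul_inv'])
  have hsum : ∀ f : W, ∑ a : S3, α a f = 0 := by
    intro f
    refine AddMonoidHom.ext fun v => ?_
    obtain ⟨v, rfl⟩ := Additive.ofMul.surjective v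
    rw [AddMonoidHom.finset_sum_apply, AddMonoidHom.zero_apply]
    show ∑ a : S3, f (Additive.ofMul (⟨a⁻¹ • (v : G), hVi _ _ v.2⟩ : V)) = 0
    rw [← map_sum, ← ofMul_prod]
    set P := ∏ a : S3, (⟨a⁻¹ • (v : G), hVi _ _ v.2⟩ : V) with hP
    have hPf : ∀ b : S3, b • (P : G) = (P : G) := by
      intro b
      let φ : V →* V :=
        { toFun := fun w => ⟨b • (w : G), hVi _ _ w.2⟩
          map_one' := Subtype.ext (smul_one _)
          map_mul' := fun w z => Subtype.ext (smul_mul' _ _ _) }
      have h : φ P = P := by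
        rw [hP, map_prod]
        refine Fintype.prod_equiv (Equiv.mulRight b⁻¹) _ _ fun a => Subtype.ext ?_
        show b • a⁻¹ • (v : G) = (a * b⁻¹)⁻¹ • (v : G)
        rw [mul_inv_rev, inv_inv, mul_smul]
      exact congrArg Subtype.val h
    have hP1 : P = 1 := Subtype.ext (hfix _ (hPf rot) (hPf flip))
    rw [hP1]
    exact map_zero f
  have hinj : Function.Injective ρ := by
    rw [← MonoidHom.ker_eq_bot_iff, eq_bot_iff]
    intro q hq
    obtain ⟨g, rfl⟩ := QuotientGroup.mk_surjective q
    refine Subgroup.mem_bot.2 ((QuotientGroup.eq_one_iff g).2 ?_)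
    rw [hC, Subgroup.mem_centralizer_iff]
    intro v hv
    by_contra hne
    have hw : g⁻¹ * v * g * v⁻¹ ∈ V :=
      mul_mem (by simpa using hVn.conj_mem v hv g⁻¹) (inv_mem hv)
    letI : Module (ZMod r) A := AddCommGroup.zmodModule (fun w => by
      obtain ⟨w, rfl⟩ := Additive.ofMul.surjective w
      rw [← ofMul_pow, show w ^ r = 1 from Subtype.ext (by
        rw [SubgroupClass.coe_pow, hexp _ w.2, OneMemClass.coe_one]), ofMul_one])
    have hw0 : Additive.ofMul (⟨_, hw⟩ : V) ≠ (0 : A) := fun h => hne (by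
      have h1 : g⁻¹ * v * g * v⁻¹ = 1 := congrArg Subtype.val (Additive.ofMul.injective h)
      rw [mul_inv_eq_one, mul_assoc, inv_mul_eq_iff_eq_mul] at h1
      exact h1)
    obtain ⟨l, hl⟩ := exists_dual_ne (ZMod r) hw0
    let f : W := ((algebraMap (ZMod r) k).toAddMonoidHom).comp l
    refine hl ((algebraMap (ZMod r) k).injective ?_)
    rw [map_zero]
    show f (Additive.ofMul (⟨_, hw⟩ : V)) = 0
    have h1 : ρ₀ g f (Additive.ofMul ⟨v, hv⟩) = f (Additive.ofMul ⟨v, hv⟩) := by
      rw [show ρ₀ g = 1 from hq, Module.End.one_apply]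
    rw [ρ₀_apply] at h1
    rw [show (⟨_, hw⟩ : V) = ⟨g⁻¹ * v * g, by simpa using hVn.conj_mem v hv g⁻¹⟩ * ⟨v, hv⟩⁻¹
      from Subtype.ext rfl, ofMul_mul, ofMul_inv, map_add, map_neg, h1, add_neg_cancel]
  -- the `r`-core of the quotient is trivial
  have hcore : Cfsg.pCore r (G ⧸ C) = ⊥ := by
    haveI := CfsgLib.Core.characteristic_pCore (G := G ⧸ C) r
    by_contra hne
    set L := (Cfsg.pCore r (G ⧸ C)).comap (QuotientGroup.mk' C) with hL
    haveI : L.Normal := Subgroup.Normal.comap inferInstance _
    have hLi : ∀ (a : S3), ∀ x ∈ L, a • x ∈ L := fun a x hx => by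
      have h := (CfsgLib.Core.characteristic_pCore (G := G ⧸ C) r).fixed
        (MulDistribMulAction.toMulEquiv (G ⧸ C) a)
      have hx' : (x : G ⧸ C) ∈ Cfsg.pCore r (G ⧸ C) := hx
      rw [← h] at hx'
      exact hx'
    have hfixV : V ⊓ Subgroup.centralizer (L : Set G) ≠ ⊥ := by
      -- an `r`-group acting on `V`
      letI : MulAction L V :=
        { smul := fun l v => ⟨(l : G) * v * (l : G)⁻¹, hVn.conj_mem _ v.2 _⟩
          one_smul := fun v => Subtype.ext (by
            show ((1 : L) : G) * v * ((1 : L) : G)⁻¹ = v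
            simp)
          mul_smul := fun l m v => Subtype.ext (by
            show ((l * m : L) : G) * v * ((l * m : L) : G)⁻¹ =
              (l : G) * ((m : G) * v * (m : G)⁻¹) * (l : G)⁻¹
            simp [mul_assoc]) }
      let π' : L →* Cfsg.pCore r (G ⧸ C) :=
        ((QuotientGroup.mk' C).comp L.subtype).codRestrict _ fun l => l.2
      let θ : L →* Equiv.Perm V := MulAction.toPermHom L V
      have hθ : π'.ker ≤ θ.ker := by
        intro l hl
        have hlC : (l : G) ∈ C := (QuotientGroup.eq_one_iff _).1 (congrArg Subtype.val hl)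
        refine Equiv.ext fun v => Subtype.ext ?_
        show (l : G) * v * (l : G)⁻¹ = v
        rw [← Subgroup.mem_centralizer_iff.1 hlC _ v.2, mul_inv_cancel_right]
      have hp : IsPGroup r θ.range := by
        have hs : Function.Surjective π' := fun q => by
          obtain ⟨g, hg⟩ := QuotientGroup.mk_surjective (q : G ⧸ C)
          exact ⟨⟨g, Subgroup.mem_comap.2 (by rw [QuotientGroup.mk'_apply, hg]; exact q.2)⟩, Subtype.ext hg⟩
        intro y
        obtain ⟨l, hl⟩ := y.2
        obtain ⟨j, hj⟩ := CfsgLib.Core.isPGroup_pCore (G := G ⧸ C) r (π' l)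
        refine ⟨j, Subtype.ext ?_⟩
        rw [SubgroupClass.coe_pow, ← hl, ← map_pow, OneMemClass.coe_one]
        exact hθ (by rw [MonoidHom.mem_ker, map_pow, hj])
      have hfp : (1 : V) ∈ MulAction.fixedPoints θ.range V := by
        rintro ⟨_, l, rfl⟩
        exact Subtype.ext (by show (l : G) * 1 * (l : G)⁻¹ = 1; group)
      obtain ⟨v, hv, hv1⟩ := hp.exists_fixed_point_of_prime_dvd_card_of_fixed_point V hrV hfp
      intro hb
      refine hv1 (Subtype.ext ?_)
      have hm : (v : G) ∈ V ⊓ Subgroup.centralizer (L : Set G) := ⟨v.2,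
        Subgroup.mem_centralizer_iff.2 fun l hl => by
          have := congrArg Subtype.val (hv ⟨θ ⟨l, hl⟩, ⟨_, rfl⟩⟩)
          exact mul_inv_eq_iff_eq_mul.1 this⟩
      rw [hb, Subgroup.mem_bot] at hm
      exact hm.symm
    have hVL : V ⊓ Subgroup.centralizer (L : Set G) = V := by
      haveI : (Subgroup.centralizer (L : Set G)).Normal := Subgroup.normal_centralizer
      refine hle _ inferInstance inf_le_left (fun a x hx => ⟨hVi a x hx.1, ?_⟩) hfixV
      refine Subgroup.mem_centralizer_iff.2 fun l hl => ?_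
      have h := congrArg (a • ·) (Subgroup.mem_centralizer_iff.1 hx.2 (a⁻¹ • l) (hLi _ l hl))
      simpa [smul_mul'] using h
    refine hne (eq_bot_iff.2 fun q hq => ?_)
    obtain ⟨g, rfl⟩ := QuotientGroup.mk_surjective q
    refine Subgroup.mem_bot.2 ((QuotientGroup.eq_one_iff g).2 ?_)
    rw [hC, Subgroup.mem_centralizer_iff]
    intro v hv
    rw [← hVL] at hv
    exact (Subgroup.mem_centralizer_iff.1 hv.2 g hq).symm
  -- the Fitting subgroup of the quotient
  set F := Cfsg.fittingSubgroup (G ⧸ C) with hF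
  haveI hFc := CfsgLib.Core.characteristic_fittingSubgroup (G := G ⧸ C)
  haveI hFnil : Group.IsNilpotent F := CfsgLib.Core.isNilpotent_fittingSubgroup
  have hFi : ∀ (a : S3), ∀ x ∈ F, a • x ∈ F := fun a x hx => by
    have h := hFc.fixed (MulDistribMulAction.toMulEquiv (G ⧸ C) a)
    have hx' : x ∈ Cfsg.fittingSubgroup (G ⧸ C) := hx
    rw [← h] at hx'
    exact hx'
  have hFk : (Nat.card F : k) ≠ 0 := fun h0 => by
    obtain ⟨P⟩ := (inferInstance : Nonempty (Sylow r F))
    have hP : (P : Subgroup F) = ⊥ := by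
      rw [← CfsgLib.Core.pCore_eq_sylow_of_nilpotent P, ← Subgroup.map_eq_bot_iff_of_injective _
        F.subtype_injective, eq_bot_iff, ← hcore]
      exact CfsgLib.Core.pCore_map_subtype_le (inferInstance : F.Normal)
    exact P.not_dvd_index (by rw [hP, Subgroup.index_bot]; exact (CharP.cast_eq_zero_iff k r _).1 h0)
  letI actF : MulDistribMulAction S3 F :=
    { smul := fun a x => ⟨a • (x : G ⧸ C), hFi a x x.2⟩
      one_smul := fun x => Subtype.ext (one_smul _ _)
      mul_smul := fun a b x => Subtype.ext (mul_smul a b _)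
      smul_mul := fun a x y => Subtype.ext (smul_mul' a _ _)
      smul_one := fun a => Subtype.ext (smul_one a) }
  have hFcomm : ∀ x ∈ F, ∀ y ∈ F, x * y = y * x := fun x hx y hy =>
    congrArg Subtype.val (abelian_of_nilpotent (ρ.comp F.subtype) α (fun a g v => hcompat a g v)
      hsum (fun g hs ht => Subtype.ext (hfq g (congrArg Subtype.val hs) (congrArg Subtype.val ht)))
      (hcq.coprime_dvd_left F.card_subgroup_dvd_card) (hinj.comp F.subtype_injective) hFk h3
      ⟨x, hx⟩ ⟨y, hy⟩)
  have hFz : F ≤ Subgroup.center (G ⧸ C) :=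
    le_center_of_abelian ρ α hcompat hsum hfq hcq hinj F hFi hFcomm hFk
  have hFtop : F = ⊤ := eq_top_iff.2 fun x _ => CfsgLib.Core.centralizer_fitting_le
    (Subgroup.mem_centralizer_iff.2 fun y hy => (Subgroup.mem_center_iff.1 (hFz hy) x).symm)
  rw [commutator_def, Subgroup.commutator_le]
  intro g _ h _
  rw [← QuotientGroup.eq_one_iff, ← QuotientGroup.mk'_apply, map_commutatorElement,
    commutatorElement_eq_one_iff_mul_comm]
  exact hFcomm _ (by rw [hFtop]; trivial) _ (by rw [hFtop]; trivial)

/-- **Fixed-point-free action of `S3`.** -/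
theorem nilpotent_commutator {G : Type u} [Group G] [Finite G] [MulDistribMulAction S3 G]
    (hsol : Group.IsSolvable G) (hcop : (Nat.card G).Coprime 6)
    (hfix : ∀ g : G, (∀ a : S3, a • g = g) → g = 1) : Group.IsNilpotent ↥(commutator G) := by
  refine nilpotent_commutator_aux _ G rfl hsol hcop fun g hs ht => hfix g fun a => ?_
  rcases cases_S3 a with rfl | rfl | rfl | rfl | rfl | rfl
  · rw [one_smul]
  · exact hs
  · rw [mul_smul, hs, hs]
  · exact ht
  · rw [mul_smul, ht, hs]
  · rw [mul_smul, mul_smul, ht, hs, hs]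

end CfsgLib.S3Fpf
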