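import Mathlib
/-! Descent for Sylow numbers. -/

namespace CfsgLib.SylowNum

variable {G : Type*} [Group G] [Finite G] {p : ℕ} [Fact p.Prime]

theorem sylow_le_of_not_dvd_index {M : Subgroup G} [M.Normal] (h : ¬ p ∣ M.index) (Q : Sylow p G) :
    (Q : Subgroup G) ≤ M := by
  intro x hx
  obtain ⟨j, hj⟩ := IsPGroup.iff_orderOf.mp Q.isPGroup' ⟨x, hx⟩
  rw [Subgroup.orderOf_mk] at hj
  have h1 : orderOf (QuotientGroup.mk' M x) ∣ p ^ j := hj ▸ orderOf_map_dvd _ x
  have h2 : orderOf (QuotientGroup.mk' M x) ∣ M.index := orderOf_dvd_natCard _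
  have h3 := Nat.eq_one_of_dvd_coprimes ((Nat.Prime.coprime_iff_not_dvd Fact.out).mpr h |>.pow_left j) h1 h2
  exact (QuotientGroup.eq_one_iff x).mp (orderOf_eq_one_iff.mp h3)

theorem card_sylow_normal {M : Subgroup G} [M.Normal] (h : ¬ p ∣ M.index) :
    Nat.card (Sylow p M) = Nat.card (Sylow p G) := by
  refine (Nat.card_eq_of_bijective (fun Q : Sylow p G => Q.subtype (sylow_le_of_not_dvd_index h Q))
    ⟨fun Q R e => Sylow.subtype_injective e, fun T => ?_⟩).symm
  obtain ⟨Q, hQ⟩ := (T.isPGroup'.map M.subtype).exists_le_sylow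
  refine ⟨Q, Sylow.ext ?_⟩
  exact T.3 (Q.subtype (sylow_le_of_not_dvd_index h Q)).isPGroup' (fun x hx => hQ ⟨x, hx, rfl⟩)

theorem card_sylow_quotient {K : Subgroup G} [K.Normal]
    (h : ∀ Q : Sylow p G, K ≤ Subgroup.normalizer ((Q : Subgroup G) : Set G)) :
    Nat.card (Sylow p (G ⧸ K)) = Nat.card (Sylow p G) := by
  have hπ : Function.Surjective (QuotientGroup.mk' K) := QuotientGroup.mk'_surjective K
  refine (Nat.card_eq_of_bijective (Sylow.mapSurjective hπ)
    ⟨fun Q R e => ?_, Sylow.mapSurjective_surjective hπ p⟩).symm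
  have e' := congrArg (fun S : Sylow p (G ⧸ K) => (S : Subgroup (G ⧸ K))) e
  simp only [Sylow.coe_mapSurjective] at e'
  have hle : (Q : Subgroup G) ≤ Subgroup.normalizer ((R : Subgroup G) : Set G) := by
    intro x hx
    have : QuotientGroup.mk' K x ∈ (R : Subgroup G).map (QuotientGroup.mk' K) := e' ▸ ⟨x, hx, rfl⟩
    obtain ⟨r, hr, hrx⟩ := this
    have hk : r⁻¹ * x ∈ K := QuotientGroup.eq.mp hrx
    have := mul_mem (Subgroup.le_normalizer hr) (h R hk)
    rwa [mul_inv_cancel_left] at this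
  have h2 : (Q : Subgroup G) ≤ (R : Subgroup G) := fun x hx =>
    ((Q.isPGroup'.inf_normalizer_sylow R).le ⟨hx, hle hx⟩).2
  exact Sylow.ext (Q.3 R.isPGroup' h2).symm

theorem smul_eq_of_mem {Q : Sylow p G} {x : G} (hx : x ∈ (Q : Subgroup G)) : x • Q = Q :=
  Sylow.smul_eq_iff_mem_normalizer.mpr (Subgroup.le_normalizer hx)

theorem mem_of_smul_eq {Q : Sylow p G} {x : G} {j : ℕ} (hx : orderOf x = p ^ j) (h : x • Q = Q) :
    x ∈ (Q : Subgroup G) := by
  have hp' : IsPGroup p (Subgroup.zpowers x) := IsPGroup.of_card (n := j) (by rw [Nat.card_zpowers, hx])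
  exact ((hp'.inf_normalizer_sylow Q).le
    ⟨Subgroup.mem_zpowers x, Sylow.smul_eq_iff_mem_normalizer.mp h⟩).2

theorem mem_ker_iff {x : G} :
    x ∈ (MulAction.toPermHom G (Sylow p G)).ker ↔ ∀ Q : Sylow p G, x • Q = Q := by
  rw [MonoidHom.mem_ker, Equiv.ext_iff]
  rfl

theorem sign_ne_one_descent (h : ∃ x : G, letI := Classical.decEq (Sylow p G); letI := Fintype.ofFinite (Sylow p G);
      Equiv.Perm.sign (MulAction.toPermHom G (Sylow p G) x) ≠ 1) :
    ∃ M : Subgroup G, M.Normal ∧ M.index = 2 := by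
  obtain ⟨x, hx⟩ := h
  letI := Classical.decEq (Sylow p G)
  letI := Fintype.ofFinite (Sylow p G)
  let s : G →* ℤˣ := Equiv.Perm.sign.comp (MulAction.toPermHom G (Sylow p G))
  refine ⟨s.ker, s.normal_ker, ?_⟩
  have hr : s.range = ⊤ := by
    rw [eq_top_iff]
    intro u _
    rcases Int.units_eq_one_or u with rfl | rfl
    · exact one_mem _
    · exact ⟨x, (Int.units_eq_one_or _).resolve_left hx⟩
  rw [Subgroup.index_ker, hr, Subgroup.card_top, Nat.card_eq_fintype_card, Fintype.card_units_int]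

end CfsgLib.SylowNum
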