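import Mathlib
import Cfsg.Agent.Lib.FgsSylowTwentyOneSimple
import Cfsg.Agent.Lib.CoreSZ

/-!
No group has exactly 21 Sylow 5-subgroups: reduction to simple groups.
-/

set_option autoImplicit false

namespace CfsgLib.TwentyOne

open Subgroup
open scoped Pointwise commutatorElement

universe u

local instance : Fact (Nat.Prime 5) := ⟨by norm_num⟩
local instance : Fact (Nat.Prime 3) := ⟨Nat.prime_three⟩

variable {G : Type u} [Group G] [Finite G]

/-- A subgroup containing every Sylow subgroup has the same Sylow subgroups. -/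
theorem card_sylow_of_all_le {M : Subgroup G} (hM : ∀ P : Sylow 5 G, (P : Subgroup G) ≤ M) :
    Nat.card (Sylow 5 M) = Nat.card (Sylow 5 G) := by
  refine (Nat.card_eq_of_bijective (fun P : Sylow 5 G => P.subtype (hM P))
    ⟨fun P Q e => Sylow.subtype_injective e, fun Q => ?_⟩).symm
  obtain ⟨P, hP⟩ := (Q.2.map M.subtype).exists_le_sylow
  refine ⟨P, Sylow.ext (Q.is_maximal' (P.subtype (hM P)).2 ?_)⟩
  intro x hx
  exact hP ⟨x, hx, rfl⟩

/-- The coprime case: a group `N P` with `|P| = 5` has no 21 Sylow 5-subgroups. -/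
theorem coprime_case (h : Nat.card (Sylow 5 G) = 21) (P : Sylow 5 G) (hP : Nat.card (P : Subgroup G) = 5)
    (N : Subgroup G) [N.Normal] (hN : ¬ 5 ∣ Nat.card N) (htop : (P : Subgroup G) ⊔ N = ⊤) : False := by
  classical
  set C := N ⊓ normalizer ((P : Subgroup G) : Set G) with hC
  have hcop : (Nat.card (P : Subgroup G)).Coprime (Nat.card N) := by
    rw [hP]; exact (Nat.prime_five.coprime_iff_not_dvd).mpr hN
  have hd : (P : Subgroup G) ⊓ N = ⊥ := CfsgLib.Core.inf_eq_bot_of_coprime hcop
  have hnorm : ∀ K : Subgroup G, normalizer ((P : Subgroup G) : Set G) ⊓ N = C := fun _ => inf_comm _ _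
  have hPN : (P : Subgroup G) ≤ normalizer (N : Set G) := le_top.trans (Subgroup.normalizer_eq_top (H := N)).ge
  have hcN : Nat.card N = 21 * Nat.card C := by
    have e1 := CfsgLib.Core.card_sup_mul_card_inf hPN
    rw [hd, Subgroup.card_bot, mul_one, htop, Subgroup.card_top, hP] at e1
    have e2 := (normalizer ((P : Subgroup G) : Set G)).card_mul_index
    rw [CfsgLib.SmallSimple.index_normalizer P, h] at e2
    have hCle : C ≤ normalizer ((P : Subgroup G) : Set G) := inf_le_right
    have e3 := CfsgLib.Core.card_sup_mul_card_inf (A := C) (K := (P : Subgroup G)) hCle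
    have e4 : C ⊓ (P : Subgroup G) = ⊥ := le_bot_iff.mp ((inf_le_inf_right _ inf_le_left).trans (inf_comm N _ ▸ hd.le))
    have e5 : C ⊔ (P : Subgroup G) = normalizer ((P : Subgroup G) : Set G) := by
      refine le_antisymm (sup_le hCle Subgroup.le_normalizer) fun g hg => ?_
      obtain ⟨n, hn, a, ha, rfl⟩ := (CfsgLib.Core.mem_sup_iff_of_le_normalizer' hPN).mp
        (htop.symm ▸ Subgroup.mem_top g)
      have hnN : n ∈ normalizer ((P : Subgroup G) : Set G) := by
        have := mul_mem hg ((normalizer ((P : Subgroup G) : Set G)).inv_mem (Subgroup.le_normalizer ha))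
        rwa [mul_inv_cancel_right] at this
      exact Subgroup.mul_mem_sup ⟨hn, hnN⟩ ha
    rw [e4, Subgroup.card_bot, mul_one, e5, hP] at e3
    rw [e3] at e2
    linarith [e1, e2]
  have hCP : ∀ c ∈ C, ∀ x ∈ (P : Subgroup G), x * c = c * x := by
    intro c hc x hx
    have h1 : ⁅c, x⁆ ∈ (P : Subgroup G) ⊓ N := by
      refine ⟨?_, ?_⟩
      · rw [commutatorElement_def]; exact mul_mem ((mem_normalizer_iff.mp hc.2 x).mp hx) ((P : Subgroup G).inv_mem hx)
      · have := mul_mem hc.1 ((inferInstance : N.Normal).conj_mem c⁻¹ (N.inv_mem hc.1) x)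
        simpa [commutatorElement_def, mul_assoc] using this
    rw [hd, Subgroup.mem_bot] at h1
    exact (commutatorElement_eq_one_iff_mul_comm.mp h1).symm
  obtain ⟨R₁⟩ : Nonempty (Sylow 3 C) := inferInstance
  set U := (R₁ : Subgroup C).map C.subtype with hU
  have hUC : U ≤ C := Subgroup.map_subtype_le _
  haveI : Group.IsSolvable (P : Subgroup G) := by
    haveI : IsCyclic (P : Subgroup G) := isCyclic_of_prime_card hP
    exact Group.isSolvable_of_comm (IsCyclic.commGroup (α := (P : Subgroup G))).mul_comm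
  obtain ⟨R, hUR, hPR⟩ := CfsgLib.Core.exists_invariant_sylow_ge (A := (P : Subgroup G)) (K := N) (U := U) 3
    hPN hcop (Or.inl inferInstance) (hUC.trans inf_le_left) (R₁.2.map _) (fun x hx => by
      rw [mem_normalizer_iff]
      intro y
      refine ⟨fun hy => ?_, fun hy => ?_⟩
      · rw [hCP y (hUC hy) x hx, mul_inv_cancel_right]; exact hy
      · have e := hCP _ (hUC hy) x hx
        rw [inv_mul_cancel_right] at e
        rwa [mul_left_cancel e] at hy)
  set Rg := (R : Subgroup N).map N.subtype with hRg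
  have hRp : IsPGroup 3 Rg := R.2.map _
  letI : MulAction (P : Subgroup G) Rg :=
    { smul := fun x r => ⟨(x : G) * r * (x : G)⁻¹, (mem_normalizer_iff.mp (hPR x.2) r).mp r.2⟩
      one_smul := fun r => Subtype.ext (by show ((1 : (P : Subgroup G)) : G) * r * ((1 : (P : Subgroup G)) : G)⁻¹ = r; simp)
      mul_smul := fun a b r => Subtype.ext (by
        show ((a * b : (P : Subgroup G)) : G) * r * ((a * b : (P : Subgroup G)) : G)⁻¹ = (a : G) * ((b : G) * r * (b : G)⁻¹) * (a : G)⁻¹
        simp [mul_assoc]) }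
  have hmod := P.2.card_modEq_card_fixedPoints Rg
  have hRC : Rg ⊓ C = U := by
    refine (CfsgLib.Core.eq_of_le_of_card_le (le_inf hUR hUC) ?_).symm
    obtain ⟨T, hT⟩ := ((hRp.to_le (inf_le_left : Rg ⊓ C ≤ Rg)).of_equiv
      (Subgroup.subgroupOfEquivOfLe (inf_le_right : Rg ⊓ C ≤ C)).symm).exists_le_sylow
    rw [← Nat.card_congr (Subgroup.subgroupOfEquivOfLe (inf_le_right : Rg ⊓ C ≤ C)).toEquiv, hU,
      Subgroup.card_map_of_injective C.subtype_injective, R₁.card_eq_multiplicity, ← T.card_eq_multiplicity]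
    exact Nat.le_of_dvd Nat.card_pos (Subgroup.card_dvd_of_le hT)
  have hfix : Nat.card (MulAction.fixedPoints (P : Subgroup G) Rg) = Nat.card U := by
    refine Nat.card_eq_of_bijective (fun r => ⟨(r.1 : G), ?_⟩) ⟨fun a b e => Subtype.ext (Subtype.ext (congrArg (fun z : U => (z : G)) e)), ?_⟩
    · rw [← hRC]
      refine ⟨r.1.2, Subgroup.map_subtype_le _ r.1.2, ?_⟩
      show (r.1 : G) ∈ normalizer ((P : Subgroup G) : Set G)
      rw [mem_normalizer_iff]
      have hc : ∀ x ∈ (P : Subgroup G), x * (r.1 : G) = (r.1 : G) * x := fun x hx =>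
        mul_inv_eq_iff_eq_mul.mp (congrArg Subtype.val (r.2 ⟨x, hx⟩))
      intro y
      refine ⟨fun hy => ?_, fun hy => ?_⟩
      · rw [← hc y hy, mul_inv_cancel_right]; exact hy
      · have e := hc _ hy
        rw [inv_mul_cancel_right] at e
        rwa [← mul_left_cancel e] at hy
    · rintro ⟨z, hz⟩
      refine ⟨⟨⟨z, hUR hz⟩, fun x => Subtype.ext ?_⟩, rfl⟩
      show (x : G) * z * (x : G)⁻¹ = z
      rw [hCP z (hUC hz) x x.2, mul_inv_cancel_right]
  have hm1 : Nat.card Rg = 3 ^ (Nat.card N).factorization 3 := by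
    rw [hRg, Subgroup.card_map_of_injective N.subtype_injective, R.card_eq_multiplicity]
  have hm2 : Nat.card U = 3 ^ (Nat.card C).factorization 3 := by
    rw [hU, Subgroup.card_map_of_injective C.subtype_injective, R₁.card_eq_multiplicity]
  have hfac : (Nat.card N).factorization 3 = 1 + (Nat.card C).factorization 3 := by
    rw [hcN, Nat.factorization_mul (by norm_num) Nat.card_pos.ne', Finsupp.add_apply,
      show (21 : ℕ) = 3 * 7 from rfl, Nat.factorization_mul (by norm_num) (by norm_num), Finsupp.add_apply,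
      Nat.Prime.factorization_self Nat.prime_three,
      Nat.factorization_eq_zero_of_not_dvd (show ¬ 3 ∣ 7 by norm_num)]
  rw [hfix, hm1, hm2, hfac, pow_add, pow_one] at hmod
  have hd5 : 5 ∣ 2 * 3 ^ (Nat.card C).factorization 3 := by
    have := (Nat.modEq_iff_dvd' (by omega)).mp hmod.symm
    rwa [show 3 * 3 ^ (Nat.card C).factorization 3 - 3 ^ (Nat.card C).factorization 3 =
      2 * 3 ^ (Nat.card C).factorization 3 by omega] at this
  rcases Nat.prime_five.dvd_mul.mp hd5 with e | e
  · norm_num at e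
  · exact absurd (Nat.prime_five.dvd_of_dvd_pow e) (by norm_num)

/-- No finite group has exactly 21 Sylow 5-subgroups. -/
theorem main : ∀ (n : ℕ) (G : Type u) [Group G] [Finite G], Nat.card G = n → Nat.card (Sylow 5 G) ≠ 21 := by
  intro n
  induction n using Nat.strong_induction_on with
  | _ n ih =>
    intro G _ _ hn h
    classical
    haveI := Fintype.ofFinite (Sylow 5 G)
    obtain ⟨P₀, R₀, hne⟩ : ∃ P R : Sylow 5 G, R ≠ P := by
      haveI : Nontrivial (Sylow 5 G) := Finite.one_lt_card_iff_nontrivial.mp (by omega)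
      obtain ⟨a, b, hab⟩ := exists_pair_ne (Sylow 5 G)
      exact ⟨a, b, hab.symm⟩
    set D := (P₀ : Subgroup G) ⊓ R₀ with hD
    haveI hDn : D.Normal := inter_normal_top h P₀ R₀ hne
    have hquot : ∀ (N : Subgroup G) [N.Normal], N ≠ ⊥ → Nat.card (Sylow 5 (G ⧸ N)) ≠ 21 := by
      intro N _ hN
      refine ih _ ?_ _ rfl
      rw [← hn, Subgroup.card_eq_card_quotient_mul_card_subgroup N]
      refine lt_mul_of_one_lt_right Nat.card_pos ?_
      exact Finite.one_lt_card_iff_nontrivial.mpr ((Subgroup.nontrivial_iff_ne_bot N).mpr hN)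
    have hsub : ∀ M : Subgroup G, M ≠ ⊤ → ¬ ∀ P : Sylow 5 G, (P : Subgroup G) ≤ M := by
      intro M hM hall
      refine ih _ ?_ M rfl ((card_sylow_of_all_le hall).trans h)
      rw [← hn]
      exact lt_of_le_of_ne (Nat.le_of_dvd Nat.card_pos (Subgroup.card_subgroup_dvd_card M))
        fun e => hM (Subgroup.eq_top_of_card_eq M e)
    by_cases hDb : D = ⊥
    swap
    · refine hquot D hDb ?_
      rw [← h]
      refine (Nat.card_eq_of_bijective (fun P : Sylow 5 G => P.mapSurjective (QuotientGroup.mk'_surjective D))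
        ⟨fun P Q e => ?_, Sylow.mapSurjective_surjective (QuotientGroup.mk'_surjective D) 5⟩).symm
      have hle : ∀ P : Sylow 5 G, D ≤ (P : Subgroup G) := fun P =>
        le_of_le_normalizer (P₀.2.to_le inf_le_left) P (le_top.trans (Subgroup.normalizer_eq_top (H := D)).ge)
      have e' : (P : Subgroup G).map (QuotientGroup.mk' D) = (Q : Subgroup G).map (QuotientGroup.mk' D) :=
        congrArg Sylow.toSubgroup e
      refine Sylow.ext ?_
      rw [← sup_eq_left.mpr (hle P), ← sup_eq_left.mpr (hle Q), ← QuotientGroup.ker_mk' D,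
        ← Subgroup.comap_map_eq, ← Subgroup.comap_map_eq, e']
    have hP5 : ∀ P : Sylow 5 G, Nat.card (P : Subgroup G) = 5 := fun P => by
      have h1 := inter_card h P₀ R₀ hne
      rw [← hD, hDb, Subgroup.card_bot, one_mul] at h1
      rw [card_eq P P₀, ← h1]
    by_cases hs : ∀ N : Subgroup G, N.Normal → N = ⊥ ∨ N = ⊤
    · haveI : Nontrivial G := by
        by_contra hc
        rw [not_nontrivial_iff_subsingleton] at hc
        have := hP5 P₀
        rw [Nat.card_of_subsingleton (1 : (P₀ : Subgroup G))] at this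
        omega
      haveI : IsSimpleGroup G := ⟨hs⟩
      exact not_simple h P₀ (hP5 P₀)
    push Not at hs
    obtain ⟨N, hNn, hN1, hN2⟩ := hs
    haveI := hNn
    by_cases hN5 : 5 ∣ Nat.card N
    · refine hsub N hN2 fun P => ?_
      obtain ⟨x, hx⟩ := exists_prime_orderOf_dvd_card' (G := N) 5 hN5
      obtain ⟨S, hS⟩ := (IsPGroup.of_card (p := 5) (G := Subgroup.zpowers (x : G)) (n := 1)
        (by rw [Nat.card_zpowers, Subgroup.orderOf_coe, hx, pow_one])).exists_le_sylow
      have hSN : (S : Subgroup G) ≤ N := by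
        rw [← Subgroup.eq_of_le_of_card_ge hS (by rw [hP5, Nat.card_zpowers, Subgroup.orderOf_coe, hx]),
          Subgroup.zpowers_le]
        exact x.2
      obtain ⟨g, rfl⟩ := MulAction.exists_smul_eq G S P
      rintro _ ⟨y, hy, rfl⟩
      exact hNn.conj_mem y (hSN hy) g
    set f := QuotientGroup.mk' N with hf
    have hfs : Function.Surjective f := QuotientGroup.mk'_surjective N
    set Pb := P₀.mapSurjective hfs with hPb
    have hdvd : Nat.card (Sylow 5 (G ⧸ N)) ∣ 21 := by
      rw [← h, ← CfsgLib.SmallSimple.index_normalizer Pb, ← CfsgLib.SmallSimple.index_normalizer P₀]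
      refine dvd_trans (Subgroup.index_dvd_of_le ?_) ((normalizer ((P₀ : Subgroup G) : Set G)).index_map_dvd hfs)
      rw [Sylow.coe_mapSurjective]
      exact Subgroup.le_normalizer_map _
    have hmod : Nat.card (Sylow 5 (G ⧸ N)) % 5 = 1 := card_sylow_modEq_one 5 (G ⧸ N)
    have hne21 := hquot N hN1
    have hone : Nat.card (Sylow 5 (G ⧸ N)) = 1 := by
      have : Nat.card (Sylow 5 (G ⧸ N)) ∈ Nat.divisors 21 := Nat.mem_divisors.mpr ⟨hdvd, by norm_num⟩
      rw [show Nat.divisors 21 = {1, 3, 7, 21} by decide] at this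
      simp only [Finset.mem_insert, Finset.mem_singleton] at this
      omega
    haveI : Subsingleton (Sylow 5 (G ⧸ N)) := Finite.card_le_one_iff_subsingleton.mp hone.le
    haveI hPbn : (Pb : Subgroup (G ⧸ N)).Normal := Sylow.normal_of_subsingleton Pb
    set M := ((P₀ : Subgroup G) ⊔ N) with hM
    have hMn : M.Normal := by
      rw [hM, ← QuotientGroup.ker_mk' N, ← Subgroup.comap_map_eq, ← Sylow.coe_mapSurjective hfs]
      exact hPbn.comap _
    by_cases hMt : M = ⊤
    · exact coprime_case h P₀ (hP5 P₀) N hN5 hMt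
    refine hsub M hMt fun P => ?_
    obtain ⟨g, rfl⟩ := MulAction.exists_smul_eq G P₀ P
    rintro _ ⟨y, hy, rfl⟩
    exact hMn.conj_mem y (Subgroup.mem_sup_left hy) g

end CfsgLib.TwentyOne
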