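import Cfsg.Prelude
import Cfsg.Agent.Lib.CoreGen
import Cfsg.Agent.Lib.CoreBasic

/-!
The transitivity theorem in a minimal simple group under the transitivity hypothesis.
-/

set_option autoImplicit false

namespace CfsgLib.TransOdd

open scoped commutatorElement Pointwise
open Subgroup

universe u
variable {G : Type u} [Group G] [Finite G] {A : Subgroup G} {q : ℕ} [hqF : Fact q.Prime]

local notation "π'" => Cfsg.primesNotDvd (Nat.card A)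

omit hqF in
theorem card_piCoreOf (π : Set ℕ) (X : Subgroup G) :
    ∀ r : ℕ, r.Prime → r ∣ Nat.card (Cfsg.piCoreOf π X) → r ∈ π := by
  rw [Cfsg.piCoreOf, card_map_of_injective X.subtype_injective]
  exact CfsgLib.Core.isPiNat_card_sSup π _ (fun _ h => h.1) fun _ h => h.2

omit hqF in
theorem coprime_of_pi {Y : Subgroup G} (h : ∀ r : ℕ, r.Prime → r ∣ Nat.card Y → r ∈ π') :
    (Nat.card A).Coprime (Nat.card Y) :=
  Nat.coprime_of_dvd' fun r hr h1 h2 => absurd h1 (h r hr h2).2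

omit hqF in
theorem le_core (hA : Cfsg.TransitivityHypothesis A) {X Y : Subgroup G} (hX : X ≠ ⊤) (hAX : A ≤ X)
    (hYX : Y ≤ X) (hY : ∀ r : ℕ, r.Prime → r ∣ Nat.card Y → r ∈ π') (hAY : A ≤ normalizer (Y : Set G)) :
    Y ≤ Cfsg.piCoreOf π' X := by
  rw [← hA.2.2 X hX hAX]
  exact le_sSup ⟨hYX, hY, hAY⟩

omit [Finite G] hqF in
theorem normalizer_ne_top (hG : Cfsg.IsMinimalSimple G) {Y : Subgroup G} (h1 : Y ≠ ⊥) (h2 : Y ≠ ⊤) :
    normalizer (Y : Set G) ≠ ⊤ := fun h => by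
  haveI := hG.1
  rcases (normalizer_eq_top_iff.mp h).eq_bot_or_eq_top with e | e
  exacts [h1 e, h2 e]

omit [Finite G] hqF in
theorem centralizer_ne_top (hG : Cfsg.IsMinimalSimple G) {e : G} (he : e ≠ 1) :
    centralizer ({e} : Set G) ≠ ⊤ := fun h => by
  haveI := hG.1
  have hmem : e ∈ center G := mem_center_iff.2 fun g => mem_centralizer_singleton_iff.mp (h ▸ mem_top g)
  rcases (inferInstance : (center G).Normal).eq_bot_or_eq_top with h1 | h1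
  · rw [h1, mem_bot] at hmem; exact he hmem
  · exact hG.2.1 ⟨⟨fun a b => (mem_center_iff.mp (h1 ▸ mem_top b) a)⟩⟩

theorem fixed_mem (hG : Cfsg.IsMinimalSimple G) (hA : Cfsg.TransitivityHypothesis A) {c : G}
    (hc : c ∈ centralizer (A : Set G)) (hcπ : ∀ r : ℕ, r.Prime → r ∣ orderOf c → r ∈ π') :
    c ∈ Cfsg.piCoreOf π' (centralizer (A : Set G)) := by
  set N := normalizer (A : Set G)
  set C := centralizer (A : Set G)
  have hCN : C ≤ N := CfsgLib.Core.centralizer_le_normalizer A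
  have h1 : zpowers c ≤ Cfsg.piCoreOf π' N := by
    refine le_core hA (normalizer_ne_top hG hA.1 hA.2.1) le_normalizer (zpowers_le.mpr (hCN hc))
      (by rwa [Nat.card_zpowers]) fun a ha => CfsgLib.Core.centralizer_le_normalizer _ ?_
    refine mem_centralizer_iff.mpr ?_
    rintro _ ⟨i, rfl⟩
    exact (Commute.zpow_left (mem_centralizer_iff.mp hc a ha : Commute a c).symm i).eq
  let M : Subgroup C := (Cfsg.piCore π' N).comap (Subgroup.inclusion hCN)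
  refine ⟨⟨c, hc⟩, (le_sSup (show M ∈ {L : Subgroup C | L.Normal ∧ ∀ r : ℕ, r.Prime → r ∣ Nat.card L → r ∈ π'} from
    ⟨inferInstance, fun r hr hd => card_piCoreOf π' N r hr (hd.trans ?_)⟩)) ?_, rfl⟩
  · rw [Cfsg.piCoreOf, card_map_of_injective N.subtype_injective]
    exact card_comap_dvd_of_injective _ _ (Subgroup.inclusion_injective hCN)
  · obtain ⟨w, hw, hwc⟩ := h1 (mem_zpowers c)
    show Subgroup.inclusion hCN ⟨c, hc⟩ ∈ Cfsg.piCore π' N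
    have : w = Subgroup.inclusion hCN ⟨c, hc⟩ := Subtype.ext hwc
    exact this ▸ hw

theorem isPGroup_inv {X Y : Subgroup G} (h : Y ∈ Cfsg.invSubgroups X A {q}) : IsPGroup q Y :=
  IsPGroup.iff_card.mpr ⟨_, Nat.eq_prime_pow_of_unique_prime_dvd Nat.card_pos.ne' fun hr hd =>
    Set.mem_singleton_iff.mp (h.2.1 _ hr hd)⟩

theorem mem_inv {Y : Subgroup G} (hY : IsPGroup q Y) (hAY : A ≤ normalizer (Y : Set G)) :
    Y ∈ Cfsg.invSubgroups ⊤ A {q} :=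
  ⟨le_top, fun r hr hd => by
    obtain ⟨j, hj⟩ := IsPGroup.iff_card.mp hY
    exact Set.mem_singleton_iff.mpr ((Nat.prime_dvd_prime_iff_eq hr hqF.out).mp (hr.dvd_of_dvd_pow (hj ▸ hd))), hAY⟩

omit hqF in
theorem exists_max {Y : Subgroup G} (hY : Y ∈ Cfsg.invSubgroups ⊤ A {q}) :
    ∃ R ∈ Cfsg.maxInvSubgroups ⊤ A {q}, Y ≤ R := by
  obtain ⟨R, ⟨hR, hYR⟩, hmax⟩ :=
    (Set.toFinite {R | R ∈ Cfsg.invSubgroups ⊤ A {q} ∧ Y ≤ R}).exists_maximal ⟨Y, hY, le_rfl⟩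
  exact ⟨R, ⟨hR, fun R' hR' hle => le_antisymm (hmax ⟨hR', hYR.trans hle⟩ hle) hle⟩, hYR⟩

omit [Finite G] hqF in
theorem map_map_conj (k l : G) (Y : Subgroup G) :
    (Y.map (MulAut.conj k).toMonoidHom).map (MulAut.conj l).toMonoidHom = Y.map (MulAut.conj (l * k)).toMonoidHom := by
  rw [map_map]
  exact congrArg (fun f => Y.map f) (MonoidHom.ext fun y => by simp [mul_assoc])

omit [Finite G] hqF in
theorem map_conj_one (Y : Subgroup G) : Y.map (MulAut.conj (1 : G)).toMonoidHom = Y := by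
  ext y; simp [mem_map]

theorem conj_inv_mem {k : G} (hk : k ∈ centralizer (A : Set G)) {Y : Subgroup G}
    (hY : Y ∈ Cfsg.invSubgroups ⊤ A {q}) : Y.map (MulAut.conj k).toMonoidHom ∈ Cfsg.invSubgroups ⊤ A {q} := by
  refine mem_inv ((isPGroup_inv hY).map _) fun a ha => ?_
  rw [← CfsgLib.Core.conj_smul_eq_self_iff, CfsgLib.Core.conj_smul_eq_map, map_map]
  conv_rhs => rw [← (CfsgLib.Core.conj_smul_eq_self_iff.mpr (hY.2.2 ha) : MulAut.conj a • Y = Y),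
    CfsgLib.Core.conj_smul_eq_map, map_map]
  refine congrArg (fun f => Y.map f) (MonoidHom.ext fun y => ?_)
  show a * (k * y * k⁻¹) * a⁻¹ = k * (a * y * a⁻¹) * k⁻¹
  have e2 : a * k = k * a := mem_centralizer_iff.mp hk a ha
  calc a * (k * y * k⁻¹) * a⁻¹ = (a * k) * y * (a * k)⁻¹ := by group
    _ = (k * a) * y * (k * a)⁻¹ := by rw [e2]
    _ = _ := by group

theorem conj_max_mem {k : G} (hk : k ∈ centralizer (A : Set G)) {Y : Subgroup G}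
    (hY : Y ∈ Cfsg.maxInvSubgroups ⊤ A {q}) : Y.map (MulAut.conj k).toMonoidHom ∈ Cfsg.maxInvSubgroups ⊤ A {q} := by
  refine ⟨conj_inv_mem hk hY.1, fun R hR hle => ?_⟩
  have h1 := hY.2 _ (conj_inv_mem (inv_mem hk) hR) (by
    have := map_mono (f := (MulAut.conj k⁻¹).toMonoidHom) hle
    rwa [map_map_conj, inv_mul_cancel, map_conj_one] at this)
  rw [← h1, map_map_conj, mul_inv_cancel, map_conj_one]

/-- Two invariant `q`-subgroups of a proper overgroup of `A` lie in invariant Sylow subgroups conjugate under the fixed core. -/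
theorem glue (hG : Cfsg.IsMinimalSimple G) (hA : Cfsg.TransitivityHypothesis A) (hqA : ¬ q ∣ Nat.card A)
    {X : Subgroup G} (hX : X ≠ ⊤) (hAX : A ≤ X) {U₁ U₂ : Subgroup G}
    (h₁ : U₁ ∈ Cfsg.invSubgroups ⊤ A {q}) (h₂ : U₂ ∈ Cfsg.invSubgroups ⊤ A {q}) (hU₁ : U₁ ≤ X) (hU₂ : U₂ ≤ X) :
    ∃ c ∈ Cfsg.piCoreOf π' (centralizer (A : Set G)), ∃ S₁ S₂ : Subgroup G,
      S₁ ∈ Cfsg.invSubgroups ⊤ A {q} ∧ S₂ ∈ Cfsg.invSubgroups ⊤ A {q} ∧ U₁ ≤ S₁ ∧ U₂ ≤ S₂ ∧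
      S₂ = S₁.map (MulAut.conj c).toMonoidHom := by
  set W := Cfsg.piCoreOf π' X with hW
  have hπq : ∀ {U : Subgroup G}, U ∈ Cfsg.invSubgroups ⊤ A {q} → ∀ r : ℕ, r.Prime → r ∣ Nat.card U → r ∈ π' :=
    fun {U} hU r hr hd => by
      rw [Set.mem_singleton_iff.mp (hU.2.1 r hr hd)]; exact ⟨hqF.out, hqA⟩
  have hW1 := le_core hA hX hAX hU₁ (hπq h₁) h₁.2.2
  have hW2 := le_core hA hX hAX hU₂ (hπq h₂) h₂.2.2
  have hcop : (Nat.card A).Coprime (Nat.card W) := coprime_of_pi (card_piCoreOf π' X)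
  have hAW : A ≤ normalizer (W : Set G) := by
    intro a ha
    rw [mem_normalizer_iff]
    intro y
    constructor
    · rintro ⟨w, hw, rfl⟩
      exact ⟨⟨a, hAX ha⟩ * w * ⟨a, hAX ha⟩⁻¹, (Cfsg.piCore_normal π' X).conj_mem w hw _, rfl⟩
    · rintro ⟨w, hw, hwy⟩
      refine ⟨⟨a, hAX ha⟩⁻¹ * w * ⟨a, hAX ha⟩,
        by simpa using (Cfsg.piCore_normal π' X).conj_mem w hw ⟨a, hAX ha⟩⁻¹, ?_⟩
      show a⁻¹ * (w : G) * a = y
      rw [show (w : G) = a * y * a⁻¹ from hwy]; group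
  have hs : Group.IsSolvable A ∨ Group.IsSolvable W := Or.inl (hG.2.2 A hA.2.1)
  obtain ⟨S1, hS1, hS1A⟩ := CfsgLib.Core.exists_invariant_sylow_ge q hAW hcop hs hW1 (isPGroup_inv h₁) h₁.2.2
  obtain ⟨S2, hS2, hS2A⟩ := CfsgLib.Core.exists_invariant_sylow_ge q hAW hcop hs hW2 (isPGroup_inv h₂) h₂.2.2
  obtain ⟨c, hc, hcS⟩ := (CfsgLib.Core.exists_invariant_sylow_aux q hAW hcop hs).2 _ _
    (CfsgLib.Core.isHallIn_singleton_iff_exists_sylow.mpr ⟨S1, rfl⟩) hS1A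
    (CfsgLib.Core.isHallIn_singleton_iff_exists_sylow.mpr ⟨S2, rfl⟩) hS2A
  refine ⟨c, fixed_mem hG hA hc.2 (fun r hr hd => card_piCoreOf π' X r hr
    (hd.trans (Subgroup.orderOf_dvd_natCard W hc.1))), _, _, mem_inv (S1.2.map W.subtype) hS1A,
    mem_inv (S2.2.map W.subtype) hS2A, hS1, hS2, ?_⟩
  rw [← hcS, CfsgLib.Core.conj_smul_eq_map]

/-- Maximal invariant subgroups with a nontrivial intersection are conjugate. -/
theorem conj_of_inter (hG : Cfsg.IsMinimalSimple G) (hA : Cfsg.TransitivityHypothesis A) (hqA : ¬ q ∣ Nat.card A) :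
    ∀ (n : ℕ), ∀ Q₁ ∈ Cfsg.maxInvSubgroups ⊤ A {q}, ∀ Q₂ ∈ Cfsg.maxInvSubgroups ⊤ A {q},
      Nat.card G - Nat.card ↥(Q₁ ⊓ Q₂) ≤ n → Q₁ ⊓ Q₂ ≠ ⊥ →
      ∃ k ∈ Cfsg.piCoreOf π' (centralizer (A : Set G)), Q₂ = Q₁.map (MulAut.conj k).toMonoidHom := by
  intro n
  induction n using Nat.strong_induction_on with
  | _ n ih =>
  intro Q₁ h₁ Q₂ h₂ hn hne
  set K := Cfsg.piCoreOf π' (centralizer (A : Set G))
  by_cases heq : Q₁ = Q₂
  · exact ⟨1, K.one_mem, by rw [map_conj_one, heq]⟩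
  set D := Q₁ ⊓ Q₂ with hDd
  have hD1 : D ≠ Q₁ := fun h => heq (h₁.2 Q₂ h₂.1 (h ▸ inf_le_right)).symm
  have hD2 : D ≠ Q₂ := fun h => heq (h₂.2 Q₁ h₁.1 (h ▸ inf_le_left))
  have hDA : A ≤ normalizer (D : Set G) := CfsgLib.Core.le_normalizer_inf h₁.1.2.2 h₂.1.2.2
  have hDtop : D ≠ ⊤ := fun h => heq ((top_le_iff.mp (h ▸ inf_le_left : (⊤ : Subgroup G) ≤ Q₁)).trans
    (top_le_iff.mp (h ▸ inf_le_right : (⊤ : Subgroup G) ≤ Q₂)).symm)
  have hNtop := normalizer_ne_top hG hne hDtop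
  have hgrow : ∀ Q ∈ Cfsg.maxInvSubgroups ⊤ A {q}, D ≤ Q → D ≠ Q →
      D < Q ⊓ normalizer (D : Set G) ∧ Q ⊓ normalizer (D : Set G) ∈ Cfsg.invSubgroups ⊤ A {q} := by
    intro Q hQ hDQ hDne
    refine ⟨lt_of_le_of_ne (le_inf hDQ le_normalizer) fun e => ?_,
      mem_inv ((isPGroup_inv hQ.1).to_le inf_le_left)
        (CfsgLib.Core.le_normalizer_inf hQ.1.2.2 (hDA.trans le_normalizer))⟩
    haveI := (isPGroup_inv hQ.1).isNilpotent
    have hlt : D.subgroupOf Q < ⊤ := lt_top_iff_ne_top.mpr fun h => hDne (le_antisymm hDQ (subgroupOf_eq_top.mp h))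
    obtain ⟨x, hx1, hx2⟩ := SetLike.exists_of_lt (Group.normalizerCondition_of_isNilpotent (G := Q) (D.subgroupOf Q) hlt)
    refine hx2 (e.ge ⟨x.2, ?_⟩)
    rw [← Subgroup.subgroupOf_normalizer_eq hDQ] at hx1
    exact hx1
  obtain ⟨hl1, hi1⟩ := hgrow Q₁ h₁ inf_le_left hD1
  obtain ⟨hl2, hi2⟩ := hgrow Q₂ h₂ inf_le_right hD2
  obtain ⟨c, hc, S1, S2, hS1, hS2, hU1, hU2, hcS⟩ :=
    glue hG hA hqA hNtop hDA hi1 hi2 inf_le_right inf_le_right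
  obtain ⟨R1, hR1, hSR1⟩ := exists_max hS1
  obtain ⟨R2, hR2, hSR2⟩ := exists_max hS2
  have hstep : ∀ X Y : Subgroup G, X ∈ Cfsg.maxInvSubgroups ⊤ A {q} → Y ∈ Cfsg.maxInvSubgroups ⊤ A {q} →
      D < X ⊓ Y → ∃ k ∈ K, Y = X.map (MulAut.conj k).toMonoidHom := by
    intro X Y hX hY hlt
    have h3 : Nat.card D < Nat.card ↥(X ⊓ Y) :=
      lt_of_le_of_ne (Nat.le_of_dvd Nat.card_pos (card_dvd_of_le hlt.le))
        fun e => hlt.ne (CfsgLib.Core.eq_of_le_of_card_le hlt.le e.ge)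
    have h4 : Nat.card ↥(X ⊓ Y) ≤ Nat.card G := Nat.le_of_dvd Nat.card_pos (card_subgroup_dvd_card _)
    exact ih (Nat.card G - Nat.card ↥(X ⊓ Y)) (by omega) X hX Y hY le_rfl (fun h => by
      rw [h] at hlt; exact not_lt_bot hlt)
  obtain ⟨k1, hk1, e1⟩ := hstep Q₁ R1 h₁ hR1 (hl1.trans_le (le_inf inf_le_left (hU1.trans hSR1)))
  obtain ⟨k2, hk2, e2⟩ := hstep Q₂ R2 h₂ hR2 (hl2.trans_le (le_inf inf_le_left (hU2.trans hSR2)))
  obtain ⟨k3, hk3, e3⟩ := hstep (R1.map (MulAut.conj c).toMonoidHom) R2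
    (conj_max_mem (map_subtype_le _ hc) hR1) hR2
    ((hl2.trans_le hU2).trans_le (le_inf (by rw [hcS]; exact map_mono hSR1) hSR2))
  refine ⟨k2⁻¹ * (k3 * (c * k1)), K.mul_mem (K.inv_mem hk2) (K.mul_mem hk3 (K.mul_mem hc hk1)), ?_⟩
  have : Q₂ = R2.map (MulAut.conj k2⁻¹).toMonoidHom := by rw [e2, map_map_conj, inv_mul_cancel, map_conj_one]
  rw [this, e3, e1, map_map_conj, map_map_conj, map_map_conj]
  simp only [mul_assoc]

/-- Meeting a proper overgroup of `A` nontrivially is enough. -/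
theorem conj_of_overgroup (hG : Cfsg.IsMinimalSimple G) (hA : Cfsg.TransitivityHypothesis A) (hqA : ¬ q ∣ Nat.card A)
    {Q₁ Q₂ : Subgroup G} (h₁ : Q₁ ∈ Cfsg.maxInvSubgroups ⊤ A {q}) (h₂ : Q₂ ∈ Cfsg.maxInvSubgroups ⊤ A {q})
    {H : Subgroup G} (hH : H ≠ ⊤) (hAH : A ≤ H) (hH₁ : H ⊓ Q₁ ≠ ⊥) (hH₂ : H ⊓ Q₂ ≠ ⊥) :
    ∃ k ∈ Cfsg.piCoreOf π' (centralizer (A : Set G)), Q₂ = Q₁.map (MulAut.conj k).toMonoidHom := by
  set K := Cfsg.piCoreOf π' (centralizer (A : Set G))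
  have hi : ∀ Q ∈ Cfsg.maxInvSubgroups ⊤ A {q}, H ⊓ Q ∈ Cfsg.invSubgroups ⊤ A {q} := fun Q hQ =>
    mem_inv ((isPGroup_inv hQ.1).to_le inf_le_right)
      (CfsgLib.Core.le_normalizer_inf (hAH.trans le_normalizer) hQ.1.2.2)
  obtain ⟨c, hc, S1, S2, hS1, hS2, hU1, hU2, hcS⟩ :=
    glue hG hA hqA hH hAH (hi _ h₁) (hi _ h₂) inf_le_left inf_le_left
  obtain ⟨R1, hR1, hSR1⟩ := exists_max hS1
  obtain ⟨R2, hR2, hSR2⟩ := exists_max hS2
  have ne : ∀ {U X : Subgroup G}, U ≠ ⊥ → U ≤ X → X ≠ ⊥ := fun {U X} h hle e => h (le_bot_iff.mp (e ▸ hle))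
  obtain ⟨k1, hk1, e1⟩ := conj_of_inter hG hA hqA _ Q₁ h₁ R1 hR1 le_rfl
    (ne hH₁ (le_inf inf_le_right (hU1.trans hSR1)))
  obtain ⟨k2, hk2, e2⟩ := conj_of_inter hG hA hqA _ Q₂ h₂ R2 hR2 le_rfl
    (ne hH₂ (le_inf inf_le_right (hU2.trans hSR2)))
  obtain ⟨k3, hk3, e3⟩ := conj_of_inter hG hA hqA _ _ (conj_max_mem (map_subtype_le _ hc) hR1) R2 hR2 le_rfl
    (ne hH₂ (le_trans hU2 (le_inf (by rw [hcS]; exact map_mono hSR1) hSR2)))
  refine ⟨k2⁻¹ * (k3 * (c * k1)), K.mul_mem (K.inv_mem hk2) (K.mul_mem hk3 (K.mul_mem hc hk1)), ?_⟩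
  have : Q₂ = R2.map (MulAut.conj k2⁻¹).toMonoidHom := by rw [e2, map_map_conj, inv_mul_cancel, map_conj_one]
  rw [this, e3, e1, map_map_conj, map_map_conj, map_map_conj]
  simp only [mul_assoc]

omit [Finite G] hqF in
theorem exists_central {k : ℕ} (hZ : ¬ Cfsg.RankLE k ↥(A ⊓ centralizer (A : Set G))) :
    ∃ p : ℕ, p.Prime ∧ ∃ E : Subgroup G, E ≤ A ∧ A ≤ centralizer (E : Set G) ∧ IsMulCommutative E ∧
      (∀ a ∈ E, a ^ p = 1) ∧ p ^ k < Nat.card E := by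
  unfold Cfsg.RankLE Cfsg.PRankLE at hZ
  push Not at hZ
  obtain ⟨p, hp, E, hE, hEp, hEc⟩ := hZ
  refine ⟨p, hp, E.map (A ⊓ centralizer (A : Set G)).subtype, (map_subtype_le _).trans inf_le_left,
    le_centralizer_iff.mp ((map_subtype_le _).trans inf_le_right), inferInstance, ?_, ?_⟩
  · rintro _ ⟨a, ha, rfl⟩
    rw [← map_pow, hEp a ha, map_one]
  · rwa [card_map_of_injective (Subgroup.subtype_injective _)]

theorem not_cyclic_of_exponent {p : ℕ} (hp : p.Prime) {E : Subgroup G} (hEp : ∀ a ∈ E, a ^ p = 1)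
    (hE : p < Nat.card E) : ¬ IsCyclic E := by
  intro h
  obtain ⟨g, hg⟩ := h.exists_generator
  have h1 := orderOf_eq_card_of_forall_mem_zpowers hg
  have h2 : orderOf g ∣ p := orderOf_dvd_of_pow_eq_one (Subtype.ext (hEp g g.2))
  have := Nat.le_of_dvd hp.pos h2
  omega

/-- The common situation: a central element fixing nontrivial parts of both. -/
theorem conj_of_central (hG : Cfsg.IsMinimalSimple G) (hA : Cfsg.TransitivityHypothesis A) (hqA : ¬ q ∣ Nat.card A)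
    {Q₁ Q₂ : Subgroup G} (h₁ : Q₁ ∈ Cfsg.maxInvSubgroups ⊤ A {q}) (h₂ : Q₂ ∈ Cfsg.maxInvSubgroups ⊤ A {q})
    {e : G} (he : e ≠ 1) (heA : A ≤ centralizer ({e} : Set G))
    (hH₁ : centralizer ({e} : Set G) ⊓ Q₁ ≠ ⊥) (hH₂ : centralizer ({e} : Set G) ⊓ Q₂ ≠ ⊥) :
    ∃ k ∈ Cfsg.piCoreOf π' (centralizer (A : Set G)), Q₂ = Q₁.map (MulAut.conj k).toMonoidHom :=
  conj_of_overgroup hG hA hqA h₁ h₂ (centralizer_ne_top hG he) heA hH₁ hH₂

omit hqF in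
theorem coprime_inv (hqA : ¬ q ∣ Nat.card A) {E Q : Subgroup G} (hE : E ≤ A)
    (hQ : Q ∈ Cfsg.invSubgroups ⊤ A {q}) : (Nat.card E).Coprime (Nat.card Q) :=
  Nat.coprime_of_dvd' fun r hr h1 h2 => absurd (h1.trans (card_dvd_of_le hE))
    (Set.mem_singleton_iff.mp (hQ.2.1 r hr h2) ▸ hqA)

theorem rank_three (hG : Cfsg.IsMinimalSimple G) (hA : Cfsg.TransitivityHypothesis A) (hqA : ¬ q ∣ Nat.card A)
    (hZ : ¬ Cfsg.RankLE 2 ↥(A ⊓ centralizer (A : Set G))) :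
    ∀ Q₁ ∈ Cfsg.maxInvSubgroups ⊤ A {q}, ∀ Q₂ ∈ Cfsg.maxInvSubgroups ⊤ A {q},
      ∃ k ∈ Cfsg.piCoreOf π' (centralizer (A : Set G)), Q₂ = Q₁.map (MulAut.conj k).toMonoidHom := by
  intro Q₁ h₁ Q₂ h₂
  by_cases heq : Q₁ = Q₂
  · exact ⟨1, one_mem _, by rw [map_conj_one, heq]⟩
  obtain ⟨p, hp, E, hEA, hAE, hEc, hEx, hEcard⟩ := exists_central hZ
  haveI := hEc
  have hne : ∀ Q Q' : Subgroup G, Q ∈ Cfsg.maxInvSubgroups ⊤ A {q} → Q' ∈ Cfsg.maxInvSubgroups ⊤ A {q} → Q ≠ Q' → Q ≠ ⊥ :=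
    fun Q Q' hQ hQ' hd e => hd (hQ.2 Q' hQ'.1 (e ▸ bot_le)).symm
  have hB : ∀ Q ∈ Cfsg.maxInvSubgroups ⊤ A {q}, Q ≠ ⊥ →
      ∃ B : Subgroup G, B ≤ E ∧ Nat.card E ≤ Nat.card B * p ∧ Q ⊓ centralizer (B : Set G) ≠ ⊥ := by
    intro Q hQ hQ0
    by_contra hno
    push Not at hno
    apply hQ0
    rw [← CfsgLib.Core.generated_by_cocyclic (hEA.trans hQ.1.2.2) (coprime_inv hqA hEA hQ.1), eq_bot_iff]
    refine iSup₂_le fun B hB => (hno B hB.1 ?_).le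
    obtain ⟨hBE, a, ha, hBa⟩ := hB
    have hnb : zpowers a ≤ normalizer (B : Set G) :=
      zpowers_le.mpr (CfsgLib.Core.centralizer_le_normalizer B
        (mem_centralizer_iff.mpr fun b hb => congrArg Subtype.val (hEc.is_comm.comm (⟨b, hBE hb⟩ : E) ⟨a, ha⟩)))
    rw [← hBa, sup_comm, mul_comm]
    refine (Nat.le_of_dvd (Nat.mul_pos Nat.card_pos Nat.card_pos) (CfsgLib.Core.card_sup_dvd_mul hnb)).trans
      (Nat.mul_le_mul_right _ ?_)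
    rw [Nat.card_zpowers]
    exact Nat.le_of_dvd hp.pos (orderOf_dvd_of_pow_eq_one (hEx a ha))
  obtain ⟨B1, hB1, hc1, hn1⟩ := hB Q₁ h₁ (hne _ _ h₁ h₂ heq)
  obtain ⟨B2, hB2, hc2, hn2⟩ := hB Q₂ h₂ (hne _ _ h₂ h₁ (Ne.symm heq))
  obtain ⟨e, he, he1⟩ : ∃ x ∈ B1 ⊓ B2, x ≠ 1 := by
    by_contra hcon
    push Not at hcon
    have hbot : B1 ⊓ B2 = ⊥ := (eq_bot_iff_forall _).mpr hcon
    have h4 := CfsgLib.Core.card_mul_relIndex hB1
    have h3 : B1.relIndex E ≤ p := by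
      by_contra h6
      have : Nat.card B1 * p < Nat.card B1 * B1.relIndex E := Nat.mul_lt_mul_of_pos_left (not_le.mp h6) Nat.card_pos
      omega
    have h7 : Nat.card B2 ≤ p := by
      rw [← relIndex_bot_left, ← hbot, inf_relIndex_right]
      exact (Subgroup.relIndex_le_of_le_right hB2 (by
        intro h0
        rw [h0, mul_zero] at h4
        exact Nat.card_pos.ne' h4.symm)).trans h3
    have : Nat.card B2 * p ≤ p * p := Nat.mul_le_mul_right p h7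
    rw [sq] at hEcard
    omega
  have hmono : ∀ {B Q : Subgroup G}, e ∈ B → Q ⊓ centralizer (B : Set G) ≠ ⊥ → centralizer ({e} : Set G) ⊓ Q ≠ ⊥ :=
    fun {B Q} hb hn h => hn (le_bot_iff.mp (h ▸ le_inf (inf_le_right.trans (centralizer_le (Set.singleton_subset_iff.mpr hb))) inf_le_left))
  exact conj_of_central hG hA hqA h₁ h₂ he1
    (hAE.trans (centralizer_le (Set.singleton_subset_iff.mpr (hB1 he.1)))) (hmono he.1 hn1) (hmono he.2 hn2)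

theorem rank_two (hG : Cfsg.IsMinimalSimple G) (hA : Cfsg.TransitivityHypothesis A) (hqA : ¬ q ∣ Nat.card A)
    (hZ : ¬ Cfsg.RankLE 1 ↥(A ⊓ centralizer (A : Set G))) (hqC : q ∣ Nat.card (centralizer (A : Set G))) :
    ∀ Q₁ ∈ Cfsg.maxInvSubgroups ⊤ A {q}, ∀ Q₂ ∈ Cfsg.maxInvSubgroups ⊤ A {q},
      ∃ k ∈ Cfsg.piCoreOf π' (centralizer (A : Set G)), Q₂ = Q₁.map (MulAut.conj k).toMonoidHom := by
  obtain ⟨p, hp, E, hEA, hAE, hEc, hEx, hEcard⟩ := exists_central hZ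
  haveI := hEc
  rw [pow_one] at hEcard
  obtain ⟨⟨c, hc⟩, hco⟩ := exists_prime_orderOf_dvd_card' q hqC
  rw [Subgroup.orderOf_mk] at hco
  have hci : zpowers c ∈ Cfsg.invSubgroups ⊤ A {q} := by
    refine mem_inv (IsPGroup.of_card (n := 1) (by rw [Nat.card_zpowers, hco, pow_one])) fun a ha => ?_
    refine CfsgLib.Core.centralizer_le_normalizer _ (mem_centralizer_iff.mpr ?_)
    rintro _ ⟨i, rfl⟩
    exact (Commute.zpow_left (mem_centralizer_iff.mp hc a ha : Commute a c).symm i).eq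
  obtain ⟨Q0, hQ0, hcQ0⟩ := exists_max hci
  have hc1 : c ≠ 1 := fun h => hqF.out.ne_one (by rw [← hco, h, orderOf_one])
  have key : ∀ Q ∈ Cfsg.maxInvSubgroups ⊤ A {q},
      ∃ k ∈ Cfsg.piCoreOf π' (centralizer (A : Set G)), Q = Q0.map (MulAut.conj k).toMonoidHom := by
    intro Q hQ
    have hQne : Q ≠ ⊥ := fun h => hc1 (zpowers_eq_bot.mp (le_bot_iff.mp (h ▸ (hQ.2 _ hci (h ▸ bot_le)).le)))
    obtain ⟨e, he, hen⟩ : ∃ e, (e ∈ E ∧ e ≠ 1) ∧ Q ⊓ centralizer ({e} : Set G) ≠ ⊥ := by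
      by_contra hno
      push Not at hno
      apply hQne
      rw [← CfsgLib.Core.generated_by_centralizers (not_cyclic_of_exponent hp hEx hEcard)
        (hEA.trans hQ.1.2.2) (coprime_inv hqA hEA hQ.1), eq_bot_iff]
      exact iSup₂_le fun a ha => (hno a ha).le
    refine conj_of_central hG hA hqA hQ0 hQ he.2 (hAE.trans (centralizer_le (Set.singleton_subset_iff.mpr he.1)))
      ?_ (by rwa [inf_comm])
    intro h
    refine hc1 (mem_bot.mp (h ▸ ⟨mem_centralizer_singleton_iff.mpr ?_, hcQ0 (mem_zpowers c)⟩))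
    exact (mem_centralizer_iff.mp hc e (hEA he.1)).symm
  intro Q₁ h₁ Q₂ h₂
  obtain ⟨k1, hk1, e1⟩ := key Q₁ h₁
  obtain ⟨k2, hk2, e2⟩ := key Q₂ h₂
  exact ⟨k2 * k1⁻¹, mul_mem hk2 (inv_mem hk1), by
    rw [e1, map_map_conj, mul_assoc, inv_mul_cancel, mul_one, e2]⟩

end CfsgLib.TransOdd
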