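import Mathlib.GroupTheory.Abelianization.Defs
import Mathlib.GroupTheory.IsSubnormal
import Cfsg.Agent.Lib.CoreSZ
import Cfsg.Agent.Lib.FgsTransitivityOdd

/-!
Ascending the transitivity along a subnormal chain.
-/

set_option autoImplicit false

namespace CfsgLib.TransSubnormal

open scoped commutatorElement Pointwise
open Subgroup

universe u
variable {G : Type u} [Group G]

theorem characteristic_piCore (π : Set ℕ) {H : Type u} [Group H] : (Cfsg.piCore π H).Characteristic := by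
  refine Subgroup.characteristic_iff_map_le.mpr fun e => ?_
  conv_lhs => rw [Cfsg.piCore, sSup_eq_iSup', Subgroup.map_iSup]
  exact iSup_le fun ⟨N, hN, hn⟩ => le_sSup ⟨hN.map e.toMonoidHom e.surjective, fun r hr hd =>
    hn r hr (hd.trans (N.card_map_dvd e.toMonoidHom))⟩

theorem normalizer_le_piCoreOf (π : Set ℕ) (X : Subgroup G) :
    normalizer (X : Set G) ≤ normalizer ((Cfsg.piCoreOf π X : Subgroup G) : Set G) := by
  intro n hn
  haveI := characteristic_piCore (H := X) π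
  haveI : X.subgroupOf (normalizer (X : Set G)) |>.Normal := by
    rw [normal_subgroupOf_iff_le_normalizer le_normalizer]
  let e : X ≃* X :=
    { toFun := fun x => ⟨n * x * n⁻¹, (mem_normalizer_iff.mp hn x).mp x.2⟩
      invFun := fun x => ⟨n⁻¹ * x * n, by
        have := (mem_normalizer_iff.mp ((normalizer (X : Set G)).inv_mem hn) x).mp x.2
        simpa using this⟩
      left_inv := fun x => Subtype.ext (by group)
      right_inv := fun x => Subtype.ext (by group)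
      map_mul' := fun a b => Subtype.ext (by simp [mul_assoc]) }
  have hmap : (Cfsg.piCore π X).map e.toMonoidHom = Cfsg.piCore π X :=
    Subgroup.characteristic_iff_map_eq.mp inferInstance e
  rw [mem_normalizer_iff]
  intro y
  constructor
  · rintro ⟨w, hw, rfl⟩
    exact ⟨e w, hmap.le ⟨w, hw, rfl⟩, rfl⟩
  · rintro ⟨w, hw, hwy⟩
    obtain ⟨v, hv, rfl⟩ := hmap.ge hw
    refine ⟨v, hv, ?_⟩
    exact mul_left_cancel (mul_right_cancel (show n * (v : G) * n⁻¹ = n * y * n⁻¹ from hwy))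

variable [Finite G]

/-- Coprime action on a transitive family of subgroups. -/
theorem fixed_conj {B K : Subgroup G} (hBK : B ≤ normalizer (K : Set G))
    (hcop : (Nat.card B).Coprime (Nat.card K)) (hs : Group.IsSolvable B ∨ Group.IsSolvable K)
    (Ω : Set (Subgroup G)) (hne : Ω.Nonempty)
    (hK : ∀ k ∈ K, ∀ R ∈ Ω, R.map (MulAut.conj k).toMonoidHom ∈ Ω)
    (hB : ∀ b ∈ B, ∀ R ∈ Ω, R.map (MulAut.conj b).toMonoidHom ∈ Ω)
    (htr : ∀ R₁ ∈ Ω, ∀ R₂ ∈ Ω, ∃ k ∈ K, R₂ = R₁.map (MulAut.conj k).toMonoidHom) :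
    (∃ R ∈ Ω, B ≤ normalizer (R : Set G)) ∧
      ∀ R₁ ∈ Ω, ∀ R₂ ∈ Ω, B ≤ normalizer (R₁ : Set G) → B ≤ normalizer (R₂ : Set G) →
        ∃ k ∈ K ⊓ centralizer (B : Set G), R₂ = R₁.map (MulAut.conj k).toMonoidHom := by
  have hd : B ⊓ K = ⊥ := CfsgLib.Core.inf_eq_bot_of_coprime hcop
  have hnorm : ∀ (g : G) (R : Subgroup G), g ∈ normalizer (R : Set G) ↔ R.map (MulAut.conj g).toMonoidHom = R :=
    fun g R => by rw [← CfsgLib.Core.conj_smul_eq_self_iff, CfsgLib.Core.conj_smul_eq_map]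
  constructor
  · obtain ⟨R0, hR0⟩ := hne
    set N := normalizer (R0 : Set G) with hN
    set T := (B ⊔ K) ⊓ N with hT
    set Nn := K ⊓ N with hNn
    have hNT : Nn ≤ T := le_inf (inf_le_left.trans le_sup_right) inf_le_right
    have hTn : T ≤ normalizer (Nn : Set G) :=
      CfsgLib.Core.le_normalizer_inf (inf_le_left.trans (sup_le hBK le_normalizer)) (inf_le_right.trans le_normalizer)
    have hTK : T ⊔ K = B ⊔ K := by
      refine le_antisymm (sup_le inf_le_left le_sup_right) (sup_le ?_ le_sup_right)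
      intro b hb
      obtain ⟨k, hk, hke⟩ := htr R0 hR0 _ (hB b hb R0 hR0)
      have : k⁻¹ * b ∈ T := ⟨mul_mem ((B ⊔ K).inv_mem (mem_sup_right hk)) (mem_sup_left hb), (hnorm _ _).mpr (by
        rw [← CfsgLib.TransOdd.map_map_conj b k⁻¹, hke, CfsgLib.TransOdd.map_map_conj, inv_mul_cancel,
          CfsgLib.TransOdd.map_conj_one])⟩
      simpa using mul_mem (mem_sup_right (S := T) hk) (mem_sup_left (T := K) this)
    have hidx : Nn.relIndex T = Nat.card B := by
      have h1 : Nn.relIndex T = K.relIndex T := by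
        rw [← inf_relIndex_right K T, show Nn = K ⊓ T by
          rw [hT, ← inf_assoc, inf_eq_left.mpr (le_sup_right : K ≤ B ⊔ K)]]
      have h2 : K.relIndex (B ⊔ K) = Nat.card B := by
        have := CfsgLib.Core.card_mul_relIndex (le_sup_right : K ≤ B ⊔ K)
        have h3 := CfsgLib.Core.card_sup_mul_card_inf hBK
        rw [hd, card_bot, mul_one, ← this, mul_comm] at h3
        exact Nat.eq_of_mul_eq_mul_right Nat.card_pos h3
      rw [h1, ← h2, ← hTK]
      have h4 : T ≤ normalizer (K : Set G) := inf_le_left.trans (sup_le hBK le_normalizer)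
      have h5 := CfsgLib.Core.card_mul_relIndex (le_sup_right : K ≤ T ⊔ K)
      have h6 := CfsgLib.Core.card_sup_mul_card_inf h4
      have h7 := CfsgLib.Core.card_mul_relIndex (inf_le_left : T ⊓ K ≤ T)
      rw [inf_comm, inf_relIndex_right] at h7
      have h8 : Nat.card ↥(T ⊓ K) * (Nat.card K * K.relIndex (T ⊔ K)) = Nat.card ↥(T ⊓ K) * (Nat.card K * K.relIndex T) := by
        rw [h5, inf_comm T K]
        rw [inf_comm T K] at h6
        calc Nat.card ↥(K ⊓ T) * Nat.card ↥(T ⊔ K) = Nat.card T * Nat.card K := by rw [← h6, mul_comm]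
          _ = (Nat.card ↥(K ⊓ T) * K.relIndex T) * Nat.card K := by rw [h7]
          _ = _ := by ring
      exact (Nat.eq_of_mul_eq_mul_left Nat.card_pos (Nat.eq_of_mul_eq_mul_left Nat.card_pos h8)).symm
    obtain ⟨B', hB'T, -, -, hcard⟩ := CfsgLib.Core.exists_complement_in hNT hTn
      (by rw [hidx]; exact (hcop.coprime_dvd_right (card_dvd_of_le inf_le_left)).symm)
    obtain ⟨k, hk, hkB⟩ := CfsgLib.Core.exists_conj_eq_of_coprime hBK hcop hs (hB'T.trans inf_le_left)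
      (hcard.trans hidx)
    refine ⟨R0.map (MulAut.conj k⁻¹).toMonoidHom, hK _ (inv_mem hk) R0 hR0, fun b hb => (hnorm _ _).mpr ?_⟩
    have hbT : k * b * k⁻¹ ∈ N := (hB'T (hkB ▸ CfsgLib.Core.mem_conj_smul.mpr (by simpa [mul_assoc] using hb))).2
    conv_rhs => rw [← (hnorm _ _).mp hbT]
    rw [CfsgLib.TransOdd.map_map_conj, CfsgLib.TransOdd.map_map_conj]
    simp [mul_assoc]
  · intro R₁ h₁ R₂ h₂ hb₁ hb₂
    obtain ⟨k, hk, hke⟩ := htr R₁ h₁ R₂ h₂
    set Nn := K ⊓ normalizer (R₁ : Set G)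
    have hB2 : MulAut.conj k⁻¹ • B ≤ B ⊔ Nn := by
      intro x hx
      have hb : k * x * k⁻¹ ∈ B := by simpa using CfsgLib.Core.mem_conj_smul.mp hx
      set b := k * x * k⁻¹ with hbd
      have hxN : x ∈ normalizer (R₁ : Set G) := (hnorm _ _).mpr (by
        have e := (hnorm _ _).mp (hb₂ hb)
        rw [hke, CfsgLib.TransOdd.map_map_conj] at e
        have e2 := congrArg (fun S => S.map (MulAut.conj k⁻¹).toMonoidHom) e
        simp only [CfsgLib.TransOdd.map_map_conj, inv_mul_cancel, CfsgLib.TransOdd.map_conj_one] at e2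
        rwa [show k⁻¹ * (b * k) = x by rw [hbd]; group] at e2)
      have hκ : b⁻¹ * x ∈ Nn := by
        refine ⟨?_, mul_mem ((normalizer (R₁ : Set G)).inv_mem (hb₁ hb)) hxN⟩
        have h1 : b⁻¹ * k⁻¹ * b ∈ K := by simpa using (mem_normalizer_iff.mp (hBK (inv_mem hb)) k⁻¹).mp (inv_mem hk)
        have := mul_mem h1 hk
        rwa [show b⁻¹ * k⁻¹ * b * k = b⁻¹ * x by rw [hbd]; group] at this
      simpa using mul_mem (mem_sup_left (T := Nn) hb) (mem_sup_right (S := B) hκ)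
    have hBN : B ≤ normalizer (Nn : Set G) :=
      CfsgLib.Core.le_normalizer_inf hBK (hb₁.trans le_normalizer)
    obtain ⟨m, hm, hmB⟩ := CfsgLib.Core.exists_conj_eq_of_coprime hBN
      (hcop.coprime_dvd_right (card_dvd_of_le inf_le_left)) (hs.imp_right (CfsgLib.Core.solvable_of_le inf_le_left)) hB2
      (CfsgLib.Core.card_conj_smul _ _)
    refine ⟨k * m, CfsgLib.Core.mem_inf_centralizer_of_normalizes hBK hd (mul_mem hk hm.1) ?_, ?_⟩
    · rw [← CfsgLib.Core.conj_smul_conj_smul, hmB, CfsgLib.Core.conj_smul_conj_smul, mul_inv_cancel,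
        CfsgLib.Core.conj_one_smul]
    · rw [← CfsgLib.TransOdd.map_map_conj, (hnorm _ _).mp hm.2, hke]

variable {A : Subgroup G} {q : ℕ} [hqF : Fact q.Prime]

local notation "π'" => Cfsg.primesNotDvd (Nat.card A)

theorem conj_inv_mem' {B : Subgroup G} {k : G} (hk : k ∈ normalizer (B : Set G)) {Y : Subgroup G}
    (hY : Y ∈ Cfsg.invSubgroups ⊤ B {q}) : Y.map (MulAut.conj k).toMonoidHom ∈ Cfsg.invSubgroups ⊤ B {q} := by
  refine CfsgLib.TransOdd.mem_inv ((CfsgLib.TransOdd.isPGroup_inv hY).map _) ?_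
  have h1 : B.map (MulAut.conj k).toMonoidHom = B := by
    rw [← CfsgLib.Core.conj_smul_eq_map, CfsgLib.Core.conj_smul_eq_self_iff]; exact hk
  rw [← h1]
  exact (map_mono hY.2.2).trans (le_normalizer_map _)

theorem conj_max_mem' {B : Subgroup G} {k : G} (hk : k ∈ normalizer (B : Set G)) {Y : Subgroup G}
    (hY : Y ∈ Cfsg.maxInvSubgroups ⊤ B {q}) : Y.map (MulAut.conj k).toMonoidHom ∈ Cfsg.maxInvSubgroups ⊤ B {q} := by
  refine ⟨conj_inv_mem' hk hY.1, fun R hR hle => ?_⟩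
  have h1 := hY.2 _ (conj_inv_mem' (inv_mem hk) hR) (by
    have := map_mono (f := (MulAut.conj k⁻¹).toMonoidHom) hle
    rwa [CfsgLib.TransOdd.map_map_conj, inv_mul_cancel, CfsgLib.TransOdd.map_conj_one] at this)
  rw [← h1, CfsgLib.TransOdd.map_map_conj, mul_inv_cancel, CfsgLib.TransOdd.map_conj_one]

omit hqF in
/-- The fixed core of an overgroup. -/
theorem core_eq (hG : Cfsg.IsMinimalSimple G) (hA : Cfsg.TransitivityHypothesis A) {B : Subgroup G} (hAB : A ≤ B) :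
    Cfsg.piCoreOf π' (centralizer (A : Set G)) ⊓ centralizer (B : Set G) = Cfsg.piCoreOf π' (centralizer (B : Set G)) := by
  set CB := centralizer (B : Set G)
  have hle : CB ≤ centralizer (A : Set G) := centralizer_le (SetLike.coe_subset_coe.mpr hAB)
  apply le_antisymm
  · set L := Cfsg.piCoreOf π' (centralizer (A : Set G)) ⊓ CB with hL
    have hn : CB ≤ normalizer (L : Set G) := CfsgLib.Core.le_normalizer_inf
      ((hle.trans le_normalizer).trans (normalizer_le_piCoreOf π' _)) le_normalizer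
    haveI : (L.subgroupOf CB).Normal := (normal_subgroupOf_iff_le_normalizer inf_le_right).mpr hn
    intro y hy
    refine ⟨⟨y, hy.2⟩, (le_sSup (show L.subgroupOf CB ∈ {M : Subgroup CB | M.Normal ∧
      ∀ r : ℕ, r.Prime → r ∣ Nat.card M → r ∈ π'} from ⟨inferInstance, fun r hr hd => ?_⟩)) hy, rfl⟩
    rw [Nat.card_congr (subgroupOfEquivOfLe (inf_le_right : L ≤ CB)).toEquiv] at hd
    exact CfsgLib.TransOdd.card_piCoreOf π' _ r hr (hd.trans (card_dvd_of_le inf_le_left))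
  · intro y hy
    have hyB : y ∈ CB := map_subtype_le _ hy
    exact ⟨CfsgLib.TransOdd.fixed_mem hG hA (hle hyB) fun r hr hd =>
      CfsgLib.TransOdd.card_piCoreOf π' _ r hr (hd.trans (Subgroup.orderOf_dvd_natCard _ hy)), hyB⟩

/-- The transitivity statement for an overgroup. -/
def Good (A : Subgroup G) (q : ℕ) (B : Subgroup G) : Prop :=
  A ≤ B ∧ Cfsg.maxInvSubgroups ⊤ B {q} ⊆ Cfsg.maxInvSubgroups ⊤ A {q} ∧
    ∀ Q₁ ∈ Cfsg.maxInvSubgroups ⊤ B {q}, ∀ Q₂ ∈ Cfsg.maxInvSubgroups ⊤ B {q},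
      ∃ k ∈ Cfsg.piCoreOf (Cfsg.primesNotDvd (Nat.card A)) (centralizer (B : Set G)),
        Q₂ = Q₁.map (MulAut.conj k).toMonoidHom

theorem good_step (hG : Cfsg.IsMinimalSimple G) (hA : Cfsg.TransitivityHypothesis A) (hqA : ¬ q ∣ Nat.card A)
    {B B' P : Subgroup G} (hP : P ≠ ⊤) (hPπ : ∀ r : ℕ, r.Prime → r ∣ Nat.card P → r ∣ Nat.card A)
    (hBB' : B ≤ B') (hB'P : B' ≤ P) (hn : B' ≤ normalizer (B : Set G)) (hg : Good A q B) : Good A q B' := by
  obtain ⟨hAB, hsub, htr⟩ := hg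
  set K := Cfsg.piCoreOf π' (centralizer (B : Set G)) with hK
  have hBK : B' ≤ normalizer (K : Set G) :=
    (hn.trans (CfsgLib.Core.le_normalizer_centralizer le_rfl)).trans (normalizer_le_piCoreOf π' _)
  have hπB' : ∀ {W : Subgroup G}, (∀ r : ℕ, r.Prime → r ∣ Nat.card W → r ∈ π') →
      (Nat.card B').Coprime (Nat.card W) := fun {W} h =>
    Nat.coprime_of_dvd' fun r hr h1 h2 => absurd (hPπ r hr (h1.trans (card_dvd_of_le hB'P))) (h r hr h2).2
  have hsolB' : Group.IsSolvable B' := hG.2.2 B' fun h => hP (top_le_iff.mp (h ▸ hB'P))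
  have hne : (Cfsg.maxInvSubgroups ⊤ B {q}).Nonempty := by
    obtain ⟨R, hR, -⟩ := CfsgLib.TransOdd.exists_max (A := B) (q := q)
      (CfsgLib.TransOdd.mem_inv (Y := ⊥) (IsPGroup.of_card (n := 0) (by simp)) (fun b _ => by rw [Subgroup.normalizer_eq_top]; exact mem_top b))
    exact ⟨R, hR⟩
  obtain ⟨⟨R0, hR0, hR0B⟩, hconj⟩ := fixed_conj hBK (hπB' (CfsgLib.TransOdd.card_piCoreOf π' _)) (Or.inl hsolB')
    (Cfsg.maxInvSubgroups ⊤ B {q}) hne
    (fun k hk R hR => CfsgLib.TransOdd.conj_max_mem (map_subtype_le _ hk) hR)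
    (fun b hb R hR => conj_max_mem' (hn hb) hR) htr
  have hR0' : R0 ∈ Cfsg.invSubgroups ⊤ B' {q} :=
    CfsgLib.TransOdd.mem_inv (CfsgLib.TransOdd.isPGroup_inv hR0.1) hR0B
  have hmem : ∀ Q ∈ Cfsg.maxInvSubgroups ⊤ B' {q}, Q ∈ Cfsg.maxInvSubgroups ⊤ B {q} := by
    intro Q hQ
    have hQB : Q ∈ Cfsg.invSubgroups ⊤ B {q} :=
      CfsgLib.TransOdd.mem_inv (CfsgLib.TransOdd.isPGroup_inv hQ.1) (hBB'.trans hQ.1.2.2)
    obtain ⟨R, hR, hQR⟩ := CfsgLib.TransOdd.exists_max hQB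
    by_cases hQe : Q = R
    · rw [hQe]; exact hR
    exfalso
    by_cases hQ0 : Q = ⊥
    · obtain ⟨k, -, hk⟩ := htr R hR R0 hR0
      apply hQe
      have h1 : R0 = ⊥ := by rw [hQ.2 R0 hR0' (hQ0 ▸ bot_le)]; exact hQ0
      rw [h1] at hk
      rw [hQ0, (map_eq_bot_iff_of_injective _ (MulAut.conj k).injective).mp hk.symm]
    have hAB' : A ≤ B' := hAB.trans hBB'
    have hQp := CfsgLib.TransOdd.isPGroup_inv hQ.1
    have hQtop : Q ≠ ⊤ := fun h => hQe (le_antisymm hQR (h ▸ le_top))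
    set N := normalizer (Q : Set G) with hN
    have hNtop := CfsgLib.TransOdd.normalizer_ne_top hG hQ0 hQtop
    have hAN : A ≤ N := hAB'.trans hQ.1.2.2
    set W := Cfsg.piCoreOf π' N with hW
    have hπq : ∀ {U : Subgroup G}, U ∈ Cfsg.invSubgroups ⊤ B {q} → ∀ r : ℕ, r.Prime → r ∣ Nat.card U → r ∈ π' :=
      fun {U} hU r hr hd => by rw [Set.mem_singleton_iff.mp (hU.2.1 r hr hd)]; exact ⟨hqF.out, hqA⟩
    have hQW : Q ≤ W := CfsgLib.TransOdd.le_core hA hNtop hAN le_normalizer (hπq hQB) (hAB.trans hQB.2.2)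
    set U := R ⊓ N with hU
    have hUB : U ∈ Cfsg.invSubgroups ⊤ B {q} :=
      CfsgLib.TransOdd.mem_inv ((CfsgLib.TransOdd.isPGroup_inv hR.1).to_le inf_le_left)
        (CfsgLib.Core.le_normalizer_inf hR.1.2.2 ((hBB'.trans hQ.1.2.2).trans le_normalizer))
    have hUW : U ≤ W := CfsgLib.TransOdd.le_core hA hNtop hAN inf_le_right (hπq hUB) (hAB.trans hUB.2.2)
    obtain ⟨S, hQS, hSB⟩ := CfsgLib.Core.exists_invariant_sylow_ge q
      ((hQ.1.2.2.trans le_normalizer).trans (normalizer_le_piCoreOf π' N))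
      (hπB' (CfsgLib.TransOdd.card_piCoreOf π' N)) (Or.inl hsolB') hQW hQp hQ.1.2.2
    have hSQ : (S : Subgroup W).map W.subtype = Q :=
      hQ.2 _ (CfsgLib.TransOdd.mem_inv (S.2.map W.subtype) hSB) hQS
    have hle : Q ≤ U := le_inf hQR le_normalizer
    have hUQ : U = Q := by
      obtain ⟨T, hT⟩ := (hUB |> CfsgLib.TransOdd.isPGroup_inv |>.of_equiv (subgroupOfEquivOfLe hUW).symm).exists_le_sylow
      refine (CfsgLib.Core.eq_of_le_of_card_le hle ?_).symm
      rw [← Nat.card_congr (subgroupOfEquivOfLe hUW).toEquiv, ← hSQ, card_map_of_injective W.subtype_injective,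
        S.card_eq_multiplicity, ← T.card_eq_multiplicity]
      exact Nat.le_of_dvd Nat.card_pos (card_dvd_of_le hT)
    haveI := (CfsgLib.TransOdd.isPGroup_inv hR.1).isNilpotent
    have hlt : Q.subgroupOf R < ⊤ := lt_top_iff_ne_top.mpr fun h => hQe (le_antisymm hQR (subgroupOf_eq_top.mp h))
    obtain ⟨x, hx1, hx2⟩ := SetLike.exists_of_lt (Group.normalizerCondition_of_isNilpotent (G := R) (Q.subgroupOf R) hlt)
    refine hx2 (hUQ.le ⟨x.2, ?_⟩)
    rw [← Subgroup.subgroupOf_normalizer_eq hQR] at hx1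
    exact hx1
  refine ⟨hAB.trans hBB', fun Q hQ => hsub (hmem Q hQ), fun Q₁ h₁ Q₂ h₂ => ?_⟩
  obtain ⟨k, hk, hke⟩ := hconj Q₁ (hmem Q₁ h₁) Q₂ (hmem Q₂ h₂) h₁.1.2.2 h₂.1.2.2
  refine ⟨k, ?_, hke⟩
  rw [← core_eq hG hA (hAB.trans hBB')]
  have h2 := (core_eq hG hA hAB).ge hk.1
  exact ⟨h2.1, hk.2⟩

theorem good_of_subnormal (hG : Cfsg.IsMinimalSimple G) (hA : Cfsg.TransitivityHypothesis A) (hqA : ¬ q ∣ Nat.card A)
    {P : Subgroup G} (hP : P ≠ ⊤) (hPπ : ∀ r : ℕ, r.Prime → r ∣ Nat.card P → r ∣ Nat.card A)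
    {H : Subgroup P} (hH : H.IsSubnormal) : Good A q (H.map P.subtype) → Good A q P := by
  induction hH with
  | top =>
    intro h
    rwa [← MonoidHom.range_eq_map, Subgroup.range_subtype] at h
  | step H K hle _ hN ih =>
    intro h
    refine ih (good_step hG hA hqA hP hPπ (map_mono hle) (map_subtype_le _) ?_ h)
    exact (map_mono ((normal_subgroupOf_iff_le_normalizer hle).mp hN)).trans (le_normalizer_map _)

end CfsgLib.TransSubnormal
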