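import Cfsg.Agent.Lib.FusionNormalPPower
import Cfsg.Agent.Lib.FusionInvariantGroup
import Cfsg.Agent.Lib.FusionGroup

/-!
# The `p`-residual subsystem of a group fusion system
-/

set_option autoImplicit false

namespace CfsgLib.PResidualGroup

open Cfsg Cfsg.FusionSystem CfsgLib.Fusion

universe u

theorem eq {G : Type u} [Group G] [Finite G] {p : ℕ} [Fact p.Prime] (T : Sylow p G)
    (E : FusionSystem ((groupFusionSystem (T : Subgroup G)).hyperfocalSubgroup p))
    (hE : (groupFusionSystem (T : Subgroup G)).IsPResidual p E) (P : Subgroup G) :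
    E.Hom P = (fusionSystemOfSubgroup (pResidual p G) ((T : Subgroup G) ⊓ pResidual p G)
      inf_le_right).Hom P := by
  set K := pResidual p G
  haveI := CfsgLib.Local.pResidual_normal' p G
  set U := (T : Subgroup G) ⊓ K with hUdef
  set E' := fusionSystemOfSubgroup K U inf_le_right
  have hTp : IsPGroup p (T : Subgroup G) := T.isPGroup'
  have hU : (groupFusionSystem (T : Subgroup G)).hyperfocalSubgroup p = U := group_hyperfocal_eq T
  have hE's : E'.IsSaturated p := fusionOfSubgroup_saturated inf_le_right (hTp.to_le inf_le_left) (Stable.not_dvd_relIndex T K)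
  have h1 : E.IsSubsystemOf E' := by
    refine CfsgLib.NormalPPower.subsystem hTp (groupFusionSystem (T : Subgroup G)) E (hU.le.trans inf_le_left) hE.1 hE.2.1 E' hU.le ?_
    intro Q hQ
    have hQT : Q ≤ (T : Subgroup G) := hQ.trans inf_le_left
    rw [pResidual, MonoidHom.map_closure, Subgroup.closure_le]
    rintro _ ⟨γ, hγ, rfl⟩
    rw [SetLike.mem_coe, mem_autGroup_iff hQ, fusionOfSubgroup_map_iff]
    obtain ⟨-, -, g, hg⟩ := groupFusion_map_iff.mp ((mem_autGroup_iff hQT).mp γ.2)
    obtain ⟨a, m, hm, hnm⟩ := Nat.exists_eq_pow_mul_and_not_dvd (orderOf_pos g).ne' p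
      (Fact.out : p.Prime).ne_one
    have hgK : g ^ p ^ a ∈ K := by
      refine Subgroup.subset_closure (Nat.Coprime.coprime_dvd_left (orderOf_dvd_of_pow_eq_one
        (n := m) ?_) ((Fact.out : p.Prime).coprime_iff_not_dvd.mpr hm).symm)
      rw [← pow_mul, ← hnm, pow_orderOf_eq_one]
    have hpow : ∀ (i : ℕ) (z : Q), ((((γ ^ i : (groupFusionSystem (T : Subgroup G)).autGroup Q) : MulAut Q) z : Q) : G) =
        g ^ i * z * (g ^ i)⁻¹ := by
      intro i
      induction i with
      | zero => intro z; simp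
      | succ i ih =>
        intro z
        rw [pow_succ', Subgroup.coe_mul, MulAut.mul_apply, ← autFun_apply _ (Subtype.prop _),
          hg _ (Subtype.prop _), ih z, pow_succ']
        group
    obtain ⟨k, hk⟩ := exists_pow_eq_self_of_coprime
      (show Nat.Coprime (orderOf γ) (p ^ a) from Nat.Coprime.pow_right a hγ).symm
    refine ⟨hQ, fun x hx => hQ (autFun_mem _ hx), g ^ (p ^ a * k), ?_, fun x hx => ?_⟩
    · rw [pow_mul]; exact K.pow_mem hgK k
    · rw [← hpow _ ⟨x, hx⟩, autFun_apply _ hx, pow_mul, hk]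
      rfl
  have h2 : E'.IsSubsystemOf E := by
    refine CfsgLib.NormalPPower.subsystem hTp (groupFusionSystem (T : Subgroup G)) E' inf_le_left hE's ?_ E hU.ge ?_
    · rintro Q φ ⟨hQ, hφ, g, -, he⟩
      exact ⟨hQ.trans inf_le_left, fun x => (hφ x).1, g, he⟩
    · exact fun Q hQ => hE.2.2.2 Q hQ
  exact Set.Subset.antisymm (h1 P) (h2 P)

end CfsgLib.PResidualGroup
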