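import Cfsg.Agent.Lib.FusionAlperin
import Cfsg.Agent.Lib.FusionSat

/-!
# Subsystems containing the `p`-elements of the automizers of the centric subgroups
-/

set_option autoImplicit false
set_option linter.style.haveILetI false

namespace CfsgLib.PrimeIndexGen

open Cfsg Cfsg.FusionSystem CfsgLib.Fusion

universe u

variable {Ω : Type u} [Group Ω] {S : Subgroup Ω} {p : ℕ} {F : FusionSystem S}

inductive Gen (F : FusionSystem S) (p : ℕ) : Subgroup Ω → (Ω → Ω) → Prop
  | conj {P : Subgroup Ω} {s : Ω} : P ≤ S → s ∈ S → Gen F p P (fun x => s * x * s⁻¹)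
  | base {P : Subgroup Ω} {β : MulAut P} : F.IsCentric P → β ∈ F.autGroup P →
      (∃ k, orderOf β = p ^ k) → Gen F p P (autFun β)
  | congr {P : Subgroup Ω} {f g : Ω → Ω} : Gen F p P f → (∀ x ∈ P, f x = g x) → Gen F p P g
  | restrict {P R : Subgroup Ω} {f : Ω → Ω} : Gen F p P f → R ≤ P → Gen F p R f
  | comp {P Q : Subgroup Ω} {f g : Ω → Ω} : Gen F p P f → Gen F p Q g → (∀ x ∈ P, f x ∈ Q) →
      Gen F p P (fun x => g (f x))
  | inv {P : Subgroup Ω} {f g : Ω → Ω} : Gen F p P f → Map F (img f P) g →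
      (∀ x ∈ P, g (f x) = x) → Gen F p (img f P) g

theorem Gen.toMap {P : Subgroup Ω} {f : Ω → Ω} (h : Gen F p P f) : Map F P f := by
  induction h with
  | conj hP hs => exact map_conj hP hs
  | base hP hβ _ => exact (mem_autGroup_iff hP.1).1 hβ
  | congr _ he ih => exact ih.congr he
  | restrict _ hR ih => exact ih.restrict hR
  | comp _ _ hm ih₁ ih₂ => exact ih₁.comp ih₂ hm
  | inv _ hg _ _ => exact hg

theorem Gen.map_sub {E : FusionSystem S}
    (hbase : ∀ P, F.IsCentric P → ∀ β ∈ F.autGroup P, (∃ k, orderOf β = p ^ k) → β ∈ E.autGroup P)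
    {P : Subgroup Ω} {f : Ω → Ω} (h : Gen F p P f) : Map E P f := by
  induction h with
  | conj hP hs => exact map_conj hP hs
  | base hP hβ ho => exact (mem_autGroup_iff hP.1).1 (hbase _ hP _ hβ ho)
  | congr _ he ih => exact ih.congr he
  | restrict _ hR ih => exact ih.restrict hR
  | comp _ _ hm ih₁ ih₂ => exact ih₁.comp ih₂ hm
  | inv _ _ hgf ih =>
    obtain ⟨g', hg', hg'f, -, -⟩ := ih.exists_inv
    refine hg'.congr fun y hy => ?_
    obtain ⟨x, hx, rfl⟩ := ih.mem_img.mp hy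
    rw [hg'f x hx, hgf x hx]

theorem Gen.id {P : Subgroup Ω} (hP : P ≤ S) : Gen F p P (fun x => x) :=
  (Gen.conj hP (one_mem S)).congr fun x _ => by simp

/-- A pair of mutually inverse maps on `S`. -/
structure Pair (F : FusionSystem S) (a a' : Ω → Ω) : Prop where
  ma : Map F S a
  ma' : Map F S a'
  left : ∀ x ∈ S, a' (a x) = x
  right : ∀ x ∈ S, a (a' x) = x

theorem Pair.symm {a a' : Ω → Ω} (h : Pair F a a') : Pair F a' a := ⟨h.ma', h.ma, h.right, h.left⟩

theorem Pair.trans {a a' b b' : Ω → Ω} (h : Pair F a a') (k : Pair F b b') :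
    Pair F (fun x => b (a x)) (fun x => a' (b' x)) where
  ma := h.ma.comp k.ma fun _ hx => h.ma.apply_mem hx
  ma' := k.ma'.comp h.ma' fun _ hx => k.ma'.apply_mem hx
  left x hx := by
    show a' (b' (b (a x))) = x
    rw [k.left _ (h.ma.apply_mem hx), h.left x hx]
  right x hx := by
    show b (a (a' (b' x))) = x
    rw [h.right _ (k.ma'.apply_mem hx), k.right x hx]

theorem pair_of_aut {α : MulAut S} (hα : α ∈ F.autGroup S) : Pair F (autFun α) (autFun α⁻¹) :=
  ⟨(mem_autGroup_iff le_rfl).1 hα, (mem_autGroup_iff le_rfl).1 (inv_mem hα),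
    fun _ hx => autFun_inv_apply α hx, fun _ hx => autFun_apply_inv α hx⟩

theorem Gen.transport [Finite S] [Fact p.Prime] {P : Subgroup Ω} {f : Ω → Ω} (h : Gen F p P f) :
    ∀ {a a' : Ω → Ω}, Pair F a a' → Gen F p (img a P) (fun x => a (f (a' x))) := by
  induction h with
  | @conj P s hP hs =>
    intro a a' h
    refine (Gen.conj (img_le_iff.2 fun x hx => h.ma.apply_mem (hP hx)) (h.ma.apply_mem hs)).congr ?_
    intro y hy
    obtain ⟨x, hx, rfl⟩ := (h.ma.restrict hP).mem_img.1 hy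
    rw [h.left x (hP hx), h.ma.map_conj hs (hP hx)]
  | @base P β hP hβ ho =>
    intro a a' h
    have hm := h.ma.restrict hP.1
    haveI := finite_of_le hP.1
    obtain ⟨e, he⟩ := hm.exists_equiv (Q := img a P) rfl
    refine (Gen.base (β := MulAut.congr e β) ⟨hm.img_le, fun Q hQ =>
      hP.2 Q (isConj_trans (isConj_iff.2 ⟨a, hm, rfl⟩) hQ)⟩ (congr_mem_autGroup hm rfl he hβ) ?_).congr ?_
    · obtain ⟨k, hk⟩ := ho
      exact ⟨k, by rw [← hk]; exact MulEquiv.orderOf_eq (MulAut.congr e) β⟩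
    · intro y hy
      obtain ⟨x, hx, rfl⟩ := hm.mem_img.1 hy
      rw [autFun_congr he β hx, h.left x (hP.1 hx)]
  | @congr P f g hf he ih =>
    intro a a' h
    refine (ih h).congr fun y hy => ?_
    obtain ⟨x, hx, rfl⟩ := (h.ma.restrict hf.toMap.le).mem_img.1 hy
    rw [h.left x (hf.toMap.le hx), he x hx]
  | @restrict P R f hf hR ih => exact fun h => (ih h).restrict (img_mono _ hR)
  | @comp P Q f g hf hg hm ih₁ ih₂ =>
    intro a a' h
    refine ((ih₁ h).comp (ih₂ h) fun y hy => ?_).congr fun y hy => ?_ <;>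
      obtain ⟨x, hx, rfl⟩ := (h.ma.restrict hf.toMap.le).mem_img.1 hy
    · rw [h.left x (hf.toMap.le hx)]; exact mem_img_of_mem a (hm x hx)
    · show a (g (a' (a (f (a' (a x)))))) = a (g (f (a' (a x))))
      rw [h.left x (hf.toMap.le hx), h.left _ (hf.toMap.apply_mem hx)]
  | @inv P f g hf hg hgf ih =>
    intro a a' h
    have hfm := hf.toMap
    have e : img a (img f P) = img (fun x => a (f (a' x))) (img a P) := by
      rw [← hfm.img_comp a, ← (h.ma.restrict hfm.le).img_comp]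
      exact img_congr fun x hx => by rw [h.left x (hfm.le hx)]
    rw [e]
    refine (ih h).inv ?_ fun y hy => ?_
    · rw [← e]
      refine (((h.ma'.restrict ?_).comp hg fun y hy => ?_).comp h.ma fun y hy => ?_)
      · exact img_le_iff.2 fun x hx => h.ma.apply_mem (hfm.img_le hx)
      · obtain ⟨x, hx, rfl⟩ := (h.ma.restrict hfm.img_le).mem_img.1 hy
        rw [h.left x (hfm.img_le hx)]; exact hx
      · obtain ⟨x, hx, rfl⟩ := (h.ma.restrict hfm.img_le).mem_img.1 hy
        rw [h.left x (hfm.img_le hx)]; exact hg.apply_mem hx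
    · obtain ⟨x, hx, rfl⟩ := (h.ma.restrict hfm.le).mem_img.1 hy
      show a (g (a' (a (f (a' (a x)))))) = a x
      rw [h.left x (hfm.le hx), h.left _ (hfm.apply_mem hx), hgf x hx]

def Dec (F : FusionSystem S) (p : ℕ) (P : Subgroup Ω) (f : Ω → Ω) : Prop :=
  ∃ a a' f₀, Pair F a a' ∧ Gen F p P f₀ ∧ ∀ x ∈ P, f x = a (f₀ x)

theorem pair_id (F : FusionSystem S) : Pair F (fun x => x) (fun x => x) :=
  ⟨map_id le_rfl, map_id le_rfl, fun _ _ => rfl, fun _ _ => rfl⟩

variable [Finite S] [Fact p.Prime]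

theorem dec_of_map (hS : IsPGroup p S) (hF : F.IsSaturated p) : ∀ (d : ℕ) {P : Subgroup Ω} {f : Ω → Ω},
    Map F P f → Nat.card S ≤ Nat.card P + d → Dec F p P f := by
  intro d
  induction d with
  | zero =>
    intro P f hf hc
    have hP : P = S := CfsgLib.Fusion.eq_of_le_of_card_le le_rfl hf.le (by simpa using hc)
    subst hP
    have himg : img f P = P :=
      CfsgLib.Fusion.eq_of_le_of_card_le le_rfl hf.img_le hf.card_img.ge
    obtain ⟨α, hα, he⟩ := hf.exists_aut himg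
    exact ⟨_, _, _, pair_of_aut hα, Gen.id le_rfl, fun x hx => (he x hx).symm⟩
  | succ d ih =>
    intro P f hf hc
    refine alperin hS hF (Pr := fun R k => Map F R k → Nat.card S ≤ Nat.card R + (d + 1) → Dec F p R k)
      ?_ ?_ hf hf hc
    · refine ⟨?_, ?_, ?_, ?_⟩
      · intro R k l hk he hl hcR
        obtain ⟨a, a', k₀, h1, h2, h3⟩ := hk (hl.congr fun x hx => (he x hx).symm) hcR
        exact ⟨a, a', k₀, h1, h2, fun x hx => by rw [← he x hx, h3 x hx]⟩
      · intro R Q k l hkm hlm hk hl hm _ hcR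
        have hcQ : Nat.card S ≤ Nat.card Q + (d + 1) := by
          haveI := finite_of_le hlm.le
          have h1 := Subgroup.card_le_of_le (img_le_iff.2 hm : img k R ≤ Q)
          rw [hkm.card_img] at h1
          omega
        obtain ⟨a, a', k₀, h1, h2, h3⟩ := hk hkm hcR
        obtain ⟨b, b', l₀, g1, g2, g3⟩ := hl hlm hcQ
        refine ⟨_, _, fun x => a' (l₀ (a (k₀ x))), h1.trans g1, ?_, fun x hx => ?_⟩
        · refine h2.comp (g := fun x => a' (l₀ (a x))) (g2.transport h1.symm) fun x hx => ?_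
          have hkx := hm x hx
          rw [h3 x hx] at hkx
          rw [← h1.left _ (h2.toMap.apply_mem hx)]
          exact mem_img_of_mem a' hkx
        · have hlS : l₀ (a (k₀ x)) ∈ S := g2.toMap.apply_mem (h3 x hx ▸ hm x hx)
          show l (k x) = b (a (a' (l₀ (a (k₀ x)))))
          rw [g3 _ (hm x hx), h3 x hx, h1.right _ hlS]
      · intro R k l hkm hlm hlk hk _ hcR
        have hcR' : Nat.card S ≤ Nat.card R + (d + 1) := by rwa [hkm.card_img] at hcR
        obtain ⟨a, a', k₀, h1, h2, h3⟩ := hk hkm hcR'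
        obtain ⟨k', hk', hk'k, -, -⟩ := h2.toMap.exists_inv
        have e : img k R = img a (img k₀ R) := by
          rw [← h2.toMap.img_comp a]; exact img_congr h3
        refine ⟨a', a, fun y => a (k' (a' y)), h1.symm, e ▸ (h2.inv hk' hk'k).transport h1, fun y hy => ?_⟩
        obtain ⟨x, hx, rfl⟩ := hkm.mem_img.1 hy
        rw [hlk x hx, h3 x hx]
        show x = a' (a (k' (a' (a (k₀ x)))))
        rw [h1.left _ (h2.toMap.apply_mem hx), hk'k x hx, h1.left x (hkm.le hx)]
      · exact fun hR _ _ => ⟨_, _, _, pair_id F, Gen.id hR, fun _ _ => rfl⟩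
    · intro Q hQ α hα hm hcQ
      rcases Nat.lt_or_ge (Nat.card Q + d) (Nat.card S) with hlt | hge
      swap
      · exact ih hm hge
      have hess : F.IsEssential p Q := hQ.resolve_left fun e => by subst e; omega
      obtain ⟨⟨hQS, hQc⟩, hfn, -⟩ := hess
      haveI := finite_of_le hQS
      haveI := finite_autGroup F hQS
      set A := F.autGroup Q
      let O : Subgroup A := Subgroup.closure {γ | ∃ k, orderOf γ = p ^ k}
      haveI hO : O.Normal := by
        refine ⟨fun γ hγ g => ?_⟩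
        have hle : O ≤ O.comap (MulAut.conj g).toMonoidHom := (Subgroup.closure_le _).2 fun δ ⟨k, hk⟩ =>
          Subgroup.subset_closure ⟨k, by rw [← hk]; exact MulEquiv.orderOf_eq (MulAut.conj g) δ⟩
        exact hle hγ
      obtain ⟨R, hR⟩ := (isFullyAutomized_of_fullyNormalized hS hF hfn).2
      have hRO : (R : Subgroup A) ≤ O := fun γ hγ => Subgroup.subset_closure (by
        obtain ⟨k, hk⟩ := R.2 ⟨γ, hγ⟩
        obtain ⟨i, -, hi⟩ := (Nat.dvd_prime_pow (Fact.out : p.Prime)).1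
          (orderOf_dvd_of_pow_eq_one (congrArg Subtype.val hk))
        exact ⟨i, hi⟩)
      let R' : Sylow p O := R.subtype hRO
      have htop := Sylow.normalizer_sup_eq_top' R hRO
      obtain ⟨ν, hν, o, ho, hνo⟩ : ∃ ν ∈ Subgroup.normalizer ((R : Subgroup A) : Set A), ∃ o ∈ O,
          ν * o = ⟨α, hα⟩ := by
        have h1 : (⟨α, hα⟩ : A) ∈ Subgroup.normalizer ((R : Subgroup A) : Set A) ⊔ O :=
          htop.ge (Subgroup.mem_top _)
        exact Subgroup.mem_sup_of_normal_right.1 h1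
      have hgen : ∀ γ ∈ O, Gen F p Q (autFun (γ : MulAut Q)) := fun γ hγ => by
        induction hγ using Subgroup.closure_induction with
        | mem γ hγ =>
          obtain ⟨k, hk⟩ := hγ
          exact Gen.base ⟨hQS, hQc⟩ γ.2 ⟨k, by rw [Subgroup.orderOf_coe, hk]⟩
        | one => exact (Gen.id hQS).congr fun x hx => (autFun_one hx).symm
        | mul a b _ _ ha hb =>
          exact (hb.comp ha fun x hx => autFun_mem _ hx).congr fun x hx => (autFun_mul _ _ hx).symm
        | inv a _ ha =>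
          have hi : Map F (img (autFun (a : MulAut Q)) Q) (autFun ((a : MulAut Q))⁻¹) := by
            rw [img_autFun]; exact (mem_autGroup_iff hQS).1 (inv_mem a.2)
          have := ha.inv hi fun x hx => autFun_inv_apply _ hx
          rwa [img_autFun] at this
      have hext : ∀ g ∈ normalizerIn S Q, InExtender S Q (autFun (ν : MulAut Q)) g := by
        intro g hg
        refine ⟨hg.1, hg.2, ?_⟩
        set c := normalizerInToAut S Q ⟨g, hg⟩ with hc
        have hcA : c ∈ A := autInducedBy_le_autGroup hQS (by rw [← range_normalizerInToAut]; exact ⟨_, rfl⟩)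
        have hcR : (⟨c, hcA⟩ : A) ∈ (R : Subgroup A) := by
          rw [hR, Subgroup.mem_subgroupOf, ← range_normalizerInToAut]; exact ⟨_, rfl⟩
        have h2 := (Subgroup.mem_normalizer_iff.1 hν _).1 hcR
        rw [hR, Subgroup.mem_subgroupOf] at h2
        obtain ⟨s, hs, -, hse⟩ := mem_autInducedBy_iff.1 h2
        refine ⟨s, hs, fun x hx => ?_⟩
        have h3 := hse _ (autFun_mem (ν : MulAut Q) hx)
        simp only [Subgroup.coe_mul, Subgroup.coe_inv] at h3
        rw [autFun_mul _ _ (autFun_mem _ hx), autFun_inv_apply _ hx, autFun_mul _ _ hx, hc,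
          autFun_normalizerInToAut _ hx] at h3
        exact h3
      obtain ⟨k, hk, hkν⟩ := receptive_extend (isReceptive_of_fullyNormalized hS hF hfn)
        ((mem_autGroup_iff hQS).1 ν.2) (img_autFun _) (le_normalizerIn hQS) hext
      have hQlt : Q < S := lt_of_le_of_ne hQS fun e => by subst e; omega
      have hlt' := card_lt_of_lt (normalizerIn_le S Q) (lt_normalizerIn hS hQlt)
      obtain ⟨a, a', k₀, h1, h2, h3⟩ := ih hk (by omega)
      refine ⟨a, a', fun x => k₀ (autFun (o : MulAut Q) x), h1,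
        (hgen o ho).comp (h2.restrict (le_normalizerIn hQS)) (fun x hx => autFun_mem _ hx), fun x hx => ?_⟩
      rw [show α = ((ν : MulAut Q) * (o : MulAut Q)) from (congrArg Subtype.val hνo).symm,
        autFun_mul _ _ hx, ← hkν _ (autFun_mem _ hx), h3 _ (le_normalizerIn hQS (autFun_mem _ hx))]

theorem main (hS : IsPGroup p S) (hF : F.IsSaturated p) (E : FusionSystem S) (hEF : E.IsSubsystemOf F)
    (h : ∀ P : Subgroup Ω, F.IsCentric P →
      (Subgroup.closure {α : F.autGroup P | ∃ k : ℕ, orderOf α = p ^ k}).map (F.autGroup P).subtype ≤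
        E.autGroup P) :
    E.HasPrimeToPIndexIn F p ∧ (∀ (P : Subgroup Ω) (φ : P →* Ω), φ ∈ F.Hom P →
      ∃ α ∈ F.autGroup S, ∃ φ₀ ∈ E.Hom P, ∀ (x : P) (hx : φ₀ x ∈ S), φ x = ((α ⟨φ₀ x, hx⟩ : S) : Ω)) ∧
      ∀ P : Subgroup Ω, E.IsCentric P ↔ F.IsCentric P := by
  have hbase : ∀ P, F.IsCentric P → ∀ β ∈ F.autGroup P, (∃ k, orderOf β = p ^ k) → β ∈ E.autGroup P :=
    fun P hP β hβ ⟨k, hk⟩ => h P hP ⟨⟨β, hβ⟩, Subgroup.subset_closure
      ⟨k, by rw [← hk, ← Subgroup.orderOf_coe]⟩, rfl⟩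
  have hdec : ∀ {P : Subgroup Ω} {f : Ω → Ω}, Map F P f → Dec F p P f := fun hf =>
    dec_of_map hS hF (Nat.card S) hf (Nat.le_add_left _ _)
  refine ⟨⟨hEF, fun P hPS => ?_⟩, fun P φ hφ => ?_, fun P => ⟨fun hP => ⟨hP.1, fun R hR => ?_⟩,
    fun hP => ⟨hP.1, fun R ⟨ψ, hψ, hr⟩ => hP.2 R ⟨ψ, hEF P hψ, hr⟩⟩⟩⟩
  · rw [Subgroup.map_le_iff_le_comap, Subgroup.closure_le]
    rintro ⟨β, hβ⟩ ⟨k, hk⟩
    haveI := finite_of_le hPS
    obtain ⟨Q, f, hQ, hfm, hfQ⟩ := exists_fullyNormalized_map hS hF hPS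
    have hf := hfm.restrict (le_normalizerIn hPS)
    haveI := finite_of_le hQ.1
    haveI := finite_autGroup F hQ.1
    obtain ⟨e, he⟩ := hf.exists_equiv hfQ
    have hγ : MulAut.congr e β ∈ F.autGroup Q := congr_mem_autGroup hf hfQ he hβ
    obtain ⟨R, hR⟩ := (isFullyAutomized_of_fullyNormalized hS hF hQ).2
    have hB : IsPGroup p (Subgroup.zpowers (⟨_, hγ⟩ : F.autGroup Q)) := IsPGroup.of_card (n := k) (by
      rw [Nat.card_zpowers, ← Subgroup.orderOf_coe, MulEquiv.orderOf_eq, ← hk, ← Subgroup.orderOf_coe])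
    obtain ⟨δ, hδ⟩ := exists_conj_mem_of_pGroup hB R.2 R.not_dvd_index
    have h1 := hδ _ (Subgroup.mem_zpowers _)
    rw [hR, Subgroup.mem_subgroupOf] at h1
    obtain ⟨s, hs, -, hse⟩ := mem_autInducedBy_iff.1 h1
    have hfP : ∀ x ∈ P, f x ∈ Q := fun x hx => hfQ.le (mem_img_of_mem f hx)
    have hψ : Map F P (fun x => autFun (δ : MulAut Q) (f x)) :=
      hf.comp ((mem_autGroup_iff hQ.1).1 δ.2) hfP
    obtain ⟨a, a', ψ₀, hp, hg, hψe⟩ := hdec hψ
    obtain ⟨ψ', hψ', hψ'ψ, -, -⟩ := hg.toMap.exists_inv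
    rw [SetLike.mem_coe, Subgroup.mem_comap]
    refine (mem_autGroup_iff hPS).2 ?_
    have hs' := hp.ma'.apply_mem hs
    have hkey : ∀ x ∈ P, a' s * ψ₀ x * (a' s)⁻¹ = ψ₀ (autFun β x) := by
      intro x hx
      have h2 := hse _ (autFun_mem (δ : MulAut Q) (hfP x hx))
      simp only [Subgroup.coe_mul, Subgroup.coe_inv] at h2
      rw [autFun_mul _ _ (autFun_mem _ (hfP x hx)), autFun_inv_apply _ (hfP x hx),
        autFun_mul _ _ (hfP x hx), autFun_congr he β hx,
        show autFun (δ : MulAut Q) (f (autFun β x)) = a (ψ₀ (autFun β x)) from hψe _ (autFun_mem β hx),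
        show autFun (δ : MulAut Q) (f x) = a (ψ₀ x) from hψe x hx] at h2
      have hxS := hg.toMap.apply_mem hx
      have h3 : a' (s * a (ψ₀ x) * s⁻¹) = ψ₀ (autFun β x) := by
        rw [← h2, hp.left _ (hg.toMap.apply_mem (autFun_mem β hx))]
      rw [← h3, hp.ma'.map_conj hs (hp.ma.apply_mem hxS), hp.left _ hxS]
    have himg : ∀ y ∈ img ψ₀ P, a' s * y * (a' s)⁻¹ ∈ img ψ₀ P := fun y hy => by
      obtain ⟨x, hx, rfl⟩ := hg.toMap.mem_img.1 hy
      rw [hkey x hx]; exact mem_img_of_mem ψ₀ (autFun_mem β hx)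
    refine Map.congr (((hg.comp (Gen.conj hg.toMap.img_le hs') fun x hx => mem_img_of_mem ψ₀ hx).comp
      (hg.inv hψ' hψ'ψ) fun x hx => himg _ (mem_img_of_mem ψ₀ hx)).map_sub hbase) fun x hx => ?_
    show ψ' (a' s * ψ₀ x * (a' s)⁻¹) = _
    rw [hkey x hx, hψ'ψ _ (autFun_mem β hx)]
    rfl
  · obtain ⟨a, a', f₀, hp, hg, he⟩ := hdec (map_ext hφ)
    have himg : img a S = S := le_antisymm hp.ma.img_le fun x hx =>
      hp.right x hx ▸ mem_img_of_mem a (hp.ma'.apply_mem hx)
    obtain ⟨α, hα, hαe⟩ := hp.ma.exists_aut himg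
    obtain ⟨φ₀, hφ₀, hφ₀e⟩ := hg.map_sub hbase
    refine ⟨α, hα, φ₀, hφ₀, fun x hx => ?_⟩
    rw [← autFun_apply α hx, hαe _ hx, hφ₀e x, ← he x x.2, ext_coe]
  · obtain ⟨f, hf, rfl⟩ := isConj_iff.1 hR
    obtain ⟨a, a', f₀, hp, hg, he⟩ := hdec hf
    intro c hc
    have hc' : a' c ∈ centralizerIn S (img f₀ P) := by
      refine ⟨hp.ma'.apply_mem hc.1, Subgroup.mem_centralizer_iff.2 fun y hy => ?_⟩
      obtain ⟨x, hx, rfl⟩ := hg.toMap.mem_img.1 hy
      have hxS := hg.toMap.apply_mem hx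
      have hfx : f x ∈ S := hf.apply_mem hx
      rw [show f₀ x = a' (f x) by rw [he x hx, hp.left _ hxS],
        ← hp.ma'.map_mul hfx hc.1, ← hp.ma'.map_mul hc.1 hfx,
        Subgroup.mem_centralizer_iff.1 hc.2 _ (mem_img_of_mem f hx)]
    have hconj : E.IsConj P (img f₀ P) := isConj_iff.2 ⟨f₀, hg.map_sub hbase, rfl⟩
    obtain ⟨x, hx, hxe⟩ := hg.toMap.mem_img.1 (hP.2 _ hconj hc')
    rw [← hp.right c hc.1, ← hxe, ← he x hx]
    exact mem_img_of_mem f hx

end CfsgLib.PrimeIndexGen
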