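import Cfsg.Agent.Lib.FusionSat
import Cfsg.Agent.Lib.FusionGroup

/-!
# Normalizers with Sylow intersections
-/

set_option autoImplicit false

namespace CfsgLib.Fusion

open Cfsg Cfsg.FusionSystem

variable {G : Type*} [Group G] [Finite G] {p : ℕ} [Fact p.Prime]

theorem exists_sylowNormalizer_conj (S : Sylow p G) {P : Subgroup G} (hP : P ≤ (S : Subgroup G)) :
    ∃ g : G, P.map (MulAut.conj g).toMonoidHom ≤ (S : Subgroup G) ∧
      ∃ R : Sylow p ↥(Subgroup.normalizer ((P.map (MulAut.conj g).toMonoidHom : Subgroup G) : Set G)),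
        (R : Subgroup _) = (normalizerIn (S : Subgroup G) (P.map (MulAut.conj g).toMonoidHom)).subgroupOf
          (Subgroup.normalizer ((P.map (MulAut.conj g).toMonoidHom : Subgroup G) : Set G)) := by
  obtain ⟨Q, hc, hQ⟩ := exists_fullyNormalized (groupFusionSystem (S : Subgroup G)) hP
  obtain ⟨f, hf, rfl⟩ := isConj_iff.mp hc
  obtain ⟨-, hfS, g, hg⟩ := groupFusion_map_iff.mp hf
  have himg : img f P = P.map (MulAut.conj g).toMonoidHom := by
    ext y
    rw [hf.mem_img]
    exact ⟨fun ⟨x, hx, e⟩ => ⟨x, hx, (hg x hx).symm.trans e⟩,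
      fun ⟨x, hx, e⟩ => ⟨x, hx, (hg x hx).trans e⟩⟩
  rw [himg] at hQ
  refine ⟨g, hQ.1, (exists_sylow_eq_subgroupOf_iff (inf_le_right : normalizerIn _ _ ≤ _)
    (S.2.to_le (normalizerIn_le _ _))).mpr fun C hC hCp => ?_⟩
  have h := (realized_fullyNormalized_iff (groupFusion_realized _) S (Subgroup.range_subtype _).symm
    hQ.1).mp hQ C
  rw [push_subtype hQ.1] at h
  exact h hC hCp

/-- The normalizer of `Q` in `S` is Sylow in `N_G(Q)`: so are the centralizer and the automizer. -/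
theorem sylow_centralizer_automizer (S : Sylow p G) {Q : Subgroup G} (R : Sylow p ↥(Subgroup.normalizer (Q : Set G)))
    (hR : (R : Subgroup _) = (normalizerIn (S : Subgroup G) Q).subgroupOf (Subgroup.normalizer (Q : Set G))) :
    (∃ R : Sylow p ↥(Subgroup.centralizer (Q : Set G)), (R : Subgroup _) =
      (centralizerIn (S : Subgroup G) Q).subgroupOf (Subgroup.centralizer (Q : Set G))) ∧
    ∃ R : Sylow p ↥(autInducedBy ⊤ Q), (R : Subgroup _) =
      (autInducedBy (S : Subgroup G) Q).subgroupOf (autInducedBy ⊤ Q) := by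
  constructor
  · refine (exists_sylow_eq_subgroupOf_iff (inf_le_right : centralizerIn _ _ ≤ _)
      (S.2.to_le (centralizerIn_le _ _))).mpr fun C hC hCp => ?_
    have hCN : C ≤ Subgroup.normalizer (Q : Set G) := hC.trans (Subgroup.centralizer_le_normalizer _)
    obtain ⟨n, hn⟩ := exists_conj_mem_of_pGroup
      (hCp.of_equiv (Subgroup.subgroupOfEquivOfLe hCN).symm)
      ((S.2.to_le (normalizerIn_le _ Q)).of_equiv
        (Subgroup.subgroupOfEquivOfLe (inf_le_right : normalizerIn (S : Subgroup G) Q ≤ _)).symm)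
      (hR ▸ R.not_dvd_index)
    rw [← Subgroup.card_map_of_injective (f := (MulAut.conj (n : G)).toMonoidHom)
      (MulAut.conj (n : G)).injective]
    refine Subgroup.card_le_of_le ?_
    rintro _ ⟨c, hc, rfl⟩
    have h1 := Subgroup.mem_subgroupOf.mp (hn ⟨c, hCN hc⟩ (Subgroup.mem_subgroupOf.mpr hc))
    exact ⟨h1.1, conj_mem_of_mem_normalizer (normalizer_le_normalizer_centralizer' Q n.2) (hC hc)⟩
  · let f := normalizerInToAut (⊤ : Subgroup G) Q
    have hfr : f.range = autInducedBy ⊤ Q := range_normalizerInToAut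
    let j : ↥(Subgroup.normalizer (Q : Set G)) →* ↥(autInducedBy ⊤ Q) :=
      (f.comp (Subgroup.inclusion (le_inf le_top le_rfl))).codRestrict _ fun x => hfr ▸ ⟨_, rfl⟩
    have hj : Function.Surjective j := by
      rintro ⟨α, hα⟩
      rw [← hfr] at hα
      obtain ⟨g, rfl⟩ := hα
      exact ⟨⟨g, g.2.2⟩, rfl⟩
    refine ⟨R.mapSurjective hj, ?_⟩
    show (R : Subgroup _).map j = _
    rw [hR]
    ext α
    rw [Subgroup.mem_subgroupOf, mem_autInducedBy_iff]
    constructor
    · rintro ⟨n, hn, rfl⟩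
      exact ⟨n, (Subgroup.mem_subgroupOf.mp hn).1, n.2, fun x hx => autFun_normalizerInToAut _ hx⟩
    · rintro ⟨g, hg, hgn, he⟩
      exact ⟨⟨g, hgn⟩, Subgroup.mem_subgroupOf.mpr ⟨hg, hgn⟩,
        Subtype.ext (autFun_inj fun x hx => (autFun_normalizerInToAut _ hx).trans (he x hx).symm)⟩

/-- The extension lemma. -/
theorem exists_centralizer_conj (S : Sylow p G) {P Q : Subgroup G} (g : G)
    (R : Sylow p ↥(Subgroup.normalizer (Q : Set G)))
    (hR : (R : Subgroup _) = (normalizerIn (S : Subgroup G) Q).subgroupOf (Subgroup.normalizer (Q : Set G))) :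
    ∃ h ∈ Subgroup.centralizer (Q : Set G),
      (normalizerIn (S : Subgroup G) P ⊓ (normalizerIn (S : Subgroup G) Q ⊔
        Subgroup.centralizer (Q : Set G)).comap (MulAut.conj g).toMonoidHom).map
          (MulAut.conj (h * g)).toMonoidHom ≤ (S : Subgroup G) := by
  set M := normalizerIn (S : Subgroup G) Q with hM
  set C := Subgroup.centralizer (Q : Set G) with hC
  set B := normalizerIn (S : Subgroup G) P ⊓ (M ⊔ C).comap (MulAut.conj g).toMonoidHom with hB
  have hMN : M ≤ Subgroup.normalizer (Q : Set G) := inf_le_right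
  have hLN : M ⊔ C ≤ Subgroup.normalizer (Q : Set G) := sup_le hMN (Subgroup.centralizer_le_normalizer _)
  set B' := B.map (MulAut.conj g).toMonoidHom with hB'
  have hB'L : B' ≤ M ⊔ C := by
    rintro _ ⟨b, hb, rfl⟩
    exact hb.2
  have hB'p : IsPGroup p B' := (S.2.to_le (inf_le_left.trans (normalizerIn_le _ _))).map _
  have hi : ¬ p ∣ (M.subgroupOf (M ⊔ C)).index := fun hd => R.not_dvd_index (by
    rw [hR]
    exact hd.trans (Dvd.intro _ (Subgroup.relIndex_mul_relIndex M (M ⊔ C) _ le_sup_left hLN)))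
  obtain ⟨⟨l, hl⟩, hconj⟩ := exists_conj_mem_of_pGroup
    (hB'p.of_equiv (Subgroup.subgroupOfEquivOfLe hB'L).symm)
    ((S.2.to_le (normalizerIn_le _ Q)).of_equiv
      (Subgroup.subgroupOfEquivOfLe (le_sup_left : M ≤ M ⊔ C)).symm) hi
  obtain ⟨m, hm, c, hc, hmc⟩ := Set.mem_mul.mp <| (Subgroup.coe_mul_of_left_le_normalizer_right M C
    (hMN.trans (normalizer_le_normalizer_centralizer' _))).le hl
  refine ⟨c, hc, ?_⟩
  rintro _ ⟨b, hb, rfl⟩
  have h1 : l * (g * b * g⁻¹) * l⁻¹ ∈ M := Subgroup.mem_subgroupOf.mp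
    (hconj ⟨_, hB'L ⟨b, hb, rfl⟩⟩ (Subgroup.mem_subgroupOf.mpr ⟨b, hb, rfl⟩))
  have h2 := M.mul_mem (M.mul_mem (M.inv_mem hm) h1) hm
  rw [← hmc] at h2
  show c * g * b * (c * g)⁻¹ ∈ (S : Subgroup G)
  have e : c * g * b * (c * g)⁻¹ = m⁻¹ * (m * c * (g * b * g⁻¹) * (m * c)⁻¹) * m := by group
  rw [e]
  exact h2.1

end CfsgLib.Fusion
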