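import Mathlib
import Cfsg.Agent.Lib.InvolBasic
/-! Counting pairs of involutions (Brauer–Fowler style). -/

namespace CfsgLib.Invol

variable {G : Type*} [Group G] [Finite G]

theorem card_involutions_sq [Fintype G] :
    Nat.card {t : G // orderOf t = 2} * Nat.card {t : G // orderOf t = 2} =
      ∑ x : G, Nat.card {p : G × G // orderOf p.1 = 2 ∧ orderOf p.2 = 2 ∧ p.1 * p.2 = x} := by
  rw [← Nat.card_prod, ← Nat.card_sigma]
  exact Nat.card_congr
    { toFun := fun q => ⟨q.1.1 * q.2.1, ⟨(q.1.1, q.2.1), q.1.2, q.2.2, rfl⟩⟩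
      invFun := fun s => (⟨s.2.1.1, s.2.2.1⟩, ⟨s.2.1.2, s.2.2.2.1⟩)
      left_inv := fun q => rfl
      right_inv := by
        rintro ⟨x, ⟨⟨u, v⟩, hu, hv, he⟩⟩
        subst he
        rfl }

theorem card_pairs_one :
    Nat.card {p : G × G // orderOf p.1 = 2 ∧ orderOf p.2 = 2 ∧ p.1 * p.2 = (1 : G)} =
      Nat.card {t : G // orderOf t = 2} := by
  refine Nat.card_congr
    { toFun := fun p => ⟨p.1.1, p.2.1⟩
      invFun := fun t => ⟨(t.1, t.1), t.2, t.2, mul_self_of_orderOf_two t.2⟩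
      left_inv := ?_
      right_inv := fun t => rfl }
  rintro ⟨⟨u, v⟩, hu, hv, he⟩
  apply Subtype.ext
  refine Prod.ext rfl ?_
  change u = v
  exact (inv_of_orderOf_two hu).symm.trans (inv_eq_of_mul_eq_one_right he)

theorem exists_ext_centralizer {x : G} (hr : IsConj x x⁻¹) (hne : x⁻¹ ≠ x) :
    ∃ K : Subgroup G, Subgroup.centralizer ({x} : Set G) ≤ K ∧
      Nat.card K = 2 * Nat.card (Subgroup.centralizer ({x} : Set G)) := by
  classical
  let K : Subgroup G :=
    { carrier := {g | g * x * g⁻¹ = x ∨ g * x * g⁻¹ = x⁻¹}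
      one_mem' := Or.inl (by group)
      mul_mem' := by
        intro a b ha hb
        simp only [Set.mem_setOf_eq] at ha hb ⊢
        have e : a * b * x * (a * b)⁻¹ = a * (b * x * b⁻¹) * a⁻¹ := by group
        rw [e]
        rcases hb with hb | hb <;> rw [hb]
        · exact ha
        · rw [show a * x⁻¹ * a⁻¹ = (a * x * a⁻¹)⁻¹ by group]
          rcases ha with ha | ha <;> rw [ha]
          · exact Or.inr rfl
          · exact Or.inl (inv_inv x)
      inv_mem' := by
        intro a ha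
        simp only [Set.mem_setOf_eq, inv_inv] at ha ⊢
        rcases ha with ha | ha
        · left
          calc a⁻¹ * x * a = a⁻¹ * (a * x * a⁻¹) * a := by rw [ha]
            _ = x := by group
        · right
          calc a⁻¹ * x * a = (a⁻¹ * x⁻¹ * a)⁻¹ := by group
            _ = (a⁻¹ * (a * x * a⁻¹) * a)⁻¹ := by rw [ha]
            _ = x⁻¹ := by group }
  refine ⟨K, fun g hg => Or.inl (mem_centralizer_singleton_conj.mp hg), ?_⟩
  have h1 : ((K : Set G)) = {g | g * x * g⁻¹ = x} ∪ {g | g * x * g⁻¹ = x⁻¹} := rfl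
  have hd : Disjoint {g | g * x * g⁻¹ = x} {g : G | g * x * g⁻¹ = x⁻¹} := by
    rw [Set.disjoint_left]
    intro g (h : g * x * g⁻¹ = x) (h' : g * x * g⁻¹ = x⁻¹)
    exact hne (h'.symm.trans h)
  have h2 : {g | g * x * g⁻¹ = x} = (Subgroup.centralizer ({x} : Set G) : Set G) := by
    ext g; exact mem_centralizer_singleton_conj.symm
  have h3 := card_transporter hr
  rw [show Nat.card K = (K : Set G).ncard from Nat.card_coe_set_eq _, h1, Set.ncard_union_eq hd,
    ← Nat.card_coe_set_eq, ← Nat.card_coe_set_eq, Nat.card_congr (Equiv.setCongr h2)]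
  change _ + Nat.card {g : G // g * x * g⁻¹ = x⁻¹} = _
  rw [h3]
  simp only [SetLike.coe_sort_coe]
  omega

/-- Subgroups of largest proper order. -/
theorem exists_max_proper [Nontrivial G] :
    ∃ H : Subgroup G, H ≠ ⊤ ∧ ∀ K : Subgroup G, K ≠ ⊤ → Nat.card K ≤ Nat.card H := by
  obtain ⟨H, hH, hmax⟩ := Set.exists_max_image {K : Subgroup G | K ≠ ⊤} (fun K => Nat.card K)
    (Set.toFinite _) ⟨⊥, bot_ne_top⟩
  exact ⟨H, hH, hmax⟩

end CfsgLib.Invol
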