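import Mathlib

/-!
Automorphisms of the alternating groups.
-/

set_option autoImplicit false

namespace CfsgLib.AutAlt

open Equiv Equiv.Perm MulAction
open scoped Pointwise

variable {Ω : Type*} [Fintype Ω] [DecidableEq Ω]

theorem even_pow_thirty : ∀ k ≤ 5, ∀ z : Perm (Fin k), Perm.sign z = 1 → z ^ 30 = 1 := by
  decide +kernel

/-- The product of two three-cycles with supports in five points, or disjoint, has order dividing 30. -/
theorem threeCycle_prod {x y : Perm Ω} (hx : x.IsThreeCycle) (hy : y.IsThreeCycle) : (x * y) ^ 30 = 1 := by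
  by_cases hd : Disjoint x.support y.support
  · have hc : Commute x y := (Perm.disjoint_iff_disjoint_support.2 hd).commute
    have h3x : x ^ 3 = 1 := by rw [← hx.orderOf]; exact pow_orderOf_eq_one x
    have h3y : y ^ 3 = 1 := by rw [← hy.orderOf]; exact pow_orderOf_eq_one y
    rw [hc.mul_pow, show (30 : ℕ) = 3 * 10 from rfl, pow_mul, pow_mul, h3x, h3y, one_pow, one_mul]
  set S := x.support ∪ y.support with hS
  have hcard : S.card ≤ 5 := by
    have h := Finset.card_union_add_card_inter x.support y.support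
    rw [hx.card_support, hy.card_support] at h
    have : 0 < (x.support ∩ y.support).card := Finset.card_pos.2 (Finset.not_disjoint_iff_nonempty_inter.1 hd)
    rw [hS]; omega
  have hz : ∀ a, (x * y) a ≠ a → a ∈ S := fun a ha => by
    by_contra h
    rw [hS, Finset.mem_union, not_or, Perm.notMem_support, Perm.notMem_support] at h
    exact ha (by rw [Perm.mul_apply, h.2, h.1])
  have hinv : ∀ a, (x * y) a ∈ S ↔ a ∈ S := by
    intro a
    by_cases ha : (x * y) a = a
    · rw [ha]
    · exact iff_of_true (hz _ fun e => ha ((x * y).injective e)) (hz a ha)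
  set z := (x * y).subtypePerm hinv
  have hof : Perm.ofSubtype z = x * y := Perm.ofSubtype_subtypePerm hinv hz
  let e : {a // a ∈ S} ≃ Fin S.card := S.equivFin
  have hsz : Perm.sign z = 1 := by
    rw [← Perm.sign_ofSubtype z, hof, map_mul, hx.sign, hy.sign, one_mul]
  have h := even_pow_thirty S.card hcard (e.permCongr z) (by rw [Perm.sign_permCongr, hsz])
  rw [← hof, ← map_pow]
  have : e.permCongrHom (z ^ 30) = 1 := by rw [map_pow]; exact h
  rw [(map_eq_one_iff _ e.permCongrHom.injective).1 this, map_one]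

theorem small_bad₇ : ((swap (0 : Fin 7) 1 * swap 1 2 * (swap 3 4 * swap 4 5)) * ((swap 2 3 * swap 5 6) *
    (swap (0 : Fin 7) 1 * swap 1 2 * (swap 3 4 * swap 4 5)) * (swap 2 3 * swap 5 6)⁻¹)) ^ 30 ≠ 1 := by
  decide +kernel

theorem small_bad₉ : ((swap (0 : Fin 9) 1 * swap 1 2 * (swap 3 4 * swap 4 5) * (swap 6 7 * swap 7 8)) *
    ((swap 2 3 * swap 5 6) * (swap (0 : Fin 9) 1 * swap 1 2 * (swap 3 4 * swap 4 5) * (swap 6 7 * swap 7 8)) *
      (swap 2 3 * swap 5 6)⁻¹)) ^ 30 ≠ 1 := by
  decide +kernel

theorem transport {β : Type*} [Fintype β] [DecidableEq β] (x : Perm Ω) (xβ : Perm β) (f : β → Ω)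
    (hf : Function.Injective f) (hxf : ∀ b, x (f b) = f (xβ b)) (i j k l : β) (hij : i ≠ j) (hkl : k ≠ l)
    (hbad : (xβ * ((swap i j * swap k l) * xβ * (swap i j * swap k l)⁻¹)) ^ 30 ≠ 1) :
    ∃ g : alternatingGroup Ω, (x * ((g : Perm Ω) * x * (g : Perm Ω)⁻¹)) ^ 30 ≠ 1 := by
  refine ⟨⟨swap (f i) (f j) * swap (f k) (f l), ?_⟩, fun h => hbad (Equiv.ext fun b => hf ?_)⟩
  · rw [Perm.mem_alternatingGroup, map_mul, sign_swap (hf.ne hij), sign_swap (hf.ne hkl)]
    decide
  have hstep : ∀ b, (x * ((swap (f i) (f j) * swap (f k) (f l)) * x * (swap (f i) (f j) * swap (f k) (f l))⁻¹)) (f b) =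
      f ((xβ * ((swap i j * swap k l) * xβ * (swap i j * swap k l)⁻¹)) b) := by
    intro b
    simp only [Perm.mul_apply, _root_.mul_inv_rev, Equiv.swap_inv, hf.swap_apply, hxf]
  have hiter : ∀ (m : ℕ) b, ((x * ((swap (f i) (f j) * swap (f k) (f l)) * x * (swap (f i) (f j) * swap (f k) (f l))⁻¹)) ^ m) (f b) =
      f (((xβ * ((swap i j * swap k l) * xβ * (swap i j * swap k l)⁻¹)) ^ m) b) := by
    intro m
    induction m with
    | zero => intro b; simp
    | succ m ih => intro b; rw [pow_succ', pow_succ', Perm.mul_apply, ih, hstep]; rfl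
  have h30 := hiter 30 b
  have h' : ((x * ((swap (f i) (f j) * swap (f k) (f l)) * x * (swap (f i) (f j) * swap (f k) (f l))⁻¹)) ^ 30) = 1 := h
  rw [h', Perm.one_apply] at h30
  rw [Perm.one_apply]
  exact h30.symm

/-- An element of order three which is not a three-cycle has a conjugate giving a product of bad order. -/
theorem exists_bad (h7 : 7 ≤ Fintype.card Ω) (x : Perm Ω) (h3 : x ^ 3 = 1) (h1 : x ≠ 1) (hnot : ¬ x.IsThreeCycle) :
    ∃ g : alternatingGroup Ω, (x * ((g : Perm Ω) * x * (g : Perm Ω)⁻¹)) ^ 30 ≠ 1 := by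
  have hper : ∀ a, x (x (x a)) = a := fun a => by
    have := congrArg (fun s : Perm Ω => s a) h3
    simpa [pow_succ, Perm.mul_apply] using this
  have hdist : ∀ a, x a ≠ a → a ≠ x a ∧ a ≠ x (x a) ∧ x a ≠ x (x a) := by
    intro a ha
    refine ⟨ha.symm, fun e => ha ?_, fun e => ha (x.injective e.symm)⟩
    calc x a = x (x (x a)) := congrArg x e
      _ = a := hper a
  obtain ⟨a, ha⟩ : ∃ a, x a ≠ a := by
    by_contra! h
    exact h1 (Equiv.ext h)
  obtain ⟨b, hb, hba⟩ : ∃ b, x b ≠ b ∧ b ∉ ({a, x a, x (x a)} : Finset Ω) := by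
    by_contra! h
    refine hnot (card_support_eq_three_iff.1 (le_antisymm ?_ ?_))
    · refine (Finset.card_le_card fun b hb => h b (Perm.mem_support.1 hb)).trans ?_
      exact Finset.card_le_three
    · have hsub : ({a, x a, x (x a)} : Finset Ω) ⊆ x.support := by
        intro z hz
        simp only [Finset.mem_insert, Finset.mem_singleton] at hz
        rw [Perm.mem_support]
        rcases hz with rfl | rfl | rfl
        · exact ha
        · exact fun e => ha (x.injective e)
        · exact fun e => ha (x.injective (x.injective e))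
      have := Finset.card_le_card hsub
      rwa [Finset.card_eq_three.2 ⟨a, x a, x (x a), (hdist a ha).1, (hdist a ha).2.1, (hdist a ha).2.2, rfl⟩] at this
  simp only [Finset.mem_insert, Finset.mem_singleton, not_or] at hba
  obtain ⟨d1, d2, d3⟩ := hdist a ha
  obtain ⟨e1, e2, e3⟩ := hdist b hb
  have f1 : x b ≠ a ∧ x b ≠ x a ∧ x b ≠ x (x a) :=
    ⟨fun e => hba.2.2 (by rw [← hper b, e]), fun e => hba.1 (x.injective e), fun e => hba.2.1 (x.injective e)⟩
  have f2 : x (x b) ≠ a ∧ x (x b) ≠ x a ∧ x (x b) ≠ x (x a) :=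
    ⟨fun e => hba.2.1 (by rw [← hper b, e]), fun e => hba.2.2 (by rw [← hper b, e]),
      fun e => hba.1 (x.injective (x.injective e))⟩
  obtain ⟨c, hc⟩ : ∃ c, c ∉ ({a, x a, x (x a), b, x b, x (x b)} : Finset Ω) := by
    by_contra! h
    have h' := Finset.card_le_card (show (Finset.univ : Finset Ω) ⊆ _ from fun z _ => h z)
    have := h'.trans Finset.card_le_six
    rw [Finset.card_univ] at this
    omega
  simp only [Finset.mem_insert, Finset.mem_singleton, not_or] at hc
  obtain ⟨c1, c2, c3, c4, c5, c6⟩ := hc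
  by_cases hcf : x c = c
  · refine transport x _ ![a, x a, x (x a), b, x b, x (x b), c] ?_ ?_ 2 3 5 6 (by decide) (by decide) small_bad₇
    · rw [← List.nodup_ofFn]
      simp only [List.ofFn_succ, List.ofFn_zero, List.nodup_cons, List.mem_cons, List.not_mem_nil]
      simp [d1, d2, d3, e1, e2, e3, hba.1, hba.2.1, hba.2.2, Ne.symm hba.1, Ne.symm hba.2.1, Ne.symm hba.2.2,
        f1.1.symm, f1.2.1.symm, f1.2.2.symm, f2.1.symm, f2.2.1.symm, f2.2.2.symm,
        Ne.symm c1, Ne.symm c2, Ne.symm c3, Ne.symm c4, Ne.symm c5, Ne.symm c6]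
    · intro i
      fin_cases i <;> simp [Equiv.swap_apply_def, hper, hcf]
  · obtain ⟨g1, g2, g3⟩ := hdist c hcf
    have k1 : x c ≠ a ∧ x c ≠ x a ∧ x c ≠ x (x a) ∧ x c ≠ b ∧ x c ≠ x b ∧ x c ≠ x (x b) :=
      ⟨fun e => c3 (by rw [← hper c, e]), fun e => c1 (x.injective e), fun e => c2 (x.injective e),
        fun e => c6 (by rw [← hper c, e]), fun e => c4 (x.injective e), fun e => c5 (x.injective e)⟩
    have k2 : x (x c) ≠ a ∧ x (x c) ≠ x a ∧ x (x c) ≠ x (x a) ∧ x (x c) ≠ b ∧ x (x c) ≠ x b ∧ x (x c) ≠ x (x b) :=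
      ⟨fun e => c2 (by rw [← hper c, e]), fun e => c3 (by rw [← hper c, e]), fun e => c1 (x.injective (x.injective e)),
        fun e => c5 (by rw [← hper c, e]), fun e => c6 (by rw [← hper c, e]), fun e => c4 (x.injective (x.injective e))⟩
    refine transport x _ ![a, x a, x (x a), b, x b, x (x b), c, x c, x (x c)] ?_ ?_ 2 3 5 6 (by decide) (by decide) small_bad₉
    · rw [← List.nodup_ofFn]
      simp only [List.ofFn_succ, List.ofFn_zero, List.nodup_cons, List.mem_cons, List.not_mem_nil]
      simp [d1, d2, d3, e1, e2, e3, hba.1, hba.2.1, hba.2.2, Ne.symm hba.1, Ne.symm hba.2.1, Ne.symm hba.2.2,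
        f1.1.symm, f1.2.1.symm, f1.2.2.symm, f2.1.symm, f2.2.1.symm, f2.2.2.symm,
        Ne.symm c1, Ne.symm c2, Ne.symm c3, Ne.symm c4, Ne.symm c5, Ne.symm c6, g1, g2, g3,
        k1.1.symm, k1.2.1.symm, k1.2.2.1.symm, k1.2.2.2.1.symm, k1.2.2.2.2.1.symm, k1.2.2.2.2.2.symm,
        k2.1.symm, k2.2.1.symm, k2.2.2.1.symm, k2.2.2.2.1.symm, k2.2.2.2.2.1.symm, k2.2.2.2.2.2.symm]
    · intro i
      fin_cases i <;> simp [Equiv.swap_apply_def, hper]

/-- Automorphisms of the alternating group preserve the three-cycles outside degree six. -/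
theorem map_threeCycle (h5 : 5 ≤ Fintype.card Ω) (h6 : Fintype.card Ω ≠ 6)
    (φ : MulAut (alternatingGroup Ω)) (x : alternatingGroup Ω) (hx : (x : Perm Ω).IsThreeCycle) :
    ((φ x : alternatingGroup Ω) : Perm Ω).IsThreeCycle := by
  by_contra hnot
  have hord : orderOf ((φ x : alternatingGroup Ω) : Perm Ω) = 3 := by
    rw [Subgroup.orderOf_coe, φ.orderOf_eq, ← Subgroup.orderOf_coe, hx.orderOf]
  have h3 : ((φ x : alternatingGroup Ω) : Perm Ω) ^ 3 = 1 := by rw [← hord]; exact pow_orderOf_eq_one _
  have h1 : ((φ x : alternatingGroup Ω) : Perm Ω) ≠ 1 := fun e => by rw [e, orderOf_one] at hord; omega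
  rcases Nat.lt_or_ge (Fintype.card Ω) 7 with h | h
  · refine hnot (card_support_eq_three_iff.1 ?_)
    obtain ⟨r, hr⟩ := Perm.cycleType_prime_order (by rw [hord]; norm_num : (orderOf ((φ x : alternatingGroup Ω) : Perm Ω)).Prime)
    have hs := Perm.sum_cycleType ((φ x : alternatingGroup Ω) : Perm Ω)
    rw [hr, hord, Multiset.sum_replicate, smul_eq_mul] at hs
    have := Finset.card_le_univ ((φ x : alternatingGroup Ω) : Perm Ω).support
    omega
  · obtain ⟨g, hg⟩ := exists_bad h _ h3 h1 hnot
    apply hg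
    have hy : ((φ.symm g * x * (φ.symm g)⁻¹ : alternatingGroup Ω) : Perm Ω).IsThreeCycle := by
      simp only [Subgroup.coe_mul, Subgroup.coe_inv]
      rw [Perm.IsThreeCycle, Perm.cycleType_conj]
      exact hx
    have h30 := threeCycle_prod hx hy
    have h' : (x * (φ.symm g * x * (φ.symm g)⁻¹)) ^ 30 = 1 := Subtype.ext (by simpa using h30)
    have h'' := congrArg φ h'
    simp only [map_pow, map_mul, map_inv, MulEquiv.apply_symm_apply, map_one] at h''
    simpa using congrArg Subtype.val h''

/-- The three-cycles fixing a point. -/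
def fix3 (a : Ω) : Set (alternatingGroup Ω) := {g | (g : Perm Ω).IsThreeCycle ∧ (g : Perm Ω) a = a}

theorem stabilizer_eq_closure (a : Ω) :
    stabilizer (alternatingGroup Ω) a = Subgroup.closure (fix3 a) := by
  refine le_antisymm (fun g hg => ?_) ((Subgroup.closure_le _).2 fun s hs => hs.2)
  have hga : (g : Perm Ω) a = a := hg
  have hinv : ∀ z, (g : Perm Ω) z ≠ a ↔ z ≠ a := fun z =>
    not_congr ⟨fun e => (g : Perm Ω).injective (e.trans hga.symm), fun e => by rw [e, hga]⟩
  have hof : Perm.ofSubtype ((g : Perm Ω).subtypePerm (p := fun z => z ≠ a) hinv) = (g : Perm Ω) :=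
    Perm.ofSubtype_subtypePerm (p := fun z => z ≠ a) hinv fun z hz e => hz (by rw [e, hga])
  have hsub : (g : Perm Ω).subtypePerm (p := fun z => z ≠ a) hinv ∈ alternatingGroup {z // z ≠ a} := by
    rw [Perm.mem_alternatingGroup, ← Perm.sign_ofSubtype, hof]
    exact g.2
  rw [← Perm.closure_three_cycles_eq_alternating] at hsub
  have hle : Subgroup.closure {s : Perm {z // z ≠ a} | s.IsThreeCycle} ≤
      ((Subgroup.closure (fix3 a)).map (alternatingGroup Ω).subtype).comap (Perm.ofSubtype (p := fun z => z ≠ a)) := by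
    rw [Subgroup.closure_le]
    intro s hs
    have h3 : (Perm.ofSubtype s).IsThreeCycle := by
      rw [Perm.IsThreeCycle, Perm.cycleType_ofSubtype]
      exact hs
    exact ⟨⟨_, h3.mem_alternatingGroup⟩, Subgroup.subset_closure ⟨h3, Perm.ofSubtype_apply_of_not_mem s (by simp)⟩, rfl⟩
  obtain ⟨g', hg', e⟩ := hle hsub
  rw [hof] at e
  rwa [← Subtype.ext e]

theorem choose_big : ∀ {n k : ℕ}, 4 ≤ n → 2 ≤ k → k + 2 ≤ n → n < n.choose k := by
  intro n
  induction n with
  | zero => intros; omega
  | succ n ih =>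
    intro k h4 hk hkn
    rcases Nat.lt_or_ge n 4 with hn | hn
    · obtain rfl : n = 3 := by omega
      obtain rfl : k = 2 := by omega
      decide
    obtain ⟨j, rfl⟩ : ∃ j, k = j + 1 := ⟨k - 1, by omega⟩
    rw [Nat.choose_succ_succ]
    show n + 1 < n.choose j + n.choose (j + 1)
    rcases eq_or_ne j 1 with rfl | hj
    · have := ih hn le_rfl (by omega : 2 + 2 ≤ n)
      rw [Nat.choose_one_right]
      show n + 1 < n + n.choose 2
      omega
    rcases eq_or_ne (j + 2) (n + 1) with hjn | hjn
    · have := ih hn (by omega : 2 ≤ j) (by omega)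
      omega
    rcases eq_or_ne (j + 2) n with hjn2 | hjn2
    · have := ih hn (by omega : 2 ≤ j) (by omega)
      have h1 : n.choose (j + 1) = n := by
        rw [← hjn2, Nat.choose_symm_add (a := j + 1) (b := 1), Nat.choose_one_right]
      omega
    · have := ih hn (by omega : 2 ≤ j) (by omega)
      have := ih hn (by omega : 2 ≤ j + 1) (by omega)
      omega

/-- A subgroup of index `n` of the alternating group generated by three-cycles fixes a point. -/
theorem exists_point (h5 : 5 ≤ Fintype.card Ω) (H : Subgroup (Perm Ω)) (hle : H ≤ alternatingGroup Ω)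
    (S : Set (Perm Ω)) (hS : ∀ s ∈ S, s.IsThreeCycle) (hgen : H = Subgroup.closure S)
    (hidx : H.index = 2 * Fintype.card Ω) : ∃ z, ∀ h ∈ H, h z = z := by
  classical
  haveI : Nonempty Ω := Fintype.card_pos_iff.1 (by omega)
  haveI : Nontrivial Ω := Fintype.one_lt_card_iff_nontrivial.1 (by omega)
  obtain ⟨s₀, hs₀⟩ : S.Nonempty := by
    by_contra h
    rw [Set.not_nonempty_iff_eq_empty] at h
    rw [hgen, h, Subgroup.closure_empty, Subgroup.index_bot, Nat.card_perm, Nat.card_eq_fintype_card] at hidx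
    obtain ⟨m, hm⟩ : ∃ m, Fintype.card Ω = m + 1 := ⟨Fintype.card Ω - 1, by omega⟩
    rw [hm, Nat.factorial_succ, mul_comm 2] at hidx
    have h2 := Nat.eq_of_mul_eq_mul_left (by omega) hidx
    have := Nat.self_le_factorial m
    omega
  obtain ⟨x, hx⟩ : ∃ x, orbit H x ≠ Set.univ := by
    by_contra! h
    haveI : IsPretransitive H Ω := ⟨fun u v => by
      have : v ∈ orbit H u := by rw [h u]; trivial
      exact this⟩
    haveI : IsPreprimitive H Ω := by
      constructor
      intro B hB
      by_contra hBt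
      rw [MulAction.IsTrivialBlock, not_or, Set.not_subsingleton_iff] at hBt
      obtain ⟨⟨u, hu, v, hv, huv⟩, hne⟩ := hBt
      obtain ⟨w, hw⟩ : ∃ w, w ∉ B := by
        by_contra! hall
        exact hne (Set.eq_univ_of_forall hall)
      have hfix : ∀ h' ∈ H, ∀ g : H, (h' : Perm Ω) • (g • B) = g • B := by
        intro h' hh'
        rw [hgen] at hh'
        induction hh' using Subgroup.closure_induction with
        | mem s hs =>
          intro g
          have hsH : s ∈ H := hgen ▸ Subgroup.subset_closure hs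
          have hBg : IsBlock H (g • B) := hB.translate g
          rcases hBg.smul_eq_or_disjoint (⟨s, hsH⟩ : H) with e | hd
          · exact e
          exfalso
          have hmove : ∀ z ∈ g • B, s z ≠ z ∧ s z ∉ g • B := fun z hz => by
            have h1 : s z ∈ (⟨s, hsH⟩ : H) • (g • B) := ⟨z, hz, rfl⟩
            exact ⟨fun e => Set.disjoint_left.1 hd h1 (by rw [e]; exact hz), Set.disjoint_left.1 hd h1⟩
          have hgu : g • u ∈ g • B := ⟨u, hu, rfl⟩
          have hgv : g • v ∈ g • B := ⟨v, hv, rfl⟩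
          obtain ⟨m1, n1⟩ := hmove _ hgu
          obtain ⟨m2, n2⟩ := hmove _ hgv
          have hne' : g • u ≠ g • v := fun e => huv (MulAction.injective g e)
          have hsub : ({g • u, g • v, s (g • u), s (g • v)} : Finset Ω) ⊆ s.support := by
            intro z hz
            simp only [Finset.mem_insert, Finset.mem_singleton] at hz
            rw [Perm.mem_support]
            rcases hz with rfl | rfl | rfl | rfl
            · exact m1
            · exact m2
            · exact fun e => m1 (s.injective e)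
            · exact fun e => m2 (s.injective e)
          have hc4 : ({g • u, g • v, s (g • u), s (g • v)} : Finset Ω).card = 4 := by
            rw [Finset.card_insert_of_notMem, Finset.card_insert_of_notMem, Finset.card_insert_of_notMem,
              Finset.card_singleton]
            · simpa using fun e => hne' e
            · simp only [Finset.mem_insert, Finset.mem_singleton, not_or]
              exact ⟨fun e => n1 (by rw [← e]; exact hgv), fun e => n2 (by rw [← e]; exact hgv)⟩
            · simp only [Finset.mem_insert, Finset.mem_singleton, not_or]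
              exact ⟨hne', fun e => n1 (by rw [← e]; exact hgu), fun e => n2 (by rw [← e]; exact hgu)⟩
          have := Finset.card_le_card hsub
          rw [(hS s hs).card_support, hc4] at this
          omega
        | one => intro g; rw [one_smul]
        | mul p q _ _ ihp ihq => intro g; rw [mul_smul, ihq, ihp]
        | inv p _ ih => intro g; rw [inv_smul_eq_iff, ih]
      obtain ⟨g, hg⟩ := exists_smul_eq H u w
      have h1 := hfix (g : Perm Ω) g.2 1
      rw [one_smul] at h1
      exact hw (h1 ▸ (⟨u, hu, hg⟩ : w ∈ (g : Perm Ω) • B))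
    have hA := Equiv.Perm.alternatingGroup_le_of_isPreprimitive_of_isThreeCycle_mem
      (G := H) (by infer_instance) (g := s₀) (hS s₀ hs₀) (hgen ▸ Subgroup.subset_closure hs₀)
    rw [le_antisymm hle hA, alternatingGroup.index_eq_two] at hidx
    omega
  set O := orbit H x with hO
  have hinv : ∀ h ∈ H, ∀ z, z ∈ O → h z ∈ O := fun h hh z hz => mem_orbit_of_mem_orbit (⟨h, hh⟩ : H) hz
  have hstab : H ≤ stabilizer (Perm Ω) O := fun h hh =>
    mem_stabilizer_set_iff_smul_set_subset (Set.toFinite O) |>.mpr (by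
      rintro _ ⟨z, hz, rfl⟩; exact hinv h hh z hz)
  have hO1 : 1 ≤ O.ncard := (Set.ncard_pos (Set.toFinite _)).mpr ⟨x, mem_orbit_self x⟩
  have hO2 : O.ncard < Fintype.card Ω := by
    rw [← Nat.card_eq_fintype_card, ← Set.ncard_univ]
    exact Set.ncard_lt_ncard ((Set.ssubset_univ_iff).mpr hx) (Set.toFinite _)
  rcases (show O.ncard = 1 ∨ O.ncard + 1 = Fintype.card Ω ∨ (2 ≤ O.ncard ∧ O.ncard + 2 ≤ Fintype.card Ω) by omega)
    with h | h | ⟨h, h'⟩
  · obtain ⟨z, hz⟩ := Set.ncard_eq_one.mp h
    exact ⟨z, fun g hg => by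
      have := hinv g hg z (by rw [hz]; rfl)
      rw [hz] at this; exact this⟩
  · have hc : Oᶜ.ncard = 1 := by
      have := Set.ncard_add_ncard_compl O
      rw [Nat.card_eq_fintype_card] at this
      omega
    obtain ⟨z, hz⟩ := Set.ncard_eq_one.mp hc
    refine ⟨z, fun g hg => ?_⟩
    have hzO : z ∉ O := show z ∈ Oᶜ by rw [hz]; rfl
    have : g z ∈ Oᶜ := fun hgz => hzO (by simpa using hinv g⁻¹ (H.inv_mem hg) _ hgz)
    rw [hz] at this; exact this
  exfalso
  -- the set stabiliser contains an odd permutation, so its index is a proper divisor of `2n`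
  obtain ⟨u, hu, v, hv, huv⟩ := (Set.one_lt_ncard (Set.toFinite O)).1 (by omega : 1 < O.ncard)
  have hsw : swap u v ∈ stabilizer (Perm Ω) O := by
    refine mem_stabilizer_set_iff_smul_set_subset (Set.toFinite O) |>.mpr ?_
    rintro _ ⟨z, hz, rfl⟩
    show swap u v z ∈ O
    rcases eq_or_ne z u with rfl | hzu
    · rwa [swap_apply_left]
    rcases eq_or_ne z v with rfl | hzv
    · rwa [swap_apply_right]
    rwa [swap_apply_of_ne_of_ne hzu hzv]
  have hne : swap u v ∉ H := fun e => by
    have := hle e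
    rw [Perm.mem_alternatingGroup, sign_swap huv] at this
    exact absurd this (by decide)
  have hidx2 : 2 * (stabilizer (Perm Ω) O).index ≤ H.index := by
    rw [← Subgroup.relIndex_mul_index hstab]
    refine Nat.mul_le_mul_right _ ?_
    have h0 : H.relIndex (stabilizer (Perm Ω) O) ≠ 0 := Subgroup.index_ne_zero_of_finite
    have h1 : H.relIndex (stabilizer (Perm Ω) O) ≠ 1 := fun e => hne (Subgroup.relIndex_eq_one.1 e hsw)
    omega
  rw [index_stabilizer] at hidx2
  have hcount : (Fintype.card Ω).choose O.ncard ≤ (orbit (Perm Ω) O).ncard := by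
    have hsub : {t : Set Ω | t.ncard = O.ncard} ⊆ orbit (Perm Ω) O := fun t ht => by
      obtain ⟨σ, hσ⟩ : ∃ σ : Perm Ω, σ '' O = t := by
        have e : {z // z ∈ O} ≃ {z // z ∈ t} := Fintype.equivOfCardEq (by
          rw [← Nat.card_eq_fintype_card, ← Nat.card_eq_fintype_card, Nat.card_coe_set_eq, Nat.card_coe_set_eq]; exact ht.symm)
        refine ⟨e.extendSubtype, Set.eq_of_subset_of_ncard_le ?_ (le_of_eq ?_) (Set.toFinite _)⟩
        · rintro _ ⟨z, hz, rfl⟩; exact e.extendSubtype_mem z hz
        · rw [Set.ncard_image_of_injective _ (Equiv.injective _)]; exact ht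
      exact ⟨σ, hσ⟩
    refine le_trans (le_of_eq ?_) (Set.ncard_le_ncard hsub (Set.toFinite _))
    rw [← Finset.card_univ, ← Finset.card_powersetCard O.ncard (Finset.univ : Finset Ω), ← Set.ncard_coe_finset,
      ← Set.ncard_image_of_injective _ (Finset.coe_injective (α := Ω))]
    congr 1
    ext t
    simp only [Set.mem_image, Finset.mem_coe, Finset.mem_powersetCard, Finset.subset_univ, true_and, Set.mem_setOf_eq]
    constructor
    · rintro ⟨w, hw, rfl⟩; rw [Set.ncard_coe_finset, hw]
    · intro ht; exact ⟨t.toFinset, by rw [← Set.ncard_eq_toFinset_card', ht], Set.coe_toFinset t⟩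
  have := choose_big (by omega : 4 ≤ Fintype.card Ω) h h'
  omega

theorem index_stab (h5 : 3 ≤ Fintype.card Ω) (a : Ω) :
    (stabilizer (alternatingGroup Ω) a).index = Fintype.card Ω := by
  haveI := alternatingGroup.isPretransitive_of_three_le_card Ω (by rwa [Nat.card_eq_fintype_card])
  rw [index_stabilizer_of_transitive, Nat.card_eq_fintype_card]

theorem stab_inj (h4 : 4 ≤ Fintype.card Ω) {a b : Ω}
    (h : stabilizer (alternatingGroup Ω) a ≤ stabilizer (alternatingGroup Ω) b) : a = b := by
  by_contra hne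
  obtain ⟨c, hc⟩ : ∃ c, c ∉ ({a, b} : Finset Ω) := by
    by_contra! hall
    have := (Finset.card_le_card (show (Finset.univ : Finset Ω) ⊆ _ from fun z _ => hall z)).trans Finset.card_le_two
    rw [Finset.card_univ] at this
    omega
  obtain ⟨d, hd⟩ : ∃ d, d ∉ ({a, b, c} : Finset Ω) := by
    by_contra! hall
    have := (Finset.card_le_card (show (Finset.univ : Finset Ω) ⊆ _ from fun z _ => hall z)).trans Finset.card_le_three
    rw [Finset.card_univ] at this
    omega
  simp only [Finset.mem_insert, Finset.mem_singleton, not_or] at hc hd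
  have hg : swap b c * swap b d ∈ alternatingGroup Ω := by
    rw [Perm.mem_alternatingGroup, map_mul, sign_swap (Ne.symm hc.2), sign_swap (Ne.symm hd.2.1)]
    decide
  have := h (show (⟨_, hg⟩ : alternatingGroup Ω) ∈ stabilizer (alternatingGroup Ω) a by
    show (swap b c * swap b d) a = a
    rw [Perm.mul_apply, swap_apply_of_ne_of_ne hne (Ne.symm hd.1), swap_apply_of_ne_of_ne hne (Ne.symm hc.1)])
  have hb : (swap b c * swap b d) b = b := this
  rw [Perm.mul_apply, swap_apply_left, swap_apply_of_ne_of_ne hd.2.1 hd.2.2] at hb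
  exact hd.2.1 hb

theorem conjNormal_injective (h4 : 4 ≤ Fintype.card Ω) :
    Function.Injective (MulAut.conjNormal : Perm Ω →* MulAut ↥(alternatingGroup Ω)) := by
  rw [injective_iff_map_eq_one]
  intro σ hσ
  refine Equiv.ext fun a => (stab_inj h4 fun g hg => ?_).symm
  show (g : Perm Ω) (σ a) = σ a
  have hc : σ * (g : Perm Ω) * σ⁻¹ = g := by
    rw [← MulAut.conjNormal_apply, hσ]; rfl
  have := congrArg (fun s : Perm Ω => s (σ a)) hc
  simpa [Perm.mul_apply, show (g : Perm Ω) a = a from hg] using this.symm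

theorem conjNormal_surjective (h5 : 5 ≤ Fintype.card Ω) (h6 : Fintype.card Ω ≠ 6) :
    Function.Surjective (MulAut.conjNormal : Perm Ω →* MulAut ↥(alternatingGroup Ω)) := by
  intro φ
  haveI : Nontrivial Ω := Fintype.one_lt_card_iff_nontrivial.1 (by omega)
  have hpt : ∀ a : Ω, ∃ b : Ω, (stabilizer (alternatingGroup Ω) a).map φ.toMonoidHom = stabilizer (alternatingGroup Ω) b := by
    intro a
    set H₀ := (stabilizer (alternatingGroup Ω) a).map φ.toMonoidHom with hH₀
    have hidx₀ : H₀.index = Fintype.card Ω := by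
      rw [hH₀]
      exact (Subgroup.index_map_equiv _ φ).trans (index_stab (by omega) a)
    have hgen₀ : H₀.map (alternatingGroup Ω).subtype =
        Subgroup.closure ((fun g => ((φ g : alternatingGroup Ω) : Perm Ω)) '' fix3 a) := by
      rw [hH₀, stabilizer_eq_closure, MonoidHom.map_closure, MonoidHom.map_closure, ← Set.image_comp]
      rfl
    obtain ⟨z, hz⟩ := exists_point h5 (H₀.map (alternatingGroup Ω).subtype) (Subgroup.map_subtype_le _) _
      (by rintro _ ⟨g, hg, rfl⟩; exact map_threeCycle h5 h6 φ g hg.1) hgen₀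
      (by rw [Subgroup.index_map_subtype, hidx₀, alternatingGroup.index_eq_two]; ring)
    refine ⟨z, Subgroup.eq_of_le_of_card_ge (fun g hg => hz _ ⟨g, hg, rfl⟩) (le_of_eq ?_)⟩
    have e1 := H₀.index_mul_card
    have e2 := (stabilizer (alternatingGroup Ω) z).index_mul_card
    rw [index_stab (by omega)] at e2
    rw [hidx₀] at e1
    exact Nat.eq_of_mul_eq_mul_left (by omega : 0 < Fintype.card Ω) (e2.trans e1.symm)
  choose f hf using hpt
  have hfinj : Function.Injective f := by
    intro a a' e
    have h1 := (hf a).trans ((congrArg _ e).trans (hf a').symm)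
    exact stab_inj (by omega) (Subgroup.map_injective φ.injective h1).le
  let σ : Perm Ω := Equiv.ofBijective f (Finite.injective_iff_bijective.1 hfinj)
  refine ⟨σ, MulEquiv.ext fun g => Subtype.ext (Equiv.ext fun z => ?_)⟩
  obtain ⟨a, rfl⟩ := σ.surjective z
  rw [MulAut.conjNormal_apply]
  show σ ((g : Perm Ω) (σ.symm (σ a))) = ((φ g : alternatingGroup Ω) : Perm Ω) (f a)
  rw [Equiv.symm_apply_apply]
  show f ((g : Perm Ω) a) = _
  refine stab_inj (by omega) (le_of_eq ?_)
  rw [← hf, show (g : Perm Ω) a = g • a from rfl,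
    show ((φ g : alternatingGroup Ω) : Perm Ω) (f a) = (φ g) • f a from rfl,
    stabilizer_smul_eq_stabilizer_map_conj, stabilizer_smul_eq_stabilizer_map_conj, ← hf, Subgroup.map_map,
    Subgroup.map_map]
  congr 1
  ext h
  simp

/-- The surjectivity in degree four. -/
theorem four :
    Function.Surjective (MulAut.conjNormal : Perm (Fin 4) →* MulAut ↥(alternatingGroup (Fin 4))) := by
  have hinj := conjNormal_injective (Ω := Fin 4) (by simp)
  let A := alternatingGroup (Fin 4)
  let t : A := ⟨swap 0 1 * swap 1 2, Perm.mem_alternatingGroup.2 (by decide +kernel)⟩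
  let s : A := ⟨swap 0 1 * swap 2 3, Perm.mem_alternatingGroup.2 (by decide +kernel)⟩
  have hgen : ∀ g : A, ∃ i j : Fin 3, g = t ^ (i : ℕ) ∨ g = t ^ (i : ℕ) * s * t ^ (j : ℕ) := by decide +kernel
  let Φ : MulAut A → {x : A // x ^ 3 = 1 ∧ x ≠ 1} × {x : A // x ^ 2 = 1 ∧ x ≠ 1} := fun φ =>
    (⟨φ t, by rw [← map_pow, show t ^ 3 = 1 by decide +kernel, map_one],
        fun e => absurd ((MulEquiv.map_eq_one_iff φ).1 e) (by decide +kernel)⟩,
     ⟨φ s, by rw [← map_pow, show s ^ 2 = 1 by decide +kernel, map_one],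
        fun e => absurd ((MulEquiv.map_eq_one_iff φ).1 e) (by decide +kernel)⟩)
  have hΦ : Function.Injective Φ := by
    intro φ ψ h
    have h1 : φ t = ψ t := congrArg (fun p => (p.1 : A)) h
    have h2 : φ s = ψ s := congrArg (fun p => (p.2 : A)) h
    refine MulEquiv.ext fun g => ?_
    obtain ⟨i, j, rfl | rfl⟩ := hgen g
    · rw [map_pow, map_pow, h1]
    · simp only [map_mul, map_pow, h1, h2]
  haveI : Finite (MulAut A) := Finite.of_injective Φ hΦ
  refine (hinj.bijective_of_nat_card_le ((Nat.card_le_card_of_injective Φ hΦ).trans ?_)).2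
  rw [Nat.card_eq_fintype_card, Nat.card_perm, Nat.card_fin]
  decide +kernel

end CfsgLib.AutAlt
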