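/-
Additive and quadratic maps of a finite field of characteristic two as combinations of automorphisms.
-/
import Mathlib

set_option autoImplicit false

namespace CfsgLib.Lie.CharTwoMaps

variable {F : Type*} [Field F]

theorem linearIndependent_aut : LinearIndependent F (fun σ : F ≃+* F => ((σ : F →+* F) : F → F)) := by
  have h := (linearIndependent_monoidHom F F).comp
    (fun σ : F ≃+* F => ((σ : F →+* F) : F →* F)) fun σ τ e => RingEquiv.ext fun x => DFunLike.congr_fun e x
  exact h

variable [Fintype F] [CharP F 2]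

theorem card_aut [Algebra (ZMod 2) F] : Nat.card (F ≃+* F) = Module.finrank (ZMod 2) F := by
  haveI : Module.Finite (ZMod 2) F := Module.Finite.of_finite
  haveI : IsGalois (ZMod 2) F := inferInstance
  rw [← IsGalois.card_aut_eq_finrank]
  exact Nat.card_congr
    { toFun := fun σ => AlgEquiv.ofRingEquiv (f := σ) fun x =>
        RingHom.congr_fun (RingHom.ext_zmod ((σ : F →+* F).comp (algebraMap (ZMod 2) F)) (algebraMap (ZMod 2) F)) x
      invFun := fun e => e.toRingEquiv
      left_inv := fun σ => RingEquiv.ext fun _ => rfl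
      right_inv := fun e => AlgEquiv.ext fun _ => rfl }

variable (F)

/-- An automorphism as a linear map over the prime field. -/
def autLin [Algebra (ZMod 2) F] (σ : F ≃+* F) : F →ₗ[ZMod 2] F :=
  (AddMonoidHom.toZModLinearMap 2 (σ : F →+ F))

theorem exists_basis [Algebra (ZMod 2) F] [Fintype (F ≃+* F)] :
    ∃ b : Module.Basis (F ≃+* F) F (F →ₗ[ZMod 2] F), ⇑b = autLin F := by
  haveI : Module.Finite (ZMod 2) F := Module.Finite.of_finite
  haveI : Nonempty (F ≃+* F) := ⟨RingEquiv.refl F⟩
  have hli : LinearIndependent F (autLin F) := by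
    refine LinearIndependent.of_comp (LinearMap.ltoFun (ZMod 2) F F F) ?_
    exact linearIndependent_aut
  have hc : Fintype.card (F ≃+* F) = Module.finrank F (F →ₗ[ZMod 2] F) := by
    rw [Module.finrank_linearMap_self, ← card_aut, Nat.card_eq_fintype_card]
  exact ⟨basisOfLinearIndependentOfCardEqFinrank hli hc, coe_basisOfLinearIndependentOfCardEqFinrank hli hc⟩

variable {F}

theorem exists_additive (f : F →+ F) : ∃ (s : Finset (F ≃+* F)) (c : (F ≃+* F) → F), ∀ x : F, f x = ∑ σ ∈ s, c σ * σ x := by
  letI := ZMod.algebra F 2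
  haveI : Finite (F ≃+* F) := Finite.of_injective (fun σ : F ≃+* F => (σ : F → F)) DFunLike.coe_injective
  letI := Fintype.ofFinite (F ≃+* F)
  obtain ⟨b, hb⟩ := exists_basis F
  refine ⟨Finset.univ, fun σ => b.repr (AddMonoidHom.toZModLinearMap 2 f) σ, fun x => ?_⟩
  have h := LinearMap.congr_fun (b.sum_repr (AddMonoidHom.toZModLinearMap 2 f)) x
  rw [hb, LinearMap.sum_apply] at h
  exact h.symm

theorem exists_biadditive (B : F →+ F →+ F) :
    ∃ (s : Finset ((F ≃+* F) × (F ≃+* F))) (c : (F ≃+* F) × (F ≃+* F) → F),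
      ∀ x y : F, B x y = ∑ p ∈ s, c p * (p.1 x * p.2 y) := by
  letI := ZMod.algebra F 2
  haveI : Finite (F ≃+* F) := Finite.of_injective (fun σ : F ≃+* F => (σ : F → F)) DFunLike.coe_injective
  letI := Fintype.ofFinite (F ≃+* F)
  obtain ⟨b, hb⟩ := exists_basis F
  let g : (F ≃+* F) → (F →+ F) := fun τ =>
    { toFun := fun x => b.repr (AddMonoidHom.toZModLinearMap 2 (B x)) τ
      map_zero' := by
        rw [map_zero B, show AddMonoidHom.toZModLinearMap 2 (0 : F →+ F) = 0 from LinearMap.ext fun _ => rfl, map_zero]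
        rfl
      map_add' := fun x y => by
        rw [map_add B, show AddMonoidHom.toZModLinearMap 2 (B x + B y) =
          AddMonoidHom.toZModLinearMap 2 (B x) + AddMonoidHom.toZModLinearMap 2 (B y) from LinearMap.ext fun _ => rfl,
          map_add]
        rfl }
  refine ⟨Finset.univ, fun p => b.repr (AddMonoidHom.toZModLinearMap 2 (g p.2)) p.1, fun x y => ?_⟩
  have h := LinearMap.congr_fun (b.sum_repr (AddMonoidHom.toZModLinearMap 2 (B x))) y
  rw [hb, LinearMap.sum_apply] at h
  have hg : ∀ τ, g τ x = ∑ σ, b.repr (AddMonoidHom.toZModLinearMap 2 (g τ)) σ * σ x := fun τ => by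
    have h := LinearMap.congr_fun (b.sum_repr (AddMonoidHom.toZModLinearMap 2 (g τ))) x
    rw [hb, LinearMap.sum_apply] at h
    exact h.symm
  rw [show B x y = ∑ τ, g τ x * τ y from h.symm, Fintype.sum_prod_type_right]
  refine Finset.sum_congr rfl fun τ _ => ?_
  rw [hg, Finset.sum_mul]
  exact Finset.sum_congr rfl fun σ _ => mul_assoc _ _ _

theorem exists_quadratic (q : F → F)
    (hq : ∀ x y z : F, q (x + y + z) + q (x + y) + q (x + z) + q (y + z) + q x + q y + q z = 0) :
    ∃ (s : Finset ((F ≃+* F) × (F ≃+* F))) (c : (F ≃+* F) × (F ≃+* F) → F),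
      ∀ x : F, q x = ∑ p ∈ s, c p * (p.1 x * p.2 x) := by
  classical
  letI := ZMod.algebra F 2
  haveI : Module.Finite (ZMod 2) F := Module.Finite.of_finite
  have c2 : ∀ a : F, a + a = 0 := CharTwo.add_self_eq_zero
  have h0 : q 0 = 0 := by
    have h := hq 0 0 0
    simp only [add_zero] at h
    linear_combination h - 3 * c2 (q 0)
  let e := Module.finBasis (ZMod 2) F
  let β : F →+ F →+ F := AddMonoidHom.mk' (fun x => AddMonoidHom.mk' (fun y => q (x + y) + q x + q y) (fun y z => by
      have h := hq x y z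
      rw [← add_assoc x y z]
      linear_combination h - c2 (q (x + y)) - c2 (q (x + z)) - c2 (q x) - c2 (q y) - c2 (q z)))
    (fun x y => AddMonoidHom.ext fun z => by
      show q (x + y + z) + q (x + y) + q z = (q (x + z) + q x + q z) + (q (y + z) + q y + q z)
      linear_combination hq x y z - c2 (q (x + z)) - c2 (q (y + z)) - c2 (q x) - c2 (q y) - c2 (q z))
  let B₀ : F →ₗ[ZMod 2] F →ₗ[ZMod 2] F :=
    e.constr (ZMod 2) fun i => e.constr (ZMod 2) fun j =>
      if i < j then β (e i) (e j) else if i = j then q (e i) else 0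
  have hB : ∀ i j, B₀ (e i) (e j) = if i < j then β (e i) (e j) else if i = j then q (e i) else 0 := fun i j => by
    simp only [B₀, Module.Basis.constr_basis]
  let Ba : F →+ F →+ F := AddMonoidHom.mk' (fun x => (B₀ x).toAddMonoidHom)
    fun x y => AddMonoidHom.ext fun z => by simp
  let E : F →+ F →+ F := β + Ba + AddMonoidHom.flip Ba
  have hE : ∀ x y, E x y = 0 := by
    have h2 : ∀ i j, E (e i) (e j) = 0 := fun i j => by
      show β (e i) (e j) + B₀ (e i) (e j) + B₀ (e j) (e i) = 0
      have hsym : β (e j) (e i) = β (e i) (e j) := by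
        show q (e j + e i) + q (e j) + q (e i) = q (e i + e j) + q (e i) + q (e j)
        rw [add_comm (e j) (e i)]; ring
      rw [hB, hB]
      rcases lt_trichotomy i j with h | h | h
      · rw [if_pos h, if_neg h.not_gt, if_neg h.ne', add_zero, c2]
      · subst h
        have : β (e i) (e i) = 0 := by
          show q (e i + e i) + q (e i) + q (e i) = 0
          rw [c2, h0, zero_add, c2]
        simp [this, c2]
      · rw [if_neg h.not_gt, if_neg h.ne', if_pos h, add_zero, hsym, c2]
    intro x y
    let L : F →ₗ[ZMod 2] F →ₗ[ZMod 2] F :=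
      { toFun := fun x => AddMonoidHom.toZModLinearMap 2 (E x)
        map_add' := fun a b => LinearMap.ext fun z => by simp
        map_smul' := fun r a => LinearMap.ext fun z =>
          (AddMonoidHom.toZModLinearMap 2 (E.flip z)).map_smul r a }
    have hL : L = 0 := e.ext fun i => e.ext fun j => h2 i j
    exact LinearMap.congr_fun (LinearMap.congr_fun hL x) y
  let D : F →+ F := AddMonoidHom.mk' (fun x => q x + B₀ x x) fun x y => by
    have h : β x y + B₀ x y + B₀ y x = 0 := hE x y
    have hb : β x y = q (x + y) + q x + q y := rfl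
    rw [hb] at h
    simp only [map_add, LinearMap.add_apply]
    linear_combination h - c2 (q x) - c2 (q y)
  have hD : ∀ x, D x = 0 := by
    intro x
    have h : AddMonoidHom.toZModLinearMap 2 D = 0 := e.ext fun i => by
      show q (e i) + B₀ (e i) (e i) = 0
      rw [hB, if_neg (lt_irrefl i), if_pos rfl, c2]
    exact LinearMap.congr_fun h x
  obtain ⟨s, c, hc⟩ := exists_biadditive Ba
  refine ⟨s, c, fun x => ?_⟩
  rw [← hc x x]
  have h : q x + B₀ x x = 0 := hD x
  show q x = B₀ x x
  linear_combination h - c2 (B₀ x x)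

end CfsgLib.Lie.CharTwoMaps
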