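/-
The monomial matrices of the simple reflections.
-/
import Cfsg.Agent.Lib.LieChevTypes
import Cfsg.Agent.Lib.LieChevComm

set_option autoImplicit false
set_option maxHeartbeats 400000

namespace CfsgLib.Lie

open Cfsg.Lie

namespace Tab

variable {D : ChevalleyDatum} {T : Tab D} {F : Type*} [Field F]

theorem neg_one_zpow_natAbs {K : Type*} [DivisionRing K] (z : ℤ) : ((-1 : K)) ^ z = (-1) ^ z.natAbs := by
  obtain ⟨n, rfl | rfl⟩ := Int.eq_nat_or_neg z
  · simp
  · rw [Int.natAbs_neg, Int.natAbs_natCast, zpow_neg, zpow_natCast, ← inv_pow, inv_neg_one]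

theorem η_mul_w (hT : T.Checked) (i : Fin D.rank) (s : Fin D.nroots) :
    T.η i s * T.η i (T.w i s) = (-1) ^ (T.A i s).natAbs := by
  have h1 : sg (F := ℚ) hT i * sg hT i = (hel hT (T.p i) (-1))⁻¹ := by
    rw [sg_eq_nel hT, hel, mul_inv_rev, nel_neg hT, inv_inv]
  have h2 : (hel (F := ℚ) hT (T.p i) (-1))⁻¹ = dg (hc T (T.p i) (-1)) := by
    rw [hel_eq hT, ← map_inv]
    congr 1
    funext r
    simp only [hc, Pi.inv_apply]
    rw [← inv_zpow, inv_neg, inv_one]
  have h3 := congrArg (fun g : GL D.Idx ℚ => (g : Matrix D.Idx D.Idx ℚ) (Sum.inr s) (Sum.inr s)) (h1.trans h2)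
  simp only [Units.val_mul, coe_sg, coe_dg, Matrix.diagonal_apply_eq, Sum.elim_inr] at h3
  rw [Matrix.mul_apply, Finset.sum_eq_single (Sum.inr (T.w i s))] at h3
  · simp [S, scol, ofCols, w_w hT, hc, pair_p hT, neg_one_zpow_natAbs] at h3
    exact_mod_cast (mul_comm _ _).trans h3
  · intro k _ hk
    rcases k with k | k
    · simp [S, scol, ofCols]
    · have hk' : T.w i s ≠ k := fun e => hk (by rw [e])
      have : T.w i k ≠ s := fun e => hk' (by rw [← e, w_w hT])
      simp [S, scol, ofCols, hk', this]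
  · simp

end Tab

end CfsgLib.Lie
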