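/-
Functions on GL(2, q) induced from linear characters of the upper triangular subgroup.
-/
import Cfsg.Prelude.Def_ParabolicCharacters
import Cfsg.Prelude.Def_Characters
import Cfsg.Agent.Lib.LieCharOrth
import Cfsg.Agent.Lib.CharVirtual
import Cfsg.Agent.Lib.CharInd
import Mathlib.LinearAlgebra.Matrix.GeneralLinearGroup.Defs
import Mathlib.Data.Fintype.Option

set_option autoImplicit false
set_option linter.unusedSectionVars false

namespace CfsgLib.Lie.GLTwoPS

open Matrix Cfsg CfsgLib.Char CfsgLib.Lie.CharOrth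
open scoped ComplexConjugate

variable {F : Type*} [Field F] [Fintype F] [DecidableEq F]

local notation "GL₂" => GL (Fin 2) F
local notation "M₂" => Matrix (Fin 2) (Fin 2) F
local notation "B" => (Cfsg.upperTriangularGL 2 F)

theorem mem_borel (g : GL₂) : g ∈ B ↔ (g : M₂) 1 0 = 0 := by
  constructor
  · intro h
    exact h (show (id 0 : Fin 2) < id 1 by decide)
  · intro h i j hij
    have : i = 1 ∧ j = 0 := by revert hij; revert i j; decide
    rw [this.1, this.2]; exact h

theorem borel_det {g : GL₂} (hg : g ∈ B) : (g : M₂) 0 0 ≠ 0 ∧ (g : M₂) 1 1 ≠ 0 := by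
  have h := (Matrix.isUnit_iff_isUnit_det (g : M₂)).1 g.isUnit
  rw [Matrix.det_fin_two, (mem_borel g).1 hg, mul_zero, sub_zero, isUnit_iff_ne_zero] at h
  exact mul_ne_zero_iff.1 h

/-- coset representatives -/
noncomputable def rep : Option F → GL₂
  | none => 1
  | some c => GeneralLinearGroup.mkOfDetNeZero !![c, -1; 1, 0] (by simp [Matrix.det_fin_two])

theorem rep_some_val (c : F) : (rep (some c) : M₂) = !![c, -1; 1, 0] := rfl

theorem rep_inv_val (c : F) : (((rep (some c))⁻¹ : GL₂) : M₂) = !![0, 1; -1, c] := by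
  rw [Matrix.coe_units_inv]
  refine Matrix.inv_eq_left_inv ?_
  rw [rep_some_val]
  ext i j
  fin_cases i <;> fin_cases j <;> simp [Matrix.mul_apply, Fin.sum_univ_two]

theorem bijective : Function.Bijective (fun p : Option F × B => rep p.1 * (p.2 : GL₂)) := by
  refine ⟨fun p q h => ?_, fun x => ?_⟩
  · obtain ⟨o, b⟩ := p
    obtain ⟨o', b'⟩ := q
    have hb := (mem_borel _).1 b.2
    have hb' := (mem_borel _).1 b'.2
    have hp0 := (borel_det b.2).1
    have hq0 := (borel_det b'.2).1
    have h' : (rep o : M₂) * (b.1 : M₂) = (rep o' : M₂) * (b'.1 : M₂) := congrArg Units.val h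
    have e0 := congrFun (congrFun h' 0) 0
    have e1 := congrFun (congrFun h' 1) 0
    have key : o = o' := by
      cases o with
      | none =>
        cases o' with
        | none => rfl
        | some d =>
          simp [rep, Matrix.mul_apply, Fin.sum_univ_two] at e1
          exact absurd (e1.symm.trans hb) hq0
      | some c =>
        cases o' with
        | none =>
          simp [rep, Matrix.mul_apply, Fin.sum_univ_two] at e1
          exact absurd (e1.trans hb') hp0
        | some d =>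
          simp [rep, Matrix.mul_apply, Fin.sum_univ_two, hb, hb'] at e0 e1
          rw [e1] at e0
          exact congrArg some (mul_right_cancel₀ hq0 e0)
    subst key
    exact Prod.ext rfl (Subtype.ext (mul_left_cancel h))
  · suffices ∃ o, ((rep o)⁻¹ * x) ∈ B by
      obtain ⟨o, ho⟩ := this
      exact ⟨(o, ⟨_, ho⟩), mul_inv_cancel_left _ _⟩
    by_cases h : (x : M₂) 1 0 = 0
    · exact ⟨none, by rw [mem_borel]; simpa [rep] using h⟩
    · refine ⟨some ((x : M₂) 0 0 / (x : M₂) 1 0), ?_⟩
      rw [mem_borel, Units.val_mul, rep_inv_val]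
      simp [Matrix.mul_apply, Fin.sum_univ_two]
      field_simp
      ring

theorem conj_rep_some (c : F) (g : GL₂) :
    (((rep (some c))⁻¹ * g * rep (some c) : GL₂) : M₂) 0 0 = (g : M₂) 1 0 * c + (g : M₂) 1 1 ∧
    (((rep (some c))⁻¹ * g * rep (some c) : GL₂) : M₂) 1 1 = (g : M₂) 0 0 - (g : M₂) 1 0 * c ∧
    (((rep (some c))⁻¹ * g * rep (some c) : GL₂) : M₂) 1 0 =
      c * ((g : M₂) 1 0 * c + (g : M₂) 1 1) - ((g : M₂) 0 0 * c + (g : M₂) 0 1) := by
  rw [Units.val_mul, Units.val_mul, rep_inv_val, rep_some_val]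
  simp [Matrix.mul_apply, Matrix.vecMul, dotProduct, Fin.sum_univ_two]
  refine ⟨?_, ?_⟩ <;> ring

/-- the induced function -/
noncomputable def ps (α β : MulChar F ℂ) : GL₂ → ℂ :=
  indFun B (fun b => α (((b : GL₂) : M₂) 0 0) * β (((b : GL₂) : M₂) 1 1))

/-- The induced function as a sum over the fixed lines. -/
theorem ps_eq (α β : MulChar F ℂ) (g : GL₂) :
    ps α β g = (if (g : M₂) 1 0 = 0 then α ((g : M₂) 0 0) * β ((g : M₂) 1 1) else 0) +
      ∑ c : F, if (g : M₂) 0 0 * c + (g : M₂) 0 1 = c * ((g : M₂) 1 0 * c + (g : M₂) 1 1)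
        then α ((g : M₂) 1 0 * c + (g : M₂) 1 1) * β ((g : M₂) 0 0 - (g : M₂) 1 0 * c) else 0 := by
  classical
  rw [ps, Cfsg.indFun, ← Equiv.sum_comp (Equiv.ofBijective _ bijective), Fintype.sum_prod_type]
  have hterm : ∀ (o : Option F) (b : B), extendByZero B (fun b => α (((b : GL₂) : M₂) 0 0) * β (((b : GL₂) : M₂) 1 1))
      ((rep o * (b : GL₂))⁻¹ * g * (rep o * (b : GL₂))) =
      if (((rep o)⁻¹ * g * rep o : GL₂) : M₂) 1 0 = 0
        then α ((((rep o)⁻¹ * g * rep o : GL₂) : M₂) 0 0) * β ((((rep o)⁻¹ * g * rep o : GL₂) : M₂) 1 1) else 0 := by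
    intro o b
    set y := (rep o)⁻¹ * g * rep o with hy
    rw [show (rep o * (b : GL₂))⁻¹ * g * (rep o * (b : GL₂)) = (b : GL₂)⁻¹ * y * (b : GL₂) by rw [hy]; group]
    have hiff : (b : GL₂)⁻¹ * y * (b : GL₂) ∈ B ↔ (y : M₂) 1 0 = 0 := by
      rw [← mem_borel, Subgroup.mul_mem_cancel_right _ b.2, Subgroup.mul_mem_cancel_left _ (inv_mem b.2)]
    by_cases h : (y : M₂) 1 0 = 0
    · rw [extendByZero_mem _ (hiff.2 h), if_pos h]
      show α _ * β _ = _
      have hz := (mem_borel _).1 (hiff.2 h)
      set z := (b : GL₂)⁻¹ * y * (b : GL₂) with hzdef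
      have hmul : ((b : GL₂) : M₂) * (z : M₂) = (y : M₂) * ((b : GL₂) : M₂) := by
        rw [← Units.val_mul, ← Units.val_mul, hzdef]; group
      have hb := (mem_borel _).1 b.2
      obtain ⟨hb0, hb1⟩ := borel_det b.2
      have e0 := congrFun (congrFun hmul 0) 0
      have e1 := congrFun (congrFun hmul 1) 1
      simp [Matrix.mul_apply, Fin.sum_univ_two, hb, h, hz] at e0 e1
      rw [mul_comm] at e0
      rw [mul_right_cancel₀ hb0 e0]
      congr 2
      exact mul_left_cancel₀ hb1 (e1.trans (mul_comm _ _))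
    · rw [extendByZero_not_mem _ (fun h' => h (hiff.1 h')), if_neg h]
  simp only [Equiv.ofBijective_apply, hterm, Finset.sum_const, Finset.card_univ, nsmul_eq_mul, ← Finset.mul_sum]
  rw [← Nat.card_eq_fintype_card, ← mul_assoc, inv_mul_cancel₀ (Nat.cast_ne_zero.2 Nat.card_pos.ne'), one_mul,
    Fintype.sum_option]
  congr 1
  · simp [rep]
  refine Finset.sum_congr rfl fun c _ => ?_
  obtain ⟨h0, h1, h2⟩ := conj_rep_some c g
  rw [h0, h1, h2]
  simp only [sub_eq_zero]
  exact if_congr eq_comm rfl rfl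

/-- upper triangular element -/
noncomputable def up (a d : Fˣ) (z : F) : GL₂ :=
  GeneralLinearGroup.mkOfDetNeZero !![(a : F), z; 0, (d : F)] (by simp [Matrix.det_fin_two])

theorem up_val (a d : Fˣ) (z : F) : (up a d z : M₂) = !![(a : F), z; 0, (d : F)] := rfl

theorem up_bijective : Function.Bijective
    (fun p : (Fˣ × Fˣ) × F => (⟨up p.1.1 p.1.2 p.2, (mem_borel _).2 (by simp [up_val])⟩ : B)) := by
  refine ⟨fun p q h => ?_, fun g => ?_⟩
  · have h' : (up p.1.1 p.1.2 p.2 : M₂) = (up q.1.1 q.1.2 q.2 : M₂) := congrArg (fun x : B => ((x : GL₂) : M₂)) h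
    refine Prod.ext (Prod.ext (Units.ext ?_) (Units.ext ?_)) ?_
    · simpa [up_val] using congrFun (congrFun h' 0) 0
    · simpa [up_val] using congrFun (congrFun h' 1) 1
    · simpa [up_val] using congrFun (congrFun h' 0) 1
  · obtain ⟨g, hg⟩ := g
    obtain ⟨h0, h1⟩ := borel_det hg
    refine ⟨((Units.mk0 _ h0, Units.mk0 _ h1), (g : M₂) 0 1), Subtype.ext (Units.ext ?_)⟩
    ext i j
    fin_cases i <;> fin_cases j <;> simp [up_val, (mem_borel g).1 hg]

/-- the parametrisation -/
noncomputable def bEquiv : (Fˣ × Fˣ) × F ≃ B := Equiv.ofBijective _ up_bijective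

theorem bEquiv_val (p : (Fˣ × Fˣ) × F) : ((bEquiv p : B) : GL₂) = up p.1.1 p.1.2 p.2 := rfl

theorem card_borel : Nat.card B = Fintype.card Fˣ * Fintype.card Fˣ * Fintype.card F := by
  rw [← Nat.card_congr bEquiv, Nat.card_prod, Nat.card_prod, Nat.card_eq_fintype_card, Nat.card_eq_fintype_card]

theorem ps_up (α β : MulChar F ℂ) (a d : Fˣ) (z : F) : ps α β (up a d z) =
    if (a : F) ≠ d then α (a : F) * β (d : F) + α (d : F) * β (a : F)
      else if z ≠ 0 then α (a : F) * β (a : F) else ((Fintype.card F : ℂ) + 1) * (α (a : F) * β (a : F)) := by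
  rw [ps_eq]
  simp only [up_val, Matrix.of_apply, Matrix.cons_val', Matrix.cons_val_zero, Matrix.cons_val_one,
    Matrix.cons_val_fin_one, zero_mul, zero_add, sub_zero, if_true]
  split_ifs with h1 h2
  · rw [Finset.sum_eq_single (z / ((d : F) - a))]
    · rw [if_pos]
      have : (d : F) - a ≠ 0 := sub_ne_zero.2 (Ne.symm h1)
      field_simp
      ring
    · intro c _ hc
      rw [if_neg]
      intro e
      exact hc ((eq_div_iff (sub_ne_zero.2 (Ne.symm h1))).2 (by linear_combination -e))
    · exact fun h => absurd (Finset.mem_univ _) h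
  · push Not at h1
    rw [Finset.sum_eq_zero, add_zero, h1]
    intro c _
    rw [if_neg]
    intro e
    exact h2 (by rw [h1] at e; linear_combination e)
  · push Not at h1 h2
    rw [Finset.sum_congr rfl (fun c _ => if_pos (by rw [h1, h2]; ring)), Finset.sum_const, Finset.card_univ,
      nsmul_eq_mul, h1]
    ring

theorem linear (α β : MulChar F ℂ) : IsCharacter B (fun b : B => α (((b : GL₂) : M₂) 0 0) * β (((b : GL₂) : M₂) 1 1)) := by
  let f : B →* ℂ :=
    { toFun := fun b => α (((b : GL₂) : M₂) 0 0) * β (((b : GL₂) : M₂) 1 1)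
      map_one' := by simp
      map_mul' := fun b c => by
        have hb := (mem_borel _).1 b.2
        have hc := (mem_borel _).1 c.2
        simp [Matrix.mul_apply, Fin.sum_univ_two, hb, hc]
        ring }
  exact isCharacter_hom f.toHomUnits

theorem isCharacter_ps (α β : MulChar F ℂ) : IsCharacter GL₂ (ps α β) := isCharacter_indFun (linear α β)

theorem classFn_ps (α β : MulChar F ℂ) : IsClassFunction GL₂ (ps α β) := indFun_classFunction _

theorem sum_z (γ δ : MulChar F ℂ) (a d : Fˣ) :
    ∑ z : F, ps γ δ (up a d z) = (Fintype.card F : ℂ) * (γ (a : F) * δ (d : F) + γ (d : F) * δ (a : F)) := by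
  simp only [ps_up]
  by_cases h : (a : F) = d
  · simp only [ne_eq, h, not_true_eq_false, if_false]
    rw [← Finset.add_sum_erase _ _ (Finset.mem_univ (0 : F)), if_neg (by simp),
      Finset.sum_congr rfl fun z hz => if_pos (Finset.mem_erase.1 hz).1,
      Finset.sum_const, Finset.card_erase_of_mem (Finset.mem_univ _), Finset.card_univ, nsmul_eq_mul,
      Nat.cast_sub (Fintype.card_pos (α := F)), Nat.cast_one]
    ring
  · simp only [ne_eq, h, not_false_eq_true, if_true, Finset.sum_const, Finset.card_univ, nsmul_eq_mul]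

theorem inner_ps (α β γ δ : MulChar F ℂ) :
    classInner (ps α β) (ps γ δ) =
      (if α = γ then 1 else 0) * (if β = δ then 1 else 0) + (if α = δ then 1 else 0) * (if β = γ then 1 else 0) := by
  classical
  show classInner (indFun B _) (ps γ δ) = _
  rw [CfsgLib.Char.frobenius _ _ (classFn_ps γ δ)]
  simp only [classInner]
  rw [← Equiv.sum_comp bEquiv, Fintype.sum_prod_type, card_borel]
  have h' : ∀ p : Fˣ × Fˣ, ∑ z : F, (α ((up p.1 p.2 z : M₂) 0 0) * β ((up p.1 p.2 z : M₂) 1 1)) * conj (ps γ δ (up p.1 p.2 z)) =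
      (Fintype.card F : ℂ) * ((α (p.1 : F) * conj (γ (p.1 : F))) * (β (p.2 : F) * conj (δ (p.2 : F))) +
        (α (p.1 : F) * conj (δ (p.1 : F))) * (β (p.2 : F) * conj (γ (p.2 : F)))) := fun p => by
    simp only [up_val, Matrix.of_apply, Matrix.cons_val', Matrix.cons_val_zero, Matrix.cons_val_one,
      Matrix.cons_val_fin_one]
    rw [← Finset.mul_sum, ← map_sum, sum_z, map_mul, map_add, map_mul, map_mul, Complex.conj_natCast]
    ring
  simp only [bEquiv_val]
  rw [Finset.sum_congr rfl (fun p _ => h' p), ← Finset.mul_sum, Finset.sum_add_distrib, Fintype.sum_prod_type,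
    Fintype.sum_prod_type]
  simp only [← Finset.mul_sum, ← Finset.sum_mul, sum_mul_conj]
  have h0 : (Fintype.card F : ℂ) ≠ 0 := Nat.cast_ne_zero.2 Fintype.card_ne_zero
  have h1 : (Fintype.card Fˣ : ℂ) ≠ 0 := Nat.cast_ne_zero.2 Fintype.card_ne_zero
  push_cast
  split_ifs <;> field_simp <;> ring

theorem isIrr_ps (α β : MulChar F ℂ) (h : α ≠ β) : IsIrrCharacter GL₂ (ps α β) := by
  refine isIrr_of_inner_self_one (isCharacter_ps α β) ?_
  rw [inner_ps]
  simp [h, Ne.symm h]

theorem ps_eq_iff (α β α' β' : MulChar F ℂ) :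
    ps α β = ps α' β' ↔ (α = α' ∧ β = β') ∨ (α = β' ∧ β = α') := by
  constructor
  · intro e
    have h := inner_ps α β α' β'
    rw [← e, inner_ps] at h
    by_contra hne
    push Not at hne
    obtain ⟨h1, h2⟩ := hne
    have e1 : (if α = α' then (1 : ℂ) else 0) * (if β = β' then 1 else 0) = 0 := by
      split_ifs with a b <;> simp
      exact h1 a b
    have e2 : (if α = β' then (1 : ℂ) else 0) * (if β = α' then 1 else 0) = 0 := by
      split_ifs with a b <;> simp
      exact h2 a b
    rw [e1, e2] at h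
    simp at h
    split_ifs at h <;> norm_num at h
  · intro h
    have : ps α β - ps α' β' = 0 := by
      rw [← Char.inner_self_eq_zero, Char.inner_sub_left, Char.inner_sub_right, Char.inner_sub_right, inner_ps, inner_ps, inner_ps,
        inner_ps]
      rcases h with ⟨rfl, rfl⟩ | ⟨rfl, rfl⟩
      · ring
      · by_cases e : α = β <;> simp [e, eq_comm]
    exact sub_eq_zero.1 this

end CfsgLib.Lie.GLTwoPS
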