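/-
The irreducible characters of GL(2, q), sorted by the restriction to the upper triangular subgroup.
-/
import Cfsg.Agent.Lib.LieGLTwoPS
import Cfsg.Agent.Lib.CharInt
import Cfsg.Agent.Lib.CharBasic
import Cfsg.Agent.Lib.ClassicalGLTwo
import Cfsg.Agent.S2330
import Mathlib.Data.Sym.Card

set_option autoImplicit false
set_option linter.unusedSectionVars false

namespace CfsgLib.Lie.GLTwoTable

open Matrix Cfsg CfsgLib.Char CfsgLib.Lie.CharOrth CfsgLib.Lie.GLTwoPS
open scoped ComplexConjugate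

variable {F : Type*} [Field F] [Fintype F] [DecidableEq F]

local notation "GL₂" => GL (Fin 2) F
local notation "M₂" => Matrix (Fin 2) (Fin 2) F
local notation "q" => (Fintype.card F : ℂ)

theorem q_ne_zero : q ≠ 0 := Nat.cast_ne_zero.2 Fintype.card_ne_zero

theorem card_units_cast : ((Fintype.card Fˣ : ℕ) : ℂ) = q - 1 := by
  rw [Fintype.card_units, Nat.cast_sub Fintype.card_pos, Nat.cast_one]

theorem q_sub_one_ne_zero : q - 1 ≠ 0 := by
  rw [← card_units_cast]
  exact Nat.cast_ne_zero.2 Fintype.card_ne_zero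

theorem up_one : up (1 : Fˣ) 1 (0 : F) = 1 := by
  refine Units.ext ?_
  ext i j
  fin_cases i <;> fin_cases j <;> simp [up_val]

theorem det_up (a d : Fˣ) (z : F) : (GeneralLinearGroup.det (up a d z) : F) = a * d := by
  rw [GeneralLinearGroup.val_det_apply, up_val, Matrix.det_fin_two]
  simp

theorem eq_up_of_diag (g : GL₂) (h10 : (g : M₂) 1 0 = 0) :
    ∃ a d : Fˣ, g = up a d ((g : M₂) 0 1) ∧ (a : F) = (g : M₂) 0 0 ∧ (d : F) = (g : M₂) 1 1 := by
  obtain ⟨h0, h1⟩ := borel_det ((mem_borel g).2 h10)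
  refine ⟨Units.mk0 _ h0, Units.mk0 _ h1, Units.ext ?_, rfl, rfl⟩
  ext i j
  fin_cases i <;> fin_cases j <;> simp [up_val, h10]

/-- the linear characters -/
noncomputable def lin (μ : MulChar F ℂ) : GL₂ → ℂ := fun g => μ (GeneralLinearGroup.det g : F)

/-- the characters of degree `q` -/
noncomputable def st (μ : MulChar F ℂ) : GL₂ → ℂ := ps μ μ - lin μ

theorem isIrr_lin (μ : MulChar F ℂ) : IsIrrCharacter GL₂ (lin μ) := by
  have : lin μ = fun g => (((Units.map (μ : F →* ℂ)).comp GeneralLinearGroup.det g : ℂˣ) : ℂ) := rfl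
  rw [this]
  exact isIrrCharacter_hom _

theorem lin_up (μ : MulChar F ℂ) (a d : Fˣ) (z : F) : lin μ (up a d z) = μ (a : F) * μ (d : F) := by
  rw [lin, det_up, map_mul]

theorem lin_one (μ : MulChar F ℂ) : lin μ (1 : GL₂) = 1 := by simp [lin]

theorem ps_one (α β : MulChar F ℂ) : ps α β (1 : GL₂) = q + 1 := by
  rw [← up_one, ps_up]
  simp

theorem st_one (μ : MulChar F ℂ) : st μ (1 : GL₂) = q := by
  rw [st, Pi.sub_apply, ps_one, lin_one, add_sub_cancel_right]

theorem inner_ps_lin (μ : MulChar F ℂ) : classInner (ps μ μ) (lin μ) = 1 := by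
  classical
  show classInner (indFun (upperTriangularGL 2 F) _) (lin μ) = _
  rw [CfsgLib.Char.frobenius _ _ (isCharacter_classFunction (isIrr_lin μ).isCharacter')]
  simp only [classInner]
  rw [← Equiv.sum_comp bEquiv, card_borel]
  have h : ∀ p : (Fˣ × Fˣ) × F,
      μ ((((bEquiv p : upperTriangularGL 2 F) : GL₂) : M₂) 0 0) * μ ((((bEquiv p : upperTriangularGL 2 F) : GL₂) : M₂) 1 1) *
        conj (lin μ ((bEquiv p : upperTriangularGL 2 F) : GL₂)) = 1 := fun p => by
    rw [bEquiv_val, lin_up, map_mul, conj_apply, conj_apply]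
    simp only [up_val, Matrix.of_apply, Matrix.cons_val', Matrix.cons_val_zero, Matrix.cons_val_one,
      Matrix.cons_val_fin_one]
    have e : ∀ x : Fˣ, μ (x : F) * μ⁻¹ (x : F) = 1 := fun x => by
      rw [← MulChar.mul_apply, mul_inv_cancel, MulChar.one_apply_coe]
    rw [show μ (p.1.1 : F) * μ (p.1.2 : F) * (μ⁻¹ (p.1.1 : F) * μ⁻¹ (p.1.2 : F)) =
      (μ (p.1.1 : F) * μ⁻¹ (p.1.1 : F)) * (μ (p.1.2 : F) * μ⁻¹ (p.1.2 : F)) by ring, e, e, one_mul]
  rw [Finset.sum_congr rfl (fun p _ => h p), Finset.sum_const, Finset.card_univ, Fintype.card_prod,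
    Fintype.card_prod, nsmul_eq_mul, mul_one]
  exact inv_mul_cancel₀ (Nat.cast_ne_zero.2 (by simp [Fintype.card_ne_zero]))

theorem inner_lin_ps (μ : MulChar F ℂ) : classInner (lin μ) (ps μ μ) = 1 := by
  rw [inner_comm_of_isCharacter (isIrr_lin μ).isCharacter' (isCharacter_ps μ μ), inner_ps_lin]

theorem isIrr_st (μ : MulChar F ℂ) : IsIrrCharacter GL₂ (st μ) := by
  refine isIrr_of_genChar_norm_one ⟨_, _, isCharacter_ps μ μ, (isIrr_lin μ).isCharacter', rfl⟩ ?_ ?_
  · rw [st, Char.inner_sub_left, Char.inner_sub_right, Char.inner_sub_right, inner_ps, inner_ps_lin, inner_lin_ps,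
      irr_inner_self (isIrr_lin μ)]
    simp
  · rw [st_one]
    simp

/-- vanishing of the average over the upper unitriangular matrices -/
def Cusp (χ : GL₂ → ℂ) : Prop := ∑ z : F, χ (up 1 1 z) = 0

theorem not_cusp_lin (μ : MulChar F ℂ) : ¬ Cusp (lin μ) := by
  intro h
  simp only [Cusp, lin_up, Units.val_one, MulChar.map_one, mul_one, Finset.sum_const, Finset.card_univ,
    nsmul_eq_mul] at h
  exact q_ne_zero h

theorem not_cusp_ps (α β : MulChar F ℂ) : ¬ Cusp (ps α β) := by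
  intro h
  rw [Cusp, sum_z] at h
  simp at h

theorem not_cusp_st (μ : MulChar F ℂ) : ¬ Cusp (st μ) := by
  intro h
  simp only [Cusp, st, Pi.sub_apply, Finset.sum_sub_distrib] at h
  rw [sum_z] at h
  simp [lin_up] at h
  exact q_ne_zero (by linear_combination h)

/-- The averaged restriction to the diagonal subgroup. -/
theorem coeff_eq (χ : GL₂ → ℂ) (hχ : IsIrrCharacter GL₂ χ) (α β : MulChar F ℂ) :
    ∑ x : Fˣ × Fˣ, (q⁻¹ * ∑ z : F, χ (up x.1 x.2 z)) * conj (α (x.1 : F) * β (x.2 : F)) =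
      ((Fintype.card Fˣ : ℕ) : ℂ) * (Fintype.card Fˣ : ℕ) * classInner χ (ps α β) := by
  classical
  show _ = _ * classInner χ (indFun (upperTriangularGL 2 F) _)
  rw [CfsgLib.Char.frobenius_right _ _ (isCharacter_classFunction hχ.isCharacter')]
  simp only [classInner]
  rw [← Equiv.sum_comp bEquiv, card_borel]
  simp only [bEquiv_val, up_val, Matrix.of_apply, Matrix.cons_val', Matrix.cons_val_zero, Matrix.cons_val_one,
    Matrix.cons_val_fin_one]
  simp only [Fintype.sum_prod_type, ← Finset.sum_mul]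
  have h1 : (Fintype.card Fˣ : ℂ) ≠ 0 := Nat.cast_ne_zero.2 Fintype.card_ne_zero
  have h0 : q ≠ 0 := q_ne_zero
  simp only [Finset.mul_sum, Finset.sum_mul]
  refine Finset.sum_congr rfl fun x _ => Finset.sum_congr rfl fun y _ => Finset.sum_congr rfl fun z _ => ?_
  push_cast
  field_simp

theorem trichotomy (χ : GL₂ → ℂ) (hχ : IsIrrCharacter GL₂ χ) :
    ((∃ μ, χ = lin μ) ∨ (∃ μ, χ = st μ) ∨ (∃ α β : MulChar F ℂ, α ≠ β ∧ χ = ps α β)) ∨
      (∀ x : Fˣ × Fˣ, ∑ z : F, χ (up x.1 x.2 z) = 0) := by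
  classical
  obtain ⟨hA, hB, -⟩ := expand (fun (i : MulChar F ℂ × MulChar F ℂ) (x : Fˣ × Fˣ) => i.1 (x.1 : F) * i.2 (x.2 : F))
    (((Fintype.card Fˣ : ℕ) : ℂ) * (Fintype.card Fˣ : ℕ))
    (mul_ne_zero (Nat.cast_ne_zero.2 Fintype.card_ne_zero) (Nat.cast_ne_zero.2 Fintype.card_ne_zero))
    (fun i => by simp) sum_pair (fun x => q⁻¹ * ∑ z : F, χ (up x.1 x.2 z))
    (fun i => by
      obtain ⟨n, hn⟩ := inner_character_nat hχ.isCharacter' (isCharacter_ps i.1 i.2)
      exact ⟨n, by rw [coeff_eq χ hχ, hn]⟩)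
  by_cases h : q⁻¹ * ∑ z : F, χ (up (1 : Fˣ × Fˣ).1 (1 : Fˣ × Fˣ).2 z) = 0
  · refine Or.inr fun x => ?_
    exact (mul_eq_zero.1 (hA h x)).resolve_left (inv_ne_zero q_ne_zero)
  · obtain ⟨⟨α, β⟩, hi⟩ := hB h
    rw [coeff_eq χ hχ] at hi
    have hne : classInner χ (ps α β) ≠ 0 := right_ne_zero_of_mul hi
    refine Or.inl ?_
    by_cases hab : α = β
    · subst hab
      have hsplit : ps α α = lin α + st α := (add_sub_cancel _ _).symm
      rw [hsplit, Char.inner_add_right] at hne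
      by_cases h1 : χ = lin α
      · exact Or.inl ⟨α, h1⟩
      · rw [irr_inner_ne hχ (isIrr_lin α) h1, zero_add] at hne
        refine Or.inr (Or.inl ⟨α, ?_⟩)
        by_contra h2
        exact hne (irr_inner_ne hχ (isIrr_st α) h2)
    · refine Or.inr (Or.inr ⟨α, β, hab, ?_⟩)
      by_contra h2
      exact hne (irr_inner_ne hχ (isIrr_ps α β hab) h2)

theorem cusp_sum (χ : GL₂ → ℂ) (hχ : IsIrrCharacter GL₂ χ) (hc : Cusp χ) (a d : Fˣ) :
    ∑ z : F, χ (up a d z) = 0 := by
  rcases trichotomy χ hχ with (⟨μ, rfl⟩ | ⟨μ, rfl⟩ | ⟨α, β, -, rfl⟩) | h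
  · exact absurd hc (not_cusp_lin μ)
  · exact absurd hc (not_cusp_st μ)
  · exact absurd hc (not_cusp_ps α β)
  · exact h (a, d)

theorem cusp_diag (χ : GL₂ → ℂ) (hχ : IsIrrCharacter GL₂ χ) (hc : Cusp χ) (a d : Fˣ) (had : (a : F) ≠ d) :
    χ (up a d 0) = 0 := by
  have hcf := isCharacter_classFunction hχ.isCharacter'
  have hall : ∀ z : F, χ (up a d z) = χ (up a d 0) := fun z => by
    have e : up (1 : Fˣ) 1 (z / ((d : F) - a)) * up a d 0 * (up (1 : Fˣ) 1 (z / ((d : F) - a)))⁻¹ = up a d z := by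
      apply mul_inv_eq_iff_eq_mul.2
      refine Units.ext ?_
      have hne : (d : F) - a ≠ 0 := sub_ne_zero.2 (Ne.symm had)
      ext i j
      fin_cases i <;> fin_cases j <;> simp [up_val, Matrix.mul_apply, Fin.sum_univ_two]
      field_simp
      ring
    rw [← e, hcf]
  have := cusp_sum χ hχ hc a d
  rw [Finset.sum_congr rfl (fun z _ => hall z), Finset.sum_const, Finset.card_univ, nsmul_eq_mul] at this
  exact (mul_eq_zero.1 this).resolve_left q_ne_zero

theorem cusp_degree (χ : GL₂ → ℂ) (hχ : IsIrrCharacter GL₂ χ) (hc : Cusp χ) :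
    χ 1 = -((q - 1) * χ (up 1 1 1)) := by
  have hcf := isCharacter_classFunction hχ.isCharacter'
  have hall : ∀ z ∈ Finset.univ.erase (0 : F), χ (up 1 1 z) = χ (up 1 1 1) := fun z hz => by
    have e : up (Units.mk0 z (Finset.mem_erase.1 hz).1) 1 0 * up 1 1 1 * (up (Units.mk0 z (Finset.mem_erase.1 hz).1) 1 0)⁻¹
        = up 1 1 z := by
      apply mul_inv_eq_iff_eq_mul.2
      refine Units.ext ?_
      ext i j
      fin_cases i <;> fin_cases j <;> simp [up_val, Matrix.mul_apply, Fin.sum_univ_two]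
    rw [← e, hcf]
  have h : ∑ z : F, χ (up 1 1 z) = 0 := hc
  rw [← Finset.add_sum_erase _ _ (Finset.mem_univ (0 : F)), up_one, Finset.sum_congr rfl hall, Finset.sum_const,
    Finset.card_erase_of_mem (Finset.mem_univ _), Finset.card_univ, nsmul_eq_mul,
    Nat.cast_sub (Fintype.card_pos (α := F)), Nat.cast_one] at h
  exact eq_neg_of_add_eq_zero_left h

theorem cusp_mult (χ : GL₂ → ℂ) (hχ : IsIrrCharacter GL₂ χ) (hc : Cusp χ) :
    ∃ m : ℕ, 0 < m ∧ χ 1 = (m : ℂ) * (q - 1) := by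
  obtain ⟨d, hd, hd1⟩ := exists_degree_pos hχ
  have hdeg := cusp_degree χ hχ hc
  rw [hd1] at hdeg
  have hint : IsIntegral ℤ ((d : ℂ) / (Fintype.card Fˣ : ℕ)) := by
    rw [card_units_cast, hdeg, neg_div, mul_div_cancel_left₀ _ q_sub_one_ne_zero]
    exact (isCharacter_isIntegral hχ.isCharacter' _).neg
  obtain ⟨m, hm⟩ := natCast_dvd_of_isIntegral_div Fintype.card_pos hint
  refine ⟨m, Nat.pos_of_mul_pos_left (hm ▸ hd), ?_⟩
  rw [hd1, hm, Nat.cast_mul, card_units_cast, mul_comm]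

/-- the characters which are not cuspidal -/
noncomputable def known : MulChar F ℂ ⊕ MulChar F ℂ ⊕ {z : Sym2 (MulChar F ℂ) // ¬ z.IsDiag} → (GL₂ → ℂ)
  | Sum.inl μ => lin μ
  | Sum.inr (Sum.inl μ) => st μ
  | Sum.inr (Sum.inr z) => Sym2.lift ⟨fun α β => ps α β, fun α β => (ps_eq_iff α β β α).2 (Or.inr ⟨rfl, rfl⟩)⟩ z.1

theorem isIrr_known (i : MulChar F ℂ ⊕ MulChar F ℂ ⊕ {z : Sym2 (MulChar F ℂ) // ¬ z.IsDiag}) :
    IsIrrCharacter GL₂ (known i) := by
  rcases i with μ | μ | ⟨z, hz⟩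
  · exact isIrr_lin μ
  · exact isIrr_st μ
  · induction z using Sym2.ind with
    | h α β => exact isIrr_ps α β (fun e => hz (Sym2.mk_isDiag_iff.2 e))

theorem lin_injective : Function.Injective (lin (F := F)) := by
  intro μ ν h
  refine MulChar.ext fun a => ?_
  simpa [lin_up] using congrFun h (up a 1 0)

theorem st_injective : Function.Injective (st (F := F)) := by
  intro μ ν h
  refine MulChar.ext fun a => ?_
  by_cases ha : a = 1
  · simp [ha]
  · have e := congrFun h (up a 1 0)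
    have ha' : (a : F) ≠ 1 := fun e' => ha (Units.ext e')
    simp only [st, Pi.sub_apply, ps_up, lin_up, Units.val_one, MulChar.map_one, mul_one, one_mul] at e
    rw [if_pos ha', if_pos ha', add_sub_cancel_right, add_sub_cancel_right] at e
    exact e

theorem known_injective : Function.Injective (known (F := F)) := by
  have hdeg : ∀ (α β : MulChar F ℂ), ps α β (1 : GL₂) = q + 1 := ps_one
  have h2 : (Fintype.card F : ℂ) ≠ 1 := Nat.cast_ne_one.2 (Fintype.one_lt_card (α := F)).ne'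
  rintro (μ | μ | ⟨z, hz⟩) (ν | ν | ⟨w, hw⟩) h
  · exact congrArg _ (lin_injective h)
  · exfalso
    have := congrFun h 1
    simp only [known, lin_one, st_one] at this
    exact h2 this.symm
  · exfalso
    induction w using Sym2.ind with
    | h α β =>
      have := congrFun h 1
      simp only [known, Sym2.lift_mk, lin_one, hdeg] at this
      exact q_ne_zero (F := F) (by linear_combination -this)
  · exfalso
    have := congrFun h 1
    simp only [known, lin_one, st_one] at this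
    exact h2 this
  · exact congrArg _ (congrArg _ (st_injective h))
  · exfalso
    induction w using Sym2.ind with
    | h α β =>
      have := congrFun h 1
      simp only [known, Sym2.lift_mk, st_one, hdeg] at this
      exact one_ne_zero (by linear_combination -this)
  · exfalso
    induction z using Sym2.ind with
    | h α β =>
      have := congrFun h 1
      simp only [known, Sym2.lift_mk, lin_one, hdeg] at this
      exact q_ne_zero (F := F) (by linear_combination this)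
  · exfalso
    induction z using Sym2.ind with
    | h α β =>
      have := congrFun h 1
      simp only [known, Sym2.lift_mk, st_one, hdeg] at this
      exact one_ne_zero (by linear_combination this)
  · induction z using Sym2.ind with
    | h α β =>
      induction w using Sym2.ind with
      | h γ δ =>
        simp only [known, Sym2.lift_mk, ps_eq_iff] at h
        simp only [Sum.inr.injEq, Subtype.mk.injEq, Sym2.eq_iff]
        exact h

theorem mem_known_or_cusp (χ : GL₂ → ℂ) (hχ : IsIrrCharacter GL₂ χ) : (∃ i, known i = χ) ∨ Cusp χ := by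
  rcases trichotomy χ hχ with (⟨μ, rfl⟩ | ⟨μ, rfl⟩ | ⟨α, β, hab, rfl⟩) | h
  · exact Or.inl ⟨Sum.inl μ, rfl⟩
  · exact Or.inl ⟨Sum.inr (Sum.inl μ), rfl⟩
  · exact Or.inl ⟨Sum.inr (Sum.inr ⟨s(α, β), fun e => hab (Sym2.mk_isDiag_iff.1 e)⟩), rfl⟩
  · exact Or.inr (h (1, 1))

theorem not_cusp_known (i : MulChar F ℂ ⊕ MulChar F ℂ ⊕ {z : Sym2 (MulChar F ℂ) // ¬ z.IsDiag}) :
    ¬ Cusp (known i) := by
  rcases i with μ | μ | ⟨z, hz⟩
  · exact not_cusp_lin μ
  · exact not_cusp_st μ
  · induction z using Sym2.ind with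
    | h α β => exact not_cusp_ps α β

theorem count :
    (∀ χ : GL₂ → ℂ, IsIrrCharacter GL₂ χ → Cusp χ → χ 1 = q - 1) ∧
      Nat.card {χ : IrrCharacter GL₂ // Cusp (χ : GL₂ → ℂ)} = Fintype.card F * (Fintype.card F - 1) / 2 := by
  classical
  let Φ : MulChar F ℂ ⊕ MulChar F ℂ ⊕ {z : Sym2 (MulChar F ℂ) // ¬ z.IsDiag} → IrrCharacter GL₂ :=
    fun i => ⟨known i, isIrr_known i⟩
  have hΦ : Function.Injective Φ := fun i j h => known_injective (congrArg Subtype.val h)
  let S : Finset (IrrCharacter GL₂) := Finset.univ.image Φ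
  let C : Finset (IrrCharacter GL₂) := Finset.univ.filter (fun χ => Cusp (χ : GL₂ → ℂ))
  have hsplit : S ∪ C = Finset.univ := by
    refine Finset.eq_univ_iff_forall.2 fun χ => ?_
    rcases mem_known_or_cusp χ.1 χ.2 with ⟨i, hi⟩ | h
    · exact Finset.mem_union_left _ (Finset.mem_image.2 ⟨i, Finset.mem_univ _, Subtype.ext hi⟩)
    · exact Finset.mem_union_right _ (Finset.mem_filter.2 ⟨Finset.mem_univ _, h⟩)
  have hdisj : Disjoint S C := by
    refine Finset.disjoint_left.2 fun χ h1 h2 => ?_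
    obtain ⟨i, -, rfl⟩ := Finset.mem_image.1 h1
    exact not_cusp_known i (Finset.mem_filter.1 h2).2
  choose m hm0 hm using fun χ : {χ : IrrCharacter GL₂ // χ ∈ C} =>
    cusp_mult χ.1.1 χ.1.2 (Finset.mem_filter.1 χ.2).2
  have hn : Fintype.card (MulChar F ℂ) = Fintype.card Fˣ := by
    rw [← Nat.card_eq_fintype_card, card_mulChar, Fintype.card_units]
  have hk : (Fintype.card {z : Sym2 (MulChar F ℂ) // ¬ z.IsDiag} : ℂ) = (q - 1) * (q - 1 - 1) / 2 := by
    rw [Sym2.card_subtype_not_diag, hn, Nat.cast_choose_two, card_units_cast]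
  have hScard : (S.card : ℂ) = 2 * (q - 1) + (q - 1) * (q - 1 - 1) / 2 := by
    rw [Finset.card_image_of_injective _ hΦ, Finset.card_univ, Fintype.card_sum, Fintype.card_sum, Nat.cast_add,
      Nat.cast_add, hk, hn, card_units_cast]
    ring
  have hSsum : ∑ χ ∈ S, (χ : GL₂ → ℂ) 1 ^ 2 =
      (q - 1) + (q - 1) * q ^ 2 + (q - 1) * (q - 1 - 1) / 2 * (q + 1) ^ 2 := by
    rw [Finset.sum_image (fun i _ j _ h => hΦ h), Fintype.sum_sum_type, Fintype.sum_sum_type]
    have h3 : ∀ z : {z : Sym2 (MulChar F ℂ) // ¬ z.IsDiag}, known (Sum.inr (Sum.inr z)) (1 : GL₂) = q + 1 := by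
      rintro ⟨z, hz⟩
      induction z using Sym2.ind with
      | h α β => exact ps_one α β
    simp only [Φ, h3]
    simp only [known, lin_one, st_one, Finset.sum_const, Finset.card_univ, nsmul_eq_mul, hn, card_units_cast, hk]
    ring
  have htot : ((S.card + C.card : ℕ) : ℂ) = q ^ 2 - 1 := by
    rw [← Finset.card_union_of_disjoint hdisj, hsplit, Finset.card_univ, ← Nat.card_eq_fintype_card,
      card_irrCharacter, Cfsg.Agent.S2330.result, Nat.cast_sub (Nat.one_le_pow _ _ Fintype.card_pos)]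
    push_cast
    ring
  have hC2 : 2 * (C.card : ℂ) = q * (q - 1) := by
    push_cast [hScard] at htot
    linear_combination 2 * htot
  have hG : (Nat.card GL₂ : ℂ) = q * (q - 1) ^ 2 * (q + 1) := by
    rw [CfsgLib.Classical.Two.card_gl_two]
    push_cast [Nat.cast_sub (Fintype.card_pos (α := F))]
    ring
  have hsq := sum_degree_sq (G := GL₂)
  rw [← hsplit, Finset.sum_union hdisj, hSsum, hG] at hsq
  have hCsum : ∑ χ ∈ C, (χ : GL₂ → ℂ) 1 ^ 2 = (C.card : ℂ) * (q - 1) ^ 2 := by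
    linear_combination hsq - (q - 1) ^ 2 / 2 * hC2
  have hm2 : ∑ χ ∈ C.attach, (m χ) ^ 2 = C.card := by
    rw [← Finset.sum_attach] at hCsum
    simp only [hm, mul_pow, ← Finset.sum_mul] at hCsum
    have := mul_right_cancel₀ (pow_ne_zero 2 q_sub_one_ne_zero) hCsum
    exact_mod_cast this
  have hone : ∀ χ, m χ = 1 := by
    intro χ
    by_contra hne
    have hlt : ∑ _χ ∈ C.attach, 1 < ∑ χ ∈ C.attach, (m χ) ^ 2 := by
      refine Finset.sum_lt_sum (fun x _ => Nat.one_le_pow _ _ (hm0 x)) ⟨χ, Finset.mem_attach _ _, ?_⟩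
      exact Nat.one_lt_pow two_ne_zero (by have := hm0 χ; omega)
    rw [hm2, Finset.sum_const, Finset.card_attach, smul_eq_mul, mul_one] at hlt
    exact lt_irrefl _ hlt
  refine ⟨fun χ hχ hc => ?_, ?_⟩
  · have e := hm ⟨⟨χ, hχ⟩, Finset.mem_filter.2 ⟨Finset.mem_univ _, hc⟩⟩
    rw [hone] at e
    simpa using e
  · have h2 : 2 * C.card = Fintype.card F * (Fintype.card F - 1) := by
      have : ((2 * C.card : ℕ) : ℂ) = ((Fintype.card F * (Fintype.card F - 1) : ℕ) : ℂ) := by
        push_cast [Nat.cast_sub (Fintype.card_pos (α := F))]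
        linear_combination hC2
      exact_mod_cast this
    rw [Nat.card_eq_fintype_card, Fintype.card_subtype]
    show C.card = _
    omega

theorem cusp_u (χ : GL₂ → ℂ) (hχ : IsIrrCharacter GL₂ χ) (hc : Cusp χ) : χ (up 1 1 1) = -1 := by
  have h1 := cusp_degree χ hχ hc
  rw [count.1 χ hχ hc] at h1
  have : (q - 1) * (χ (up 1 1 1) + 1) = 0 := by linear_combination h1
  exact eq_neg_of_add_eq_zero_left ((mul_eq_zero.1 this).resolve_left q_sub_one_ne_zero)

/-- The four kinds of irreducible characters, with their degrees. -/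
theorem cases_irr (χ : GL₂ → ℂ) (hχ : IsIrrCharacter GL₂ χ) :
    ((∃ μ, χ = lin μ) ∧ χ 1 = 1) ∨ ((∃ μ, χ = st μ) ∧ χ 1 = q) ∨
      ((∃ α β : MulChar F ℂ, α ≠ β ∧ χ = ps α β) ∧ χ 1 = q + 1) ∨ (Cusp χ ∧ χ 1 = q - 1) := by
  rcases trichotomy χ hχ with (⟨μ, rfl⟩ | ⟨μ, rfl⟩ | ⟨α, β, hab, rfl⟩) | h
  · exact Or.inl ⟨⟨μ, rfl⟩, lin_one μ⟩
  · exact Or.inr (Or.inl ⟨⟨μ, rfl⟩, st_one μ⟩)
  · exact Or.inr (Or.inr (Or.inl ⟨⟨α, β, hab, rfl⟩, ps_one α β⟩))
  · exact Or.inr (Or.inr (Or.inr ⟨h (1, 1), count.1 χ hχ (h (1, 1))⟩))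

theorem ps_no_eigen (α β : MulChar F ℂ) (g : GL₂)
    (hg : ∀ (c : F) (v : Fin 2 → F), v ≠ 0 → (g : M₂).mulVec v ≠ c • v) : ps α β g = 0 := by
  have h10 : (g : M₂) 1 0 ≠ 0 := by
    intro e
    refine hg ((g : M₂) 0 0) ![1, 0] (fun h => one_ne_zero (congrFun h 0)) ?_
    funext i
    fin_cases i <;> simp [Matrix.mulVec, dotProduct, Fin.sum_univ_two, e]
  rw [ps_eq, if_neg h10, zero_add]
  refine Finset.sum_eq_zero fun c _ => if_neg fun e => ?_
  refine hg ((g : M₂) 1 0 * c + (g : M₂) 1 1) ![c, 1] (fun h => one_ne_zero (congrFun h 1)) ?_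
  funext i
  fin_cases i <;> simp [Matrix.mulVec, dotProduct, Fin.sum_univ_two]
  linear_combination e

theorem norm_apply (μ : MulChar F ℂ) (x : Fˣ) : ‖μ (x : F)‖ = 1 := by
  have h : μ (x : F) * conj (μ (x : F)) = 1 := by
    rw [conj_apply, ← MulChar.mul_apply, mul_inv_cancel, MulChar.one_apply_coe]
  rw [Complex.mul_conj, Complex.ofReal_eq_one] at h
  rw [Complex.norm_def, h, Real.sqrt_one]

end CfsgLib.Lie.GLTwoTable
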