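/-
An odd `p`-group with constant stabiliser orders on the non-zero vectors is cyclic and fixed-point-free.
-/
import Cfsg.Agent.Lib.TransferApps
import Cfsg.Agent.Lib.CorePGroup

set_option autoImplicit false
set_option linter.unusedSectionVars false

namespace CfsgLib.Lie.HalfTrans

variable {P E : Type*} [Group P] [Finite P] [AddCommGroup E] [Finite E] [DistribMulAction P E] {p : ℕ}

/-- The sum over the powers of an element. -/
def nrm (p : ℕ) (l : P) (x : E) : E := ∑ i ∈ Finset.range p, (l ^ i) • x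

theorem nrm_of_fixed {l : P} {x : E} (h : l • x = x) : nrm p l x = p • x := by
  have : ∀ i : ℕ, (l ^ i) • x = x := fun i =>
    MulAction.mem_stabilizer_iff.1 (pow_mem (MulAction.mem_stabilizer_iff.2 h) i)
  simp [nrm, this]

theorem smul_nrm_self {l : P} (hl : l ^ p = 1) (x : E) : l • nrm p l x = nrm p l x := by
  unfold nrm
  rw [Finset.smul_sum]
  simp only [smul_smul, ← pow_succ']
  have h1 := Finset.sum_range_succ' (fun i => (l ^ i) • x) p
  rw [Finset.sum_range_succ, hl, pow_zero] at h1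
  exact (add_right_cancel h1).symm

theorem smul_nrm_comm {g l : P} (h : Commute g l) (x : E) : g • nrm p l x = nrm p l (g • x) := by
  simp only [nrm, Finset.smul_sum, smul_smul, (h.pow_right _).eq]

theorem nrm_add (l : P) (x y : E) : nrm p l (x + y) = nrm p l x + nrm p l y := by
  simp only [nrm, smul_add, Finset.sum_add_distrib]

theorem nrm_sub_self {l : P} (hl : l ^ p = 1) (x : E) : nrm p l (l • x - x) = 0 := by
  have h := nrm_add (p := p) l (l • x - x) x
  rw [sub_add_cancel, ← smul_nrm_comm (Commute.refl l), smul_nrm_self hl] at h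
  simpa using h

theorem cancel_p [hp : Fact p.Prime] {q : ℕ} (hqp : q ≠ p) (hq : q.Prime) (hE : ∀ e : E, q • e = 0) {x : E}
    (h : p • x = 0) : x = 0 := by
  have h1 : addOrderOf x ∣ Nat.gcd p q :=
    Nat.dvd_gcd (addOrderOf_dvd_of_nsmul_eq_zero h) (addOrderOf_dvd_of_nsmul_eq_zero (hE x))
  rw [(Nat.coprime_primes hp.out hq).2 hqp.symm] at h1
  exact AddMonoid.addOrderOf_eq_one_iff.1 (Nat.dvd_one.1 h1)

theorem eq_of_le_stab (hconst : ∀ a b : E, a ≠ 0 → b ≠ 0 →
      Nat.card (MulAction.stabilizer P a) = Nat.card (MulAction.stabilizer P b)) {a b : E} (ha : a ≠ 0) (hb : b ≠ 0)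
    (hab : a + b ≠ 0) (h : ∀ g : P, g • (a + b) = a + b → g • a = a) :
    MulAction.stabilizer P a ≤ MulAction.stabilizer P b := by
  have e := Subgroup.eq_of_le_of_card_ge (H := MulAction.stabilizer P (a + b)) (K := MulAction.stabilizer P a)
    (fun g hg => h g hg) (hconst a (a + b) ha hab).le
  intro g hg
  have h1 : g • (a + b) = a + b := e.ge hg
  rw [smul_add, MulAction.mem_stabilizer_iff.1 hg] at h1
  exact add_left_cancel h1

theorem central_fpf [Fact p.Prime] [FaithfulSMul P E] {q : ℕ} (hqp : q ≠ p) (hq : q.Prime) (hE : ∀ e : E, q • e = 0)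
    (hconst : ∀ a b : E, a ≠ 0 → b ≠ 0 →
      Nat.card (MulAction.stabilizer P a) = Nat.card (MulAction.stabilizer P b))
    {z : P} (hz : ∀ g : P, Commute g z) (hz1 : z ≠ 1) (hzp : z ^ p = 1) {a : E} (ha : z • a = a) : a = 0 := by
  by_contra ha0
  obtain ⟨b, hb⟩ : ∃ b : E, z • b ≠ b := by
    by_contra h
    simp only [not_exists, not_not] at h
    exact hz1 (FaithfulSMul.eq_of_smul_eq_smul fun b : E => by rw [h b, one_smul])
  set c := z • b - b with hc
  have hc0 : c ≠ 0 := sub_ne_zero.2 hb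
  have hNc : nrm p z c = 0 := nrm_sub_self hzp b
  have hac : a + c ≠ 0 := fun e => by
    have h := congrArg (nrm p z) e
    rw [nrm_add, hNc, add_zero, nrm_of_fixed ha] at h
    exact ha0 (cancel_p hqp hq hE (h.trans (by simp [nrm])))
  have h := eq_of_le_stab hconst ha0 hc0 hac fun g hg => by
    have h1 := congrArg (nrm p z) hg
    rw [← smul_nrm_comm (hz g), nrm_add, hNc, add_zero, nrm_of_fixed ha, smul_comm] at h1
    exact sub_eq_zero.1 (cancel_p hqp hq hE (by rw [smul_sub, h1, sub_self]))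
  have h2 := nrm_of_fixed (p := p) (MulAction.mem_stabilizer_iff.1 (h (MulAction.mem_stabilizer_iff.2 ha)))
  rw [hNc] at h2
  exact hc0 (cancel_p hqp hq hE h2.symm)

theorem commute_of_conj_mem [hp : Fact p.Prime] (hP : IsPGroup p P) {g l : P} (hl : orderOf l = p)
    (h : g * l * g⁻¹ ∈ Subgroup.zpowers l) : Commute g l := by
  obtain ⟨k, hk⟩ := (mem_powers_iff_mem_zpowers).2 h
  simp only at hk
  obtain ⟨n, hn⟩ := hP g
  have hit : ∀ i : ℕ, g ^ i * l * (g ^ i)⁻¹ = l ^ (k ^ i) := by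
    intro i
    induction i with
    | zero => simp
    | succ j ih =>
      rw [pow_succ' g, mul_inv_rev, show g * g ^ j * l * ((g ^ j)⁻¹ * g⁻¹) = g * (g ^ j * l * (g ^ j)⁻¹) * g⁻¹ by group,
        ih, ← conj_pow, ← hk, ← pow_mul, pow_succ']
  have h1 := hit (p ^ n)
  rw [hn, one_mul, inv_one, mul_one] at h1
  have h2 : (k : ZMod p) = 1 := by
    have h3 : ((k ^ p ^ n : ℕ) : ZMod p) = 1 := by
      have h4 := pow_eq_pow_iff_modEq.1 (show l ^ (k ^ p ^ n) = l ^ 1 by rw [← h1, pow_one])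
      rw [hl] at h4
      rw [← Nat.cast_one, ZMod.natCast_eq_natCast_iff]
      exact h4
    rwa [Nat.cast_pow, ZMod.pow_card_pow] at h3
  have h4 : l ^ k = l := by
    conv_rhs => rw [← pow_one l]
    rw [pow_eq_pow_iff_modEq, hl, ← ZMod.natCast_eq_natCast_iff, h2, Nat.cast_one]
  rw [h4] at hk
  exact mul_inv_eq_iff_eq_mul.1 hk.symm

theorem cyclic [FaithfulSMul P E] [hp : Fact p.Prime] {q : ℕ} (hqp : q ≠ p) (hp2 : p ≠ 2) (hP : IsPGroup p P)
    (hq : q.Prime) (hE : ∀ e : E, q • e = 0)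
    (hconst : ∀ a b : E, a ≠ 0 → b ≠ 0 →
      Nat.card (MulAction.stabilizer P a) = Nat.card (MulAction.stabilizer P b)) : IsCyclic P := by
  by_contra hnc
  obtain ⟨A, hAn, ⟨hAc, hAe⟩, hAcard⟩ := CfsgLib.Transfer.exists_normal_rank_two hp2 hP hnc
  haveI := hAn
  haveI := hP.isNilpotent
  have hA0 : A ≠ ⊥ := fun h => by
    rw [h, Subgroup.card_bot] at hAcard
    exact absurd hAcard.symm (Nat.one_lt_pow (by norm_num) hp.out.one_lt).ne'
  obtain ⟨⟨z, hzA, hzc⟩, hz1⟩ := Subgroup.ne_bot_iff_exists_ne_one.1 (CfsgLib.Core.nilpotent_inf_center_ne_bot hA0)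
  have hz1' : z ≠ 1 := fun e => hz1 (Subtype.ext e)
  have hzC : ∀ g : P, Commute g z := fun g => Subgroup.mem_center_iff.1 hzc g
  have hzp := hAe z hzA
  have fpf : ∀ x : E, z • x = x → x = 0 := fun x hx => central_fpf hqp hq hE hconst hzC hz1' hzp hx
  have hordA : ∀ l ∈ A, l ≠ 1 → orderOf l = p := fun l hl h1 => orderOf_eq_prime (hAe l hl) h1
  obtain ⟨y, hyA, hy⟩ : ∃ y ∈ A, y ∉ Subgroup.zpowers z := by
    by_contra h
    simp only [not_exists, not_and, not_not] at h
    have := Subgroup.card_dvd_of_le (show A ≤ Subgroup.zpowers z from h)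
    rw [Nat.card_zpowers, hordA z hzA hz1', hAcard] at this
    have := Nat.le_of_dvd hp.out.pos this
    have := hp.out.two_le
    nlinarith
  -- two different lines with a common non-zero fixed vector only if trivial
  have pair : ∀ u v : P, u ∈ A → v ∈ A → u ≠ 1 → v ∉ Subgroup.zpowers u → ∀ x : E, u • x = x → v • x = x → x = 0 := by
    intro u v hu hv hu1 huv x hux hvx
    refine fpf x (MulAction.mem_stabilizer_iff.1 ?_)
    have hle : A ⊓ MulAction.stabilizer P x ≤ A := inf_le_left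
    obtain ⟨i, hi, hcard⟩ := (Nat.dvd_prime_pow hp.out).1 (hAcard ▸ Subgroup.card_dvd_of_le hle)
    have hlt : Subgroup.zpowers u < A ⊓ MulAction.stabilizer P x := by
      refine lt_of_le_of_ne (Subgroup.zpowers_le.2 (show u ∈ A ⊓ MulAction.stabilizer P x from ⟨hu, hux⟩)) fun e => huv ?_
      rw [e]; exact ⟨hv, hvx⟩
    have h1 : p < Nat.card ↥(A ⊓ MulAction.stabilizer P x) := by
      rw [← hordA u hu hu1, ← Nat.card_zpowers]
      by_contra hge
      exact hlt.ne (Subgroup.eq_of_le_of_card_ge hlt.le (not_lt.1 hge))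
    have hi2 : i = 2 := by
      rw [hcard] at h1
      by_contra hne
      have h2 : p ^ i ≤ p ^ 1 := Nat.pow_le_pow_right hp.out.pos (by omega)
      rw [pow_one] at h2
      omega
    have e := Subgroup.eq_of_le_of_card_ge hle (by rw [hAcard, hcard, hi2])
    exact (e.ge hzA).2
  -- a line outside the centre with a fixed vector
  obtain ⟨x₀, hx₀⟩ : ∃ x : E, x ≠ 0 := by
    by_contra h
    simp only [not_exists, not_not] at h
    exact hz1' (FaithfulSMul.eq_of_smul_eq_smul fun x : E => by rw [h x, smul_zero, smul_zero])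
  have hyz : Commute y z := hzC y
  have hsum : ∑ i ∈ Finset.range p, nrm p (y * z ^ i) x₀ = p • x₀ := by
    simp only [nrm]
    rw [Finset.sum_comm, ← Finset.add_sum_erase _ _ (Finset.mem_range.2 hp.out.pos)]
    rw [Finset.sum_eq_zero (s := (Finset.range p).erase 0) fun j hj => ?_, add_zero]
    · simp
    · have hj' : j ≠ 0 ∧ j < p := by simpa using hj
      have hpj : (z ^ j) ^ p = 1 := by rw [← pow_mul, mul_comm, pow_mul, hzp, one_pow]
      have h0 : nrm p (z ^ j) x₀ = 0 := by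
        refine central_fpf hqp hq hE hconst (fun g => (hzC g).pow_right j) ?_ hpj (smul_nrm_self hpj _)
        exact pow_ne_one_of_lt_orderOf hj'.1 (by rw [hordA z hzA hz1']; exact hj'.2)
      calc ∑ i ∈ Finset.range p, ((y * z ^ i) ^ j) • x₀
          = ∑ i ∈ Finset.range p, (y ^ j) • ((z ^ j) ^ i) • x₀ := Finset.sum_congr rfl fun i _ => by
            rw [smul_smul, (hyz.pow_right i).mul_pow, ← pow_mul, ← pow_mul, mul_comm i j]
        _ = (y ^ j) • nrm p (z ^ j) x₀ := by rw [nrm, Finset.smul_sum]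
        _ = 0 := by rw [h0, smul_zero]
  obtain ⟨i, -, hi⟩ : ∃ i ∈ Finset.range p, nrm p (y * z ^ i) x₀ ≠ 0 := Finset.exists_ne_zero_of_sum_ne_zero
    (by rw [hsum]; exact fun e => hx₀ (cancel_p hqp hq hE e))
  set l := y * z ^ i with hl
  have hlA : l ∈ A := mul_mem hyA (pow_mem hzA i)
  have hl1 : l ≠ 1 := fun e => hy (by
    rw [eq_inv_of_mul_eq_one_left e]; exact inv_mem (pow_mem (Subgroup.mem_zpowers z) i))
  have hlp := hordA l hlA hl1
  set a := nrm p l x₀ with ha
  have hla : l • a = a := smul_nrm_self (hAe l hlA) x₀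
  obtain ⟨g, hg⟩ : ∃ g : P, ¬ Commute g l := by
    by_contra h
    simp only [not_exists, not_not] at h
    exact hi (central_fpf hqp hq hE hconst h hl1 (hAe l hlA) hla)
  set l' := g * l * g⁻¹ with hl'
  have hl'A : l' ∈ A := hAn.conj_mem l hlA g
  have hl'1 : l' ≠ 1 := fun e => hl1 (conj_eq_one_iff.1 e)
  have hl'p := hordA l' hl'A hl'1
  have hll' : l' ∉ Subgroup.zpowers l := fun h => hg (commute_of_conj_mem hP hlp h)
  set b := g • a with hb
  have hb0 : b ≠ 0 := fun e => hi ((smul_eq_zero_iff_eq g).1 e)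
  have hlb : l' • b = b := by rw [hl', hb, smul_smul, inv_mul_cancel_right, mul_smul, hla]
  have hAcomm : ∀ u ∈ A, ∀ v ∈ A, Commute u v := fun u hu v hv => by
    haveI := hAc
    exact congrArg Subtype.val (mul_comm' (⟨u, hu⟩ : A) ⟨v, hv⟩)
  -- the norm of one line kills the fixed vectors of another
  have kill : ∀ u v : P, u ∈ A → v ∈ A → u ≠ 1 → v ∉ Subgroup.zpowers u → ∀ x : E, v • x = x → nrm p u x = 0 :=
    fun u v hu hv hu1 huv x hvx => pair u v hu hv hu1 huv _ (smul_nrm_self (hAe u hu) x)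
      (by rw [smul_nrm_comm (hAcomm v hv u hu), hvx])
  have hab : a + b ≠ 0 := fun e => by
    have h := congrArg (nrm p l) e
    rw [nrm_add, nrm_of_fixed hla, kill l l' hlA hl'A hl1 hll' b hlb, add_zero] at h
    exact hi (cancel_p hqp hq hE (h.trans (by simp [nrm])))
  have conjfix : ∀ (h u : P) (x : E), u • x = x → (h * u * h⁻¹) • h • x = h • x := fun h u x hx => by
    rw [smul_smul, inv_mul_cancel_right, mul_smul, hx]
  have conjline : ∀ (h u v : P), v ∈ Subgroup.zpowers u → h * v * h⁻¹ ∈ Subgroup.zpowers (h * u * h⁻¹) := by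
    rintro h u v ⟨j, rfl⟩
    exact ⟨j, conj_zpow⟩
  have zp_eq : ∀ (u v : P), v ∈ A → v ≠ 1 → u ∈ A → u ≠ 1 → v ∈ Subgroup.zpowers u → u ∈ Subgroup.zpowers v := by
    intro u v hv hv1 hu hu1 h
    have e := Subgroup.eq_of_le_of_card_ge (Subgroup.zpowers_le.2 h)
      (by rw [Nat.card_zpowers, Nat.card_zpowers, hordA u hu hu1, hordA v hv hv1])
    rw [e]; exact Subgroup.mem_zpowers u
  have h := eq_of_le_stab hconst hi hb0 hab fun h hh => by
    set l₁ := h * l * h⁻¹
    set l₂ := h * l' * h⁻¹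
    have h1A : l₁ ∈ A := hAn.conj_mem l hlA h
    have h2A : l₂ ∈ A := hAn.conj_mem l' hl'A h
    have h11 : l₁ ≠ 1 := fun e => hl1 (conj_eq_one_iff.1 e)
    have h21 : l₂ ≠ 1 := fun e => hl'1 (conj_eq_one_iff.1 e)
    have f1 : l₁ • h • a = h • a := conjfix h l a hla
    have f2 : l₂ • h • b = h • b := conjfix h l' b hlb
    have h12 : l₂ ∉ Subgroup.zpowers l₁ := fun e => hll' (by
      have := conjline h⁻¹ l₁ l₂ e
      simpa [l₁, l₂, mul_assoc] using this)
    have e1 : nrm p l (h • a) + nrm p l (h • b) = p • a := by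
      rw [← nrm_add, ← smul_add, hh, nrm_add, nrm_of_fixed hla, kill l l' hlA hl'A hl1 hll' b hlb, add_zero]
    by_cases hc1 : l₁ ∈ Subgroup.zpowers l
    · have hcl := commute_of_conj_mem hP hlp hc1
      have h2 : l₂ ∉ Subgroup.zpowers l := fun e => h12 (by
        have : l₁ = l := by show h * l * h⁻¹ = l; rw [hcl.eq, mul_inv_cancel_right]
        rwa [this])
      rw [kill l l₂ hlA h2A hl1 h2 _ f2, add_zero, ← smul_nrm_comm hcl, nrm_of_fixed hla, smul_comm] at e1
      exact sub_eq_zero.1 (cancel_p hqp hq hE (by rw [smul_sub, e1, sub_self]))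
    · exfalso
      rw [kill l l₁ hlA h1A hl1 hc1 _ f1, zero_add] at e1
      have hc2 : l₂ ∈ Subgroup.zpowers l := by
        by_contra hc
        rw [kill l l₂ hlA h2A hl1 hc _ f2] at e1
        exact hi (cancel_p hqp hq hE e1.symm)
      have hl'l : l ∉ Subgroup.zpowers l' := fun e => hll' (zp_eq l' l hlA hl1 hl'A hl'1 e)
      have e2 : nrm p l' (h • a) + nrm p l' (h • b) = p • b := by
        rw [← nrm_add, ← smul_add, hh, nrm_add, nrm_of_fixed hlb, kill l' l hl'A hlA hl'1 hl'l a hla, zero_add]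
      have hl2' : l₂ ∉ Subgroup.zpowers l' := fun e => hl'l (by
        have h3 := zp_eq l l₂ h2A h21 hlA hl1 hc2
        exact (Subgroup.zpowers_le.2 e) h3)
      rw [kill l' l₂ hl'A h2A hl'1 hl2' _ f2, add_zero] at e2
      have hc3 : l₁ ∈ Subgroup.zpowers l' := by
        by_contra hc
        rw [kill l' l₁ hl'A h1A hl'1 hc _ f1] at e2
        exact hb0 (cancel_p hqp hq hE e2.symm)
      have h4 : h * l₁ * h⁻¹ ∈ Subgroup.zpowers l₂ := conjline h l' l₁ hc3
      have h5 : h * h * l * (h * h)⁻¹ ∈ Subgroup.zpowers l := by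
        rw [show h * h * l * (h * h)⁻¹ = h * l₁ * h⁻¹ by simp only [l₁]; group]
        exact (Subgroup.zpowers_le.2 hc2) h4
      have h6 := commute_of_conj_mem hP hlp h5
      have hodd : Odd (orderOf h) := by
        obtain ⟨n, hn⟩ := (IsPGroup.iff_orderOf.1 hP) h
        rw [hn]; exact (hp.out.odd_of_ne_two hp2).pow
      obtain ⟨j, hj⟩ := hodd
      have h7 : h = (h * h) ^ (j + 1) := by
        rw [← sq, ← pow_mul, show 2 * (j + 1) = orderOf h + 1 by omega, pow_succ, pow_orderOf_eq_one, one_mul]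
      have h8 : Commute h l := by rw [h7]; exact h6.pow_left _
      exact hc1 (by show h * l * h⁻¹ ∈ _; rw [h8.eq, mul_inv_cancel_right]; exact Subgroup.mem_zpowers l)
  exact hb0 (pair l l' hlA hl'A hl1 hll' b (MulAction.mem_stabilizer_iff.1 (h (MulAction.mem_stabilizer_iff.2 hla))) hlb)

theorem main [FaithfulSMul P E] [hp : Fact p.Prime] {q : ℕ} (hp2 : p ≠ 2) (hP : IsPGroup p P)
    (hq : q.Prime) (hE : ∀ e : E, q • e = 0)
    (hconst : ∀ a b : E, a ≠ 0 → b ≠ 0 →
      Nat.card (MulAction.stabilizer P a) = Nat.card (MulAction.stabilizer P b)) :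
    IsCyclic P ∧ ∀ g : P, g ≠ 1 → ∀ a : E, g • a = a → a = 0 := by
  by_cases hqp : q = p
  · have htriv : ∀ g : P, g = 1 := by
      intro g
      refine FaithfulSMul.eq_of_smul_eq_smul fun x : E => ?_
      rw [one_smul]
      by_cases hx : x = 0
      · rw [hx, smul_zero]
      have hdvd : p ∣ Nat.card E := by
        haveI := Fact.mk hq
        rw [← addOrderOf_eq_prime (hE x) hx] at hqp
        exact hqp ▸ addOrderOf_dvd_natCard x
      obtain ⟨a, ha, ha0⟩ := hP.exists_fixed_point_of_prime_dvd_card_of_fixed_point E hdvd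
        (a := (0 : E)) fun g => smul_zero g
      have h1 : MulAction.stabilizer P a = ⊤ := Subgroup.ext fun g => by simpa using ha g
      have h2 := Subgroup.eq_top_of_card_eq _ (show Nat.card (MulAction.stabilizer P x) = Nat.card P by
        rw [hconst x a hx ha0.symm, h1, Subgroup.card_top])
      exact MulAction.mem_stabilizer_iff.1 (h2 ▸ Subgroup.mem_top g : g ∈ MulAction.stabilizer P x)
    exact ⟨⟨1, fun g => ⟨0, by simp [htriv g]⟩⟩, fun g hg => absurd (htriv g) hg⟩
  have hcyc := cyclic hqp hp2 hP hq hE hconst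
  refine ⟨hcyc, fun g hg a ha => ?_⟩
  obtain ⟨n, hn⟩ := IsPGroup.iff_orderOf.1 hP g
  have hdvd : p ∣ orderOf g := by
    rw [hn]; exact dvd_pow_self p fun e => hg (orderOf_eq_one_iff.1 (by rw [hn, e, pow_zero]))
  set z := g ^ (orderOf g / p) with hz
  have hzo : orderOf z = p := orderOf_pow_orderOf_div (orderOf_pos g).ne' hdvd
  haveI := hcyc
  letI := IsCyclic.commGroup (α := P)
  exact central_fpf hqp hq hE hconst (fun h => mul_comm h z) (fun e => by rw [e, orderOf_one] at hzo; exact hp.out.ne_one hzo.symm)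
    (by rw [← hzo, pow_orderOf_eq_one]) (MulAction.mem_stabilizer_iff.1 (pow_mem (MulAction.mem_stabilizer_iff.2 ha) _))

end CfsgLib.Lie.HalfTrans
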