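/-
The exceptional isogeny of type B2 (generated).
-/
import Cfsg.Agent.Lib.LieDataB2
import Cfsg.Agent.Lib.LieIsoTab

set_option autoImplicit false
set_option maxRecDepth 100000
set_option maxHeartbeats 4000000

namespace CfsgLib.Lie

open Cfsg.Lie Tab

theorem posrk'_B2 : 0 < chevB2.rank := by decide +kernel

/-- A coordinate from its number. -/
def idxB2 (x : ℕ) : chevB2.Idx :=
  if x < chevB2.rank then Sum.inl ⟨Nat.mod x chevB2.rank, Nat.mod_lt _ posrk'_B2⟩
  else Sum.inr ⟨Nat.mod (Nat.sub x chevB2.rank) chevB2.nroots, Nat.mod_lt _ pos_B2⟩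

/-- Tables of the isogeny. -/
def isoB2 : IsoData chevB2 where
  p := 2
  k := 5
  eI x := idxB2 (byteAt 0x807040300 x.val)
  eQ x := idxB2 (byteAt 0x906050201 x.val)
  rho r := ⟨Nat.mod (byteAt 0x607040502030001 r.val) chevB2.nroots, Nat.mod_lt _ pos_B2⟩
  rhoi i := ⟨Nat.mod (byteAt 0x1 i.val) chevB2.rank, Nat.mod_lt _ posrk'_B2⟩
  ex i := byteAt 0x102 i.val
  short r := Nat.testBit 0x66 r.val

theorem isoB2_ideal : tabB2.idealB isoB2 = true := by decide +kernel

theorem isoB2_gen : tabB2.genB isoB2 = true := by decide +kernel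

theorem isoB2_span : tabB2.spanB isoB2 = true := by decide +kernel

end CfsgLib.Lie
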