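/-
The exceptional isogeny of type F4 (generated).
-/
import Cfsg.Agent.Lib.LieDataF4
import Cfsg.Agent.Lib.LieIsoTab

set_option autoImplicit false
set_option maxRecDepth 100000
set_option maxHeartbeats 4000000

namespace CfsgLib.Lie

open Cfsg.Lie Tab

theorem posrk'_F4 : 0 < chevF4.rank := by decide +kernel

/-- A coordinate from its number. -/
def idxF4 (x : ℕ) : chevF4.Idx :=
  if x < chevF4.rank then Sum.inl ⟨Nat.mod x chevF4.rank, Nat.mod_lt _ posrk'_F4⟩
  else Sum.inr ⟨Nat.mod (Nat.sub x chevF4.rank) chevF4.nroots, Nat.mod_lt _ pos_F4⟩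

/-- Tables of the isogeny. -/
def isoF4 : IsoData chevF4 where
  p := 2
  k := 26
  eI x := idxF4 (byteAt 0x302c2b2a2821292720261f2512181117100e160f0d0c0b070001 x.val)
  eQ x := idxF4 (byteAt 0x3332312f2e2d2423221e1d1c1b1a191514130a09080605040302 x.val)
  rho r := ⟨Nat.mod (byteAt 0x2c28272f26241d2e2d2b202a1f1a1825231c291e19221b210e140d161106130c0a171510050f040201120b0900080703 r.val) chevF4.nroots, Nat.mod_lt _ pos_F4⟩
  rhoi i := ⟨Nat.mod (byteAt 0x10203 i.val) chevF4.rank, Nat.mod_lt _ posrk'_F4⟩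
  ex i := byteAt 0x1010202 i.val
  short r := Nat.testBit 0x11fe381c7f88 r.val

theorem isoF4_ideal : tabF4.idealB isoF4 = true := by decide +kernel

theorem isoF4_gen : tabF4.genB isoF4 = true := by decide +kernel

theorem isoF4_span : tabF4.spanB isoF4 = true := by decide +kernel

end CfsgLib.Lie
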