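/-
Automorphisms and twisting endomorphisms from the exceptional isogenies.
-/
import Cfsg.Agent.Lib.LieIso

set_option autoImplicit false
set_option maxHeartbeats 400000

namespace CfsgLib.Lie

open Cfsg.Lie

namespace Tab

variable {D : ChevalleyDatum} {T : Tab D} {K : Type*} [Field K] (hT : T.Checked) (hE : ∀ r, T.extraB r = true)
  {Z : IsoData D} [CharP K Z.p] (hs : T.idealB Z = true) (hp : T.spanB Z = true) (hgen : T.genB Z = true)

theorem isog_facts (hgen : T.genB Z = true) (i : Fin D.rank) :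
    Z.rho (T.p i) = T.p (Z.rhoi i) ∧ Z.rho (T.ng (T.p i)) = T.ng (T.p (Z.rhoi i)) ∧ Z.rhoi (Z.rhoi i) = i ∧
      Z.ex i * Z.ex (Z.rhoi i) = Z.p := by
  simp only [genB, Bool.and_eq_true, Bool.or_eq_true, List.all_eq_true, decide_eq_true_eq, List.mem_finRange,
    forall_const] at hgen
  obtain ⟨⟨⟨⟨⟨⟨h1, h2⟩, h3⟩, h4⟩, _⟩, _⟩, _⟩ := hgen i
  exact ⟨h1, h2, h3, h4⟩

include hT hE hs hp hgen in
/-- The graph automorphism over a perfect field. -/
theorem exists_isogenyAut (hperf : ∀ x : K, ∃ y : K, y ^ Z.p = x) (hpr : Z.p.Prime) :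
    ∃ α : ↥(D.group K) ≃* ↥(D.group K), ∀ (g : ↥(D.group K)) (i : ℕ) (t : K) (hi : i < D.rank),
      (((g : GL D.Idx K) : Matrix D.Idx D.Idx K) = D.x K (D.simple i) t →
        ((α g : GL D.Idx K) : Matrix D.Idx D.Idx K) = D.x K (D.simple (Z.rhoi ⟨i, hi⟩).val) (t ^ Z.ex ⟨i, hi⟩)) ∧
      (((g : GL D.Idx K) : Matrix D.Idx D.Idx K) = D.x K (D.neg (D.simple i)) t →
        ((α g : GL D.Idx K) : Matrix D.Idx D.Idx K) =
          D.x K (D.neg (D.simple (Z.rhoi ⟨i, hi⟩).val)) (t ^ Z.ex ⟨i, hi⟩)) := by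
  obtain ⟨ψ, hψ⟩ := exists_isogeny (K := K) hT hE hs hp hgen
  haveI : Fact Z.p.Prime := ⟨hpr⟩
  haveI : ExpChar K Z.p := ExpChar.prime hpr
  have hgens : ∀ (i : Fin D.rank) (t : K),
      (ψ (ψ ⟨u hT (T.p i) t, u_mem_group hT _ _⟩) : GL D.Idx K) = u hT (T.p i) (t ^ Z.p) ∧
      (ψ (ψ ⟨u hT (T.ng (T.p i)) t, u_mem_group hT _ _⟩) : GL D.Idx K) = u hT (T.ng (T.p i)) (t ^ Z.p) := by
    intro i t
    obtain ⟨h1, h2, h3, h4⟩ := isog_facts hgen i
    obtain ⟨h1', h2', -, -⟩ := isog_facts hgen (Z.rhoi i)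
    constructor
    · rw [show ψ ⟨u hT (T.p i) t, u_mem_group hT _ _⟩ = ⟨u hT (T.p (Z.rhoi i)) (t ^ Z.ex i), u_mem_group hT _ _⟩ from
        Subtype.ext ((hψ i _ (Or.inl rfl) t).trans (by rw [h1])), hψ _ _ (Or.inl rfl), h1', h3, ← pow_mul, h4]
    · rw [show ψ ⟨u hT (T.ng (T.p i)) t, u_mem_group hT _ _⟩ =
          ⟨u hT (T.ng (T.p (Z.rhoi i))) (t ^ Z.ex i), u_mem_group hT _ _⟩ from
        Subtype.ext ((hψ i _ (Or.inr rfl) t).trans (by rw [h2])), hψ _ _ (Or.inr rfl), h2', h3, ← pow_mul, h4]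
  let fr : ↥(D.group K) →* ↥(D.group K) :=
    { toFun := fun g => ⟨fmap D (frobenius K Z.p) g, fmap_group hT _ g.2⟩
      map_one' := Subtype.ext (map_one (fmap D (frobenius K Z.p)))
      map_mul' := fun a b => Subtype.ext (map_mul (fmap D (frobenius K Z.p)) (a : GL D.Idx K) b) }
  have heq : ∀ g ∈ D.group K, ∀ hg, ψ (ψ ⟨g, hg⟩) = fr ⟨g, hg⟩ := by
    have hle : D.group K ≤ ((ψ.comp ψ).eqLocus fr).map (D.group K).subtype := by
      have hu : ∀ (i : Fin D.rank) (t : K), u hT (T.p i) t ∈ ((ψ.comp ψ).eqLocus fr).map (D.group K).subtype ∧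
          u hT (T.ng (T.p i)) t ∈ ((ψ.comp ψ).eqLocus fr).map (D.group K).subtype := fun i t =>
        ⟨⟨⟨_, u_mem_group hT _ _⟩, Subtype.ext ((hgens i t).1.trans (fmap_u hT (frobenius K Z.p) _ t).symm), rfl⟩,
          ⟨⟨_, u_mem_group hT _ _⟩, Subtype.ext ((hgens i t).2.trans (fmap_u hT (frobenius K Z.p) _ t).symm), rfl⟩⟩
      conv_lhs => rw [group_eq hT]
      refine Ugrp_le hT fun r _ t => u_mem_of hT (fun i t => (hu i t).1) (fun i => ?_) r t
      rw [sg_eq]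
      exact mul_mem (mul_mem (hu i _).1 (hu i _).2) (hu i _).1
    intro g hg hg'
    obtain ⟨g', h', e⟩ := hle hg
    obtain rfl : g' = ⟨g, hg'⟩ := Subtype.ext e
    exact h'
  have hinj : Function.Injective ψ := by
    rw [injective_iff_map_eq_one]
    intro g hg
    have h := heq g g.2 g.2
    rw [show (⟨(g : GL D.Idx K), g.2⟩ : ↥(D.group K)) = g from rfl, hg, map_one] at h
    have h' : fmap D (frobenius K Z.p) (g : GL D.Idx K) = 1 := (congrArg Subtype.val h).symm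
    refine Subtype.ext (Units.ext (Matrix.ext fun a b => (frobenius_inj K Z.p) ?_))
    have e : ((fmap D (frobenius K Z.p) (g : GL D.Idx K) : GL D.Idx K) : Matrix D.Idx D.Idx K) a b =
        ((1 : GL D.Idx K) : Matrix D.Idx D.Idx K) a b := by rw [h']
    rw [coe_fmap, Matrix.map_apply] at e
    rw [e]
    by_cases hab : a = b <;> simp [hab, Matrix.one_apply, frobenius_def, hpr.ne_zero]
  have hsurj : Function.Surjective ψ := by
    have hle : D.group K ≤ ψ.range.map (D.group K).subtype := by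
      have hu : ∀ (i : Fin D.rank) (t : K), u hT (T.p i) t ∈ ψ.range.map (D.group K).subtype ∧
          u hT (T.ng (T.p i)) t ∈ ψ.range.map (D.group K).subtype := fun i t => by
        obtain ⟨y, rfl⟩ := hperf t
        exact ⟨⟨_, ⟨_, rfl⟩, (hgens i y).1⟩, ⟨_, ⟨_, rfl⟩, (hgens i y).2⟩⟩
      conv_lhs => rw [group_eq hT]
      refine Ugrp_le hT fun r _ t => u_mem_of hT (fun i t => (hu i t).1) (fun i => ?_) r t
      rw [sg_eq]
      exact mul_mem (mul_mem (hu i _).1 (hu i _).2) (hu i _).1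
    intro g
    obtain ⟨g', hg', e⟩ := hle g.2
    obtain rfl : g' = g := Subtype.ext e
    exact hg'
  refine ⟨MulEquiv.ofBijective ψ ⟨hinj, hsurj⟩, fun g i t hi => ?_⟩
  obtain ⟨h1, h2, -, -⟩ := isog_facts hgen ⟨i, hi⟩
  have hs' : D.simple i = (T.p ⟨i, hi⟩).val := simple_eq hT ⟨i, hi⟩
  rw [hs', simple_eq hT, neg_eq hT, neg_eq hT]
  constructor
  · intro hg'
    obtain rfl : g = ⟨u hT (T.p ⟨i, hi⟩) t, u_mem_group hT _ _⟩ :=
      Subtype.ext (Units.ext (hg'.trans (coe_u_eq_x hT _ _).symm))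
    show ((ψ _ : GL D.Idx K) : Matrix D.Idx D.Idx K) = _
    rw [hψ _ _ (Or.inl rfl), h1, coe_u_eq_x]
  · intro hg'
    obtain rfl : g = ⟨u hT (T.ng (T.p ⟨i, hi⟩)) t, u_mem_group hT _ _⟩ :=
      Subtype.ext (Units.ext (hg'.trans (coe_u_eq_x hT _ _).symm))
    show ((ψ _ : GL D.Idx K) : Matrix D.Idx D.Idx K) = _
    rw [hψ _ _ (Or.inr rfl), h2, coe_u_eq_x]

/-- The data of a twisting endomorphism made of an isogeny and an automorphism of the field. -/
theorem exists_isogTwist {Y : TwData D} (hsym : T.symB Y = true) (hY : ∀ i, Y.rhoi i = Z.rhoi i)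
    (hT : T.Checked) (hE : ∀ r, T.extraB r = true) (hs : T.idealB Z = true) (hp : T.spanB Z = true)
    (hgen : T.genB Z = true) (φ : Fin D.rank → K ≃+* K) (θ : K ≃+* K) (hφ : ∀ i t, φ i t = θ t ^ Z.ex i) :
    ∃ τ : GL D.Idx K → GL D.Idx K, (∀ g ∈ D.group K, τ g ∈ D.group K) ∧
      (∀ g ∈ D.group K, ∀ g' ∈ D.group K, τ (g * g') = τ g * τ g') ∧
      (∀ i (t : K), τ (u hT (T.p i) t) = u hT (T.p ((symOf hsym).ρi i)) (φ i t)) ∧
      (∀ i (t : K), τ (u hT (T.ng (T.p i)) t) = u hT (T.ng (T.p ((symOf hsym).ρi i))) (φ i t)) := by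
  classical
  obtain ⟨ψ, hψ⟩ := exists_isogeny (K := K) hT hE hs hp hgen
  let τ : GL D.Idx K → GL D.Idx K := fun g =>
    if h : g ∈ D.group K then ψ ⟨fmap D (θ : K →+* K) g, fmap_group hT _ h⟩ else 1
  have hτ : ∀ g (hg : g ∈ D.group K), τ g = ψ ⟨fmap D (θ : K →+* K) g, fmap_group hT _ hg⟩ := fun g hg => dif_pos hg
  have hi : ∀ i, (symOf hsym).ρi i = Z.rhoi i := hY
  refine ⟨τ, fun g hg => ?_, fun g hg g' hg' => ?_, fun i t => ?_, fun i t => ?_⟩
  · rw [hτ g hg]; exact SetLike.coe_mem _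
  · rw [hτ _ (mul_mem hg hg'), hτ g hg, hτ g' hg', ← Subgroup.coe_mul, ← map_mul]
    congr 2
    exact Subtype.ext (map_mul _ _ _)
  · obtain ⟨h1, -, -, -⟩ := isog_facts hgen i
    rw [hτ _ (u_mem_group hT _ _)]
    simp only [fmap_u hT]
    rw [hψ i _ (Or.inl rfl), h1, hi, hφ]
    rfl
  · obtain ⟨-, h2, -, -⟩ := isog_facts hgen i
    rw [hτ _ (u_mem_group hT _ _)]
    simp only [fmap_u hT]
    rw [hψ i _ (Or.inr rfl), h2, hi, hφ]
    rfl

end Tab

end CfsgLib.Lie
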