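import Mathlib

/-!
The number of nilpotent matrices over a finite field.
-/

set_option autoImplicit false

namespace CfsgLib.Lie.NilpotentCount

open Matrix Polynomial

variable {F : Type*} [Field F]

/-- The nilpotent matrices. -/
abbrev Nil (F : Type*) [Field F] (n : ℕ) := {A : Matrix (Fin n) (Fin n) F // IsNilpotent A}

/-- Block diagonal matrices. -/
noncomputable def D {n k : ℕ} (hk : k ≤ n) (A : Matrix (Fin k) (Fin k) F)
    (B : Matrix (Fin (n - k)) (Fin (n - k)) F) : Matrix (Fin n) (Fin n) F :=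
  Matrix.reindexAlgEquiv F F (finSumFinEquiv.trans (finCongr (Nat.add_sub_of_le hk))) (fromBlocks A 0 0 B)

theorem charpoly_nil {k : ℕ} {A : Matrix (Fin k) (Fin k) F} (hA : IsNilpotent A) :
    A.charpoly = X ^ k := by
  have h := (Matrix.isNilpotent_charpoly_sub_pow_of_isNilpotent hA).eq_zero
  rwa [Fintype.card_fin, sub_eq_zero] at h

theorem trailing_D {n k : ℕ} (hk : k ≤ n) {A : Matrix (Fin k) (Fin k) F} (hA : IsNilpotent A)
    (B : GL (Fin (n - k)) F) : (D hk A (B : Matrix (Fin (n - k)) (Fin (n - k)) F)).charpoly.natTrailingDegree = k := by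
  have hB : (B : Matrix (Fin (n - k)) (Fin (n - k)) F).charpoly.coeff 0 ≠ 0 := by
    intro h
    have h' := Matrix.det_eq_sign_charpoly_coeff (B : Matrix (Fin (n - k)) (Fin (n - k)) F)
    rw [h, mul_zero] at h'
    exact (Matrix.isUnits_det_units B).ne_zero h'
  rw [D, Matrix.coe_reindexAlgEquiv, Matrix.charpoly_reindex, Matrix.charpoly_fromBlocks_zero₁₂,
    charpoly_nil hA, Polynomial.natTrailingDegree_mul (pow_ne_zero _ X_ne_zero) (Matrix.charpoly_monic _).ne_zero,
    Polynomial.natTrailingDegree_X_pow, Polynomial.natTrailingDegree_eq_zero_of_constantCoeff_ne_zero (by simpa using hB),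
    add_zero]

theorem offdiag {k j : ℕ} {A A' : Matrix (Fin k) (Fin k) F} (hA : IsNilpotent A) (hA' : IsNilpotent A')
    (B B' : GL (Fin j) F) {Q : Matrix (Fin k ⊕ Fin j) (Fin k ⊕ Fin j) F}
    (h : Q * fromBlocks A 0 0 (B : Matrix (Fin j) (Fin j) F) = fromBlocks A' 0 0 (B' : Matrix (Fin j) (Fin j) F) * Q) :
    Q = fromBlocks Q.toBlocks₁₁ 0 0 Q.toBlocks₂₂ ∧ Q.toBlocks₁₁ * A = A' * Q.toBlocks₁₁ ∧
      Q.toBlocks₂₂ * B = (B' : Matrix (Fin j) (Fin j) F) * Q.toBlocks₂₂ := by
  rw [← Q.fromBlocks_toBlocks, fromBlocks_multiply, fromBlocks_multiply, fromBlocks_inj] at h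
  simp only [Matrix.mul_zero, Matrix.zero_mul, add_zero, zero_add] at h
  obtain ⟨h11, h12, h21, h22⟩ := h
  have p12 : ∀ m : ℕ, Q.toBlocks₁₂ * ((B ^ m : GL (Fin j) F) : Matrix (Fin j) (Fin j) F) = A' ^ m * Q.toBlocks₁₂ := by
    intro m
    induction m with
    | zero => simp
    | succ m ih => rw [pow_succ, Units.val_mul, ← Matrix.mul_assoc, ih, Matrix.mul_assoc, h12, ← Matrix.mul_assoc, ← pow_succ]
  have p21 : ∀ m : ℕ, Q.toBlocks₂₁ * A ^ m = ((B' ^ m : GL (Fin j) F) : Matrix (Fin j) (Fin j) F) * Q.toBlocks₂₁ := by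
    intro m
    induction m with
    | zero => simp
    | succ m ih => rw [pow_succ, ← Matrix.mul_assoc, ih, Matrix.mul_assoc, h21, ← Matrix.mul_assoc, ← Units.val_mul, ← pow_succ]
  obtain ⟨a, ha⟩ := hA
  obtain ⟨a', ha'⟩ := hA'
  have z12 : Q.toBlocks₁₂ = 0 := by
    have h' := congrArg (· * (((B ^ a')⁻¹ : GL (Fin j) F) : Matrix (Fin j) (Fin j) F)) (p12 a')
    simpa [ha', Matrix.mul_assoc, ← Units.val_mul] using h'
  have z21 : Q.toBlocks₂₁ = 0 := by
    have h' := congrArg ((((B' ^ a)⁻¹ : GL (Fin j) F) : Matrix (Fin j) (Fin j) F) * ·) (p21 a)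
    simpa [ha, ← Matrix.mul_assoc, ← Units.val_mul] using h'.symm
  refine ⟨?_, h11, h22⟩
  conv_lhs => rw [← Q.fromBlocks_toBlocks, z12, z21]

variable [Fintype F]

/-- The conjugates of block diagonal matrices. -/
noncomputable def T {n k : ℕ} (hk : k ≤ n) (x : GL (Fin n) F × Nil F k × GL (Fin (n - k)) F) :
    Matrix (Fin n) (Fin n) F :=
  (x.1 : Matrix (Fin n) (Fin n) F) * D hk x.2.1.1 x.2.2 * ((x.1⁻¹ : GL (Fin n) F) : Matrix (Fin n) (Fin n) F)

theorem card_fibre {n k : ℕ} (hk : k ≤ n) (x : GL (Fin n) F × Nil F k × GL (Fin (n - k)) F) :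
    Nat.card {y // T hk y = T hk x} = Nat.card (GL (Fin k) F) * Nat.card (GL (Fin (n - k)) F) := by
  classical
  set R := Matrix.reindexAlgEquiv F F (finSumFinEquiv.trans (finCongr (Nat.add_sub_of_le hk))) with hR
  obtain ⟨P, ⟨A, hA⟩, B⟩ := x
  let blk : GL (Fin k) F × GL (Fin (n - k)) F → GL (Fin n) F := fun s =>
    ⟨R (fromBlocks (s.1 : Matrix (Fin k) (Fin k) F) 0 0 (s.2 : Matrix (Fin (n - k)) (Fin (n - k)) F)),
      R (fromBlocks ((s.1⁻¹ : GL (Fin k) F) : Matrix (Fin k) (Fin k) F) 0 0 ((s.2⁻¹ : GL (Fin (n - k)) F) : Matrix (Fin (n - k)) (Fin (n - k)) F)),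
      by rw [← map_mul, fromBlocks_multiply]; simp, by rw [← map_mul, fromBlocks_multiply]; simp⟩
  have hnil : ∀ S : GL (Fin k) F, IsNilpotent ((S : Matrix (Fin k) (Fin k) F) * A * ((S⁻¹ : GL (Fin k) F) : Matrix (Fin k) (Fin k) F)) := by
    intro S
    obtain ⟨m, hm⟩ := hA
    exact ⟨m, by rw [Units.conj_pow, hm, mul_zero, zero_mul]⟩
  let φ : GL (Fin k) F × GL (Fin (n - k)) F → {y // T hk y = T hk (P, ⟨A, hA⟩, B)} := fun s =>
    ⟨(P * (blk s)⁻¹, ⟨_, hnil s.1⟩, s.2 * B * s.2⁻¹), by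
      have e : D hk ((s.1 : Matrix (Fin k) (Fin k) F) * A * ((s.1⁻¹ : GL (Fin k) F) : Matrix (Fin k) (Fin k) F))
          ((s.2 * B * s.2⁻¹ : GL (Fin (n - k)) F) : Matrix (Fin (n - k)) (Fin (n - k)) F) =
          (blk s : Matrix (Fin n) (Fin n) F) * D hk A B * (((blk s)⁻¹ : GL (Fin n) F) : Matrix (Fin n) (Fin n) F) := by
        show R _ = R _ * R _ * R _
        rw [← map_mul, ← map_mul, fromBlocks_multiply, fromBlocks_multiply]
        simp [Matrix.mul_assoc]
      show ((P * (blk s)⁻¹ : GL (Fin n) F) : Matrix (Fin n) (Fin n) F) * D hk _ _ *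
        (((P * (blk s)⁻¹)⁻¹ : GL (Fin n) F) : Matrix (Fin n) (Fin n) F) = T hk (P, ⟨A, hA⟩, B)
      rw [e, _root_.mul_inv_rev, inv_inv]
      simp only [T, Units.val_mul, Matrix.mul_assoc, Units.inv_mul_cancel_left]⟩
  rw [← Nat.card_prod]
  refine (Nat.card_eq_of_bijective φ ⟨fun s t h => ?_, fun y => ?_⟩).symm
  · have h1 := congrArg (fun y : {y // T hk y = T hk (P, ⟨A, hA⟩, B)} => y.1.1) h
    simp only [φ, mul_right_inj, _root_.inv_inj] at h1
    have h2 := R.injective (congrArg (fun g : GL (Fin n) F => (g : Matrix (Fin n) (Fin n) F)) h1)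
    rw [fromBlocks_inj] at h2
    exact Prod.ext (Units.ext h2.1) (Units.ext h2.2.2.2)
  · obtain ⟨⟨P', ⟨A', hA'⟩, B'⟩, hy⟩ := y
    set U : GL (Fin n) F := P'⁻¹ * P with hU
    have hQ : R.symm (U : Matrix (Fin n) (Fin n) F) * fromBlocks A 0 0 (B : Matrix (Fin (n - k)) (Fin (n - k)) F) =
        fromBlocks A' 0 0 (B' : Matrix (Fin (n - k)) (Fin (n - k)) F) * R.symm (U : Matrix (Fin n) (Fin n) F) := by
      refine R.injective ?_
      rw [map_mul, map_mul, AlgEquiv.apply_symm_apply]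
      have hy' := congrArg (fun M => ((P'⁻¹ : GL (Fin n) F) : Matrix (Fin n) (Fin n) F) * M * (P : Matrix (Fin n) (Fin n) F)) hy
      simp only [T, Matrix.mul_assoc, Units.inv_mul_cancel_left, Units.inv_mul, Matrix.mul_one] at hy'
      show (U : Matrix (Fin n) (Fin n) F) * D hk A B = D hk A' B' * (U : Matrix (Fin n) (Fin n) F)
      rw [hU, Units.val_mul, Matrix.mul_assoc]
      exact hy'.symm
    obtain ⟨hblock, h11, h22⟩ := offdiag hA hA' B B' hQ
    have hdet : (R.symm (U : Matrix (Fin n) (Fin n) F)).det ≠ 0 :=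
      ((U.isUnit.map R.symm).map Matrix.detMonoidHom).ne_zero
    rw [hblock, det_fromBlocks_zero₂₁, mul_ne_zero_iff] at hdet
    let S : GL (Fin k) F := GeneralLinearGroup.mkOfDetNeZero _ hdet.1
    let S' : GL (Fin (n - k)) F := GeneralLinearGroup.mkOfDetNeZero _ hdet.2
    have hblk : blk (S, S') = U := by
      refine Units.ext ?_
      show R (fromBlocks _ 0 0 _) = _
      rw [GeneralLinearGroup.val_mkOfDetNeZero, GeneralLinearGroup.val_mkOfDetNeZero, ← hblock, AlgEquiv.apply_symm_apply]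
    refine ⟨(S, S'), Subtype.ext (Prod.ext ?_ (Prod.ext (Subtype.ext ?_) (Units.ext ?_)))⟩
    · show P * (blk (S, S'))⁻¹ = P'
      rw [hblk, hU, _root_.mul_inv_rev, inv_inv, mul_inv_cancel_left]
    · show (S : Matrix (Fin k) (Fin k) F) * A * ((S⁻¹ : GL (Fin k) F) : Matrix (Fin k) (Fin k) F) = A'
      rw [GeneralLinearGroup.val_mkOfDetNeZero, h11, Matrix.mul_assoc]
      exact (congrArg (A' * ·) S.mul_inv).trans (Matrix.mul_one _)
    · show ((S' * B * S'⁻¹ : GL (Fin (n - k)) F) : Matrix (Fin (n - k)) (Fin (n - k)) F) = B'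
      rw [Units.val_mul, Units.val_mul, GeneralLinearGroup.val_mkOfDetNeZero, h22, Matrix.mul_assoc]
      exact (congrArg ((B' : Matrix (Fin (n - k)) (Fin (n - k)) F) * ·) S'.mul_inv).trans (Matrix.mul_one _)

omit [Fintype F] in
theorem exists_decomp (n : ℕ) (M : Matrix (Fin n) (Fin n) F) :
    ∃ k, ∃ hk : k ≤ n, ∃ x : GL (Fin n) F × Nil F k × GL (Fin (n - k)) F,
      (x.1 : Matrix (Fin n) (Fin n) F) * D hk x.2.1.1 x.2.2 * ((x.1⁻¹ : GL (Fin n) F) : Matrix (Fin n) (Fin n) F) = M := by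
  classical
  set f : Module.End F (Fin n → F) := Matrix.toLin' M with hf
  obtain ⟨m, hm⟩ := (Filter.eventually_atTop.1 f.eventually_isCompl_ker_pow_range_pow)
  set N := m + 1 with hN
  have hc := hm N (by omega)
  set K := LinearMap.ker (f ^ N)
  set I := LinearMap.range (f ^ N)
  set k := Module.finrank F K
  have hsum := Submodule.finrank_add_eq_of_isCompl hc
  rw [Module.finrank_fin_fun] at hsum
  have hk : k ≤ n := by omega
  have hI : Module.finrank F I = n - k := by omega
  let bK := Module.finBasisOfFinrankEq F K (rfl : _ = k)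
  let bI := Module.finBasisOfFinrankEq F I hI
  let b : Module.Basis (Fin k ⊕ Fin (n - k)) F (Fin n → F) := (bK.prod bI).map (Submodule.prodEquivOfIsCompl K I hc)
  have hbl : ∀ i, b (Sum.inl i) = (bK i : Fin n → F) := fun i => by simp [b]
  have hbr : ∀ i, b (Sum.inr i) = (bI i : Fin n → F) := fun i => by simp [b]
  have hfN : ∀ v, (f ^ N) (f v) = f ((f ^ N) v) := fun v => by
    rw [← Module.End.mul_apply, ← Module.End.mul_apply, ← pow_succ, ← pow_succ']
  have hKi : ∀ v ∈ K, f v ∈ K := fun v hv => by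
    rw [LinearMap.mem_ker, hfN, LinearMap.mem_ker.1 hv, map_zero]
  have hIi : ∀ v ∈ I, f v ∈ I := by
    rintro _ ⟨v, rfl⟩
    exact ⟨f v, hfN v⟩
  have hreprK : ∀ v ∈ K, ∀ i, b.repr v (Sum.inr i) = 0 := by
    intro v hv i
    have h := congrArg (fun x : K => b.repr x.1 (Sum.inr i)) (bK.sum_repr ⟨v, hv⟩)
    simp only [Submodule.coe_sum, Submodule.coe_smul, ← hbl, map_sum, map_smul, Module.Basis.repr_self,
      Finsupp.finset_sum_apply, Finsupp.smul_apply] at h
    rw [← h]
    simp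
  have hreprI : ∀ v ∈ I, ∀ i, b.repr v (Sum.inl i) = 0 := by
    intro v hv i
    have h := congrArg (fun x : I => b.repr x.1 (Sum.inl i)) (bI.sum_repr ⟨v, hv⟩)
    simp only [Submodule.coe_sum, Submodule.coe_smul, ← hbr, map_sum, map_smul, Module.Basis.repr_self,
      Finsupp.finset_sum_apply, Finsupp.smul_apply] at h
    rw [← h]
    simp
  set A := (LinearMap.toMatrix b b f).toBlocks₁₁ with hAdef
  set B := (LinearMap.toMatrix b b f).toBlocks₂₂ with hBdef
  have hblock : LinearMap.toMatrix b b f = fromBlocks A 0 0 B := by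
    conv_lhs => rw [← fromBlocks_toBlocks (LinearMap.toMatrix b b f)]
    congr 1
    · ext i j
      exact (LinearMap.toMatrix_apply b b f (Sum.inl i) (Sum.inr j)).trans
        (hreprI _ (hIi _ (hbr j ▸ (bI j).2)) i)
    · ext i j
      exact (LinearMap.toMatrix_apply b b f (Sum.inr i) (Sum.inl j)).trans
        (hreprK _ (hKi _ (hbl j ▸ (bK j).2)) i)
  have hA : IsNilpotent A := by
    refine ⟨N, ?_⟩
    have h := congrArg Matrix.toBlocks₁₁ (LinearMap.toMatrix_pow b f N).symm
    rw [hblock, fromBlocks_diagonal_pow, toBlocks_fromBlocks₁₁] at h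
    ext i j
    have h' := congrFun (congrFun h i) j
    rw [Matrix.toBlocks₁₁, Matrix.of_apply, LinearMap.toMatrix_apply, hbl,
      show (f ^ N) (bK j : Fin n → F) = 0 from LinearMap.mem_ker.1 (bK j).2, map_zero] at h'
    first | exact h' | exact h'.symm | simpa using h' | simpa using h'.symm
  have hB : B.det ≠ 0 := by
    intro h
    obtain ⟨v, hv, hv0⟩ := Matrix.exists_mulVec_eq_zero_iff.2 h
    let w : Fin n → F := b.equivFun.symm (Sum.elim 0 v)
    have hw : b.repr w = Finsupp.equivFunOnFinite.symm (Sum.elim 0 v) := by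
      ext i
      exact congrFun (b.equivFun.apply_symm_apply (Sum.elim 0 v)) i
    have hfw : f w = 0 := by
      refine b.repr.injective (Finsupp.ext fun i => ?_)
      rw [map_zero, Finsupp.zero_apply, ← LinearMap.toMatrix_mulVec_repr b b f w, hblock, hw]
      show (fromBlocks A 0 0 B *ᵥ Sum.elim 0 v) i = 0
      rw [fromBlocks_mulVec]
      cases i <;> simp [hv0]
    have hwI : w ∈ I := by
      simp only [w, Module.Basis.equivFun_symm_apply, Fintype.sum_sum_type, Sum.elim_inl, Sum.elim_inr,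
        Pi.zero_apply, zero_smul, Finset.sum_const_zero, zero_add]
      exact sum_mem fun i _ => Submodule.smul_mem _ _ (hbr i ▸ (bI i).2)
    have hwK : w ∈ K := by
      rw [LinearMap.mem_ker, hN, pow_succ, Module.End.mul_apply, hfw, map_zero]
    have hw0 : w = 0 := by
      have := hc.disjoint.le_bot ⟨hwK, hwI⟩
      simpa using this
    apply hv
    funext i
    have := Finsupp.ext_iff.1 (hw.symm.trans (by rw [hw0, map_zero])) (Sum.inr i)
    simpa using this
  let R := Matrix.reindexAlgEquiv F F (finSumFinEquiv.trans (finCongr (Nat.add_sub_of_le hk)))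
  let b' := b.reindex (finSumFinEquiv.trans (finCongr (Nat.add_sub_of_le hk)))
  let s := Pi.basisFun F (Fin n)
  let P : GL (Fin n) F := ⟨s.toMatrix b', b'.toMatrix s,
    Module.Basis.toMatrix_mul_toMatrix_flip s b', Module.Basis.toMatrix_mul_toMatrix_flip b' s⟩
  refine ⟨k, hk, (P, ⟨A, hA⟩, GeneralLinearGroup.mkOfDetNeZero B hB), ?_⟩
  show s.toMatrix b' * D hk A B * b'.toMatrix s = M
  have hD : D hk A B = LinearMap.toMatrix b' b' f := by
    rw [D, ← hblock]
    ext i j
    simp only [b', LinearMap.toMatrix_apply, Module.Basis.reindex_apply, Module.Basis.repr_reindex_apply,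
      Matrix.coe_reindexAlgEquiv, Matrix.reindex_apply, Matrix.submatrix_apply]
  rw [hD, basis_toMatrix_mul_linearMap_toMatrix_mul_basis_toMatrix, hf]
  show LinearMap.toMatrix (Pi.basisFun F (Fin n)) (Pi.basisFun F (Fin n)) _ = M
  rw [LinearMap.toMatrix_eq_toMatrix']
  exact LinearMap.toMatrix'_toLin' M

/-- The number of nilpotent matrices. -/
theorem card_nil : ∀ n : ℕ, Nat.card (Nil F n) = Fintype.card F ^ (n * (n - 1)) := by
  classical
  set q := Fintype.card F with hq
  have hq1 : 1 < q := Fintype.one_lt_card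
  have hG : ∀ m, (Nat.card (GL (Fin m) F) : ℚ) ≠ 0 := fun m => by
    exact_mod_cast Nat.card_pos.ne'
  have hstep : ∀ m : ℕ, (Nat.card (GL (Fin (m + 1)) F) : ℚ) =
      ((q : ℚ) ^ (m + 1) - 1) * (q : ℚ) ^ m * Nat.card (GL (Fin m) F) := by
    intro m
    have h : Nat.card (GL (Fin (m + 1)) F) = (q ^ (m + 1) - 1) * (q ^ m * Nat.card (GL (Fin m) F)) := by
      rw [Matrix.card_GL_field, Matrix.card_GL_field, Fin.prod_univ_succ, Fin.val_zero, pow_zero, ← hq]
      congr 1
      have h3 : ∏ _i : Fin m, q = q ^ m := by simp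
      rw [← h3, ← Finset.prod_mul_distrib]
      refine Finset.prod_congr rfl fun i _ => ?_
      rw [Fin.val_succ, h3, Nat.mul_sub, ← pow_succ', ← pow_succ']
    rw [h, Nat.cast_mul, Nat.cast_sub (Nat.one_le_pow _ _ (by omega)), Nat.cast_mul, Nat.cast_pow,
      Nat.cast_pow, Nat.cast_one]
    ring
  have hid : ∀ m : ℕ, ∑ k ∈ Finset.range (m + 1), ((q : ℚ) ^ (k * (k - 1))) / Nat.card (GL (Fin k) F) =
      (q : ℚ) ^ (m * m) / Nat.card (GL (Fin m) F) := by
    intro m
    induction m with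
    | zero => simp
    | succ m ih =>
      rw [Finset.sum_range_succ, ih, hstep m, Nat.add_sub_cancel]
      have h1 : (q : ℚ) ^ (m + 1) - 1 ≠ 0 := by
        have h2 : (1 : ℚ) < (q : ℚ) ^ (m + 1) := one_lt_pow₀ (by exact_mod_cast hq1) (by omega)
        linarith
      have h2 : (q : ℚ) ≠ 0 := by exact_mod_cast (by omega : q ≠ 0)
      field_simp [hG m]
      ring
  intro n
  induction n using Nat.strong_induction_on with
  | _ n ih =>
    let img : Fin (n + 1) → Set (Matrix (Fin n) (Fin n) F) := fun k =>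
      Set.range (T (F := F) (Nat.lt_succ_iff.1 k.2))
    have himg : ∀ k : Fin (n + 1), (Nat.card (img k) : ℚ) =
        Nat.card (GL (Fin n) F) * Nat.card (Nil F k) / Nat.card (GL (Fin k) F) := by
      intro k
      have h1 : Nat.card (GL (Fin n) F) * (Nat.card (Nil F k) * Nat.card (GL (Fin (n - k)) F)) =
          Nat.card (img k) * (Nat.card (GL (Fin k) F) * Nat.card (GL (Fin (n - k)) F)) := by
        rw [← Nat.card_prod (Nil F k), ← Nat.card_prod (GL (Fin n) F),
          ← Nat.card_congr (Equiv.sigmaFiberEquiv (Set.rangeFactorization (T (F := F) (Nat.lt_succ_iff.1 k.2)))),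
          Nat.card_sigma]
        rw [Finset.sum_congr rfl fun (z : Set.range (T (F := F) (Nat.lt_succ_iff.1 k.2))) _ => ?_, Finset.sum_const,
          smul_eq_mul, Finset.card_univ, ← Nat.card_eq_fintype_card]
        obtain ⟨_, x, rfl⟩ := z
        rw [← card_fibre (Nat.lt_succ_iff.1 k.2) x]
        exact Nat.card_congr (Equiv.subtypeEquivRight fun y => Subtype.ext_iff)
      rw [eq_div_iff (hG k)]
      have h2 : (Nat.card (GL (Fin n) F) : ℚ) * (Nat.card (Nil F k) * Nat.card (GL (Fin (n - k)) F)) =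
          Nat.card (img k) * (Nat.card (GL (Fin k) F) * Nat.card (GL (Fin (n - k)) F)) := by exact_mod_cast h1
      apply mul_right_cancel₀ (hG (n - k))
      linarith [h2]
    have hpart : ∑ k : Fin (n + 1), Nat.card (img k) = q ^ (n * n) := by
      rw [← Nat.card_sigma]
      have hM : Nat.card (Matrix (Fin n) (Fin n) F) = q ^ (n * n) := by
        rw [Nat.card_eq_fintype_card]
        show Fintype.card (Fin n → Fin n → F) = _
        rw [Fintype.card_fun, Fintype.card_fun, Fintype.card_fin, ← pow_mul]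
      rw [← hM]
      refine Nat.card_eq_of_bijective (fun s => (s.2 : Matrix (Fin n) (Fin n) F)) ⟨?_, ?_⟩
      · rintro ⟨k, M, ⟨P, A, B⟩, hM1⟩ ⟨k', M', ⟨P', A', B'⟩, hM2⟩ (h : M = M')
        subst h
        have hdeg : (k : ℕ) = k' := by
          rw [← trailing_D (Nat.lt_succ_iff.1 k.2) A.2 B, ← trailing_D (Nat.lt_succ_iff.1 k'.2) A'.2 B']
          have e1 := congrArg Matrix.charpoly (hM1.trans hM2.symm)
          simp only [T, Matrix.coe_units_inv, Matrix.charpoly_units_conj] at e1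
          rw [e1]
        obtain rfl : k = k' := Fin.ext hdeg
        rfl
      · intro M
        obtain ⟨k, hk, x, hx⟩ := exists_decomp n M
        exact ⟨⟨⟨k, by omega⟩, M, x, hx⟩, rfl⟩
    have h := congrArg (Nat.cast : ℕ → ℚ) hpart
    rw [Nat.cast_sum, Finset.sum_congr rfl fun k _ => himg k, Fin.sum_univ_castSucc] at h
    simp only [Fin.val_castSucc, Fin.val_last] at h
    rw [Finset.sum_congr rfl fun (k : Fin n) _ => by rw [ih k k.2]] at h
    push_cast at h
    have hid' := hid n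
    rw [Finset.sum_range_succ, ← Fin.sum_univ_eq_sum_range (fun k => ((q : ℚ) ^ (k * (k - 1))) / Nat.card (GL (Fin k) F))] at hid'
    simp only [mul_div_assoc] at h
    rw [← Finset.mul_sum, ← mul_add] at h
    have hG' := hG n
    have e : (Nat.card (Nil F n) : ℚ) / Nat.card (GL (Fin n) F) = (q : ℚ) ^ (n * (n - 1)) / Nat.card (GL (Fin n) F) := by
      have e2 : ∀ a : ℚ, (Nat.card (GL (Fin n) F) : ℚ) * a = (q : ℚ) ^ (n * n) → a = (q : ℚ) ^ (n * n) / Nat.card (GL (Fin n) F) := by
        intro a ha; rw [eq_div_iff hG', mul_comm]; exact ha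
      linarith [e2 _ h]
    rw [div_left_inj' hG'] at e
    exact_mod_cast e

end CfsgLib.Lie.NilpotentCount
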