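import Cfsg.Agent.Lib.ClassicalSpinor
import Cfsg.Agent.Lib.ClassicalWitt
import Cfsg.Agent.Lib.ClassicalDiagForm
import Cfsg.Agent.Lib.ClassicalFamilies

/-! Correcting an isometry into `Ω` by an element stabilising a subspace. -/

set_option autoImplicit false

namespace Cfsg.Agent.Lib.LieOmegaOrbit

open Matrix CfsgLib.Classical

variable {ι : Type} [Fintype ι] [DecidableEq ι] {F : Type*} [Field F] [Fintype F] {Q : (ι → F) → F}
  (hQ : Cfsg.Geo.IsNondegenerateQuadraticForm Q)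

local notation "pf" => QuadraticMap.polar Q

abbrev St (U : Submodule F (ι → F)) (s : ↥(Cfsg.isometryGroup F Q)) : Prop :=
  ∀ x ∈ U, ((s : GL ι F) : Matrix ι ι F) *ᵥ x ∈ U

include hQ in
theorem rI_apply {d : ι → F} (hd : Q d ≠ 0) (x : ι → F) :
    ((rI hQ d hd : GL ι F) : Matrix ι ι F) *ᵥ x = x - (pf x d / Q d) • d := by
  rw [div_eq_inv_mul]
  exact qR_mulVec hQ hd x

theorem card_ne_two (h2 : (2 : F) ≠ 0) : Nat.card F ≠ 2 := by
  intro h
  have h0 := FiniteField.cast_card_eq_zero F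
  rw [← Nat.card_eq_fintype_card, h, Nat.cast_ofNat] at h0
  exact h2 h0

include hQ in
theorem fix_odd (h2 : (2 : F) ≠ 0) (hn : 2 ≤ Fintype.card ι) (U : Submodule F (ι → F))
    (d₁ : ι → F) (hd₁ : Q d₁ ≠ 0) (h1 : St U (rI hQ d₁ hd₁))
    (a b : ι → F) (ha : Q a ≠ 0) (hb : Q b ≠ 0) (hab : IsSquare (Q a)) (hbb : ¬ IsSquare (Q b))
    (h3 : St U (rI hQ a ha * rI hQ b hb)) (g : ↥(Cfsg.isometryGroup F Q)) :
    ∃ s, St U s ∧ g * s ∈ Cfsg.Omega F Q := by
  obtain ⟨θ, hθ⟩ := exists_spinor hQ h2 hn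
  obtain ⟨D, hD⟩ := exists_dickson hQ (Or.inl (card_ne_two h2))
  rw [omega_eq_inf hQ h2 hn hD hθ]
  have hθa : θ (rI hQ a ha) = 1 := (Int.units_eq_one_or _).resolve_right fun h => (hθ a ha).mp h hab
  have hθb : θ (rI hQ b hb) = -1 := (hθ b hb).mpr hbb
  have hmul : ∀ s t : ↥(Cfsg.isometryGroup F Q), St U s → St U t → St U (s * t) := fun s t hs ht x hx => by
    rw [Subgroup.coe_mul, Units.val_mul, ← Matrix.mulVec_mulVec]
    exact hs _ (ht _ hx)
  have hone : St U (1 : ↥(Cfsg.isometryGroup F Q)) := fun x hx => by simpa using hx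
  simp only [Subgroup.mem_inf, MonoidHom.mem_ker]
  rcases Int.units_eq_one_or (D g) with e1 | e1
  · rcases Int.units_eq_one_or (θ g) with e2 | e2
    · exact ⟨1, hone, by simp [e1, e2]⟩
    · exact ⟨_, h3, by simp [e1, e2, hD, hθa, hθb]⟩
  · rcases Int.units_eq_one_or (θ (g * rI hQ d₁ hd₁)) with e2 | e2
    · exact ⟨_, h1, by simp [e1, hD], e2⟩
    · rw [map_mul] at e2
      refine ⟨_, hmul _ _ h1 h3, by simp [e1, hD], ?_⟩
      rw [map_mul, map_mul, map_mul, hθa, hθb, one_mul, ← mul_assoc, e2]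
      decide

include hQ in
theorem fix_even [CharP F 2] (h : Nat.card F ≠ 2 ∨ Fintype.card ι ≠ 4) (U : Submodule F (ι → F))
    (d₁ : ι → F) (hd₁ : Q d₁ ≠ 0) (h1 : St U (rI hQ d₁ hd₁)) (g : ↥(Cfsg.isometryGroup F Q)) :
    ∃ s, St U s ∧ g * s ∈ Cfsg.Omega F Q := by
  obtain ⟨D, hD⟩ := exists_dickson hQ h
  rw [omega_eq_ker hQ h hD]
  rcases Int.units_eq_one_or (D g) with e1 | e1
  · exact ⟨1, fun x hx => by simpa using hx, by simp [e1]⟩
  · exact ⟨_, h1, by simp [MonoidHom.mem_ker, e1, hD]⟩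

/-- values of a non-degenerate restriction of rank at least two -/
theorem exists_value_in (Qf : QuadraticForm F (ι → F)) (h2 : (2 : F) ≠ 0) (W : Submodule F (ι → F))
    (hW : ∀ x ∈ W, (∀ y ∈ W, QuadraticMap.polar (⇑Qf) x y = 0) → x = 0) (hd : 2 ≤ Module.finrank F W)
    (hQf : Cfsg.Geo.IsNondegenerateQuadraticForm ⇑Qf) (c : F) : ∃ d ∈ W, Qf d = c := by
  haveI : Nontrivial W := Module.nontrivial_of_finrank_pos (R := F) (by omega)
  have hres : ∀ x : W, (∀ y : W, QuadraticMap.polar (⇑(Qf.comp W.subtype)) x y = 0) → x = 0 := by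
    intro x hx
    refine Subtype.ext (hW x.1 x.2 fun y hy => ?_)
    have := hx ⟨y, hy⟩
    simpa [QuadraticMap.polar] using this
  obtain ⟨x, hx⟩ := CfsgLib.DiagForm.exists_value_ne_zero (Qf.comp W.subtype) hres
  obtain ⟨hN, hdim⟩ := CfsgLib.DiagForm.restrict_nondeg (Qf.comp W.subtype) h2 hres hx
  haveI : Nontrivial (LinearMap.ker ((Qf.comp W.subtype).polarBilin x)) :=
    Module.nontrivial_of_finrank_pos (R := F) (by omega)
  obtain ⟨y, hy⟩ := CfsgLib.DiagForm.exists_value_ne_zero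
    ((Qf.comp W.subtype).comp (LinearMap.ker ((Qf.comp W.subtype).polarBilin x)).subtype) (fun a ha => hN a fun b => by
    have := ha b
    simpa [QuadraticMap.polar] using this)
  simp only [QuadraticMap.comp_apply, Submodule.coe_subtype] at hx hy
  obtain ⟨s, t, hst⟩ := binary_universal h2 hx hy c
  refine ⟨s • (x : ι → F) + t • ((y : W) : ι → F), W.add_mem (W.smul_mem _ x.2) (W.smul_mem _ (y : W).2), ?_⟩
  have hxy : QuadraticMap.polar (⇑Qf) (x : ι → F) ((y : W) : ι → F) = 0 := by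
    have h : QuadraticMap.polar (⇑(Qf.comp W.subtype)) x (y : W) = 0 := y.2
    simpa [QuadraticMap.polar] using h
  rw [QuadraticMap.map_add (⇑Qf), QuadraticMap.polar_smul_left, QuadraticMap.polar_smul_right, hxy,
    smul_zero, smul_zero, add_zero, QuadraticMap.map_smul, QuadraticMap.map_smul, smul_eq_mul, smul_eq_mul]
  linear_combination hst

/-- transport of Witt's theorem -/
theorem exists_witt (Qf : QuadraticForm F (ι → F)) (hnd : (QuadraticMap.polarBilin Qf).Nondegenerate)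
    (U W : Submodule F (ι → F)) (e : U ≃ₗ[F] W) (he : ∀ u : U, Qf (e u : ι → F) = Qf (u : ι → F)) :
    ∃ g : ↥(Cfsg.isometryGroup F ⇑Qf), ∀ x ∈ U, ((g : GL ι F) : Matrix ι ι F) *ᵥ x ∈ W := by
  obtain ⟨g, hg, hge⟩ := Witt.witt_quad Qf hnd U W e he
  let φ : GL ι F ≃* ((ι → F) ≃ₗ[F] (ι → F)) :=
    (Matrix.GeneralLinearGroup.toLin : GL ι F ≃* _).trans
      (LinearMap.GeneralLinearGroup.generalLinearEquiv F (ι → F))
  have hval : ∀ x, ((φ.symm g : GL ι F) : Matrix ι ι F) *ᵥ x = g x := fun x => by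
    have : φ (φ.symm g) x = g x := by rw [φ.apply_symm_apply]
    exact this
  refine ⟨⟨φ.symm g, fun u v => ?_⟩, fun x hx => ?_⟩
  · show Qf (((φ.symm g : GL ι F) : Matrix ι ι F) *ᵥ u) = Qf u
    rw [hval, hg u]
  · show ((φ.symm g : GL ι F) : Matrix ι ι F) *ᵥ x ∈ W
    rw [hval, hge ⟨x, hx⟩]
    exact (e _).2

theorem map_eq {U W : Submodule F (ι → F)} (h : Module.finrank F U = Module.finrank F W)
    (g : GL ι F) (hg : ∀ x ∈ U, (g : Matrix ι ι F) *ᵥ x ∈ W) :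
    U.map (Matrix.mulVecLin (g : Matrix ι ι F)) = W := by
  have hinj : Function.Injective (Matrix.mulVecLin (g : Matrix ι ι F)) :=
    Matrix.mulVec_injective_iff_isUnit.mpr g.isUnit
  refine Submodule.eq_of_le_of_finrank_eq ?_ ?_
  · rintro _ ⟨x, hx, rfl⟩
    exact hg x hx
  · rw [← (Submodule.equivMapOfInjective _ hinj U).finrank_eq, h]

/-- an element of trivial Dickson and non-trivial spinor invariant acting on a hyperbolic pair -/
theorem exists_pair_elem (Qf : QuadraticForm F (ι → F)) (hQf : Cfsg.Geo.IsNondegenerateQuadraticForm ⇑Qf)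
    (h2 : (2 : F) ≠ 0) {u f : ι → F} (hu : Qf u = 0) (hf : Qf f = 0)
    (huf : QuadraticMap.polar (⇑Qf) u f = 1) (D θ : ↥(Cfsg.isometryGroup F ⇑Qf) →* ℤˣ)
    (hD : ∀ d (hd : Qf d ≠ 0), D (rI hQf d hd) = -1)
    (hθ : ∀ d (hd : Qf d ≠ 0), θ (rI hQf d hd) = -1 ↔ ¬ IsSquare (Qf d)) :
    ∃ s, D s = 1 ∧ θ s = -1 ∧ ∀ x, ∃ a b : F, ((s : GL ι F) : Matrix ι ι F) *ᵥ x =
      x + (QuadraticMap.polar (⇑Qf) x f * a) • u + (QuadraticMap.polar (⇑Qf) x u * b) • f := by
  have hF2 : ringChar F ≠ 2 := fun hr => h2 (by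
    have := ringChar.Nat.cast_ringChar (R := F); rw [hr] at this; simpa using this)
  obtain ⟨ν, hν⟩ := FiniteField.exists_nonsquare (F := F) hF2
  have hν0 : ν ≠ 0 := fun h => hν (h ▸ IsSquare.zero)
  have hval : ∀ c : F, Qf (u + c • f) = c := fun c => by
    rw [QuadraticMap.map_add (⇑Qf), QuadraticMap.map_smul, QuadraticMap.polar_smul_right, hu, hf, huf]
    simp
  have ha : Qf (u + (1 : F) • f) ≠ 0 := by rw [hval]; exact one_ne_zero
  have hb : Qf (u + ν • f) ≠ 0 := by rw [hval]; exact hν0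
  refine ⟨rI hQf _ ha * rI hQf _ hb, by simp [hD], ?_, fun x => ⟨ν - 1, ν⁻¹ - 1, ?_⟩⟩
  · rw [map_mul, (hθ _ hb).mpr (by rw [hval]; exact hν),
      (Int.units_eq_one_or _).resolve_right fun h => (hθ _ ha).mp h (by rw [hval]; exact IsSquare.one), one_mul]
  · have hff : QuadraticMap.polar (⇑Qf) f f = 0 := by rw [QuadraticMap.polar_self, hf, smul_zero]
    have huu : QuadraticMap.polar (⇑Qf) u u = 0 := by rw [QuadraticMap.polar_self, hu, smul_zero]
    have hfu : QuadraticMap.polar (⇑Qf) f u = 1 := by rw [QuadraticMap.polar_comm, huf]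
    rw [Subgroup.coe_mul, Units.val_mul, ← Matrix.mulVec_mulVec, rI_apply hQf hb, rI_apply hQf ha]
    simp only [QuadraticMap.polar_add_right, QuadraticMap.polar_smul_right, sub_eq_add_neg, ← neg_smul,
      QuadraticMap.polar_add_left, QuadraticMap.polar_smul_left, hval, hff, hfu, huu, huf, smul_eq_mul]
    match_scalars <;> field_simp <;> ring

theorem hyperbolic_partner (Qf : QuadraticForm F (ι → F))
    (hQ : (QuadraticMap.polarBilin Qf).Nondegenerate) {u : ι → F} (hu : Qf u = 0) (hu0 : u ≠ 0) :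
    ∃ f, Qf f = 0 ∧ QuadraticMap.polar (⇑Qf) u f = 1 := by
  obtain ⟨f₀, hf₀⟩ : ∃ f₀, QuadraticMap.polar (⇑Qf) u f₀ ≠ 0 := by
    by_contra! hall
    exact hu0 (hQ.1 u fun y => hall y)
  obtain ⟨f₁, hf₁⟩ : ∃ f₁, QuadraticMap.polar (⇑Qf) u f₁ = 1 :=
    ⟨(QuadraticMap.polar (⇑Qf) u f₀)⁻¹ • f₀, by rw [QuadraticMap.polar_smul_right, smul_eq_mul, inv_mul_cancel₀ hf₀]⟩
  have huu : QuadraticMap.polar (⇑Qf) u u = 0 := by rw [QuadraticMap.polar_self, hu, smul_zero]
  refine ⟨f₁ - Qf f₁ • u, ?_, ?_⟩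
  · rw [sub_eq_add_neg, QuadraticMap.map_add (⇑Qf), ← neg_smul, QuadraticMap.polar_smul_right,
      QuadraticMap.map_smul, hu, QuadraticMap.polar_comm, hf₁]
    simp
  · rw [sub_eq_add_neg, QuadraticMap.polar_add_right, ← neg_smul, QuadraticMap.polar_smul_right, huu, hf₁]
    simp

end Cfsg.Agent.Lib.LieOmegaOrbit
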