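import Cfsg.Agent.Lib.LieChevRel

/-!
# Standard parabolic subgroups of Chevalley groups as generated by root subgroups
-/

set_option autoImplicit false

namespace CfsgLib.Lie.Tab

open Cfsg.Lie

variable {D : ChevalleyDatum} {T : Tab D}

theorem parabolic_eq_gen {F : Type*} [Field F] (hc : T.Checked) (J : Set ℕ) :
    D.parabolicSubgroup F J = D.diagonalSubgroup F ⊔
      Subgroup.closure {g : GL D.Idx F | ∃ (r : ℕ) (t : F), (D.IsPosRoot r ∨ D.InRootSub J r) ∧ (g : Matrix D.Idx D.Idx F) = D.x F r t} := by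
  classical
  set P := D.parabolicSubgroup F J with hP
  set R := D.diagonalSubgroup F ⊔
      Subgroup.closure {g : GL D.Idx F | ∃ (r : ℕ) (t : F), (D.IsPosRoot r ∨ D.InRootSub J r) ∧ (g : Matrix D.Idx D.Idx F) = D.x F r t}
    with hR
  have gen : ∀ (r : Fin D.nroots) (t : F), (D.IsPosRoot r ∨ D.InRootSub J r) → u hc r t ∈ R :=
    fun r t h => Subgroup.mem_sup_right (Subgroup.subset_closure ⟨r.val, t, h, coe_u_eq_x hc r t⟩)
  have sub : ∀ r : Fin D.nroots, D.InRootSub J r ↔ ∀ i : Fin D.rank, i.val ∉ J → T.c r i = 0 := by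
    intro r
    constructor
    · intro h i hi
      have := h.2 i.val i.2 hi
      rwa [coroot_eq hc r i] at this
    · intro h
      refine ⟨r.2, fun i hi hJ => ?_⟩
      rw [coroot_eq hc r ⟨i, hi⟩]
      exact h ⟨i, hi⟩ hJ
  have psub : ∀ j : Fin D.rank, j.val ∈ J → D.InRootSub J (T.p j).val := by
    intro j hj
    rw [sub]
    intro i hi
    rw [c_p hc, if_neg]
    exact fun e => hi (e ▸ hj)
  have nsub : ∀ r : Fin D.nroots, D.InRootSub J (T.ng r).val ↔ D.InRootSub J r.val := by
    intro r
    rw [sub, sub]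
    simp only [c_ng hc, neg_eq_zero]
  refine le_antisymm (sup_le (sup_le ?_ le_sup_left) ?_) (sup_le ?_ ?_)
  · refine (Subgroup.closure_le _).2 ?_
    rintro g ⟨r, t, hr, hg⟩
    exact Subgroup.mem_sup_right (Subgroup.subset_closure ⟨r, t, Or.inl hr, hg⟩)
  · refine (Subgroup.closure_le _).2 ?_
    rintro g ⟨j, hjJ, hj, hg⟩
    have en : g = sg hc ⟨j, hj⟩ := by
      refine Units.ext (hg.trans ?_)
      rw [sg_eq_nel, coe_nel,
        show D.simple j = (T.p ⟨j, hj⟩).val from simple_eq hc ⟨j, hj⟩]
      simp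
    rw [SetLike.mem_coe, en, sg_eq]
    exact R.mul_mem (R.mul_mem (gen _ _ (Or.inr (psub _ hjJ))) (gen _ _ (Or.inr ((nsub _).2 (psub _ hjJ)))))
      (gen _ _ (Or.inr (psub _ hjJ)))
  · exact le_trans le_sup_right le_sup_left
  · refine (Subgroup.closure_le _).2 ?_
    have hU : ∀ (r : Fin D.nroots) (t : F), T.Pos r → u hc r t ∈ P := fun r t h =>
      Subgroup.mem_sup_left (Subgroup.mem_sup_left (Subgroup.subset_closure
        ⟨r.val, t, (pos_iff_isPosRoot hc r).2 h, coe_u_eq_x hc r t⟩))
    have hsg : ∀ j : Fin D.rank, j.val ∈ J → sg (F := F) hc j ∈ P := by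
      intro j hj
      refine Subgroup.mem_sup_right (Subgroup.subset_closure ⟨j.val, hj, j.2, ?_⟩)
      rw [sg_eq_nel, coe_nel,
        show D.simple j = (T.p j).val from simple_eq hc j]
      simp
    have move : ∀ (j : Fin D.rank) (s : Fin D.nroots), j.val ∈ J → (∀ t : F, u hc s t ∈ P) →
        ∀ t : F, u hc (T.w j s) t ∈ P := by
      intro j s hj hs t
      have h := sg_conj_u hc j s ((T.η j s : F) * t)
      rw [← mul_assoc, ← Int.cast_mul, η_sq hc, Int.cast_one, one_mul] at h
      rw [← h]
      exact P.mul_mem (P.mul_mem (hsg j hj) (hs _)) (P.inv_mem (hsg j hj))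
    let ht : Fin D.nroots → ℕ := fun r => (∑ i, T.co r i).toNat
    have main : ∀ (m : ℕ) (r : Fin D.nroots), ht r = m → T.Pos r → D.InRootSub J r.val →
        ∀ t : F, u hc (T.ng r) t ∈ P := by
      intro m
      induction m using Nat.strong_induction_on with
      | _ m ih =>
        intro r hm hpos hJ t
        obtain ⟨j, hcj, hAj⟩ : ∃ j, 0 < T.c r j ∧ 0 < T.A j r := by
          by_contra hno
          push Not at hno
          have h2 := pair_self hc r
          rw [pair_eq_sum] at h2
          have : ∑ j, T.c r j * T.A j r ≤ 0 := Finset.sum_nonpos fun j _ => by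
            rcases (c_nonneg hc hpos j).lt_or_eq with h | h
            · exact mul_nonpos_of_nonneg_of_nonpos h.le (hno j h)
            · rw [← h, zero_mul]
          omega
        have hjJ : j.val ∈ J := by
          by_contra hn
          exact absurd ((sub r).1 hJ j hn) hcj.ne'
        by_cases hrp : r = T.p j
        · subst hrp
          have := move j (T.p j) hjJ (fun s => hU _ s hpos) t
          rwa [w_p hc] at this
        · have hpos' := pos_w hc hpos hrp (i := j)
          have hJ' : D.InRootSub J (T.w j r).val := by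
            rw [sub]
            intro i hi
            rw [c_w hc, if_neg (fun (e : i = j) => hi (e ▸ hjJ)), sub_zero]
            exact (sub r).1 hJ i hi
          have hlt : ht (T.w j r) < m := by
            have h0 : 0 ≤ ∑ i, T.co (T.w j r) i := Finset.sum_nonneg fun i _ => co_nonneg hc hpos' i
            have h1 : ∑ i, T.co (T.w j r) i = (∑ i, T.co r i) - T.A j r := by
              simp only [co_w hc, Finset.sum_sub_distrib, Finset.sum_ite_eq', Finset.mem_univ, if_true]
            rw [← hm]
            simp only [ht]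
            omega
          have := move j (T.ng (T.w j r)) hjJ (ih _ hlt _ rfl hpos' hJ') t
          rwa [w_ng hc, w_w hc] at this
    rintro g ⟨r, t, hr, hg⟩
    obtain ⟨hlt⟩ : Nonempty (r < D.nroots) := ⟨hr.elim (fun h => h.1) (fun h => h.1)⟩
    rw [SetLike.mem_coe, eq_u hc (r := ⟨r, hlt⟩) hg]
    by_cases hpos : T.Pos (⟨r, hlt⟩ : Fin D.nroots)
    · exact hU _ t hpos
    · have hJr : D.InRootSub J r := hr.resolve_left fun h => hpos ((pos_iff_isPosRoot hc ⟨r, hlt⟩).1 h)
      have hp' : T.Pos (T.ng ⟨r, hlt⟩) := (pos_ng hc).2 hpos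
      have := main _ _ rfl hp' ((nsub ⟨r, hlt⟩).2 hJr) t
      rwa [ng_ng hc] at this

end CfsgLib.Lie.Tab
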