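/-
Doubly transitive groups whose point stabiliser splits over an odd two-point stabiliser: the
elementary theory of the rank-one set-up.
-/
import Mathlib
import Cfsg.Prelude.Def_LieRecognition
import Cfsg.Agent.Lib.CoreGen
import Cfsg.Agent.Lib.CoreBasic
import Cfsg.Agent.Lib.CoreThompsonFpf

set_option autoImplicit false
set_option linter.unusedSectionVars false

namespace CfsgLib.Lie.RankOne

open MulAction

/-! ### Groups of odd order -/

section Sqrt

variable {M : Type*} [Group M] [Finite M]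

/-- The square root of an element of odd order, as a power of it. -/
noncomputable def sqrtElt (w : M) : M := w ^ ((orderOf w + 1) / 2)

theorem sqrtElt_sq {w : M} (h : Odd (orderOf w)) : sqrtElt w * sqrtElt w = w := by
  obtain ⟨j, hj⟩ := h
  rw [sqrtElt, ← pow_add, show (orderOf w + 1) / 2 + (orderOf w + 1) / 2 = orderOf w + 1 by omega,
    pow_succ, pow_orderOf_eq_one, one_mul]

theorem eq_sqrtElt {z : M} (h : Odd (orderOf z)) : sqrtElt (z * z) = z := by
  have hc : Nat.Coprime (orderOf z) 2 := (Nat.coprime_two_right).2 h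
  have ho : orderOf (z * z) = orderOf z := by rw [← sq]; exact hc.orderOf_pow
  obtain ⟨j, hj⟩ := h
  rw [sqrtElt, ho, ← sq, ← pow_mul, show 2 * ((orderOf z + 1) / 2) = orderOf z + 1 by omega,
    pow_succ, pow_orderOf_eq_one, one_mul]

theorem sqrtElt_mem {H : Subgroup M} {w : M} (h : w ∈ H) : sqrtElt w ∈ H := H.pow_mem h _

theorem odd_orderOf_of_mem {H : Subgroup M} (hH : Odd (Nat.card H)) {x : M} (hx : x ∈ H) : Odd (orderOf x) :=
  hH.of_dvd_nat (by
    rw [show orderOf x = orderOf (⟨x, hx⟩ : H) from (Subgroup.orderOf_mk x hx).symm]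
    exact orderOf_dvd_natCard _)

theorem sq_inj_odd {a b : M} (ha : Odd (orderOf a)) (hb : Odd (orderOf b)) (h : a * a = b * b) : a = b := by
  rw [← eq_sqrtElt ha, ← eq_sqrtElt hb, h]

theorem eq_one_of_sq_odd {a : M} (ha : Odd (orderOf a)) (h : a * a = 1) : a = 1 :=
  sq_inj_odd ha (by simp) (by rw [h, one_mul])

theorem commute_of_sq {g x : M} (hx : Odd (orderOf x)) (h : Commute g (x * x)) : Commute g x := by
  have := h.pow_right ((orderOf (x * x) + 1) / 2)
  rwa [show (x * x) ^ ((orderOf (x * x) + 1) / 2) = x from eq_sqrtElt hx] at this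

/-- An element inverting `x` and commuting with `x` forces `x = 1` for odd order. -/
theorem eq_one_of_inv_eq {x : M} (hx : Odd (orderOf x)) (h : x⁻¹ = x) : x = 1 :=
  eq_one_of_sq_odd hx (by nth_rw 1 [← h]; exact inv_mul_cancel x)

/-- The factorisation `X = C_X(t) Z`, `Z` the inverted elements. -/
theorem factor {t : M} (ht : t * t = 1) {X : Subgroup M} (hodd : Odd (Nat.card X))
    (hn : ∀ x ∈ X, t * x * t⁻¹ ∈ X) :
    ∀ x ∈ X, ∃! p : M × M, p.1 ∈ X ⊓ Subgroup.centralizer {t} ∧ p.2 ∈ Cfsg.invertedBy X t ∧ x = p.1 * p.2 := by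
  intro x hx
  have hti : t⁻¹ = t := inv_eq_of_mul_eq_one_right ht
  have htt : ∀ y, t * (t * y) = y := fun y => by rw [← mul_assoc, ht, one_mul]
  have hn' : ∀ x ∈ X, t * x * t ∈ X := fun x hx => by simpa [hti] using hn x hx
  set w := (t * x⁻¹ * t) * x with hw
  have hwX : w ∈ X := mul_mem (hn' _ (inv_mem hx)) hx
  set z := sqrtElt w with hz
  have hzX : z ∈ X := sqrtElt_mem hwX
  have hzz : z * z = w := sqrtElt_sq (odd_orderOf_of_mem hodd hwX)
  have hwt : t * w * t⁻¹ = w⁻¹ := by rw [hw, hti]; simp [mul_assoc, hti, htt, ht]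
  have hzt : t * z * t⁻¹ = z⁻¹ := by
    rw [hz, sqrtElt, ← conj_pow, hwt, inv_pow]
  refine ⟨(x * z⁻¹, z), ⟨Subgroup.mem_inf.2 ⟨X.mul_mem hx (X.inv_mem hzX), ?_⟩, ⟨hzX, hzt⟩, by simp⟩, ?_⟩
  · show x * z⁻¹ ∈ Subgroup.centralizer {t}
    rw [Subgroup.mem_centralizer_singleton_iff]
    have e1 : t * z⁻¹ * t⁻¹ = z := by
      have := congrArg (·⁻¹) hzt
      simpa [mul_assoc] using this
    have e2 : t * (x * z⁻¹) * t⁻¹ = x * z⁻¹ := by
      rw [← conj_mul, e1]
      have e3 : t * x * t⁻¹ = x * w⁻¹ := by rw [hw, hti]; simp [mul_assoc, hti]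
      rw [e3, ← hzz, mul_inv_rev, mul_assoc, mul_assoc, inv_mul_cancel, mul_one]
    calc x * z⁻¹ * t = t * (x * z⁻¹) * t⁻¹ * t := by rw [e2]
      _ = t * (x * z⁻¹) := inv_mul_cancel_right _ _
  · rintro ⟨y', z'⟩ ⟨⟨hy', hyc⟩, ⟨hz', hzi⟩, e⟩
    have hyc' : t * y' = y' * t := (Subgroup.mem_centralizer_singleton_iff.1 hyc).symm
    have hw' : w = z' * z' := by
      have e1 : t * x * t⁻¹ = y' * z'⁻¹ := by
        rw [show x = y' * z' from e, ← conj_mul, hzi, hyc', mul_inv_cancel_right]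
      have e2 : t * x⁻¹ * t = z' * y'⁻¹ := by
        have := congrArg (·⁻¹) e1
        simpa [mul_assoc, hti] using this
      rw [hw, e2, show x = y' * z' from e]; group
    have hzeq : z' = z := by rw [hz, hw', eq_sqrtElt (odd_orderOf_of_mem hodd hz')]
    simp only [Prod.mk.injEq]
    exact ⟨by rw [show x = y' * z' from e, ← hzeq, mul_inv_cancel_right], hzeq⟩

end Sqrt

open scoped Pointwise in
theorem conj_closure_inverted {M : Type*} [Group M] [Finite M] {t : M} (ht : t * t = 1) {X : Subgroup M}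
    (hodd : Odd (Nat.card X)) (hn : ∀ x ∈ X, t * x * t⁻¹ ∈ X) {x : M} (hx : x ∈ X) :
    MulAut.conj x • Subgroup.closure (Cfsg.invertedBy X t) = Subgroup.closure (Cfsg.invertedBy X t) := by
  have key : ∀ x ∈ X, ∀ z ∈ Subgroup.closure (Cfsg.invertedBy X t),
      x * z * x⁻¹ ∈ Subgroup.closure (Cfsg.invertedBy X t) := by
    intro x hx
    obtain ⟨⟨y, z₀⟩, ⟨⟨hy, hyc⟩, hz₀, e⟩, -⟩ := factor ht hodd hn x hx
    have hyc' : t * y = y * t := (Subgroup.mem_centralizer_singleton_iff.1 hyc).symm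
    intro z hz
    induction hz using Subgroup.closure_induction with
    | mem z hz =>
      have h1 : y * z * y⁻¹ ∈ Cfsg.invertedBy X t := by
        refine ⟨mul_mem (mul_mem hy hz.1) (inv_mem hy), ?_⟩
        rw [← conj_mul, ← conj_mul, hz.2, show t * y * t⁻¹ = y by rw [hyc', mul_inv_cancel_right],
          show t * y⁻¹ * t⁻¹ = y⁻¹ by
            rw [show t * y⁻¹ * t⁻¹ = (t * y * t⁻¹)⁻¹ by group, hyc', mul_inv_cancel_right]]
        group
      have hc1 := Subgroup.subset_closure h1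
      have h2 : y * z₀ * y⁻¹ ∈ Subgroup.closure (Cfsg.invertedBy X t) := by
        refine Subgroup.subset_closure ⟨mul_mem (mul_mem hy hz₀.1) (inv_mem hy), ?_⟩
        rw [← conj_mul, ← conj_mul, hz₀.2, show t * y * t⁻¹ = y by rw [hyc', mul_inv_cancel_right],
          show t * y⁻¹ * t⁻¹ = y⁻¹ by
            rw [show t * y⁻¹ * t⁻¹ = (t * y * t⁻¹)⁻¹ by group, hyc', mul_inv_cancel_right]]
        group
      rw [show x * z * x⁻¹ = (y * z₀ * y⁻¹) * (y * z * y⁻¹) * (y * z₀ * y⁻¹)⁻¹ by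
        rw [show x = y * z₀ from e]; group]
      exact mul_mem (mul_mem h2 hc1) (inv_mem h2)
    | one => simp
    | mul a b _ _ ha hb => rw [← conj_mul]; exact mul_mem ha hb
    | inv a _ ha =>
      rw [show x * a⁻¹ * x⁻¹ = (x * a * x⁻¹)⁻¹ by group]
      exact inv_mem ha
  ext z
  rw [Subgroup.mem_smul_pointwise_iff_exists]
  constructor
  · rintro ⟨s, hs, rfl⟩
    exact key x hx s hs
  · intro hz
    refine ⟨x⁻¹ * z * x, ?_, by simp [MulAut.smul_def, mul_assoc]⟩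
    simpa using key x⁻¹ (inv_mem hx) z hz

/-! ### The set-up -/

section Setup

variable {G Ω : Type*} [Group G] [Finite G] [MulAction G Ω] {a : Ω} {t : G} {Q : Subgroup G}

/-- The two-point stabiliser. -/
abbrev DD (a : Ω) (t : G) : Subgroup G := stabilizer G a ⊓ stabilizer G (t • a)

variable (hS : Cfsg.IsRankOneSetup G Ω a t Q)

include hS

theorem tinv : t⁻¹ = t := inv_eq_of_mul_eq_one_right hS.mul_self

theorem ta_ne : t • a ≠ a := hS.not_mem

theorem t_smul_smul (c : Ω) : t • t • c = c := by rw [smul_smul, hS.mul_self, one_smul]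

theorem two_trans {c d e f : Ω} (h : c ≠ d) (h' : e ≠ f) : ∃ g : G, g • c = e ∧ g • d = f :=
  (MulAction.is_two_pretransitive_iff).1 hS.two_transitive h h'

theorem trans (c d : Ω) : ∃ g : G, g • c = d := by
  by_cases h : c = d
  · exact ⟨1, by rw [one_smul, h]⟩
  · obtain ⟨g, hg, -⟩ := two_trans hS h (Ne.symm h)
    exact ⟨g, hg⟩

theorem finite_pts : Finite Ω :=
  Finite.of_surjective (fun g : G => g • a) fun c => trans hS a c

theorem D_conj {d : G} (hd : d ∈ DD a t) : t * d * t ∈ DD a t := by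
  obtain ⟨h1, h2⟩ := hd
  refine ⟨?_, ?_⟩ <;> show (t * d * t) • _ = _ <;> rw [mul_smul, mul_smul]
  · rw [mem_stabilizer_iff.1 h2, t_smul_smul hS]
  · rw [t_smul_smul hS, mem_stabilizer_iff.1 h1]

theorem QD {g : G} (hg : g ∈ stabilizer G a) : ∃ q ∈ Q, ∃ d ∈ DD a t, g = q * d := by
  rw [← hS.sup_eq] at hg
  have hn : DD a t ≤ Subgroup.normalizer (Q : Set G) := fun d hd =>
    Subgroup.mem_normalizer_iff.2 fun x => ⟨fun hx => hS.conj_mem d hd.1 x hx, fun hx => by
      have := hS.conj_mem d⁻¹ (inv_mem hd.1) _ hx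
      simpa [mul_assoc] using this⟩
  have h2 : g ∈ ((Q ⊔ DD a t : Subgroup G) : Set G) := hg
  rw [Subgroup.coe_mul_of_right_le_normalizer_left Q (DD a t) hn] at h2
  obtain ⟨q, hq, d, hd, e⟩ := Set.mem_mul.1 h2
  exact ⟨q, hq, d, hd, e.symm⟩

theorem Q_D {q : G} (hq : q ∈ Q) (hd : q ∈ DD a t) : q = 1 :=
  (Subgroup.mem_bot).1 (hS.inf_eq_bot ▸ ⟨hq, hd.2⟩)

theorem QD_unique {q q' d d' : G} (hq : q ∈ Q) (hq' : q' ∈ Q) (hd : d ∈ DD a t) (hd' : d' ∈ DD a t)
    (h : q * d = q' * d') : q = q' ∧ d = d' := by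
  have e : q'⁻¹ * q = d' * d⁻¹ := by
    rw [inv_mul_eq_iff_eq_mul, ← mul_assoc, ← h, mul_inv_cancel_right]
  have := Q_D hS (mul_mem (inv_mem hq') hq) (e ▸ mul_mem hd' (inv_mem hd))
  rw [inv_mul_eq_one] at this
  exact ⟨this.symm, mul_left_cancel (this ▸ h)⟩

theorem regular (b c : Ω) (hb : b ≠ a) (hc : c ≠ a) : ∃! x : Q, (x : G) • b = c := by
  have key : ∀ c, c ≠ a → ∃ x : Q, (x : G) • t • a = c := by
    intro c hc
    obtain ⟨g, hga, hgc⟩ := two_trans hS (ta_ne hS).symm (Ne.symm hc)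
    obtain ⟨q, hq, d, hd, rfl⟩ := QD hS (mem_stabilizer_iff.2 hga)
    rw [mul_smul, mem_stabilizer_iff.1 hd.2] at hgc
    exact ⟨⟨q, hq⟩, hgc⟩
  obtain ⟨x, hx⟩ := key b hb
  obtain ⟨y, hy⟩ := key c hc
  refine ⟨y * x⁻¹, ?_, fun z hz => ?_⟩
  · show ((y : G) * (x : G)⁻¹) • b = c
    rw [mul_smul, ← hx, inv_smul_smul, hy]
  · have hz' : ((y⁻¹ * z * x : Q) : G) • t • a = t • a := by
      simp only [Subgroup.coe_mul, Subgroup.coe_inv, mul_smul, hx]
      rw [show (z : G) • b = c from hz, ← hy, inv_smul_smul]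
    have h1 : y⁻¹ * z * x = 1 := Subtype.ext ((Subgroup.mem_bot).1
      (hS.inf_eq_bot ▸ ⟨(y⁻¹ * z * x).2, mem_stabilizer_iff.2 hz'⟩))
    rw [mul_eq_one_iff_eq_inv, inv_mul_eq_iff_eq_mul] at h1
    exact h1

theorem fix_eq {q : G} (hq : q ∈ Q) (h1 : q ≠ 1) {c : Ω} (hc : q • c = c) : c = a := by
  by_contra h
  obtain ⟨x, -, hu⟩ := regular hS c c h h
  have e1 := hu ⟨q, hq⟩ hc
  have e2 := hu 1 (by simp)
  exact h1 (congrArg Subtype.val (e1.trans e2.symm))

theorem card_pts : Nat.card Ω = Nat.card Q + 1 := by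
  classical
  haveI := finite_pts hS
  rw [← Finite.card_option]
  symm
  refine Nat.card_eq_of_bijective (fun o : Option Q => o.elim a fun q => (q : G) • t • a) ⟨?_, ?_⟩
  · have hne : ∀ q : Q, (q : G) • t • a ≠ a := fun q h => ta_ne hS (by
      rw [← inv_smul_smul (q : G) (t • a), h]; exact mem_stabilizer_iff.1 (inv_mem (hS.le q.2)))
    rintro (_ | q) (_ | q') h
    · rfl
    · exact absurd h.symm (hne q')
    · exact absurd h (hne q)
    · obtain ⟨x, -, hu⟩ := regular hS (t • a) ((q : G) • t • a) (ta_ne hS) (hne q)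
      rw [hu q rfl, hu q' h.symm]
  · intro c
    by_cases hc : c = a
    · exact ⟨none, hc.symm⟩
    · obtain ⟨x, hx, -⟩ := regular hS (t • a) c (ta_ne hS) hc
      exact ⟨some x, hx⟩

theorem card_stab : Nat.card ↥(stabilizer G a) = Nat.card Q * Nat.card ↥(DD a t) := by
  rw [← Nat.card_prod]
  symm
  refine Nat.card_eq_of_bijective
    (fun p : Q × ↥(DD a t) => (⟨(p.1 : G) * p.2, mul_mem (hS.le p.1.2) p.2.2.1⟩ : ↥(stabilizer G a))) ⟨?_, ?_⟩
  · intro p p' h
    obtain ⟨e1, e2⟩ := QD_unique hS p.1.2 p'.1.2 p.2.2 p'.2.2 (congrArg Subtype.val h)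
    exact Prod.ext (Subtype.ext e1) (Subtype.ext e2)
  · rintro ⟨g, hg⟩
    obtain ⟨q, hq, d, hd, rfl⟩ := QD hS hg
    exact ⟨(⟨q, hq⟩, ⟨d, hd⟩), rfl⟩

theorem card_group : Nat.card G = Nat.card Q * Nat.card ↥(DD a t) * (Nat.card Q + 1) := by
  haveI := finite_pts hS
  rw [← (stabilizer G a).card_mul_index, card_stab hS, ← card_pts hS]
  congr 1
  haveI : IsPretransitive G Ω := ⟨fun c d => trans hS c d⟩
  rw [MulAction.index_stabilizer_of_transitive]

theorem sylow_le : ∃ P : Sylow 2 G, (P : Subgroup G) ≤ Q := by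
  haveI := Fact.mk Nat.prime_two
  obtain ⟨S⟩ : Nonempty (Sylow 2 ↥Q) := inferInstance
  have hcard : Nat.card ↥((S : Subgroup ↥Q).map Q.subtype) = 2 ^ (Nat.card G).factorization 2 := by
    rw [Nat.card_congr (Subgroup.equivMapOfInjective _ _ Q.subtype_injective).symm.toEquiv,
      S.card_eq_multiplicity]
    congr 1
    have hD := hS.odd_card
    have hQ := hS.even_card
    rw [card_group hS, Nat.factorization_mul (Nat.mul_ne_zero Nat.card_pos.ne' Nat.card_pos.ne')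
      (Nat.succ_ne_zero _), Nat.factorization_mul Nat.card_pos.ne' Nat.card_pos.ne']
    simp only [Finsupp.coe_add, Pi.add_apply]
    rw [Nat.factorization_eq_zero_of_not_dvd hD.not_two_dvd_nat,
      show (Nat.card Q).succ.factorization 2 = 0 from
        Nat.factorization_eq_zero_of_not_dvd (hQ.add_one.not_two_dvd_nat)]
    simp
  exact ⟨Sylow.ofCard _ hcard, by rw [Sylow.coe_ofCard]; exact Subgroup.map_subtype_le _⟩

theorem canonical {g : G} (hg : g ∉ stabilizer G a) :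
    ∃! p : G × G, p.1 ∈ stabilizer G a ∧ p.2 ∈ Q ∧ g = p.1 * t * p.2 := by
  have hga : g⁻¹ • a ≠ a := fun h => hg (inv_mem_iff.1 (mem_stabilizer_iff.2 h))
  obtain ⟨y, hy, hu⟩ := regular hS (g⁻¹ • a) (t • a) hga (ta_ne hS)
  refine ⟨(g * (y : G)⁻¹ * t, y), ⟨?_, y.2, ?_⟩, ?_⟩
  · rw [mem_stabilizer_iff, mul_smul, mul_smul, ← hy, inv_smul_smul, smul_inv_smul]
  · show g = g * (y : G)⁻¹ * t * t * (y : G)
    rw [mul_assoc (g * (y : G)⁻¹) t t, hS.mul_self, mul_one, inv_mul_cancel_right]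
  · rintro ⟨x', y'⟩ ⟨hx', hy', e⟩
    simp only at hx' hy' e
    have h1 : ((⟨y', hy'⟩ : Q) : G) • g⁻¹ • a = t • a := by
      rw [smul_smul, e, show y' * (x' * t * y')⁻¹ = t⁻¹ * x'⁻¹ by group, mul_smul,
        mem_stabilizer_iff.1 (inv_mem hx'), tinv hS]
    have e1 : y' = (y : G) := congrArg Subtype.val (hu _ h1)
    refine Prod.ext ?_ e1
    show x' = g * (y : G)⁻¹ * t
    rw [e, e1, mul_inv_cancel_right, mul_assoc, hS.mul_self, mul_one]

theorem canon_unique {g h f g' h' f' : G} (hg : g ∈ Q) (hh : h ∈ DD a t) (hf : f ∈ Q) (hg' : g' ∈ Q)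
    (hh' : h' ∈ DD a t) (hf' : f' ∈ Q) (e : g * h * t * f = g' * h' * t * f') : g = g' ∧ h = h' ∧ f = f' := by
  have hn : g * h * t * f ∉ stabilizer G a := fun hm => hS.not_mem (by
    have := mul_mem (mul_mem (inv_mem (mul_mem (hS.le hg) hh.1)) hm) (inv_mem (hS.le hf))
    simpa [mul_assoc] using this)
  obtain ⟨p, -, hu⟩ := canonical hS hn
  have e1 := hu (g * h, f) ⟨mul_mem (hS.le hg) hh.1, hf, rfl⟩
  have e2 := hu (g' * h', f') ⟨mul_mem (hS.le hg') hh'.1, hf', e⟩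
  have e3 := e1.trans e2.symm
  simp only [Prod.mk.injEq] at e3
  obtain ⟨h1, h2⟩ := QD_unique hS hg hg' hh hh' e3.1
  exact ⟨h1, h2, e3.2⟩

theorem exists_Q_ne : ∃ q ∈ Q, q ≠ 1 ∧ q * q = 1 := by
  haveI := Fact.mk Nat.prime_two
  obtain ⟨s, hs⟩ := exists_prime_orderOf_dvd_card' (G := ↥Q) 2 (even_iff_two_dvd.1 hS.even_card)
  refine ⟨s, s.2, fun h => ?_, ?_⟩
  · rw [OneMemClass.coe_eq_one] at h; rw [h, orderOf_one] at hs; exact absurd hs (by norm_num)
  · have := pow_orderOf_eq_one s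
    rw [hs, sq] at this
    exact congrArg Subtype.val this

theorem normalizer_le {X : Set G} (hX : X ⊆ (Q : Set G)) (h : ∃ x ∈ X, x ≠ 1) :
    Subgroup.normalizer X ≤ stabilizer G a := by
  obtain ⟨x, hx, hx1⟩ := h
  intro g hg
  have hc : g * x * g⁻¹ ∈ X := (Subgroup.mem_set_normalizer_iff.1 hg x).1 hx
  have h1 : g * x * g⁻¹ ≠ 1 := fun e => hx1 (conj_eq_one_iff.1 e)
  refine mem_stabilizer_iff.2 (fix_eq hS (hX hc) h1 ?_)
  rw [mul_smul, mul_smul, inv_smul_smul, mem_stabilizer_iff.1 (hS.le (hX hx))]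

theorem normalizer_Q : Subgroup.normalizer (Q : Set G) = stabilizer G a := by
  refine le_antisymm ?_ fun g hg => Subgroup.mem_normalizer_iff.2 fun x =>
    ⟨fun hx => hS.conj_mem g hg x hx, fun hx => by
      have := hS.conj_mem g⁻¹ (inv_mem hg) _ hx
      simpa [mul_assoc] using this⟩
  obtain ⟨q, hq, hq1, -⟩ := exists_Q_ne hS
  exact normalizer_le hS subset_rfl ⟨q, hq, hq1⟩

theorem normalizer_stab : Subgroup.normalizer (stabilizer G a : Set G) = stabilizer G a := by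
  refine le_antisymm (fun g hg => ?_) Subgroup.le_normalizer
  obtain ⟨q, hq, hq1, -⟩ := exists_Q_ne hS
  have hh : g⁻¹ * q * g ∈ stabilizer G a :=
    (Subgroup.mem_normalizer_iff.1 hg _).2 (by simpa [mul_assoc] using hS.le hq)
  refine mem_stabilizer_iff.2 (fix_eq hS hq hq1 ?_)
  calc q • g • a = (g * (g⁻¹ * q * g)) • a := by rw [smul_smul]; congr 1; group
    _ = g • a := by rw [mul_smul, mem_stabilizer_iff.1 hh]

theorem inv_mem_Q {s : G} (hs : s ∈ stabilizer G a) (h2 : s * s = 1) : s ∈ Q := by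
  obtain ⟨q, hq, d, hd, rfl⟩ := QD hS hs
  have hm : q * (d * q * d⁻¹) ∈ Q := mul_mem hq (hS.conj_mem d hd.1 q hq)
  have hdd : d * d = (q * (d * q * d⁻¹))⁻¹ := by
    refine eq_inv_of_mul_eq_one_right ?_
    calc q * (d * q * d⁻¹) * (d * d) = q * d * (q * d) := by group
      _ = 1 := h2
  have := eq_one_of_sq_odd (odd_orderOf_of_mem hS.odd_card hd) (Q_D hS (hdd ▸ inv_mem hm) (mul_mem hd hd))
  rw [this, mul_one]; exact hq

theorem fix_unique {u : G} (hu : u ≠ 1) (h2 : u * u = 1) {c e : Ω} (hc : u • c = c) (he : u • e = e) : c = e := by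
  obtain ⟨g, hg⟩ := trans hS c a
  have e1 : g * u * g⁻¹ ∈ stabilizer G a := by
    rw [mem_stabilizer_iff, mul_smul, mul_smul, ← hg, inv_smul_smul, hc]
  have e2 : g * u * g⁻¹ * (g * u * g⁻¹) = 1 := by rw [conj_mul, h2]; group
  have e3 := fix_eq hS (inv_mem_Q hS e1 e2) (fun h => hu (conj_eq_one_iff.1 h)) (c := g • e)
    (by rw [mul_smul, mul_smul, inv_smul_smul, he])
  exact smul_left_cancel g (hg.trans e3.symm)

theorem exists_fix {u : G} (h2 : u * u = 1) : ∃ c : Ω, u • c = c := by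
  classical
  haveI := finite_pts hS
  haveI := Fintype.ofFinite Ω
  by_contra h
  simp only [not_exists] at h
  let σ : Equiv.Perm Ω := MulAction.toPermHom G Ω u
  have hσ : σ ^ 2 = 1 := by rw [sq]; exact (map_mul _ u u).symm.trans (by rw [h2, map_one])
  haveI := Fact.mk Nat.prime_two
  obtain ⟨c, hc⟩ := Equiv.Perm.exists_fixed_point_of_prime (p := 2) (n := 1)
    (by rw [← Nat.card_eq_fintype_card, card_pts hS]; exact hS.even_card.add_one.not_two_dvd_nat)
    (σ := σ) (by rw [pow_one]; exact hσ)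
  exact h c hc

theorem swap_fix {u : G} (hua : u • a = t • a) (h2 : u * u = 1) : u • t • a = a := by
  rw [← hua, smul_smul, h2, one_smul]

theorem stab_centralizer {u g : G} (hu : u ≠ 1) (h2 : u * u = 1) {c : Ω} (hc : u • c = c)
    (hg : Commute g u) : g • c = c :=
  fix_unique hS hu h2 (by rw [smul_smul, ← hg.eq, mul_smul, hc]) hc

theorem odd_mul {s u : G} (hs : s ∈ stabilizer G a) (hs1 : s ≠ 1) (hs2 : s * s = 1)
    (hu : u ∉ stabilizer G a) (hu1 : u ≠ 1) (hu2 : u * u = 1) : Odd (orderOf (s * u)) := by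
  rcases Nat.even_or_odd (orderOf (s * u)) with he | ho
  · exfalso
    obtain ⟨k, hk⟩ := he
    set z := (s * u) ^ k with hz
    have hn : 0 < orderOf (s * u) := orderOf_pos _
    have hz1 : z ≠ 1 := pow_ne_one_of_lt_orderOf (by omega) (by omega)
    have hz2 : z * z = 1 := by rw [hz, ← pow_add, ← hk, pow_orderOf_eq_one]
    have hsi : s⁻¹ = s := inv_eq_of_mul_eq_one_right hs2
    have hui : u⁻¹ = u := inv_eq_of_mul_eq_one_right hu2
    have hzs : Commute z s := by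
      show z * s = s * z
      have h1 : s * z * s⁻¹ = z⁻¹ := by
        rw [hz, ← conj_pow, ← inv_pow]; congr 1
        rw [mul_inv_rev, hsi, hui, ← mul_assoc, hs2, one_mul]
      rw [inv_eq_of_mul_eq_one_right hz2] at h1
      calc z * s = s * z * s⁻¹ * s := by rw [h1]
        _ = s * z := inv_mul_cancel_right _ _
    have hza : z • a = a := stab_centralizer hS hs1 hs2 (mem_stabilizer_iff.1 hs) hzs
    have hzu : Commute u z := by
      have h1 : Commute z (s * u) := (Commute.refl _).pow_left k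
      have h3 : Commute z (s * (s * u)) := hzs.mul_right h1
      rw [← mul_assoc, hs2, one_mul] at h3
      exact h3.symm
    exact hu (mem_stabilizer_iff.2 (stab_centralizer hS hz1 hz2 hza hzu))
  · exact ho

theorem conj_of_odd {s u : G} (hs2 : s * s = 1) (hu2 : u * u = 1) (h : Odd (orderOf (s * u))) :
    ∃ g : G, g * s * g⁻¹ = u := by
  obtain ⟨k, hk⟩ := h
  refine ⟨(s * u) ^ k, ?_⟩
  have hsi : s⁻¹ = s := inv_eq_of_mul_eq_one_right hs2
  have hui : u⁻¹ = u := inv_eq_of_mul_eq_one_right hu2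
  have h1 : s * (s * u) ^ k * s⁻¹ = ((s * u) ^ k)⁻¹ := by
    rw [← conj_pow, ← inv_pow]; congr 1
    rw [mul_inv_rev, hsi, hui, ← mul_assoc, hs2, one_mul]
  have h3 : (s * u) ^ (k + k) = (s * u)⁻¹ := by
    refine eq_inv_of_mul_eq_one_left ?_
    rw [← pow_succ, ← two_mul, ← hk, pow_orderOf_eq_one]
  rw [← h1]
  calc (s * u) ^ k * s * (s * (s * u) ^ k * s⁻¹) = (s * u) ^ k * (s * s) * (s * u) ^ k * s⁻¹ := by group
    _ = (s * u) ^ (k + k) * s⁻¹ := by rw [hs2, mul_one, pow_add]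
    _ = u := by rw [h3, mul_inv_rev, hsi, mul_assoc, hs2, mul_one, hui]

theorem conj_all {u v : G} (hu : u ≠ 1) (hu2 : u * u = 1) (hv : v ≠ 1) (hv2 : v * v = 1) :
    ∃ g : G, g * u * g⁻¹ = v := by
  obtain ⟨s, hs, hs1, hs2⟩ := exists_Q_ne hS
  have key : ∀ w : G, w ≠ 1 → w * w = 1 → ∃ g : G, g * s * g⁻¹ = w := by
    intro w hw hw2
    by_cases hwa : w ∈ stabilizer G a
    · obtain ⟨g1, e1⟩ := conj_of_odd hS hs2 hS.mul_self
        (odd_mul hS (hS.le hs) hs1 hs2 hS.not_mem hS.ne_one hS.mul_self)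
      obtain ⟨g2, e2⟩ := conj_of_odd hS hw2 hS.mul_self
        (odd_mul hS hwa hw hw2 hS.not_mem hS.ne_one hS.mul_self)
      exact ⟨g2⁻¹ * g1, by rw [show g2⁻¹ * g1 * s * (g2⁻¹ * g1)⁻¹ = g2⁻¹ * (g1 * s * g1⁻¹) * g2 by group, e1, ← e2]; group⟩
    · exact conj_of_odd hS hs2 hw2 (odd_mul hS (hS.le hs) hs1 hs2 hwa hw hw2)
  obtain ⟨g1, rfl⟩ := key u hu hu2
  obtain ⟨g2, rfl⟩ := key v hv hv2
  exact ⟨g2 * g1⁻¹, by group⟩

end Setup

end CfsgLib.Lie.RankOne
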