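/-
The rank-one set-up: involutions, inverted elements and fixed-point sets.
-/
import Cfsg.Agent.Lib.LieRankOne

set_option autoImplicit false
set_option linter.unusedSectionVars false

namespace CfsgLib.Lie.RankOne

open MulAction

variable {G Ω : Type*} [Group G] [Finite G] [MulAction G Ω] {a : Ω} {t : G} {Q : Subgroup G}
variable (hS : Cfsg.IsRankOneSetup G Ω a t Q)

include hS

local notation "KK" => Cfsg.invertedBy (DD a t) t
local notation "II" => Cfsg.involutionsIn (stabilizer G a : Set G)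

/-- The conjugate of `t` by an element inverted by `t`. -/
theorem conj_t_inv {j : G} (hj : t * j * t⁻¹ = j⁻¹) : j⁻¹ * t * j = t * (j * j) := by
  rw [← hj, tinv hS]; simp [mul_assoc]
  rw [← mul_assoc t t, hS.mul_self, one_mul]

theorem swap_iff {u : G} (h : u • a = t • a) :
    u * u = 1 ↔ t * u ∈ KK := by
  have htt : ∀ y, t * (t * y) = y := fun y => by rw [← mul_assoc, hS.mul_self, one_mul]
  constructor
  · intro h2
    refine ⟨⟨?_, ?_⟩, ?_⟩
    · show (t * u) • a = a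
      rw [mul_smul, h, t_smul_smul hS]
    · show (t * u) • t • a = t • a
      rw [mul_smul, swap_fix hS h h2]
    · rw [tinv hS, mul_inv_rev, tinv hS, inv_eq_of_mul_eq_one_right h2]
      simp [mul_assoc, htt]
  · rintro ⟨-, hk⟩
    rw [tinv hS, mul_inv_rev, tinv hS] at hk
    simp [mul_assoc, htt] at hk
    calc u * u = u⁻¹ * u := by rw [← hk]
      _ = 1 := inv_mul_cancel u

theorem swap_card :
    Nat.card {u : G // u ≠ 1 ∧ u * u = 1 ∧ u • a = t • a} = Nat.card ↥KK := by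
  have htt : ∀ y, t * (t * y) = y := fun y => by rw [← mul_assoc, hS.mul_self, one_mul]
  refine Nat.card_congr
    { toFun := fun u => ⟨t * u.1, (swap_iff hS u.2.2.2).1 u.2.2.1⟩
      invFun := fun k => ⟨t * k.1, ?_⟩
      left_inv := fun u => Subtype.ext (htt _)
      right_inv := fun k => Subtype.ext (htt _) }
  have ha : (t * k.1) • a = t • a := by rw [mul_smul, mem_stabilizer_iff.1 k.2.1.1]
  refine ⟨fun e => ta_ne hS (by rw [← ha, e, one_smul]), (swap_iff hS ha).2 (by rw [htt]; exact k.2), ha⟩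

theorem conj_inv_elt (g : G) {u : G} : (u ≠ 1 ∧ u * u = 1) ↔ (g * u * g⁻¹ ≠ 1 ∧ g * u * g⁻¹ * (g * u * g⁻¹) = 1) := by
  rw [conj_mul, Ne, Ne, conj_eq_one_iff]
  refine and_congr_right fun _ => ?_
  rw [conj_eq_one_iff]

theorem smul_conj_eq (g u : G) (c : Ω) : (g * u * g⁻¹) • g • c = g • u • c := by
  rw [smul_smul, inv_mul_cancel_right, mul_smul]

/-- The number of inverted elements is the number of involutions fixing a point. -/
theorem card_inverted : Nat.card ↥KK = Nat.card ↥II := by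
  classical
  haveI := finite_pts hS
  haveI := Fintype.ofFinite Ω
  haveI := Fintype.ofFinite G
  have e1 : ∀ c : {c : Ω // c ≠ a},
      Nat.card {u : G // u ≠ 1 ∧ u * u = 1 ∧ u • a = c.1} = Nat.card ↥KK := by
    intro c
    rw [← swap_card hS]
    obtain ⟨g, hga, hgc⟩ := two_trans hS (ta_ne hS).symm (Ne.symm c.2)
    refine (Nat.card_congr (Equiv.subtypeEquiv (MulAut.conj g).toEquiv fun u => ?_)).symm
    show _ ↔ (g * u * g⁻¹) ≠ 1 ∧ g * u * g⁻¹ * (g * u * g⁻¹) = 1 ∧ (g * u * g⁻¹) • a = c.1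
    rw [← and_assoc, conj_inv_elt hS g, and_assoc]
    refine and_congr_right fun _ => and_congr_right fun _ => ?_
    have h := smul_conj_eq hS g u a
    rw [hga] at h
    rw [h, ← hgc, smul_left_cancel_iff]
  have e2 : ∀ c : {c : Ω // c ≠ a},
      Nat.card {u : G // u ≠ 1 ∧ u * u = 1 ∧ u • c.1 = c.1} = Nat.card ↥II := by
    intro c
    obtain ⟨g, hg⟩ := trans hS a c.1
    refine (Nat.card_congr (Equiv.subtypeEquiv (MulAut.conj g).toEquiv fun u => ?_)).symm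
    show (u ∈ stabilizer G a ∧ u ≠ 1 ∧ u * u = 1) ↔
      g * u * g⁻¹ ≠ 1 ∧ g * u * g⁻¹ * (g * u * g⁻¹) = 1 ∧ (g * u * g⁻¹) • c.1 = c.1
    rw [← hg, smul_conj_eq hS, smul_left_cancel_iff, mem_stabilizer_iff, ← and_assoc (a := g * u * g⁻¹ ≠ 1),
      ← conj_inv_elt hS g]
    tauto
  let A : Type _ := {u : G // u ≠ 1 ∧ u * u = 1 ∧ u • a ≠ a}
  have h1 : Nat.card A = Nat.card {c : Ω // c ≠ a} * Nat.card ↥KK := by
    rw [Nat.card_congr (Equiv.sigmaFiberEquiv (fun u : A => (⟨u.1 • a, u.2.2.2⟩ : {c : Ω // c ≠ a}))).symm,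
      Nat.card_sigma, Finset.sum_congr rfl fun c _ => ?_, Finset.sum_const, smul_eq_mul, Finset.card_univ,
      Nat.card_eq_fintype_card (α := {c : Ω // c ≠ a})]
    rw [← e1 c]
    exact Nat.card_congr
      { toFun := fun u => ⟨u.1.1, u.1.2.1, u.1.2.2.1, congrArg Subtype.val u.2⟩
        invFun := fun u => ⟨⟨u.1, u.2.1, u.2.2.1, by rw [u.2.2.2]; exact c.2⟩, Subtype.ext u.2.2.2⟩
        left_inv := fun u => rfl
        right_inv := fun u => rfl }
  have hfx : ∀ u : A, ∃ c : {c : Ω // c ≠ a}, u.1 • c.1 = c.1 := fun u => by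
    obtain ⟨c, hc⟩ := exists_fix hS u.2.2.1
    exact ⟨⟨c, fun e => u.2.2.2 (e ▸ hc)⟩, hc⟩
  choose fx hfx using hfx
  have h2 : Nat.card A = Nat.card {c : Ω // c ≠ a} * Nat.card ↥II := by
    rw [Nat.card_congr (Equiv.sigmaFiberEquiv fx).symm,
      Nat.card_sigma, Finset.sum_congr rfl fun c _ => ?_, Finset.sum_const, smul_eq_mul, Finset.card_univ,
      Nat.card_eq_fintype_card (α := {c : Ω // c ≠ a})]
    rw [← e2 c]
    exact Nat.card_congr
      { toFun := fun u => ⟨u.1.1, u.1.2.1, u.1.2.2.1, by have := hfx u.1; rw [u.2] at this; exact this⟩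
        invFun := fun u => ⟨⟨u.1, u.2.1, u.2.2.1, fun e => c.2 (fix_unique hS u.2.1 u.2.2.1 u.2.2.2 e)⟩,
          by refine Subtype.ext (fix_unique hS u.2.1 u.2.2.1 ?_ u.2.2.2); exact hfx ⟨u.1, u.2.1, u.2.2.1, fun e => c.2 (fix_unique hS u.2.1 u.2.2.1 u.2.2.2 e)⟩⟩
        left_inv := fun u => rfl
        right_inv := fun u => rfl }
  exact Nat.eq_of_mul_eq_mul_left (@Nat.card_pos _ ⟨⟨t • a, ta_ne hS⟩⟩ _) (h1.symm.trans h2)

/-- The structure equation. -/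
theorem structure_eq : ∃! p : G × G, p.1 ∈ II ∧ p.2 ∈ Q ∧ t * p.1 * t = p.2⁻¹ * t * p.2 := by
  have htt : ∀ y, t * (t * y) = y := fun y => by rw [← mul_assoc, hS.mul_self, one_mul]
  obtain ⟨f, hf⟩ := exists_fix hS hS.mul_self
  have hfa : f ≠ a := fun e => ta_ne hS (e ▸ hf)
  obtain ⟨r, hr, hu⟩ := regular hS (t • a) f (ta_ne hS) hfa
  refine ⟨(t * ((r : G)⁻¹ * t * r) * t, r), ⟨⟨?_, ?_, ?_⟩, r.2, ?_⟩, ?_⟩
  · show (t * ((r : G)⁻¹ * t * r) * t) • a = a
    rw [mul_smul, mul_smul, mul_smul, mul_smul, show (r : G) • t • a = f from hr, hf, ← hr, inv_smul_smul,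
      t_smul_smul hS]
  · intro e
    apply hS.ne_one
    have h := congrArg (fun X => (r : G) * (t * X * t) * (r : G)⁻¹) e
    simpa [mul_assoc, htt, hS.mul_self] using h
  · simp [mul_assoc, htt, hS.mul_self]
  · simp [mul_assoc, htt, hS.mul_self]
  · rintro ⟨s, r'⟩ ⟨⟨hs, -, -⟩, hr', e⟩
    simp only at hs hr' e
    have hs' : s = t * (r'⁻¹ * t * r') * t := by rw [← e]; simp [mul_assoc, htt, hS.mul_self]
    have h1 : (r'⁻¹ * t * r') • t • a = t • a := by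
      rw [← e, mul_smul, mul_smul, t_smul_smul hS, mem_stabilizer_iff.1 hs]
    have h2 : t • r' • t • a = r' • t • a := by
      rw [mul_smul, mul_smul, inv_smul_eq_iff] at h1
      exact h1
    have h3 : r' = (r : G) := congrArg Subtype.val
      (hu ⟨r', hr'⟩ (fix_unique hS hS.ne_one hS.mul_self h2 hf))
    exact Prod.ext (by rw [hs', h3]) h3

theorem centralizer_eq {s r : G} (hs : s ∈ II) (hr : r ∈ Q) (e : t * s * t = r⁻¹ * t * r) :
    DD a t ⊓ Subgroup.centralizer {t} = DD a t ⊓ Subgroup.centralizer {s} := by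
  have htt : ∀ y, t * (t * y) = y := fun y => by rw [← mul_assoc, hS.mul_self, one_mul]
  have key : ∀ d ∈ DD a t, Commute d (r⁻¹ * t * r) → Commute d r ∧ Commute d t := by
    intro d hd hcu
    set p := r⁻¹ • t • a with hp
    have hua : (r⁻¹ * t * r) • a = p := by
      rw [mul_smul, mul_smul, mem_stabilizer_iff.1 (hS.le hr)]
    have hdp : d • p = p := by
      rw [← hua, smul_smul, hcu.eq, mul_smul, mem_stabilizer_iff.1 hd.1]
    have hpa : p ≠ a := fun h => ta_ne hS (by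
      rw [hp, inv_smul_eq_iff, mem_stabilizer_iff.1 (hS.le hr)] at h; exact h)
    obtain ⟨x, -, hu⟩ := regular hS (t • a) p (ta_ne hS) hpa
    have h1 := hu ⟨r⁻¹, inv_mem hr⟩ rfl
    have h2 := hu ⟨d * r⁻¹ * d⁻¹, hS.conj_mem d hd.1 _ (inv_mem hr)⟩ (by
      show (d * r⁻¹ * d⁻¹) • t • a = p
      rw [mul_smul, mem_stabilizer_iff.1 (inv_mem hd.2), mul_smul, ← hp, hdp])
    have h3 : d * r⁻¹ * d⁻¹ = r⁻¹ := congrArg Subtype.val (h2.trans h1.symm)
    have hdr : Commute d r := by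
      have h4 : Commute d r⁻¹ := mul_inv_eq_iff_eq_mul.1 h3
      simpa using h4.inv_right
    refine ⟨hdr, ?_⟩
    have h5 := (hdr.mul_right hcu).mul_right hdr.inv_right
    rwa [show r * (r⁻¹ * t * r) * r⁻¹ = t by group] at h5
  ext d
  simp only [Subgroup.mem_inf, Subgroup.mem_centralizer_singleton_iff]
  constructor
  · rintro ⟨hd, hdt⟩
    refine ⟨hd, ?_⟩
    obtain ⟨f, hf⟩ := exists_fix hS hS.mul_self
    have hdf : d • f = f := stab_centralizer hS hS.ne_one hS.mul_self hf hdt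
    have hu' : (r⁻¹ * t * r) • t • a = t • a := by
      rw [← e, mul_smul, mul_smul, t_smul_smul hS, mem_stabilizer_iff.1 hs.1]
    have hrb : r • t • a = f := by
      rw [mul_smul, mul_smul, inv_smul_eq_iff] at hu'
      exact fix_unique hS hS.ne_one hS.mul_self hu' hf
    obtain ⟨x, -, hu⟩ := regular hS (t • a) f (ta_ne hS) (fun h => ta_ne hS (h ▸ hf))
    have h2 := hu ⟨d * r * d⁻¹, hS.conj_mem d hd.1 _ hr⟩ (by
      show (d * r * d⁻¹) • t • a = f
      rw [mul_smul, mem_stabilizer_iff.1 (inv_mem hd.2), mul_smul, hrb, hdf])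
    have hdr : Commute d r := mul_inv_eq_iff_eq_mul.1 (congrArg Subtype.val (h2.trans (hu ⟨r, hr⟩ hrb).symm))
    have hdu : Commute d (t * (r⁻¹ * t * r) * t) :=
      ((Commute.mul_right hdt ((hdr.inv_right.mul_right hdt).mul_right hdr))).mul_right hdt
    rwa [← e, show t * (t * s * t) * t = s by simp [mul_assoc, htt, hS.mul_self]] at hdu
  · rintro ⟨hd, hds⟩
    refine ⟨hd, ?_⟩
    have hd' := D_conj hS hd
    have hcu : Commute (t * d * t) (r⁻¹ * t * r) := by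
      rw [← e]
      show t * d * t * (t * s * t) = t * s * t * (t * d * t)
      simp only [mul_assoc, htt]
      rw [← mul_assoc d s, hds, mul_assoc]
    have h := (key _ hd' hcu).2.eq
    simp only [mul_assoc, hS.mul_self, htt] at h
    simpa [mul_assoc, hS.mul_self] using h.symm

theorem comm_of_fix {X : Set G} (hXa : ∀ x ∈ X, x • a = a) {c d : Ω} (hc : ∀ x ∈ X, x • c = c)
    (hd : ∀ x ∈ X, x • d = d) {q : G} (hq : q ∈ Q) (hca : c ≠ a) (hda : d ≠ a) (he : q • c = d)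
    {x : G} (hx : x ∈ X) : Commute x q := by
  obtain ⟨z, -, hu⟩ := regular hS c d hca hda
  have h1 := hu ⟨q, hq⟩ he
  have h2 := hu ⟨x * q * x⁻¹, hS.conj_mem x (hXa x hx) q hq⟩ (by
    show (x * q * x⁻¹) • c = d
    rw [mul_smul, mul_smul, inv_smul_eq_iff.2 (hc x hx).symm, he, hd x hx])
  exact mul_inv_eq_iff_eq_mul.1 (congrArg Subtype.val (h2.trans h1.symm))

/-- The centraliser of a set of elements is transitive on the other common fixed points. -/
theorem trans_fix {X : Set G} {p c d : Ω} (hp : ∀ x ∈ X, x • p = p) (hc : ∀ x ∈ X, x • c = c)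
    (hd : ∀ x ∈ X, x • d = d) (hcp : c ≠ p) (hdp : d ≠ p) :
    ∃ g ∈ Subgroup.centralizer X, g • p = p ∧ g • c = d := by
  obtain ⟨h, rfl⟩ := trans hS a p
  have hc' : h⁻¹ • c ≠ a := fun e => hcp (inv_smul_eq_iff.1 e)
  have hd' : h⁻¹ • d ≠ a := fun e => hdp (inv_smul_eq_iff.1 e)
  obtain ⟨q, hq, -⟩ := regular hS (h⁻¹ • c) (h⁻¹ • d) hc' hd'
  refine ⟨h * (q : G) * h⁻¹, Subgroup.mem_centralizer_iff.2 fun x hx => ?_, ?_, ?_⟩
  · have hfix : ∀ {e : Ω}, x • e = e → (h⁻¹ * x * h) • h⁻¹ • e = h⁻¹ • e := fun {e} he => by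
      rw [smul_smul, mul_inv_cancel_right, mul_smul, he]
    have hca : Commute (h⁻¹ * x * h) (q : G) := by
      refine comm_of_fix hS (X := {h⁻¹ * x * h}) ?_ ?_ ?_ q.2 hc' hd' hq rfl <;> rintro y rfl
      · have := hfix (hp x hx); rwa [inv_smul_smul] at this
      · exact hfix (hc x hx)
      · exact hfix (hd x hx)
    calc x * (h * q * h⁻¹) = h * ((h⁻¹ * x * h) * q) * h⁻¹ := by group
      _ = h * (q * (h⁻¹ * x * h)) * h⁻¹ := by rw [hca.eq]
      _ = h * q * h⁻¹ * x := by group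
  · rw [smul_smul, inv_mul_cancel_right, mul_smul, mem_stabilizer_iff.1 (hS.le q.2)]
  · rw [mul_smul, mul_smul, hq, smul_inv_smul]

theorem two_trans_fix {X : Set G} (h3 : ∃ b c d : Ω, b ≠ c ∧ b ≠ d ∧ c ≠ d ∧ ∀ x ∈ X, x • b = b ∧ x • c = c ∧ x • d = d)
    {b₁ b₂ c₁ c₂ : Ω} (hb₁ : ∀ x ∈ X, x • b₁ = b₁) (hb₂ : ∀ x ∈ X, x • b₂ = b₂) (hc₁ : ∀ x ∈ X, x • c₁ = c₁)
    (hc₂ : ∀ x ∈ X, x • c₂ = c₂) (hb : b₁ ≠ b₂) (hc : c₁ ≠ c₂) :
    ∃ g ∈ Subgroup.centralizer X, g • b₁ = c₁ ∧ g • b₂ = c₂ := by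
  obtain ⟨p₁, p₂, p₃, h12, h13, h23, hp⟩ := h3
  obtain ⟨z, hz, hzb, hzc⟩ : ∃ z, (∀ x ∈ X, x • z = z) ∧ b₁ ≠ z ∧ c₁ ≠ z := by
    by_cases k1 : b₁ ≠ p₁ ∧ c₁ ≠ p₁
    · exact ⟨p₁, fun x hx => (hp x hx).1, k1.1, k1.2⟩
    by_cases k2 : b₁ ≠ p₂ ∧ c₁ ≠ p₂
    · exact ⟨p₂, fun x hx => (hp x hx).2.1, k2.1, k2.2⟩
    refine ⟨p₃, fun x hx => (hp x hx).2.2, fun e => ?_, fun e => ?_⟩
    · by_cases k : c₁ = p₁
      · exact k2 ⟨e ▸ h23.symm, k ▸ h12⟩
      · exact k1 ⟨e ▸ h13.symm, k⟩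
    · by_cases k : b₁ = p₁
      · exact k2 ⟨k ▸ h12, e ▸ h23.symm⟩
      · exact k1 ⟨k, e ▸ h13.symm⟩
  obtain ⟨g₁, hg₁, -, hg₁'⟩ := trans_fix hS hz hb₁ hc₁ hzb hzc
  have hf : ∀ x ∈ X, x • g₁ • b₂ = g₁ • b₂ := fun x hx => by
    rw [smul_smul, Subgroup.mem_centralizer_iff.1 hg₁ x hx, mul_smul, hb₂ x hx]
  obtain ⟨g₂, hg₂, hg₂', hg₂''⟩ := trans_fix hS hc₁ hf hc₂
    (fun e => hb (smul_left_cancel g₁ (hg₁'.trans e.symm))) hc.symm
  exact ⟨g₂ * g₁, mul_mem hg₂ hg₁, by rw [mul_smul, hg₁', hg₂'], by rw [mul_smul, hg₂'']⟩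

theorem exists_swap_inv {X : Set G} (hX : X ⊆ (DD a t : Set G))
    (h3 : ∃ b c d : Ω, b ≠ c ∧ b ≠ d ∧ c ≠ d ∧ ∀ x ∈ X, x • b = b ∧ x • c = c ∧ x • d = d) :
    ∃ u ∈ Subgroup.centralizer X, u ≠ 1 ∧ u * u = 1 ∧ u • a = t • a := by
  have ha : ∀ x ∈ X, x • a = a := fun x hx => (hX hx).1
  have hb : ∀ x ∈ X, x • t • a = t • a := fun x hx => (hX hx).2
  obtain ⟨g, hg, hga, hgb⟩ := two_trans_fix hS h3 ha hb hb ha (ta_ne hS).symm (ta_ne hS)
  have hd : g * g ∈ DD a t := ⟨by show (g * g) • a = a; rw [mul_smul, hga, hgb],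
    by show (g * g) • t • a = t • a; rw [mul_smul, hgb, hga]⟩
  set m := orderOf (g * g) with hm
  have hmodd : Odd m := odd_orderOf_of_mem hS.odd_card hd
  obtain ⟨j, hj⟩ := hmodd
  have hua : (g ^ m) • a = t • a := by
    rw [hj, pow_succ', pow_mul, mul_smul, mem_stabilizer_iff.1 (pow_mem (by rw [sq]; exact hd.1) j), hga]
  refine ⟨g ^ m, Subgroup.pow_mem _ hg m, fun e => ta_ne hS (by rw [← hua, e, one_smul]), ?_, hua⟩
  rw [← (Commute.refl g).mul_pow, pow_orderOf_eq_one]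

theorem conj_into_centralizer {X : Set G} (hX : X ⊆ (DD a t : Set G))
    (h3 : ∃ b c d : Ω, b ≠ c ∧ b ≠ d ∧ c ≠ d ∧ ∀ x ∈ X, x • b = b ∧ x • c = c ∧ x • d = d) :
    ∃ k ∈ DD a t, ∀ x ∈ X, (k * x * k⁻¹) * t = t * (k * x * k⁻¹) := by
  obtain ⟨u, hu, hu1, hu2, hua⟩ := exists_swap_inv hS hX h3
  obtain ⟨hkD, hk⟩ := (swap_iff hS hua).1 hu2
  set j := sqrtElt (t * u) with hj
  have hjD : j ∈ DD a t := sqrtElt_mem hkD
  have hji : t * j * t⁻¹ = j⁻¹ := by rw [hj, sqrtElt, ← conj_pow, hk, inv_pow]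
  have hju : j⁻¹ * t * j = u := by
    rw [conj_t_inv hS hji, hj, sqrtElt_sq (odd_orderOf_of_mem hS.odd_card hkD), ← mul_assoc, hS.mul_self, one_mul]
  refine ⟨j, hjD, fun x hx => ?_⟩
  have hc := Subgroup.mem_centralizer_iff.1 hu x hx
  calc j * x * j⁻¹ * t = j * (x * (j⁻¹ * t * j)) * j⁻¹ := by group
    _ = j * ((j⁻¹ * t * j) * x) * j⁻¹ := by rw [hju, hc]
    _ = t * (j * x * j⁻¹) := by group

theorem fix_sup {X : Set G} (hX : X ⊆ (DD a t : Set G)) :
    (Subgroup.centralizer X ⊓ Q) ⊔ (Subgroup.centralizer X ⊓ DD a t) = Subgroup.centralizer X ⊓ stabilizer G a := by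
  refine le_antisymm (sup_le (inf_le_inf_left _ hS.le) (inf_le_inf_left _ inf_le_left)) ?_
  rintro g ⟨hgc, hga⟩
  obtain ⟨q, hq, d, hd, rfl⟩ := QD hS hga
  have hqc : q ∈ Subgroup.centralizer X := Subgroup.mem_centralizer_iff.2 fun x hx => by
    have e : (x * q * x⁻¹) * (x * d * x⁻¹) = q * d := by
      rw [conj_mul, Subgroup.mem_centralizer_iff.1 hgc x hx, mul_inv_cancel_right]
    exact mul_inv_eq_iff_eq_mul.1 (QD_unique hS (hS.conj_mem x (hX hx).1 q hq) hq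
      (mul_mem (mul_mem (hX hx) hd) (inv_mem (hX hx))) hd e).1
  have hdc : d ∈ Subgroup.centralizer X := by
    have := mul_mem (inv_mem hqc) hgc
    rwa [inv_mul_cancel_left] at this
  exact Subgroup.mul_mem_sup ⟨hqc, hq⟩ ⟨hdc, hd⟩

theorem even_fix {X : Set G} (hX : X ⊆ (DD a t : Set G))
    (h3 : ∃ b c d : Ω, b ≠ c ∧ b ≠ d ∧ c ≠ d ∧ ∀ x ∈ X, x • b = b ∧ x • c = c ∧ x • d = d) :
    Even (Nat.card ↥(Subgroup.centralizer X ⊓ Q)) := by
  obtain ⟨u, hu, hu1, hu2, hua⟩ := exists_swap_inv hS hX h3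
  obtain ⟨p, hp⟩ := exists_fix hS hu2
  have hpa : p ≠ a := fun e => ta_ne hS (by rw [← hua]; exact e ▸ hp)
  have hpX : ∀ x ∈ X, x • p = p := fun x hx =>
    stab_centralizer hS hu1 hu2 hp (Subgroup.mem_centralizer_iff.1 hu x hx)
  obtain ⟨g, hg, hgp, -⟩ := two_trans_fix hS h3 hpX (fun x hx => (hX hx).1) (fun x hx => (hX hx).1)
    (fun x hx => (hX hx).2) hpa (ta_ne hS).symm
  have h1 : g * u * g⁻¹ ∈ stabilizer G a := by
    show (g * u * g⁻¹) • a = a
    rw [← hgp, smul_conj_eq hS, hp]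
  obtain ⟨hv1, hv2⟩ := (conj_inv_elt hS g).1 ⟨hu1, hu2⟩
  have hm : g * u * g⁻¹ ∈ Subgroup.centralizer X ⊓ Q :=
    Subgroup.mem_inf.2 ⟨mul_mem (mul_mem hg hu) (inv_mem hg), inv_mem_Q hS h1 hv2⟩
  rw [even_iff_two_dvd, show (2 : ℕ) = orderOf (⟨_, hm⟩ : ↥(Subgroup.centralizer X ⊓ Q)) from by
    rw [Subgroup.orderOf_mk]; exact (orderOf_eq_prime (by rw [sq, hv2]) hv1).symm]
  exact orderOf_dvd_natCard _

theorem cent_inj {s : G} (hs : s ∈ II) :
    ∀ k ∈ KK, ∀ k' ∈ KK, k⁻¹ * s * k = k'⁻¹ * s * k' → k = k' := by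
  intro k hk k' hk' e
  obtain ⟨⟨s₀, r⟩, ⟨hs₀, hr, he⟩, -⟩ := structure_eq hS
  have hD := hS.odd_card
  set c := k' * k⁻¹ with hc
  have hcD : c ∈ DD a t := mul_mem hk'.1 (inv_mem hk.1)
  have hcs : Commute c s := by
    show c * s = s * c
    calc c * s = k' * (k⁻¹ * s * k) * k⁻¹ := by rw [hc]; group
      _ = s * c := by rw [e, hc]; group
  -- `s` is a `D`-conjugate of `s₀`, so it commutes with the fixed elements of some `t j`
  obtain ⟨u, hu, hu1, hu2, hua⟩ := exists_swap_inv hS (X := {c}) (by simpa using hcD) (by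
    have hs1 := hs.2.1
    have hs2 := hs.2.2
    have hsQ := inv_mem_Q hS hs.1 hs2
    have hsb : s • t • a ≠ t • a := fun h => hs1 (Q_D hS hsQ ⟨hs.1, h⟩)
    have hsa : s • t • a ≠ a := fun h => ta_ne hS (smul_left_cancel s (h.trans (mem_stabilizer_iff.1 hs.1).symm))
    refine ⟨a, t • a, s • t • a, (ta_ne hS).symm, hsa.symm, hsb.symm, ?_⟩
    rintro x rfl
    exact ⟨hcD.1, hcD.2, by rw [smul_smul, hcs.eq, mul_smul, mem_stabilizer_iff.1 hcD.2]⟩)
  obtain ⟨hjD, hj⟩ := (swap_iff hS hua).1 hu2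
  set j := t * u with hjdef
  have huj : u = t * j := by rw [hjdef, ← mul_assoc, hS.mul_self, one_mul]
  have hcu : c * u = u * c := (Subgroup.mem_centralizer_singleton_iff.1 hu).symm
  have htct : t * c * t⁻¹ = k'⁻¹ * k := by
    rw [hc, ← conj_mul, hk'.2, show t * k⁻¹ * t⁻¹ = (t * k * t⁻¹)⁻¹ by group, hk.2, inv_inv]
  have h2 : c * (k * j) = k * j * c⁻¹ := by
    have h3 : j * c * j⁻¹ = t * c * t⁻¹ := by
      rw [huj] at hcu
      calc j * c * j⁻¹ = t⁻¹ * (t * j * c) * j⁻¹ := by group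
        _ = t⁻¹ * (c * (t * j)) * j⁻¹ := by rw [hcu]
        _ = t⁻¹ * c * t := by group
        _ = t * c * t⁻¹ := by rw [tinv hS]
    rw [htct] at h3
    have h4 : c * k = k' := by rw [hc, inv_mul_cancel_right]
    calc c * (k * j) = k' * j := by rw [← mul_assoc, h4]
      _ = k * (j * c * j⁻¹)⁻¹ * j := by rw [h3]; group
      _ = k * j * c⁻¹ := by group
  set g := k * j with hg
  have hgD : g ∈ DD a t := mul_mem hk.1 hjD
  have hgc : g * c * g⁻¹ = c⁻¹ := by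
    calc g * c * g⁻¹ = (g * c⁻¹ * g⁻¹)⁻¹ := by group
      _ = c⁻¹ := by rw [← h2, mul_inv_cancel_right]
  have hc2 : Commute c (g * g) := by
    show c * (g * g) = g * g * c
    rw [eq_comm, ← mul_inv_eq_iff_eq_mul]
    calc g * g * c * (g * g)⁻¹ = g * (g * c * g⁻¹) * g⁻¹ := by group
      _ = c := by rw [hgc, show g * c⁻¹ * g⁻¹ = (g * c * g⁻¹)⁻¹ by group, hgc, inv_inv]
  have hcg : Commute c g := commute_of_sq (odd_orderOf_of_mem hD hgD) hc2
  have : c⁻¹ = c := by rw [← hgc, ← hcg.eq, mul_inv_cancel_right]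
  have h1 := eq_one_of_inv_eq (odd_orderOf_of_mem hD hcD) this
  rw [hc, mul_inv_eq_one] at h1
  exact h1.symm

theorem inverted_transitive {s : G} (hs : s ∈ II) {s' : G} (hs' : s' ∈ II) :
    ∃ k ∈ KK, k⁻¹ * s * k = s' := by
  obtain ⟨hs0, hs1, hs2⟩ := hs
  let φ : ↥KK → ↥II := fun k => ⟨k.1⁻¹ * s * k.1,
    (stabilizer G a).mul_mem ((stabilizer G a).mul_mem ((stabilizer G a).inv_mem k.2.1.1) hs0) k.2.1.1, fun e => hs1 (by
      have := congrArg (fun X => k.1 * X * k.1⁻¹) e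
      simpa [mul_assoc] using this), by simp [mul_assoc, ← mul_assoc s s, hs2]⟩
  have hinj : Function.Injective φ := fun k k' e =>
    Subtype.ext (cent_inj hS ⟨hs0, hs1, hs2⟩ k k.2 k' k'.2 (congrArg Subtype.val e))
  obtain ⟨k, hk⟩ := ((Nat.bijective_iff_injective_and_card φ).2 ⟨hinj, card_inverted hS⟩).2 ⟨s', hs'⟩
  exact ⟨k, k.2, congrArg Subtype.val hk⟩

theorem centralizer_all :
    DD a t ⊓ Subgroup.centralizer {t} ⊓ Subgroup.centralizer KK = DD a t ⊓ Subgroup.centralizer II := by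
  obtain ⟨⟨s, r⟩, ⟨hs, hr, he⟩, -⟩ := structure_eq hS
  have hV := centralizer_eq hS hs hr he
  ext d
  constructor
  · rintro ⟨hdV, hdK⟩
    refine ⟨hdV.1, Subgroup.mem_centralizer_iff.2 fun s' hs' => ?_⟩
    obtain ⟨k, hk, rfl⟩ := inverted_transitive hS hs hs'
    have h1 : Commute d k := (Subgroup.mem_centralizer_iff.1 hdK k hk).symm
    have h2 : Commute d s := Subgroup.mem_centralizer_singleton_iff.1 (hV ▸ hdV).2
    exact ((h1.inv_right.mul_right h2).mul_right h1).eq.symm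
  · rintro ⟨hd, hdI⟩
    have hdV : d ∈ DD a t ⊓ Subgroup.centralizer {t} :=
      hV ▸ ⟨hd, Subgroup.mem_centralizer_singleton_iff.2 (Subgroup.mem_centralizer_iff.1 hdI s hs).symm⟩
    refine ⟨hdV, Subgroup.mem_centralizer_iff.2 fun k hk => ?_⟩
    have hsI : k⁻¹ * s * k ∈ II := ⟨(stabilizer G a).mul_mem ((stabilizer G a).mul_mem ((stabilizer G a).inv_mem hk.1.1) hs.1) hk.1.1, fun e => hs.2.1 (by
      have := congrArg (fun X => k * X * k⁻¹) e
      simpa [mul_assoc] using this), by simp [mul_assoc, ← mul_assoc s s, hs.2.2]⟩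
    have h1 : (k * d * k⁻¹) * s = s * (k * d * k⁻¹) := by
      calc k * d * k⁻¹ * s = k * (d * (k⁻¹ * s * k)) * k⁻¹ := by group
        _ = k * ((k⁻¹ * s * k) * d) * k⁻¹ := by rw [(Subgroup.mem_centralizer_iff.1 hdI _ hsI).symm]
        _ = s * (k * d * k⁻¹) := by group
    have h2 : k * d * k⁻¹ ∈ DD a t ⊓ Subgroup.centralizer {t} :=
      hV ▸ Subgroup.mem_inf.2 ⟨mul_mem (mul_mem hk.1 hd) (inv_mem hk.1), Subgroup.mem_centralizer_singleton_iff.2 h1⟩
    have h3 := Subgroup.mem_centralizer_singleton_iff.1 h2.2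
    have h4 : t * (k * d * k⁻¹) * t⁻¹ = k * d * k⁻¹ := by rw [← h3, mul_inv_cancel_right]
    rw [← conj_mul, ← conj_mul, hk.2, show t * k⁻¹ * t⁻¹ = (t * k * t⁻¹)⁻¹ by group, hk.2, inv_inv,
      show t * d * t⁻¹ = d by rw [← Subgroup.mem_centralizer_singleton_iff.1 hdV.2, mul_inv_cancel_right]] at h4
    have h5 : Commute d (k * k) := by
      show d * (k * k) = k * k * d
      calc d * (k * k) = k * (k⁻¹ * d * k) * k := by group
        _ = k * k * d := by rw [h4]; group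
    exact (commute_of_sq (odd_orderOf_of_mem hS.odd_card hk.1) h5).eq.symm

theorem fpf {x : G} (hx : x ∈ KK) (hx1 : x ≠ 1) : Q ⊓ Subgroup.centralizer {x} = ⊥ := by
  rw [Subgroup.eq_bot_iff_forall]
  rintro q ⟨hq, hqc⟩
  by_contra hq1
  have hqx : Commute q x := Subgroup.mem_centralizer_singleton_iff.1 hqc
  have hqb : q • t • a ≠ t • a := fun h => hq1 (Q_D hS hq ⟨hS.le hq, h⟩)
  have hqa : q • t • a ≠ a := fun h => ta_ne hS (smul_left_cancel q (h.trans (mem_stabilizer_iff.1 (hS.le hq)).symm))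
  obtain ⟨u, hu, hu1, hu2, hua⟩ := exists_swap_inv hS (X := {x}) (by simpa using hx.1)
    ⟨a, t • a, q • t • a, (ta_ne hS).symm, hqa.symm, hqb.symm, by
      rintro y rfl
      exact ⟨hx.1.1, hx.1.2, by rw [smul_smul, ← hqx.eq, mul_smul, mem_stabilizer_iff.1 hx.1.2]⟩⟩
  obtain ⟨hjD, -⟩ := (swap_iff hS hua).1 hu2
  set j := t * u with hj
  have huj : u = t * j := by rw [hj, ← mul_assoc, hS.mul_self, one_mul]
  have hxu : x * u = u * x := (Subgroup.mem_centralizer_singleton_iff.1 hu).symm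
  have h1 : j * x * j⁻¹ = x⁻¹ := by
    rw [huj] at hxu
    calc j * x * j⁻¹ = t⁻¹ * (t * j * x) * j⁻¹ := by group
      _ = t⁻¹ * (x * (t * j)) * j⁻¹ := by rw [hxu]
      _ = t⁻¹ * x * t := by group
      _ = x⁻¹ := by rw [← hx.2, tinv hS]
  have h2 : Commute (j * j) x := by
    show j * j * x = x * (j * j)
    rw [← mul_inv_eq_iff_eq_mul]
    calc j * j * x * (j * j)⁻¹ = j * (j * x * j⁻¹) * j⁻¹ := by group
      _ = x := by rw [h1, show j * x⁻¹ * j⁻¹ = (j * x * j⁻¹)⁻¹ by group, h1, inv_inv]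
  have h3 : Commute x j := commute_of_sq (odd_orderOf_of_mem hS.odd_card hjD) h2.symm
  have h4 : x⁻¹ = x := by rw [← h1, ← h3.eq, mul_inv_cancel_right]
  exact hx1 (eq_one_of_inv_eq (odd_orderOf_of_mem hS.odd_card hx.1) h4)

end CfsgLib.Lie.RankOne
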