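/-
The rank-one set-up with two commuting involutions; the multiplication functions.
-/
import Cfsg.Agent.Lib.LieRankOneInv
import Cfsg.Agent.Lib.CorePGroup

set_option autoImplicit false
set_option linter.unusedSectionVars false

namespace CfsgLib.Lie.RankOne

open MulAction

variable {G Ω : Type*} [Group G] [Finite G] [MulAction G Ω] {a : Ω} {t : G} {Q : Subgroup G}
variable (hS : Cfsg.IsRankOneSetup G Ω a t Q)

include hS

local notation "KK" => Cfsg.invertedBy (DD a t) t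
local notation "II" => Cfsg.involutionsIn (stabilizer G a : Set G)

theorem one_mem_inverted : (1 : G) ∈ KK := ⟨(DD a t).one_mem, by simp [inv_one]⟩

theorem two_inv_at_a (h2 : ∃ x y : G, x ≠ 1 ∧ y ≠ 1 ∧ x ≠ y ∧ x * x = 1 ∧ y * y = 1 ∧ x * y = y * x) :
    ∃ x y : G, x ∈ II ∧ y ∈ II ∧ x ≠ y ∧ x * y = y * x := by
  obtain ⟨x, y, hx1, hy1, hxy, hx2, hy2, hc⟩ := h2
  obtain ⟨p, hp⟩ := exists_fix hS hx2
  have hp' : y • p = p := stab_centralizer hS hx1 hx2 hp hc.symm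
  obtain ⟨g, hg⟩ := trans hS p a
  obtain ⟨hx1', hx2'⟩ := (conj_inv_elt hS g).1 ⟨hx1, hx2⟩
  obtain ⟨hy1', hy2'⟩ := (conj_inv_elt hS g).1 ⟨hy1, hy2⟩
  refine ⟨g * x * g⁻¹, g * y * g⁻¹, ⟨?_, hx1', hx2'⟩, ⟨?_, hy1', hy2'⟩, ?_, ?_⟩
  · show (g * x * g⁻¹) • a = a
    rw [← hg, smul_conj_eq hS, hp]
  · show (g * y * g⁻¹) • a = a
    rw [← hg, smul_conj_eq hS, hp']
  · exact fun e => hxy (mul_left_cancel (mul_right_cancel e))
  · rw [conj_mul, conj_mul, hc]

theorem exists_inverted_ne (h2 : ∃ x y : G, x ≠ 1 ∧ y ≠ 1 ∧ x ≠ y ∧ x * x = 1 ∧ y * y = 1 ∧ x * y = y * x) :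
    ∃ k ∈ KK, k ≠ 1 := by
  by_contra h
  simp only [not_exists, not_and, not_not] at h
  obtain ⟨x, y, hx, hy, hxy, -⟩ := two_inv_at_a hS h2
  obtain ⟨k, hk, e⟩ := inverted_transitive hS hx hy
  rw [h k hk, inv_one, one_mul, mul_one] at e
  exact hxy e

theorem nilpotent_of_inverted {k : G} (hk : k ∈ KK) (hk1 : k ≠ 1) : Group.IsNilpotent Q := by
  have ho : orderOf k ≠ 1 := fun e => hk1 (orderOf_eq_one_iff.1 e)
  obtain ⟨p, hp, m, hm⟩ := Nat.exists_prime_and_dvd ho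
  set x := k ^ m with hx
  have hox : orderOf x = p := by
    have hm0 : m ≠ 0 := fun e => by
      rw [e, mul_zero] at hm; exact (orderOf_pos k).ne' hm
    rw [hx, orderOf_pow' k hm0, hm, Nat.gcd_eq_right (dvd_mul_left m p),
      Nat.mul_div_cancel _ (Nat.pos_of_ne_zero hm0)]
  have hxK : x ∈ KK := ⟨(DD a t).pow_mem hk.1 m, by rw [hx, ← conj_pow, hk.2, inv_pow]⟩
  have hx1 : x ≠ 1 := fun e => by rw [e, orderOf_one] at hox; exact hp.ne_one hox.symm
  let φ : MulAut Q :=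
    { toFun := fun q => ⟨x * q * x⁻¹, hS.conj_mem x hxK.1.1 q q.2⟩
      invFun := fun q => ⟨x⁻¹ * q * x, by
        have := hS.conj_mem x⁻¹ (inv_mem hxK.1.1) q q.2
        rwa [inv_inv] at this⟩
      left_inv := fun q => Subtype.ext (by simp [mul_assoc])
      right_inv := fun q => Subtype.ext (by simp [mul_assoc])
      map_mul' := fun q q' => Subtype.ext (by simp [mul_assoc]) }
  have hφ : ∀ (n : ℕ) (q : Q), (((φ ^ n) q : Q) : G) = x ^ n * q * (x ^ n)⁻¹ := by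
    intro n
    induction n with
    | zero => intro q; simp
    | succ j ih =>
      intro q
      rw [pow_succ, MulAut.mul_apply, ih]
      show x ^ j * (x * (q : G) * x⁻¹) * (x ^ j)⁻¹ = _
      rw [pow_succ]; group
  refine CfsgLib.Core.isNilpotent_of_fpf_prime hp (Nat.card Q) Q le_rfl φ ?_ fun q hq => ?_
  · refine MulEquiv.ext fun q => Subtype.ext ?_
    rw [hφ, ← hox, pow_orderOf_eq_one]; simp
  · have h1 : x * (q : G) * x⁻¹ = q := congrArg Subtype.val hq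
    have h3 : (q : G) ∈ Q ⊓ Subgroup.centralizer {x} :=
      ⟨q.2, Subgroup.mem_centralizer_singleton_iff.2 (mul_inv_eq_iff_eq_mul.1 h1).symm⟩
    rw [fpf hS hxK hx1, Subgroup.mem_bot] at h3
    exact Subtype.ext h3

theorem nilpotent_Q (h2 : ∃ x y : G, x ≠ 1 ∧ y ≠ 1 ∧ x ≠ y ∧ x * x = 1 ∧ y * y = 1 ∧ x * y = y * x) :
    Group.IsNilpotent Q := by
  obtain ⟨k, hk, hk1⟩ := exists_inverted_ne hS h2
  exact nilpotent_of_inverted hS hk hk1

theorem central_involutions (h2 : ∃ x y : G, x ≠ 1 ∧ y ≠ 1 ∧ x ≠ y ∧ x * x = 1 ∧ y * y = 1 ∧ x * y = y * x)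
    {s : G} (hs : s ∈ II) : s ∈ Q ∧ ∀ x ∈ Q, s * x = x * s := by
  haveI := nilpotent_Q hS h2
  haveI := Fact.mk Nat.prime_two
  obtain ⟨z, hz⟩ : ∃ z : Subgroup.center ↥Q, orderOf z = 2 := by
    obtain ⟨P⟩ : Nonempty (Sylow 2 ↥Q) := inferInstance
    have hq := (Group.isNilpotent_of_finite_tfae (G := ↥Q)).out 0 3
    haveI hPn : (P : Subgroup ↥Q).Normal := by
      have hn := nilpotent_Q hS h2
      rw [hq] at hn
      exact hn 2 inferInstance P
    have hPne : (P : Subgroup ↥Q) ≠ ⊥ := P.ne_bot_of_dvd_card (even_iff_two_dvd.1 hS.even_card)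
    have hne : (P : Subgroup ↥Q) ⊓ Subgroup.center ↥Q ≠ ⊥ := CfsgLib.Core.nilpotent_inf_center_ne_bot hPne
    obtain ⟨⟨z, hzP, hzc⟩, hz1⟩ := Subgroup.ne_bot_iff_exists_ne_one.1 hne
    have hz1' : (⟨z, hzP⟩ : (P : Subgroup ↥Q)) ≠ 1 := fun e => hz1 (Subtype.ext (congrArg Subtype.val e :))
    obtain ⟨n, hn⟩ := IsPGroup.iff_orderOf.1 P.2 ⟨z, hzP⟩
    rw [Subgroup.orderOf_mk] at hn
    have h2z : 2 ∣ orderOf (⟨z, hzc⟩ : Subgroup.center ↥Q) := by
      rw [Subgroup.orderOf_mk, hn]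
      refine dvd_pow_self 2 fun e => hz1' ?_
      rw [e, pow_zero, orderOf_eq_one_iff] at hn
      exact Subtype.ext hn
    exact ⟨_, orderOf_pow_orderOf_div (orderOf_pos _).ne' h2z⟩
  set z' : G := ((z : ↥Q) : G) with hz'
  have hzI : z' ∈ II := by
    refine ⟨hS.le (z : ↥Q).2, fun e => ?_, ?_⟩
    · have : z = 1 := Subtype.ext (Subtype.ext e)
      rw [this, orderOf_one] at hz; exact absurd hz (by norm_num)
    · have := pow_orderOf_eq_one z
      rw [hz, sq] at this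
      exact congrArg (fun w : Subgroup.center ↥Q => ((w : ↥Q) : G)) this
  have hsQ := inv_mem_Q hS hs.1 hs.2.2
  refine ⟨hsQ, fun x hx => ?_⟩
  obtain ⟨k, hk, e⟩ := inverted_transitive hS hzI hs
  have h1 := congrArg (fun w : ↥Q => (w : G))
    (Subgroup.mem_center_iff.1 z.2 ⟨k * x * k⁻¹, hS.conj_mem k hk.1.1 x hx⟩)
  change k * x * k⁻¹ * z' = z' * (k * x * k⁻¹) at h1
  calc s * x = k⁻¹ * (z' * (k * x * k⁻¹)) * k := by rw [← e]; group
    _ = k⁻¹ * (k * x * k⁻¹ * z') * k := by rw [h1]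
    _ = x * s := by rw [← e]; group

theorem inv_closed (h2 : ∃ x y : G, x ≠ 1 ∧ y ≠ 1 ∧ x ≠ y ∧ x * x = 1 ∧ y * y = 1 ∧ x * y = y * x)
    {s s' : G} (hs : s ∈ II) (hs' : s' ∈ II) : s * s' = 1 ∨ s * s' ∈ II := by
  by_cases h : s * s' = 1
  · exact Or.inl h
  refine Or.inr ⟨(stabilizer G a).mul_mem hs.1 hs'.1, h, ?_⟩
  have hc := (central_involutions hS h2 hs').2 s (central_involutions hS h2 hs).1
  calc s * s' * (s * s') = s * (s' * s) * s' := by group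
    _ = s * s * (s' * s') := by rw [hc]; group
    _ = 1 := by rw [hs.2.2, hs'.2.2, one_mul]

theorem odd_core (h2 : ∃ x y : G, x ≠ 1 ∧ y ≠ 1 ∧ x ≠ y ∧ x * x = 1 ∧ y * y = 1 ∧ x * y = y * x) :
    Cfsg.pPrimeCore 2 G = (stabilizer G a).normalCore := by
  haveI := Fact.mk Nat.prime_two
  haveI hN := CfsgLib.Core.normal_pPrimeCore (G := G) 2
  have hcop := CfsgLib.Core.coprime_card_pPrimeCore (G := G) 2
  refine le_antisymm ?_ (CfsgLib.Core.le_pPrimeCore (Subgroup.normalCore_normal _) ?_)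
  · rw [Subgroup.normal_le_normalCore]
    obtain ⟨x, y, hx, hy, hxy, hc⟩ := two_inv_at_a hS h2
    let A := Subgroup.closure ({x, y} : Set G)
    haveI hA : IsMulCommutative A := Subgroup.isMulCommutative_closure (by
      rintro u (rfl | rfl) v (rfl | rfl) <;> first | rfl | exact hc | exact hc.symm)
    have hA2 : ∀ g ∈ A, g * g = 1 := by
      intro g hg
      induction hg using Subgroup.closure_induction with
      | mem g hg => rcases hg with rfl | rfl; exacts [hx.2.2, hy.2.2]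
      | one => simp
      | mul u v hu hv ihu ihv =>
        have huv : u * v = v * u := congrArg Subtype.val (mul_comm' (⟨u, hu⟩ : A) ⟨v, hv⟩)
        calc u * v * (u * v) = u * (v * u) * v := by group
          _ = u * u * (v * v) := by rw [← huv]; group
          _ = 1 := by rw [ihu, ihv, one_mul]
      | inv u _ ih => rw [← mul_inv_rev, ih, inv_one]
    have hAI : ∀ g ∈ A, g ≠ 1 → g ∈ II := fun g hg h1 =>
      ⟨(Subgroup.closure_le (K := stabilizer G a)).2 (by rintro _ (rfl | rfl); exacts [hx.1, hy.1]) hg, h1, hA2 g hg⟩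
    have hp : IsPGroup 2 A := fun g => ⟨1, by
      rw [pow_one, sq]; exact Subtype.ext (hA2 g g.2)⟩
    have hcyc : ¬ IsCyclic A := by
      intro hA'
      obtain ⟨g, hg⟩ := hA'.exists_generator
      have key : ∀ z : A, z = 1 ∨ z = g := fun z => by
        obtain ⟨j, rfl⟩ := hg z
        have hg2 : g * g = 1 := Subtype.ext (hA2 g g.2)
        rcases Int.even_or_odd j with ⟨i, rfl⟩ | ⟨i, rfl⟩
        · left; show g ^ (i + i) = 1; rw [← two_mul, zpow_mul, zpow_two, hg2, one_zpow]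
        · right; show g ^ (2 * i + 1) = g; rw [zpow_add, zpow_mul, zpow_two, hg2, one_zpow, one_mul, zpow_one]
      have hxA : x ∈ A := Subgroup.subset_closure (Or.inl rfl)
      have hyA : y ∈ A := Subgroup.subset_closure (Or.inr rfl)
      rcases key ⟨x, hxA⟩ with e | e
      · exact hx.2.1 (congrArg Subtype.val e)
      rcases key ⟨y, hyA⟩ with e' | e'
      · exact hy.2.1 (congrArg Subtype.val e')
      · exact hxy (congrArg Subtype.val (e.trans e'.symm))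
    have hcopA : (Nat.card A).Coprime (Nat.card ↥(Cfsg.pPrimeCore 2 G)) := by
      obtain ⟨n, hn⟩ := IsPGroup.iff_card.1 hp
      rw [hn]; exact Nat.Coprime.pow_left _ hcop.symm
    have hgen := CfsgLib.Core.generated_by_centralizers (A := A) (K := Cfsg.pPrimeCore 2 G) hcyc
      (fun g _ => by rw [Subgroup.normalizer_eq_top (H := Cfsg.pPrimeCore 2 G)]; trivial) hcopA
    rw [← hgen]
    refine iSup₂_le fun g hg => ?_
    rintro o ⟨-, ho⟩
    obtain ⟨hga, hg1, hg2⟩ := hAI g hg.1 hg.2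
    exact stab_centralizer hS hg1 hg2 hga (Subgroup.mem_centralizer_singleton_iff.1 ho)
  · rw [Nat.coprime_two_right, Nat.odd_iff, ← Nat.two_dvd_ne_zero]
    intro h
    obtain ⟨⟨z, hz⟩, hoz⟩ := exists_prime_orderOf_dvd_card' (G := ↥(stabilizer G a).normalCore) 2 h
    rw [Subgroup.orderOf_mk] at hoz
    have hz1 : z ≠ 1 := fun e => by rw [e, orderOf_one] at hoz; exact absurd hoz (by norm_num)
    have hz2 : z * z = 1 := by rw [← sq, ← hoz, pow_orderOf_eq_one]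
    obtain ⟨g, hg⟩ := conj_all hS hz1 hz2 hS.ne_one hS.mul_self
    exact hS.not_mem (Subgroup.normalCore_le _ (hg ▸ (Subgroup.normalCore_normal _).conj_mem z hz g))

theorem fusion_V {X : Set G} (hX : X ⊆ ((DD a t ⊓ Subgroup.centralizer {t} : Subgroup G) : Set G)) (g : G)
    (hY : (fun x => g * x * g⁻¹) '' X ⊆ ((DD a t ⊓ Subgroup.centralizer {t} : Subgroup G) : Set G)) :
    ∃ v ∈ DD a t ⊓ Subgroup.centralizer {t}, (fun x => v * x * v⁻¹) '' X = (fun x => g * x * g⁻¹) '' X := by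
  have hYm : ∀ x ∈ X, g * x * g⁻¹ ∈ DD a t ⊓ Subgroup.centralizer {t} := fun x hx => hY ⟨x, hx, rfl⟩
  obtain ⟨f, hf⟩ := exists_fix hS hS.mul_self
  have hfY : ∀ y ∈ DD a t ⊓ Subgroup.centralizer {t}, y • f = f := fun y hy =>
    stab_centralizer hS hS.ne_one hS.mul_self hf (Subgroup.mem_centralizer_singleton_iff.1 hy.2)
  have hfa : f ≠ a := fun e => ta_ne hS (e ▸ hf)
  have hfb : f ≠ t • a := fun e => ta_ne hS (by rw [e, t_smul_smul hS] at hf; exact hf.symm)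
  have hga : ∀ x ∈ X, ∀ c, x • c = c → (g * x * g⁻¹) • g • c = g • c := fun x _ c hc => by
    rw [smul_conj_eq hS, hc]
  obtain ⟨c, hc, hca, hcb⟩ := two_trans_fix hS (X := (fun x => g * x * g⁻¹) '' X)
    ⟨a, t • a, f, (ta_ne hS).symm, hfa.symm, hfb.symm, fun y hy => ⟨(hY hy).1.1, (hY hy).1.2, hfY y (hY hy)⟩⟩
    (b₁ := g • a) (b₂ := g • t • a) (c₁ := a) (c₂ := t • a)
    (by rintro _ ⟨x, hx, rfl⟩; exact hga x hx a (hX hx).1.1)
    (by rintro _ ⟨x, hx, rfl⟩; exact hga x hx _ (hX hx).1.2)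
    (fun y hy => (hY hy).1.1) (fun y hy => (hY hy).1.2)
    (fun e => ta_ne hS (smul_left_cancel g e).symm) (ta_ne hS).symm
  set d := c * g with hd
  have hdD : d ∈ DD a t := ⟨by show d • a = a; rw [hd, mul_smul, hca], by show d • t • a = t • a; rw [hd, mul_smul, hcb]⟩
  have hdx : ∀ x ∈ X, d * x * d⁻¹ = g * x * g⁻¹ := fun x hx => by
    have h := Subgroup.mem_centralizer_iff.1 hc _ ⟨x, hx, rfl⟩
    simp only at h
    calc d * x * d⁻¹ = c * (g * x * g⁻¹) * c⁻¹ := by rw [hd]; group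
      _ = g * x * g⁻¹ := by rw [← h, mul_inv_cancel_right]
  set k := d⁻¹ * (t * d * t) with hk
  have hkK : k ∈ KK := by
    refine ⟨mul_mem (inv_mem hdD) (D_conj hS hdD), ?_⟩
    calc t * k * t⁻¹ = t * d⁻¹ * t * d * (t * t⁻¹) := by rw [hk]; group
      _ = t⁻¹ * d⁻¹ * t⁻¹ * d := by rw [mul_inv_cancel, mul_one, tinv hS]
      _ = k⁻¹ := by rw [hk]; group
  have hkx : ∀ x ∈ X, Commute k x := fun x hx => by
    have h1 : t * x = x * t := (Subgroup.mem_centralizer_singleton_iff.1 (hX hx).2).symm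
    have h2 : t * (g * x * g⁻¹) = g * x * g⁻¹ * t := (Subgroup.mem_centralizer_singleton_iff.1 (hYm x hx).2).symm
    rw [← hdx x hx] at h2
    show k * x = x * k
    calc k * x = d⁻¹ * (t * d) * (t * x) := by rw [hk]; group
      _ = d⁻¹ * (t * (d * x * d⁻¹)) * d * t := by rw [h1]; group
      _ = d⁻¹ * ((d * x * d⁻¹) * t) * d * t := by rw [h2]
      _ = x * k := by rw [hk]; group
  set z := sqrtElt k with hz
  have hzz : z * z = k := sqrtElt_sq (odd_orderOf_of_mem hS.odd_card hkK.1)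
  have hzt : t * z * t⁻¹ = z⁻¹ := by rw [hz, sqrtElt, ← conj_pow, hkK.2, inv_pow]
  have hv : t * (d * z) * t⁻¹ = d * z := by
    have h1 : t * d * t⁻¹ = d * k := by rw [hk, tinv hS, mul_inv_cancel_left]
    rw [← conj_mul, h1, hzt, ← hzz]; group
  refine ⟨d * z, ⟨mul_mem hdD (sqrtElt_mem hkK.1), Subgroup.mem_centralizer_singleton_iff.2 ?_⟩, ?_⟩
  · calc d * z * t = t * (d * z) * t⁻¹ * t := by rw [hv]
      _ = t * (d * z) := inv_mul_cancel_right _ _
  · refine Set.image_congr fun x hx => ?_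
    have hzx : Commute z x := (hkx x hx).pow_left _
    calc d * z * x * (d * z)⁻¹ = d * (z * x) * z⁻¹ * d⁻¹ := by group
      _ = d * (x * z) * z⁻¹ * d⁻¹ := by rw [hzx.eq]
      _ = g * x * g⁻¹ := by rw [← hdx x hx]; group

theorem strongly_real (h2 : ∃ x y : G, x ≠ 1 ∧ y ≠ 1 ∧ x ≠ y ∧ x * x = 1 ∧ y * y = 1 ∧ x * y = y * x)
    {u v : G} (hu1 : u ≠ 1) (hu2 : u * u = 1) (hv1 : v ≠ 1) (hv2 : v * v = 1) (hx : (u * v) * (u * v) ≠ 1) :
    (∃ g : G, ∃ u' ∈ II, g * (u * v) * g⁻¹ = u' * t) ∧ Odd (Nat.card ↥(Subgroup.centralizer {u * v})) := by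
  obtain ⟨p, hp⟩ := exists_fix hS hu2
  obtain ⟨g, hg⟩ := trans hS p a
  obtain ⟨hU1, hU2⟩ := (conj_inv_elt hS g).1 ⟨hu1, hu2⟩
  obtain ⟨hV1, hV2⟩ := (conj_inv_elt hS g).1 ⟨hv1, hv2⟩
  set U := g * u * g⁻¹ with hU
  set V := g * v * g⁻¹ with hV
  have hUa : U ∈ II := ⟨by show U • a = a; rw [hU, ← hg, smul_conj_eq hS, hp], hU1, hU2⟩
  have hVa : V • a ≠ a := fun h => hx (by
    have hVI : V ∈ II := ⟨h, hV1, hV2⟩
    have hc := (central_involutions hS h2 hUa).2 V (central_involutions hS h2 hVI).1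
    have e : g * (u * v * (u * v)) * g⁻¹ = 1 := by
      calc g * (u * v * (u * v)) * g⁻¹ = U * V * (U * V) := by rw [hU, hV]; group
        _ = U * (V * U) * V := by group
        _ = U * U * (V * V) := by rw [← hc]; group
        _ = 1 := by rw [hU2, hV2, one_mul]
    exact conj_eq_one_iff.1 e)
  obtain ⟨h, hha, hhb⟩ := two_trans hS (Ne.symm hVa) (ta_ne hS).symm
  obtain ⟨hW1, hW2⟩ := (conj_inv_elt hS h).1 ⟨hV1, hV2⟩
  set W := h * V * h⁻¹ with hW
  have hWa : W • a = t • a := by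
    have := smul_conj_eq hS h V a
    rw [hha, hhb] at this
    exact this
  obtain ⟨hkD, hk⟩ := (swap_iff hS hWa).1 hW2
  set j := sqrtElt (t * W) with hj
  have hjD : j ∈ DD a t := sqrtElt_mem hkD
  have hji : t * j * t⁻¹ = j⁻¹ := by rw [hj, sqrtElt, ← conj_pow, hk, inv_pow]
  have hjW : j⁻¹ * t * j = W := by
    rw [conj_t_inv hS hji, hj, sqrtElt_sq (odd_orderOf_of_mem hS.odd_card hkD), ← mul_assoc, hS.mul_self, one_mul]
  set m := j * h * g with hm
  have hmu : m * u * m⁻¹ ∈ II := by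
    refine ⟨?_, ((conj_inv_elt hS m).1 ⟨hu1, hu2⟩)⟩
    show (m * u * m⁻¹) • a = a
    have hma : m • p = a := by rw [hm, mul_smul, mul_smul, hg, hha, mem_stabilizer_iff.1 hjD.1]
    rw [← hma, smul_conj_eq hS, hp]
  have e : m * (u * v) * m⁻¹ = (m * u * m⁻¹) * t := by
    have hv' : m * v * m⁻¹ = t := by
      calc m * v * m⁻¹ = j * W * j⁻¹ := by rw [hm, hW, hV]; group
        _ = t := by rw [← hjW]; group
    rw [← conj_mul, hv']
  refine ⟨⟨m, _, hmu, e⟩, ?_⟩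
  by_contra hodd
  rw [Nat.not_odd_iff_even, even_iff_two_dvd] at hodd
  haveI := Fact.mk Nat.prime_two
  obtain ⟨⟨z, hz⟩, hoz⟩ := exists_prime_orderOf_dvd_card' (G := ↥(Subgroup.centralizer {u * v})) 2 hodd
  rw [Subgroup.orderOf_mk] at hoz
  have hz1 : z ≠ 1 := fun e' => by rw [e', orderOf_one] at hoz; exact absurd hoz (by norm_num)
  have hz2 : z * z = 1 := by rw [← sq, ← hoz, pow_orderOf_eq_one]
  set s := m * u * m⁻¹
  set x := s * t with hxdef
  obtain ⟨hs0, hs1, hs2⟩ := hmu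
  have hxodd : Odd (orderOf x) := odd_mul hS hs0 hs1 hs2 hS.not_mem hS.ne_one hS.mul_self
  obtain ⟨hZ1, hZ2⟩ := (conj_inv_elt hS m).1 ⟨hz1, hz2⟩
  set Z := m * z * m⁻¹ with hZ
  have hZx : Commute Z x := by
    show Z * x = x * Z
    rw [← e, hZ, conj_mul, conj_mul, Subgroup.mem_centralizer_singleton_iff.1 hz]
  obtain ⟨q, hq⟩ := exists_fix hS hZ2
  have hxq : x • q = q := stab_centralizer hS hZ1 hZ2 hq hZx.symm
  have hsi : s⁻¹ = s := inv_eq_of_mul_eq_one_right hs2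
  have hxinv : t * x * t⁻¹ = x⁻¹ := by
    rw [hxdef, mul_inv_rev, hsi, tinv hS]; simp [mul_assoc, hS.mul_self]
  have hxtq : x • t • q = t • q := by
    have h1 : x * t = t * x⁻¹ := by
      rw [← hxinv, tinv hS]; simp only [← mul_assoc, hS.mul_self, one_mul]
    rw [smul_smul, h1, mul_smul, inv_smul_eq_iff.2 hxq.symm]
  by_cases htq : t • q = q
  · have hsq : s • q = q := by
      have h := hxq
      rw [hxdef, mul_smul, htq] at h
      exact h
    have := fix_unique hS hs1 hs2 hsq (mem_stabilizer_iff.1 hs0)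
    rw [this] at htq
    exact ta_ne hS htq
  · obtain ⟨n, hna, hnb⟩ := two_trans hS (Ne.symm htq) (ta_ne hS).symm
    have hx1 : x ≠ 1 := fun h => hS.not_mem (by
      have h' := eq_inv_of_mul_eq_one_right h
      rw [h']; exact inv_mem hs0)
    obtain ⟨hT1, hT2⟩ := (conj_inv_elt hS n).1 ⟨hS.ne_one, hS.mul_self⟩
    have hTa : (n * t * n⁻¹) • a = t • a := by
      have := smul_conj_eq hS n t q
      rw [hna, hnb] at this
      exact this
    obtain ⟨hlD, hl⟩ := (swap_iff hS hTa).1 hT2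
    set l := sqrtElt (t * (n * t * n⁻¹)) with hldef
    have hlD' : l ∈ DD a t := sqrtElt_mem hlD
    have hli : t * l * t⁻¹ = l⁻¹ := by rw [hldef, sqrtElt, ← conj_pow, hl, inv_pow]
    have hlT : l⁻¹ * t * l = n * t * n⁻¹ := by
      rw [conj_t_inv hS hli, hldef, sqrtElt_sq (odd_orderOf_of_mem hS.odd_card hlD), ← mul_assoc, hS.mul_self, one_mul]
    set r := l * n with hr
    have hrt : r * t * r⁻¹ = t := by
      calc r * t * r⁻¹ = l * (n * t * n⁻¹) * l⁻¹ := by rw [hr]; group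
        _ = t := by rw [← hlT]; group
    have hra : r • q = a := by rw [hr, mul_smul, hna, mem_stabilizer_iff.1 hlD'.1]
    have hrb : r • t • q = t • a := by rw [hr, mul_smul, hnb, mem_stabilizer_iff.1 hlD'.2]
    have hXK : r * x * r⁻¹ ∈ KK := by
      refine ⟨⟨?_, ?_⟩, ?_⟩
      · show (r * x * r⁻¹) • a = a
        rw [← hra, smul_conj_eq hS, hxq]
      · show (r * x * r⁻¹) • t • a = t • a
        rw [← hrb, smul_conj_eq hS, hxtq]
      · calc t * (r * x * r⁻¹) * t⁻¹ = (r * t * r⁻¹) * (r * x * r⁻¹) * (r * t * r⁻¹)⁻¹ := by rw [hrt]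
          _ = r * (t * x * t⁻¹) * r⁻¹ := by group
          _ = (r * x * r⁻¹)⁻¹ := by rw [hxinv]; group
    have hX1 : r * x * r⁻¹ ≠ 1 := fun h => hx1 (conj_eq_one_iff.1 h)
    obtain ⟨hR1, hR2⟩ := (conj_inv_elt hS r).1 ⟨hZ1, hZ2⟩
    have hZQ : r * Z * r⁻¹ ∈ Q := inv_mem_Q hS (by
      show (r * Z * r⁻¹) • a = a
      rw [← hra, smul_conj_eq hS, hq]) hR2
    have hmem : r * Z * r⁻¹ ∈ Q ⊓ Subgroup.centralizer {r * x * r⁻¹} :=
      ⟨hZQ, Subgroup.mem_centralizer_singleton_iff.2 (by rw [conj_mul, conj_mul, hZx.eq])⟩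
    rw [fpf hS hXK hX1, Subgroup.mem_bot] at hmem
    exact hR1 hmem

/-! ### The multiplication functions -/

theorem tDt {h : G} : t * h = (t * h * t) * t := by rw [mul_assoc (t * h), hS.mul_self, mul_one]

theorem h_inv {x g h f : G} (hg : g ∈ Q) (hh : h ∈ DD a t) (hf : f ∈ Q) (heq : t * x * t = g * h * t * f) :
    (∀ g₁ h₁ f₁ : G, g₁ ∈ Q → h₁ ∈ DD a t → f₁ ∈ Q → t * x⁻¹ * t = g₁ * h₁ * t * f₁ →
        f₁ = g⁻¹ ∧ h₁ = t * h⁻¹ * t) := by
  intro g₁ h₁ f₁ hg₁ hh₁ hf₁ e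
  have e' : f⁻¹ * (t * h⁻¹ * t) * t * g⁻¹ = g₁ * h₁ * t * f₁ := by
    rw [← e, show t * x⁻¹ * t = (t * x * t)⁻¹ by simp [mul_assoc, tinv hS], heq, mul_inv_rev, mul_inv_rev,
      mul_inv_rev, tinv hS]
    calc f⁻¹ * (t * h⁻¹ * t) * t * g⁻¹ = f⁻¹ * (t * h⁻¹) * (t * t) * g⁻¹ := by group
      _ = f⁻¹ * (t * (h⁻¹ * g⁻¹)) := by rw [hS.mul_self]; group
  obtain ⟨-, h2, h3⟩ := canon_unique hS (inv_mem hf) (D_conj hS (inv_mem hh)) (inv_mem hg) hg₁ hh₁ hf₁ e'
  exact ⟨h3.symm, h2.symm⟩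

theorem h_f {x g h f : G} (hxQ : x ∈ Q) (hg : g ∈ Q) (hh : h ∈ DD a t) (heq : t * x * t = g * h * t * f) :
    (∀ g₂ h₂ f₂ : G, g₂ ∈ Q → h₂ ∈ DD a t → f₂ ∈ Q → t * f * t = g₂ * h₂ * t * f₂ →
        f₂ = x ∧ h₂ = h⁻¹) := by
  intro g₂ h₂ f₂ hg₂ hh₂ hf₂ e
  have hgm : h⁻¹ * g⁻¹ * h ∈ Q := by
    have := hS.conj_mem h⁻¹ (inv_mem hh.1) g⁻¹ (inv_mem hg)
    rwa [inv_inv] at this
  have e' : (h⁻¹ * g⁻¹ * h) * h⁻¹ * t * x = g₂ * h₂ * t * f₂ := by
    rw [← e]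
    calc h⁻¹ * g⁻¹ * h * h⁻¹ * t * x = h⁻¹ * g⁻¹ * (t * x) := by group
      _ = h⁻¹ * g⁻¹ * (t * x * (t * t)) := by rw [hS.mul_self, mul_one]
      _ = h⁻¹ * g⁻¹ * (t * x * t) * t := by group
      _ = t * f * t := by rw [heq]; group
  obtain ⟨-, h2, h3⟩ := canon_unique hS hgm (inv_mem hh) hxQ hg₂ hh₂ hf₂ e'
  exact ⟨h3.symm, h2.symm⟩

theorem h_conj {x g h f : G} (hg : g ∈ Q) (hh : h ∈ DD a t) (hf : f ∈ Q) (heq : t * x * t = g * h * t * f) :
    ∀ c ∈ DD a t, ∀ g₃ h₃ f₃ : G, g₃ ∈ Q → h₃ ∈ DD a t → f₃ ∈ Q →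
      t * (c⁻¹ * x * c) * t = g₃ * h₃ * t * f₃ →
        f₃ = (t * c * t)⁻¹ * f * (t * c * t) ∧ h₃ = (t * c * t)⁻¹ * h * c := by
  intro c hc g₃ h₃ f₃ hg₃ hh₃ hf₃ e
  set d := t * c * t with hd
  have hdD : d ∈ DD a t := D_conj hS hc
  have hdg : d⁻¹ * g * d ∈ Q := by
    have := hS.conj_mem d⁻¹ (inv_mem hdD.1) g hg
    rwa [inv_inv] at this
  have hdf : d⁻¹ * f * d ∈ Q := by
    have := hS.conj_mem d⁻¹ (inv_mem hdD.1) f hf
    rwa [inv_inv] at this
  have htd : t * d = c * t := by rw [hd, ← mul_assoc, ← mul_assoc, hS.mul_self, one_mul]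
  have e' : (d⁻¹ * g * d) * (d⁻¹ * h * c) * t * (d⁻¹ * f * d) = g₃ * h₃ * t * f₃ := by
    rw [← e]
    calc d⁻¹ * g * d * (d⁻¹ * h * c) * t * (d⁻¹ * f * d) = d⁻¹ * g * h * (c * t) * d⁻¹ * f * d := by group
      _ = d⁻¹ * g * h * (t * d) * d⁻¹ * f * d := by rw [htd]
      _ = d⁻¹ * (g * h * t * f) * d := by group
      _ = d⁻¹ * (t * x * t) * d := by rw [heq]
      _ = t * (c⁻¹ * x * c) * t := by
        rw [hd, mul_inv_rev, mul_inv_rev, tinv hS]
        calc t * (c⁻¹ * t) * (t * x * t) * (t * c * t) = t * c⁻¹ * (t * t) * x * (t * t) * c * t := by group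
          _ = t * (c⁻¹ * x * c) * t := by rw [hS.mul_self]; group
  obtain ⟨-, h2, h3⟩ := canon_unique hS hdg (mul_mem (mul_mem (inv_mem hdD) hh) hc) hdf hg₃ hh₃ hf₃ e'
  exact ⟨h3.symm, h2.symm⟩

theorem h_mul {x y gx hx fx gy hy fy : G} (hxQ : x ∈ Q) (hyQ : y ∈ Q) (hxy : x * y ≠ 1)
    (hgx : gx ∈ Q) (hhx : hx ∈ DD a t) (ex : t * x * t = gx * hx * t * fx)
    (hhy : hy ∈ DD a t) (hfy : fy ∈ Q) (ey : t * y * t = gy * hy * t * fy) :
    fx * gy ≠ 1 ∧
      ∀ gz hz fz g' h' f' : G, gz ∈ Q → hz ∈ DD a t → fz ∈ Q → t * (fx * gy) * t = gz * hz * t * fz →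
        g' ∈ Q → h' ∈ DD a t → f' ∈ Q → t * (x * y) * t = g' * h' * t * f' →
          f' = (t * hy * t)⁻¹ * fz * (t * hy * t) * fy ∧ h' = hx * hz * hy := by
  have eprod : t * (x * y) * t = gx * hx * (t * (fx * gy) * hy * t) * fy := by
    calc t * (x * y) * t = t * x * (t * t) * y * t := by rw [hS.mul_self]; group
      _ = (t * x * t) * (t * y * t) := by group
      _ = _ := by rw [ex, ey]; group
  refine ⟨fun h1 => ?_, ?_⟩
  · rw [h1, mul_one] at eprod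
    have hm : t * (x * y) * t ∈ stabilizer G a := by
      rw [eprod]
      exact mul_mem (mul_mem (mul_mem (hS.le hgx) hhx.1) (D_conj hS hhy).1) (hS.le hfy)
    have h2 : (x * y) • t • a = t • a := by
      have h3 := mem_stabilizer_iff.1 hm
      rw [mul_smul, mul_smul] at h3
      calc (x * y) • t • a = t • t • (x * y) • t • a := (t_smul_smul hS _).symm
        _ = t • a := by rw [h3]
    exact hxy (Q_D hS (mul_mem hxQ hyQ) ⟨hS.le (mul_mem hxQ hyQ), h2⟩)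
  · intro gz hz fz g' h' f' hgz hhz hfz ez hg' hh' hf' e'
    set d := t * hy * t with hd
    have hdD : d ∈ DD a t := D_conj hS hhy
    have htd : t * d = hy * t := by rw [hd, ← mul_assoc, ← mul_assoc, hS.mul_self, one_mul]
    have ez' : t * (fx * gy) = gz * hz * t * fz * t := by
      rw [← ez, mul_assoc (t * (fx * gy)) t t, hS.mul_self, mul_one]
    have e'' : (gx * (hx * gz * hx⁻¹)) * (hx * hz * hy) * t * (d⁻¹ * fz * d * fy) = g' * h' * t * f' := by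
      rw [← e', eprod, ez']
      calc gx * (hx * gz * hx⁻¹) * (hx * hz * hy) * t * (d⁻¹ * fz * d * fy)
          = gx * hx * gz * hz * (hy * t) * d⁻¹ * fz * d * fy := by group
        _ = gx * hx * gz * hz * (t * d) * d⁻¹ * fz * d * fy := by rw [htd]
        _ = gx * hx * (gz * hz * t * fz * d) * fy := by group
        _ = gx * hx * (gz * hz * t * fz * t * hy * t) * fy := by rw [hd]; group
    have hfd : d⁻¹ * fz * d * fy ∈ Q := by
      have := hS.conj_mem d⁻¹ (inv_mem hdD.1) fz hfz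
      rw [inv_inv] at this
      exact mul_mem this hfy
    obtain ⟨-, h2, h3⟩ := canon_unique hS (mul_mem hgx (hS.conj_mem hx hhx.1 gz hgz))
      (mul_mem (mul_mem hhx hhz) hhy) hfd hg' hh' hf' e''
    exact ⟨h3.symm, h2.symm⟩

end CfsgLib.Lie.RankOne
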