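import Cfsg.Agent.Lib.ClassicalSL

/-!
`SL_{n+1}` is generated by the cyclic monomial matrix together with one root group.
-/

set_option autoImplicit false

namespace CfsgLib.Lie.SLCycle

open Matrix CfsgLib.Classical
open scoped Fin.NatCast Fin.CommRing

variable {n : ℕ} {K : Type*} [Field K]

local notation "SLn" => Matrix.SpecialLinearGroup (Fin (n + 1)) K

/-- A monomial element moves root groups around. -/
theorem mono_transvection {M : SLn} {σ : Equiv.Perm (Fin (n + 1))} {d : Fin (n + 1) → K}
    (hM : ∀ i j, (M : Matrix (Fin (n + 1)) (Fin (n + 1)) K) i j = if j = σ i then d i else 0)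
    {i j : Fin (n + 1)} (hij : i ≠ j) (h : σ i ≠ σ j) (t : K) :
    M * SpecialLinearGroup.transvection h t = SpecialLinearGroup.transvection hij (t * d i / d j) * M := by
  have hd : d j ≠ 0 := by
    intro e
    have hdet := M.2
    rw [Matrix.det_eq_zero_of_row_eq_zero j (fun l => by rw [hM]; split <;> simp [e])] at hdet
    exact zero_ne_one hdet
  apply SpecialLinearGroup.coeMonoidHom_injective
  simp only [map_mul, SpecialLinearGroup.coeMonoidHom_apply, SpecialLinearGroup.transvection_coe, mul_add,
    add_mul, mul_one, one_mul]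
  congr 1
  ext a b
  rw [Matrix.mul_apply, Matrix.mul_apply]
  simp only [Matrix.single_apply, hM]
  by_cases ha : a = i <;> by_cases hb : b = σ j
  all_goals simp [ha, hb, Ne.symm, eq_comm, σ.injective.eq_iff]
  all_goals first
    | (field_simp; done)
    | exact (Finset.sum_eq_zero fun x _ => by split_ifs <;> simp_all).symm

theorem diag_transvection {M : SLn} {d : Fin (n + 1) → K}
    (hM : (M : Matrix (Fin (n + 1)) (Fin (n + 1)) K) = Matrix.diagonal d)
    {i j : Fin (n + 1)} (hij : i ≠ j) (t : K) :
    M * SpecialLinearGroup.transvection hij t * M⁻¹ = SpecialLinearGroup.transvection hij (t * d i / d j) := by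
  rw [mul_inv_eq_iff_eq_mul]
  exact mono_transvection (σ := Equiv.refl _) (fun a b => by simp [hM, Matrix.diagonal_apply, eq_comm]) hij hij t

/-- The cycle `i ↦ i + 1`. -/
abbrev shift (n : ℕ) : Equiv.Perm (Fin (n + 1)) := Equiv.addRight 1

theorem w_mono {w : SLn}
    (hw : (w : Matrix (Fin (n + 1)) (Fin (n + 1)) K) =
      Matrix.of (fun i j => if j.val = i.val + 1 then 1 else if i.val = n ∧ j.val = 0 then (-1) ^ n else 0))
    (i j : Fin (n + 1)) :
    (w : Matrix (Fin (n + 1)) (Fin (n + 1)) K) i j =
      if j = shift n i then (if i.val = n then (-1) ^ n else 1) else 0 := by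
  have h : j = shift n i ↔ j.val = (i.val + 1) % (n + 1) := by
    rw [Fin.ext_iff]
    simp [Fin.val_add]
  simp only [hw, Matrix.of_apply, h]
  have := j.isLt
  have := i.isLt
  by_cases hi : i.val = n
  · rw [hi, Nat.mod_self]
    simp only [true_and, if_true]
    rw [if_neg (show ¬ j.val = n + 1 by omega)]
  · rw [Nat.mod_eq_of_lt (by omega)]
    simp [hi]

/-- The cyclic monomial matrix and one root group generate. -/
theorem eq_top [NeZero n] {w : SLn}
    (hw : (w : Matrix (Fin (n + 1)) (Fin (n + 1)) K) =
      Matrix.of (fun i j => if j.val = i.val + 1 then 1 else if i.val = n ∧ j.val = 0 then (-1) ^ n else 0))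
    {H : Subgroup SLn} (hwH : w ∈ H) (h01 : (0 : Fin (n + 1)) ≠ 1)
    (hT : ∀ t : K, SpecialLinearGroup.transvection h01 t ∈ H) : H = ⊤ := by
  classical
  haveI : Nontrivial (Fin (n + 1)) := ⟨⟨0, 1, h01⟩⟩
  let P : Fin (n + 1) → Prop := fun i => ∀ (h : i ≠ i + 1) (t : K), SpecialLinearGroup.transvection h t ∈ H
  have h0 : P 0 := fun h t => by
    have := hT t
    simp only [zero_add] at h ⊢
    convert this using 2
  have hstep : ∀ i, P (i + 1) → P i := by
    intro i hi h t
    have h' : i + 1 ≠ i + 1 + 1 := fun e => h (by simpa using e)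
    have e := mono_transvection (w_mono hw) h (σ := shift n) (i := i) (j := i + 1) h' 
    set c : Fin (n + 1) → K := fun i => if i.val = n then (-1) ^ n else 1 with hc
    have hc0 : ∀ i, c i ≠ 0 := fun i => by
      simp only [hc]
      split <;> simp
    have e2 := e (t * c (i + 1) / c i)
    have : t * c (i + 1) / c i * c i / c (i + 1) = t := by
      field_simp [hc0]
    rw [show ∀ x : K, x * (if i.val = n then (-1 : K) ^ n else 1) / (if (i + 1).val = n then (-1 : K) ^ n else 1) = x * c i / c (i + 1) from fun x => rfl, this] at e2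
    rw [← mul_inv_eq_iff_eq_mul] at e2
    rw [← e2]
    exact mul_mem (mul_mem hwH (hi h' _)) (inv_mem hwH)
  have hall : ∀ i, P i := by
    intro i
    induction i using Fin.reverseInduction with
    | last => exact hstep _ (by rw [Fin.last_add_one]; exact h0)
    | cast i ih => exact hstep _ (by rwa [Fin.coeSucc_eq_succ])
  have hfar : ∀ m : ℕ, 1 ≤ m → m ≤ n → ∀ (i : Fin (n + 1)) (h : i ≠ i + (m : Fin (n + 1))) (t : K),
      SpecialLinearGroup.transvection h t ∈ H := by
    intro m
    induction m with
    | zero => intro h1; omega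
    | succ m ih =>
      intro _ hmn i h t
      rcases Nat.eq_zero_or_pos m with rfl | hm
      · have := hall i (by simpa using h) t
        convert this using 2
      have hne : ∀ k : ℕ, 0 < k → k ≤ n → ∀ i : Fin (n + 1), i ≠ i + (k : Fin (n + 1)) := by
        intro k hk hkn i e
        have : (k : Fin (n + 1)) = 0 := by simpa using e.symm
        have := congrArg Fin.val this
        rw [Fin.val_natCast, Nat.mod_eq_of_lt (by omega), Fin.val_zero] at this
        omega
      have h1 : i ≠ i + (m : Fin (n + 1)) := hne m hm (by omega) i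
      have h2 : i + (m : Fin (n + 1)) ≠ i + (m : Fin (n + 1)) + 1 := by
        simpa using hne 1 one_pos (by omega) (i + (m : Fin (n + 1)))
      have h3 : i + (m : Fin (n + 1)) + 1 = i + ((m + 1 : ℕ) : Fin (n + 1)) := by push_cast; ring
      rw [transvection_eq_commutator h h1 (by rw [← h3]; exact h2) t, commutatorElement_def]
      have ha := ih hm (by omega) i h1 t
      have hb := hall (i + (m : Fin (n + 1))) h2 1
      have hb' : SpecialLinearGroup.transvection (show i + (m : Fin (n + 1)) ≠ i + ((m + 1 : ℕ) : Fin (n + 1)) by rw [← h3]; exact h2) (1 : K) ∈ H := by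
        convert hb using 2
        rw [h3]
      exact mul_mem (mul_mem (mul_mem ha hb') (inv_mem ha)) (inv_mem hb')
  refine sl_eq_top_of_transvection fun i j hij t => ?_
  have hv : 0 < (j - i).val := Nat.pos_of_ne_zero fun e => hij (sub_eq_zero.1 (Fin.ext (by simpa using e))).symm
  have hj : i + (((j - i).val : ℕ) : Fin (n + 1)) = j := by rw [Fin.cast_val_eq_self]; abel
  have := hfar _ hv (Nat.le_of_lt_succ (j - i).isLt) i (by rw [hj]; exact hij) t
  convert this using 2
  rw [hj]

/-- An additive subgroup closed under multiplication by the square of a generator of `Kˣ` is everything. -/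
theorem addSubgroup_eq_top [Fintype K] {k : Kˣ} (hk : ∀ u : Kˣ, u ∈ Subgroup.zpowers k)
    (A : AddSubgroup K) (hA : ∀ a ∈ A, (k : K) ^ 2 * a ∈ A) {b : K} (hb : b ∈ A) (hb0 : b ≠ 0) : A = ⊤ := by
  classical
  let B : AddSubgroup K :=
    { carrier := {c | ∀ a ∈ A, c * a ∈ A}
      zero_mem' := fun a _ => by simp
      add_mem' := fun {c d} hc hd a ha => by rw [add_mul]; exact A.add_mem (hc a ha) (hd a ha)
      neg_mem' := fun {c} hc a ha => by rw [neg_mul]; exact A.neg_mem (hc a ha) }
  have hpow : ∀ m : ℕ, ((k ^ 2) ^ m : Kˣ).val ∈ B := by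
    intro m
    induction m with
    | zero => intro a ha; simpa using ha
    | succ m ih =>
      intro a ha
      have := ih _ (hA a ha)
      rw [pow_succ, Units.val_mul, mul_assoc, Units.val_pow_eq_pow_val]
      simpa [Units.val_pow_eq_pow_val] using this
  have hord : orderOf k = Fintype.card K - 1 := by
    rw [orderOf_eq_card_of_forall_mem_zpowers hk, Nat.card_eq_fintype_card, Fintype.card_units]
  let f : Option (Fin (orderOf (k ^ 2))) → B := fun o =>
    o.elim 0 fun m => ⟨_, hpow m.val⟩
  have hf : Function.Injective f := by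
    rintro (_ | a) (_ | c) e
    · rfl
    · exact absurd (congrArg Subtype.val e).symm (by simp [f])
    · exact absurd (congrArg Subtype.val e) (by simp [f])
    · have := pow_injOn_Iio_orderOf (x := k ^ 2) a.isLt c.isLt (Units.ext (congrArg Subtype.val e))
      rw [Fin.ext this]
  have h1 := Nat.card_le_card_of_injective f hf
  rw [Nat.card_eq_fintype_card, Fintype.card_option, Fintype.card_fin, orderOf_pow, hord] at h1
  have h2 : Nat.gcd (Fintype.card K - 1) 2 ≤ 2 := Nat.le_of_dvd two_pos (Nat.gcd_dvd_right _ _)
  have h3 : Fintype.card K - 1 ≤ 2 * ((Fintype.card K - 1) / Nat.gcd (Fintype.card K - 1) 2) := by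
    conv_lhs => rw [← Nat.mul_div_cancel' (Nat.gcd_dvd_left (Fintype.card K - 1) 2)]
    exact Nat.mul_le_mul_right _ h2
  have h4 : B = ⊤ := by
    have hd := B.card_addSubgroup_dvd_card
    rw [Nat.card_eq_fintype_card (α := K)] at hd
    refine AddSubgroup.eq_top_of_card_eq B ?_
    rw [Nat.card_eq_fintype_card (α := K)]
    obtain ⟨d, hd⟩ := hd
    rcases d with _ | _ | d
    · have := Fintype.one_lt_card (α := K); omega
    · simpa using hd.symm
    · have : 2 * Nat.card B ≤ Fintype.card K := by rw [hd]; nlinarith
      omega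
  refine eq_top_iff.2 fun c _ => ?_
  have : c / b ∈ B := by rw [h4]; trivial
  simpa [hb0] using this b hb

end CfsgLib.Lie.SLCycle
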