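/-
The characters of degree q - 1 and (q - 1)/2 of SL(2, q), q odd, on a non-split torus.
-/
import Cfsg.Agent.Lib.LieSLTwoCuspidal

set_option autoImplicit false
set_option linter.unusedSectionVars false

namespace CfsgLib.Lie.SLTwoCusp

open Matrix Cfsg CfsgLib.Char CfsgLib.Lie.CharOrth CfsgLib.Lie.SLTwoPS CfsgLib.Dickson CfsgLib.Lie.SLTwoTable
open scoped ComplexConjugate

variable {F : Type*} [Field F] [Fintype F] [DecidableEq F]

local notation "q" => (Fintype.card F : ℂ)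

variable (hodd : Odd (Fintype.card F)) (C : Subgroup (SL F)) [hC : IsCyclic C]
  (hcard : Nat.card C = Fintype.card F + 1)

include hodd hcard

include hC in
theorem finite_dual : Finite (C →* ℂˣ) := by
  letI := IsCyclic.commGroup (α := C)
  refine Nat.finite_of_card_ne_zero ?_
  rw [CommGroup.card_monoidHom_of_hasEnoughRootsOfUnity C ℂ, hcard]
  exact Nat.succ_ne_zero _

theorem exists_omega (θ : C →* ℂˣ) : ∃ ω : MulChar F ℂ, ω (-1) = θ ⟨-1, neg_one_mem hodd C hcard⟩ := by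
  have hsq : (θ ⟨-1, neg_one_mem hodd C hcard⟩ : ℂ) ^ 2 = 1 := by
    rw [← Units.val_pow_eq_pow_val, ← map_pow,
      show (⟨-1, neg_one_mem hodd C hcard⟩ : C) ^ 2 = 1 from Subtype.ext (by simp), map_one, Units.val_one]
  rcases sq_eq_one_iff.1 hsq with e | e
  · exact ⟨1, by rw [e, MulChar.one_apply isUnit_one.neg]⟩
  · have hne : (-1 : F) ≠ 1 := fun h => two_ne_zero' hodd (by linear_combination -h)
    obtain ⟨α, hα⟩ := MulChar.exists_apply_ne_one_of_hasEnoughRootsOfUnity F ℂ hne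
    have h2 : α (-1) ^ 2 = 1 := by rw [← map_pow, neg_one_sq, map_one]
    exact ⟨α, by rw [e]; exact (sq_eq_one_iff.1 h2).resolve_left hα⟩

include hC in
theorem exists_gen : ∃ g : C, (∀ x : C, x ∈ Subgroup.zpowers g) ∧ orderOf g = Fintype.card F + 1 ∧ ¬ IsScal (g : SL F) := by
  obtain ⟨g, hg⟩ := IsCyclic.exists_generator (α := C)
  have hord : orderOf g = Fintype.card F + 1 := by rw [orderOf_eq_card_of_forall_mem_zpowers hg, hcard]
  refine ⟨g, hg, hord, fun hs => ?_⟩
  have h2 : g ^ 2 = 1 := by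
    rcases scal_cases hs with e | e
    · rw [show g = 1 from Subtype.ext e, one_pow]
    · exact Subtype.ext (by rw [SubmonoidClass.coe_pow, e]; simp)
  have := Nat.le_of_dvd two_pos (orderOf_dvd_of_pow_eq_one h2)
  have := Fintype.one_lt_card (α := F)
  omega

include hC in
/-- The character of order two of the torus. -/
theorem exists_sign : ∃ θ₀ : C →* ℂˣ, θ₀ ≠ 1 ∧ θ₀ * θ₀ = 1 ∧ (∀ θ : C →* ℂˣ, θ * θ = 1 → θ = 1 ∨ θ = θ₀) ∧
    ∀ x : C, ((x : SL F) ^ ((Fintype.card F + 1) / 2) = 1 → (θ₀ x : ℂ) = 1) ∧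
      ((x : SL F) ^ ((Fintype.card F + 1) / 2) ≠ 1 → (θ₀ x : ℂ) = -1) := by
  classical
  have h2 := two_ne_zero' (F := F) hodd
  obtain ⟨r, hr⟩ := hodd
  have hodd' : Odd (Fintype.card F) := ⟨r, hr⟩
  set m := (Fintype.card F + 1) / 2 with hm
  have hm2 : m * 2 = Fintype.card F + 1 := by omega
  have hpm : ∀ x : C, (x : SL F) ^ m = 1 ∨ (x : SL F) ^ m = -1 := fun x => by
    refine scal_cases (isScal_of_sq h2 ?_)
    rw [← pow_two, ← pow_mul, hm2, pow_card_eq hodd' C hcard x.2]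
  have hne : (-1 : SL F) ≠ 1 := fun e => h2 (by
    have := congrArg (fun y : SL F => y.1 0 0) e
    simp at this
    linear_combination -this)
  letI := IsCyclic.commGroup (α := C)
  let θ₀ : C →* ℂˣ :=
    { toFun := fun x => if (x : SL F) ^ m = 1 then 1 else -1
      map_one' := by simp
      map_mul' := fun x y => by
        have hxy : ((x * y : C) : SL F) ^ m = (x : SL F) ^ m * (y : SL F) ^ m := by
          rw [← SubmonoidClass.coe_pow, mul_pow]; rfl
        rw [hxy]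
        rcases hpm x with ex | ex <;> rcases hpm y with ey | ey <;> simp [ex, ey, hne] }
  have hv : ∀ x : C, ((x : SL F) ^ m = 1 → (θ₀ x : ℂ) = 1) ∧ ((x : SL F) ^ m ≠ 1 → (θ₀ x : ℂ) = -1) :=
    fun x => ⟨fun h => by simp [θ₀, h], fun h => by simp [θ₀, h]⟩
  obtain ⟨g, hg, hord, -⟩ := exists_gen hodd' C hcard
  have hgm : (g : SL F) ^ m ≠ 1 := fun e => by
    have := Nat.le_of_dvd (by omega) (orderOf_dvd_of_pow_eq_one (show g ^ m = 1 from Subtype.ext (by simpa using e)))
    omega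
  refine ⟨θ₀, fun e => ?_, ?_, fun θ hθ => ?_, hv⟩
  · have := (hv g).2 hgm
    rw [e, MonoidHom.one_apply, Units.val_one] at this
    norm_num at this
  · refine MonoidHom.ext fun x => Units.ext ?_
    rw [MonoidHom.mul_apply, MonoidHom.one_apply, Units.val_mul, Units.val_one]
    by_cases h : (x : SL F) ^ m = 1
    · rw [(hv x).1 h, one_mul]
    · rw [(hv x).2 h]; norm_num
  · have hsq : (θ g : ℂ) ^ 2 = 1 := by
      rw [sq, ← Units.val_mul, ← MonoidHom.mul_apply, hθ, MonoidHom.one_apply, Units.val_one]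
    have hext : ∀ φ : C →* ℂˣ, (φ g : ℂ) = θ g → φ = θ := fun φ h => MonoidHom.ext fun x => by
      obtain ⟨k, rfl⟩ := Subgroup.mem_zpowers_iff.1 (hg x)
      rw [map_zpow, map_zpow, Units.ext h]
    rcases sq_eq_one_iff.1 hsq with e | e
    · exact Or.inl (hext 1 (by simp [e])).symm
    · exact Or.inr (hext θ₀ (by rw [(hv g).2 hgm, e])).symm

include hC in
theorem X_inj {ω ω' : MulChar F ℂ} {θ φ : C →* ℂˣ} (h : X C ω θ = X C ω' φ) : φ = θ ∨ φ = θ⁻¹ := by
  obtain ⟨g, hg, -, hs⟩ := exists_gen hodd C hcard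
  have e := congrFun h (g : SL F)
  rw [X_torus hodd C hcard ω θ g hs, X_torus hodd C hcard ω' φ g hs, neg_inj, Units.val_inv_eq_inv_val,
    Units.val_inv_eq_inv_val] at e
  have ha := (θ g).ne_zero
  have hb := (φ g).ne_zero
  have hext : ∀ ψ : C →* ℂˣ, (φ g : ℂ) = ψ g → φ = ψ := fun ψ h => MonoidHom.ext fun x => by
    obtain ⟨k, rfl⟩ := Subgroup.mem_zpowers_iff.1 (hg x)
    rw [map_zpow, map_zpow, Units.ext h]
  have e' : ((φ g : ℂ) - θ g) * ((θ g : ℂ) * φ g - 1) = 0 := by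
    field_simp at e
    linear_combination -e
  rcases mul_eq_zero.1 e' with h1 | h1
  · exact Or.inl (hext θ (sub_eq_zero.1 h1))
  · refine Or.inr (hext θ⁻¹ ?_)
    rw [MonoidHom.inv_apply, Units.val_inv_eq_inv_val]
    exact eq_inv_of_mul_eq_one_right (sub_eq_zero.1 h1)

include hC in
/-- Surjectivity, together with the sum over all of them. -/
theorem param : ∃ T : Finset (IrrCharacter (SL F)), 2 * T.card = Fintype.card F - 1 ∧
    (∀ χ : IrrCharacter (SL F), χ ∈ T ↔ ((χ : SL F → ℂ) 1 = q - 1 ∧ avg (χ : SL F → ℂ) 1 = 0)) ∧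
    (∀ χ ∈ T, ∃ (ω : MulChar F ℂ) (θ : C →* ℂˣ), θ * θ ≠ 1 ∧ ω (-1) = θ ⟨-1, neg_one_mem hodd C hcard⟩ ∧
      (χ : SL F → ℂ) = X C ω θ) ∧
    ∀ θ₀ : C →* ℂˣ, θ₀ ≠ 1 → θ₀ * θ₀ = 1 → ∀ c : C, ¬ IsScal (c : SL F) →
      ∑ χ ∈ T, (χ : SL F → ℂ) (c : SL F) = 1 + θ₀ c := by
  classical
  haveI := finite_dual hodd C hcard
  haveI := Fintype.ofFinite (C →* ℂˣ)
  letI := IsCyclic.commGroup (α := C)
  choose om hom using exists_omega hodd C hcard
  obtain ⟨θ₁, hθ₁, hθ₁2, huniq, -⟩ := exists_sign hodd C hcard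
  let Θ := Finset.univ.filter fun θ : C →* ℂˣ => θ * θ ≠ 1
  have hΘcard : Θ.card + 2 = Fintype.card F + 1 := by
    have h : (Finset.univ.filter fun θ : C →* ℂˣ => ¬ θ * θ ≠ 1) = {1, θ₁} := by
      ext θ
      simp only [Finset.mem_filter, Finset.mem_univ, true_and, not_not, Finset.mem_insert, Finset.mem_singleton]
      exact ⟨huniq θ, fun h => by rcases h with rfl | rfl; exacts [one_mul (1 : C →* ℂˣ), hθ₁2]⟩
    have hc := Finset.card_filter_add_card_filter_not (s := (Finset.univ : Finset (C →* ℂˣ))) (fun θ => θ * θ ≠ 1)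
    rw [h, Finset.card_pair (Ne.symm hθ₁), Finset.card_univ, ← Nat.card_eq_fintype_card (α := C →* ℂˣ),
      CommGroup.card_monoidHom_of_hasEnoughRootsOfUnity C ℂ, hcard] at hc
    exact hc
  let Φ : (C →* ℂˣ) → IrrCharacter (SL F) := fun θ =>
    if h : θ * θ ≠ 1 then ⟨X C (om θ) θ, isIrr_X hodd C hcard _ θ (hom θ) h⟩ else ⟨fun _ => 1, isIrrCharacter_one⟩
  have hΦ : ∀ θ ∈ Θ, (Φ θ : SL F → ℂ) = X C (om θ) θ := fun θ hθ => by
    simp only [Φ, dif_pos (Finset.mem_filter.1 hθ).2]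
  let T := Θ.image Φ
  obtain ⟨ε, hε⟩ := exists_eps hodd
  obtain ⟨η, η', ξ, ξ', C₀, -, -, -, -, -, hC2, hC, hη, hξ, hall⟩ := table_odd ε hodd hε
  have hq1 : 1 < Fintype.card F := Fintype.one_lt_card
  have hmemC : ∀ χ : IrrCharacter (SL F), (χ : SL F → ℂ) 1 = q - 1 → avg (χ : SL F → ℂ) 1 = 0 → χ ∈ C₀ := by
    intro χ hd ha
    rcases hall χ with h | h | h | h | h | h | h | h
    · rw [h, avg_const] at ha; exact absurd ha one_ne_zero
    · rw [h, avg_st] at ha; exact absurd ha one_ne_zero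
    · obtain ⟨α, -, e⟩ := (mem_psSet χ).1 h
      rw [e, avg_ps_one] at ha; exact absurd ha two_ne_zero
    · rw [(hη χ (Or.inl h)).2.2.2 1, Units.val_one, map_one] at ha; exact absurd ha one_ne_zero
    · rw [(hη χ (Or.inr h)).2.2.2 1, Units.val_one, map_one] at ha; exact absurd ha one_ne_zero
    · exact h
    · have := (hξ χ (Or.inl h)).1
      rw [hd] at this
      exact absurd (show q - 1 = 0 by linear_combination this) q_sub_one_ne_zero
    · have := (hξ χ (Or.inr h)).1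
      rw [hd] at this
      exact absurd (show q - 1 = 0 by linear_combination this) q_sub_one_ne_zero
  have hsub : T ⊆ C₀ := fun χ hχ => by
    obtain ⟨θ, hθ, rfl⟩ := Finset.mem_image.1 hχ
    exact hmemC _ (by rw [hΦ θ hθ, X_one hodd C hcard]) (by rw [hΦ θ hθ, avg_X hodd C hcard _ _ (hom θ)])
  have hfib : ∀ χ ∈ T, (Θ.filter fun θ => Φ θ = χ).card ≤ 2 := by
    intro χ hχ
    obtain ⟨θ, hθ, rfl⟩ := Finset.mem_image.1 hχ
    refine (Finset.card_le_card (t := {θ, θ⁻¹}) fun φ hφ => ?_).trans Finset.card_le_two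
    obtain ⟨hφ', e⟩ := Finset.mem_filter.1 hφ
    have e' : X C (om θ) θ = X C (om φ) φ := by rw [← hΦ θ hθ, ← hΦ φ hφ', e]
    simpa using X_inj hodd C hcard e'
  have hle := Finset.card_le_mul_card_image Θ 2 hfib
  have hTle := Finset.card_le_card hsub
  have hle' : Θ.card ≤ 2 * T.card := hle
  have hTcard : T.card = C₀.card := by omega
  have hTeq : T = C₀ := Finset.eq_of_subset_of_card_le hsub hTcard.ge
  refine ⟨T, by omega, fun χ => ⟨fun h => ?_, fun h => hTeq ▸ hmemC χ h.1 h.2⟩, fun χ hχ => ?_, ?_⟩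
  · obtain ⟨h1, h2, -⟩ := hC χ (hTeq ▸ h)
    exact ⟨h1, h2⟩
  · obtain ⟨θ, hθ, rfl⟩ := Finset.mem_image.1 hχ
    exact ⟨om θ, θ, (Finset.mem_filter.1 hθ).2, hom θ, hΦ θ hθ⟩
  intro θ₀ hθ₀ hθ₀2 c hs
  have e01 : θ₀ = θ₁ := (huniq θ₀ hθ₀2).resolve_left hθ₀
  subst e01
  have hfib2 : ∀ χ ∈ T, (Θ.filter fun θ => Φ θ = χ).card = 2 := by
    intro χ hχ
    have hsum := Finset.card_eq_sum_card_image Φ Θ
    by_contra hne
    have hlt : ∑ b ∈ Θ.image Φ, (Θ.filter fun θ => Φ θ = b).card < ∑ _b ∈ Θ.image Φ, 2 :=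
      Finset.sum_lt_sum hfib ⟨χ, hχ, lt_of_le_of_ne (hfib χ hχ) hne⟩
    rw [← hsum, Finset.sum_const, smul_eq_mul] at hlt
    have hT' : (Θ.image Φ).card = T.card := rfl
    omega
  have h2 : 2 * ∑ χ ∈ T, (χ : SL F → ℂ) (c : SL F) = ∑ θ ∈ Θ, X C (om θ) θ (c : SL F) := by
    rw [Finset.mul_sum, ← Finset.sum_fiberwise_of_maps_to (t := T) (g := Φ) (fun θ hθ => Finset.mem_image_of_mem Φ hθ)]
    refine Finset.sum_congr rfl fun χ hχ => ?_
    rw [Finset.sum_congr rfl fun θ hθ => show X C (om θ) θ (c : SL F) = (χ : SL F → ℂ) c by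
      obtain ⟨hθ', e⟩ := Finset.mem_filter.1 hθ
      rw [← hΦ θ hθ', e], Finset.sum_const, hfib2 χ hχ, nsmul_eq_mul]
    norm_num
  have hc1 : c ≠ 1 := fun e => hs (by rw [e]; exact isScal_one)
  have hall0 : ∑ θ : C →* ℂˣ, (θ c : ℂ) = 0 := by
    obtain ⟨φ, hφ⟩ := CommGroup.exists_apply_ne_one_of_hasEnoughRootsOfUnity C ℂ hc1
    have e : (φ c : ℂ) * ∑ θ : C →* ℂˣ, (θ c : ℂ) = ∑ θ : C →* ℂˣ, (θ c : ℂ) := by
      rw [Finset.mul_sum]
      exact Fintype.sum_equiv (Equiv.mulLeft φ) _ _ fun θ => by simp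
    by_contra h0
    exact hφ (Units.ext ((mul_eq_right₀ h0).1 e))
  have hΘsum : ∑ θ ∈ Θ, (θ c : ℂ) = -1 - θ₀ c := by
    rw [← Finset.sum_filter_add_sum_filter_not Finset.univ (fun θ : C →* ℂˣ => θ * θ ≠ 1)] at hall0
    rw [show (Finset.univ.filter fun θ : C →* ℂˣ => ¬ θ * θ ≠ 1) = {1, θ₀} by
      ext θ
      simp only [Finset.mem_filter, Finset.mem_univ, true_and, not_not, Finset.mem_insert, Finset.mem_singleton]
      exact ⟨huniq θ, fun h => by rcases h with rfl | rfl; exacts [one_mul (1 : C →* ℂˣ), hθ₀2]⟩,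
      Finset.sum_pair (Ne.symm hθ₀), MonoidHom.one_apply, Units.val_one] at hall0
    linear_combination hall0
  have hinv : ∑ θ ∈ Θ, (((θ c)⁻¹ : ℂˣ) : ℂ) = ∑ θ ∈ Θ, (θ c : ℂ) := by
    refine Finset.sum_bij' (fun θ _ => θ⁻¹) (fun θ _ => θ⁻¹) ?_ ?_ (fun θ _ => inv_inv θ) (fun θ _ => inv_inv θ)
      (fun θ _ => rfl) <;>
    · intro θ hθ
      simp only [Θ, Finset.mem_filter, Finset.mem_univ, true_and] at hθ ⊢
      intro e
      refine hθ (MonoidHom.ext fun x => ?_)
      have e' := DFunLike.congr_fun e x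
      simpa only [MonoidHom.mul_apply, MonoidHom.inv_apply, MonoidHom.one_apply, ← mul_inv, inv_eq_one] using e'
  rw [Finset.sum_congr rfl (fun θ _ => X_torus hodd C hcard (om θ) θ c hs), Finset.sum_neg_distrib,
    Finset.sum_add_distrib, hinv, hΘsum] at h2
  linear_combination h2 / 2

include hC in
/-- A character of degree `(q - 1)/2` on the torus. -/
theorem half_value (h5 : 5 ≤ Fintype.card F) {χ : SL F → ℂ} (hχ : IsIrrCharacter (SL F) χ)
    (hdeg : χ 1 = (((Fintype.card F - 1) / 2 : ℕ) : ℂ)) (c : C) (hs : ¬ IsScal (c : SL F)) :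
    ((c : SL F) ^ ((Fintype.card F + 1) / 2) = 1 → χ c = -1) ∧
      ((c : SL F) ^ ((Fintype.card F + 1) / 2) ≠ 1 → χ c = 1) := by
  classical
  obtain ⟨θ₀, h0, h02, -, hv⟩ := exists_sign hodd C hcard
  obtain ⟨T, -, hT, -, hTsum⟩ := param hodd C hcard
  have hTs := hTsum θ₀ h0 h02 c hs
  obtain ⟨ε, hε⟩ := exists_eps hodd
  obtain ⟨η, η', ξ, ξ', C₀, -, hsum, ht, hne', ht', -, hC₀, hη, hξ, hall⟩ := table_odd ε hodd hε
  have hm := Nat.odd_iff.1 hodd
  have hh : 2 * (((Fintype.card F - 1) / 2 : ℕ) : ℂ) = q - 1 := by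
    rw [cast_q_sub_one, ← Nat.cast_ofNat, ← Nat.cast_mul, show 2 * ((Fintype.card F - 1) / 2) = Fintype.card F - 1 by omega]
  have hne := not_hasEig_iff.1 (no_eig hodd C hcard c.2 hs)
  have hdata := no_eigen_data hne
  obtain ⟨x, hx⟩ := isConj_iff.1 (twist_conj_of_tr ε (c : SL F) hdata.1 hdata.2)
  have hξξ : (ξ' : SL F → ℂ) c = (ξ : SL F → ℂ) c := by
    rw [ht', ← hx, isCharacter_classFunction ξ.2.isCharacter']
  have hηη : (η' : SL F → ℂ) c = (η : SL F → ℂ) c := by
    rw [ht, ← hx, isCharacter_classFunction η.2.isCharacter']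
  have hη0 : (η : SL F → ℂ) c = 0 := by
    have e : (η : SL F → ℂ) c + (η' : SL F → ℂ) c = ps sgn (c : SL F) := congrFun hsum _
    rw [hηη, ps_no_eigen _ hne] at e
    linear_combination e / 2
  let o : IrrCharacter (SL F) := ⟨fun _ => 1, isIrrCharacter_one⟩
  let t : IrrCharacter (SL F) := ⟨st, isIrr_st⟩
  have hξdeg : ∀ z, z = ξ ∨ z = ξ' → (z : SL F → ℂ) 1 = (((Fintype.card F - 1) / 2 : ℕ) : ℂ) := fun z hz => by
    linear_combination (hξ z hz).1 / 2 - hh / 2
  have hTC : ∀ z ∈ C₀, z ∈ T := fun z hz => (hT z).2 ⟨(hC₀ z hz).1, (hC₀ z hz).2.1⟩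
  have hzero : ∀ z ∈ (Finset.univ : Finset (IrrCharacter (SL F))), z ∉ ({o, t} ∪ T ∪ {ξ, ξ'}) →
      (z : SL F → ℂ) 1 * (z : SL F → ℂ) c = 0 := by
    intro z _ hz
    rcases hall z with h | h | h | rfl | rfl | h | h | h
    · exact absurd (by simp [o, Subtype.ext_iff, h]) hz
    · exact absurd (by simp [t, Subtype.ext_iff, h]) hz
    · obtain ⟨α, -, e⟩ := (mem_psSet z).1 h
      rw [e, ps_no_eigen α hne, mul_zero]
    · rw [hη0, mul_zero]
    · rw [hηη, hη0, mul_zero]
    · exact absurd (Finset.mem_union_left _ (Finset.mem_union_right _ (hTC z h))) hz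
    · exact absurd (by simp [h]) hz
    · exact absurd (by simp [h]) hz
  have hdT : ∀ z ∈ T, (z : SL F → ℂ) 1 = ((Fintype.card F - 1 : ℕ) : ℂ) := fun z hz => by
    rw [((hT z).1 hz).1, cast_q_sub_one]
  have ho : (o : SL F → ℂ) 1 = ((1 : ℕ) : ℂ) := by simp [o]
  have ht1 : (t : SL F → ℂ) 1 = ((Fintype.card F : ℕ) : ℂ) := st_one
  have hd1 : Disjoint ({o, t} : Finset (IrrCharacter (SL F))) T := Finset.disjoint_left.2 fun z h1 h2 => by
    simp only [Finset.mem_insert, Finset.mem_singleton] at h1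
    rcases h1 with rfl | rfl
    · have := Nat.cast_inj.1 (ho.symm.trans (hdT _ h2)); omega
    · have := Nat.cast_inj.1 (ht1.symm.trans (hdT _ h2)); omega
  have hd2 : Disjoint (({o, t} : Finset (IrrCharacter (SL F))) ∪ T) {ξ, ξ'} := Finset.disjoint_left.2 fun z h1 h2 => by
    simp only [Finset.mem_insert, Finset.mem_singleton] at h2
    have hz := hξdeg z h2
    rcases Finset.mem_union.1 h1 with h | h
    · simp only [Finset.mem_insert, Finset.mem_singleton] at h
      rcases h with rfl | rfl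
      · have := Nat.cast_inj.1 (ho.symm.trans hz); omega
      · have := Nat.cast_inj.1 (ht1.symm.trans hz); omega
    · have := Nat.cast_inj.1 ((hdT z h).symm.trans hz); omega
  have hot : o ≠ t := fun e => by
    have := Nat.cast_inj.1 (ho.symm.trans ((congrArg (fun z : IrrCharacter (SL F) => (z : SL F → ℂ) 1) e).trans ht1)); omega
  have hc1 : (c : SL F) ≠ 1 := fun e => hs (by rw [e]; exact isScal_one)
  have hcol := sum_degree_mul (G := SL F) (c : SL F)
  rw [if_neg hc1, ← Finset.sum_subset (Finset.subset_univ _) hzero, Finset.sum_union hd2, Finset.sum_union hd1,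
    Finset.sum_pair hot, Finset.sum_pair hne'] at hcol
  rw [Finset.sum_congr rfl (fun z hz => by rw [((hT z).1 hz).1]), ← Finset.mul_sum, hTs, hξdeg ξ (Or.inl rfl),
    hξdeg ξ' (Or.inr rfl), hξξ] at hcol
  have htc : st (c : SL F) = -1 := by rw [st_apply, ps_no_eigen _ hne, zero_sub]
  simp only [o, t, st_one, htc] at hcol
  have hv' : (ξ : SL F → ℂ) c = -(θ₀ c : ℂ) := by
    have : (q - 1) * ((ξ : SL F → ℂ) c + θ₀ c) = 0 := by
      linear_combination hcol - (ξ : SL F → ℂ) c * hh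
    exact eq_neg_of_add_eq_zero_left ((mul_eq_zero.1 this).resolve_left q_sub_one_ne_zero)
  have hχval : χ c = -(θ₀ c : ℂ) := by
    rcases hall ⟨χ, hχ⟩ with h | h | h | h | h | h | h | h
    · simp at h; rw [h] at hdeg; have := Nat.cast_inj.1 ((Nat.cast_one).trans hdeg); omega
    · simp at h; rw [h, st_one] at hdeg; have := Nat.cast_inj.1 hdeg; omega
    · obtain ⟨α, -, e⟩ := (mem_psSet _).1 h
      simp at e; rw [e, ps_one, cast_q_add_one] at hdeg; have := Nat.cast_inj.1 hdeg; omega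
    · have h1 := (hη _ (Or.inl h)).1
      simp only at h1
      rw [hdeg, hh] at h1
      exact absurd (show (2 : ℂ) = 0 by linear_combination -h1) two_ne_zero
    · have h1 := (hη _ (Or.inr h)).1
      simp only at h1
      rw [hdeg, hh] at h1
      exact absurd (show (2 : ℂ) = 0 by linear_combination -h1) two_ne_zero
    · have h1 := (hC₀ _ h).1
      simp only at h1
      rw [hdeg, cast_q_sub_one] at h1; have := Nat.cast_inj.1 h1; omega
    · rw [← hv', ← h]
    · rw [← hv', ← hξξ, ← h]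
  exact ⟨fun h => by rw [hχval, (hv c).1 h], fun h => by rw [hχval, (hv c).2 h, neg_neg]⟩

include hC in
/-- Three elements. -/
theorem three_torus (h3 : Fintype.card F = 3) (θ : C →* ℂˣ) (hθ : θ * θ ≠ 1) (c : C) (hs : ¬ IsScal (c : SL F)) :
    (θ c : ℂ) + ((θ c)⁻¹ : ℂˣ) = 0 := by
  obtain ⟨g, hg, -, hgs⟩ := exists_gen hodd C hcard
  have hF3 : (3 : F) = 0 := by
    have h := Nat.cast_card_eq_zero F
    rw [h3] at h
    exact_mod_cast h
  have hsq : ∀ x : C, ¬ IsScal (x : SL F) → x * x = ⟨-1, neg_one_mem hodd C hcard⟩ := fun x hx => by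
    have h4 := (no_eigen_data (not_hasEig_iff.1 (no_eig hodd C hcard x.2 hx))).2.resolve_left (two_ne_zero' hodd)
    refine Subtype.ext (SLTwoClasses.mul_self_eq_neg_one ?_)
    show SLTwoTrace.tr (x : SL F) = 0
    by_contra h0
    have := FiniteField.pow_card_sub_one_eq_one _ h0
    rw [h3] at this
    exact h4 (by linear_combination this - hF3)
  have hne : (θ g : ℂ) * θ g ≠ 1 := fun e => hθ (MonoidHom.ext fun x => by
    obtain ⟨k, rfl⟩ := Subgroup.mem_zpowers_iff.1 (hg x)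
    rw [map_zpow, show (θ * θ) g = 1 from Units.ext e, _root_.one_zpow, MonoidHom.one_apply])
  have hm : (θ c : ℂ) * θ c = θ g * θ g := by
    rw [← Units.val_mul, ← Units.val_mul, ← map_mul, ← map_mul, hsq c hs, hsq g hgs]
  have h1 : ((θ g : ℂ) * θ g) ^ 2 = 1 := by
    rw [← Units.val_mul, ← map_mul, ← Units.val_pow_eq_pow_val, ← map_pow, hsq g hgs,
      show (⟨-1, neg_one_mem hodd C hcard⟩ : C) ^ 2 = 1 from Subtype.ext (by simp), map_one, Units.val_one]
  have hm1 : (θ c : ℂ) * θ c = -1 := hm.trans ((sq_eq_one_iff.1 h1).resolve_left hne)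
  rw [Units.val_inv_eq_inv_val]
  have hc0 := (θ c).ne_zero
  field_simp
  linear_combination hm1

omit hcard in
include hodd in
/-- The characters of degree `q - 1`. -/
theorem deg_sub_one (χ : SL F → ℂ) (hχ : IsIrrCharacter (SL F) χ) (hd : χ 1 = q - 1) :
    avg χ 1 = 0 ∨ (Fintype.card F = 3 ∧
      ∀ g : SL F, (∀ (c : F) (v : Fin 2 → F), v ≠ 0 → g.1.mulVec v ≠ c • v) → χ g = 0) := by
  classical
  obtain ⟨ε, hε⟩ := exists_eps hodd
  have hm := Nat.odd_iff.1 hodd
  have := Fintype.one_lt_card (α := F)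
  rw [cast_q_sub_one] at hd
  rcases kinds_odd hodd ε hε χ hχ with ⟨-, h⟩ | ⟨-, h⟩ | ⟨-, h⟩ | ⟨h, -, -, -, hv⟩ | ⟨-, h, -⟩ | ⟨h, -⟩
  · have := Nat.cast_inj.1 (h.symm.trans hd); omega
  · have := Nat.cast_inj.1 (h.symm.trans hd); omega
  · have := Nat.cast_inj.1 (h.symm.trans hd); omega
  · have := Nat.cast_inj.1 (h.symm.trans hd)
    refine Or.inr ⟨by omega, fun g hg => ?_⟩
    obtain ⟨hs, ht⟩ := no_eigen_data hg
    have e := hv g hs ht
    rw [ps_no_eigen _ hg] at e
    exact (mul_eq_zero.1 e).resolve_left two_ne_zero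
  · exact Or.inl h
  · have := Nat.cast_inj.1 (h.symm.trans hd); omega

omit hcard hC in
include hodd in
/-- An element without eigenvector lies in a cyclic subgroup of order `q + 1`. -/
theorem exists_torus_of_no_eig {g : SL F} (hg : ¬ HasEig g) :
    ∃ C : Subgroup (SL F), IsCyclic C ∧ Nat.card C = Fintype.card F + 1 ∧ g ∈ C := by
  classical
  obtain ⟨hs, hdata⟩ := no_eigen_data (not_hasEig_iff.1 hg)
  have h2 := two_ne_zero' (F := F) hodd
  have ht4 := hdata.resolve_left h2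
  by_cases h4 : 4 ≤ Fintype.card F
  · obtain ⟨p, hp⟩ := CharP.exists F
    obtain ⟨n, hpp, -⟩ := FiniteField.card F p
    haveI := Fact.mk hpp
    have hord : ¬ p ∣ orderOf g := by
      intro hd
      have hk : orderOf (g ^ (orderOf g / p)) = p := by
        rw [orderOf_pow' _ (Nat.div_pos (Nat.le_of_dvd (orderOf_pos g) hd) hpp.pos).ne',
          Nat.gcd_eq_right (Nat.div_dvd_of_dvd hd), Nat.div_div_self hd (orderOf_pos g).ne']
      set v := g ^ (orderOf g / p)
      have hv1 : v ^ (p ^ 1) = 1 := by rw [pow_one, ← hk, pow_orderOf_eq_one]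
      have htr := trace_of_pow hv1
      obtain ⟨β, b1, b2, b3⟩ := exists_coeff hs (g := v) ((Commute.refl g).pow_left _)
      have hβ : β ≠ 0 := fun e => by
        rw [e, zero_mul] at b1 b2 b3
        have hone : v = 1 := sl_ext (mul_left_cancel₀ h2 (by simp; linear_combination htr + b3)) (by simpa using b1)
          (by simpa using b2) (mul_left_cancel₀ h2 (by simp; linear_combination htr - b3))
        rw [hone, orderOf_one] at hk
        exact hpp.ne_one hk.symm
      have hdet : (v.1 - (1 : Matrix (Fin 2) (Fin 2) F)).det = 0 := by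
        rw [Matrix.det_fin_two]
        simp
        linear_combination det_eq v - htr
      obtain ⟨w, hw, hw'⟩ := Matrix.exists_mulVec_eq_zero_iff.2 hdet
      set α := v.1 0 0 - β * g.1 0 0 with hα
      have hv : v.1 = α • (1 : Matrix (Fin 2) (Fin 2) F) + β • g.1 := by
        ext i j
        fin_cases i <;> fin_cases j <;> simp [hα]
        · linear_combination b1
        · linear_combination b2
        · linear_combination -b3
      rw [Matrix.sub_mulVec, sub_eq_zero, hv, Matrix.add_mulVec, Matrix.smul_mulVec, Matrix.smul_mulVec,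
        Matrix.one_mulVec] at hw'
      refine hg ⟨(1 - α) / β, w, hw, ?_⟩
      funext i
      have e := congrFun hw' i
      simp only [Pi.add_apply, Pi.smul_apply, smul_eq_mul] at e ⊢
      field_simp
      linear_combination e
    obtain ⟨hcyc, -, hcd, -⟩ := torus_data rfl h4 hs hord
    refine ⟨_, hcyc, hcd fun r hr => hg ?_, Subgroup.mem_centralizer_singleton_iff.2 rfl⟩
    have hdet : (g.1 - (-r) • (1 : Matrix (Fin 2) (Fin 2) F)).det = 0 := by
      rw [Matrix.det_fin_two]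
      simp
      linear_combination hr + det_eq g
    obtain ⟨w, hw, hw'⟩ := Matrix.exists_mulVec_eq_zero_iff.2 hdet
    rw [Matrix.sub_mulVec, sub_eq_zero, Matrix.smul_mulVec, Matrix.one_mulVec] at hw'
    exact ⟨-r, w, hw, hw'⟩
  · have hm := Nat.odd_iff.1 hodd
    have := Fintype.one_lt_card (α := F)
    have h3 : Fintype.card F = 3 := by omega
    have hF3 : (3 : F) = 0 := by
      have h := Nat.cast_card_eq_zero F
      rw [h3] at h
      exact_mod_cast h
    set t := SLTwoTrace.tr g with ht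
    have ht0 : t = 0 := by
      by_contra h0
      have := FiniteField.pow_card_sub_one_eq_one t h0
      rw [h3] at this
      exact ht4 (by linear_combination this - hF3)
    have hgg : g * g = -1 := SLTwoClasses.mul_self_eq_neg_one ht0
    have hne : (-1 : SL F) ≠ 1 := fun e => h2 (by
      have := congrArg (fun y : SL F => y.1 0 0) e
      simp at this
      linear_combination -this)
    have hord : orderOf g = 4 := by
      refine orderOf_eq_prime_pow (p := 2) (n := 1) ?_ ?_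
      · rw [pow_one, sq, hgg]; exact hne
      · rw [show (2 : ℕ) ^ (1 + 1) = 2 * 2 from rfl, pow_mul, sq g, hgg, neg_one_sq]
    exact ⟨Subgroup.zpowers g, inferInstance, by rw [Nat.card_zpowers, hord, h3], Subgroup.mem_zpowers g⟩

end CfsgLib.Lie.SLTwoCusp
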