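/-
Centralisers of regular elements of SL(2, q), q odd, their normalisers, and Sylow subgroups for odd primes
dividing q ± 1.
-/
import Cfsg.Agent.Lib.LieSLTwoTrace
import Cfsg.Agent.Lib.ClassicalSLTwoClasses
import Mathlib.GroupTheory.GroupAction.CardCommute

set_option autoImplicit false
set_option linter.unusedSectionVars false

namespace CfsgLib.Lie.SLTwoTorusNorm

open Matrix CfsgLib.Dickson CfsgLib.Lie.SLTwoTrace

attribute [local instance] _root_.Classical.propDecidable

/-- A group with an abelian subgroup `T` of index two, inverted by every outside element, with two elements `a` of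
`T` equal to their inverses. -/
theorem classes_of_inverted {G : Type*} [Group G] [Finite G] (T N : Subgroup G) (g : G)
    (hN : ∀ x, x ∈ N ↔ x ∈ T ∨ x * g⁻¹ ∈ T) (hgT : g ∉ T) (hab : ∀ a ∈ T, ∀ b ∈ T, a * b = b * a)
    (hinv : ∀ a ∈ T, g * a * g⁻¹ = a⁻¹) (h2 : Nat.card {a : T // a ^ 2 = 1} = 2) :
    Nat.card N = 2 * Nat.card T ∧ Nat.card (ConjClasses N) * 2 = Nat.card T + 6 := by
  have hpush : ∀ a ∈ T, g * a = a⁻¹ * g := fun a ha => by rw [← hinv a ha]; group
  let f : Bool × T → N := fun p => bif p.1 then ⟨p.2 * g, (hN _).2 (Or.inr (by rw [mul_inv_cancel_right]; exact p.2.2))⟩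
    else ⟨p.2, (hN _).2 (Or.inl p.2.2)⟩
  have hf : Function.Bijective f := by
    refine ⟨?_, fun x => ?_⟩
    · rintro ⟨s, a⟩ ⟨u, b⟩ e
      have e' := congrArg Subtype.val e
      cases s <;> cases u <;> simp only [f, cond_true, cond_false] at e'
      · rw [Subtype.ext e']
      · exact absurd (by rw [show g = (b : G)⁻¹ * (a : G) by rw [e', inv_mul_cancel_left]]; exact mul_mem (inv_mem b.2) a.2) hgT
      · exact absurd (by rw [show g = (a : G)⁻¹ * (b : G) by rw [← e', inv_mul_cancel_left]]; exact mul_mem (inv_mem a.2) b.2) hgT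
      · rw [Subtype.ext (mul_right_cancel e')]
    · rcases (hN _).1 x.2 with h | h
      · exact ⟨(false, ⟨_, h⟩), rfl⟩
      · exact ⟨(true, ⟨_, h⟩), Subtype.ext (inv_mul_cancel_right _ _)⟩
  let e := Equiv.ofBijective f hf
  have hcard : Nat.card N = 2 * Nat.card T := by
    rw [← Nat.card_congr e, Nat.card_prod, Nat.card_eq_fintype_card, Fintype.card_bool]
  refine ⟨hcard, ?_⟩
  have hsq : ∀ a : T, a ^ 2 = 1 ↔ (a : G)⁻¹ = a := fun a => by
    rw [sq, mul_eq_one_iff_eq_inv, Subtype.ext_iff, InvMemClass.coe_inv, eq_comm]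
  have hcomm : ∀ p q : Bool × T, Commute (e p) (e q) ↔ (bif p.1 then (bif q.1 then (p.2 * q.2⁻¹) ^ 2 = 1 else q.2 ^ 2 = 1)
      else (bif q.1 then p.2 ^ 2 = 1 else True)) := by
    rintro ⟨s, a⟩ ⟨u, b⟩
    have hc : Commute (e (s, a)) (e (u, b)) ↔ (e (s, a) : G) * e (u, b) = e (u, b) * e (s, a) :=
      ⟨fun h => congrArg Subtype.val h, fun h => Subtype.ext h⟩
    rw [hc]
    cases s <;> cases u <;> simp only [e, f, Equiv.ofBijective_apply, cond_true, cond_false, hsq]
    · exact iff_of_true (hab _ a.2 _ b.2) trivial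
    · rw [show (b : G) * g * a = (a : G)⁻¹ * b * g by rw [mul_assoc, hpush _ a.2, ← mul_assoc, hab _ b.2 _ (inv_mem a.2)],
        ← mul_assoc, mul_left_inj, mul_left_inj, eq_comm]
    · rw [show (a : G) * g * b = (b : G)⁻¹ * a * g by rw [mul_assoc, hpush _ b.2, ← mul_assoc, hab _ a.2 _ (inv_mem b.2)],
        ← mul_assoc, mul_left_inj, mul_left_inj]
    · rw [show (a : G) * g * (b * g) = a * (b : G)⁻¹ * (g * g) by rw [mul_assoc, ← mul_assoc g, hpush _ b.2]; group,
        show (b : G) * g * (a * g) = b * (a : G)⁻¹ * (g * g) by rw [mul_assoc, ← mul_assoc g, hpush _ a.2]; group,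
        mul_left_inj]
      push_cast
      rw [_root_.mul_inv_rev, inv_inv, eq_comm]
  have hpairs : Nat.card {p : N × N // Commute p.1 p.2} = Nat.card T * Nat.card T + 6 * Nat.card T := by
    rw [Nat.card_congr ((Equiv.subtypeEquiv (Equiv.prodCongr e e) (q := fun p : N × N => Commute p.1 p.2)
      (fun pq => (hcomm pq.1 pq.2).symm)).symm)]
    rw [Nat.card_congr (show {pq : (Bool × T) × (Bool × T) // (bif pq.1.1 then (bif pq.2.1 then (pq.1.2 * pq.2.2⁻¹) ^ 2 = 1 else pq.2.2 ^ 2 = 1)
        else (bif pq.2.1 then pq.1.2 ^ 2 = 1 else True))} ≃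
        ((T × T) ⊕ ({a : T // a ^ 2 = 1} × T)) ⊕ (({a : T // a ^ 2 = 1} × T) ⊕ ({a : T // a ^ 2 = 1} × T)) from
      { toFun := fun x => match x with
          | ⟨((false, a), (false, c)), _⟩ => .inl (.inl (a, c))
          | ⟨((false, a), (true, c)), h⟩ => .inl (.inr (⟨a, h⟩, c))
          | ⟨((true, a), (false, c)), h⟩ => .inr (.inl (⟨c, h⟩, a))
          | ⟨((true, a), (true, c)), h⟩ => .inr (.inr (⟨a * c⁻¹, h⟩, c))
        invFun := fun y => match y with
          | .inl (.inl (a, c)) => ⟨((false, a), (false, c)), trivial⟩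
          | .inl (.inr (a, c)) => ⟨((false, a.1), (true, c)), a.2⟩
          | .inr (.inl (c, a)) => ⟨((true, a), (false, c.1)), c.2⟩
          | .inr (.inr (u, c)) => ⟨((true, u.1 * c), (true, c)), (mul_inv_cancel_right u.1 c).symm ▸ u.2⟩
        left_inv := fun x => by
          obtain ⟨⟨⟨s, a⟩, ⟨t, c⟩⟩, h⟩ := x
          cases s <;> cases t <;> simp
        right_inv := fun y => by
          rcases y with (⟨a, c⟩ | ⟨a, c⟩) | (⟨a, c⟩ | ⟨a, c⟩) <;> simp })]
    simp only [Nat.card_sum, Nat.card_prod, h2]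
    ring
  have h := card_comm_eq_card_conjClasses_mul_card N
  rw [hpairs, hcard] at h
  refine Nat.eq_of_mul_eq_mul_right (show 0 < Nat.card T from Nat.card_pos) ?_
  rw [mul_assoc, ← h]
  ring

variable {F : Type*} [Field F] [Fintype F] {p : ℕ} [hp : Fact p.Prime] [CharP F p]

include hp

theorem neg_one_ne (h2 : (2 : F) ≠ 0) : (-1 : SL F) ≠ 1 := fun e => h2 (by
  have h := congrArg (fun x : SL F => x.1 0 0) e
  simp at h
  linear_combination -h)

/-- A regular element with an inverter. -/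
theorem package (hp2 : p ≠ 2) {C g : SL F} (hC : ¬ IsScal C) (hord : ¬ p ∣ orderOf C)
    (hg : g * C = C⁻¹ * g) (hgg : g * g = -1)
    (hcyc : IsCyclic (Subgroup.centralizer ({C} : Set (SL F)))) :
    let T := Subgroup.centralizer ({C} : Set (SL F))
    Subgroup.centralizer (T : Set (SL F)) = T ∧
    (∀ a ∈ T, ∀ b ∈ T, a * b = b * a) ∧
    (∀ x ∈ T, ¬ IsScal x → Subgroup.centralizer ({x} : Set (SL F)) = T) ∧
    g ∉ T ∧ (∀ a ∈ T, g * a * g⁻¹ = a⁻¹) ∧
    (∀ x, x ∈ Subgroup.normalizer (T : Set (SL F)) ↔ x ∈ T ∨ x * g⁻¹ ∈ T) ∧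
    (∀ x, x * C * x⁻¹ ∈ T → x ∈ Subgroup.normalizer (T : Set (SL F))) ∧
    Nat.card (Subgroup.normalizer (T : Set (SL F))) = 2 * Nat.card T ∧
    Nat.card (ConjClasses (Subgroup.normalizer (T : Set (SL F)))) * 2 = Nat.card T + 6 ∧
    ∀ x ∈ Subgroup.normalizer (T : Set (SL F)), x ∉ T → x * x = -1 := by
  intro T
  have h2 := two_ne_zero_of_char (F := F) hp2
  have hmT : ∀ x, x ∈ T ↔ Commute x C := fun x => Subgroup.mem_centralizer_singleton_iff
  have hCT : C ∈ T := (hmT C).2 (Commute.refl C)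
  have hab : ∀ a ∈ T, ∀ b ∈ T, a * b = b * a := fun a ha b hb =>
    commute_of_commute hC ((hmT a).1 ha) ((hmT b).1 hb)
  have hcent : ∀ x ∈ T, ¬ IsScal x → Subgroup.centralizer ({x} : Set (SL F)) = T := fun x hx hxs =>
    CfsgLib.SLTwoClasses.cent_eq_of_commute hxs hC ((hmT x).1 hx)
  have hgT : g ∉ T := fun h => by
    have h1 : C * g = C⁻¹ * g := by rw [← hg]; exact ((hmT g).1 h).eq.symm
    have hv := congrArg Subtype.val (mul_right_cancel h1).symm
    rw [Matrix.SpecialLinearGroup.coe_inv, Matrix.adjugate_fin_two] at hv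
    have e01 := congrFun (congrFun hv 0) 1
    have e10 := congrFun (congrFun hv 1) 0
    have e00 := congrFun (congrFun hv 0) 0
    simp at e01 e10 e00
    exact hC ⟨mul_left_cancel₀ h2 (by linear_combination -e01), mul_left_cancel₀ h2 (by linear_combination -e10),
      e00.symm⟩
  have hinv : ∀ a ∈ T, g * a * g⁻¹ = a⁻¹ := by
    intro a ha
    haveI := hcyc
    obtain ⟨G, hG⟩ := IsCyclic.exists_generator (α := T)
    have hGs : ¬ IsScal (G : SL F) := by
      intro hs
      apply hC
      obtain ⟨i, hi⟩ := hG ⟨C, hCT⟩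
      have e : C = (G : SL F) ^ i := by rw [← SubgroupClass.coe_zpow]; exact congrArg Subtype.val hi.symm
      exact mem_center_iff_isScal.1 (e ▸ zpow_mem (mem_center_iff_isScal.2 hs) i)
    have hgC : g * C * g⁻¹ ∈ T := by rw [hg, mul_inv_cancel_right]; exact inv_mem hCT
    have hGn : Commute (g * G * g⁻¹) G := by
      refine (commute_of_commute hC ?_ ((hmT _).1 G.2))
      have := (((hmT _).1 G.2).map (MulAut.conj g).toMonoidHom)
      simp only [MulEquiv.coe_toMonoidHom, MulAut.conj_apply, hg, mul_inv_cancel_right] at this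
      simpa using this.inv_right
    have hordG : ¬ p ∣ orderOf (G : SL F) := fun hd => by
      have hGC : Commute (G : SL F) C := (hmT _).1 G.2
      obtain ⟨i, hi⟩ := hG ⟨C, hCT⟩
      set v := (G : SL F) ^ (orderOf (G : SL F) / p) with hv
      have hvo : orderOf v = p := orderOf_pow_orderOf_div (orderOf_pos _).ne' hd
      obtain ⟨b, hb, hconj⟩ := CfsgLib.SLTwoClasses.exists_conj_upperU p hvo
      have hvs : ¬ IsScal v := fun hs => by
        have e1 : v * v = 1 := by
          rcases CfsgLib.Classical.eq_one_or_neg_one_of_isScal hs with e | e <;> rw [e] <;> simp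
        have := orderOf_le_of_pow_eq_one two_pos (show v ^ 2 = 1 by rw [sq, e1])
        have := hp.out.two_le
        omega
      have hcC : Subgroup.centralizer ({C} : Set (SL F)) = Subgroup.centralizer ({v} : Set (SL F)) :=
        CfsgLib.SLTwoClasses.cent_eq_of_commute hC hvs ((hGC.pow_left _).symm)
      have hcard := CfsgLib.SLTwoClasses.card_cent_upperU hb
      rw [CfsgLib.SLTwoClasses.card_cent_conj hconj, ← hcC, (CfsgLib.SLTwoClasses.card_roots (F := F)).2 h2] at hcard
      -- `C` lies in a group of order `2q`, so its square is scalar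
      have hdvd := Subgroup.orderOf_dvd_natCard (Subgroup.centralizer ({C} : Set (SL F))) hCT
      rw [hcard] at hdvd
      obtain ⟨n, -, hn⟩ := FiniteField.card F p
      rw [hn] at hdvd
      have h12 : orderOf C ∣ 2 := ((hp.out.coprime_iff_not_dvd.2 hord).symm.pow_right (n : ℕ)).dvd_of_dvd_mul_right hdvd
      have hCC : C * C = 1 := by rw [← sq]; exact orderOf_dvd_iff_pow_eq_one.1 h12
      refine hgT ((hmT g).2 ?_)
      show g * C = C * g
      rw [hg, inv_eq_of_mul_eq_one_right hCC]
    rcases conj_eq_or_inv hp2 hGs hordG hGn with e | e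
    · exfalso
      apply hgT
      rw [← hcent _ G.2 hGs]
      exact Subgroup.mem_centralizer_singleton_iff.2 (mul_inv_eq_iff_eq_mul.1 e)
    · obtain ⟨i, hi⟩ := hG ⟨a, ha⟩
      have e' : a = (G : SL F) ^ i := by rw [← SubgroupClass.coe_zpow]; exact congrArg Subtype.val hi.symm
      rw [e', ← conj_zpow, e, _root_.inv_zpow]
  have hconjC : ∀ x, x * C * x⁻¹ ∈ T → x ∈ T ∨ x * g⁻¹ ∈ T := fun x hx => by
    rcases conj_eq_or_inv hp2 hC hord ((hmT _).1 hx) with e | e
    · exact Or.inl ((hmT x).2 (mul_inv_eq_iff_eq_mul.1 e))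
    · refine Or.inr ((hmT _).2 ?_)
      show x * g⁻¹ * C = C * (x * g⁻¹)
      have hgi : g⁻¹ * C = C⁻¹ * g⁻¹ := by
        have := congrArg (fun y : SL F => y⁻¹) hg
        simpa using this.symm
      rw [mul_assoc, hgi, ← mul_assoc, ← mul_assoc, show x * C⁻¹ = C * x from ?_]
      calc x * C⁻¹ = (x * C * x⁻¹)⁻¹ * x := by group
        _ = C * x := by rw [e, inv_inv]
  have hN : ∀ x, x ∈ Subgroup.normalizer (T : Set (SL F)) ↔ x ∈ T ∨ x * g⁻¹ ∈ T := by
    refine fun x => ⟨fun hx => hconjC x ((Subgroup.mem_normalizer_iff.1 hx C).1 hCT), ?_⟩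
    rintro (hx | hx)
    · exact Subgroup.le_normalizer hx
    · rw [show x = x * g⁻¹ * g by group]
      refine mul_mem (Subgroup.le_normalizer hx) (Subgroup.mem_normalizer_iff.2 fun a => ⟨fun ha => ?_, fun ha => ?_⟩)
      · rw [hinv a ha]; exact inv_mem ha
      · have := hinv _ ha
        have e : a = (g * (g * a * g⁻¹) * g⁻¹) := by
          rw [show g * (g * a * g⁻¹) * g⁻¹ = (g * g) * a * (g * g)⁻¹ by group, hgg,
            (neg_one_isScal.commute a).eq, mul_inv_cancel_right]
        rw [e, this]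
        exact inv_mem ha
  have hsq2 : Nat.card {a : T // a ^ 2 = 1} = 2 := by
    have hneg : (-1 : SL F) ∈ T := (hmT _).2 (neg_one_isScal.commute C)
    rw [Nat.card_eq_two_iff]
    refine ⟨⟨1, one_pow 2⟩, ⟨⟨-1, hneg⟩, Subtype.ext (by simp)⟩, ?_, ?_⟩
    · intro e
      exact neg_one_ne (p := p) h2 (congrArg (fun z : {a : T // a ^ 2 = 1} => ((z : T) : SL F)) e).symm
    · refine Set.eq_univ_of_forall fun a => ?_
      have h : (a.1 : SL F) * a.1 = 1 := by rw [← sq, ← SubmonoidClass.coe_pow, a.2]; rfl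
      have hs : IsScal (a.1 : SL F) := by
        have hy : (a.1 : SL F)⁻¹ = (a.1 : SL F) := (eq_inv_of_mul_eq_one_left h).symm
        have hv := congrArg Subtype.val hy
        rw [Matrix.SpecialLinearGroup.coe_inv, Matrix.adjugate_fin_two] at hv
        have e01 := congrFun (congrFun hv 0) 1
        have e10 := congrFun (congrFun hv 1) 0
        have e00 := congrFun (congrFun hv 0) 0
        simp at e01 e10 e00
        exact ⟨mul_left_cancel₀ h2 (by linear_combination -e01), mul_left_cancel₀ h2 (by linear_combination -e10),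
          e00.symm⟩
      rcases CfsgLib.Classical.eq_one_or_neg_one_of_isScal hs with e | e
      · exact Or.inl (Subtype.ext (Subtype.ext e))
      · exact Or.inr (Subtype.ext (Subtype.ext e))
  obtain ⟨hc1, hc2⟩ := classes_of_inverted T _ g hN hgT hab hinv hsq2
  refine ⟨?_, hab, hcent, hgT, hinv, hN, fun x hx => (hN x).2 (hconjC x hx), hc1, hc2, fun x hx hxT => ?_⟩
  · refine le_antisymm (fun x hx => ?_) fun x hx => Subgroup.mem_centralizer_iff.2 fun y hy => hab y hy x hx
    exact Subgroup.mem_centralizer_singleton_iff.2 (Subgroup.mem_centralizer_iff.1 hx C hCT).symm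
  · have hb := ((hN x).1 hx).resolve_left hxT
    have : x * x = x * g⁻¹ * (g * (x * g⁻¹) * g⁻¹) * (g * g) := by group
    rw [this, hinv _ hb, mul_inv_cancel, one_mul, hgg]

/-- A non-split torus, `q ≥ 3` odd. -/
theorem nonsplit (hp2 : p ≠ 2) :
    ∃ (C g : SL F), ¬ IsScal C ∧ ¬ p ∣ orderOf C ∧ g * C = C⁻¹ * g ∧ g * g = -1 ∧
      IsCyclic (Subgroup.centralizer ({C} : Set (SL F))) ∧
      Nat.card (Subgroup.centralizer ({C} : Set (SL F))) = Fintype.card F + 1 ∧
      ∀ r : F, r ^ 2 + r * tr C + 1 ≠ 0 := by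
  have h2 := two_ne_zero_of_char (F := F) hp2
  have hodd := odd_card h2
  have h1 := Fintype.one_lt_card (α := F)
  by_cases h4 : 4 ≤ Fintype.card F
  · obtain ⟨t, ht⟩ : ∃ t : F, ∀ r : F, r ^ 2 + r * t + 1 ≠ 0 := by
      by_contra! hall
      have hsurj : Function.Surjective fun r : {r : F // r ≠ 0} => -(r.1 + r.1⁻¹) := fun t => by
        obtain ⟨r, hr⟩ := hall t
        have hr0 : r ≠ 0 := fun e => by simp [e] at hr
        exact ⟨⟨r, hr0⟩, by field_simp; linear_combination -hr⟩
      have := Fintype.card_le_of_surjective _ hsurj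
      rw [Fintype.card_subtype_compl, Fintype.card_subtype_eq] at this
      omega
    have hns : ¬ IsScal (SLTwoTrace.comp t) := fun h => one_ne_zero (α := F) (by simpa [SLTwoTrace.comp] using h.2.1)
    have ht4 : t ^ 2 ≠ 4 := fun e => ht (-t / 2) (by field_simp; linear_combination -e)
    have hord : ¬ p ∣ orderOf (SLTwoTrace.comp t) := by
      intro hd
      set v := (SLTwoTrace.comp t) ^ (orderOf (SLTwoTrace.comp t) / p)
      have hpq : p ∣ Fintype.card F := by
        obtain ⟨n, -, hn⟩ := FiniteField.card F p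
        exact hn ▸ dvd_pow_self p n.ne_zero
      rcases pow_cases rfl (p := p) (SLTwoTrace.comp t).1 (by rw [(SLTwoTrace.comp t).2]; exact one_ne_zero) with h | h | ⟨h, -⟩
      · have := Nat.dvd_sub hpq (hd.trans (orderOf_dvd_of_pow_eq_one (n := Fintype.card F - 1)
          (Subtype.ext ((Matrix.SpecialLinearGroup.coe_pow _ _).trans h))))
        rw [Nat.sub_sub_self (by omega)] at this
        exact hp.out.ne_one (Nat.dvd_one.1 this)
      · have := Nat.dvd_sub (hd.trans (orderOf_dvd_of_pow_eq_one (n := Fintype.card F + 1)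
          (Subtype.ext ((Matrix.SpecialLinearGroup.coe_pow _ _).trans (by rw [h, (SLTwoTrace.comp t).2, one_smul]; rfl))))) hpq
        rw [Nat.add_sub_cancel_left] at this
        exact hp.out.ne_one (Nat.dvd_one.1 this)
      · rw [(SLTwoTrace.comp t).2, mul_one] at h
        exact ht4 (by rw [← tr_comp t]; exact h)
    obtain ⟨hcyc, -, hirr, -⟩ := torus_data (p := p) rfl h4 hns hord
    obtain ⟨g, hg, hgg⟩ := exists_inverter (p := p) rfl h4 hns hord
    refine ⟨_, g, hns, hord, hg, hgg, hcyc, hirr fun r => ?_, fun r => by rw [tr_comp]; exact ht r⟩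
    rw [show (SLTwoTrace.comp t).1 0 0 + (SLTwoTrace.comp t).1 1 1 = t from tr_comp t]
    exact ht r
  · have h3 : Fintype.card F = 3 := by omega
    have h30 : (3 : F) = 0 := by
      have := Nat.cast_card_eq_zero F
      rw [h3] at this
      exact_mod_cast this
    have huniv : ({0, 1, -1} : Finset F) = Finset.univ := by
      refine Finset.eq_univ_of_card _ ?_
      rw [h3, Finset.card_insert_of_notMem, Finset.card_pair]
      · exact fun e => h2 (by linear_combination e)
      · simp
    have hall : ∀ r : F, r = 0 ∨ r = 1 ∨ r = -1 := fun r => by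
      simpa using (huniv.ge (Finset.mem_univ r))
    have ht : ∀ r : F, r ^ 2 + r * (0 : F) + 1 ≠ 0 := fun r e => by
      rcases hall r with rfl | rfl | rfl
      · exact one_ne_zero (α := F) (by linear_combination e)
      · exact h2 (by linear_combination e)
      · exact h2 (by linear_combination e)
    set C : SL F := SLTwoTrace.comp 0 with hCdef
    have hCv : C.1 = !![0, -1; 1, 0] := rfl
    have hns : ¬ IsScal C := fun h => one_ne_zero (α := F) (by simpa [hCv] using h.2.1)
    have hC2 : C * C = -1 := CfsgLib.SLTwoClasses.mul_self_eq_neg_one (show C.1 0 0 + C.1 1 1 = 0 by simp [hCv])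
    have hC4 : C ^ 4 = 1 := by rw [show 4 = 2 * 2 from rfl, pow_mul, sq, sq, hC2]; simp
    have hord : orderOf C = 4 := by
      refine orderOf_eq_prime_pow (p := 2) (n := 1) ?_ hC4
      rw [pow_one, sq, hC2]
      exact neg_one_ne (p := p) h2
    let g : SL F := ⟨!![1, 1; 1, -1], by simp [Matrix.det_fin_two]; linear_combination -h30⟩
    have hmem : ∀ x : SL F, x ∈ Subgroup.centralizer ({C} : Set (SL F)) → x ∈ Subgroup.zpowers C := by
      intro x hx
      obtain ⟨β, b1, b2, b3⟩ := exists_coeff hns (Subgroup.mem_centralizer_singleton_iff.1 hx : Commute x C)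
      simp [hCv] at b1 b2 b3
      have h11 : x.1 1 1 = x.1 0 0 := by linear_combination -b3
      have hd := det_eq x
      rw [b1, b2, h11] at hd
      have mk : ∀ y : SL F, y ∈ Subgroup.zpowers C → y.1 0 0 = x.1 0 0 → y.1 0 1 = x.1 0 1 → y.1 1 0 = x.1 1 0 →
          y.1 1 1 = x.1 1 1 → x ∈ Subgroup.zpowers C := fun y hy e1 e2 e3 e4 => sl_ext e1 e2 e3 e4 ▸ hy
      have hC' := Subgroup.mem_zpowers C
      rcases hall (x.1 0 0) with e | e | e <;> rcases hall β with rfl | rfl | rfl
      · rw [e] at hd; exact absurd (by linear_combination -hd) (one_ne_zero (α := F))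
      · exact mk C hC' (by simp [hCv, e]) (by simp [hCv, b1]) (by simp [hCv, b2]) (by simp [hCv, h11, e])
      · exact mk C⁻¹ (inv_mem hC') (by simp [Matrix.adjugate_fin_two, hCv, e]) (by simp [Matrix.adjugate_fin_two, hCv, b1])
          (by simp [Matrix.adjugate_fin_two, hCv, b2]) (by simp [Matrix.adjugate_fin_two, hCv, h11, e])
      · exact mk 1 (one_mem _) (by simp [e]) (by simp [b1]) (by simp [b2]) (by simp [h11, e])
      · rw [e] at hd; exact absurd (by linear_combination hd) (one_ne_zero (α := F))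
      · rw [e] at hd; exact absurd (by linear_combination hd) (one_ne_zero (α := F))
      · exact mk (C * C) (mul_mem hC' hC') (by rw [hC2]; simp [e]) (by rw [hC2]; simp [b1]) (by rw [hC2]; simp [b2])
          (by rw [hC2]; simp [h11, e])
      · rw [e] at hd; exact absurd (by linear_combination hd) (one_ne_zero (α := F))
      · rw [e] at hd; exact absurd (by linear_combination hd) (one_ne_zero (α := F))
    have hT : Subgroup.centralizer ({C} : Set (SL F)) = Subgroup.zpowers C :=
      le_antisymm hmem (Subgroup.zpowers_le.2 (Subgroup.mem_centralizer_singleton_iff.2 rfl))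
    have hp3 : p = 3 := by
      have : ((3 : ℕ) : F) = 0 := by exact_mod_cast h30
      rw [CharP.cast_eq_zero_iff F p] at this
      exact (Nat.prime_dvd_prime_iff_eq hp.out Nat.prime_three).1 this
    refine ⟨C, g, hns, by rw [hord, hp3]; decide, ?_, CfsgLib.SLTwoClasses.mul_self_eq_neg_one (by simp [g]), ?_, ?_, ?_⟩
    · apply Subtype.ext
      rw [Matrix.SpecialLinearGroup.coe_mul, Matrix.SpecialLinearGroup.coe_mul, Matrix.SpecialLinearGroup.coe_inv,
        Matrix.adjugate_fin_two, hCv]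
      ext i j
      fin_cases i <;> fin_cases j <;> simp [g, Matrix.mul_apply, Fin.sum_univ_two]
    · rw [hT]; infer_instance
    · rw [hT, Nat.card_zpowers, hord, h3]
    · intro r
      rw [hCdef, tr_comp]
      exact ht r

theorem nonsplit_normalizer (hodd : Odd (Fintype.card F)) :
    ∃ T' : Subgroup (SL F), IsCyclic T' ∧ Nat.card T' = Fintype.card F + 1 ∧
      Subgroup.centralizer ((T' : Set (SL F))) = T' ∧
      (∀ g : SL F, g ∈ T' → g.1 ≠ 1 → g.1 ≠ -1 → Subgroup.centralizer ({g} : Set (SL F)) = T') ∧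
      (∀ g : SL F, (∀ (c : F) (v : Fin 2 → F), v ≠ 0 → g.1.mulVec v ≠ c • v) → ∃ h : SL F, h * g * h⁻¹ ∈ T') ∧
      Nat.card (Subgroup.normalizer (T' : Set (SL F))) = 2 * (Fintype.card F + 1) ∧
      Nat.card (ConjClasses (Subgroup.normalizer (T' : Set (SL F)))) = (Fintype.card F + 7) / 2 ∧
      ∀ g : SL F, g ∈ Subgroup.normalizer (T' : Set (SL F)) → g ∉ T' → g.1 * g.1 = -1 := by
  have hp2 : p ≠ 2 := by
    rintro rfl
    obtain ⟨n, -, hn⟩ := FiniteField.card F 2
    rw [hn, Nat.odd_pow_iff n.ne_zero] at hodd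
    exact absurd hodd (by decide)
  have h2 := two_ne_zero_of_char (F := F) hp2
  obtain ⟨C, g, hC, hord, hg, hgg, hcyc, hcard, hirr⟩ := nonsplit (F := F) (p := p) hp2
  obtain ⟨hTT, hab, hcent, -, -, -, -, hNc, hcl, hsq⟩ := package hp2 hC hord hg hgg hcyc
  set T := Subgroup.centralizer ({C} : Set (SL F))
  refine ⟨T, hcyc, hcard, hTT, fun x hx h1 h1' => hcent x hx fun hs => ?_, fun x hx => ?_, by rw [hNc, hcard],
    by rw [hcard] at hcl; omega, fun x hx hxT => by
      have := congrArg Subtype.val (hsq x hx hxT)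
      simpa using this⟩
  · rcases CfsgLib.Classical.eq_one_or_neg_one_of_isScal hs with e | e
    · exact h1 (by rw [e]; rfl)
    · exact h1' (by rw [e]; simp)
  · set τ := tr x with hτ
    have hroot : ∀ r : F, r ^ 2 + r * τ + 1 ≠ 0 := by
      intro r hr
      by_cases h10 : x.1 1 0 = 0
      · exact hx (x.1 0 0) ![1, 0] (by simp) (by ext i; fin_cases i <;> simp [Matrix.mulVec, dotProduct, Fin.sum_univ_two, h10])
      · refine hx (-r) ![(-r - x.1 1 1) / x.1 1 0, 1] (by simp) ?_
        have hd := det_eq x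
        rw [hτ, tr] at hr
        ext i; fin_cases i <;> simp [Matrix.mulVec, dotProduct, Fin.sum_univ_two] <;> field_simp
        · first | linear_combination -hr - hd | linear_combination hr + hd
        · ring
    have hτ4 : τ ^ 2 ≠ 4 := fun e => hroot (-τ / 2) (by field_simp; linear_combination -e)
    set t := tr C with ht
    have ht4 : t ^ 2 ≠ 4 := fun e => hirr (-t / 2) (by field_simp; linear_combination -e)
    have hns : ∀ u : F, (∀ r : F, r ^ 2 + r * u + 1 ≠ 0) → ¬ IsSquare (u ^ 2 - 4) := by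
      rintro u hu ⟨y, hy⟩
      exact hu ((y - u) / 2) (by field_simp; linear_combination -hy)
    obtain ⟨y, hy⟩ := isSquare_mul_of_not (hns τ hroot) (hns t hirr)
    have htne : t ^ 2 - 4 ≠ 0 := sub_ne_zero.2 ht4
    set b := y / (t ^ 2 - 4) with hb
    set a := (τ - b * t) / 2 with ha
    have ey : y = b * (t ^ 2 - 4) := by rw [hb, div_mul_cancel₀ _ htne]
    have e2 : b ^ 2 * (t ^ 2 - 4) = τ ^ 2 - 4 := mul_right_cancel₀ htne (by rw [ey] at hy; linear_combination -hy)
    have hnorm : a ^ 2 + a * b * t + b ^ 2 = 1 := by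
      rw [ha]; field_simp; linear_combination -e2
    have hdet : (spanMat C a b).det = 1 := by
      rw [det_spanMat]; exact hnorm
    let X : SL F := ⟨spanMat C a b, hdet⟩
    have hXT : X ∈ T := Subgroup.mem_centralizer_singleton_iff.2 (Subtype.ext (by
      show spanMat C a b * C.1 = C.1 * spanMat C a b
      simp [spanMat, add_mul, mul_add]))
    have htX : tr X = τ := by
      have : (2 : F) * a + b * t = τ := by rw [ha]; field_simp; ring
      simp [X, tr, spanMat]
      rw [ht, tr] at this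
      linear_combination this
    have hxs : ¬ IsScal x := not_isScal_of_tr rfl hτ4
    obtain ⟨h, hh⟩ := isConj_iff.1 (isConj_of_tr hxs (not_isScal_of_tr htX hτ4) htX.symm (Or.inr hτ4))
    exact ⟨h, hh ▸ hXT⟩

theorem sylow_odd (hodd : Odd (Fintype.card F)) (ℓ : ℕ) [Fact ℓ.Prime] (hℓ : ℓ ≠ 2) (P : Sylow ℓ (SL F))
    (e : ℕ) (he : e = Fintype.card F - 1 ∨ e = Fintype.card F + 1) (hd : ℓ ∣ e) :
    Nat.card (Subgroup.centralizer ((P : Subgroup (SL F)) : Set (SL F))) = e ∧
    IsCyclic (Subgroup.centralizer ((P : Subgroup (SL F)) : Set (SL F))) ∧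
    Nat.card (Subgroup.normalizer ((P : Subgroup (SL F)) : Set (SL F))) = 2 * e := by
  have hℓp := (Fact.out : ℓ.Prime)
  have hp2 : p ≠ 2 := by
    rintro rfl
    obtain ⟨n, -, hn⟩ := FiniteField.card F 2
    rw [hn, Nat.odd_pow_iff n.ne_zero] at hodd
    exact absurd hodd (by decide)
  have hℓ3 : 3 ≤ ℓ := by have := hℓp.two_le; omega
  have hq1 := Fintype.one_lt_card (α := F)
  obtain ⟨k, hk⟩ := hodd
  have h4 : 4 ≤ Fintype.card F := by
    by_contra hlt
    have hk1 : Fintype.card F = 3 := by omega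
    have : ℓ ∣ 2 ^ 2 := by rcases he with rfl | rfl <;> rw [hk1] at hd <;> norm_num at hd ⊢
                           · exact hd.trans (by norm_num)
                           · exact hd
    exact hℓ ((Nat.prime_dvd_prime_iff_eq hℓp Nat.prime_two).1 (hℓp.dvd_of_dvd_pow this))
  have hG : ℓ ∣ Nat.card (SL F) := by
    rw [CfsgLib.Classical.Two.card_sl_two]
    rcases he with rfl | rfl
    · exact Dvd.dvd.mul_right (Dvd.dvd.mul_left hd _) _
    · exact Dvd.dvd.mul_left hd _
  have hne : (P : Subgroup (SL F)) ≠ ⊥ := P.ne_bot_of_dvd_card hG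
  haveI : Nontrivial P := Subgroup.nontrivial_iff_ne_bot _ |>.2 hne
  haveI := P.2.center_nontrivial
  obtain ⟨⟨z, hz⟩, hz1⟩ := exists_ne (1 : Subgroup.center P)
  have hz1' : (z : SL F) ≠ 1 := fun h => hz1 (Subtype.ext (Subtype.ext h))
  obtain ⟨i, hi⟩ := (IsPGroup.iff_orderOf.1 P.2) z
  rw [← Subgroup.orderOf_coe] at hi
  have hℓnp : ℓ ≠ p := by
    rintro rfl
    obtain ⟨n, -, hn⟩ := FiniteField.card F ℓ
    have hpq : ℓ ∣ Fintype.card F := hn ▸ dvd_pow_self ℓ n.ne_zero
    rcases he with rfl | rfl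
    · have := Nat.dvd_sub hpq hd
      rw [Nat.sub_sub_self (by omega)] at this
      exact hℓp.ne_one (Nat.dvd_one.1 this)
    · have := Nat.dvd_sub hd hpq
      rw [Nat.add_sub_cancel_left] at this
      exact hℓp.ne_one (Nat.dvd_one.1 this)
  have hord : ¬ p ∣ orderOf (z : SL F) := by
    rw [hi]; intro h
    exact hℓnp ((Nat.prime_dvd_prime_iff_eq hp.out hℓp).1 (hp.out.dvd_of_dvd_pow h)).symm
  have hzs : ¬ IsScal (z : SL F) := by
    intro hs
    rcases CfsgLib.Classical.eq_one_or_neg_one_of_isScal hs with h | h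
    · exact hz1' h
    · have h1 : orderOf (z : SL F) ∣ 2 := orderOf_dvd_of_pow_eq_one (by rw [h]; simp)
      rw [hi] at h1
      rcases Nat.eq_zero_or_pos i with h0 | h0
      · rw [h0, pow_zero] at hi; exact hz1' (orderOf_eq_one_iff.1 hi)
      · have := Nat.le_of_dvd two_pos ((dvd_pow_self ℓ h0.ne').trans h1)
        omega
  obtain ⟨hcyc, hTc, -, -⟩ := torus_data (p := p) rfl h4 hzs hord
  obtain ⟨g, hg, hgg⟩ := exists_inverter (p := p) rfl h4 hzs hord
  obtain ⟨hTT, hab, hcent, -, hinv, hN, hnorm, hNc, -, -⟩ := package hp2 hzs hord hg hgg hcyc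
  set T := Subgroup.centralizer ({(z : SL F)} : Set (SL F))
  have hPT : (P : Subgroup (SL F)) ≤ T := fun x hx => Subgroup.mem_centralizer_singleton_iff.2
    (congrArg Subtype.val (Subgroup.mem_center_iff.1 hz ⟨x, hx⟩))
  have hTe : Nat.card T = e := by
    have hℓT : ℓ ∣ Nat.card T := by
      refine dvd_trans ?_ (Subgroup.card_dvd_of_le hPT)
      exact P.dvd_card_of_dvd_card hG
    have key : ¬ (ℓ ∣ Fintype.card F - 1 ∧ ℓ ∣ Fintype.card F + 1) := fun ⟨h1, h1'⟩ => by
      have := Nat.le_of_dvd two_pos (show ℓ ∣ 2 by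
        have := Nat.dvd_sub h1' h1
        rwa [show Fintype.card F + 1 - (Fintype.card F - 1) = 2 by omega] at this)
      omega
    rcases hTc with h | h <;> rcases he with he | he <;> rw [h, he] <;> rw [h] at hℓT <;> rw [he] at hd
    · exact absurd ⟨hℓT, hd⟩ key
    · exact absurd ⟨hd, hℓT⟩ key
  have hC : Subgroup.centralizer ((P : Subgroup (SL F)) : Set (SL F)) = T := by
    refine le_antisymm (fun x hx => ?_) fun x hx => Subgroup.mem_centralizer_iff.2 fun y hy => hab y (hPT hy) x hx
    exact Subgroup.mem_centralizer_singleton_iff.2 (Subgroup.mem_centralizer_iff.1 hx z z.2).symm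
  have hNN : Subgroup.normalizer ((P : Subgroup (SL F)) : Set (SL F)) = Subgroup.normalizer (T : Set (SL F)) := by
    refine le_antisymm (fun x (hx : x ∈ Subgroup.normalizer ((P : Subgroup (SL F)) : Set (SL F))) =>
      hnorm x (hPT ((Subgroup.mem_normalizer_iff.1 hx (z : SL F)).1 z.2))) fun x hx => ?_
    refine Subgroup.mem_normalizer_iff.2 fun y => ?_
    have hact : ∀ x ∈ Subgroup.normalizer (T : Set (SL F)), ∀ y ∈ (P : Subgroup (SL F)), x * y * x⁻¹ ∈ (P : Subgroup (SL F)) := by
      intro x hx y hy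
      rcases (hN x).1 hx with h | h
      · rw [hab x h y (hPT hy), mul_inv_cancel_right]; exact hy
      · have hyi : y⁻¹ ∈ T := inv_mem (hPT hy)
        rw [show x * y * x⁻¹ = x * g⁻¹ * (g * y * g⁻¹) * (x * g⁻¹)⁻¹ by group, hinv y (hPT hy),
          hab _ h _ hyi, mul_inv_cancel_right]
        exact inv_mem hy
    refine ⟨hact x hx y, fun h => ?_⟩
    have := hact x⁻¹ (inv_mem hx) _ h
    simpa [mul_assoc] using this
  rw [hC, hNN, hNc, hTe]
  exact ⟨rfl, hcyc, rfl⟩

end CfsgLib.Lie.SLTwoTorusNorm
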