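/-
The kernel certificate of the torus of type E6.
-/
import Cfsg.Agent.Lib.LieDataE6
import Cfsg.Agent.Lib.LieChevTorus

set_option autoImplicit false

namespace CfsgLib.Lie

open Cfsg.Lie

def kerE6 : Tab.KerCert (D := chevE6) where
  k := 1
  e := 3
  g := ![⟨0, by decide +kernel⟩]
  v := ![![1], ![0], ![2], ![0], ![1], ![2]]
  Q := ![![0, 0, 0, 0, 0, 0], ![1, 2, 2, 3, 2, 1], ![-1, 0, 0, 0, 0, 0], ![2, 3, 4, 6, 4, 2], ![0, 1, 1, 2, 2, 1], ![-2, -1, -2, -2, -1, 0]]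
  R := ![![4, 3, 5, 6, 4, 2]]

theorem E6_ker : tabE6.kerB kerE6 = true := by decide +kernel

end CfsgLib.Lie
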