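/-
Tables for the symmetry of the Chevalley datum of type D4 and for its centralised Weyl group (generated).
-/
import Cfsg.Agent.Lib.LieDataD4
import Cfsg.Agent.Lib.LieTwistTab

set_option autoImplicit false
set_option maxRecDepth 100000
set_option maxHeartbeats 4000000

namespace CfsgLib.Lie

open Cfsg.Lie Tab

theorem posrk_D4 : 0 < chevD4.rank := by decide +kernel

/-- A node from its number. -/
def frD4 (x : ℕ) : Fin chevD4.rank := ⟨Nat.mod x chevD4.rank, Nat.mod_lt _ posrk_D4⟩

/-- Tables of the symmetry. -/
noncomputable def twD4 : TwData chevD4 where
  rho r := ⟨Nat.mod (byteAt 0x17161115100d140f130e0c12050b090408030a0702060100 r.val) chevD4.nroots, Nat.mod_lt _ pos_D4⟩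
  rhoInv r := ⟨Nat.mod (byteAt 0x171614110f0c1513100e120d0a05090704020b0806030100 r.val) chevD4.nroots, Nat.mod_lt _ pos_D4⟩
  rhoi i := frD4 (byteAt 0x30102 i.val)
  rhoiInv i := frD4 (byteAt 0x2000103 i.val)
  n := 2
  J o := [[1].map (frD4), [0, 2, 3].map (frD4)].getD o.val []
  wl o := [[1].map (frD4), [0, 2, 3].map (frD4)].getD o.val []

/-- Signs of the symmetry. -/
def epsD4 : ℕ := 0x2a8154

/-- Codes. -/
noncomputable def certD4_el : ℕ → ℕ := chunkAt (.lf 0xb0a09050000000008070e04000000000c0d01120000000002031606000000000f1000130000000002031706000000001514001100000000080717040000000015140111000000000b0a1605000000000f100913000000000c0d0e12)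
/-- Transitions. -/
noncomputable def certD4_nxt : ℕ → ℕ := chunkAt (.lf 0x9000a000000000008000b00000000000b000700000000000a000600000000000500090000000000040008000000000007000300000000000600020000000000010005000000000000000400000000000300000000000000020001)
/-- Parents. -/
noncomputable def certD4_par : ℕ → ℕ := chunkAt (.lf 0x4900000000000000410000000000000038000000000000003000000000000000290000000000000021000000000000001800000000000000100000000000000009000000000000000100000000000000000000000000000000)
/-- Ranks. -/
noncomputable def certD4_pos : ℕ → ℕ := chunkAt (.lf 0x400000000000000020000000000000006000000000000000000000000000000080000000000000001000000000000000a0000000000000003000000000000000b000000000000000500000000000000090000000000000007)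
/-- Sorting. -/
noncomputable def certD4_srt : ℕ → ℕ := chunkAt (.lf 0x3000000000000000500000000000000010000000000000007000000000000000000000000000000090000000000000002000000000000000b0000000000000004000000000000000a00000000000000060000000000000008)

/-- The enumeration. -/
noncomputable def certD4 : WCert chevD4 twD4 where
  N := 12
  el := certD4_el
  nxt := certD4_nxt
  par := certD4_par
  pos := certD4_pos
  srt := certD4_srt

theorem twD4_sym : tabD4.symB twD4 = true := by decide +kernel

theorem twD4_orb : tabD4.orbB twD4 = true := by decide +kernel

theorem twD4_conn : tabD4.connOB twD4 = true := by decide +kernel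

theorem twD4_cert : tabD4.certB twD4 certD4 = true := by decide +kernel

theorem twD4_dist : tabD4.distB twD4 certD4 1 [1, 1, 0, 1, 2, 1, 0, 1, 2, 1, 0, 1, 1] = true := by decide +kernel

end CfsgLib.Lie
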