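/-
The graph check for type D4.
-/
import Cfsg.Agent.Lib.LieTwistDataD4
import Cfsg.Agent.Lib.LieTwistGraphTab

set_option autoImplicit false
set_option maxRecDepth 20000
set_option maxHeartbeats 4000000

namespace CfsgLib.Lie

open Cfsg.Lie Tab

theorem twD4_graph : tabD4.graphB twD4 epsD4 = true := by decide +kernel

end CfsgLib.Lie
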