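/-
The twisted groups of type ³D₄.
-/
import Cfsg.Agent.Lib.LieTwistKer
import Cfsg.Agent.Lib.LieTwistDataD4
import Cfsg.Agent.Lib.LieTwistGraphD4
import Cfsg.Agent.Lib.LieChevTypes

set_option autoImplicit false
set_option maxHeartbeats 1000000
set_option maxRecDepth 20000

namespace CfsgLib.Lie

open Cfsg.Lie Tab

variable {K : Type*} [Field K]

/-- The twisting endomorphism. -/
noncomputable def twistOfD4 (σ : K ≃+* K) : Twist checkedD4 K := twOf checkedD4 twD4_sym twD4_graph σ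

/-- The orbits. -/
noncomputable def orbsD4 (σ : K ≃+* K) : Orbs checkedD4 (twistOfD4 σ).toSym :=
  orbW checkedD4 twD4_sym twD4_orb twD4_graph σ

theorem D4_orth0 : tabD4.orthB twD4 ⟨0, Nat.zero_lt_two⟩ = true := by decide +kernel
theorem D4_orth1 : tabD4.orthB twD4 ⟨1, Nat.one_lt_two⟩ = true := by decide +kernel
theorem D4_head0 : headB twD4 ⟨0, Nat.zero_lt_two⟩ (frD4 1) 1 = true := by decide +kernel
theorem D4_head1 : headB twD4 ⟨1, Nat.one_lt_two⟩ (frD4 0) 3 = true := by decide +kernel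

/-- The orbit data. -/
noncomputable def orthD4 (σ : K ≃+* K) (o : Fin (orbsD4 σ).n) : (twistOfD4 σ).Orth (orbsD4 σ) σ :=
  match o with
  | ⟨0, _⟩ => mkOrth checkedD4 D4_extra twD4_sym twD4_orb twD4_graph σ ⟨0, Nat.zero_lt_two⟩ (frD4 1) 1 D4_orth0 D4_head0
  | ⟨_ + 1, _⟩ => mkOrth checkedD4 D4_extra twD4_sym twD4_orb twD4_graph σ ⟨1, Nat.one_lt_two⟩ (frD4 0) 3 D4_orth1 D4_head1

theorem D4_idx : (sRoot tabD4 true (frD4 1)).val = d4p2 ∧ (sRoot tabD4 false (frD4 1)).val = d4m2 ∧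
    (sRoot tabD4 true (frD4 0)).val = d4p1 ∧ (sRoot tabD4 true (iterF twD4.rhoi 1 (frD4 0))).val = d4p3 ∧
    (sRoot tabD4 true (iterF twD4.rhoi 2 (frD4 0))).val = d4p4 ∧
    (sRoot tabD4 false (frD4 0)).val = d4m1 ∧ (sRoot tabD4 false (iterF twD4.rhoi 1 (frD4 0))).val = d4m3 ∧
    (sRoot tabD4 false (iterF twD4.rhoi 2 (frD4 0))).val = d4m4 := by decide +kernel

theorem D4_word {σ : K ≃+* K} (s : Bool) (a : K) :
    (orthD4 σ ⟨0, Nat.zero_lt_two⟩).word s a = [((bif s then d4p2 else d4m2), a)] ∧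
    (orthD4 σ ⟨1, Nat.one_lt_two⟩).word s a =
      [((bif s then d4p1 else d4m1), a), ((bif s then d4p3 else d4m3), σ a), ((bif s then d4p4 else d4m4), σ (σ a))] := by
  obtain ⟨h1, h2, h3, h4, h5, h6, h7, h8⟩ := D4_idx
  constructor
  · show [((sRoot tabD4 s (frD4 1)).val, a)] = _
    cases s <;> simp [h1, h2]
  · have hit : ∀ m, ((twistOfD4 σ).ρi ^ m) (frD4 0) = iterF twD4.rhoi m (frD4 0) := fun m =>
      twOf_pow checkedD4 twD4_sym twD4_graph σ m _
    show [((sRoot tabD4 s (frD4 0)).val, a),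
      ((sRoot tabD4 s (((twistOfD4 σ).ρi ^ 1) (frD4 0))).val, σ a),
      ((sRoot tabD4 s (((twistOfD4 σ).ρi ^ 2) (frD4 0))).val, (σ ^ 2) a)] = _
    rw [hit, hit]
    cases s <;> simp only [h3, h4, h5, h6, h7, h8, cond_true, cond_false] <;> rfl

theorem D4_pow {q : ℕ} {σ : K ≃+* K} (hσ : ∀ x, σ x = x ^ q) (a : K) : σ (σ a) = a ^ q ^ 2 := by
  rw [hσ, hσ, ← pow_mul, sq]

theorem D4_cube {σ : K ≃+* K} (ho : orderOf σ = 3) (a : K) : (σ ^ 3) a = a := by
  rw [← ho, pow_orderOf_eq_one]; rfl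

theorem D4_len {σ : K ≃+* K} : (orthD4 σ ⟨0, Nat.zero_lt_two⟩).len = 1 ∧ (orthD4 σ ⟨1, Nat.one_lt_two⟩).len = 3 :=
  ⟨rfl, rfl⟩

/-- The generated group. -/
noncomputable def genD4 {q : ℕ} {σ : K ≃+* K} (hσ : ∀ x, σ x = x ^ q) (ho : orderOf σ = 3) :
    (twistOfD4 σ).OrthGen (orbsD4 σ) σ (twistedD4 K q) where
  R := orthD4 σ
  hR := by
    rintro ⟨_ | _ | o, h⟩
    · rfl
    · rfl
    · exact absurd h (by show ¬ o + 1 + 1 < 2; omega)
  hE := D4_extra
  S := d4Words K q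
  hG := rfl
  hS := by
    rintro w (⟨t, ht, r, hr, rfl⟩ | ⟨t, rs, hrs, rfl⟩)
    · simp only [List.mem_cons, List.not_mem_nil, or_false] at hr
      have ht' : (σ ^ (orthD4 σ ⟨0, Nat.zero_lt_two⟩).len) t = t := by
        show (σ ^ 1) t = t
        rw [pow_one, hσ, ht]
      rcases hr with rfl | rfl
      · exact ⟨⟨0, Nat.zero_lt_two⟩, true, t, ht', (D4_word true t).1.symm⟩
      · exact ⟨⟨0, Nat.zero_lt_two⟩, false, t, ht', (D4_word false t).1.symm⟩
    · simp only [List.mem_cons, List.not_mem_nil, or_false] at hrs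
      rcases hrs with rfl | rfl
      · refine ⟨⟨1, Nat.one_lt_two⟩, true, t, D4_cube ho t, ?_⟩
        rw [(D4_word true t).2, hσ t, ← D4_pow hσ t, hσ t]
        rfl
      · refine ⟨⟨1, Nat.one_lt_two⟩, false, t, D4_cube ho t, ?_⟩
        rw [(D4_word false t).2, hσ t, ← D4_pow hσ t, hσ t]
        rfl
  hS' := by
    rintro ⟨_ | _ | o, h⟩ s a ha
    · refine Or.inl ⟨a, ?_, (bif s then d4p2 else d4m2), ?_, (D4_word s a).1⟩
      · have : (σ ^ 1) a = a := ha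
        rwa [pow_one, hσ] at this
      · cases s <;> simp
    · refine Or.inr ⟨a, (bif s then (d4p1, d4p3, d4p4) else (d4m1, d4m3, d4m4)), ?_, ?_⟩
      · cases s <;> simp
      · rw [show (⟨0 + 1, h⟩ : Fin (orbsD4 σ).n) = ⟨1, Nat.one_lt_two⟩ from rfl, (D4_word s a).2, ← D4_pow hσ a,
          hσ a]
        cases s <;> rfl
    · exact absurd h (by show ¬ o + 1 + 1 < 2; omega)

theorem D4_A : ∀ i j : Fin chevD4.rank, tabD4.A j (tabD4.p i) =
    ([[2, -1, 0, 0], [-1, 2, -1, -1], [0, -1, 2, 0], [0, -1, 0, 2]] : List (List ℤ))[i.val]!.getD j.val 0 := by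
  decide +kernel

theorem D4_prod (f : Fin chevD4.rank → Kˣ) : ∏ j, f j = f (frD4 0) * f (frD4 1) * f (frD4 2) * f (frD4 3) :=
  Fin.prod_univ_four f

theorem D4_cases (i : Fin chevD4.rank) : i = frD4 0 ∨ i = frD4 1 ∨ i = frD4 2 ∨ i = frD4 3 := by
  revert i; decide +kernel

/-- The equations of the kernel. -/
theorem D4_twist_ker {w : Fin chevD4.rank → Kˣ} (hw : w ∈ (torus (F := K) tabD4).ker) :
    w (frD4 0) ^ 2 = 1 ∧ w (frD4 1) = 1 ∧ w (frD4 2) ^ 2 = 1 ∧ w (frD4 3) ^ 2 = 1 ∧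
      w (frD4 0) * w (frD4 2) * w (frD4 3) = 1 := by
  have h := (mem_ker_torus checkedD4).1 hw
  have e0 := h (frD4 0)
  have e1 := h (frD4 1)
  have e2 := h (frD4 2)
  have e3 := h (frD4 3)
  have v : (frD4 0).val = 0 ∧ (frD4 1).val = 1 ∧ (frD4 2).val = 2 ∧ (frD4 3).val = 3 := by decide +kernel
  simp only [D4_prod, D4_A, v.1, v.2.1, v.2.2.1, v.2.2.2] at e0 e1 e2 e3
  simp at e0 e1 e2 e3
  set a := w (frD4 0) with ha
  set b := w (frD4 1) with hb
  set c := w (frD4 2) with hc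
  set d := w (frD4 3) with hd
  have hb' : b = a ^ 2 := (mul_inv_eq_one.1 e0).symm
  have hc2 : c ^ 2 = b := by rw [inv_mul_eq_one] at e2; exact e2.symm
  have hd2 : d ^ 2 = b := by rw [inv_mul_eq_one] at e3; exact e3.symm
  have h4 : b ^ 2 = a * c * d := by
    calc b ^ 2 = (a⁻¹ * b ^ 2 * c⁻¹ * d⁻¹) * (a * c * d) := by
          simp only [mul_assoc, mul_comm, mul_left_comm]; group
      _ = a * c * d := by rw [e1, one_mul]
  have h5 : b = 1 := by
    have : b ^ 4 = b ^ 3 := by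
      calc b ^ 4 = (b ^ 2) ^ 2 := by rw [← pow_mul]
        _ = a ^ 2 * c ^ 2 * d ^ 2 := by rw [h4, mul_pow, mul_pow]
        _ = b ^ 3 := by rw [← hb', hc2, hd2, pow_succ, pow_two]
    rwa [show 4 = 3 + 1 from rfl, pow_succ, mul_eq_left] at this
  exact ⟨hb'.symm.trans h5, h5, hc2.trans h5, hd2.trans h5, by rw [← h4, h5, one_pow]⟩

theorem D4_hatC {σ : K ≃+* K} (c : Fin chevD4.rank → Kˣ) :
    (twistOfD4 σ).hatC c (frD4 0) = Units.map (σ : K →* K) (c (frD4 3)) ∧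
    (twistOfD4 σ).hatC c (frD4 1) = Units.map (σ : K →* K) (c (frD4 1)) ∧
    (twistOfD4 σ).hatC c (frD4 2) = Units.map (σ : K →* K) (c (frD4 0)) ∧
    (twistOfD4 σ).hatC c (frD4 3) = Units.map (σ : K →* K) (c (frD4 2)) := by
  have h : twD4.rhoiInv (frD4 0) = frD4 3 ∧ twD4.rhoiInv (frD4 1) = frD4 1 ∧ twD4.rhoiInv (frD4 2) = frD4 0 ∧
      twD4.rhoiInv (frD4 3) = frD4 2 := by decide +kernel
  refine ⟨?_, ?_, ?_, ?_⟩ <;>
    show Units.map (σ : K →* K) (c (twD4.rhoiInv _)) = _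
  · rw [h.1]
  · rw [h.2.1]
  · rw [h.2.2.1]
  · rw [h.2.2.2]

theorem D4_hatC3 {σ : K ≃+* K} (ho : orderOf σ = 3) (c : Fin chevD4.rank → Kˣ) :
    (twistOfD4 σ).hatC ((twistOfD4 σ).hatC ((twistOfD4 σ).hatC c)) = c := by
  have h3 : ∀ x : Kˣ, Units.map (σ : K →* K) (Units.map (σ : K →* K) (Units.map (σ : K →* K) x)) = x := fun x =>
    Units.ext (D4_cube ho x)
  funext i
  rcases D4_cases i with rfl | rfl | rfl | rfl
  all_goals simp only [(D4_hatC _).1, (D4_hatC _).2.1, (D4_hatC _).2.2.1, (D4_hatC _).2.2.2, h3]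

theorem D4_hker {σ : K ≃+* K} (ho : orderOf σ = 3) :
    ∀ w ∈ (torus (F := K) tabD4).ker, ∀ c, (twistOfD4 σ).hatC c = c * w →
      ∃ z ∈ (torus (F := K) tabD4).ker, (twistOfD4 σ).hatC (c * z) = c * z := by
  intro w hw c hc
  set W := twistOfD4 σ
  refine ⟨W.hatC w, W.hatC_ker hw, ?_⟩
  have h3 := D4_hatC3 ho c
  rw [hc, W.hatC_mul, hc, W.hatC_mul, W.hatC_mul, hc, mul_assoc, mul_assoc, mul_eq_left] at h3
  have hsq : W.hatC w * W.hatC w = 1 := by
    rw [← W.hatC_mul]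
    have : w * w = 1 := by
      funext i
      obtain ⟨k0, k1, k2, k3, _⟩ := D4_twist_ker hw
      rcases D4_cases i with rfl | rfl | rfl | rfl
      · rw [Pi.mul_apply, ← sq, k0]; rfl
      · rw [Pi.mul_apply, k1, one_mul]; rfl
      · rw [Pi.mul_apply, ← sq, k2]; rfl
      · rw [Pi.mul_apply, ← sq, k3]; rfl
    rw [this]
    exact W.fixC.one_mem
  rw [W.hatC_mul, hc, mul_assoc]
  congr 1
  calc w * W.hatC (W.hatC w) = w * W.hatC (W.hatC w) * (W.hatC w * W.hatC w) := by rw [hsq, mul_one]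
    _ = w * (W.hatC w * W.hatC (W.hatC w)) * W.hatC w := by ac_rfl
    _ = W.hatC w := by rw [h3, one_mul]

/-- ³D₄ is the group of fixed points. -/
theorem genD4_gen {q : ℕ} {σ : K ≃+* K} (hσ : ∀ x, σ x = x ^ q) (ho : orderOf σ = 3) :
    (twistOfD4 σ).Gen (orbsD4 σ) (twistedD4 K q) :=
  (genD4 hσ ho).gen (D4_hker ho)

theorem D4_card_diag [Fintype K] {q : ℕ} (hq : IsPrimePow q) (hK : Fintype.card K = q ^ 3) :
    Nat.card ↥(chevD4.diagonalSubgroup K ⊓ twistedD4 K q) = (q - 1) ^ 2 * (q ^ 2 + q + 1) := by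
  obtain ⟨σ, hσ, ho⟩ := exists_frob Nat.prime_three hq hK
  set W := twistOfD4 σ
  have h := W.card_diag (genD4_gen hσ ho) (D4_hker ho)
  have h1 : W.fixC ⊓ (torus (F := K) tabD4).ker = ⊥ := by
    rw [eq_bot_iff]
    intro w hw
    obtain ⟨hf, hk⟩ := Subgroup.mem_inf.1 hw
    obtain ⟨k0, k1, k2, k3, k4⟩ := D4_twist_ker hk
    have hs : ∀ x : Kˣ, x ^ 2 = 1 → Units.map (σ : K →* K) x = x := by
      intro x hx
      have hx' : (x : K) ^ 2 = 1 := by rw [← Units.val_pow_eq_pow_val, hx, Units.val_one]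
      refine Units.ext ?_
      rcases sq_eq_one_iff.1 hx' with e | e <;> simp [e]
    have f2 : w (frD4 2) = w (frD4 0) := by
      have := congrFun hf (frD4 2)
      rw [(D4_hatC _).2.2.1, hs _ k0] at this
      exact this.symm
    have f3 : w (frD4 3) = w (frD4 2) := by
      have := congrFun hf (frD4 3)
      rw [(D4_hatC _).2.2.2, hs _ k2] at this
      exact this.symm
    rw [f3, f2, ← sq, k0, one_mul] at k4
    rw [Subgroup.mem_bot]
    funext i
    rcases D4_cases i with rfl | rfl | rfl | rfl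
    · exact k4
    · exact k1
    · rw [f2]; exact k4
    · rw [f3, f2]; exact k4
  rw [h1, Subgroup.card_bot, one_mul] at h
  rw [h]
  let mk : {a : Kˣ // Units.map (σ : K →* K) a = a} × Kˣ → Fin chevD4.rank → Kˣ := fun x i =>
    if i = frD4 1 then x.1.1 else if i = frD4 0 then x.2 else
      if i = frD4 2 then Units.map (σ : K →* K) x.2 else Units.map (σ : K →* K) (Units.map (σ : K →* K) x.2)
  have hne : frD4 0 ≠ frD4 1 ∧ frD4 2 ≠ frD4 1 ∧ frD4 2 ≠ frD4 0 ∧ frD4 3 ≠ frD4 1 ∧ frD4 3 ≠ frD4 0 ∧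
      frD4 3 ≠ frD4 2 := by decide +kernel
  have m1 : ∀ x, mk x (frD4 1) = x.1.1 := fun x => if_pos rfl
  have m0 : ∀ x, mk x (frD4 0) = x.2 := fun x => by simp [mk, hne.1]
  have m2 : ∀ x, mk x (frD4 2) = Units.map (σ : K →* K) x.2 := fun x => by simp [mk, hne.2.1, hne.2.2.1]
  have m3 : ∀ x, mk x (frD4 3) = Units.map (σ : K →* K) (Units.map (σ : K →* K) x.2) := fun x => by
    simp [mk, hne.2.2.2.1, hne.2.2.2.2.1, hne.2.2.2.2.2]
  have hmk : ∀ x, mk x ∈ W.fixC := by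
    intro x
    show W.hatC (mk x) = mk x
    funext i
    rcases D4_cases i with rfl | rfl | rfl | rfl
    · rw [(D4_hatC _).1, m3, m0]
      exact Units.ext (D4_cube ho x.2)
    · rw [(D4_hatC _).2.1, m1]
      exact x.1.2
    · rw [(D4_hatC _).2.2.1, m0, m2]
    · rw [(D4_hatC _).2.2.2, m2, m3]
  have hb : Function.Bijective fun x => (⟨mk x, hmk x⟩ : ↥W.fixC) := by
    refine ⟨fun x y e => ?_, fun c => ?_⟩
    · have e' : mk x = mk y := Subtype.ext_iff.1 e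
      refine Prod.ext (Subtype.ext ?_) ?_
      · rw [← m1, ← m1, e']
      · rw [← m0 x, ← m0 y, e']
    · have hc : W.hatC c.1 = c.1 := c.2
      have f1 := congrFun hc (frD4 1)
      rw [(D4_hatC _).2.1] at f1
      refine ⟨⟨⟨c.1 (frD4 1), f1⟩, c.1 (frD4 0)⟩, Subtype.ext (funext fun i => ?_)⟩
      show mk _ i = c.1 i
      rcases D4_cases i with rfl | rfl | rfl | rfl
      · exact m0 _
      · exact m1 _
      · exact (m2 _).trans (((D4_hatC c.1).2.2.1).symm.trans (congrFun hc _))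
      · refine (m3 _).trans ?_
        have f2 := congrFun hc (frD4 2)
        have f3 := congrFun hc (frD4 3)
        rw [(D4_hatC _).2.2.1] at f2
        rw [(D4_hatC _).2.2.2] at f3
        exact (congrArg _ f2).trans f3
  rw [← Nat.card_eq_of_bijective _ hb, Nat.card_prod, card_fixed_units, card_fixed_frob Nat.prime_three hq hK ho,
    card_units_eq, hK, sq, mul_assoc]
  congr 1
  obtain ⟨r, rfl⟩ : ∃ r, q = r + 1 := ⟨q - 1, by have := hq.two_le; omega⟩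
  rw [Nat.add_sub_cancel]
  have : (r + 1) ^ 3 = r * ((r + 1) ^ 2 + (r + 1) + 1) + 1 := by ring
  rw [this, Nat.add_sub_cancel]

theorem D4_cards [Fintype K] {q : ℕ} (hq : IsPrimePow q) (hK : Fintype.card K = q ^ 3) :
    Nat.card ↥(chevD4.posUnipotent K ⊓ twistedD4 K q) = q ^ 12 ∧
    Nat.card ↥(twistedD4 K q) = q ^ 12 * ((q - 1) ^ 2 * (q ^ 2 + q + 1)) *
      evalL [1, 1, 0, 1, 2, 1, 0, 1, 2, 1, 0, 1, 1] q := by
  obtain ⟨σ, hσ, ho⟩ := exists_frob Nat.prime_three hq hK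
  have := card_orth checkedD4 twD4_sym twD4_orb twD4_graph (genD4 hσ ho) (genD4_gen hσ ho) (q := q)
    (by
      rintro ⟨_ | _ | o, h⟩
      · show Nat.card {a : K // (σ ^ 1) a = a} = q ^ 1
        rw [pow_one, pow_one]
        exact card_fixed_frob Nat.prime_three hq hK ho
      · show Nat.card {a : K // (σ ^ 3) a = a} = q ^ 3
        rw [Nat.card_congr (Equiv.subtypeUnivEquiv (D4_cube ho)), Nat.card_eq_fintype_card, hK]
      · exact absurd h (by show ¬ o + 1 + 1 < 2; omega))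
    pos_D4 (by decide +kernel) twD4_cert twD4_dist
  rw [D4_card_diag hq hK] at this
  exact this

theorem D4_commL : tabD4.commB twD4 [frD4 1, frD4 0, frD4 2, frD4 3] = true ∧
    tabD4.commB twD4 [frD4 0, frD4 2, frD4 3] = true := by decide +kernel

theorem D4_short :
    let a := tabD4.pwf [frD4 1, frD4 0, frD4 2, frD4 3] (tabD4.p (frD4 1))
    let s := tabD4.pwf [frD4 0, frD4 2, frD4 3] (tabD4.ng (tabD4.p (frD4 1)))
    s ≠ tabD4.ng a ∧ tabD4.nx a s = some (tabD4.p (frD4 1)) ∧ tabD4.nx a (tabD4.p (frD4 1)) = none ∧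
      tabD4.nx s (tabD4.p (frD4 1)) = none ∧ (tabD4.M 1 a s).natAbs = 1 ∧
      twD4.J ⟨0, Nat.zero_lt_two⟩ = [frD4 1] := by
  decide +kernel

theorem D4_perfect [Fintype K] {q : ℕ} (hq : IsPrimePow q) (hK : Fintype.card K = q ^ 3) :
    commutator ↥(twistedD4 K q) = ⊤ := by
  obtain ⟨σ, hσ, ho⟩ := exists_frob Nat.prime_three hq hK
  have hg := genD4_gen hσ ho
  refine hg.perfect ?_ (genD4 hσ ho).hcl
  rintro ⟨_ | _ | o, h⟩
  · obtain ⟨hne, h1, h2, h3, h4, h5⟩ := D4_short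
    exact (genD4 hσ ho).derived_short hg _ ⟨0, Nat.zero_lt_two⟩ (i := frD4 1) (k := frD4 1) h5 h5
      (comm_of_check (hT := checkedD4) twD4_sym D4_commL.1) (comm_of_check (hT := checkedD4) twD4_sym D4_commL.2)
      (pwf_eq checkedD4 _ _).symm (pwf_eq checkedD4 _ _).symm hne h1 h2 h3 h4
  · obtain ⟨a, ha⟩ := exists_sq_ne_one (K := K) (by
      rw [hK]
      calc 3 < 2 ^ 3 := by norm_num
        _ ≤ q ^ 3 := Nat.pow_le_pow_left hq.two_le 3)
    exact (genD4 hσ ho).derived_long hg _ (a := a) (D4_cube ho a) ha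
  · exact absurd h (by show ¬ o + 1 + 1 < 2; omega)

theorem D4_simple [Fintype K] {q : ℕ} (hq : IsPrimePow q) (hK : Fintype.card K = q ^ 3) :
    IsSimpleGroup ↥(twistedD4 K q) ∧ ¬ IsMulCommutative ↥(twistedD4 K q) := by
  obtain ⟨σ, hσ, ho⟩ := exists_frob Nat.prime_three hq hK
  exact (genD4_gen hσ ho).simple Nat.zero_lt_two
    (conn_of checkedD4 twD4_sym twD4_orb twD4_conn) (D4_perfect hq hK)

theorem D4_coxO : tabD4.coxOB twD4 (fun a b => CoxeterMatrix.G₂.M a b) = true := by decide +kernel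

end CfsgLib.Lie
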