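/-
Tables for the symmetry of the Chevalley datum of type F4 and for its centralised Weyl group (generated).
-/
import Cfsg.Agent.Lib.LieDataF4
import Cfsg.Agent.Lib.LieTwistTab

set_option autoImplicit false
set_option maxRecDepth 100000
set_option maxHeartbeats 4000000

namespace CfsgLib.Lie

open Cfsg.Lie Tab

theorem posrk_F4 : 0 < chevF4.rank := by decide +kernel

/-- A node from its number. -/
def frF4 (x : ℕ) : Fin chevF4.rank := ⟨Nat.mod x chevF4.rank, Nat.mod_lt _ posrk_F4⟩

/-- Tables of the symmetry. -/
noncomputable def twF4 : TwData chevF4 where
  rho r := ⟨Nat.mod (byteAt 0x2c28272f26241d2e2d2b202a1f1a1825231c291e19221b210e140d161106130c0a171510050f040201120b0900080703 r.val) chevF4.nroots, Nat.mod_lt _ pos_F4⟩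
  rhoInv r := ⟨Nat.mod (byteAt 0x2c28272f26241d2e2d2b202a1f1a1825231c291e19221b210e140d161106130c0a171510050f040201120b0900080703 r.val) chevF4.nroots, Nat.mod_lt _ pos_F4⟩
  rhoi i := frF4 (byteAt 0x10203 i.val)
  rhoiInv i := frF4 (byteAt 0x10203 i.val)
  n := 2
  J o := [[0, 3].map (frF4), [1, 2].map (frF4)].getD o.val []
  wl o := [[0, 3].map (frF4), [1, 2, 1, 2].map (frF4)].getD o.val []

/-- Signs of the symmetry. -/
def epsF4 : ℕ := 0xfdd4542a2bbf

/-- Codes. -/
noncomputable def certF4_el : ℕ → ℕ := chunkAt (.lf 0x1716140e0000000018150d21000000000f191b0a0000000020100c2500000000041a2209000000002b06122600000000021f2308000000002d0612270000000002291d08000000002d100c270000000004291d09000000002b150d26000000000f1f230a000000002016142500000000171a220e0000000018191b21)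
/-- Transitions. -/
noncomputable def certF4_nxt : ℕ → ℕ := chunkAt (.lf 0xd000e00000000000c000f00000000000f000b00000000000e000a000000000009000d000000000008000c00000000000b000700000000000a000600000000000500090000000000040008000000000007000300000000000600020000000000010005000000000000000400000000000300000000000000020001)
/-- Parents. -/
noncomputable def certF4_par : ℕ → ℕ := chunkAt (.lf 0x69000000000000006100000000000000580000000000000050000000000000004900000000000000410000000000000038000000000000003000000000000000290000000000000021000000000000001800000000000000100000000000000009000000000000000100000000000000000000000000000000)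
/-- Ranks. -/
noncomputable def certF4_pos : ℕ → ℕ := chunkAt (.lf 0x600000000000000080000000000000004000000000000000a0000000000000002000000000000000c0000000000000000000000000000000e0000000000000001000000000000000f0000000000000003000000000000000d0000000000000005000000000000000b00000000000000070000000000000009)
/-- Sorting. -/
noncomputable def certF4_srt : ℕ → ℕ := chunkAt (.lf 0x600000000000000080000000000000004000000000000000a0000000000000002000000000000000c0000000000000000000000000000000e0000000000000001000000000000000f0000000000000003000000000000000d0000000000000005000000000000000b00000000000000070000000000000009)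

/-- The enumeration. -/
noncomputable def certF4 : WCert chevF4 twF4 where
  N := 16
  el := certF4_el
  nxt := certF4_nxt
  par := certF4_par
  pos := certF4_pos
  srt := certF4_srt

theorem twF4_sym : tabF4.symB twF4 = true := by decide +kernel

theorem twF4_orb : tabF4.orbB twF4 = true := by decide +kernel

theorem twF4_conn : tabF4.connOB twF4 = true := by decide +kernel

theorem twF4_cert : tabF4.certB twF4 certF4 = true := by decide +kernel

theorem twF4_dist : tabF4.distB twF4 certF4 2 [1, 1, 1, 2, 1, 1, 2, 1, 1, 2, 1, 1, 1] = true := by decide +kernel

end CfsgLib.Lie
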