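/-
The twisted groups of type ²E₆.
-/
import Cfsg.Agent.Lib.LieTwistKer
import Cfsg.Agent.Lib.LieTwistDataE6
import Cfsg.Agent.Lib.LieTwistGraphE6
import Cfsg.Agent.Lib.LieChevTypes

set_option autoImplicit false
set_option maxHeartbeats 1000000
set_option maxRecDepth 20000

namespace CfsgLib.Lie

open Cfsg.Lie Tab

variable {K : Type*} [Field K]

/-- The twisting endomorphism. -/
noncomputable def twistOfE6 (σ : K ≃+* K) : Twist checkedE6 K := twOf checkedE6 twE6_sym twE6_graph σ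

/-- The orbits. -/
noncomputable def orbsE6 (σ : K ≃+* K) : Orbs checkedE6 (twistOfE6 σ).toSym :=
  orbW checkedE6 twE6_sym twE6_orb twE6_graph σ

theorem E6_orth : tabE6.orthB twE6 ⟨0, Nat.succ_pos _⟩ = true ∧ tabE6.orthB twE6 ⟨1, by decide +kernel⟩ = true ∧
    tabE6.orthB twE6 ⟨2, by decide +kernel⟩ = true ∧ tabE6.orthB twE6 ⟨3, by decide +kernel⟩ = true := by
  decide +kernel

theorem E6_head : headB twE6 ⟨0, Nat.succ_pos _⟩ (frE6 1) 1 = true ∧ headB twE6 ⟨1, by decide +kernel⟩ (frE6 3) 1 = true ∧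
    headB twE6 ⟨2, by decide +kernel⟩ (frE6 2) 2 = true ∧ headB twE6 ⟨3, by decide +kernel⟩ (frE6 0) 2 = true := by
  decide +kernel

/-- The orbit data. -/
noncomputable def orthE6 (σ : K ≃+* K) (o : Fin (orbsE6 σ).n) : (twistOfE6 σ).Orth (orbsE6 σ) σ :=
  match o with
  | ⟨0, _⟩ => mkOrth checkedE6 E6_extra twE6_sym twE6_orb twE6_graph σ ⟨0, Nat.succ_pos _⟩ (frE6 1) 1 E6_orth.1 E6_head.1
  | ⟨1, h⟩ => mkOrth checkedE6 E6_extra twE6_sym twE6_orb twE6_graph σ ⟨1, h⟩ (frE6 3) 1 E6_orth.2.1 E6_head.2.1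
  | ⟨2, h⟩ => mkOrth checkedE6 E6_extra twE6_sym twE6_orb twE6_graph σ ⟨2, h⟩ (frE6 2) 2 E6_orth.2.2.1 E6_head.2.2.1
  | ⟨_ + 3, _⟩ => mkOrth checkedE6 E6_extra twE6_sym twE6_orb twE6_graph σ ⟨3, by decide +kernel⟩ (frE6 0) 2
      E6_orth.2.2.2 E6_head.2.2.2

theorem E6_idx : (sRoot tabE6 true (frE6 1)).val = e6p2 ∧ (sRoot tabE6 false (frE6 1)).val = e6m2 ∧
    (sRoot tabE6 true (frE6 3)).val = e6p4 ∧ (sRoot tabE6 false (frE6 3)).val = e6m4 ∧
    (sRoot tabE6 true (frE6 2)).val = e6p3 ∧ (sRoot tabE6 true (iterF twE6.rhoi 1 (frE6 2))).val = e6p5 ∧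
    (sRoot tabE6 false (frE6 2)).val = e6m3 ∧ (sRoot tabE6 false (iterF twE6.rhoi 1 (frE6 2))).val = e6m5 ∧
    (sRoot tabE6 true (frE6 0)).val = e6p1 ∧ (sRoot tabE6 true (iterF twE6.rhoi 1 (frE6 0))).val = e6p6 ∧
    (sRoot tabE6 false (frE6 0)).val = e6m1 ∧ (sRoot tabE6 false (iterF twE6.rhoi 1 (frE6 0))).val = e6m6 := by
  decide +kernel

theorem E6_lt1 (σ : K ≃+* K) : 1 < (orbsE6 σ).n := show 1 < 4 by omega
theorem E6_lt2 (σ : K ≃+* K) : 2 < (orbsE6 σ).n := show 2 < 4 by omega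
theorem E6_lt3 (σ : K ≃+* K) : 3 < (orbsE6 σ).n := show 3 < 4 by omega

theorem E6_word {σ : K ≃+* K} (s : Bool) (a : K) :
    (orthE6 σ ⟨0, Nat.succ_pos _⟩).word s a = [((bif s then e6p2 else e6m2), a)] ∧
    (orthE6 σ ⟨1, E6_lt1 σ⟩).word s a = [((bif s then e6p4 else e6m4), a)] ∧
    (orthE6 σ ⟨2, E6_lt2 σ⟩).word s a = [((bif s then e6p3 else e6m3), a), ((bif s then e6p5 else e6m5), σ a)] ∧
    (orthE6 σ ⟨3, E6_lt3 σ⟩).word s a = [((bif s then e6p1 else e6m1), a), ((bif s then e6p6 else e6m6), σ a)] := by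
  obtain ⟨a1, a2, a3, a4, a5, a6, a7, a8, a9, a10, a11, a12⟩ := E6_idx
  have hit : ∀ m i, ((twistOfE6 σ).ρi ^ m) i = iterF twE6.rhoi m i := fun m i =>
    twOf_pow checkedE6 twE6_sym twE6_graph σ m i
  refine ⟨?_, ?_, ?_, ?_⟩
  · show [((sRoot tabE6 s (frE6 1)).val, a)] = _
    cases s <;> simp [a1, a2]
  · show [((sRoot tabE6 s (frE6 3)).val, a)] = _
    cases s <;> simp [a3, a4]
  · show [((sRoot tabE6 s (frE6 2)).val, a), ((sRoot tabE6 s (((twistOfE6 σ).ρi ^ 1) (frE6 2))).val, σ a)] = _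
    rw [hit]
    cases s <;> simp only [a5, a6, a7, a8, cond_true, cond_false]
  · show [((sRoot tabE6 s (frE6 0)).val, a), ((sRoot tabE6 s (((twistOfE6 σ).ρi ^ 1) (frE6 0))).val, σ a)] = _
    rw [hit]
    cases s <;> simp only [a9, a10, a11, a12, cond_true, cond_false]

theorem E6_inv {σ : K ≃+* K} (ho : orderOf σ = 2) (a : K) : (σ ^ 2) a = a := by
  rw [← ho, pow_orderOf_eq_one]; rfl

theorem E6_orbs_cases {σ : K ≃+* K} (o : Fin (orbsE6 σ).n) :
    o = ⟨0, Nat.succ_pos _⟩ ∨ o = ⟨1, E6_lt1 σ⟩ ∨ o = ⟨2, E6_lt2 σ⟩ ∨ o = ⟨3, E6_lt3 σ⟩ := by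
  rcases o with ⟨_ | _ | _ | _ | o, h⟩
  · exact Or.inl rfl
  · exact Or.inr (Or.inl rfl)
  · exact Or.inr (Or.inr (Or.inl rfl))
  · exact Or.inr (Or.inr (Or.inr rfl))
  · exact absurd h (by show ¬ o + 1 + 1 + 1 + 1 < 4; omega)

/-- The generated group. -/
noncomputable def genE6 {q : ℕ} {σ : K ≃+* K} (hσ : ∀ x, σ x = x ^ q) (ho : orderOf σ = 2) :
    (twistOfE6 σ).OrthGen (orbsE6 σ) σ (twistedE6 K q) where
  R := orthE6 σ
  hR := by
    intro o
    rcases E6_orbs_cases o with rfl | rfl | rfl | rfl <;> rfl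
  hE := E6_extra
  S := e6Words K q
  hG := rfl
  hS := by
    rintro w (⟨t, ht, r, hr, rfl⟩ | ⟨t, rs, hrs, rfl⟩)
    · have ht' : (σ ^ 1) t = t := by rw [pow_one, hσ, ht]
      simp only [List.mem_cons, List.not_mem_nil, or_false] at hr
      rcases hr with rfl | rfl | rfl | rfl
      · exact ⟨⟨0, Nat.succ_pos _⟩, true, t, ht', (E6_word (σ := σ) true t).1.symm⟩
      · exact ⟨⟨0, Nat.succ_pos _⟩, false, t, ht', (E6_word (σ := σ) false t).1.symm⟩
      · exact ⟨⟨1, E6_lt1 σ⟩, true, t, ht', (E6_word (σ := σ) true t).2.1.symm⟩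
      · exact ⟨⟨1, E6_lt1 σ⟩, false, t, ht', (E6_word (σ := σ) false t).2.1.symm⟩
    · rw [← hσ t]
      simp only [List.mem_cons, List.not_mem_nil, or_false] at hrs
      rcases hrs with rfl | rfl | rfl | rfl
      · exact ⟨⟨3, E6_lt3 σ⟩, true, t, E6_inv ho t, (E6_word (σ := σ) true t).2.2.2.symm⟩
      · exact ⟨⟨3, E6_lt3 σ⟩, false, t, E6_inv ho t, (E6_word (σ := σ) false t).2.2.2.symm⟩
      · exact ⟨⟨2, E6_lt2 σ⟩, true, t, E6_inv ho t, (E6_word (σ := σ) true t).2.2.1.symm⟩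
      · exact ⟨⟨2, E6_lt2 σ⟩, false, t, E6_inv ho t, (E6_word (σ := σ) false t).2.2.1.symm⟩
  hS' := by
    intro o s a ha
    rcases E6_orbs_cases o with rfl | rfl | rfl | rfl
    · refine Or.inl ⟨a, ?_, (bif s then e6p2 else e6m2), ?_, (E6_word (σ := σ) s a).1⟩
      · have : (σ ^ 1) a = a := ha
        rwa [pow_one, hσ] at this
      · cases s <;> simp
    · refine Or.inl ⟨a, ?_, (bif s then e6p4 else e6m4), ?_, (E6_word (σ := σ) s a).2.1⟩
      · have : (σ ^ 1) a = a := ha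
        rwa [pow_one, hσ] at this
      · cases s <;> simp
    · refine Or.inr ⟨a, (bif s then (e6p3, e6p5) else (e6m3, e6m5)), ?_, ?_⟩
      · cases s <;> simp
      · rw [(E6_word (σ := σ) s a).2.2.1, hσ a]
        cases s <;> rfl
    · refine Or.inr ⟨a, (bif s then (e6p1, e6p6) else (e6m1, e6m6)), ?_, ?_⟩
      · cases s <;> simp
      · rw [(E6_word (σ := σ) s a).2.2.2, hσ a]
        cases s <;> rfl

theorem E6_A : ∀ i j : Fin chevE6.rank, tabE6.A j (tabE6.p i) =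
    ([[2, 0, -1, 0, 0, 0], [0, 2, 0, -1, 0, 0], [-1, 0, 2, -1, 0, 0], [0, -1, -1, 2, -1, 0],
      [0, 0, 0, -1, 2, -1], [0, 0, 0, 0, -1, 2]] : List (List ℤ))[i.val]!.getD j.val 0 := by
  decide +kernel

theorem E6_prod (f : Fin chevE6.rank → Kˣ) :
    ∏ j, f j = f (frE6 0) * f (frE6 1) * f (frE6 2) * f (frE6 3) * f (frE6 4) * f (frE6 5) :=
  Fin.prod_univ_six f

theorem E6_cases (i : Fin chevE6.rank) :
    i = frE6 0 ∨ i = frE6 1 ∨ i = frE6 2 ∨ i = frE6 3 ∨ i = frE6 4 ∨ i = frE6 5 := by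
  revert i; decide +kernel

theorem E6_ker_solve {M : Type*} [CommGroup M] {a b c d e f : M} (h0 : c = a ^ 2) (h1 : d = b ^ 2)
    (h2 : a * d = c ^ 2) (h3 : b * c * e = d ^ 2) (h4 : d * f = e ^ 2) (h5 : e = f ^ 2) :
    a ^ 3 = 1 ∧ b = 1 ∧ c = a ^ 2 ∧ d = 1 ∧ e = a ∧ f = a ^ 2 := by
  have hd : d = a ^ 3 := by
    have : a * d = a * a ^ 3 := by rw [h2, h0, ← pow_mul, ← pow_succ']
    exact mul_left_cancel this
  have hf : f ^ 3 = a ^ 3 := by
    have : f * d = f * f ^ 3 := by rw [mul_comm f d, h4, h5, ← pow_mul, ← pow_succ']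
    rw [← hd]; exact (mul_left_cancel this).symm
  have hb : b * (a ^ 2 * f ^ 2) = a ^ 6 := by
    rw [← mul_assoc, ← h0, ← h5, h3, hd, ← pow_mul]
  have hb2 : b ^ 2 = a ^ 3 := by rw [← h1, hd]
  have hsq : a ^ 3 * (a ^ 4 * f ^ 4) = a ^ 12 := by
    calc a ^ 3 * (a ^ 4 * f ^ 4) = (b * (a ^ 2 * f ^ 2)) ^ 2 := by rw [mul_pow, hb2, mul_pow, ← pow_mul, ← pow_mul]
      _ = a ^ 12 := by rw [hb, ← pow_mul]
  have hf4 : f ^ 4 = a ^ 5 := by
    have : a ^ 7 * f ^ 4 = a ^ 7 * a ^ 5 := by rw [← pow_add a 7 5, ← hsq, ← mul_assoc, ← pow_add]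
    exact mul_left_cancel this
  have hfa : f = a ^ 2 := by
    have : f * a ^ 3 = a ^ 2 * a ^ 3 := by rw [← hf, ← pow_succ', hf4, hf, ← pow_add]
    exact mul_right_cancel this
  have ha : a ^ 3 = 1 := by
    have : a ^ 3 * a ^ 3 = a ^ 3 * 1 := by rw [mul_one, ← pow_add]; conv_rhs => rw [← hf, hfa, ← pow_mul]
    exact mul_left_cancel this
  refine ⟨ha, ?_, h0, hd.trans ha, ?_, hfa⟩
  · have h6 : a ^ 6 = 1 := by rw [show 6 = 3 * 2 from rfl, pow_mul, ha, one_pow]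
    rw [hfa, ← pow_mul, ← pow_add, h6, mul_one] at hb
    exact hb
  · rw [h5, hfa, ← pow_mul, show 2 * 2 = 3 + 1 from rfl, pow_succ, ha, one_mul]

/-- The equations of the kernel. -/
theorem E6_twist_ker {w : Fin chevE6.rank → Kˣ} (hw : w ∈ (torus (F := K) tabE6).ker) :
    w (frE6 0) ^ 3 = 1 ∧ w (frE6 1) = 1 ∧ w (frE6 2) = w (frE6 0) ^ 2 ∧ w (frE6 3) = 1 ∧
      w (frE6 4) = w (frE6 0) ∧ w (frE6 5) = w (frE6 0) ^ 2 := by
  have h := (mem_ker_torus checkedE6).1 hw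
  have e0 := h (frE6 0)
  have e1 := h (frE6 1)
  have e2 := h (frE6 2)
  have e3 := h (frE6 3)
  have e4 := h (frE6 4)
  have e5 := h (frE6 5)
  have v : (frE6 0).val = 0 ∧ (frE6 1).val = 1 ∧ (frE6 2).val = 2 ∧ (frE6 3).val = 3 ∧ (frE6 4).val = 4 ∧
      (frE6 5).val = 5 := by decide +kernel
  simp only [E6_prod, E6_A, v.1, v.2.1, v.2.2.1, v.2.2.2.1, v.2.2.2.2.1, v.2.2.2.2.2] at e0 e1 e2 e3 e4 e5
  simp [Units.ext_iff] at e0 e1 e2 e3 e4 e5
  refine E6_ker_solve ?_ ?_ ?_ ?_ ?_ ?_ <;> apply Units.ext <;>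
    simp only [Units.val_mul, Units.val_pow_eq_pow_val] <;> field_simp at e0 e1 e2 e3 e4 e5 ⊢ <;>
    first
      | linear_combination e0
      | linear_combination -e0
      | linear_combination e1
      | linear_combination -e1
      | linear_combination e2
      | linear_combination -e2
      | linear_combination e3
      | linear_combination -e3
      | linear_combination e4
      | linear_combination -e4
      | linear_combination e5
      | linear_combination -e5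

theorem E6_hatC {σ : K ≃+* K} (c : Fin chevE6.rank → Kˣ) :
    (twistOfE6 σ).hatC c (frE6 0) = Units.map (σ : K →* K) (c (frE6 5)) ∧
    (twistOfE6 σ).hatC c (frE6 1) = Units.map (σ : K →* K) (c (frE6 1)) ∧
    (twistOfE6 σ).hatC c (frE6 2) = Units.map (σ : K →* K) (c (frE6 4)) ∧
    (twistOfE6 σ).hatC c (frE6 3) = Units.map (σ : K →* K) (c (frE6 3)) ∧
    (twistOfE6 σ).hatC c (frE6 4) = Units.map (σ : K →* K) (c (frE6 2)) ∧
    (twistOfE6 σ).hatC c (frE6 5) = Units.map (σ : K →* K) (c (frE6 0)) := by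
  have h : twE6.rhoiInv (frE6 0) = frE6 5 ∧ twE6.rhoiInv (frE6 1) = frE6 1 ∧ twE6.rhoiInv (frE6 2) = frE6 4 ∧
      twE6.rhoiInv (frE6 3) = frE6 3 ∧ twE6.rhoiInv (frE6 4) = frE6 2 ∧ twE6.rhoiInv (frE6 5) = frE6 0 := by
    decide +kernel
  refine ⟨?_, ?_, ?_, ?_, ?_, ?_⟩ <;>
    show Units.map (σ : K →* K) (c (twE6.rhoiInv _)) = _
  · rw [h.1]
  · rw [h.2.1]
  · rw [h.2.2.1]
  · rw [h.2.2.2.1]
  · rw [h.2.2.2.2.1]
  · rw [h.2.2.2.2.2]

theorem E6_hker {σ : K ≃+* K} (ho : orderOf σ = 2) :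
    ∀ w ∈ (torus (F := K) tabE6).ker, ∀ c, (twistOfE6 σ).hatC c = c * w →
      ∃ z ∈ (torus (F := K) tabE6).ker, (twistOfE6 σ).hatC (c * z) = c * z := by
  intro w hw c hc
  set W := twistOfE6 σ
  have h2 : ∀ x : Kˣ, Units.map (σ : K →* K) (Units.map (σ : K →* K) x) = x := fun x =>
    Units.ext (E6_inv ho x)
  have hh : W.hatC (W.hatC c) = c := by
    funext i
    rcases E6_cases i with rfl | rfl | rfl | rfl | rfl | rfl
    all_goals simp only [W, (E6_hatC _).1, (E6_hatC _).2.1, (E6_hatC _).2.2.1, (E6_hatC _).2.2.2.1,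
      (E6_hatC _).2.2.2.2.1, (E6_hatC _).2.2.2.2.2, h2]
  rw [hc, W.hatC_mul, hc, mul_assoc, mul_eq_left] at hh
  have h3 : w * w * w = 1 := by
    obtain ⟨k0, k1, k2, k3, k4, k5⟩ := E6_twist_ker hw
    funext i
    rw [Pi.mul_apply, Pi.mul_apply, Pi.one_apply, show w i * w i * w i = w i ^ 3 by simp [pow_succ, mul_assoc]]
    rcases E6_cases i with rfl | rfl | rfl | rfl | rfl | rfl <;>
      simp only [k1, k2, k3, k4, k5, one_pow, k0, ← pow_mul, pow_mul' _ 2 3]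
  refine ⟨w * w, mul_mem hw hw, ?_⟩
  rw [W.hatC_mul, W.hatC_mul, hc]
  calc c * w * (W.hatC w * W.hatC w) = c * (w * W.hatC w) * W.hatC w := by ac_rfl
    _ = c * W.hatC w := by rw [hh, mul_one]
    _ = c * (w * w * (w * W.hatC w)) := by rw [← mul_assoc (w * w), h3, one_mul]
    _ = c * (w * w) := by rw [hh, mul_one]

/-- ²E₆ is the group of fixed points. -/
theorem genE6_gen {q : ℕ} {σ : K ≃+* K} (hσ : ∀ x, σ x = x ^ q) (ho : orderOf σ = 2) :
    (twistOfE6 σ).Gen (orbsE6 σ) (twistedE6 K q) :=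
  (genE6 hσ ho).gen (E6_hker ho)

theorem E6_card_diag [Fintype K] {q : ℕ} (hq : IsPrimePow q) (hK : Fintype.card K = q ^ 2) :
    Nat.gcd 3 (q + 1) * Nat.card ↥(chevE6.diagonalSubgroup K ⊓ twistedE6 K q) = (q - 1) ^ 4 * (q + 1) ^ 2 := by
  obtain ⟨σ, hσ, ho⟩ := exists_frob Nat.prime_two hq hK
  set W := twistOfE6 σ
  have h := W.card_diag (genE6_gen hσ ho) (E6_hker ho)
  have hsq : q ^ 2 - 1 = (q - 1) * (q + 1) := by
    have h12 := Nat.sq_sub_sq q 1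
    rw [one_pow] at h12
    rw [h12, mul_comm]
  have hσu : ∀ x : Kˣ, Units.map (σ : K →* K) x = x ^ q := fun x => Units.ext (by simp [hσ])
  set g := Nat.gcd 3 (q + 1) with hgdef
  have hg : Nat.card ↥(W.fixC ⊓ (torus (F := K) tabE6).ker) = g := by
    have key : ∀ a : Kˣ, a ^ g = 1 ↔ a ^ 3 = 1 ∧ a ^ (q + 1) = 1 := fun a => by
      rw [← orderOf_dvd_iff_pow_eq_one, ← orderOf_dvd_iff_pow_eq_one, ← orderOf_dvd_iff_pow_eq_one,
        hgdef, Nat.dvd_gcd_iff]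
    have hc : Nat.card (powMonoidHom g : Kˣ →* Kˣ).ker = g := by
      rw [IsCyclic.card_powMonoidHom_ker, card_units_eq, hK, Nat.gcd_eq_right]
      exact (Nat.gcd_dvd_right 3 (q + 1)).trans ⟨q - 1, by rw [hsq, mul_comm]⟩
    refine Eq.trans (Nat.card_congr ?_) hc
    have hto : ∀ w : ↥(W.fixC ⊓ (torus (F := K) tabE6).ker), w.1 (frE6 0) ^ g = 1 := by
      rintro ⟨w, hw⟩
      obtain ⟨hf, hk⟩ := Subgroup.mem_inf.1 hw
      obtain ⟨k0, -, -, -, -, k5⟩ := E6_twist_ker hk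
      have f0 := congrFun hf (frE6 0)
      rw [(E6_hatC _).1, k5, hσu, ← pow_mul] at f0
      refine (key _).2 ⟨k0, ?_⟩
      have : w (frE6 0) ^ (2 * q + 2) = w (frE6 0) ^ 3 := by
        rw [pow_add, f0, ← pow_succ']
      rw [k0, show 2 * q + 2 = (q + 1) * 2 by ring, pow_mul] at this
      calc w (frE6 0) ^ (q + 1) = w (frE6 0) ^ (q + 1) * ((w (frE6 0) ^ (q + 1)) ^ 2) := by rw [this, mul_one]
        _ = (w (frE6 0) ^ 3) ^ (q + 1) := by rw [← pow_succ', ← pow_mul, ← pow_mul, mul_comm]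
        _ = 1 := by rw [k0, one_pow]
    let inv : Kˣ → Fin chevE6.rank → Kˣ := fun a i =>
      if i = frE6 0 then a else if i = frE6 4 then a else if i = frE6 2 then a ^ 2 else if i = frE6 5 then a ^ 2 else 1
    have hne : frE6 1 ≠ frE6 0 ∧ frE6 1 ≠ frE6 4 ∧ frE6 1 ≠ frE6 2 ∧ frE6 1 ≠ frE6 5 ∧ frE6 3 ≠ frE6 0 ∧
        frE6 3 ≠ frE6 4 ∧ frE6 3 ≠ frE6 2 ∧ frE6 3 ≠ frE6 5 ∧ frE6 4 ≠ frE6 0 ∧ frE6 2 ≠ frE6 0 ∧ frE6 2 ≠ frE6 4 ∧
        frE6 5 ≠ frE6 0 ∧ frE6 5 ≠ frE6 4 ∧ frE6 5 ≠ frE6 2 := by decide +kernel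
    obtain ⟨n10, n14, n12, n15, n30, n34, n32, n35, n40, n20, n24, n50, n54, n52⟩ := hne
    have hval : ∀ a, inv a (frE6 0) = a ∧ inv a (frE6 1) = 1 ∧ inv a (frE6 2) = a ^ 2 ∧ inv a (frE6 3) = 1 ∧
        inv a (frE6 4) = a ∧ inv a (frE6 5) = a ^ 2 := fun a => by
      simp [inv, n10, n14, n12, n15, n30, n34, n32, n35, n40, n20, n24, n50, n54, n52]
    have hmem : ∀ a : (powMonoidHom g : Kˣ →* Kˣ).ker, inv a.1 ∈ W.fixC ⊓ (torus (F := K) tabE6).ker := by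
      rintro ⟨a, ha⟩
      obtain ⟨a3, aq⟩ := (key a).1 ha
      obtain ⟨v0, v1, v2, v3, v4, v5⟩ := hval a
      have hσa : a ^ q = a ^ 2 := by
        calc a ^ q = a ^ q * a ^ 3 := by rw [a3, mul_one]
          _ = a ^ (q + 1) * a ^ 2 := by rw [← pow_add, ← pow_add]
          _ = a ^ 2 := by rw [aq, one_mul]
      refine Subgroup.mem_inf.2 ⟨?_, ?_⟩
      · show W.hatC (inv a) = inv a
        funext i
        rcases E6_cases i with rfl | rfl | rfl | rfl | rfl | rfl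
        all_goals simp only [W, (E6_hatC _).1, (E6_hatC _).2.1, (E6_hatC _).2.2.1, (E6_hatC _).2.2.2.1,
          (E6_hatC _).2.2.2.2.1, (E6_hatC _).2.2.2.2.2, v0, v1, v2, v3, v4, v5, hσu, one_pow, hσa]
        all_goals rw [← pow_mul, pow_mul' a 2 q, hσa, ← pow_mul, pow_succ, a3, one_mul]
      · rw [mem_ker_torus checkedE6]
        intro i
        have v : (frE6 0).val = 0 ∧ (frE6 1).val = 1 ∧ (frE6 2).val = 2 ∧ (frE6 3).val = 3 ∧ (frE6 4).val = 4 ∧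
            (frE6 5).val = 5 := by decide +kernel
        rcases E6_cases i with rfl | rfl | rfl | rfl | rfl | rfl
        all_goals simp only [E6_prod, E6_A, v.1, v.2.1, v.2.2.1, v.2.2.2.1, v.2.2.2.2.1, v.2.2.2.2.2,
          v0, v1, v2, v3, v4, v5]
        all_goals simp
        all_goals
          first
            | exact a3
            | (group; done)
            | (group; simp [zpow_neg, a3]; done)
            | (group; exact_mod_cast a3)
    exact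
      { toFun := fun w => ⟨w.1 (frE6 0), hto w⟩
        invFun := fun a => ⟨inv a.1, hmem a⟩
        left_inv := fun w => Subtype.ext (funext fun i => by
          obtain ⟨k0, k1, k2, k3, k4, k5⟩ := E6_twist_ker (Subgroup.mem_inf.1 w.2).2
          obtain ⟨v0, v1, v2, v3, v4, v5⟩ := hval (w.1 (frE6 0))
          show inv (w.1 (frE6 0)) i = w.1 i
          rcases E6_cases i with rfl | rfl | rfl | rfl | rfl | rfl
          · exact v0
          · rw [v1, k1]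
          · rw [v2, k2]
          · rw [v3, k3]
          · rw [v4, k4]
          · rw [v5, k5])
        right_inv := fun a => Subtype.ext (hval a.1).1 }
  rw [hg] at h
  rw [h]
  let F := {a : Kˣ // Units.map (σ : K →* K) a = a}
  let mk : (F × F) × (Kˣ × Kˣ) → Fin chevE6.rank → Kˣ := fun x i =>
    if i = frE6 1 then x.1.1.1 else if i = frE6 3 then x.1.2.1 else if i = frE6 0 then x.2.1 else
      if i = frE6 5 then Units.map (σ : K →* K) x.2.1 else if i = frE6 2 then x.2.2 else Units.map (σ : K →* K) x.2.2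
  have hne : frE6 3 ≠ frE6 1 ∧ frE6 0 ≠ frE6 1 ∧ frE6 0 ≠ frE6 3 ∧ frE6 5 ≠ frE6 1 ∧ frE6 5 ≠ frE6 3 ∧
      frE6 5 ≠ frE6 0 ∧ frE6 2 ≠ frE6 1 ∧ frE6 2 ≠ frE6 3 ∧ frE6 2 ≠ frE6 0 ∧ frE6 2 ≠ frE6 5 ∧
      frE6 4 ≠ frE6 1 ∧ frE6 4 ≠ frE6 3 ∧ frE6 4 ≠ frE6 0 ∧ frE6 4 ≠ frE6 5 ∧ frE6 4 ≠ frE6 2 := by decide +kernel
  obtain ⟨n31, n01, n03, n51, n53, n50, n21, n23, n20, n25, n41, n43, n40, n45, n42⟩ := hne
  have hm : ∀ x, mk x (frE6 0) = x.2.1 ∧ mk x (frE6 1) = x.1.1.1 ∧ mk x (frE6 2) = x.2.2 ∧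
      mk x (frE6 3) = x.1.2.1 ∧ mk x (frE6 4) = Units.map (σ : K →* K) x.2.2 ∧
      mk x (frE6 5) = Units.map (σ : K →* K) x.2.1 := fun x => by
    simp [mk, n31, n01, n03, n51, n53, n50, n21, n23, n20, n25, n41, n43, n40, n45, n42]
  have h2 : ∀ x : Kˣ, Units.map (σ : K →* K) (Units.map (σ : K →* K) x) = x := fun x =>
    Units.ext (E6_inv ho x)
  have hmk : ∀ x, mk x ∈ W.fixC := by
    intro x
    show W.hatC (mk x) = mk x
    obtain ⟨m0, m1, m2, m3, m4, m5⟩ := hm x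
    funext i
    rcases E6_cases i with rfl | rfl | rfl | rfl | rfl | rfl
    all_goals simp only [W, (E6_hatC _).1, (E6_hatC _).2.1, (E6_hatC _).2.2.1, (E6_hatC _).2.2.2.1,
      (E6_hatC _).2.2.2.2.1, (E6_hatC _).2.2.2.2.2, m0, m1, m2, m3, m4, m5, h2, x.1.1.2, x.1.2.2]
  have hb : Function.Bijective fun x => (⟨mk x, hmk x⟩ : ↥W.fixC) := by
    refine ⟨fun x y e => ?_, fun c => ?_⟩
    · have e' : mk x = mk y := Subtype.ext_iff.1 e
      refine Prod.ext (Prod.ext (Subtype.ext ?_) (Subtype.ext ?_)) (Prod.ext ?_ ?_)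
      · rw [← (hm x).2.1, ← (hm y).2.1, e']
      · rw [← (hm x).2.2.2.1, ← (hm y).2.2.2.1, e']
      · rw [← (hm x).1, ← (hm y).1, e']
      · rw [← (hm x).2.2.1, ← (hm y).2.2.1, e']
    · have hc : W.hatC c.1 = c.1 := c.2
      have f1 := congrFun hc (frE6 1)
      have f3 := congrFun hc (frE6 3)
      have f4 := congrFun hc (frE6 4)
      have f5 := congrFun hc (frE6 5)
      rw [(E6_hatC _).2.1] at f1
      rw [(E6_hatC _).2.2.2.1] at f3
      rw [(E6_hatC _).2.2.2.2.1] at f4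
      rw [(E6_hatC _).2.2.2.2.2] at f5
      refine ⟨((⟨c.1 (frE6 1), f1⟩, ⟨c.1 (frE6 3), f3⟩), (c.1 (frE6 0), c.1 (frE6 2))),
        Subtype.ext (funext fun i => ?_)⟩
      show mk _ i = c.1 i
      rcases E6_cases i with rfl | rfl | rfl | rfl | rfl | rfl
      · exact (hm _).1
      · exact (hm _).2.1
      · exact (hm _).2.2.1
      · exact (hm _).2.2.2.1
      · exact (hm _).2.2.2.2.1.trans f4
      · exact (hm _).2.2.2.2.2.trans f5
  rw [← Nat.card_eq_of_bijective _ hb, Nat.card_prod, Nat.card_prod, Nat.card_prod, card_fixed_units,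
    card_fixed_frob Nat.prime_two hq hK ho, card_units_eq, hK, hsq]
  ring

theorem E6_cards [Fintype K] {q : ℕ} (hq : IsPrimePow q) (hK : Fintype.card K = q ^ 2) :
    Nat.card ↥(chevE6.posUnipotent K ⊓ twistedE6 K q) = q ^ 36 ∧
    Nat.gcd 3 (q + 1) * Nat.card ↥(twistedE6 K q) = q ^ 36 * ((q - 1) ^ 4 * (q + 1) ^ 2) *
      evalL [1, 2, 4, 6, 9, 13, 17, 22, 26, 32, 37, 43, 47, 51, 55, 58, 61, 61, 62, 61, 61, 58, 55, 51, 47, 43, 37, 32,
        26, 22, 17, 13, 9, 6, 4, 2, 1] q := by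
  obtain ⟨σ, hσ, ho⟩ := exists_frob Nat.prime_two hq hK
  have hone : Nat.card {a : K // (σ ^ 1) a = a} = q ^ 1 := by
    rw [pow_one, pow_one]
    exact card_fixed_frob Nat.prime_two hq hK ho
  have htwo : Nat.card {a : K // (σ ^ 2) a = a} = q ^ 2 := by
    rw [Nat.card_congr (Equiv.subtypeUnivEquiv (E6_inv ho)), Nat.card_eq_fintype_card, hK]
  have := card_orth checkedE6 twE6_sym twE6_orb twE6_graph (genE6 hσ ho) (genE6_gen hσ ho) (q := q)
    (by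
      intro o
      rcases E6_orbs_cases o with rfl | rfl | rfl | rfl
      · exact hone
      · exact hone
      · exact htwo
      · exact htwo)
    pos_E6 (by decide +kernel) twE6_cert twE6_dist
  refine ⟨this.1, ?_⟩
  rw [this.2, ← E6_card_diag hq hK]
  show _ = q ^ 36 * _ * _
  rw [show chevE6.nroots / 2 = 36 from rfl]
  ring

theorem E6_short :
    let a := tabE6.pwf [frE6 3] (tabE6.p (frE6 1))
    let b := tabE6.pwf [frE6 1] (tabE6.p (frE6 3))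
    let s := tabE6.ng (tabE6.p (frE6 3))
    let t := tabE6.ng (tabE6.p (frE6 1))
    (s ≠ tabE6.ng a ∧ tabE6.nx a s = some (tabE6.p (frE6 1)) ∧ tabE6.nx a (tabE6.p (frE6 1)) = none ∧
      tabE6.nx s (tabE6.p (frE6 1)) = none ∧ (tabE6.M 1 a s).natAbs = 1) ∧
    (t ≠ tabE6.ng b ∧ tabE6.nx b t = some (tabE6.p (frE6 3)) ∧ tabE6.nx b (tabE6.p (frE6 3)) = none ∧
      tabE6.nx t (tabE6.p (frE6 3)) = none ∧ (tabE6.M 1 b t).natAbs = 1) ∧
    tabE6.commB twE6 [frE6 3] = true ∧ tabE6.commB twE6 [frE6 1] = true ∧ tabE6.commB twE6 [] = true ∧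
    twE6.J ⟨0, Nat.succ_pos _⟩ = [frE6 1] ∧ twE6.J ⟨1, by decide +kernel⟩ = [frE6 3] := by
  decide +kernel

theorem E6_perfect [Fintype K] {q : ℕ} (hq : IsPrimePow q) (hK : Fintype.card K = q ^ 2) :
    commutator ↥(twistedE6 K q) = ⊤ := by
  obtain ⟨σ, hσ, ho⟩ := exists_frob Nat.prime_two hq hK
  have hg := genE6_gen hσ ho
  obtain ⟨⟨a1, a2, a3, a4, a5⟩, ⟨b1, b2, b3, b4, b5⟩, c1, c2, c3, j0, j1⟩ := E6_short
  refine hg.perfect ?_ (genE6 hσ ho).hcl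
  intro o
  have hlong : ∀ o, (σ ^ ((genE6 hσ ho).R o).len) = σ ^ 2 → (twistOfE6 σ).Ufix ((orbsE6 σ).wO o) ≤ _ := fun o hl => by
    obtain ⟨a, ha⟩ := exists_sq_ne_one (K := K) (by
      rw [hK]
      calc 3 < 2 ^ 2 := by norm_num
        _ ≤ q ^ 2 := Nat.pow_le_pow_left hq.two_le 2)
    exact (genE6 hσ ho).derived_long hg o (a := a) (by rw [hl]; exact E6_inv ho a) ha
  rcases E6_orbs_cases o with rfl | rfl | rfl | rfl
  · exact (genE6 hσ ho).derived_short hg _ ⟨1, E6_lt1 σ⟩ (i := frE6 1) (k := frE6 3) j0 j1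
      (comm_of_check (hT := checkedE6) twE6_sym c1) (comm_of_check (hT := checkedE6) twE6_sym c3)
      (pwf_eq checkedE6 _ _).symm (s := tabE6.ng (tabE6.p (frE6 3))) rfl a1 a2 a3 a4 a5
  · exact (genE6 hσ ho).derived_short hg _ ⟨0, Nat.succ_pos _⟩ (i := frE6 3) (k := frE6 1) j1 j0
      (comm_of_check (hT := checkedE6) twE6_sym c2) (comm_of_check (hT := checkedE6) twE6_sym c3)
      (pwf_eq checkedE6 _ _).symm (s := tabE6.ng (tabE6.p (frE6 1))) rfl b1 b2 b3 b4 b5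
  · exact hlong _ rfl
  · exact hlong _ rfl

theorem E6_simple [Fintype K] {q : ℕ} (hq : IsPrimePow q) (hK : Fintype.card K = q ^ 2) :
    IsSimpleGroup ↥(twistedE6 K q) ∧ ¬ IsMulCommutative ↥(twistedE6 K q) := by
  obtain ⟨σ, hσ, ho⟩ := exists_frob Nat.prime_two hq hK
  exact (genE6_gen hσ ho).simple (Nat.succ_pos _)
    (conn_of checkedE6 twE6_sym twE6_orb twE6_conn) (E6_perfect hq hK)

theorem E6_coxO : tabE6.coxOB twE6 (fun a b => CoxeterMatrix.F₄.M a b) = true := by decide +kernel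

end CfsgLib.Lie
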