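/-
Products over a part of the positive roots.
-/
import Cfsg.Agent.Lib.LieTwistCheck

set_option autoImplicit false
set_option maxHeartbeats 400000

namespace CfsgLib.Lie

open Cfsg.Lie

namespace Tab

variable {D : ChevalleyDatum} {T : Tab D} {K : Type*} [Field K] (hT : T.Checked)

include hT in
theorem uprod_filter (p : Fin D.nroots → Bool) {f : Fin D.nroots → K} (h : ∀ r, p r = false → f r = 0) :
    ∀ L : List (Fin D.nroots), uprod hT L f = uprod hT (L.filter p) f
  | [] => rfl
  | r :: L => by
    have ih := uprod_filter p h L
    simp only [uprod] at ih ⊢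
    by_cases hr : p r = true
    · rw [List.filter_cons_of_pos hr, List.map_cons, List.prod_cons, List.map_cons, List.prod_cons, ih]
    · rw [List.filter_cons_of_neg hr, List.map_cons, List.prod_cons, h r (by simpa using hr), u_zero, one_mul, ih]

/-- The positive roots supported on a set of nodes. -/
def suppList (T : Tab D) (J : List (Fin D.rank)) : List (Fin D.nroots) :=
  (List.finRange D.nroots).filter fun r => T.posB r && T.suppB J r

theorem mem_suppList {J : List (Fin D.rank)} {r : Fin D.nroots} :
    r ∈ suppList T J ↔ r ∈ rootsOf T J := by
  simp only [suppList, suppB, List.mem_filter, List.mem_finRange, true_and, Bool.and_eq_true, posB_iff,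
    List.all_eq_true, Bool.or_eq_true, decide_eq_true_eq, List.contains_iff_mem, forall_const, rootsOf,
    Set.mem_setOf_eq]
  exact and_congr_right fun _ => forall_congr' fun m => ⟨fun h hm => h.resolve_left hm, fun h => or_iff_not_imp_left.2 h⟩

theorem posFrom_supp (J : List (Fin D.rank)) :
    (posFrom T 0).filter (fun r => T.suppB J r) = suppList T J := by
  classical
  unfold posFrom suppList
  rw [List.filter_filter]
  refine List.filter_congr fun r _ => ?_
  rw [Bool.and_comm]
  congr 1
  rw [decide_eq_decide.2 (and_iff_left (Nat.zero_le _))]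
  rw [Bool.eq_iff_iff, decide_eq_true_iff, posB_iff]

include hT in
theorem supp_coords (hE : ∀ r, T.extraB r = true) {J L : List (Fin D.rank)}
    (hJ : negSet T (pw hT L) = rootsOf T J) {g : GL D.Idx K} (hg : g ∈ Ugrp hT K (negSet T (pw hT L))) :
    ∃ f : Fin D.nroots → K, g = ((suppList T J).map fun r => u hT r (f r)).prod := by
  obtain ⟨t, ht0, ht⟩ := coords_of_closed hT hE (fun r hr => hr.1) (closed_negSet hT L) hg
  let t' : Fin D.nroots → K := fun r => if T.suppB J r then t r else 0
  have e : uprod hT (posFrom T 0) t = uprod hT (posFrom T 0) t' := by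
    refine uprod_congr hT fun r hr => ?_
    simp only [t']
    split_ifs with h
    · rfl
    · refine ht0 r fun hn => h ?_
      rw [hJ] at hn
      have := (mem_suppList (T := T)).2 hn
      simp only [suppList, List.mem_filter, Bool.and_eq_true] at this
      exact this.2.2
  refine ⟨t', ?_⟩
  rw [ht, e, uprod_filter hT (fun r => T.suppB J r) (fun r hr => by simp [t', hr]) _, posFrom_supp]
  rfl

include hT in
theorem supp_inj {J : List (Fin D.rank)} {f g : Fin D.nroots → K}
    (h : ((suppList T J).map fun r => u hT r (f r)).prod = ((suppList T J).map fun r => u hT r (g r)).prod) :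
    ∀ r ∈ suppList T J, f r = g r := by
  have key : ∀ f : Fin D.nroots → K, uprod hT (posFrom T 0) (fun r => if T.suppB J r then f r else 0) =
      ((suppList T J).map fun r => u hT r (f r)).prod := fun f => by
    rw [uprod_filter hT (fun r => T.suppB J r) (fun r hr => by simp [hr]) _, posFrom_supp]
    unfold uprod
    congr 1
    refine List.map_congr_left fun r hr => ?_
    simp only [suppList, List.mem_filter, Bool.and_eq_true] at hr
    simp [hr.2.2]
  intro r hr
  simp only [suppList, List.mem_filter, Bool.and_eq_true] at hr
  have := uprod_injective hT ((key f).trans (h.trans (key g).symm)) r ((posB_iff r).1 hr.2.1)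
  simpa [hr.2.2] using this

end Tab

end CfsgLib.Lie
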