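/-
The Ree groups of type ²F₄: the twisting endomorphism and the generating words.
-/
import Cfsg.Agent.Lib.LieIsoRoot
import Cfsg.Agent.Lib.LieUprod
import Cfsg.Agent.Lib.LieTwistTorus
import Cfsg.Agent.Lib.LieTwistKer
import Cfsg.Agent.Lib.LieTwistDataF4
import Cfsg.Agent.Lib.LieIsoDataF4
import Cfsg.Agent.Lib.LieExtraF4
import Cfsg.Prelude.Def_LieTwisted

set_option autoImplicit false
set_option maxHeartbeats 1000000
set_option maxRecDepth 20000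

namespace CfsgLib.Lie

open Cfsg.Lie Tab

/-- A root of F₄ from its number. -/
def rtF4 (x : ℕ) : Fin chevF4.nroots := ⟨Nat.mod x chevF4.nroots, Nat.mod_lt _ pos_F4⟩

theorem isoF4_root : tabF4.rootImgB isoF4 = true := by decide +kernel

theorem isoF4_p : isoF4.p = 2 := by decide +kernel

theorem isoF4_sym : (∀ r, twF4.rho r = isoF4.rho r) ∧ (∀ i, twF4.rhoi i = isoF4.rhoi i) := by decide +kernel

theorem F4_tab : isoF4.rho (rtF4 33) = rtF4 24 ∧ isoF4.rho (rtF4 24) = rtF4 33 ∧ isoF4.rho (rtF4 14) = rtF4 23 ∧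
    isoF4.rho (rtF4 23) = rtF4 14 ∧ isoF4.rho (rtF4 27) = rtF4 25 ∧ isoF4.rho (rtF4 25) = rtF4 27 ∧
    isoF4.rho (rtF4 28) = rtF4 30 ∧ isoF4.rho (rtF4 30) = rtF4 28 ∧ isoF4.rho (rtF4 20) = rtF4 22 ∧
    isoF4.rho (rtF4 22) = rtF4 20 ∧ isoF4.rho (rtF4 19) = rtF4 17 ∧ isoF4.rho (rtF4 17) = rtF4 19 ∧
    isoF4.exR (rtF4 33) = 2 ∧ isoF4.exR (rtF4 24) = 1 ∧ isoF4.exR (rtF4 14) = 2 ∧ isoF4.exR (rtF4 23) = 1 ∧
    isoF4.exR (rtF4 27) = 2 ∧ isoF4.exR (rtF4 25) = 1 ∧ isoF4.exR (rtF4 28) = 2 ∧ isoF4.exR (rtF4 30) = 1 ∧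
    isoF4.exR (rtF4 20) = 2 ∧ isoF4.exR (rtF4 22) = 1 ∧ isoF4.exR (rtF4 19) = 2 ∧ isoF4.exR (rtF4 17) = 1 := by
  decide +kernel

theorem F4_val : (rtF4 33).val = f4p1 ∧ (rtF4 24).val = f4p4 ∧ (rtF4 14).val = f4m1 ∧ (rtF4 23).val = f4m4 ∧
    (rtF4 27).val = f4a ∧ (rtF4 25).val = f4b ∧ (rtF4 28).val = f4ab ∧ (rtF4 30).val = f4aab ∧
    (rtF4 20).val = f4ma ∧ (rtF4 22).val = f4mb ∧ (rtF4 19).val = f4mab ∧ (rtF4 17).val = f4maab := by decide +kernel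

theorem F4_terms :
    chevF4.commTerms (rtF4 27).val (rtF4 25).val = [(28, -1, 1, 1), (30, -1, 2, 1)] ∧
    chevF4.commTerms (rtF4 20).val (rtF4 22).val = [(19, 1, 1, 1), (17, -1, 2, 1)] ∧
    chevF4.commTerms (rtF4 28).val (rtF4 30).val = [] ∧ chevF4.commTerms (rtF4 19).val (rtF4 17).val = [] ∧
    chevF4.commTerms (rtF4 33).val (rtF4 24).val = [] ∧ chevF4.commTerms (rtF4 14).val (rtF4 23).val = [] ∧
    rtF4 25 ≠ tabF4.ng (rtF4 27) ∧ rtF4 22 ≠ tabF4.ng (rtF4 20) ∧ rtF4 30 ≠ tabF4.ng (rtF4 28) ∧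
    rtF4 17 ≠ tabF4.ng (rtF4 19) ∧ rtF4 24 ≠ tabF4.ng (rtF4 33) ∧ rtF4 23 ≠ tabF4.ng (rtF4 14) := by decide +kernel

variable {K : Type*} [Field K]

theorem F4_commute {a b : Fin chevF4.nroots} (h : chevF4.commTerms a.val b.val = []) (hne : b ≠ tabF4.ng a) (x y : K) :
    Commute (u checkedF4 a x) (u checkedF4 b y) := by
  have hc := comm_formula (F := K) checkedF4 F4_extra hne x y
  rw [h, termsMat, mul_one] at hc
  exact (Units.ext hc).symm

variable [CharP K 2]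

theorem F4_neg_eq (x : K) : -x = x := CharTwo.neg_eq x

/-- The B₂ swap. -/
theorem F4_swap {a b c d : Fin chevF4.nroots} {e : ℤ} (h : chevF4.commTerms a.val b.val = [(c.val, e, 1, 1), (d.val, -1, 2, 1)])
    (he : e = 1 ∨ e = -1) (hne : b ≠ tabF4.ng a) (A B : K) :
    u checkedF4 b B * u checkedF4 a A =
      u checkedF4 a A * u checkedF4 b B * u checkedF4 c (A * B) * u checkedF4 d (A ^ 2 * B) := by
  apply Units.ext
  have := comm_formula (F := K) checkedF4 F4_extra hne A B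
  simp only [h, termsMat, dif_pos c.isLt, dif_pos d.isLt, mul_one, ← mul_assoc, Fin.eta] at this
  simp only [Units.val_mul, coe_u]
  rw [this]
  have he' : ((e : ℤ) : K) = 1 := by rcases he with rfl | rfl <;> simp [CharTwo.neg_eq]
  congr 1
  · congr 1
    congr 1
    simp [he', F4_neg_eq]
  · congr 1
    simp [F4_neg_eq]

/-- The word of an orthogonal pair. -/
noncomputable def pairProd (a b : Fin chevF4.nroots) (E : ℕ) (t : K) : GL chevF4.Idx K :=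
  u checkedF4 a (t ^ E) * u checkedF4 b t

/-- The word of a class of type B₂. -/
noncomputable def b2Prod (a b c d : Fin chevF4.nroots) (E : ℕ) (t x : K) : GL chevF4.Idx K :=
  u checkedF4 a (t ^ E) * u checkedF4 b t * u checkedF4 c (t ^ (E + 1) + x) * u checkedF4 d (x ^ (2 * E))

section twist

variable (θ : K ≃+* K)

/-- The twisting endomorphism of F₄. -/
noncomputable def tauF4 : GL chevF4.Idx K → GL chevF4.Idx K :=
  haveI : CharP K isoF4.p := isoF4_p ▸ ‹CharP K 2›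
  (exists_rootMap checkedF4 F4_extra isoF4_ideal isoF4_span isoF4_gen isoF4_root θ).choose

theorem tauF4_spec : (∀ g ∈ chevF4.group K, tauF4 θ g ∈ chevF4.group K) ∧
    (∀ g ∈ chevF4.group K, ∀ g' ∈ chevF4.group K, tauF4 θ (g * g') = tauF4 θ g * tauF4 θ g') ∧
    ∀ r (t : K), tauF4 θ (u checkedF4 r t) = u checkedF4 (isoF4.rho r) (θ t ^ isoF4.exR r) :=
  haveI : CharP K isoF4.p := isoF4_p ▸ ‹CharP K 2›
  (exists_rootMap checkedF4 F4_extra isoF4_ideal isoF4_span isoF4_gen isoF4_root θ).choose_spec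

variable [PerfectRing K 2]

/-- The automorphisms of the field on the simple roots. -/
noncomputable def phiF4 (i : Fin chevF4.rank) : K ≃+* K :=
  if i.val ≤ 1 then θ.trans (frobeniusEquiv K 2) else θ

theorem phiF4_spec (i : Fin chevF4.rank) (t : K) :
    phiF4 θ i t = θ t ^ isoF4.exR (tabF4.p i) ∧ phiF4 θ i t = θ t ^ isoF4.exR (tabF4.ng (tabF4.p i)) := by
  have h : ∀ j : Fin chevF4.rank, isoF4.exR (tabF4.p j) = (if j.val ≤ 1 then 2 else 1) ∧
      isoF4.exR (tabF4.ng (tabF4.p j)) = (if j.val ≤ 1 then 2 else 1) := by decide +kernel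
  obtain ⟨h1, h2⟩ := h i
  rw [h1, h2, phiF4]
  split_ifs <;> simp [frobeniusEquiv_def, frobenius_def]

/-- The twist. -/
noncomputable def twistOfF4 : Twist checkedF4 K where
  toSym := symOf twF4_sym
  τ := tauF4 θ
  φ := phiF4 θ
  τ_mem := (tauF4_spec θ).1
  τ_mul := (tauF4_spec θ).2.1
  τ_p i t := by
    rw [(tauF4_spec θ).2.2, ← (phiF4_spec θ i t).1, ← (symOf twF4_sym).ρ_p i, ← isoF4_sym.1]
    rfl
  τ_n i t := by
    rw [(tauF4_spec θ).2.2, ← (phiF4_spec θ i t).2, ← (symOf twF4_sym).ρ_p i, ← (symOf twF4_sym).ρ_ng,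
      ← isoF4_sym.1]
    rfl

/-- The orbits. -/
noncomputable def orbsF4 : Orbs checkedF4 (twistOfF4 θ).toSym := orbsOf checkedF4 twF4_sym twF4_orb

variable {E : ℕ} (hθ : ∀ x : K, θ x = x ^ E) (hE : ∀ x : K, θ (θ x) ^ 2 = x)

omit [CharP K 2] [PerfectRing K 2] in
theorem pairProd_mem (a b : Fin chevF4.nroots) (t : K) : pairProd a b E t ∈ chevF4.group K :=
  mul_mem (u_mem_group _ _ _) (u_mem_group _ _ _)

omit [CharP K 2] [PerfectRing K 2] in
theorem b2Prod_mem (a b c d : Fin chevF4.nroots) (t x : K) : b2Prod a b c d E t x ∈ chevF4.group K :=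
  mul_mem (mul_mem (mul_mem (u_mem_group _ _ _) (u_mem_group _ _ _)) (u_mem_group _ _ _)) (u_mem_group _ _ _)

include hθ hE in
theorem pairProd_fixed {a b : Fin chevF4.nroots} (hρ : isoF4.rho a = b ∧ isoF4.rho b = a)
    (hx : isoF4.exR a = 2 ∧ isoF4.exR b = 1)
    (hc : ∀ z w : K, Commute (u checkedF4 a z) (u checkedF4 b w)) (t : K) :
    (twistOfF4 θ).τ (pairProd a b E t) = pairProd a b E t := by
  show tauF4 θ _ = _
  unfold pairProd
  rw [(tauF4_spec θ).2.1 _ (u_mem_group _ _ _) _ (u_mem_group _ _ _)]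
  simp only [(tauF4_spec θ).2.2, hρ.1, hρ.2, hx.1, hx.2, pow_one]
  rw [show θ (t ^ E) ^ 2 = t by rw [← hθ t, hE], hθ t]
  exact (hc _ _).symm.eq

include hθ hE in
theorem b2Prod_fixed {a b c d : Fin chevF4.nroots}
    (hρ : isoF4.rho a = b ∧ isoF4.rho b = a ∧ isoF4.rho c = d ∧ isoF4.rho d = c)
    (hx : isoF4.exR a = 2 ∧ isoF4.exR b = 1 ∧ isoF4.exR c = 2 ∧ isoF4.exR d = 1)
    (hswap : ∀ A B : K, u checkedF4 b B * u checkedF4 a A =
      u checkedF4 a A * u checkedF4 b B * u checkedF4 c (A * B) * u checkedF4 d (A ^ 2 * B))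
    (hc : ∀ z w : K, Commute (u checkedF4 c z) (u checkedF4 d w)) (t x : K) :
    (twistOfF4 θ).τ (b2Prod a b c d E t x) = b2Prod a b c d E t x := by
  obtain ⟨r1, r2, r3, r4⟩ := hρ
  obtain ⟨x1, x2, x3, x4⟩ := hx
  have hm := fun r z => u_mem_group (F := K) checkedF4 r z
  show tauF4 θ _ = _
  unfold b2Prod
  rw [(tauF4_spec θ).2.1 _ (mul_mem (mul_mem (hm _ _) (hm _ _)) (hm _ _)) _ (hm _ _),
    (tauF4_spec θ).2.1 _ (mul_mem (hm _ _) (hm _ _)) _ (hm _ _), (tauF4_spec θ).2.1 _ (hm _ _) _ (hm _ _)]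
  simp only [(tauF4_spec θ).2.2, r1, r2, r3, r4, x1, x2, x3, x4, pow_one]
  have k : ∀ z : K, θ (z ^ E) ^ 2 = z := fun z => by rw [← hθ z, hE]
  have k2 : θ (t ^ (E + 1) + x) ^ 2 = t * (t ^ E) ^ 2 + x ^ (2 * E) := by
    rw [map_add, add_pow_char, show t ^ (E + 1) = t ^ E * t from pow_succ t E, map_mul, mul_pow, k, hθ t, hθ x,
      ← pow_mul, ← pow_mul, mul_comm E 2]
  have k3 : θ (x ^ (2 * E)) = x := by rw [mul_comm 2 E, pow_mul, map_pow, k]
  rw [k, k2, k3, hθ t, hswap (t ^ E) t]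
  calc u checkedF4 a (t ^ E) * u checkedF4 b t * u checkedF4 c (t ^ E * t) * u checkedF4 d ((t ^ E) ^ 2 * t) *
        u checkedF4 d (t * (t ^ E) ^ 2 + x ^ (2 * E)) * u checkedF4 c x
      = u checkedF4 a (t ^ E) * u checkedF4 b t * (u checkedF4 c (t ^ E * t) *
          ((u checkedF4 d ((t ^ E) ^ 2 * t) * u checkedF4 d (t * (t ^ E) ^ 2 + x ^ (2 * E))) * u checkedF4 c x)) := by
        simp only [mul_assoc]
    _ = u checkedF4 a (t ^ E) * u checkedF4 b t * (u checkedF4 c (t ^ E * t) *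
          (u checkedF4 c x * u checkedF4 d (x ^ (2 * E)))) := by
        rw [u_add, ← (hc x _).eq, ← add_assoc, mul_comm t ((t ^ E) ^ 2), CharTwo.add_self_eq_zero, zero_add]
    _ = _ := by rw [← mul_assoc (u checkedF4 c (t ^ E * t)), u_add, ← pow_succ]; simp only [mul_assoc]

/-- The positive pair word. -/
noncomputable abbrev pairU (E : ℕ) (t : K) : GL chevF4.Idx K := pairProd (rtF4 33) (rtF4 24) E t
/-- The negative pair word. -/
noncomputable abbrev pairV (E : ℕ) (t : K) : GL chevF4.Idx K := pairProd (rtF4 14) (rtF4 23) E t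
/-- The positive B₂ word. -/
noncomputable abbrev b2U (E : ℕ) (t x : K) : GL chevF4.Idx K :=
  b2Prod (rtF4 27) (rtF4 25) (rtF4 28) (rtF4 30) E t x
/-- The negative B₂ word. -/
noncomputable abbrev b2V (E : ℕ) (t x : K) : GL chevF4.Idx K :=
  b2Prod (rtF4 20) (rtF4 22) (rtF4 19) (rtF4 17) E t x

omit [PerfectRing K 2] in
theorem F4_swapU (A B : K) : u checkedF4 (rtF4 25) B * u checkedF4 (rtF4 27) A =
    u checkedF4 (rtF4 27) A * u checkedF4 (rtF4 25) B * u checkedF4 (rtF4 28) (A * B) * u checkedF4 (rtF4 30) (A ^ 2 * B) :=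
  F4_swap (e := -1) (by rw [F4_terms.1]; rfl) (Or.inr rfl) F4_terms.2.2.2.2.2.2.1 A B

include hθ hE in
theorem F4_word_fixed (t x : K) : pairU E t ∈ (twistOfF4 θ).fixed ∧ pairV E t ∈ (twistOfF4 θ).fixed ∧
    b2U E t x ∈ (twistOfF4 θ).fixed ∧ b2V E t x ∈ (twistOfF4 θ).fixed := by
  obtain ⟨r33, r24, r14, r23, r27, r25, r28, r30, r20, r22, r19, r17, x33, x24, x14, x23, x27, x25, x28, x30, x20,
    x22, x19, x17⟩ := F4_tab
  obtain ⟨t1, t2, t3, t4, t5, t6, n1, n2, n3, n4, n5, n6⟩ := F4_terms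
  refine ⟨⟨pairProd_mem _ _ _, pairProd_fixed θ hθ hE ⟨r33, r24⟩ ⟨x33, x24⟩ (fun z w => F4_commute t5 n5 z w) t⟩,
    ⟨pairProd_mem _ _ _, pairProd_fixed θ hθ hE ⟨r14, r23⟩ ⟨x14, x23⟩ (fun z w => F4_commute t6 n6 z w) t⟩,
    ⟨b2Prod_mem _ _ _ _ _ _, b2Prod_fixed θ hθ hE ⟨r27, r25, r28, r30⟩ ⟨x27, x25, x28, x30⟩ (F4_swapU)
      (fun z w => F4_commute t3 n3 z w) t x⟩,
    ⟨b2Prod_mem _ _ _ _ _ _, b2Prod_fixed θ hθ hE ⟨r20, r22, r19, r17⟩ ⟨x20, x22, x19, x17⟩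
      (F4_swap (e := 1) (by rw [t2]; rfl) (Or.inl rfl) n2) (fun z w => F4_commute t4 n4 z w) t x⟩⟩

omit [PerfectRing K 2] in
theorem b2U_standard (E : ℕ) (t x : K) : b2U E t x = u checkedF4 (rtF4 25) t * u checkedF4 (rtF4 27) (t ^ E) *
    u checkedF4 (rtF4 28) x * u checkedF4 (rtF4 30) (x ^ (2 * E) + (t ^ E) ^ 2 * t) := by
  obtain ⟨-, -, t3, -, -, -, -, -, n3, -⟩ := F4_terms
  rw [F4_swapU]
  calc u checkedF4 (rtF4 27) (t ^ E) * u checkedF4 (rtF4 25) t * u checkedF4 (rtF4 28) (t ^ (E + 1) + x) *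
        u checkedF4 (rtF4 30) (x ^ (2 * E))
      = u checkedF4 (rtF4 27) (t ^ E) * u checkedF4 (rtF4 25) t *
          (u checkedF4 (rtF4 28) (t ^ E * t) * u checkedF4 (rtF4 28) x) *
          (u checkedF4 (rtF4 30) ((t ^ E) ^ 2 * t) * u checkedF4 (rtF4 30) (x ^ (2 * E) + (t ^ E) ^ 2 * t)) := by
        rw [u_add, u_add, ← pow_succ, add_left_comm, CharTwo.add_self_eq_zero, add_zero]
    _ = u checkedF4 (rtF4 27) (t ^ E) * u checkedF4 (rtF4 25) t * u checkedF4 (rtF4 28) (t ^ E * t) *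
          (u checkedF4 (rtF4 28) x * u checkedF4 (rtF4 30) ((t ^ E) ^ 2 * t)) *
          u checkedF4 (rtF4 30) (x ^ (2 * E) + (t ^ E) ^ 2 * t) := by simp only [mul_assoc]
    _ = _ := by rw [(F4_commute t3 n3 x ((t ^ E) ^ 2 * t)).eq]; simp only [mul_assoc]

end twist

end CfsgLib.Lie
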