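/-
The Ree groups of type ²F₄ as fixed points; order, simplicity.
-/
import Cfsg.Agent.Lib.LieTwistF4

set_option autoImplicit false
set_option maxHeartbeats 1000000
set_option maxRecDepth 20000

namespace CfsgLib.Lie

open Cfsg.Lie Tab

variable {K : Type*} [Field K]

theorem F4_cases (i : Fin chevF4.rank) : i = frF4 0 ∨ i = frF4 1 ∨ i = frF4 2 ∨ i = frF4 3 := by
  revert i; decide +kernel

theorem F4_rhoiInv : twF4.rhoiInv (frF4 0) = frF4 3 ∧ twF4.rhoiInv (frF4 1) = frF4 2 ∧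
    twF4.rhoiInv (frF4 2) = frF4 1 ∧ twF4.rhoiInv (frF4 3) = frF4 0 := by decide +kernel

theorem F4_negO_check : ∀ o : Fin twF4.n, negOB tabF4 (twF4.J o) (twF4.wl o) = true := by decide +kernel

theorem F4_suppList : suppList tabF4 (twF4.J ⟨0, Nat.zero_lt_two⟩) = [rtF4 24, rtF4 33] ∧
    suppList tabF4 (twF4.J ⟨1, Nat.one_lt_two⟩) = [rtF4 25, rtF4 27, rtF4 28, rtF4 30] := by decide +kernel

theorem F4_J : twF4.J ⟨0, Nat.zero_lt_two⟩ = [frF4 0, frF4 3] ∧ twF4.J ⟨1, Nat.one_lt_two⟩ = [frF4 1, frF4 2] ∧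
    tabF4.p (frF4 0) = rtF4 33 ∧ tabF4.p (frF4 3) = rtF4 24 ∧ tabF4.p (frF4 1) = rtF4 27 ∧
    tabF4.p (frF4 2) = rtF4 25 ∧ tabF4.ng (rtF4 33) = rtF4 14 ∧ tabF4.ng (rtF4 24) = rtF4 23 ∧
    tabF4.ng (rtF4 27) = rtF4 20 ∧ tabF4.ng (rtF4 25) = rtF4 22 ∧ tabF4.ng (rtF4 28) = rtF4 19 ∧
    tabF4.ng (rtF4 30) = rtF4 17 := by decide +kernel

theorem F4_wordMat_pair (a b : Fin chevF4.nroots) (E : ℕ) (t : K) :
    ((pairProd a b E t : GL chevF4.Idx K) : Matrix chevF4.Idx chevF4.Idx K) =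
      chevF4.wordMat K (f4PairWord E a.val b.val t) := by
  simp only [pairProd, Units.val_mul, coe_u_eq_x, ChevalleyDatum.wordMat, f4PairWord, List.map_cons, List.map_nil,
    List.prod_cons, List.prod_nil, mul_one]

theorem F4_wordMat_b2 (a b c d : Fin chevF4.nroots) (E : ℕ) (t x : K) :
    ((b2Prod a b c d E t x : GL chevF4.Idx K) : Matrix chevF4.Idx chevF4.Idx K) =
      chevF4.wordMat K (b2ClassWord E a.val b.val c.val d.val t x) := by
  simp only [b2Prod, Units.val_mul, coe_u_eq_x, ChevalleyDatum.wordMat, b2ClassWord, List.map_cons, List.map_nil,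
    List.prod_cons, List.prod_nil, mul_one, mul_assoc]

theorem twistedF4_eq (E : ℕ) :
    twistedF4 K E = Subgroup.closure {g | ∃ t x : K, g = pairU E t ∨ g = pairV E t ∨ g = b2U E t x ∨ g = b2V E t x} := by
  obtain ⟨v33, v24, v14, v23, v27, v25, v28, v30, v20, v22, v19, v17⟩ := F4_val
  unfold twistedF4 ChevalleyDatum.genSubgroup
  congr 1
  ext g
  simp only [f4Words, Set.mem_union, Set.mem_setOf_eq, pairU, pairV, b2U, b2V]
  constructor
  · rintro ⟨w, (⟨t, rfl | rfl⟩ | ⟨t, x, rfl | rfl⟩), e⟩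
    · exact ⟨t, 0, Or.inl (Units.ext (by rw [F4_wordMat_pair, v33, v24, e]))⟩
    · exact ⟨t, 0, Or.inr (Or.inl (Units.ext (by rw [F4_wordMat_pair, v14, v23, e])))⟩
    · exact ⟨t, x, Or.inr (Or.inr (Or.inl (Units.ext (by rw [F4_wordMat_b2, v27, v25, v28, v30, e]))))⟩
    · exact ⟨t, x, Or.inr (Or.inr (Or.inr (Units.ext (by rw [F4_wordMat_b2, v20, v22, v19, v17, e]))))⟩
  · rintro ⟨t, x, rfl | rfl | rfl | rfl⟩
    · exact ⟨_, Or.inl ⟨t, Or.inl rfl⟩, by rw [F4_wordMat_pair, v33, v24]⟩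
    · exact ⟨_, Or.inl ⟨t, Or.inr rfl⟩, by rw [F4_wordMat_pair, v14, v23]⟩
    · exact ⟨_, Or.inr ⟨t, x, Or.inl rfl⟩, by rw [F4_wordMat_b2, v27, v25, v28, v30]⟩
    · exact ⟨_, Or.inr ⟨t, x, Or.inr rfl⟩, by rw [F4_wordMat_b2, v20, v22, v19, v17]⟩

theorem F4_mem (E : ℕ) (t x : K) : pairU E t ∈ twistedF4 K E ∧ pairV E t ∈ twistedF4 K E ∧
    b2U E t x ∈ twistedF4 K E ∧ b2V E t x ∈ twistedF4 K E := by
  rw [twistedF4_eq]
  exact ⟨Subgroup.subset_closure ⟨t, x, Or.inl rfl⟩, Subgroup.subset_closure ⟨t, x, Or.inr (Or.inl rfl)⟩,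
    Subgroup.subset_closure ⟨t, x, Or.inr (Or.inr (Or.inl rfl))⟩,
    Subgroup.subset_closure ⟨t, x, Or.inr (Or.inr (Or.inr rfl))⟩⟩

/-- The conditions on the automorphism of the field. -/
structure ReeParamF4 (K : Type*) [Field K] (θ : K ≃+* K) (E : ℕ) : Prop where
  hθ : ∀ x : K, θ x = x ^ E
  hE : ∀ x : K, θ (θ x) ^ 2 = x
  pos : 0 < E

variable [CharP K 2] [PerfectRing K 2] {θ : K ≃+* K} {E : ℕ} (P : ReeParamF4 K θ E)

/-- The first orbit. -/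
noncomputable abbrev o0F4 (θ : K ≃+* K) : Fin (orbsF4 θ).n := ⟨0, Nat.zero_lt_two⟩
/-- The second orbit. -/
noncomputable abbrev o1F4 (θ : K ≃+* K) : Fin (orbsF4 θ).n := ⟨1, Nat.one_lt_two⟩

theorem F4_orb_cases (o : Fin (orbsF4 θ).n) : o = o0F4 θ ∨ o = o1F4 θ := by
  rcases o with ⟨_ | _ | o, h⟩
  · exact Or.inl rfl
  · exact Or.inr rfl
  · exact absurd h (by show ¬ o + 1 + 1 < 2; omega)

theorem F4_mem_roots0 (r : Fin chevF4.nroots) :
    r ∈ rootsOf tabF4 ((orbsF4 θ).J (o0F4 θ)) ↔ r = rtF4 24 ∨ r = rtF4 33 := by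
  show r ∈ rootsOf tabF4 (twF4.J ⟨0, Nat.zero_lt_two⟩) ↔ _
  rw [← mem_suppList, F4_suppList.1]; simp

theorem F4_mem_roots1 (r : Fin chevF4.nroots) :
    r ∈ rootsOf tabF4 ((orbsF4 θ).J (o1F4 θ)) ↔ r = rtF4 25 ∨ r = rtF4 27 ∨ r = rtF4 28 ∨ r = rtF4 30 := by
  show r ∈ rootsOf tabF4 (twF4.J ⟨1, Nat.one_lt_two⟩) ↔ _
  rw [← mem_suppList, F4_suppList.2]; simp

theorem F4_negO (o : Fin (orbsF4 θ).n) :
    ∀ j ∈ (orbsF4 θ).J o, ∀ r, tabF4.A j ((orbsF4 θ).wO o r) = - tabF4.A j r :=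
  fun j hj r => negOB_sound (F4_negO_check o) j hj r

include P in
theorem le_fixedF4 : twistedF4 K E ≤ (twistOfF4 θ).fixed := by
  rw [twistedF4_eq, Subgroup.closure_le]
  rintro g ⟨t, x, rfl | rfl | rfl | rfl⟩
  · exact (F4_word_fixed θ P.hθ P.hE t x).1
  · exact (F4_word_fixed θ P.hθ P.hE t x).2.1
  · exact (F4_word_fixed θ P.hθ P.hE t x).2.2.1
  · exact (F4_word_fixed θ P.hθ P.hE t x).2.2.2

include P in
theorem Ufix0_words {v : GL chevF4.Idx K} (hv : v ∈ (twistOfF4 θ).Ufix ((orbsF4 θ).wO (o0F4 θ))) :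
    ∃ t, v = pairU E t := by
  obtain ⟨hv1, hv2⟩ := Subgroup.mem_inf.1 hv
  obtain ⟨f, rfl⟩ := supp_coords checkedF4 F4_extra (J := twF4.J ⟨0, Nat.zero_lt_two⟩)
    (L := (orbsF4 θ).wl (o0F4 θ)) ((orbsF4 θ).negSet_wO (o0F4 θ)) hv1
  have e := hv2.2
  rw [F4_suppList.1] at e ⊢
  obtain ⟨r33, r24, -, -, -, -, -, -, -, -, -, -, x33, x24, -⟩ := F4_tab
  simp only [List.map_cons, List.map_nil, List.prod_cons, List.prod_nil, mul_one] at e ⊢
  change tauF4 θ _ = _ at e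
  rw [(tauF4_spec θ).2.1 _ (u_mem_group _ _ _) _ (u_mem_group _ _ _)] at e
  simp only [(tauF4_spec θ).2.2, r33, r24, x33, x24, pow_one] at e
  obtain ⟨-, -, -, -, t5, -, -, -, -, -, n5, -⟩ := F4_terms
  rw [(F4_commute t5 n5 (θ (f (rtF4 24))) (θ (f (rtF4 33)) ^ 2)).eq] at e
  let g : Fin chevF4.nroots → K := fun r => if r = rtF4 24 then θ (f (rtF4 33)) ^ 2 else θ (f (rtF4 24))
  have hg : g (rtF4 24) = θ (f (rtF4 33)) ^ 2 ∧ g (rtF4 33) = θ (f (rtF4 24)) := ⟨if_pos rfl, if_neg (by decide +kernel)⟩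
  have key := supp_inj checkedF4 (J := twF4.J ⟨0, Nat.zero_lt_two⟩) (f := g) (g := f)
    (by rw [F4_suppList.1]; simpa [hg.1, hg.2] using e)
  rw [F4_suppList.1] at key
  have h1 := key (rtF4 33) (by simp)
  rw [hg.2, P.hθ] at h1
  refine ⟨f (rtF4 24), ?_⟩
  rw [← h1]
  exact (F4_commute t5 n5 _ _).symm.eq

include P in
theorem Ufix1_words {v : GL chevF4.Idx K} (hv : v ∈ (twistOfF4 θ).Ufix ((orbsF4 θ).wO (o1F4 θ))) :
    ∃ t x, v = b2U E t x := by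
  obtain ⟨hv1, hv2⟩ := Subgroup.mem_inf.1 hv
  obtain ⟨f, rfl⟩ := supp_coords checkedF4 F4_extra (J := twF4.J ⟨1, Nat.one_lt_two⟩)
    (L := (orbsF4 θ).wl (o1F4 θ)) ((orbsF4 θ).negSet_wO (o1F4 θ)) hv1
  have e := hv2.2
  rw [F4_suppList.2] at e ⊢
  obtain ⟨-, -, -, -, r27, r25, r28, r30, -, -, -, -, -, -, -, -, x27, x25, x28, x30, -⟩ := F4_tab
  simp only [List.map_cons, List.map_nil, List.prod_cons, List.prod_nil, mul_one, ← mul_assoc] at e ⊢
  have hm := fun r z => u_mem_group (F := K) checkedF4 r z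
  change tauF4 θ _ = _ at e
  rw [(tauF4_spec θ).2.1 _ (mul_mem (mul_mem (hm _ _) (hm _ _)) (hm _ _)) _ (hm _ _),
    (tauF4_spec θ).2.1 _ (mul_mem (hm _ _) (hm _ _)) _ (hm _ _), (tauF4_spec θ).2.1 _ (hm _ _) _ (hm _ _)] at e
  simp only [(tauF4_spec θ).2.2, r27, r25, r28, r30, x27, x25, x28, x30, pow_one] at e
  obtain ⟨-, -, t3, -, -, -, -, -, n3, -⟩ := F4_terms
  set a := f (rtF4 27)
  set b := f (rtF4 25)
  set c := f (rtF4 28)
  set d := f (rtF4 30)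
  have e' : u checkedF4 (rtF4 25) (θ a ^ 2) * u checkedF4 (rtF4 27) (θ b) *
      u checkedF4 (rtF4 28) (θ d + θ b * θ a ^ 2) * u checkedF4 (rtF4 30) (θ c ^ 2 + θ b ^ 2 * θ a ^ 2) =
      u checkedF4 (rtF4 25) b * u checkedF4 (rtF4 27) a * u checkedF4 (rtF4 28) c * u checkedF4 (rtF4 30) d := by
    rw [← e, F4_swapU]
    calc u checkedF4 (rtF4 27) (θ b) * u checkedF4 (rtF4 25) (θ a ^ 2) * u checkedF4 (rtF4 28) (θ b * θ a ^ 2) *
          u checkedF4 (rtF4 30) (θ b ^ 2 * θ a ^ 2) * u checkedF4 (rtF4 28) (θ d + θ b * θ a ^ 2) *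
          u checkedF4 (rtF4 30) (θ c ^ 2 + θ b ^ 2 * θ a ^ 2)
        = u checkedF4 (rtF4 27) (θ b) * u checkedF4 (rtF4 25) (θ a ^ 2) * u checkedF4 (rtF4 28) (θ b * θ a ^ 2) *
          (u checkedF4 (rtF4 30) (θ b ^ 2 * θ a ^ 2) * u checkedF4 (rtF4 28) (θ d + θ b * θ a ^ 2)) *
          u checkedF4 (rtF4 30) (θ c ^ 2 + θ b ^ 2 * θ a ^ 2) := by simp only [mul_assoc]
      _ = u checkedF4 (rtF4 27) (θ b) * u checkedF4 (rtF4 25) (θ a ^ 2) *
          (u checkedF4 (rtF4 28) (θ b * θ a ^ 2) * u checkedF4 (rtF4 28) (θ d + θ b * θ a ^ 2)) *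
          (u checkedF4 (rtF4 30) (θ b ^ 2 * θ a ^ 2) * u checkedF4 (rtF4 30) (θ c ^ 2 + θ b ^ 2 * θ a ^ 2)) := by
          rw [← (F4_commute t3 n3 _ _).eq]; simp only [mul_assoc]
      _ = u checkedF4 (rtF4 27) (θ b) * u checkedF4 (rtF4 25) (θ a ^ 2) *
          (u checkedF4 (rtF4 28) (θ d) * u checkedF4 (rtF4 30) (θ c ^ 2)) := by
          rw [u_add, u_add, add_left_comm, CharTwo.add_self_eq_zero, add_zero, add_left_comm,
            CharTwo.add_self_eq_zero, add_zero, mul_assoc]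
      _ = _ := by rw [(F4_commute t3 n3 (θ d) (θ c ^ 2)).eq, ← mul_assoc]
  let g : Fin chevF4.nroots → K := fun r => if r = rtF4 25 then θ a ^ 2 else if r = rtF4 27 then θ b else
    if r = rtF4 28 then θ d + θ b * θ a ^ 2 else θ c ^ 2 + θ b ^ 2 * θ a ^ 2
  have hne : rtF4 27 ≠ rtF4 25 ∧ rtF4 28 ≠ rtF4 25 ∧ rtF4 28 ≠ rtF4 27 ∧ rtF4 30 ≠ rtF4 25 ∧ rtF4 30 ≠ rtF4 27 ∧
      rtF4 30 ≠ rtF4 28 := by decide +kernel
  have key := supp_inj checkedF4 (J := twF4.J ⟨1, Nat.one_lt_two⟩) (f := g) (g := f)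
    (by rw [F4_suppList.2]; simpa [g, hne, mul_assoc] using e')
  rw [F4_suppList.2] at key
  have hA : θ b = a := by have := key (rtF4 27) (by simp); simpa [g, hne] using this
  have hB : θ a ^ 2 = b := by have := key (rtF4 25) (by simp); simpa [g] using this
  have hC : θ d + θ b * θ a ^ 2 = c := by have := key (rtF4 28) (by simp); simpa [g, hne] using this
  have hD : θ c ^ 2 + θ b ^ 2 * θ a ^ 2 = d := by have := key (rtF4 30) (by simp); simpa [g, hne] using this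
  refine ⟨b, c, ?_⟩
  rw [b2U_standard]
  rw [← P.hθ b, hA]
  congr 1
  congr 1
  rw [← hA, ← hD, hB]
  congr 1
  rw [P.hθ c, ← pow_mul, mul_comm E 2]

include P in
theorem hU_F4 (o : Fin (orbsF4 θ).n) : (twistOfF4 θ).Ufix ((orbsF4 θ).wO o) ≤ twistedF4 K E := by
  intro v hv
  rcases F4_orb_cases o with rfl | rfl
  · obtain ⟨t, rfl⟩ := Ufix0_words P hv
    exact (F4_mem E t 0).1
  · obtain ⟨t, x, rfl⟩ := Ufix1_words P hv
    exact (F4_mem E t x).2.2.1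

theorem pairV_neg (E : ℕ) (t : K) :
    pairV E t ∈ Ugrp checkedF4 K (tabF4.ng '' rootsOf tabF4 ((orbsF4 θ).J (o0F4 θ))) := by
  obtain ⟨-, -, -, -, -, -, n33, n24, -⟩ := F4_J
  have h14 : rtF4 14 ∈ tabF4.ng '' rootsOf tabF4 ((orbsF4 θ).J (o0F4 θ)) := ⟨_, (F4_mem_roots0 _).2 (Or.inr rfl), n33⟩
  have h23 : rtF4 23 ∈ tabF4.ng '' rootsOf tabF4 ((orbsF4 θ).J (o0F4 θ)) := ⟨_, (F4_mem_roots0 _).2 (Or.inl rfl), n24⟩
  exact mul_mem (u_mem_Ugrp _ h14 _) (u_mem_Ugrp _ h23 _)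

theorem b2V_neg (E : ℕ) (t x : K) :
    b2V E t x ∈ Ugrp checkedF4 K (tabF4.ng '' rootsOf tabF4 ((orbsF4 θ).J (o1F4 θ))) := by
  obtain ⟨-, -, -, -, -, -, -, -, n27, n25, n28, n30⟩ := F4_J
  have h20 : rtF4 20 ∈ tabF4.ng '' rootsOf tabF4 ((orbsF4 θ).J (o1F4 θ)) :=
    ⟨_, (F4_mem_roots1 _).2 (Or.inr (Or.inl rfl)), n27⟩
  have h22 : rtF4 22 ∈ tabF4.ng '' rootsOf tabF4 ((orbsF4 θ).J (o1F4 θ)) := ⟨_, (F4_mem_roots1 _).2 (Or.inl rfl), n25⟩
  have h19 : rtF4 19 ∈ tabF4.ng '' rootsOf tabF4 ((orbsF4 θ).J (o1F4 θ)) :=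
    ⟨_, (F4_mem_roots1 _).2 (Or.inr (Or.inr (Or.inl rfl))), n28⟩
  have h17 : rtF4 17 ∈ tabF4.ng '' rootsOf tabF4 ((orbsF4 θ).J (o1F4 θ)) :=
    ⟨_, (F4_mem_roots1 _).2 (Or.inr (Or.inr (Or.inr rfl))), n30⟩
  exact mul_mem (mul_mem (mul_mem (u_mem_Ugrp _ h20 _) (u_mem_Ugrp _ h22 _)) (u_mem_Ugrp _ h19 _)) (u_mem_Ugrp _ h17 _)

include P in
theorem hV_F4 (o : Fin (orbsF4 θ).n) :
    ∃ x ∈ twistedF4 K E, x ≠ 1 ∧ x ∈ Ugrp checkedF4 K (tabF4.ng '' rootsOf tabF4 ((orbsF4 θ).J o)) := by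
  have hE0 : E ≠ 0 := P.pos.ne'
  rcases F4_orb_cases o with rfl | rfl
  · refine ⟨pairV E 1, (F4_mem E 1 0).2.1, fun h => ?_, pairV_neg E 1⟩
    simp only [pairV, pairProd, one_pow] at h
    have := u_eq_u_iff checkedF4 (one_ne_zero (α := K))
      ((eq_inv_of_mul_eq_one_left h).trans (u_neg checkedF4 (rtF4 23) (1 : K)).symm)
    exact absurd this.1 (by decide +kernel)
  · refine ⟨b2V E 0 1, (F4_mem E 0 1).2.2.2, fun h => ?_, b2V_neg E 0 1⟩
    simp only [b2V, b2Prod, zero_pow hE0, zero_pow (Nat.succ_ne_zero E), one_pow, zero_add, u_zero, one_mul] at h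
    have := u_eq_u_iff checkedF4 (one_ne_zero (α := K))
      ((eq_inv_of_mul_eq_one_left h).trans (u_neg checkedF4 (rtF4 17) (1 : K)).symm)
    exact absurd this.1 (by decide +kernel)

theorem F4_hatC (c : Fin chevF4.rank → Kˣ) :
    (twistOfF4 θ).hatC c (frF4 0) = Units.map (θ : K →* K) (c (frF4 3)) ∧
    (twistOfF4 θ).hatC c (frF4 1) = Units.map (θ : K →* K) (c (frF4 2)) ∧
    (twistOfF4 θ).hatC c (frF4 2) = Units.map (θ : K →* K) (c (frF4 1)) ^ 2 ∧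
    (twistOfF4 θ).hatC c (frF4 3) = Units.map (θ : K →* K) (c (frF4 0)) ^ 2 := by
  obtain ⟨h0, h1, h2, h3⟩ := F4_rhoiInv
  have v : (frF4 0).val = 0 ∧ (frF4 1).val = 1 ∧ (frF4 2).val = 2 ∧ (frF4 3).val = 3 := by decide +kernel
  refine ⟨?_, ?_, ?_, ?_⟩
  · show Units.map (phiF4 θ (twF4.rhoiInv (frF4 0)) : K →* K) (c (twF4.rhoiInv (frF4 0))) = _
    rw [h0]; ext; simp [phiF4, v]
  · show Units.map (phiF4 θ (twF4.rhoiInv (frF4 1)) : K →* K) (c (twF4.rhoiInv (frF4 1))) = _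
    rw [h1]; ext; simp [phiF4, v]
  · show Units.map (phiF4 θ (twF4.rhoiInv (frF4 2)) : K →* K) (c (twF4.rhoiInv (frF4 2))) = _
    rw [h2]; ext; simp [phiF4, v, frobeniusEquiv_def, frobenius_def]
  · show Units.map (phiF4 θ (twF4.rhoiInv (frF4 3)) : K →* K) (c (twF4.rhoiInv (frF4 3))) = _
    rw [h3]; ext; simp [phiF4, v, frobeniusEquiv_def, frobenius_def]

/-- The fixed parameters from two scalars. -/
def parF4 (θ : K ≃+* K) (a b : Kˣ) : Fin chevF4.rank → Kˣ :=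
  fun i => if i = frF4 0 then a else if i = frF4 1 then b else
    if i = frF4 2 then Units.map (θ : K →* K) b ^ 2 else Units.map (θ : K →* K) a ^ 2

theorem parF4_val (a b : Kˣ) : parF4 θ a b (frF4 0) = a ∧ parF4 θ a b (frF4 1) = b ∧
    parF4 θ a b (frF4 2) = Units.map (θ : K →* K) b ^ 2 ∧ parF4 θ a b (frF4 3) = Units.map (θ : K →* K) a ^ 2 := by
  have h : frF4 1 ≠ frF4 0 ∧ frF4 2 ≠ frF4 0 ∧ frF4 2 ≠ frF4 1 ∧ frF4 3 ≠ frF4 0 ∧ frF4 3 ≠ frF4 1 ∧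
      frF4 3 ≠ frF4 2 := by decide +kernel
  simp [parF4, h]

include P in
theorem parF4_fixed (a b : Kˣ) : (twistOfF4 θ).hatC (parF4 θ a b) = parF4 θ a b := by
  obtain ⟨v0, v1, v2, v3⟩ := parF4_val (θ := θ) a b
  funext i
  rcases F4_cases i with rfl | rfl | rfl | rfl
  · rw [(F4_hatC _).1, v3, v0]; ext; simp [P.hE]
  · rw [(F4_hatC _).2.1, v2, v1]; ext; simp [P.hE]
  · rw [(F4_hatC _).2.2.1, v1, v2]
  · rw [(F4_hatC _).2.2.2, v0, v3]

theorem eq_parF4 {c : Fin chevF4.rank → Kˣ} (hc : (twistOfF4 θ).hatC c = c) :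
    c = parF4 θ (c (frF4 0)) (c (frF4 1)) := by
  obtain ⟨v0, v1, v2, v3⟩ := parF4_val (θ := θ) (c (frF4 0)) (c (frF4 1))
  funext i
  rcases F4_cases i with rfl | rfl | rfl | rfl
  · rw [v0]
  · rw [v1]
  · rw [v2, ← (F4_hatC c).2.2.1, hc]
  · rw [v3, ← (F4_hatC c).2.2.2, hc]

theorem F4_torus_ker {w : Fin chevF4.rank → Kˣ} (hw : w ∈ (torus (F := K) tabF4).ker) : w = 1 := by
  have h := (mem_ker_torus checkedF4).1 hw
  have hp : ∀ f : Fin chevF4.rank → Kˣ, ∏ j, f j = f (frF4 0) * f (frF4 1) * f (frF4 2) * f (frF4 3) :=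
    fun f => Fin.prod_univ_four f
  have e0 := h (frF4 0)
  have e1 := h (frF4 1)
  have e2 := h (frF4 2)
  have e3 := h (frF4 3)
  have hA : ∀ i j : Fin chevF4.rank, tabF4.A j (tabF4.p i) =
      ([[2, -1, 0, 0], [-1, 2, -1, 0], [0, -2, 2, -1], [0, 0, -1, 2]] : List (List ℤ))[i.val]!.getD j.val 0 := by
    decide +kernel
  have v : (frF4 0).val = 0 ∧ (frF4 1).val = 1 ∧ (frF4 2).val = 2 ∧ (frF4 3).val = 3 := by decide +kernel
  simp only [hp, hA, v.1, v.2.1, v.2.2.1, v.2.2.2] at e0 e1 e2 e3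
  simp at e0 e1 e2 e3
  set a := w (frF4 0)
  set b := w (frF4 1)
  set c := w (frF4 2)
  set d := w (frF4 3)
  have hb : b = a ^ 2 := (mul_inv_eq_one.1 e0).symm
  have hc : c = d ^ 2 := (inv_mul_eq_one.1 e3)
  rw [mul_inv_eq_one, inv_mul_eq_iff_eq_mul, hb, hc, ← pow_mul] at e1
  rw [mul_inv_eq_one, inv_mul_eq_iff_eq_mul, hb, hc, ← pow_mul] at e2
  have h34 : a ^ 4 = a * d ^ 2 := e1
  have h44 : d ^ 4 = (a ^ 2) ^ 2 * d := by rw [show 4 = 2 * 2 from rfl, e2]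
  have hd : d ^ 2 = a ^ 3 := mul_left_cancel (a := a) (by rw [← h34, ← pow_succ'])
  have hd' : d ^ 3 = a ^ 4 := mul_right_cancel (b := d) (by rw [← pow_succ, h44, ← pow_mul])
  have hda : d = a := mul_left_cancel (a := a ^ 3)
    (by rw [← pow_succ, ← hd', show d ^ 3 = d ^ 2 * d from pow_succ d 2, hd])
  have ha : a = 1 := by
    rw [hda, pow_succ a 2] at hd
    exact (mul_eq_left.1 hd.symm)
  funext i
  rcases F4_cases i with rfl | rfl | rfl | rfl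
  · exact ha
  · show b = 1; rw [hb, ha, one_pow]
  · show c = 1; rw [hc, hda, ha, one_pow]
  · show d = 1; rw [hda, ha]

include P in
theorem hH_F4 [Fintype K] {c : Fin chevF4.rank → Kˣ} (hc : (twistOfF4 θ).hatC c = c) :
    torus tabF4 c ∈ twistedF4 K E := by
  have hsqrt : ∀ a : Kˣ, ∃ b : Kˣ, b * b = a := fun a => by
    refine ⟨Units.mk0 ((frobeniusEquiv K 2).symm a) (by simp), Units.ext ?_⟩
    have := frobeniusEquiv_symm_pow_p (R := K) (p := 2) (a : K)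
    simpa [sq] using this
  obtain ⟨J0, J1, -⟩ := F4_J
  have hsupp0 : ∀ a j, j ∉ (orbsF4 θ).J (o0F4 θ) → parF4 θ a 1 j = 1 := fun a j hj => by
    have hj' : j ∉ [frF4 0, frF4 3] := J0 ▸ hj
    obtain ⟨v0, v1, v2, v3⟩ := parF4_val (θ := θ) a (1 : Kˣ)
    rcases F4_cases j with rfl | rfl | rfl | rfl
    · simp at hj'
    · exact v1
    · rw [v2]; simp
    · simp at hj'
  have hsupp1 : ∀ b j, j ∉ (orbsF4 θ).J (o1F4 θ) → parF4 θ 1 b j = 1 := fun b j hj => by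
    have hj' : j ∉ [frF4 1, frF4 2] := J1 ▸ hj
    obtain ⟨v0, v1, v2, v3⟩ := parF4_val (θ := θ) (1 : Kˣ) b
    rcases F4_cases j with rfl | rfl | rfl | rfl
    · exact v0
    · simp at hj'
    · simp at hj'
    · rw [v3]; simp
  obtain ⟨a, ha⟩ := hsqrt (c (frF4 0))
  obtain ⟨b, hb⟩ := hsqrt (c (frF4 1))
  have e : c = (parF4 θ a 1 * parF4 θ a 1) * (parF4 θ 1 b * parF4 θ 1 b) := by
    conv_lhs => rw [eq_parF4 hc]
    obtain ⟨a0, a1, a2, a3⟩ := parF4_val (θ := θ) a (1 : Kˣ)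
    obtain ⟨b0, b1, b2, b3⟩ := parF4_val (θ := θ) (1 : Kˣ) b
    obtain ⟨c0, c1, c2, c3⟩ := parF4_val (θ := θ) (c (frF4 0)) (c (frF4 1))
    funext i
    simp only [Pi.mul_apply]
    rcases F4_cases i with rfl | rfl | rfl | rfl
    · rw [a0, b0, c0, ← ha, one_mul, mul_one]
    · rw [a1, b1, c1, ← hb, one_mul, one_mul]
    · rw [a2, b2, c2, ← hb, map_one, one_pow, one_mul, one_mul, map_mul, mul_pow]
    · rw [a3, b3, c3, ← ha, map_one, one_pow, one_mul, mul_one, map_mul, mul_pow]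
  rw [e, map_mul]
  exact mul_mem
    ((twistOfF4 θ).torus_sq_mem (O := orbsF4 θ) F4_extra (o0F4 θ) (le_fixedF4 P) (hU_F4 P _) (hV_F4 P _)
      (F4_negO _) (parF4_fixed P a 1) (hsupp0 a))
    ((twistOfF4 θ).torus_sq_mem (O := orbsF4 θ) F4_extra (o1F4 θ) (le_fixedF4 P) (hU_F4 P _) (hV_F4 P _)
      (F4_negO _) (parF4_fixed P 1 b) (hsupp1 b))

include P in
theorem genF4 [Fintype K] : (twistOfF4 θ).Gen (orbsF4 θ) (twistedF4 K E) where
  hE := F4_extra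
  le := le_fixedF4 P
  hU := hU_F4 P
  hV := hV_F4 P
  hH h hh hf := by
    rw [diagonal_eq checkedF4] at hh
    obtain ⟨c, rfl⟩ := hh
    rw [Twist.τ_torus] at hf
    have hw : c⁻¹ * (twistOfF4 θ).hatC c ∈ (torus (F := K) tabF4).ker := by
      rw [MonoidHom.mem_ker, map_mul, map_inv, hf, inv_mul_cancel]
    exact hH_F4 P (inv_mul_eq_one.1 (F4_torus_ker hw)).symm
  hreg o := by
    obtain ⟨f, hf⟩ : ∃ f, uprod checkedF4 (posFrom tabF4 0) f ∈ (twistOfF4 θ).Ufix ((orbsF4 θ).wO o) ∧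
        ∀ r ∈ suppList tabF4 ((orbsF4 θ).J o), r ∈ [rtF4 33, rtF4 24, rtF4 27, rtF4 25] → f r = 1 := by
      obtain ⟨-, -, p0, p3, p1, p2, -⟩ := F4_J
      have key : ∀ (J : List (Fin chevF4.rank)) (g : Fin chevF4.nroots → K),
          uprod checkedF4 (posFrom tabF4 0) (fun r => if tabF4.suppB J r then g r else 0) =
            ((suppList tabF4 J).map fun r => u checkedF4 r (g r)).prod := fun J g => by
        rw [uprod_filter checkedF4 (fun r => tabF4.suppB J r) (fun r hr => by simp [hr]) _, posFrom_supp]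
        unfold uprod
        congr 1
        refine List.map_congr_left fun r hr => ?_
        simp only [suppList, List.mem_filter, Bool.and_eq_true] at hr
        simp [hr.2.2]
      rcases F4_orb_cases o with rfl | rfl
      · refine ⟨fun r => if tabF4.suppB (twF4.J ⟨0, Nat.zero_lt_two⟩) r then 1 else 0, ?_, fun r hr _ => ?_⟩
        · rw [key _ (fun _ => 1), F4_suppList.1]
          simp only [List.map_cons, List.map_nil, List.prod_cons, List.prod_nil, mul_one]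
          have h1 := (F4_word_fixed θ P.hθ P.hE 1 0).1
          obtain ⟨-, -, -, -, t5, -, -, -, -, -, n5, -⟩ := F4_terms
          simp only [pairU, pairProd, one_pow] at h1
          rw [(F4_commute t5 n5 1 1).eq] at h1
          refine Subgroup.mem_inf.2 ⟨?_, h1⟩
          rw [(orbsF4 θ).negSet_wO]
          exact mul_mem (u_mem_Ugrp _ ((F4_mem_roots0 _).2 (Or.inl rfl)) _)
            (u_mem_Ugrp _ ((F4_mem_roots0 _).2 (Or.inr rfl)) _)
        · simp only [suppList, List.mem_filter, Bool.and_eq_true] at hr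
          exact if_pos hr.2.2
      · let g : Fin chevF4.nroots → K := fun r => if r = rtF4 28 then 0 else 1
        refine ⟨fun r => if tabF4.suppB (twF4.J ⟨1, Nat.one_lt_two⟩) r then g r else 0, ?_, fun r hr hr' => ?_⟩
        · rw [key _ g, F4_suppList.2]
          simp only [List.map_cons, List.map_nil, List.prod_cons, List.prod_nil, mul_one]
          have h1 := (F4_word_fixed θ P.hθ P.hE 1 0).2.2.1
          rw [b2U_standard] at h1
          have hne : rtF4 25 ≠ rtF4 28 ∧ rtF4 27 ≠ rtF4 28 ∧ rtF4 30 ≠ rtF4 28 := by decide +kernel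
          simp only [one_pow, zero_pow (Nat.mul_ne_zero two_ne_zero P.pos.ne'), zero_add, one_mul] at h1
          simp only [g, if_neg hne.1, if_neg hne.2.1, if_neg hne.2.2, if_true, ← mul_assoc]
          refine Subgroup.mem_inf.2 ⟨?_, h1⟩
          rw [(orbsF4 θ).negSet_wO]
          exact mul_mem (mul_mem (mul_mem (u_mem_Ugrp _ ((F4_mem_roots1 _).2 (Or.inl rfl)) _)
            (u_mem_Ugrp _ ((F4_mem_roots1 _).2 (Or.inr (Or.inl rfl))) _))
            (u_mem_Ugrp _ ((F4_mem_roots1 _).2 (Or.inr (Or.inr (Or.inl rfl)))) _))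
            (u_mem_Ugrp _ ((F4_mem_roots1 _).2 (Or.inr (Or.inr (Or.inr rfl)))) _)
        · simp only [suppList, List.mem_filter, Bool.and_eq_true] at hr
          have : r ≠ rtF4 28 := fun h => by subst h; revert hr'; decide +kernel
          have hs : tabF4.suppB (twF4.J ⟨1, Nat.one_lt_two⟩) r = true := hr.2.2
          simp [g, hs, this]
    refine ⟨f, hf.1, fun j hj => ?_⟩
    obtain ⟨-, -, p0, p3, p1, p2, -⟩ := F4_J
    rw [hf.2 (tabF4.p j) (mem_suppList.2 ((orbsF4 θ).p_mem_rootsOf hj))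
      (by rcases F4_cases j with rfl | rfl | rfl | rfl <;> simp [p0, p1, p2, p3])]
    exact one_ne_zero

end CfsgLib.Lie
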