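/-
Orders, perfectness and Weyl group of the Ree groups of type ²F₄.
-/
import Cfsg.Agent.Lib.LieTwistF4Gen
import Cfsg.Agent.Lib.LieTwistHom

set_option autoImplicit false
set_option maxHeartbeats 1000000
set_option maxRecDepth 20000

namespace CfsgLib.Lie

open Cfsg.Lie Tab

variable {K : Type*} [Field K] [CharP K 2] [PerfectRing K 2] {θ : K ≃+* K} {E : ℕ} (P : ReeParamF4 K θ E)

theorem pairU_neg (E : ℕ) (t : K) :
    pairU E t ∈ Ugrp checkedF4 K (negSet tabF4 ((orbsF4 θ).wO (o0F4 θ))) := by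
  rw [(orbsF4 θ).negSet_wO]
  exact mul_mem (u_mem_Ugrp _ ((F4_mem_roots0 _).2 (Or.inr rfl)) _)
    (u_mem_Ugrp _ ((F4_mem_roots0 _).2 (Or.inl rfl)) _)

theorem b2U_neg (E : ℕ) (t x : K) :
    b2U E t x ∈ Ugrp checkedF4 K (negSet tabF4 ((orbsF4 θ).wO (o1F4 θ))) := by
  rw [(orbsF4 θ).negSet_wO]
  exact mul_mem (mul_mem (mul_mem (u_mem_Ugrp _ ((F4_mem_roots1 _).2 (Or.inr (Or.inl rfl))) _)
    (u_mem_Ugrp _ ((F4_mem_roots1 _).2 (Or.inl rfl)) _))
    (u_mem_Ugrp _ ((F4_mem_roots1 _).2 (Or.inr (Or.inr (Or.inl rfl)))) _))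
    (u_mem_Ugrp _ ((F4_mem_roots1 _).2 (Or.inr (Or.inr (Or.inr rfl)))) _)

include P in
theorem card_Ufix0 [Fintype K] :
    Nat.card ↥((twistOfF4 θ).Ufix ((orbsF4 θ).wO (o0F4 θ))) = Fintype.card K := by
  have hp : ∀ t : K, pairU E t ∈ (twistOfF4 θ).Ufix ((orbsF4 θ).wO (o0F4 θ)) := fun t =>
    Subgroup.mem_inf.2 ⟨pairU_neg E t, (F4_word_fixed θ P.hθ P.hE t 0).1⟩
  have hb : Function.Bijective fun t : K =>
      (⟨pairU E t, hp t⟩ : ↥((twistOfF4 θ).Ufix ((orbsF4 θ).wO (o0F4 θ)))) := by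
    refine ⟨fun a b h => ?_, fun v => ?_⟩
    · have e : pairU E a = pairU E b := Subtype.ext_iff.1 h
      obtain ⟨-, -, -, -, t5, -, -, -, -, -, n5, -⟩ := F4_terms
      have hc : ∀ t : K, pairU E t = u checkedF4 (rtF4 24) t * u checkedF4 (rtF4 33) (t ^ E) :=
        fun t => (F4_commute t5 n5 _ _).eq
      rw [hc, hc] at e
      have key := supp_inj checkedF4 (J := twF4.J ⟨0, Nat.zero_lt_two⟩)
        (f := fun r => if r = rtF4 24 then a else a ^ E) (g := fun r => if r = rtF4 24 then b else b ^ E)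
        (by
          have h : rtF4 33 ≠ rtF4 24 := by decide +kernel
          rw [F4_suppList.1]; simpa [h] using e)
      rw [F4_suppList.1] at key
      simpa using key (rtF4 24) (by simp)
    · obtain ⟨t, e⟩ := Ufix0_words P v.2
      exact ⟨t, Subtype.ext e.symm⟩
  rw [← Nat.card_eq_of_bijective _ hb, Nat.card_eq_fintype_card]

include P in
theorem card_Ufix1 [Fintype K] :
    Nat.card ↥((twistOfF4 θ).Ufix ((orbsF4 θ).wO (o1F4 θ))) = Fintype.card K ^ 2 := by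
  have hp : ∀ x : K × K, b2U E x.1 x.2 ∈ (twistOfF4 θ).Ufix ((orbsF4 θ).wO (o1F4 θ)) := fun x =>
    Subgroup.mem_inf.2 ⟨b2U_neg E x.1 x.2, (F4_word_fixed θ P.hθ P.hE x.1 x.2).2.2.1⟩
  have hb : Function.Bijective fun x : K × K =>
      (⟨b2U E x.1 x.2, hp x⟩ : ↥((twistOfF4 θ).Ufix ((orbsF4 θ).wO (o1F4 θ)))) := by
    refine ⟨fun a b h => ?_, fun v => ?_⟩
    · have e : b2U E a.1 a.2 = b2U E b.1 b.2 := Subtype.ext_iff.1 h
      rw [b2U_standard, b2U_standard] at e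
      let F : K × K → Fin chevF4.nroots → K := fun x r => if r = rtF4 25 then x.1 else
        if r = rtF4 27 then x.1 ^ E else if r = rtF4 28 then x.2 else x.2 ^ (2 * E) + (x.1 ^ E) ^ 2 * x.1
      have h : rtF4 27 ≠ rtF4 25 ∧ rtF4 28 ≠ rtF4 25 ∧ rtF4 28 ≠ rtF4 27 ∧ rtF4 30 ≠ rtF4 25 ∧
          rtF4 30 ≠ rtF4 27 ∧ rtF4 30 ≠ rtF4 28 := by decide +kernel
      have key := supp_inj checkedF4 (J := twF4.J ⟨1, Nat.one_lt_two⟩) (f := F a) (g := F b)
        (by rw [F4_suppList.2]; simpa [F, h, mul_assoc] using e)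
      rw [F4_suppList.2] at key
      have h1 := key (rtF4 25) (by simp)
      have h2 := key (rtF4 28) (by simp)
      simp only [F, if_true] at h1
      simp only [F, if_neg h.2.1, if_neg h.2.2.1, if_true] at h2
      exact Prod.ext h1 h2
    · obtain ⟨t, x, e⟩ := Ufix1_words P v.2
      exact ⟨(t, x), Subtype.ext e.symm⟩
  rw [← Nat.card_eq_of_bijective _ hb, Nat.card_prod, Nat.card_eq_fintype_card, sq]

theorem F4_inv0 : (inv' tabF4 ((orbsF4 θ).wO (o0F4 θ))).card = 2 := by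
  classical
  have e : inv' tabF4 ((orbsF4 θ).wO (o0F4 θ)) = {rtF4 24, rtF4 33} := by
    ext r
    rw [mem_inv']
    show r ∈ negSet tabF4 _ ↔ _
    rw [(orbsF4 θ).negSet_wO, F4_mem_roots0]
    simp
  rw [e]
  decide +kernel

theorem F4_inv1 : (inv' tabF4 ((orbsF4 θ).wO (o1F4 θ))).card = 4 := by
  classical
  have e : inv' tabF4 ((orbsF4 θ).wO (o1F4 θ)) = {rtF4 25, rtF4 27, rtF4 28, rtF4 30} := by
    ext r
    rw [mem_inv']
    show r ∈ negSet tabF4 _ ↔ _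
    rw [(orbsF4 θ).negSet_wO, F4_mem_roots1]
    simp
  rw [e]
  decide +kernel

include P in
theorem F4_hk [Fintype K] (o : Fin (orbsF4 θ).n) :
    Nat.card ↥((twistOfF4 θ).Ufix ((orbsF4 θ).wO o)) ^ 2 =
      Fintype.card K ^ (inv' tabF4 ((orbsF4 θ).wO o)).card := by
  rcases F4_orb_cases o with rfl | rfl
  · rw [card_Ufix0 P, F4_inv0]
  · rw [card_Ufix1 P, F4_inv1, ← pow_mul]

include P in
theorem F4_card_pos [Fintype K] :
    Nat.card ↥(chevF4.posUnipotent K ⊓ twistedF4 K E) = Fintype.card K ^ 12 := by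
  have h := (genF4 P).card_pos (F4_hk P)
  rw [show chevF4.nroots / 2 = 12 * 2 by decide +kernel, pow_mul] at h
  exact Nat.pow_left_injective two_ne_zero h

theorem card_fixC_kerF4 : Nat.card ↥((twistOfF4 θ).fixC ⊓ (torus (F := K) tabF4).ker) = 1 := by
  rw [Subgroup.card_eq_one, eq_bot_iff]
  intro w hw
  exact Subgroup.mem_bot.2 (F4_torus_ker (Subgroup.mem_inf.1 hw).2)

include P in
theorem F4_card_diag [Fintype K] :
    Nat.card ↥(chevF4.diagonalSubgroup K ⊓ twistedF4 K E) = (Fintype.card K - 1) ^ 2 := by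
  have h := (twistOfF4 θ).card_diag (genF4 P) fun w hw c hc => by
    refine ⟨1, one_mem _, ?_⟩
    rw [mul_one, hc, F4_torus_ker hw, mul_one]
  rw [card_fixC_kerF4, one_mul] at h
  rw [h, ← card_units_eq, sq, ← Nat.card_prod]
  exact Nat.card_congr
    { toFun := fun c => (c.1 (frF4 0), c.1 (frF4 1))
      invFun := fun a => ⟨parF4 θ a.1 a.2, parF4_fixed P a.1 a.2⟩
      left_inv := fun c => Subtype.ext (eq_parF4 c.2).symm
      right_inv := fun a => Prod.ext (parF4_val (θ := θ) a.1 a.2).1 (parF4_val (θ := θ) a.1 a.2).2.1 }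

theorem F4_WF : (orbsF4 θ).WF.card = 16 :=
  card_WF checkedF4 pos_F4 (by decide +kernel) (h := twF4_sym) (ho := twF4_orb) twF4_cert

include P in
theorem F4_card [Fintype K] :
    Nat.card ↥(twistedF4 K E) = Fintype.card K ^ 12 * (Fintype.card K - 1) * (Fintype.card K ^ 3 + 1) *
      (Fintype.card K ^ 4 - 1) * (Fintype.card K ^ 6 + 1) := by
  classical
  have hG := genF4 P
  have hs := sum_dist (hT := checkedF4) (h := twF4_sym) (ho := twF4_orb) pos_F4 (by decide +kernel) twF4_cert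
    twF4_dist (g := fun π => Nat.card ↥((twistOfF4 θ).Ufix π)) (q := Fintype.card K) (fun π hπ j hj => by
      have h := hG.card_Ufix_pow (F4_hk P) (π := π) hπ
      rw [hj, mul_comm 2 j, pow_mul] at h
      exact Nat.pow_left_injective two_ne_zero h)
  rw [hG.card_group, hG.card_borel, F4_card_pos P, F4_card_diag P]
  refine (congrArg (_ * ·) hs).trans ?_
  obtain ⟨r, hr⟩ : ∃ r, Fintype.card K = r + 1 := ⟨_, (Nat.succ_pred Fintype.card_ne_zero).symm⟩
  rw [hr]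
  have h4 : (r + 1) ^ 4 - 1 = r * ((r + 1) ^ 3 + (r + 1) ^ 2 + (r + 1) + 1) := by
    rw [show (r + 1) ^ 4 = r * ((r + 1) ^ 3 + (r + 1) ^ 2 + (r + 1) + 1) + 1 by ring, Nat.add_sub_cancel]
  rw [h4, Nat.add_sub_cancel]
  simp only [evalL]
  ring

theorem F4_charVal : ∀ j : Fin chevF4.rank,
    (tabF4.A j (rtF4 33), tabF4.A j (rtF4 24), tabF4.A j (rtF4 27), tabF4.A j (rtF4 25), tabF4.A j (rtF4 28),
      tabF4.A j (rtF4 30)) =
    ([(2, 0, -1, 0, -1, -2), (-1, 0, 2, -2, 0, 2), (0, -1, -1, 2, 1, 0), (0, 2, 0, -1, -1, -1)] :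
      List (ℤ × ℤ × ℤ × ℤ × ℤ × ℤ))[j.val]! := by decide +kernel

theorem torChar_parF4 {E : ℕ} (hθ : ∀ x : K, θ x = x ^ E) (a : Kˣ) (r : Fin chevF4.nroots) :
    torChar tabF4 (parF4 θ a 1) r = a ^ (tabF4.A (frF4 0) r + 2 * (E : ℤ) * tabF4.A (frF4 3) r) ∧
    torChar tabF4 (parF4 θ 1 a) r = a ^ (tabF4.A (frF4 1) r + 2 * (E : ℤ) * tabF4.A (frF4 2) r) := by
  have hp : ∀ c : Fin chevF4.rank → Kˣ, torChar tabF4 c r = c (frF4 0) ^ tabF4.A (frF4 0) r *
      c (frF4 1) ^ tabF4.A (frF4 1) r * c (frF4 2) ^ tabF4.A (frF4 2) r * c (frF4 3) ^ tabF4.A (frF4 3) r :=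
    fun c => Fin.prod_univ_four _
  have hm : Units.map (θ : K →* K) a ^ 2 = a ^ ((2 : ℤ) * E) := by
    rw [show (2 : ℤ) * E = ((E * 2 : ℕ) : ℤ) by push_cast; ring, zpow_natCast, pow_mul]
    congr 1
    exact Units.ext (by simp [hθ])
  obtain ⟨a0, a1, a2, a3⟩ := parF4_val (θ := θ) a (1 : Kˣ)
  obtain ⟨b0, b1, b2, b3⟩ := parF4_val (θ := θ) (1 : Kˣ) a
  refine ⟨?_, ?_⟩
  · rw [hp, a0, a1, a2, a3, hm, map_one, one_pow, one_zpow, one_zpow, mul_one, mul_one, ← zpow_mul, ← zpow_add]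
  · rw [hp, b0, b1, b2, b3, hm, map_one, one_pow, one_zpow, one_zpow, one_mul, mul_one, ← zpow_mul, ← zpow_add]

include P in
theorem F4_perfect [Fintype K] (hE2 : 2 ≤ E) (hq : Fintype.card K = 2 * E * E) :
    commutator ↥(twistedF4 K E) = ⊤ := by
  classical
  have hG := genF4 P
  obtain ⟨a, ha⟩ := IsCyclic.exists_generator (α := Kˣ)
  have hord : orderOf a = 2 * E * E - 1 := by
    rw [orderOf_eq_card_of_forall_mem_zpowers ha, card_units_eq, hq]
  have hE2' : (2 : ℤ) ≤ E := by exact_mod_cast hE2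
  have hEE : 2 * (E : ℤ) * 2 ≤ 2 * E * E := by nlinarith
  have hcast : ((2 * E * E - 1 : ℕ) : ℤ) = 2 * (E : ℤ) * E - 1 := by
    rw [Nat.cast_sub (by nlinarith : 1 ≤ 2 * E * E)]; push_cast; ring
  have hlt : ∀ N : ℤ, N ≠ 0 → |N| < 2 * E * E - 1 → a ^ N ≠ 1 := fun N h0 hlt h => by
    rw [← orderOf_dvd_iff_zpow_eq_one, hord, hcast] at h
    exact h0 (Int.eq_zero_of_abs_lt_dvd h hlt)
  have h4E : a ^ (4 * (E : ℤ)) ≠ 1 := fun h => by
    rw [← orderOf_dvd_iff_zpow_eq_one, hord, hcast] at h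
    have h2 : (2 * (E : ℤ) * E - 1) ∣ 2 := by
      have h3 := dvd_sub (Dvd.dvd.mul_right h (E : ℤ)) (dvd_mul_left (2 * (E : ℤ) * E - 1) 2)
      rwa [show 4 * (E : ℤ) * E - 2 * (2 * E * E - 1) = 2 by ring] at h3
    have := Int.le_of_dvd two_pos h2
    nlinarith
  have hv := F4_charVal
  have v : (frF4 0).val = 0 ∧ (frF4 1).val = 1 ∧ (frF4 2).val = 2 ∧ (frF4 3).val = 3 := by decide +kernel
  have q0 := hv (frF4 0)
  have q1 := hv (frF4 1)
  have q2 := hv (frF4 2)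
  have q3 := hv (frF4 3)
  simp only [v.1, v.2.1, v.2.2.1, v.2.2.2, List.getElem!_cons_zero, List.getElem!_cons_succ, Prod.mk.injEq] at q0 q1 q2 q3
  refine hG.perfect (fun o => ?_) fun H hU hV => ?_
  · rcases F4_orb_cases o with rfl | rfl
    · refine hG.derived_of_torus (f := torChar tabF4 (parF4 θ a 1)) (hH_F4 P (parF4_fixed P a 1))
        (torus_mem checkedF4 _) (torChar_isChar checkedF4 _) fun r hr => ?_
      rw [(torChar_parF4 P.hθ a r).1]
      rcases (F4_mem_roots0 _).1 hr with rfl | rfl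
      · rw [q0.2.1, q3.2.1]
        refine fun h => h4E ?_
        rw [← h]; congr 1; ring
      · rw [q0.1, q3.1]
        exact hlt _ (by norm_num) (abs_lt.2 ⟨by nlinarith, by nlinarith⟩)
    · refine hG.derived_of_torus (f := torChar tabF4 (parF4 θ 1 a)) (hH_F4 P (parF4_fixed P 1 a))
        (torus_mem checkedF4 _) (torChar_isChar checkedF4 _) fun r hr => ?_
      rw [(torChar_parF4 P.hθ a r).2]
      rcases (F4_mem_roots1 _).1 hr with rfl | rfl | rfl | rfl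
      · rw [q1.2.2.2.1, q2.2.2.2.1]
        exact hlt _ (by omega) (abs_lt.2 ⟨by nlinarith, by nlinarith⟩)
      · rw [q1.2.2.1, q2.2.2.1]
        exact hlt _ (by omega) (abs_lt.2 ⟨by nlinarith, by nlinarith⟩)
      · rw [q1.2.2.2.2.1, q2.2.2.2.2.1]
        exact hlt _ (by omega) (abs_lt.2 ⟨by nlinarith, by nlinarith⟩)
      · rw [q1.2.2.2.2.2, q2.2.2.2.2.2]
        exact hlt _ (by norm_num) (abs_lt.2 ⟨by nlinarith, by nlinarith⟩)
  · rw [twistedF4_eq, Subgroup.closure_le]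
    rintro g ⟨t, x, rfl | rfl | rfl | rfl⟩
    · exact hU (o0F4 θ) (Subgroup.mem_inf.2 ⟨pairU_neg E t, (F4_word_fixed θ P.hθ P.hE t x).1⟩)
    · exact hV (o0F4 θ) (Subgroup.mem_inf.2 ⟨pairV_neg E t, (F4_word_fixed θ P.hθ P.hE t x).2.1⟩)
    · exact hU (o1F4 θ) (Subgroup.mem_inf.2 ⟨b2U_neg E t x, (F4_word_fixed θ P.hθ P.hE t x).2.2.1⟩)
    · exact hV (o1F4 θ) (Subgroup.mem_inf.2 ⟨b2V_neg E t x, (F4_word_fixed θ P.hθ P.hE t x).2.2.2⟩)

theorem F4_coxO : tabF4.coxOB twF4 (fun a b => if a = b then 1 else 8) = true := by decide +kernel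

/-- The dihedral group with two given involutions as its generators. -/
theorem dihedral_hom {G : Type*} [Group G] {a b : G} (ha : a * a = 1) (hb : b * b = 1) {n : ℕ} [NeZero n]
    (h : (a * b) ^ n = 1) :
    ∃ χ : DihedralGroup n →* G, (∀ i, χ (.r i) = (a * b) ^ i.val) ∧ ∀ i, χ (.sr i) = a * (a * b) ^ i.val := by
  set x := a * b
  set p : ZMod n → G := fun i => x ^ i.val
  have hmod : ∀ k, x ^ (k % n) = x ^ k := fun k => (pow_eq_pow_mod k h).symm
  have padd : ∀ i j, p (i + j) = p i * p j := fun i j => by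
    simp only [p, ZMod.val_add, hmod, pow_add]
  have p0 : p 0 = 1 := by simp [p]
  have pneg : ∀ i, p (-i) = (p i)⁻¹ := fun i => eq_inv_of_mul_eq_one_right (by rw [← padd, add_neg_cancel, p0])
  have psub : ∀ i j, p (j - i) = (p i)⁻¹ * p j := fun i j => by rw [sub_eq_neg_add, padd, pneg]
  have hconj : ∀ i, p i * a = a * (p i)⁻¹ := fun i => by
    have hsc : SemiconjBy a x⁻¹ x := by
      show a * (a * b)⁻¹ = a * b * a
      rw [mul_inv_rev, inv_eq_of_mul_eq_one_left hb, inv_eq_of_mul_eq_one_left ha]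
      group
    have := hsc.pow_right i.val
    rw [inv_pow] at this
    exact this.eq.symm
  refine ⟨{ toFun := fun g => match g with
              | .r i => p i
              | .sr i => a * p i
            map_one' := p0
            map_mul' := ?_ }, fun i => rfl, fun i => rfl⟩
  rintro (i | i) (j | j)
  · show p (i + j) = p i * p j
    exact padd i j
  · show a * p (j - i) = p i * (a * p j)
    rw [psub, ← mul_assoc, ← mul_assoc, hconj]
  · show a * p (i + j) = a * p i * p j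
    rw [padd, mul_assoc]
  · show p (j - i) = a * p i * (a * p j)
    rw [psub, mul_assoc a, ← mul_assoc (p i), hconj, ← mul_assoc, ← mul_assoc, ha, one_mul]

include P in
theorem F4_weyl [Fintype K] :
    ∃ φ : ↥(chevF4.monomialSubgroup K ⊓ twistedF4 K E) →* DihedralGroup 8, Function.Surjective φ ∧
      φ.ker = (chevF4.diagonalSubgroup K ⊓ twistedF4 K E).subgroupOf (chevF4.monomialSubgroup K ⊓ twistedF4 K E) := by
  have hsq : ∀ o, (orbsF4 θ).wO o * (orbsF4 θ).wO o = 1 := fun o => (orbsF4 θ).wl_sq o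
  have h8 : ((orbsF4 θ).wO (o0F4 θ) * (orbsF4 θ).wO (o1F4 θ)) ^ 8 = 1 :=
    wO_pow_one (hT := checkedF4) (hs := twF4_sym) (ho := twF4_orb) F4_coxO ⟨0, Nat.zero_lt_two⟩ ⟨1, Nat.one_lt_two⟩
  obtain ⟨χ, hr, hsr⟩ := dihedral_hom (hsq _) (hsq _) h8
  have hW : ∀ k : ℕ, ((orbsF4 θ).wO (o0F4 θ) * (orbsF4 θ).wO (o1F4 θ)) ^ k ∈ (orbsF4 θ).WF := fun k => by
    induction k with
    | zero => rw [pow_zero]; exact (orbsF4 θ).one_mem_WF
    | succ k ih => rw [pow_succ]; exact (orbsF4 θ).WF_mul ih ((orbsF4 θ).WF_mul ((orbsF4 θ).wO_mem _) ((orbsF4 θ).wO_mem _))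
  refine (genF4 P).weylHom χ (fun o => ?_) (fun x => ?_) ?_
  · rcases F4_orb_cases o with rfl | rfl
    · exact ⟨.sr 0, by rw [hsr, ZMod.val_zero, pow_zero, mul_one]⟩
    · exact ⟨.sr 1, by rw [hsr, show (1 : ZMod 8).val = 1 from rfl, pow_one, ← mul_assoc, hsq, one_mul]⟩
  · rcases x with i | i
    · rw [hr]; exact hW _
    · rw [hsr]; exact (orbsF4 θ).WF_mul ((orbsF4 θ).wO_mem _) (hW _)
  · rw [F4_WF, DihedralGroup.nat_card]

omit [CharP K 2] [PerfectRing K 2] in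
/-- The parameters of the groups. -/
theorem reeF4_setup [Fintype K] {m : ℕ} (hK : Fintype.card K = 2 ^ (2 * m + 1)) :
    ∃ (_ : CharP K 2) (_ : PerfectRing K 2) (θ : K ≃+* K), ReeParamF4 K θ (2 ^ m) := by
  haveI : Fact (Nat.Prime 2) := ⟨Nat.prime_two⟩
  haveI hc : CharP K 2 := charP_of_card_eq_prime_pow hK
  haveI : ExpChar K 2 := ExpChar.prime Nat.prime_two
  haveI hp : PerfectRing K 2 := PerfectRing.ofFiniteOfIsReduced 2 K
  refine ⟨hc, hp, iterateFrobeniusEquiv K 2 m, ⟨fun x => iterateFrobeniusEquiv_def K 2 m x, fun x => ?_,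
    Nat.two_pow_pos m⟩⟩
  rw [iterateFrobeniusEquiv_def, iterateFrobeniusEquiv_def, ← pow_mul, ← pow_mul,
    show 2 ^ m * (2 ^ m * 2) = Fintype.card K by rw [hK]; ring, FiniteField.pow_card]

end CfsgLib.Lie
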