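/-
Graph automorphisms.
-/
import Cfsg.Agent.Lib.LieTwistGraphD4
import Cfsg.Agent.Lib.LieTwistGraphE6
import Cfsg.Agent.Lib.LieTwistGraph

set_option autoImplicit false
set_option maxHeartbeats 400000
set_option maxRecDepth 20000

namespace CfsgLib.Lie

open Cfsg.Lie Tab

namespace Tab

variable {D : ChevalleyDatum} {T : Tab D} {K : Type*} [Field K] {Z : TwData D} {eps : ℕ} (hT : T.Checked)

include hT in
/-- The automorphism on the simple root elements, with the permutation given by a list. -/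
theorem graphAut_list (hs : T.symB Z = true) (hg : T.graphB Z eps = true) {l : List ℕ}
    (hl : ∀ i : Fin D.rank, Z.rho (T.p i) = T.p (Z.rhoi i) ∧ Z.rho (T.ng (T.p i)) = T.ng (T.p (Z.rhoi i)) ∧
      l.getD i.val 0 = (Z.rhoi i).val) :
    ∃ α : ↥(D.group K) ≃* ↥(D.group K), ∀ (g : ↥(D.group K)) (i : ℕ) (t : K), i < D.rank →
      (((g : GL D.Idx K) : Matrix D.Idx D.Idx K) = D.x K (D.simple i) t →
        ((α g : GL D.Idx K) : Matrix D.Idx D.Idx K) = D.x K (D.simple (l.getD i 0)) t) ∧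
      (((g : GL D.Idx K) : Matrix D.Idx D.Idx K) = D.x K (D.neg (D.simple i)) t →
        ((α g : GL D.Idx K) : Matrix D.Idx D.Idx K) = D.x K (D.neg (D.simple (l.getD i 0))) t) := by
  obtain ⟨α, hα⟩ := exists_graphAut (K := K) hT hs hg
  refine ⟨α, fun g i t hi => ?_⟩
  obtain ⟨h1, h2, h3⟩ := hl ⟨i, hi⟩
  have hs' : D.simple i = (T.p ⟨i, hi⟩).val := simple_eq hT ⟨i, hi⟩
  rw [show l.getD i 0 = (Z.rhoi ⟨i, hi⟩).val from h3, simple_eq hT, hs', neg_eq hT, neg_eq hT]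
  constructor
  · intro hg'
    have e : (g : GL D.Idx K) = u hT (T.p ⟨i, hi⟩) t := Units.ext (hg'.trans (coe_u_eq_x hT _ _).symm)
    rw [hα, e, pUnit_conj hT hg (Or.inl rfl), h1, coe_u_eq_x]
  · intro hg'
    have e : (g : GL D.Idx K) = u hT (T.ng (T.p ⟨i, hi⟩)) t := Units.ext (hg'.trans (coe_u_eq_x hT _ _).symm)
    rw [hα, e, pUnit_conj hT hg (Or.inr rfl), h2, coe_u_eq_x]

end Tab

theorem E6_graph_list : ∀ i : Fin chevE6.rank, twE6.rho (tabE6.p i) = tabE6.p (twE6.rhoi i) ∧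
    twE6.rho (tabE6.ng (tabE6.p i)) = tabE6.ng (tabE6.p (twE6.rhoi i)) ∧
    ([5, 1, 4, 3, 2, 0] : List ℕ).getD i.val 0 = (twE6.rhoi i).val := by decide +kernel

theorem D4_graph_list : ∀ i : Fin chevD4.rank, twD4.rho (tabD4.p i) = tabD4.p (twD4.rhoi i) ∧
    twD4.rho (tabD4.ng (tabD4.p i)) = tabD4.ng (tabD4.p (twD4.rhoi i)) ∧
    ([2, 1, 3, 0] : List ℕ).getD i.val 0 = (twD4.rhoi i).val := by decide +kernel

theorem D4_graph_sq : ∀ i : ℕ, i < chevD4.rank → ([2, 1, 3, 0] : List ℕ).getD (([2, 1, 3, 0] : List ℕ).getD i 0) 0 =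
    ([3, 1, 0, 2] : List ℕ).getD i 0 ∧ ([2, 1, 3, 0] : List ℕ).getD i 0 < chevD4.rank := by decide +kernel

end CfsgLib.Lie
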