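import Cfsg.Agent.Lib.LieChevTypes

/-!
Centres and small generating sets of the Weyl groups.
-/

set_option autoImplicit false
set_option maxRecDepth 20000

namespace CfsgLib.Lie

open Cfsg.Lie

namespace Tab

variable {D : ChevalleyDatum} {T : Tab D} {M : CoxeterMatrix (Fin D.rank)}

/-- Value of a word at a root. -/
def actL (T : Tab D) (L : List (Fin D.rank)) (r : Fin D.nroots) : Fin D.nroots := L.foldr (fun i x => T.w i x) r

/-- One round of expansion along the diagram. -/
def grow (T : Tab D) (S : List (Fin D.rank)) : List (Fin D.rank) :=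
  (List.finRange D.rank).filter fun i => decide (i ∈ S) || S.any fun j => decide (T.A i (T.p j) ≠ 0)

/-- Connectedness of the diagram. -/
def diagB (T : Tab D) : Bool :=
  match List.finRange D.rank with
  | [] => false
  | i₀ :: _ => (List.finRange D.rank).all fun i => decide (i ∈ (grow T)^[D.rank] [i₀])

variable (hT : T.Checked) (hE : ∀ r, T.extraB r = true) (hM : T.coxB (fun i j => M.M i j) = true)

include hT in
theorem pw_apply_actL : ∀ (L : List (Fin D.rank)) (r : Fin D.nroots), pw hT L r = actL T L r
  | [], _ => rfl
  | i :: L, r => by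
    rw [pw_cons, Equiv.Perm.mul_apply, wp_apply, pw_apply_actL L r]
    rfl

include hT in
theorem map_word {χ : M.Group →* Equiv.Perm (Fin D.nroots)} (hχ : ∀ i, χ (M.simple i) = wp hT i)
    (L : List (Fin D.rank)) : χ (L.map M.simple).prod = pw hT L := by
  rw [map_list_prod, List.map_map, show χ ∘ M.simple = wp hT from funext hχ]
  rfl

theorem exists_word_eq (x : M.Group) : ∃ L : List (Fin D.rank), (L.map M.simple).prod = x := by
  induction x using M.toCoxeterSystem.simple_induction with
  | simple i => exact ⟨[i], by simp⟩
  | one => exact ⟨[], rfl⟩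
  | mul a b ha hb =>
    obtain ⟨La, ha⟩ := ha
    obtain ⟨Lb, hb⟩ := hb
    exact ⟨La ++ Lb, by rw [List.map_append, List.prod_append, ha, hb]⟩

include hT in
/-- Coordinates transform linearly. -/
theorem co_pw : ∀ (L : List (Fin D.rank)) (r : Fin D.nroots) (j : Fin D.rank),
    T.co (pw hT L r) j = ∑ k, T.co r k * T.co (pw hT L (T.p k)) j := by
  intro L
  induction L with
  | nil =>
    intro r j
    simp [co_p hT, Finset.sum_ite_eq, mul_ite]
  | cons i L ih =>
    intro r j
    have hA : ∀ x : Fin D.nroots, T.A i x = ∑ m, T.co x m * T.A i (T.p m) := A_co hT i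
    simp only [pw_cons, Equiv.Perm.mul_apply, wp_apply, co_w hT]
    rw [ih r j, hA (pw hT L r)]
    by_cases hji : j = i
    · simp only [if_pos hji]
      simp only [mul_sub, Finset.sum_sub_distrib]
      congr 1
      simp only [fun m => ih r m, hA (pw hT L (T.p _)), Finset.mul_sum, Finset.sum_mul]
      rw [Finset.sum_comm]
      exact Finset.sum_congr rfl fun k _ => Finset.sum_congr rfl fun m _ => by ring
    · simp [hji]

include hT in
/-- A permutation of `W` fixing or negating the fundamental roots does one of the two globally. -/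
theorem sign_uniform (hconn : diagB T = true) {L : List (Fin D.rank)}
    (h : ∀ i, pw hT L (T.p i) = T.p i ∨ pw hT L (T.p i) = T.ng (T.p i)) :
    (∀ i, pw hT L (T.p i) = T.p i) ∨ ∀ i, pw hT L (T.p i) = T.ng (T.p i) := by
  classical
  let P : Fin D.rank → Prop := fun i => pw hT L (T.p i) = T.p i
  have hadj : ∀ i j, T.A i (T.p j) ≠ 0 → (P i ↔ P j) := by
    intro i j hA
    by_cases hij : i = j
    · rw [hij]
    have hco : ∀ k m, T.co (pw hT L (T.p k)) m = (if P k then (1 : ℤ) else -1) * if m = k then 1 else 0 := by
      intro k m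
      by_cases hk : P k
      · rw [if_pos hk, show pw hT L (T.p k) = T.p k from hk, co_p hT, one_mul]
      · rw [if_neg hk, (h k).resolve_left hk, co_ng hT, co_p hT, neg_one_mul]
    have hr : ∀ m, T.co (pw hT L (T.w i (T.p j))) m =
        T.co (T.w i (T.p j)) m * if P m then (1 : ℤ) else -1 := by
      intro m
      rw [co_pw hT]
      simp [hco, Finset.sum_ite_eq]
    have hi : T.co (T.w i (T.p j)) i = - T.A i (T.p j) := by simp [co_w hT, co_p hT, hij]
    have hj : T.co (T.w i (T.p j)) j = 1 := by simp [co_w hT, co_p hT, Ne.symm hij]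
    have hipos : 0 ≤ T.co (T.w i (T.p j)) i := by
      refine co_nonneg hT (by_contra fun hneg => ?_) i
      have := co_nonpos hT hneg j
      omega
    rw [hi] at hipos
    have e1 := hr i
    have e2 := hr j
    rw [hi] at e1
    rw [hj, one_mul] at e2
    by_cases hpos : T.Pos (pw hT L (T.w i (T.p j)))
    · have h1 := co_nonneg hT hpos i
      have h2 := co_nonneg hT hpos j
      rw [e1] at h1
      rw [e2] at h2
      by_cases p1 : P i <;> by_cases p2 : P j <;> simp [p1, p2] at h1 h2 ⊢ <;> omega
    · have h1 := co_nonpos hT hpos i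
      have h2 := co_nonpos hT hpos j
      rw [e1] at h1
      rw [e2] at h2
      by_cases p1 : P i <;> by_cases p2 : P j <;> simp [p1, p2] at h1 h2 ⊢ <;> omega
  unfold diagB at hconn
  split at hconn
  · exact absurd hconn (by simp)
  rename_i i₀ tl _
  simp only [List.all_eq_true, decide_eq_true_eq, List.mem_finRange, forall_const] at hconn
  have hall : ∀ n : ℕ, ∀ i ∈ (grow T)^[n] [i₀], (P i ↔ P i₀) := by
    intro n
    induction n with
    | zero =>
      intro i hi
      simp only [Function.iterate_zero, id_eq, List.mem_singleton] at hi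
      rw [hi]
    | succ n ih =>
      intro i hi
      rw [Function.iterate_succ_apply'] at hi
      simp only [grow, List.mem_filter, Bool.or_eq_true, decide_eq_true_eq, List.any_eq_true] at hi
      rcases hi.2 with hi' | ⟨j, hj, hA⟩
      · exact ih i hi'
      · exact (hadj i j hA).trans (ih j hj)
  by_cases h0 : P i₀
  · exact Or.inl fun i => (hall _ i (hconn i)).2 h0
  · exact Or.inr fun i => (h i).resolve_left fun hi => h0 ((hall _ i (hconn i)).1 hi)

include hT in
theorem eq_one_of_pos {L : List (Fin D.rank)} (h : ∀ i, T.Pos (pw hT L (T.p i))) : pw hT L = 1 := by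
  by_contra hne
  obtain ⟨i, -, hi⟩ := exists_descent hT (pw_mem_WJ hT L) hne
  exact hi (h i)

include hT in
/-- The roots negated by a fundamental reflection. -/
theorem eq_p_of_neg (hS : ∀ i r, T.w i r = T.ng r → r = T.p i ∨ r = T.ng (T.p i)) {L : List (Fin D.rank)}
    (hc : ∀ i, Commute (pw hT L) (wp hT i)) (i : Fin D.rank) :
    pw hT L (T.p i) = T.p i ∨ pw hT L (T.p i) = T.ng (T.p i) := by
  refine hS i _ ?_
  have := congrArg (fun π : Equiv.Perm (Fin D.nroots) => π (T.p i)) (hc i).eq
  simp only [Equiv.Perm.mul_apply, wp_apply, w_p hT, pw_ng] at this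
  exact this.symm

/-- Roots negated by a fundamental reflection are fundamental up to sign. -/
def negB (T : Tab D) : Bool :=
  (List.finRange D.rank).all fun i => (List.finRange D.nroots).all fun r =>
    decide (T.w i r ≠ T.ng r) || decide (r = T.p i) || decide (r = T.ng (T.p i))

include hT hE hM in
theorem center_dichotomy (hconn : diagB T = true) (hneg : negB T = true)
    {χ : M.Group →* Equiv.Perm (Fin D.nroots)} (hχ : ∀ i, χ (M.simple i) = wp hT i) {x : M.Group}
    (hx : x ∈ Subgroup.center M.Group) : x = 1 ∨ ∀ r, χ x r = T.ng r := by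
  have hinj := coxAction_injective hT hE hM hχ
  obtain ⟨L, rfl⟩ := exists_word_eq x
  have hS : ∀ i r, T.w i r = T.ng r → r = T.p i ∨ r = T.ng (T.p i) := by
    intro i r hr
    simp only [negB, List.all_eq_true, Bool.or_eq_true, decide_eq_true_eq, List.mem_finRange, forall_const] at hneg
    rcases hneg i r with (h | h) | h
    · exact absurd hr h
    · exact Or.inl h
    · exact Or.inr h
  have hc : ∀ i, Commute (pw hT L) (wp hT i) := fun i => by
    rw [← map_word hT hχ, ← hχ i]
    exact (Commute.map (Subgroup.mem_center_iff.1 hx (M.simple i)).symm χ)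
  rcases sign_uniform hT hconn (eq_p_of_neg hT hS hc) with h | h
  · refine Or.inl (hinj ?_)
    rw [map_word hT hχ, map_one]
    exact eq_one_of_pos hT fun i => by rw [h i]; exact pos_p hT i
  · refine Or.inr fun r => ?_
    rw [map_word hT hχ]
    refine co_inj hT fun j => ?_
    rw [co_pw hT, co_ng hT]
    simp [h, co_ng hT, co_p hT, Finset.sum_ite_eq]

include hT hE hM in
/-- The centre when the Coxeter element has a power negating all roots. -/
theorem center_two (hconn : diagB T = true) (hneg : negB T = true) {k : ℕ}
    (hk : ((List.finRange D.nroots).all fun r => decide (T.coxPow k r = T.ng r)) = true) (r₀ : Fin D.nroots) :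
    Nat.card (Subgroup.center M.Group) = 2 ∧
      Subgroup.center M.Group ≤ Subgroup.zpowers ((List.finRange D.rank).map M.simple).prod := by
  obtain ⟨χ, hχ⟩ := exists_coxAction hT hM
  have hinj := coxAction_injective hT hE hM hχ
  simp only [List.all_eq_true, decide_eq_true_eq, List.mem_finRange, forall_const] at hk
  set c := ((List.finRange D.rank).map M.simple).prod with hc
  have hz : ∀ r, χ (c ^ k) r = T.ng r := by
    intro r
    rw [map_pow, hc, map_word hT hχ, ← hk r, ← coxPow_apply hT]
    rfl
  have hcen : c ^ k ∈ Subgroup.center M.Group := by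
    rw [Subgroup.mem_center_iff]
    intro g
    refine hinj (Equiv.ext fun r => ?_)
    obtain ⟨L, rfl⟩ := exists_word_eq g
    rw [map_mul, map_mul, Equiv.Perm.mul_apply, Equiv.Perm.mul_apply, hz, hz, map_word hT hχ, pw_ng]
  have hall : ∀ x ∈ Subgroup.center M.Group, x = 1 ∨ x = c ^ k := by
    intro x hx
    rcases center_dichotomy hT hE hM hconn hneg hχ hx with h | h
    · exact Or.inl h
    · exact Or.inr (hinj (Equiv.ext fun r => (h r).trans (hz r).symm))
  have hne : c ^ k ≠ 1 := fun e => ng_ne hT r₀ (by rw [← hz r₀, e, map_one]; rfl)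
  refine ⟨?_, fun x hx => ?_⟩
  · rw [Nat.card_eq_two_iff' (⟨1, one_mem _⟩ : Subgroup.center M.Group)]
    refine ⟨⟨c ^ k, hcen⟩, fun e => hne (congrArg Subtype.val e), fun y hy => ?_⟩
    rcases hall y y.2 with h | h
    · exact absurd (Subtype.ext h) hy
    · exact Subtype.ext h
  · rcases hall x hx with rfl | rfl
    · exact one_mem _
    · exact pow_mem (Subgroup.mem_zpowers c) k

include hT hE hM in
/-- The centre when the longest element is not minus the identity. -/
theorem center_one (hconn : diagB T = true) (hneg : negB T = true) (L₀ : List (Fin D.rank))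
    (h0 : ((List.finRange D.rank).all fun i => !decide (D.nroots ≤ 2 * (actL T L₀ (T.p i)).val)) = true)
    (h1 : ((List.finRange D.nroots).any fun r => decide (actL T L₀ r ≠ T.ng r)) = true) :
    Nat.card (Subgroup.center M.Group) = 1 := by
  obtain ⟨χ, hχ⟩ := exists_coxAction hT hM
  simp only [List.all_eq_true, Bool.not_eq_true', decide_eq_false_iff_not, List.mem_finRange, forall_const] at h0
  simp only [List.any_eq_true, decide_eq_true_eq] at h1
  rw [Subgroup.card_eq_one, Subgroup.eq_bot_iff_forall]
  intro x hx
  refine (center_dichotomy hT hE hM hconn hneg hχ hx).resolve_right fun h => ?_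
  obtain ⟨L, rfl⟩ := exists_word_eq x
  have e : pw hT (L ++ L₀) = 1 := eq_one_of_pos hT fun i => by
    rw [pw_append, Equiv.Perm.mul_apply, ← map_word hT hχ L, h, pos_ng hT, pw_apply_actL hT]
    exact h0 i
  obtain ⟨r, -, hr⟩ := h1
  apply hr
  have := congrArg (fun π : Equiv.Perm (Fin D.nroots) => π r) e
  simp only [pw_append, Equiv.Perm.mul_apply, Equiv.Perm.one_apply] at this
  rw [← map_word hT hχ L, h, pw_apply_actL hT] at this
  have := congrArg T.ng this
  rwa [ng_ng hT] at this

/-- Tokens: the Coxeter element, its inverse, a distinguished reflection. -/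
def expand (n : ℕ) : List (Bool ⊕ Fin n) → List (Fin n)
  | [] => []
  | Sum.inl true :: L => List.finRange n ++ expand n L
  | Sum.inl false :: L => (List.finRange n).reverse ++ expand n L
  | Sum.inr j :: L => j :: expand n L

/-- Every fundamental reflection is such a word. -/
def genBW (T : Tab D) (J : List (Fin D.rank)) (W : Fin D.rank → List (Bool ⊕ Fin D.rank)) : Bool :=
  (List.finRange D.rank).all fun i =>
    ((W i).all fun t => match t with | Sum.inl _ => true | Sum.inr j => decide (j ∈ J)) &&
    (List.finRange D.nroots).all fun r => decide (actL T (expand D.rank (W i)) r = T.w i r)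

/-- Distinct reflections. -/
def distBW (T : Tab D) (J : List (Fin D.rank)) : Bool :=
  J.all fun i => J.all fun j => decide (i = j) || (List.finRange D.nroots).any fun r => decide (T.w i r ≠ T.w j r)

include hT hE hM in
theorem generators (J : List (Fin D.rank)) (hJ : J.Nodup) (W : Fin D.rank → List (Bool ⊕ Fin D.rank))
    (hW : genBW T J W = true) (hd : distBW T J = true) :
    ∃ S : Finset M.Group, S.card = J.length ∧ (∀ t ∈ S, ∃ (g : M.Group) (i : Fin D.rank), t = g * M.simple i * g⁻¹) ∧
      Subgroup.closure (({((List.finRange D.rank).map M.simple).prod} : Set M.Group) ∪ ↑S) = ⊤ := by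
  classical
  obtain ⟨χ, hχ⟩ := exists_coxAction hT hM
  have hinj := coxAction_injective hT hE hM hχ
  simp only [distBW, List.all_eq_true, Bool.or_eq_true, List.any_eq_true, decide_eq_true_eq] at hd
  simp only [genBW, List.all_eq_true, Bool.and_eq_true, decide_eq_true_eq, List.mem_finRange, forall_const] at hW
  refine ⟨(J.map M.simple).toFinset, ?_, fun t ht => ?_, ?_⟩
  · rw [List.card_toFinset, List.dedup_eq_self.2, List.length_map]
    refine List.Nodup.map_on (fun i hi j hj e => ?_) hJ
    rcases hd i hi j hj with h | ⟨r, -, hr⟩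
    · exact h
    · exact absurd (by rw [← wp_apply hT, ← wp_apply hT, ← hχ, ← hχ, e]) hr
  · rw [List.mem_toFinset, List.mem_map] at ht
    obtain ⟨i, -, rfl⟩ := ht
    exact ⟨1, i, by simp⟩
  set c := ((List.finRange D.rank).map M.simple).prod with hc
  set H := Subgroup.closure (({c} : Set M.Group) ∪ ↑(J.map M.simple).toFinset)
  have hcH : c ∈ H := Subgroup.subset_closure (Or.inl rfl)
  have hrev : ((List.finRange D.rank).reverse.map M.simple).prod = c⁻¹ := by
    rw [hc, List.prod_inv_reverse, List.map_map, List.map_reverse]
    congr 2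
    refine List.map_congr_left fun i _ => ?_
    exact (inv_eq_of_mul_eq_one_right (by simpa using M.toCoxeterSystem.simple_mul_simple_self i)).symm
  have hword : ∀ L : List (Bool ⊕ Fin D.rank),
      (∀ t ∈ L, match t with | Sum.inl _ => true | Sum.inr j => decide (j ∈ J) = true) →
      ((expand D.rank L).map M.simple).prod ∈ H := by
    intro L
    induction L with
    | nil => intro _; exact one_mem H
    | cons t L ih =>
      intro hL
      have h1 := hL t (List.mem_cons_self ..)
      have h2 := ih fun s hs => hL s (List.mem_cons_of_mem _ hs)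
      rcases t with (_ | _) | j
      · rw [expand, List.map_append, List.prod_append, hrev]
        exact mul_mem (inv_mem hcH) h2
      · rw [expand, List.map_append, List.prod_append]
        exact mul_mem hcH h2
      · rw [expand, List.map_cons, List.prod_cons]
        refine mul_mem (Subgroup.subset_closure (Or.inr ?_)) h2
        rw [Finset.mem_coe, List.mem_toFinset]
        exact List.mem_map_of_mem (by simpa using h1)
  rw [eq_top_iff, ← M.toCoxeterSystem.subgroup_closure_range_simple, Subgroup.closure_le]
  rintro _ ⟨i, rfl⟩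
  obtain ⟨hi1, hi2⟩ := hW i
  have e : M.simple i = ((expand D.rank (W i)).map M.simple).prod := by
    refine hinj (Equiv.ext fun r => ?_)
    rw [map_word hT hχ, pw_apply_actL hT, hi2 r, hχ, wp_apply]
  show M.toCoxeterSystem.simple i ∈ H
  rw [CoxeterMatrix.toCoxeterSystem_simple, e]
  exact hword _ fun t ht => by
    have := hi1 t ht
    rcases t with b | j <;> simp_all

end Tab

end CfsgLib.Lie
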