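/-
A non-trivial normal subgroup of a Zassenhaus group is a Zassenhaus group on the same points.
-/
import Cfsg.Agent.Lib.PermZassenhausInv

set_option autoImplicit false
set_option linter.unusedSectionVars false

namespace CfsgLib.Lie.ZassNormal

open MulAction

universe u v

variable {G : Type u} {Ω : Type v} [Group G] [Finite G] [MulAction G Ω] [Fintype Ω]

theorem three_le (hZ : Cfsg.IsZassenhausGroup G Ω) : 3 ≤ Fintype.card Ω := by
  haveI := hZ.1
  obtain ⟨g, hg, a, b, hab, ga, gb⟩ := hZ.2.2.2.1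
  obtain ⟨x, hx⟩ := CfsgLib.Zassenhaus.exists_moved hZ hg
  exact Fintype.two_lt_card_iff.mpr ⟨a, b, x, hab, fun h => hx (h ▸ ga), fun h => hx (h ▸ gb)⟩

theorem kernel (hZ : Cfsg.IsZassenhausGroup G Ω) {a b : Ω} (hab : a ≠ b) :
    ∃ K : Subgroup G, K ≤ stabilizer G a ∧ (∀ h ∈ stabilizer G a, ∀ x ∈ K, h * x * h⁻¹ ∈ K) ∧
      K ⊓ stabilizer G b = ⊥ ∧ ∀ c : Ω, c ≠ a → ∃ k ∈ K, k • b = c := by
  classical
  set B := (stabilizer G b).subgroupOf (stabilizer G a) with hB
  have hBTI : ∀ g, g ∉ B → ∀ h ∈ B, g * h * g⁻¹ ∈ B → h = 1 := by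
    intro g hg h hh hgh
    rw [hB, Subgroup.mem_subgroupOf, mem_stabilizer_iff] at hg hh hgh
    refine Subtype.ext (hZ.2.2.1 (h : G) a b ((g⁻¹ : stabilizer G a) • b) hab ?_ ?_ h.2 hh ?_)
    · intro e
      apply hg
      conv_lhs => rw [e]
      exact smul_inv_smul (g : G) b
    · intro e
      exact hab (((congrArg (fun c => (g : G) • c) e).trans (smul_inv_smul (g : G) b)).symm.trans
        g.2).symm
    · have e := congrArg (fun c => (g : G)⁻¹ • c) hgh
      simp only [Subgroup.coe_mul, InvMemClass.coe_inv, mul_smul, inv_smul_smul] at e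
      exact e
  obtain ⟨K, hKn, hKB, -, hKcard, -⟩ := CfsgLib.Char.exists_frobenius_kernel B hBTI
  have hmeet : ∀ k : ↥(stabilizer G a), k ∈ K → (k : G) • b = b → k = 1 := fun k hk hkb =>
    Subgroup.mem_bot.1 (hKB ▸ ⟨hk, hkb⟩)
  refine ⟨K.map (stabilizer G a).subtype, Subgroup.map_subtype_le _, ?_, ?_, ?_⟩
  · rintro h hh _ ⟨x, hx, rfl⟩
    exact ⟨⟨h, hh⟩ * x * ⟨h, hh⟩⁻¹, hKn.conj_mem x hx _, rfl⟩
  · rw [Subgroup.eq_bot_iff_forall]
    rintro _ ⟨⟨x, hx, rfl⟩, hxb⟩
    rw [hmeet x hx hxb]; rfl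
  · have hidx : B.index = Fintype.card Ω - 1 := by
      have h1 := B.card_mul_index
      rw [CfsgLib.Zassenhaus.card_stab hZ hab, mul_comm (Fintype.card Ω - 1)] at h1
      have h2 : Nat.card B = Nat.card ↥(stabilizer G a ⊓ stabilizer G b) :=
        Nat.card_congr
          { toFun := fun g => ⟨(g.1 : G), g.1.2, g.2⟩
            invFun := fun g => ⟨⟨g.1, g.2.1⟩, g.2.2⟩
            left_inv := fun g => rfl
            right_inv := fun g => rfl }
      rw [h2] at h1
      exact Nat.eq_of_mul_eq_mul_left Nat.card_pos h1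
    intro c hc
    let f : K → {c : Ω // c ≠ a} := fun k => ⟨((k : ↥(stabilizer G a)) : G) • b, fun e =>
      hab (smul_left_cancel _ (e.trans (mem_stabilizer_iff.1 (k : ↥(stabilizer G a)).2).symm)).symm⟩
    have hf : Function.Injective f := by
      intro k l e
      have e' : ((k : ↥(stabilizer G a)) : G) • b = ((l : ↥(stabilizer G a)) : G) • b := congrArg Subtype.val e
      have h := hmeet ((l⁻¹ * k : K) : ↥(stabilizer G a)) (l⁻¹ * k).2 (by
        show (((l : ↥(stabilizer G a)) : G)⁻¹ * ((k : ↥(stabilizer G a)) : G)) • b = b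
        rw [mul_smul, e', inv_smul_smul])
      have h' : l⁻¹ * k = 1 := Subtype.ext h
      exact (inv_mul_eq_one.1 h').symm
    have hcard : Nat.card K = Nat.card {c : Ω // c ≠ a} := by
      rw [hKcard, hidx, Nat.card_eq_fintype_card, Fintype.card_subtype_compl, Fintype.card_subtype_eq]
    obtain ⟨k, hk⟩ := ((Nat.bijective_iff_injective_and_card f).2 ⟨hf, hcard⟩).2 ⟨c, hc⟩
    exact ⟨_, ⟨(k : ↥(stabilizer G a)), k.2, rfl⟩, congrArg Subtype.val hk⟩

theorem two_point_element (hZ : Cfsg.IsZassenhausGroup G Ω) (N : Subgroup G) [N.Normal] (hN : N ≠ ⊥)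
    {a b : Ω} (hab : a ≠ b) : ∃ h ∈ N, h ≠ 1 ∧ h • a = a ∧ h • b = b := by
  classical
  by_contra hno
  simp only [not_exists, not_and] at hno
  haveI := hZ.1
  have hfix : ∀ n ∈ N, ∀ c d : Ω, c ≠ d → n • c = c → n • d = d → n = 1 := by
    intro n hn c d hcd hc hd
    obtain ⟨g, gc, gd⟩ := is_two_pretransitive_iff.mp hZ.2.1 hcd hab
    by_contra h1
    refine hno (g * n * g⁻¹) (Subgroup.Normal.conj_mem inferInstance n hn g) (fun e => h1 (conj_eq_one_iff.1 e)) ?_ ?_
    · rw [← gc, smul_smul, inv_mul_cancel_right, mul_smul, hc]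
    · rw [← gd, smul_smul, inv_mul_cancel_right, mul_smul, hd]
  -- `N` is transitive
  obtain ⟨⟨n, hn⟩, hn1⟩ := Subgroup.ne_bot_iff_exists_ne_one.1 hN
  obtain ⟨x, hx⟩ := CfsgLib.Zassenhaus.exists_moved hZ (u := n) (fun e => hn1 (Subtype.ext e))
  have htr : ∀ c d : Ω, ∃ m ∈ N, m • c = d := by
    intro c d
    by_cases hcd : c = d
    · exact ⟨1, one_mem N, by rw [one_smul, hcd]⟩
    obtain ⟨g, gc, gd⟩ := is_two_pretransitive_iff.mp hZ.2.1 (Ne.symm hx) hcd
    exact ⟨g * n * g⁻¹, Subgroup.Normal.conj_mem inferInstance n hn g,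
      by rw [← gc, smul_smul, inv_mul_cancel_right, mul_smul, gd]⟩
  haveI hNt : IsPretransitive N Ω := ⟨fun c d => by
    obtain ⟨m, hm, e⟩ := htr c d; exact ⟨⟨m, hm⟩, e⟩⟩
  set B := stabilizer N a with hBdef
  have hTI : ∀ g : N, g ∉ B → ∀ h ∈ B, g * h * g⁻¹ ∈ B → h = 1 := by
    intro g hg h hh hgh
    refine Subtype.ext (hfix h h.2 a ((g : G)⁻¹ • a) (fun e => hg ?_) hh ?_)
    · show (g : G) • a = a
      conv_lhs => rw [e]
      rw [smul_inv_smul]
    · have h1 : ((g : G) * (h : G) * (g : G)⁻¹) • a = a := hgh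
      rw [mul_smul, mul_smul] at h1
      exact eq_inv_smul_iff.2 h1
  obtain ⟨R, hR, hRB, -, hRcard, hRmem⟩ := CfsgLib.Char.exists_frobenius_kernel B hTI
  set R' := R.map N.subtype with hR'
  have hmem : ∀ r : N, r ∈ R ↔ ∀ c : Ω, (r : G) • c = c → r = 1 := by
    intro r
    rw [hRmem]
    constructor
    · intro h c hc
      obtain ⟨g, hg⟩ := hNt.exists_smul_eq a c
      have hg' : (g : G) • a = c := hg
      have := h g (show ((g : G)⁻¹ * (r : G) * (g : G)) • a = a by rw [mul_smul, hg', mul_smul, hc, ← hg', inv_smul_smul])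
      calc r = g * (g⁻¹ * r * g) * g⁻¹ := by group
        _ = 1 := by rw [this]; group
    · intro h g hg
      have hg' : ((g : G)⁻¹ * (r : G) * (g : G)) • a = a := hg
      rw [mul_smul, mul_smul, inv_smul_eq_iff] at hg'
      rw [h _ hg']; group
  haveI : R'.Normal := ⟨by
    rintro _ ⟨r, hr, rfl⟩ g
    refine ⟨⟨g * r * g⁻¹, Subgroup.Normal.conj_mem inferInstance _ r.2 g⟩, (hmem _).2 fun c hc => ?_, rfl⟩
    have h1 : (g * (r : G) * g⁻¹) • c = c := hc
    rw [mul_smul, mul_smul] at h1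
    have h2 := (hmem r).1 hr (g⁻¹ • c) (eq_inv_smul_iff.2 h1)
    exact Subtype.ext (by simp [h2])⟩
  have hstab : ∀ c : Ω, stabilizer R' c = ⊥ := by
    intro c
    rw [Subgroup.eq_bot_iff_forall]
    rintro ⟨_, r, hr, rfl⟩ hc
    exact Subtype.ext (congrArg Subtype.val ((hmem r).1 hr c hc) :)
  haveI hpre : IsPretransitive R' Ω := by
    have hidx : B.index = Fintype.card Ω := by
      rw [hBdef, index_stabilizer_of_transitive, Nat.card_eq_fintype_card]
    have hinj : Function.Injective (fun r : R' => r • a) := by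
      intro r s e
      have h : s⁻¹ * r ∈ stabilizer R' a := by
        show (s⁻¹ * r) • a = a
        rw [mul_smul, show r • a = s • a from e, inv_smul_smul]
      rw [hstab a, Subgroup.mem_bot, inv_mul_eq_one] at h
      exact h.symm
    have hsur := ((Nat.bijective_iff_injective_and_card _).2 ⟨hinj, by
      rw [Nat.card_congr (Subgroup.equivMapOfInjective R _ N.subtype_injective).symm.toEquiv, hRcard, hidx,
        Nat.card_eq_fintype_card]⟩).2
    refine ⟨fun c d => ?_⟩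
    obtain ⟨r, hr⟩ := hsur c
    obtain ⟨s, hs⟩ := hsur d
    exact ⟨s * r⁻¹, by rw [mul_smul, ← hr, inv_smul_smul]; exact hs⟩
  obtain ⟨c, hc⟩ := hZ.2.2.2.2 R' inferInstance hpre
  exact hc (hstab c)

theorem isZassenhaus (hZ : Cfsg.IsZassenhausGroup G Ω) (N : Subgroup G) [N.Normal] (hN : N ≠ ⊥) :
    Cfsg.IsZassenhausGroup N Ω := by
  classical
  haveI := hZ.1
  have hn3 := three_le hZ
  -- `N` contains the kernel of every point stabiliser
  have htr2 : ∀ a b c : Ω, a ≠ b → c ≠ a → ∃ n ∈ N, n • a = a ∧ n • b = c := by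
    intro a b c hab hca
    obtain ⟨K, hKa, hKn, hKb, hKt⟩ := kernel hZ hab
    obtain ⟨h, hhN, hh1, hha, hhb⟩ := two_point_element hZ N hN hab
    have hKN : K ≤ N := by
      let φ : K → K := fun q => ⟨q.1 * (h * q.1⁻¹ * h⁻¹), mul_mem q.2 (hKn h hha _ (inv_mem q.2))⟩
      have hφ : Function.Injective φ := by
        intro q r e
        have e' : q.1 * (h * q.1⁻¹ * h⁻¹) = r.1 * (h * r.1⁻¹ * h⁻¹) := congrArg Subtype.val e
        have hc : (r.1⁻¹ * q.1) * h = h * (r.1⁻¹ * q.1) := by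
          calc r.1⁻¹ * q.1 * h = r.1⁻¹ * (q.1 * (h * q.1⁻¹ * h⁻¹)) * h * q.1 := by group
            _ = r.1⁻¹ * (r.1 * (h * r.1⁻¹ * h⁻¹)) * h * q.1 := by rw [e']
            _ = h * (r.1⁻¹ * q.1) := by group
        set x := r.1⁻¹ * q.1 with hx
        have hxK : x ∈ K := mul_mem (inv_mem r.2) q.2
        have hxb : x • b = b := by
          by_contra hne
          refine hh1 (hZ.2.2.1 h a b (x • b) hab (Ne.symm hne) (fun e => ?_) hha hhb ?_)
          · exact hab (smul_left_cancel x ((mem_stabilizer_iff.1 (hKa hxK)).trans e))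
          · rw [smul_smul, ← hc, mul_smul, hhb]
        have hx1 : x = 1 := Subgroup.mem_bot.1 (hKb ▸ ⟨hxK, hxb⟩)
        rw [hx, inv_mul_eq_one] at hx1
        exact Subtype.ext hx1.symm
      intro x hx
      obtain ⟨q, hq⟩ := (Finite.injective_iff_surjective.1 hφ) ⟨x, hx⟩
      rw [← show q.1 * (h * q.1⁻¹ * h⁻¹) = x from congrArg Subtype.val hq,
        show q.1 * (h * q.1⁻¹ * h⁻¹) = (q.1 * h * q.1⁻¹) * h⁻¹ by group]
      exact mul_mem (Subgroup.Normal.conj_mem inferInstance h hhN _) (inv_mem hhN)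
    obtain ⟨k, hk, hkb⟩ := hKt c hca
    exact ⟨k, hKN hk, hKa hk, hkb⟩
  have two : IsMultiplyPretransitive N Ω 2 := by
    rw [is_two_pretransitive_iff]
    intro a b c d hab hcd
    obtain ⟨e, he1, he2⟩ : ∃ e : Ω, e ≠ a ∧ e ≠ c := by
      by_contra h
      have hsub : (Finset.univ : Finset Ω) ⊆ {a, c} := fun x _ => by
        by_contra hx
        simp only [Finset.mem_insert, Finset.mem_singleton, not_or] at hx
        exact h ⟨x, hx.1, hx.2⟩
      have := Finset.card_le_card hsub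
      rw [Finset.card_univ] at this
      have := Finset.card_le_two (a := a) (b := c)
      omega
    -- move `a` to `c` fixing `e`, then adjust fixing `c`
    obtain ⟨n₁, hn₁, -, h₁⟩ := htr2 e a c he1 he2.symm
    obtain ⟨n₂, hn₂, h₂, h₂'⟩ := htr2 c (n₁ • b) d (fun e' => hab (smul_left_cancel n₁ (h₁.trans e'))) hcd.symm
    refine ⟨⟨n₂ * n₁, mul_mem hn₂ hn₁⟩, ?_, ?_⟩
    · show (n₂ * n₁) • a = c
      rw [mul_smul, h₁, h₂]
    · show (n₂ * n₁) • b = d
      rw [mul_smul, h₂']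
  haveI : FaithfulSMul N Ω := ⟨fun {x y} h => Subtype.ext (FaithfulSMul.eq_of_smul_eq_smul fun c : Ω => h c)⟩
  refine ⟨inferInstance, two, fun g a b c hab hbc hac ga gb gc => Subtype.ext (hZ.2.2.1 g a b c hab hbc hac ga gb gc), ?_, ?_⟩
  · obtain ⟨-, -, a, b, hab, -, -⟩ := hZ.2.2.2.1
    obtain ⟨h, hh, h1, ha, hb⟩ := two_point_element hZ N hN hab
    exact ⟨⟨h, hh⟩, fun e => h1 (congrArg Subtype.val e), a, b, hab, ha, hb⟩
  intro R hR hRt
  by_contra hreg
  simp only [not_exists, not_not] at hreg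
  set R' := R.map N.subtype with hR'
  have hstab : ∀ x ∈ R', ∀ c : Ω, x • c = c → x = 1 := by
    rintro _ ⟨r, hr, rfl⟩ c hc
    have : (⟨r, hr⟩ : R) ∈ stabilizer R c := hc
    rw [hreg c, Subgroup.mem_bot] at this
    rw [show r = 1 from congrArg Subtype.val this]; rfl
  have hnorm : ∀ n ∈ N, ∀ x ∈ R', n * x * n⁻¹ ∈ R' := by
    rintro n hn _ ⟨r, hr, rfl⟩
    exact ⟨⟨n, hn⟩ * r * ⟨n, hn⟩⁻¹, hR.conj_mem r hr _, rfl⟩
  have htrans : ∀ c d : Ω, ∃ x ∈ R', x • c = d := fun c d => by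
    obtain ⟨⟨r, hr⟩, e⟩ := hRt.exists_smul_eq c d
    exact ⟨_, ⟨r, hr, rfl⟩, e⟩
  have hRN : R' ≤ N := Subgroup.map_subtype_le _
  haveI : R'.Normal := ⟨fun x hx g => by
    set S := R'.map (MulAut.conj g).toMonoidHom with hS
    have hSmem : ∀ y : G, y ∈ S ↔ g⁻¹ * y * g ∈ R' := fun y => by
      rw [hS, Subgroup.mem_map]
      constructor
      · rintro ⟨r, hr, rfl⟩; simpa [mul_assoc] using hr
      · exact fun h => ⟨_, h, by simp [mul_assoc]⟩
    suffices hle : S ≤ R' by exact hle ((hSmem _).2 (by simpa [mul_assoc] using hx))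
    have hcardS : Nat.card S = Nat.card R' :=
      Nat.card_congr (Subgroup.equivMapOfInjective _ _ (MulAut.conj g).injective).symm.toEquiv
    have hSnorm : ∀ n ∈ N, ∀ y ∈ S, n * y * n⁻¹ ∈ S := by
      intro n hn y hy
      rw [hSmem] at hy ⊢
      have := hnorm (g⁻¹ * n * g) (by simpa using Subgroup.Normal.conj_mem inferInstance n hn g⁻¹) _ hy
      simpa [mul_assoc] using this
    by_cases hD : R' ⊓ S = ⊥
    · exfalso
      have hSN : S ≤ N := fun y hy => by
        have := Subgroup.Normal.conj_mem (inferInstance : N.Normal) _ (hRN ((hSmem y).1 hy)) g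
        simpa [mul_assoc] using this
      have hcomm : ∀ (r : R') (s : S), Commute (r : G) (s : G) := fun r s => by
        have h1 : (r : G) * s * (r : G)⁻¹ * (s : G)⁻¹ ∈ R' ⊓ S := by
          refine Subgroup.mem_inf.2 ⟨?_, mul_mem (hSnorm r (hRN r.2) s s.2) (inv_mem s.2)⟩
          rw [show (r : G) * s * (r : G)⁻¹ * (s : G)⁻¹ = r * ((s : G) * (r : G)⁻¹ * (s : G)⁻¹) by group]
          exact mul_mem r.2 (hnorm s (hSN s.2) _ (inv_mem r.2))
        rw [hD, Subgroup.mem_bot, mul_inv_eq_one, mul_inv_eq_iff_eq_mul] at h1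
        exact h1
      let φ : R' × S →* G := MonoidHom.noncommCoprod R'.subtype S.subtype hcomm
      have hφ : Function.Injective φ := by
        rintro ⟨r, s⟩ ⟨r', s'⟩ e
        have e' : (r : G) * s = r' * s' := e
        have h1 : (r' : G)⁻¹ * r ∈ R' ⊓ S := Subgroup.mem_inf.2 ⟨mul_mem (inv_mem r'.2) r.2, by
          rw [show (r' : G)⁻¹ * r = s' * (s : G)⁻¹ by rw [inv_mul_eq_iff_eq_mul, ← mul_assoc, ← e', mul_inv_cancel_right]]
          exact mul_mem s'.2 (inv_mem s.2)⟩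
        rw [hD, Subgroup.mem_bot, inv_mul_eq_one] at h1
        have h2 : s = s' := Subtype.ext (mul_left_cancel (h1 ▸ e' : (r : G) * s = r * s'))
        rw [h2, Subtype.ext h1]
      obtain ⟨-, -, a, b, hab, -, -⟩ := hZ.2.2.2.1
      letI : MulAction (R' × S) Ω := MulAction.compHom Ω φ
      haveI : IsPretransitive (R' × S) Ω := ⟨fun c d => by
        obtain ⟨r, hr, e⟩ := htrans c d
        exact ⟨(⟨r, hr⟩, 1), by
          show (r * ((1 : S) : G)) • c = d
          rw [OneMemClass.coe_one, mul_one]; exact e⟩⟩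
      have hRcard : Nat.card R' = Fintype.card Ω := by
        rw [← Nat.card_eq_fintype_card]
        refine Nat.card_eq_of_bijective (fun r : R' => (r : G) • a) ⟨fun r s e => ?_, fun c => ?_⟩
        · exact Subtype.ext (inv_mul_eq_one.1 (hstab _ (mul_mem (inv_mem s.2) r.2) a (by rw [mul_smul, show (r : G) • a = (s : G) • a from e, inv_smul_smul]))).symm
        · obtain ⟨r, hr, e⟩ := htrans a c; exact ⟨⟨r, hr⟩, e⟩
      have h1 := (stabilizer (R' × S) a).card_mul_index
      rw [index_stabilizer_of_transitive, Nat.card_prod, hcardS, hRcard, Nat.card_eq_fintype_card (α := Ω)] at h1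
      have h2 : Nat.card (stabilizer (R' × S) a) = Fintype.card Ω := Nat.eq_of_mul_eq_mul_right (by omega) h1
      let ψ : stabilizer (R' × S) a →* stabilizer G a :=
        (φ.comp (Subgroup.subtype _)).codRestrict _ fun p => p.2
      have h3 : Fintype.card Ω ∣ Nat.card (stabilizer G a) := by
        rw [← h2]
        exact Subgroup.card_dvd_of_injective ψ fun p q e => Subtype.ext (hφ (congrArg Subtype.val e))
      rw [CfsgLib.Zassenhaus.card_stab hZ hab] at h3
      have hd := CfsgLib.Zassenhaus.two_point_dvd hZ hab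
      have hcop : Nat.Coprime (Fintype.card Ω) (Fintype.card Ω - 1) := by
        obtain ⟨j, hj⟩ : ∃ j, Fintype.card Ω = j + 1 := ⟨Fintype.card Ω - 1, by omega⟩
        rw [hj, add_tsub_cancel_right]
        exact Nat.coprime_self_add_left.2 (Nat.coprime_one_left j)
      have h4 := Nat.le_of_dvd (by omega) ((hcop.dvd_of_dvd_mul_left h3).trans hd)
      omega
    · obtain ⟨⟨d, hd1, hd2⟩, hd⟩ := Subgroup.ne_bot_iff_exists_ne_one.1 hD
      obtain ⟨c, hc⟩ := CfsgLib.Zassenhaus.exists_moved hZ (u := d) (fun e => hd (Subtype.ext e))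
      intro y hy
      by_cases hy1 : y = 1
      · rw [hy1]; exact one_mem _
      obtain ⟨c', hc'⟩ := CfsgLib.Zassenhaus.exists_moved hZ (u := y) hy1
      obtain ⟨n, n1, n2⟩ := is_two_pretransitive_iff.mp two (Ne.symm hc) (Ne.symm hc')
      have n1' : (n : G) • c = c' := n1
      have n2' : (n : G) • d • c = y • c' := n2
      have hw1 := hnorm n n.2 d hd1
      have hw2 := hSnorm n n.2 d hd2
      have hwc : ((n : G) * d * (n : G)⁻¹) • c' = y • c' := by
        rw [← n1', smul_smul, inv_mul_cancel_right, mul_smul, n2', n1']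
      set w := (n : G) * d * (n : G)⁻¹
      have h5 : y⁻¹ * w ∈ S := mul_mem (inv_mem hy) hw2
      have h6 : y⁻¹ * w = 1 := by
        rw [hSmem] at h5
        have h8 := hstab _ h5 (g⁻¹ • c') (by rw [smul_smul, mul_assoc, mul_inv_cancel, mul_one, mul_smul, mul_smul, hwc, inv_smul_smul])
        calc y⁻¹ * w = g * (g⁻¹ * (y⁻¹ * w) * g) * g⁻¹ := by group
          _ = 1 := by rw [h8]; group
      rw [inv_mul_eq_one] at h6
      exact h6 ▸ hw1⟩
  haveI : IsPretransitive R' Ω := ⟨fun c d => by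
    obtain ⟨x, hx, e⟩ := htrans c d; exact ⟨⟨x, hx⟩, e⟩⟩
  obtain ⟨c, hc⟩ := hZ.2.2.2.2 R' inferInstance inferInstance
  refine hc ?_
  rw [Subgroup.eq_bot_iff_forall]
  rintro ⟨x, hx⟩ hxc
  exact Subtype.ext (hstab x hx c hxc)

end CfsgLib.Lie.ZassNormal
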