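/-
Zassenhaus groups of odd degree are simple.
-/
import Cfsg.Agent.Lib.LieRankOneFour
import Cfsg.Agent.Lib.PermZassenhausOdd
import Cfsg.Agent.Lib.CoreFrobenius

set_option autoImplicit false
set_option linter.unusedSectionVars false

namespace CfsgLib.Lie.ZassOdd

open MulAction CfsgLib.Lie.RankOne

universe u v

variable {G : Type u} {Ω : Type v} [Group G] [Finite G] [MulAction G Ω] [Fintype Ω]

theorem exists_setup (hZ : Cfsg.IsZassenhausGroup G Ω) (hodd : Odd (Fintype.card Ω)) :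
    ∃ (a : Ω) (t : G) (Q : Subgroup G), Cfsg.IsRankOneSetup G Ω a t Q := by
  classical
  haveI := hZ.1
  obtain ⟨-, -, -, ⟨-, -, a, -, -, -, -⟩, -⟩ := id hZ
  obtain ⟨b, hb, htr⟩ := CfsgLib.Char.zass_exists_ne hZ a
  obtain ⟨⟨t, ht2, hta, htb⟩, -⟩ := CfsgLib.Zassenhaus.involutions hZ hb.symm
  have hD : Odd (Nat.card ↥(stabilizer G a ⊓ stabilizer G b)) := by
    by_contra hev
    rw [Nat.not_odd_iff_even] at hev
    obtain ⟨u, hu, hfix⟩ := CfsgLib.Zassenhaus.exists_two_fixed hZ hb.symm hev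
    have hp := CfsgLib.Zassenhaus.fix_parity (Ω := Ω) hu
    have h2 : Nat.card (fixedBy Ω u) = 2 := by
      rw [Nat.card_coe_set_eq, show fixedBy Ω u = {a, b} by ext x; simp [fixedBy, hfix], Set.ncard_pair hb.symm]
    rw [h2, Nat.odd_iff.1 hodd] at hp
    exact absurd hp (by norm_num)
  set B := (stabilizer G b).subgroupOf (stabilizer G a) with hB
  have hmal : ∀ g, g ∉ B → ∀ h ∈ B, g * h * g⁻¹ ∈ B → h = 1 := by
    intro g hg h hh hgh
    rw [hB, Subgroup.mem_subgroupOf, mem_stabilizer_iff] at hg hh hgh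
    refine Subtype.ext (hZ.2.2.1 (h : G) a b ((g⁻¹ : stabilizer G a) • b) hb.symm ?_ ?_ h.2 hh ?_)
    · intro e
      exact hg (by
        have h1 : ((g⁻¹ : stabilizer G a) : G) • b = b := e.symm
        rw [Subgroup.coe_inv, inv_smul_eq_iff] at h1
        exact h1.symm)
    · intro e
      exact hb (smul_left_cancel ((g⁻¹ : stabilizer G a) : G) (e.symm.trans (g⁻¹).2.symm))
    · show (h : G) • ((g⁻¹ : stabilizer G a) : G) • b = ((g⁻¹ : stabilizer G a) : G) • b
      rw [Subgroup.coe_inv]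
      have h1 : ((g * h * g⁻¹ : stabilizer G a) : G) • b = b := hgh
      simp only [Subgroup.coe_mul, Subgroup.coe_inv, mul_smul] at h1
      exact (eq_inv_smul_iff.2 h1)
  obtain ⟨K, hK, hKB, hKtop, hKcard, hKmem⟩ := CfsgLib.Char.exists_frobenius_kernel B hmal
  have hidx : B.index = Fintype.card Ω - 1 := by
    have h1 := B.card_mul_index
    rw [CfsgLib.Zassenhaus.card_stab hZ hb.symm, mul_comm (Fintype.card Ω - 1)] at h1
    have h2 : Nat.card B = Nat.card ↥(stabilizer G a ⊓ stabilizer G b) :=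
      Nat.card_congr
        { toFun := fun g => ⟨(g.1 : G), g.1.2, g.2⟩
          invFun := fun g => ⟨⟨g.1, g.2.1⟩, g.2.2⟩
          left_inv := fun g => rfl
          right_inv := fun g => rfl }
    rw [h2] at h1
    exact Nat.eq_of_mul_eq_mul_left Nat.card_pos h1
  refine ⟨a, t, K.map (stabilizer G a).subtype, ?_⟩
  refine
    { two_transitive := hZ.2.1
      mul_self := by rw [← sq, ← ht2, pow_orderOf_eq_one]
      ne_one := fun e => by rw [e, orderOf_one] at ht2; exact absurd ht2 (by norm_num)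
      not_mem := fun e => hb (by rw [← hta]; exact e)
      le := Subgroup.map_subtype_le _
      conj_mem := ?_
      inf_eq_bot := ?_
      sup_eq := ?_
      even_card := ?_
      odd_card := by rw [hta]; exact hD }
  · rintro h hh _ ⟨x, hx, rfl⟩
    exact ⟨⟨h, hh⟩ * x * ⟨h, hh⟩⁻¹, hK.conj_mem x hx _, rfl⟩
  · rw [Subgroup.eq_bot_iff_forall]
    rintro _ ⟨⟨x, hx, rfl⟩, hxb⟩
    rw [hta] at hxb
    have : x ∈ K ⊓ B := ⟨hx, hxb⟩
    rw [hKB, Subgroup.mem_bot] at this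
    rw [this]; rfl
  · rw [hta]
    have h := congrArg (Subgroup.map (stabilizer G a).subtype) hKtop
    rw [Subgroup.map_sup, hB, Subgroup.subgroupOf_map_subtype, ← MonoidHom.range_eq_map,
      Subgroup.range_subtype, inf_comm] at h
    exact h
  · rw [Nat.card_congr (Subgroup.equivMapOfInjective _ _ (stabilizer G a).subtype_injective).symm.toEquiv,
      hKcard, hidx]
    obtain ⟨j, hj⟩ := hodd
    exact ⟨j, by omega⟩

theorem isSimple (hZ : Cfsg.IsZassenhausGroup G Ω) (hodd : Odd (Fintype.card Ω)) : IsSimpleGroup G := by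
  obtain ⟨a, t, Q, hS⟩ := exists_setup hZ hodd
  haveI := hZ.1
  have htt : ∀ y : G, t * (t * y) = y := fun y => by rw [← mul_assoc, hS.mul_self, one_mul]
  obtain ⟨f, hf⟩ := exists_fix hS hS.mul_self
  -- every element of `D` is inverted
  have hDK : ∀ d ∈ DD a t, d ∈ Cfsg.invertedBy (DD a t) t := by
    intro d hd
    have hn : ∀ x ∈ DD a t, t * x * t⁻¹ ∈ DD a t := fun x hx => by rw [tinv hS]; exact D_conj hS hx
    obtain ⟨⟨y, z⟩, ⟨hy, hz, e⟩, -⟩ := factor hS.mul_self hS.odd_card hn d hd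
    have hyf : y • f = f :=
      stab_centralizer hS hS.ne_one hS.mul_self hf (Subgroup.mem_centralizer_singleton_iff.1 hy.2)
    have hy1 : y = 1 := hZ.2.2.1 y a (t • a) f (ta_ne hS).symm
      (fun e => ta_ne hS (by rw [← e, t_smul_smul hS] at hf; exact hf.symm))
      (fun e => ta_ne hS (e ▸ hf)) hy.1.1 hy.1.2 hyf
    have e' : d = z := by rw [show d = y * z from e, hy1, one_mul]
    exact e' ▸ hz
  obtain ⟨k, hkD, hk1⟩ : ∃ k ∈ DD a t, k ≠ 1 := by
    have h := CfsgLib.Char.zass_inf_ne_bot hZ (ta_ne hS).symm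
    obtain ⟨⟨k, hk⟩, h1⟩ := Subgroup.ne_bot_iff_exists_ne_one.1 h
    exact ⟨k, hk, fun e => h1 (Subtype.ext e)⟩
  have hk := hDK k hkD
  haveI hnil := nilpotent_of_inverted hS hk hk1
  haveI := Fact.mk Nat.prime_two
  -- a central involution of `Q` and a conjugate of it
  obtain ⟨z, hzQ, hzI, hzc⟩ : ∃ z ∈ Q, z ∈ Cfsg.involutionsIn (stabilizer G a : Set G) ∧ ∀ x ∈ Q, z * x = x * z := by
    obtain ⟨P⟩ : Nonempty (Sylow 2 ↥Q) := inferInstance
    have hq := (Group.isNilpotent_of_finite_tfae (G := ↥Q)).out 0 3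
    haveI hPn : (P : Subgroup ↥Q).Normal := by
      have hn := hnil
      rw [hq] at hn
      exact hn 2 inferInstance P
    have hPne : (P : Subgroup ↥Q) ≠ ⊥ := P.ne_bot_of_dvd_card (even_iff_two_dvd.1 hS.even_card)
    obtain ⟨⟨z, hzP, hzc⟩, hz1⟩ := Subgroup.ne_bot_iff_exists_ne_one.1 (CfsgLib.Core.nilpotent_inf_center_ne_bot hPne)
    have hz1' : z ≠ 1 := fun e => hz1 (Subtype.ext e)
    obtain ⟨n, hn⟩ := IsPGroup.iff_orderOf.1 P.2 ⟨z, hzP⟩
    rw [Subgroup.orderOf_mk] at hn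
    have h2z : 2 ∣ orderOf z := by
      rw [hn]
      refine dvd_pow_self 2 fun e => hz1' ?_
      rw [e, pow_zero, orderOf_eq_one_iff] at hn
      exact hn
    have hw : orderOf (z ^ (orderOf z / 2)) = 2 := orderOf_pow_orderOf_div (orderOf_pos z).ne' h2z
    refine ⟨((z ^ (orderOf z / 2) : ↥Q) : G), Subtype.prop _, ⟨hS.le (Subtype.prop _), fun e => ?_, ?_⟩,
      fun x hx => ?_⟩
    · have : z ^ (orderOf z / 2) = 1 := Subtype.ext e
      rw [this, orderOf_one] at hw; exact absurd hw (by norm_num)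
    · have := pow_orderOf_eq_one (z ^ (orderOf z / 2))
      rw [hw, sq] at this
      exact congrArg Subtype.val this
    · exact congrArg Subtype.val (Subgroup.mem_center_iff.1 (pow_mem hzc _) ⟨x, hx⟩).symm
  have h2 : ∃ x y : G, x ≠ 1 ∧ y ≠ 1 ∧ x ≠ y ∧ x * x = 1 ∧ y * y = 1 ∧ x * y = y * x := by
    have hw : k⁻¹ * z * k ∈ Q := by
      have := hS.conj_mem k⁻¹ (inv_mem hkD.1) z hzQ
      rwa [inv_inv] at this
    refine ⟨z, k⁻¹ * z * k, hzI.2.1, ?_, ?_, hzI.2.2, ?_, hzc _ hw⟩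
    · intro e
      exact hzI.2.1 (by
        have h := congrArg (fun X => k * X * k⁻¹) e
        simpa [mul_assoc] using h)
    · intro e
      exact hk1 (cent_inj hS hzI 1 ⟨(DD a t).one_mem, by simp⟩ k hk (by simpa using e)).symm
    · simp [mul_assoc, ← mul_assoc z z, hzI.2.2]
  haveI : Nontrivial G := ⟨⟨k, 1, hk1⟩⟩
  refine ⟨fun N hN => or_iff_not_imp_left.2 fun hN0 => ?_⟩
  have hcore : Cfsg.pPrimeCore 2 G = ⊥ := by
    rw [odd_core hS h2, Subgroup.eq_bot_iff_forall]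
    intro g hg
    refine FaithfulSMul.eq_of_smul_eq_smul fun c : Ω => ?_
    rw [one_smul]
    obtain ⟨h, rfl⟩ := trans hS a c
    have h1 := hg h⁻¹
    rw [inv_inv, mem_stabilizer_iff, mul_smul, mul_smul, inv_smul_eq_iff] at h1
    exact h1
  have hev : 2 ∣ Nat.card N := by
    by_contra h
    exact hN0 (le_bot_iff.1 (hcore ▸ CfsgLib.Core.le_pPrimeCore hN
      (Nat.coprime_two_right.2 (Nat.odd_iff.2 (Nat.two_dvd_ne_zero.1 h)))))
  obtain ⟨⟨u, huN⟩, hu⟩ := exists_prime_orderOf_dvd_card' (G := ↥N) 2 hev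
  rw [Subgroup.orderOf_mk] at hu
  have hinv : ∀ v : G, v * v = 1 → v ∈ N := by
    intro v hv2
    by_cases hv : v = 1
    · rw [hv]; exact one_mem N
    obtain ⟨g, rfl⟩ := conj_all hS (u := u) (v := v) (fun e => by rw [e, orderOf_one] at hu; exact absurd hu (by norm_num))
      (by rw [← sq, ← hu, pow_orderOf_eq_one]) hv hv2
    exact hN.conj_mem u huN g
  have hDN : ∀ d ∈ DD a t, d ∈ N := fun d hd => by
    rw [← htt d]
    refine mul_mem (hinv t hS.mul_self) (hinv _ ?_)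
    exact (swap_iff hS (by rw [mul_smul, mem_stabilizer_iff.1 hd.1])).2 (by rw [htt]; exact hDK d hd)
  have hQN : Q ≤ N := by
    let φ : Q → Q := fun q => ⟨q.1 * (k * q.1⁻¹ * k⁻¹), mul_mem q.2 (hS.conj_mem k hkD.1 _ (inv_mem q.2))⟩
    have hφ : Function.Injective φ := by
      intro q r e
      have e' : q.1 * (k * q.1⁻¹ * k⁻¹) = r.1 * (k * r.1⁻¹ * k⁻¹) := congrArg Subtype.val e
      have hm : r.1⁻¹ * q.1 ∈ Q ⊓ Subgroup.centralizer {k} := by
        refine Subgroup.mem_inf.2 ⟨mul_mem (inv_mem r.2) q.2, Subgroup.mem_centralizer_singleton_iff.2 ?_⟩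
        calc r.1⁻¹ * q.1 * k = r.1⁻¹ * (q.1 * (k * q.1⁻¹ * k⁻¹)) * k * q.1 := by group
          _ = r.1⁻¹ * (r.1 * (k * r.1⁻¹ * k⁻¹)) * k * q.1 := by rw [e']
          _ = k * (r.1⁻¹ * q.1) := by group
      rw [fpf hS hk hk1, Subgroup.mem_bot, inv_mul_eq_one] at hm
      exact Subtype.ext hm.symm
    intro x hx
    obtain ⟨q, hq⟩ := (Finite.injective_iff_surjective.1 hφ) ⟨x, hx⟩
    rw [← show q.1 * (k * q.1⁻¹ * k⁻¹) = x from congrArg Subtype.val hq,
      show q.1 * (k * q.1⁻¹ * k⁻¹) = (q.1 * k * q.1⁻¹) * k⁻¹ by group]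
    exact mul_mem (hN.conj_mem k (hDN k hkD) _) (inv_mem (hDN k hkD))
  have hGa : stabilizer G a ≤ N := fun g hg => by
    obtain ⟨q, hq, d, hd, rfl⟩ := QD hS hg
    exact mul_mem (hQN hq) (hDN d hd)
  refine eq_top_iff.2 fun g _ => ?_
  by_cases hg : g ∈ stabilizer G a
  · exact hGa hg
  · obtain ⟨⟨x, y⟩, ⟨hx, hy, rfl⟩, -⟩ := canonical hS hg
    exact mul_mem (mul_mem (hGa hx) (hinv t hS.mul_self)) (hQN hy)

end CfsgLib.Lie.ZassOdd
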