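/-
A doubly transitive group with no non-identity element fixing three points, some fixing two, and a regular
normal subgroup has degree a prime power of two, the exponent being prime.
-/
import Cfsg.Agent.Lib.CharFrobenius
import Cfsg.Agent.Lib.CoreFpfComplement
import Cfsg.Agent.Lib.CoreThompsonFpf
import Mathlib.GroupTheory.SpecificGroups.ZGroup
import Mathlib.GroupTheory.GroupAction.MultipleTransitivity
import Mathlib.FieldTheory.Fixed
import Mathlib.FieldTheory.Finite.Basic

set_option autoImplicit false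
set_option linter.unusedSectionVars false

namespace CfsgLib.Lie.ZassRegular

/-- A commutative transitive group of additive maps and a semilinear map of prime order fixing only one line. -/
theorem semilinear {V Γ : Type*} [AddCommGroup V] [Finite V] [Group Γ] (c : Γ →* AddMonoid.End V) (K : Subgroup Γ)
    (v : V) (hv : v ≠ 0) (hcomm : ∀ j ∈ K, ∀ k ∈ K, j * k = k * j) (hcover : ∀ w : V, w ≠ 0 → ∃ k ∈ K, c k v = w)
    (x : Γ) (hxK : ∀ k ∈ K, x * k * x⁻¹ ∈ K) (hxv : c x v = v) (hfix : ∀ w, c x w = w → w = 0 ∨ w = v)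
    {r : ℕ} (hr : r.Prime) (hxr : x ^ r = 1) (h3 : 3 ≤ Nat.card V) : Nat.card V = 2 ^ r := by
  classical
  haveI := Fintype.ofFinite V
  haveI : Finite (AddMonoid.End V) := Finite.of_injective (fun f : AddMonoid.End V => (f : V → V)) DFunLike.coe_injective
  let s : Set (AddMonoid.End V) := c '' (K : Set Γ)
  have hs : ∀ a ∈ s, ∀ b ∈ s, a * b = b * a := by
    rintro _ ⟨j, hj, rfl⟩ _ ⟨k, hk, rfl⟩
    rw [← map_mul, ← map_mul, hcomm j hj k hk]
  letI : CommRing (Subring.closure s) := Subring.closureCommRingOfComm hs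
  have hmem : ∀ k ∈ K, c k ∈ Subring.closure s := fun k hk => Subring.subset_closure ⟨k, hk, rfl⟩
  -- evaluation at `v` is bijective
  let ev : Subring.closure s → V := fun a => (a : AddMonoid.End V) v
  have hzero : ∀ a : Subring.closure s, ev a = 0 → a = 0 := by
    intro a ha
    refine Subtype.ext (AddMonoidHom.ext fun w => ?_)
    show (a : AddMonoid.End V) w = 0
    by_cases hw : w = 0
    · rw [hw, map_zero]
    obtain ⟨k, hk, rfl⟩ := hcover w hw
    have h1 : (a : AddMonoid.End V) * c k = c k * (a : AddMonoid.End V) :=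
      congrArg Subtype.val (mul_comm a ⟨c k, hmem k hk⟩)
    calc (a : AddMonoid.End V) (c k v) = ((a : AddMonoid.End V) * c k) v := rfl
      _ = c k (ev a) := by rw [h1]; rfl
      _ = 0 := by rw [ha, map_zero]
  have hinj : Function.Injective ev := fun a b e => sub_eq_zero.1 (hzero (a - b) (by
    show ((a - b : Subring.closure s) : AddMonoid.End V) v = 0
    exact sub_eq_zero.2 e))
  have hsurj : Function.Surjective ev := fun w => by
    by_cases hw : w = 0
    · exact ⟨0, by rw [hw]; rfl⟩
    obtain ⟨k, hk, e⟩ := hcover w hw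
    exact ⟨⟨c k, hmem k hk⟩, e⟩
  haveI : Nontrivial (Subring.closure s) := ⟨⟨1, 0, fun e => hv (congrArg ev e)⟩⟩
  have hinv : ∀ a : Subring.closure s, a ≠ 0 → IsUnit a := by
    intro a ha
    obtain ⟨k, hk, e⟩ := hcover (ev a) (fun e => ha (hzero a e))
    have ha' : a = ⟨c k, hmem k hk⟩ := hinj e.symm
    rw [ha']
    exact IsUnit.of_mul_eq_one ⟨c k⁻¹, hmem _ (inv_mem hk)⟩ (Subtype.ext (by
      show c k * c k⁻¹ = 1
      rw [← map_mul, mul_inv_cancel, map_one]))
  have hF : IsField (Subring.closure s) :=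
    { exists_pair_ne := exists_pair_ne _
      mul_comm := mul_comm
      mul_inv_cancel := fun {a} ha => (hinv a ha).exists_right_inv }
  letI : Field (Subring.closure s) := hF.toField
  -- conjugation by `x`
  have hx1 : c x * c x⁻¹ = 1 := by rw [← map_mul, mul_inv_cancel, map_one]
  have hx2 : c x⁻¹ * c x = 1 := by rw [← map_mul, inv_mul_cancel, map_one]
  let Φ : AddMonoid.End V →+* AddMonoid.End V :=
    { toFun := fun y => c x * y * c x⁻¹
      map_one' := by rw [mul_one, hx1]
      map_mul' := fun a b => by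
        calc c x * (a * b) * c x⁻¹ = c x * a * (c x⁻¹ * c x) * b * c x⁻¹ := by rw [hx2]; simp only [mul_assoc, one_mul, mul_one]
          _ = c x * a * c x⁻¹ * (c x * b * c x⁻¹) := by simp only [mul_assoc]
      map_zero' := by rw [mul_zero, zero_mul]
      map_add' := fun a b => by rw [mul_add, add_mul] }
  have hΦ : ∀ y ∈ Subring.closure s, Φ y ∈ Subring.closure s := fun y hy =>
    (Subring.closure_le (t := (Subring.closure s).comap Φ)).2 (by
      rintro _ ⟨k, hk, rfl⟩
      show c x * c k * c x⁻¹ ∈ Subring.closure s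
      rw [← map_mul, ← map_mul]
      exact hmem _ (hxK k hk)) hy
  let σ₀ : Subring.closure s →+* Subring.closure s := (Φ.comp (Subring.closure s).subtype).codRestrict _ fun a => hΦ _ a.2
  have hσ₀ : ∀ a, ev (σ₀ a) = c x (ev a) := fun a => by
    show (c x * (a : AddMonoid.End V) * c x⁻¹) v = _
    have h1 : c x⁻¹ v = v := by
      conv_lhs => rw [← hxv]
      show (c x⁻¹ * c x) v = v
      rw [hx2]; rfl
    show c x ((a : AddMonoid.End V) (c x⁻¹ v)) = _
    rw [h1]
  let σ : RingAut (Subring.closure s) := RingEquiv.ofBijective σ₀ (Finite.injective_iff_bijective.1 σ₀.injective)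
  have hσ : ∀ (n : ℕ) a, ev ((σ ^ n) a) = c (x ^ n) (ev a) := by
    intro n
    induction n with
    | zero => intro a; simp
    | succ j ih =>
      intro a
      rw [pow_succ, pow_succ, map_mul]
      show ev ((σ ^ j) (σ a)) = c (x ^ j) (c x (ev a))
      rw [ih]
      congr 1
      exact hσ₀ a
  have hcard : Nat.card (Subring.closure s) = Nat.card V := Nat.card_eq_of_bijective ev ⟨hinj, hsurj⟩
  have hev1 : ev 1 = v := rfl
  have hσr : σ ^ r = 1 := RingEquiv.ext fun a => hinj (by rw [hσ, hxr, map_one]; rfl)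
  have hσ1 : σ ≠ 1 := by
    intro e
    have hsub : (Set.univ : Set V) ⊆ {0, v} := fun w _ => by
      obtain ⟨a, rfl⟩ := hsurj w
      refine hfix _ ?_
      rw [← hσ₀]
      congr 1
      exact RingEquiv.ext_iff.1 e a
    have h := Set.ncard_le_ncard hsub (Set.toFinite _)
    rw [Set.ncard_univ, Set.ncard_pair hv.symm] at h
    omega
  haveI := Fact.mk hr
  have hord : orderOf σ = r := orderOf_eq_prime hσr hσ1
  haveI : Finite (RingAut ↥(Subring.closure s)) :=
    Finite.of_injective (fun e => (e : _ → _)) DFunLike.coe_injective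
  letI : Fintype (Subgroup.zpowers σ) := Fintype.ofFinite _
  haveI : FaithfulSMul (Subgroup.zpowers σ) (Subring.closure s) :=
    ⟨fun {g h} e => Subtype.ext (RingEquiv.ext fun a => e a)⟩
  have hfin := FixedPoints.finrank_eq_card (Subgroup.zpowers σ) (Subring.closure s)
  rw [← Nat.card_eq_fintype_card, Nat.card_zpowers, hord] at hfin
  have hfix2 : Nat.card (FixedPoints.subfield (Subgroup.zpowers σ) (Subring.closure s)) = 2 := by
    rw [show Nat.card (FixedPoints.subfield (Subgroup.zpowers σ) (Subring.closure s))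
      = Set.ncard ((FixedPoints.subfield (Subgroup.zpowers σ) (Subring.closure s)) : Set (Subring.closure s))
      from Nat.card_coe_set_eq _]
    have : ((FixedPoints.subfield (Subgroup.zpowers σ) (Subring.closure s)) : Set (Subring.closure s)) = {0, 1} := by
      refine Set.Subset.antisymm (fun a ha => ?_) ?_
      · have h1 : σ a = a := ha ⟨σ, Subgroup.mem_zpowers σ⟩
        have h2 : c x (ev a) = ev a := by rw [← hσ₀]; exact congrArg ev h1
        rcases hfix _ h2 with e | e
        · exact Or.inl (hzero a e)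
        · exact Or.inr (hinj (e.trans hev1.symm))
      · rintro a (rfl | rfl)
        · exact (FixedPoints.subfield (Subgroup.zpowers σ) (Subring.closure s)).zero_mem
        · exact (FixedPoints.subfield (Subgroup.zpowers σ) (Subring.closure s)).one_mem
    rw [this, Set.ncard_pair zero_ne_one]
  rw [← hcard, Module.natCard_eq_pow_finrank (K := FixedPoints.subfield (Subgroup.zpowers σ) (Subring.closure s)),
    hfin, hfix2]

open MulAction

theorem degree {G Ω : Type*} [Group G] [Finite G] [MulAction G Ω] [Fintype Ω] [FaithfulSMul G Ω]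
    (h2 : IsMultiplyPretransitive G Ω 2)
    (h3 : ∀ g : G, ∀ a b c : Ω, a ≠ b → b ≠ c → a ≠ c → g • a = a → g • b = b → g • c = c → g = 1)
    (hfix : ∃ g : G, g ≠ 1 ∧ ∃ a b : Ω, a ≠ b ∧ g • a = a ∧ g • b = b)
    (N : Subgroup G) [hN : N.Normal] (hNt : IsPretransitive N Ω) (hNr : ∀ a : Ω, stabilizer N a = ⊥) :
    ∃ p : ℕ, p.Prime ∧ Fintype.card Ω = 2 ^ p := by
  classical
  obtain ⟨g, hg, a, b, hab, ga, gb⟩ := hfix
  -- `N` against the points
  have he : Function.Bijective fun n : N => (n : G) • a := by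
    refine ⟨fun n m e => ?_, fun c => hNt.exists_smul_eq a c⟩
    have h : m⁻¹ * n ∈ stabilizer N a := by
      show ((m : G)⁻¹ * (n : G)) • a = a
      rw [mul_smul, show (n : G) • a = (m : G) • a from e, inv_smul_smul]
    rw [hNr a, Subgroup.mem_bot, inv_mul_eq_one] at h
    exact h.symm
  have hequiv : ∀ (h : G), h • a = a → ∀ n : N, (h * (n : G) * h⁻¹) • a = h • (n : G) • a := fun h ha n => by
    rw [mul_smul, mul_smul, inv_smul_eq_iff.2 ha.symm]
  have hcommfix : ∀ (h : G), h • a = a → ∀ n : N, (h * (n : G) * h⁻¹ = n ↔ h • (n : G) • a = (n : G) • a) := by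
    intro h ha n
    refine ⟨fun e => by rw [← hequiv h ha, e], fun e => ?_⟩
    exact congrArg Subtype.val (he.1 (a₁ := ⟨h * n * h⁻¹, hN.conj_mem _ n.2 h⟩) (a₂ := n) ((hequiv h ha n).trans e))
  obtain ⟨v, hv⟩ := he.2 b
  simp only at hv
  have hv1 : v ≠ 1 := fun e => hab (by rw [← hv, e, OneMemClass.coe_one, one_smul])
  have honly : ∀ n : N, (g * (n : G) * g⁻¹ = n) → n = 1 ∨ n = v := by
    intro n hn
    have hf := (hcommfix g ga n).1 hn
    by_cases h1 : (n : G) • a = a
    · exact Or.inl (he.1 (h1.trans (one_smul G a).symm))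
    by_cases h2' : (n : G) • a = b
    · exact Or.inr (he.1 (h2'.trans hv.symm))
    exact absurd (h3 g a b _ hab (Ne.symm h2') (Ne.symm h1) ga gb hf) hg
  have hvv : v * v = 1 := by
    have hvg : g * (v : G) * g⁻¹ = v := (hcommfix g ga v).2 (by rw [hv, gb])
    rcases honly (v * v) (by rw [Subgroup.coe_mul, ← conj_mul, hvg]) with h | h
    · exact h
    · exact absurd (mul_eq_left.1 h) hv1
  have hsq : ∀ n : N, n * n = 1 := by
    intro n
    by_cases h1 : n = 1
    · rw [h1, one_mul]
    obtain ⟨h, ha, hb⟩ := is_two_pretransitive_iff.mp h2 hab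
      (show a ≠ (n : G) • a from fun e => h1 (he.1 (e.symm.trans (one_smul G a).symm)))
    have hn : (n : G) = h * v * h⁻¹ := congrArg Subtype.val (he.1 (a₁ := n) (a₂ := ⟨h * v * h⁻¹, hN.conj_mem _ v.2 h⟩)
      (show (n : G) • a = _ by
        show _ = (h * (v : G) * h⁻¹) • a
        rw [hequiv h ha, hv, hb]))
    refine Subtype.ext ?_
    rw [Subgroup.coe_mul, hn, conj_mul, ← Subgroup.coe_mul, hvv]
    simp
  have hNcomm : ∀ m n : N, m * n = n * m := fun m n => by
    have hi : ∀ z : N, z⁻¹ = z := fun z => inv_eq_of_mul_eq_one_right (hsq z)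
    rw [← hi (m * n), mul_inv_rev, hi, hi]
  have hcardN : Nat.card N = Fintype.card Ω := by
    rw [← Nat.card_eq_fintype_card]; exact Nat.card_eq_of_bijective _ he
  have hn3 : 3 ≤ Fintype.card Ω := by
    by_contra hlt
    apply hg
    refine FaithfulSMul.eq_of_smul_eq_smul fun c : Ω => ?_
    rw [one_smul]
    by_cases hca : c = a
    · rw [hca, ga]
    by_cases hcb : c = b
    · rw [hcb, gb]
    exact absurd (Fintype.two_lt_card_iff.mpr ⟨a, b, c, hab, Ne.symm hca, Ne.symm hcb⟩) (by omega)
  have hev : 2 ∣ Fintype.card Ω := by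
    rw [← hcardN, ← show orderOf v = 2 from orderOf_eq_prime (by rw [sq, hvv]) hv1]
    exact orderOf_dvd_natCard v
  -- the kernel of the point stabiliser
  set B := (stabilizer G b).subgroupOf (stabilizer G a) with hB
  have hBTI : ∀ g, g ∉ B → ∀ h ∈ B, g * h * g⁻¹ ∈ B → h = 1 := by
    intro g hg h hh hgh
    rw [hB, Subgroup.mem_subgroupOf, mem_stabilizer_iff] at hg hh hgh
    refine Subtype.ext (h3 (h : G) a b ((g⁻¹ : stabilizer G a) • b) hab ?_ ?_ h.2 hh ?_)
    · intro e
      apply hg
      conv_lhs => rw [e]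
      exact smul_inv_smul (g : G) b
    · intro e
      exact hab (((congrArg (fun c => (g : G) • c) e).trans (smul_inv_smul (g : G) b)).symm.trans
        g.2).symm
    · have e := congrArg (fun c => (g : G)⁻¹ • c) hgh
      simp only [Subgroup.coe_mul, InvMemClass.coe_inv, mul_smul, inv_smul_smul] at e
      exact e
  obtain ⟨K, hKn, hKB, -, hKcard, -⟩ := CfsgLib.Char.exists_frobenius_kernel B hBTI
  have hmeet : ∀ k : ↥(stabilizer G a), k ∈ K → (k : G) • b = b → k = 1 := fun k hk hkb =>
    Subgroup.mem_bot.1 (hKB ▸ ⟨hk, hkb⟩)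
  have hidx : B.index = Fintype.card Ω - 1 := by
    rw [show B = stabilizer (stabilizer G a) b from Subgroup.ext fun _ => Iff.rfl, index_stabilizer]
    have : orbit (stabilizer G a) b = {x | x ≠ a} := by
      ext y
      constructor
      · rintro ⟨h, rfl⟩ e
        exact hab (smul_left_cancel (h : G) (h.2.trans e.symm))
      · intro hy
        obtain ⟨h, h1, h1'⟩ := is_two_pretransitive_iff.mp h2 hab (Ne.symm hy)
        exact ⟨⟨h, h1⟩, h1'⟩
    rw [this, ← Nat.card_coe_set_eq]
    show Nat.card {y : Ω // y ≠ a} = _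
    rw [Nat.card_eq_fintype_card, Fintype.card_subtype_compl, Fintype.card_subtype_eq]
  have hne_a : ∀ k : K, ((k : ↥(stabilizer G a)) : G) • b ≠ a := fun k e =>
    hab (smul_left_cancel _ (e.trans (mem_stabilizer_iff.1 (k : ↥(stabilizer G a)).2).symm)).symm
  have hKb : Function.Bijective fun k : K => (⟨((k : ↥(stabilizer G a)) : G) • b, hne_a k⟩ : {c : Ω // c ≠ a}) := by
    refine (Nat.bijective_iff_injective_and_card _).2 ⟨?_, ?_⟩
    · intro k l e
      have e' : ((k : ↥(stabilizer G a)) : G) • b = ((l : ↥(stabilizer G a)) : G) • b := congrArg Subtype.val e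
      have h := hmeet ((l⁻¹ * k : K) : ↥(stabilizer G a)) (l⁻¹ * k).2 (by
        show (((l : ↥(stabilizer G a)) : G)⁻¹ * ((k : ↥(stabilizer G a)) : G)) • b = b
        rw [mul_smul, e', inv_smul_smul])
      have h' : l⁻¹ * k = 1 := Subtype.ext h
      exact (inv_mul_eq_one.1 h').symm
    · rw [hKcard, hidx, Nat.card_eq_fintype_card, Fintype.card_subtype_compl, Fintype.card_subtype_eq]
  have hfree : ∀ k : ↥(stabilizer G a), k ∈ K → k ≠ 1 → ∀ c : Ω, c ≠ a → (k : G) • c ≠ c := by
    intro k hk hk1 c hc e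
    obtain ⟨l, hl⟩ := hKb.2 ⟨c, hc⟩
    have hl' : ((l : ↥(stabilizer G a)) : G) • b = c := congrArg Subtype.val hl
    have := hmeet _ (hKn.conj_mem k hk (l : ↥(stabilizer G a))⁻¹) (by
      show (((l : ↥(stabilizer G a)) : G)⁻¹ * (k : G) * ((l : ↥(stabilizer G a)) : G)⁻¹⁻¹) • b = b
      rw [inv_inv, mul_smul, hl', mul_smul, e, ← hl', inv_smul_smul])
    exact hk1 (conj_eq_one_iff.1 this)
  -- an element of prime order fixing `a` and `b`
  obtain ⟨r, hr, m, hm⟩ := Nat.exists_prime_and_dvd (fun e => hg (orderOf_eq_one_iff.1 e) : orderOf g ≠ 1)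
  set x := g ^ m with hx
  have hox : orderOf x = r := by
    have hm0 : m ≠ 0 := fun e => by rw [e, mul_zero] at hm; exact (orderOf_pos g).ne' hm
    rw [hx, orderOf_pow' g hm0, hm, Nat.gcd_eq_right (dvd_mul_left m r), Nat.mul_div_cancel _ (Nat.pos_of_ne_zero hm0)]
  have hx1 : x ≠ 1 := fun e => by rw [e, orderOf_one] at hox; exact hr.ne_one hox.symm
  have hxa : x • a = a := mem_stabilizer_iff.1 (pow_mem (mem_stabilizer_iff.2 ga) m)
  have hxb : x • b = b := mem_stabilizer_iff.1 (pow_mem (mem_stabilizer_iff.2 gb) m)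
  -- the kernel is cyclic
  have hKnil : Group.IsNilpotent K := by
    let φ : MulAut K :=
      { toFun := fun q => ⟨⟨x, hxa⟩ * q * ⟨x, hxa⟩⁻¹, hKn.conj_mem _ q.2 _⟩
        invFun := fun q => ⟨⟨x, hxa⟩⁻¹ * q * ⟨x, hxa⟩, by simpa using hKn.conj_mem _ q.2 (⟨x, hxa⟩⁻¹ : ↥(stabilizer G a))⟩
        left_inv := fun q => Subtype.ext (by simp [mul_assoc])
        right_inv := fun q => Subtype.ext (by simp [mul_assoc])
        map_mul' := fun q q' => Subtype.ext (by simp [mul_assoc]) }
    have hφ : ∀ (n : ℕ) (q : K), ((φ ^ n) q : ↥(stabilizer G a)) = ⟨x, hxa⟩ ^ n * q * (⟨x, hxa⟩ ^ n)⁻¹ := by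
      intro n
      induction n with
      | zero => intro q; simp
      | succ j ih =>
        intro q
        rw [pow_succ, MulAut.mul_apply, ih]
        show _ * (⟨x, hxa⟩ * (q : ↥(stabilizer G a)) * ⟨x, hxa⟩⁻¹) * _ = _
        rw [pow_succ]; group
    refine CfsgLib.Core.isNilpotent_of_fpf_prime hr (Nat.card K) K le_rfl φ (MulEquiv.ext fun q => Subtype.ext ?_) fun q hq => ?_
    · rw [hφ, show (⟨x, hxa⟩ : ↥(stabilizer G a)) ^ r = 1 from Subtype.ext (by rw [SubmonoidClass.coe_pow, ← hox, pow_orderOf_eq_one]; rfl)]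
      simp
    · have h1 : x * ((q : ↥(stabilizer G a)) : G) * x⁻¹ = ((q : ↥(stabilizer G a)) : G) :=
        congrArg (fun z : K => ((z : ↥(stabilizer G a)) : G)) hq
      by_cases hqb : ((q : ↥(stabilizer G a)) : G) • b = b
      · exact Subtype.ext (hmeet _ q.2 hqb)
      · refine absurd (h3 x a b _ hab (Ne.symm hqb) (hne_a q).symm hxa hxb ?_) hx1
        conv_rhs => rw [← h1, mul_smul, mul_smul, inv_smul_eq_iff.2 hxb.symm]
  haveI : IsZGroup K := by
    refine ⟨fun p hp P => ?_⟩
    haveI := Fact.mk hp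
    by_cases hpd : p ∣ Nat.card K
    swap
    · haveI : Subsingleton P := by
        obtain ⟨k, hk⟩ := IsPGroup.iff_card.mp P.2
        rcases Nat.eq_zero_or_pos k with h0 | h0
        · exact (Nat.card_eq_one_iff_unique.mp (by rw [hk, h0, pow_zero])).1
        · exact absurd ((dvd_pow_self p h0.ne').trans (hk ▸ Subgroup.card_subgroup_dvd_card _)) hpd
      infer_instance
    have hp2 : p ≠ 2 := fun e => by
      rw [e, hKcard, hidx] at hpd; omega
    have hinjG : Function.Injective ((stabilizer G a).subtype.comp K.subtype) :=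
      fun u w e => Subtype.ext (Subtype.ext e)
    set P' : Subgroup G := P.1.map ((stabilizer G a).subtype.comp K.subtype) with hP'
    have hc := CfsgLib.Core.cyclic_or_quaternion_of_fpf (K := N) (P := P') (P.2.map _)
      (fun h _ => by rw [Subgroup.normalizer_eq_top (H := N)]; trivial)
      (fun e => hv1 (Subtype.ext (Subgroup.mem_bot.1 (e.le v.2)))) ?_
    · haveI := hc.resolve_right fun h => hp2 h.1
      exact isCyclic_of_injective (P.1.equivMapOfInjective _ hinjG).toMonoidHom
        (P.1.equivMapOfInjective _ hinjG).injective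
    · rintro _ ⟨k, -, rfl⟩ hk1 w hw hc
      by_contra hw1
      refine hfree (k : ↥(stabilizer G a)) k.2 (fun e => hk1 ?_) (w • a) (fun e => hw1 ?_) ?_
      · show ((k : ↥(stabilizer G a)) : G) = 1
        rw [e]; rfl
      · exact congrArg Subtype.val (he.1 (a₁ := ⟨w, hw⟩) (a₂ := 1) (e.trans (one_smul G a).symm))
      · have hc' : ((k : ↥(stabilizer G a)) : G) * w = w * ((k : ↥(stabilizer G a)) : G) := hc
        rw [smul_smul, hc', mul_smul, mem_stabilizer_iff.1 (k : ↥(stabilizer G a)).2]
  haveI := hKnil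
  haveI : IsCyclic K := inferInstance
  letI := IsCyclic.commGroup (α := K)
  -- the semilinear structure
  letI : CommGroup N := { (inferInstance : Group N) with mul_comm := hNcomm }
  let c : ↥(stabilizer G a) →* AddMonoid.End (Additive N) :=
    { toFun := fun h => MonoidHom.toAdditive
        { toFun := fun n : N => (⟨(h : G) * n * (h : G)⁻¹, hN.conj_mem _ n.2 _⟩ : N)
          map_one' := Subtype.ext (by simp)
          map_mul' := fun n m => Subtype.ext (by simp [mul_assoc]) }
      map_one' := AddMonoidHom.ext fun w => Additive.toMul.injective (Subtype.ext (by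
        show (1 : G) * _ * (1 : G)⁻¹ = _
        simp
        rfl))
      map_mul' := fun h k => AddMonoidHom.ext fun w => Additive.toMul.injective (Subtype.ext (by
        show ((h : G) * k) * _ * ((h : G) * k)⁻¹ = (h : G) * ((k : G) * _ * (k : G)⁻¹) * (h : G)⁻¹
        group)) }
  refine ⟨r, hr, ?_⟩
  rw [← hcardN, ← Nat.card_congr (Additive.ofMul (α := N)).symm]
  refine semilinear c K (Additive.ofMul v) (fun e => hv1 (Additive.ofMul.injective e)) ?_ ?_ ⟨x, hxa⟩
    (fun k hk => hKn.conj_mem k hk _) ?_ ?_ hr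
    (Subtype.ext (by rw [SubmonoidClass.coe_pow, ← hox, pow_orderOf_eq_one]; rfl))
    (by rw [Nat.card_congr (Additive.ofMul (α := N)).symm, hcardN]; exact hn3)
  · intro j hj k hk
    exact congrArg Subtype.val (mul_comm (⟨j, hj⟩ : K) ⟨k, hk⟩)
  · intro w hw
    obtain ⟨n, rfl⟩ := Additive.ofMul.surjective w
    have hna : (n : G) • a ≠ a := fun e => hw (by rw [he.1 (a₁ := n) (a₂ := 1) (e.trans (one_smul G a).symm)]; rfl)
    obtain ⟨k, hk⟩ := hKb.2 ⟨_, hna⟩
    refine ⟨(k : ↥(stabilizer G a)), k.2, congrArg Additive.ofMul (he.1 ?_)⟩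
    show (((k : ↥(stabilizer G a)) : G) * (v : G) * _⁻¹) • a = _
    rw [hequiv _ (k : ↥(stabilizer G a)).2, hv]
    exact congrArg Subtype.val hk
  · exact congrArg Additive.ofMul (Subtype.ext ((hcommfix x hxa v).2 (by rw [hv, hxb])))
  · intro w hw
    obtain ⟨n, rfl⟩ := Additive.ofMul.surjective w
    have hn : x * (n : G) * x⁻¹ = n := congrArg Subtype.val (Additive.ofMul.injective hw)
    have hf := (hcommfix x hxa n).1 hn
    by_cases h1 : (n : G) • a = a
    · exact Or.inl (by rw [he.1 (a₁ := n) (a₂ := 1) (h1.trans (one_smul G a).symm)]; rfl)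
    by_cases h2' : (n : G) • a = b
    · exact Or.inr (by rw [he.1 (a₁ := n) (a₂ := v) (h2'.trans hv.symm)])
    exact absurd (h3 x a b _ hab (Ne.symm h2') (Ne.symm h1) hxa hxb hf) hx1

end CfsgLib.Lie.ZassRegular
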