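import Cfsg.Agent.Lib.LocalExtModel
import Cfsg.Prelude.Def_Transfer
import Cfsg.Prelude.Def_KGroupFacts
import Mathlib.GroupTheory.Complement
import Mathlib.GroupTheory.Index
import Mathlib.GroupTheory.NoncommCoprod

/-!
An extraspecial 2-group of plus type and order at least 2^7 contains the model of order 2^7 as a
central factor, and so its inner automorphisms have no complement in the automorphism group.
-/

set_option autoImplicit false

namespace CfsgLib.Local.ExtEmbed

open CfsgLib.Local.ExtModel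

variable {Q : Type*} [Group Q]

/-- `u` raised to an exponent modulo 2. -/
def pw (u : Q) (a : ZMod 2) : Q := u ^ a.val

theorem pw_zero (u : Q) : pw u 0 = 1 := by simp [pw]

theorem pw_one (u : Q) : pw u 1 = u := by
  show u ^ (1 : ℕ) = u
  exact pow_one u

theorem pw_add {u : Q} (hu : u * u = 1) (a b : ZMod 2) : pw u (a + b) = pw u a * pw u b := by
  have key : ∀ x : ZMod 2, x = 0 ∨ x = 1 := by decide
  have h11 : (1 : ZMod 2) + 1 = 0 := by decide
  rcases key a with rfl | rfl <;> rcases key b with rfl | rfl <;>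
    simp [pw_zero, pw_one, h11, hu]

theorem commute_pw {u v : Q} (h : Commute u v) (a b : ZMod 2) : Commute (pw u a) (pw v b) :=
  h.pow_pow _ _

/-- A central element of order two such that every commutator lies in the group it generates. -/
structure Setting (z : Q) : Prop where
  ne : z ≠ 1
  sq : z * z = 1
  central : ∀ x : Q, z * x = x * z
  comm : ∀ x y : Q, x * y = y * x ∨ x * y = z * (y * x)
  cen : ∀ x : Q, (∀ y : Q, x * y = y * x) → x = 1 ∨ x = z

variable {z : Q}

theorem Setting.mul_self_z (hz : Setting z) (x : Q) : z * (z * x) = x := by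
  rw [← mul_assoc, hz.sq, one_mul]

theorem Setting.square (hz : Setting z) (x : Q) : x * x = 1 ∨ x * x = z := by
  refine hz.cen _ fun y => ?_
  rcases hz.comm x y with h | h
  · exact (Commute.mul_left h h : Commute (x * x) y)
  · have h1 : x * x * y = x * (z * (y * x)) := by rw [mul_assoc, h]
    rw [h1, ← mul_assoc x z, ← hz.central, mul_assoc z x, ← mul_assoc x y, h, mul_assoc z (y * x),
      hz.mul_self_z, mul_assoc]

/-- A pair of involutions with non-trivial commutator. -/
structure IsPair (z e f : Q) : Prop where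
  ee : e * e = 1
  ff : f * f = 1
  ef : e * f = z * (f * e)

/-- The element of a pair with given coordinates. -/
def pp (e f : Q) (a b : ZMod 2) : Q := pw f b * pw e a

theorem pp_mul (hz : Setting z) {e f : Q} (h : IsPair z e f) (a b a' b' : ZMod 2) :
    pp e f a b * pp e f a' b' = pw z (a * b') * pp e f (a + a') (b + b') := by
  have key : ∀ x : ZMod 2, x = 0 ∨ x = 1 := by decide
  have h11 : (1 : ZMod 2) + 1 = 0 := by decide
  have hee : ∀ x, e * (e * x) = x := fun x => by rw [← mul_assoc, h.ee, one_mul]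
  have hff : ∀ x, f * (f * x) = x := fun x => by rw [← mul_assoc, h.ff, one_mul]
  have hef : ∀ x, e * (f * x) = z * (f * (e * x)) := fun x => by
    rw [← mul_assoc, h.ef, mul_assoc, mul_assoc]
  have hez : ∀ x, e * (z * x) = z * (e * x) := fun x => by
    rw [← mul_assoc, ← hz.central, mul_assoc]
  have hfz : ∀ x, f * (z * x) = z * (f * x) := fun x => by
    rw [← mul_assoc, ← hz.central, mul_assoc]
  have hez' : e * z = z * e := (hz.central e).symm
  have hfz' : f * z = z * f := (hz.central f).symm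
  rcases key a with rfl | rfl <;> rcases key b with rfl | rfl <;> rcases key a' with rfl | rfl <;>
    rcases key b' with rfl | rfl <;>
    simp [pp, pw_zero, pw_one, h11, mul_assoc, h.ee, h.ff, h.ef, hee, hff, hef, hez, hfz, hez',
      hfz', hz.mul_self_z]

/-- Three pairs, commuting with each other. -/
structure Six (z : Q) (e0 e1 e2 f0 f1 f2 : Q) : Prop where
  p0 : IsPair z e0 f0
  p1 : IsPair z e1 f1
  p2 : IsPair z e2 f2
  c01 : Commute e0 e1 ∧ Commute e0 f1 ∧ Commute f0 e1 ∧ Commute f0 f1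
  c02 : Commute e0 e2 ∧ Commute e0 f2 ∧ Commute f0 e2 ∧ Commute f0 f2
  c12 : Commute e1 e2 ∧ Commute e1 f2 ∧ Commute f1 e2 ∧ Commute f1 f2

theorem commute_pp {e f e' f' : Q} (h : Commute e e' ∧ Commute e f' ∧ Commute f e' ∧ Commute f f')
    (a b a' b' : ZMod 2) : Commute (pp e f a b) (pp e' f' a' b') :=
  ((commute_pw h.2.2.2 b b').mul_right (commute_pw h.2.2.1 b a')).mul_left
    ((commute_pw h.2.1 a b').mul_right (commute_pw h.1 a a'))

/-- The map from the model. -/
def phiFun (z e0 e1 e2 f0 f1 f2 : Q) (x : M) : Q :=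
  pp e0 f0 x.a0 x.b0 * (pp e1 f1 x.a1 x.b1 * (pp e2 f2 x.a2 x.b2 * pw z x.c))

theorem phiFun_mul (hz : Setting z) {e0 e1 e2 f0 f1 f2 : Q} (h : Six z e0 e1 e2 f0 f1 f2)
    (x y : M) : phiFun z e0 e1 e2 f0 f1 f2 (x * y) =
      phiFun z e0 e1 e2 f0 f1 f2 x * phiFun z e0 e1 e2 f0 f1 f2 y := by
  have hc : ∀ (a : ZMod 2) (q : Q), Commute (pw z a) q := fun a q => Commute.pow_left (hz.central q) _
  simp only [phiFun, mul_def]
  set A := pp e0 f0 x.a0 x.b0
  set A' := pp e0 f0 y.a0 y.b0
  set B := pp e1 f1 x.a1 x.b1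
  set B' := pp e1 f1 y.a1 y.b1
  set C := pp e2 f2 x.a2 x.b2
  set C' := pp e2 f2 y.a2 y.b2
  have e1' : A * A' = pw z (x.a0 * y.b0) * pp e0 f0 (x.a0 + y.a0) (x.b0 + y.b0) := pp_mul hz h.p0 _ _ _ _
  have e2' : B * B' = pw z (x.a1 * y.b1) * pp e1 f1 (x.a1 + y.a1) (x.b1 + y.b1) := pp_mul hz h.p1 _ _ _ _
  have e3' : C * C' = pw z (x.a2 * y.b2) * pp e2 f2 (x.a2 + y.a2) (x.b2 + y.b2) := pp_mul hz h.p2 _ _ _ _
  have hR : A * (B * (C * pw z x.c)) * (A' * (B' * (C' * pw z y.c))) =
      A * A' * (B * B' * (C * C' * (pw z x.c * pw z y.c))) := by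
    have h1 : Commute (B * (C * pw z x.c)) A' :=
      (commute_pp h.c01 _ _ _ _).symm.mul_left ((commute_pp h.c02 _ _ _ _).symm.mul_left (hc _ _))
    have h2 : Commute (C * pw z x.c) B' :=
      (commute_pp h.c12 _ _ _ _).symm.mul_left (hc _ _)
    have h3 : Commute (pw z x.c) C' := hc _ _
    calc A * (B * (C * pw z x.c)) * (A' * (B' * (C' * pw z y.c)))
        = A * (B * (C * pw z x.c) * A') * (B' * (C' * pw z y.c)) := by simp only [mul_assoc]
      _ = A * A' * (B * (C * pw z x.c * B') * (C' * pw z y.c)) := by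
          rw [h1.eq]; simp only [mul_assoc]
      _ = A * A' * (B * B' * (C * (pw z x.c * C') * pw z y.c)) := by
          rw [h2.eq]; simp only [mul_assoc]
      _ = A * A' * (B * B' * (C * C' * (pw z x.c * pw z y.c))) := by
          rw [h3.eq]; simp only [mul_assoc]
  rw [hR, e1', e2', e3']
  have mv : ∀ (a : ZMod 2) (u r : Q), pw z a * u * r = u * (pw z a * r) := fun a u r => by
    rw [(hc a u).eq, mul_assoc]
  rw [mv (x.a2 * y.b2), mv (x.a1 * y.b1), mv (x.a0 * y.b0)]
  have lc : ∀ (a : ZMod 2) (u r : Q), pw z a * (u * r) = u * (pw z a * r) := fun a u r => by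
    rw [← mul_assoc, mv]
  rw [lc (x.a1 * y.b1), lc (x.a0 * y.b0), lc (x.a0 * y.b0)]
  simp only [← pw_add hz.sq]
  congr 4
  ring

/-- The commutator of `x` and `y` as an exponent of `z`. -/
noncomputable def delta (x y : Q) : ZMod 2 :=
  haveI := Classical.propDecidable (x * y = y * x)
  if x * y = y * x then 0 else 1

theorem delta_spec (hz : Setting z) (x y : Q) : x * y = pw z (delta x y) * (y * x) := by
  unfold delta
  split
  · simp [pw_zero, *]
  · rw [pw_one]; exact (hz.comm x y).resolve_left ‹_›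

theorem pw_inj (hz : Setting z) {a b : ZMod 2} (h : pw z a = pw z b) : a = b := by
  have key : ∀ x : ZMod 2, x = 0 ∨ x = 1 := by decide
  rcases key a with rfl | rfl <;> rcases key b with rfl | rfl <;>
    simp [pw_zero, pw_one] at h ⊢ <;> first | exact absurd h hz.ne | exact absurd h.symm hz.ne

theorem delta_eq (hz : Setting z) {x y : Q} {a : ZMod 2} (h : x * y = pw z a * (y * x)) :
    delta x y = a :=
  pw_inj hz (mul_right_cancel ((delta_spec hz x y).symm.trans h))

theorem delta_eq_zero {x y : Q} (h : Commute x y) : delta x y = 0 := by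
  unfold delta; rw [if_pos h.eq]

theorem commute_of_delta (hz : Setting z) {x y : Q} (h : delta x y = 0) : Commute x y := by
  have := delta_spec hz x y
  rwa [h, pw_zero, one_mul] at this

theorem delta_mul (hz : Setting z) (g x y : Q) : delta g (x * y) = delta g x + delta g y := by
  refine delta_eq hz ?_
  have hc : ∀ (a : ZMod 2) (q : Q), Commute (pw z a) q := fun a q =>
    Commute.pow_left (hz.central q) _
  calc g * (x * y) = g * x * y := (mul_assoc _ _ _).symm
    _ = pw z (delta g x) * (x * g) * y := by rw [← delta_spec hz]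
    _ = pw z (delta g x) * (x * (g * y)) := by simp only [mul_assoc]
    _ = pw z (delta g x) * (x * (pw z (delta g y) * (y * g))) := by rw [← delta_spec hz]
    _ = pw z (delta g x) * (pw z (delta g y) * (x * (y * g))) := by
        rw [← mul_assoc x, ← (hc _ x).eq, mul_assoc (pw z _) x]
    _ = _ := by rw [pw_add hz.sq]; simp only [mul_assoc]

theorem delta_symm (hz : Setting z) (x y : Q) : delta x y = delta y x := by
  unfold delta
  by_cases h : x * y = y * x
  · rw [if_pos h, if_pos h.symm]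
  · rw [if_neg h, if_neg fun h' => h h'.symm]

theorem delta_one (g : Q) : delta g 1 = 0 := delta_eq_zero (Commute.one_right g)

theorem delta_pw (hz : Setting z) (g u : Q) (a : ZMod 2) : delta g (pw u a) = a * delta g u := by
  have key : ∀ x : ZMod 2, x = 0 ∨ x = 1 := by decide
  rcases key a with rfl | rfl
  · rw [pw_zero, delta_one, zero_mul]
  · rw [pw_one, one_mul]

variable {e0 e1 e2 f0 f1 f2 : Q}

/-- The homomorphism from the model. -/
def phi (hz : Setting z) (h : Six z e0 e1 e2 f0 f1 f2) : M →* Q :=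
  MonoidHom.mk' (phiFun z e0 e1 e2 f0 f1 f2) (phiFun_mul hz h)

theorem phi_apply (hz : Setting z) (h : Six z e0 e1 e2 f0 f1 f2) (x : M) :
    phi hz h x = pp e0 f0 x.a0 x.b0 * (pp e1 f1 x.a1 x.b1 * (pp e2 f2 x.a2 x.b2 * pw z x.c)) :=
  rfl

theorem phi_zc (hz : Setting z) (h : Six z e0 e1 e2 f0 f1 f2) (s : ZMod 2) :
    phi hz h (zc s) = pw z s := by
  simp [phi_apply, zc, pp, pw_zero]

theorem phi_gens (hz : Setting z) (h : Six z e0 e1 e2 f0 f1 f2) :
    phi hz h (mk' 1 0 0 0 0 0) = e0 ∧ phi hz h (mk' 0 1 0 0 0 0) = e1 ∧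
    phi hz h (mk' 0 0 1 0 0 0) = e2 ∧ phi hz h (mk' 0 0 0 1 0 0) = f0 ∧
    phi hz h (mk' 0 0 0 0 1 0) = f1 ∧ phi hz h (mk' 0 0 0 0 0 1) = f2 := by
  simp [phi_apply, mk', pp, pw_zero, pw_one]

theorem delta_phi_right (hz : Setting z) (h : Six z e0 e1 e2 f0 f1 f2) (g : Q) (x : M) :
    delta g (phi hz h x) = dot (delta g e0, delta g e1, delta g e2, delta g f0, delta g f1,
      delta g f2) x := by
  have hzz : delta g z = 0 := delta_eq_zero (hz.central g).symm
  simp only [phi_apply, pp, delta_mul hz, delta_pw hz, hzz, dot]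
  ring

theorem phi_injective (hz : Setting z) (h : Six z e0 e1 e2 f0 f1 f2) :
    Function.Injective (phi hz h) := by
  rw [injective_iff_map_eq_one]
  intro x hx
  have hb : ∀ y, bil x y = 0 := fun y => by
    have e := congrArg (phi hz h) (comm_zc x y)
    rw [map_mul, map_mul, map_mul, phi_zc, hx, one_mul, mul_one] at e
    exact pw_inj hz (by rw [pw_zero]; exact mul_right_cancel (b := phi hz h y) (by rw [one_mul, ← e]))
  have hxc := eq_zc_of_bil x hb
  rw [hxc, phi_zc, ← pw_zero z] at hx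
  rw [hxc, pw_inj hz hx]
  rfl

/-- Elements commuting with the image of the model. -/
abbrev cen' (hz : Setting z) (h : Six z e0 e1 e2 f0 f1 f2) : Subgroup Q :=
  Subgroup.centralizer ((phi hz h).range : Set Q)

theorem exists_decomp (hz : Setting z) (h : Six z e0 e1 e2 f0 f1 f2) (q : Q) :
    ∃ m : M, ∃ r ∈ cen' hz h, phi hz h m * r = q := by
  refine ⟨mk' (delta q f0) (delta q f1) (delta q f2) (delta q e0) (delta q e1) (delta q e2),
    (phi hz h (mk' (delta q f0) (delta q f1) (delta q f2) (delta q e0) (delta q e1) (delta q e2)))⁻¹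
      * q, ?_, by group⟩
  set m := mk' (delta q f0) (delta q f1) (delta q f2) (delta q e0) (delta q e1) (delta q e2) with hm
  set r := (phi hz h m)⁻¹ * q with hr
  have hq : q = phi hz h m * r := by rw [hr]; group
  have add_self : ∀ a b : ZMod 2, a = b + a → b = 0 := by decide
  -- the commutator of a generator with `r` vanishes
  have hzero : ∀ y : M, delta (phi hz h y) q = bil y m → Commute (phi hz h y) r := by
    intro y hy
    refine commute_of_delta hz ?_
    have h1 : delta (phi hz h y) (phi hz h m) = bil y m := delta_eq hz (by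
      rw [← map_mul, comm_zc, map_mul, map_mul, phi_zc])
    rw [hq, delta_mul hz, h1] at hy
    revert hy; generalize delta (phi hz h y) r = a; generalize bil y m = b; revert a b; decide
  obtain ⟨g0, g1, g2, g3, g4, g5⟩ := phi_gens hz h
  have k0 : Commute e0 r := by
    rw [← g0]; refine hzero _ ?_; rw [g0, delta_symm hz]; simp [bil, hm, mk']
  have k1 : Commute e1 r := by
    rw [← g1]; refine hzero _ ?_; rw [g1, delta_symm hz]; simp [bil, hm, mk']
  have k2 : Commute e2 r := by
    rw [← g2]; refine hzero _ ?_; rw [g2, delta_symm hz]; simp [bil, hm, mk']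
  have k3 : Commute f0 r := by
    rw [← g3]; refine hzero _ ?_; rw [g3, delta_symm hz]; simp [bil, hm, mk']
  have k4 : Commute f1 r := by
    rw [← g4]; refine hzero _ ?_; rw [g4, delta_symm hz]; simp [bil, hm, mk']
  have k5 : Commute f2 r := by
    rw [← g5]; refine hzero _ ?_; rw [g5, delta_symm hz]; simp [bil, hm, mk']
  rw [Subgroup.mem_centralizer_iff]
  rintro _ ⟨x, rfl⟩
  exact (((k3.pow_left _).mul_left (k0.pow_left _)).mul_left (((k4.pow_left _).mul_left
    (k1.pow_left _)).mul_left (((k5.pow_left _).mul_left (k2.pow_left _)).mul_left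
    (Commute.pow_left (hz.central r) _)))).eq

/-- An involutive automorphism of the model fixing the centre extends, fixing the centralizer. -/
theorem exists_extension (hz : Setting z) (h : Six z e0 e1 e2 f0 f1 f2) (a : M → M)
    (hmul : ∀ x y, a (x * y) = a x * a y) (hinv : ∀ x, a (a x) = x)
    (hzc : ∀ s, a (zc s) = zc s) :
    ∃ A : MulAut Q, (∀ x, A (phi hz h x) = phi hz h (a x)) ∧ (∀ r ∈ cen' hz h, A r = r) ∧
      A * A = 1 := by
  have hcom : ∀ (x : M) (r : cen' hz h), Commute (phi hz h x) (r : Q) := fun x r =>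
    Subgroup.mem_centralizer_iff.mp r.2 _ ⟨x, rfl⟩
  let ψ : M × cen' hz h →* Q := (phi hz h).noncommCoprod (cen' hz h).subtype hcom
  have hψ : ∀ x r, ψ (x, r) = phi hz h x * r := fun x r => rfl
  have hsurj : Function.Surjective ψ := fun q => by
    obtain ⟨m, r, hr, e⟩ := exists_decomp hz h q
    exact ⟨(m, ⟨r, hr⟩), by rw [hψ]; exact e⟩
  let ψ' : M × cen' hz h →* Q := ψ.comp ((MonoidHom.mk' a hmul).prodMap (MonoidHom.id _))
  have hψ' : ∀ x r, ψ' (x, r) = phi hz h (a x) * r := fun x r => rfl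
  have hker : ψ.ker ≤ ψ'.ker := by
    rintro ⟨x, r⟩ hx
    rw [MonoidHom.mem_ker, hψ] at hx
    have hb : ∀ y, bil x y = 0 := fun y => by
      have e := congrArg (phi hz h) (comm_zc y x)
      have hs : bil y x = bil x y := by simp only [bil]; ring
      have hmem : phi hz h x ∈ cen' hz h := by
        rw [eq_inv_of_mul_eq_one_left hx]; exact (cen' hz h).inv_mem r.2
      have hc : Commute (phi hz h y) (phi hz h x) := Subgroup.mem_centralizer_iff.mp hmem _ ⟨y, rfl⟩
      rw [map_mul, map_mul, map_mul, phi_zc, hc.eq, hs] at e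
      exact pw_inj hz (by rw [pw_zero]; exact (mul_eq_right.mp e.symm))
    rw [MonoidHom.mem_ker, hψ', eq_zc_of_bil x hb, hzc, ← eq_zc_of_bil x hb]
    exact hx
  let F : Q →* Q := ψ.liftOfSurjective hsurj ⟨ψ', hker⟩
  have hF : ∀ p, F (ψ p) = ψ' p := fun p =>
    MonoidHom.liftOfRightInverse_comp_apply ψ _ (Function.rightInverse_surjInv hsurj) ⟨ψ', hker⟩ p
  have hFF : ∀ q, F (F q) = q := fun q => by
    obtain ⟨⟨x, r⟩, rfl⟩ := hsurj q
    rw [hF, hψ', ← hψ, hF, hψ', hinv, hψ]
  let A : MulAut Q :=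
    { toFun := F, invFun := F, left_inv := hFF, right_inv := hFF, map_mul' := F.map_mul }
  refine ⟨A, fun x => ?_, fun r hr => ?_, ?_⟩
  · show F (phi hz h x) = _
    have := hF (x, 1)
    rw [hψ, hψ'] at this
    simpa using this
  · show F r = r
    have := hF (1, ⟨r, hr⟩)
    rw [hψ, hψ'] at this
    have a1 : a 1 = 1 := (MonoidHom.mk' a hmul).map_one
    simpa [a1] using this
  · ext q; exact hFF q

/-- The inner automorphisms have no complement. -/
theorem no_complement (hz : Setting z) (h : Six z e0 e1 e2 f0 f1 f2) (L : Subgroup (MulAut Q))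
    (hL : (Cfsg.Inn Q).IsComplement' L) : False := by
  obtain ⟨A, hA, hAr, hA2⟩ := exists_extension hz h alphaFun alpha_mul alpha_alpha alpha_zc
  obtain ⟨B, hB, hBr, hB2⟩ := exists_extension hz h betaFun beta_mul beta_beta beta_zc
  have hAB : A * B * (A * B) = MulAut.conj (phi hz h m0) := by
    ext q
    obtain ⟨x, r, hr, rfl⟩ := exists_decomp hz h q
    have hc : Commute (phi hz h m0) r := Subgroup.mem_centralizer_iff.mp hr _ ⟨m0, rfl⟩
    show A (B (A (B (phi hz h x * r)))) = phi hz h m0 * (phi hz h x * r) * (phi hz h m0)⁻¹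
    simp only [map_mul, hA, hB, hAr r hr, hBr r hr, abab]
    rw [map_inv, mul_assoc _ (phi hz h m0)⁻¹ r, hc.inv_left.eq]
    simp only [mul_assoc]
  have split : ∀ a : MulAut Q, ∃ x : Q, ∃ l ∈ L, MulAut.conj x * l = a := fun a => by
    have : a ∈ Cfsg.Inn Q ⊔ L := by rw [hL.sup_eq_top]; trivial
    obtain ⟨y, hy, l, hl, e⟩ := Subgroup.mem_sup_of_normal_left.mp this
    obtain ⟨x, rfl⟩ := hy
    exact ⟨x, l, hl, e⟩
  obtain ⟨x, la', hla, hax⟩ := split A
  obtain ⟨y, lb', hlb, hby⟩ := split B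
  let π := QuotientGroup.mk' (Cfsg.Inn Q)
  have hπi : ∀ w : Q, π (MulAut.conj w) = 1 := fun w =>
    (QuotientGroup.eq_one_iff _).mpr ⟨w, rfl⟩
  have hπa : π A = π la' := by rw [← hax, map_mul, hπi, one_mul]
  have hπb : π B = π lb' := by rw [← hby, map_mul, hπi, one_mul]
  have triv : ∀ l ∈ L, π l = 1 → l = 1 := fun l hl e =>
    Subgroup.disjoint_def.mp hL.disjoint ((QuotientGroup.eq_one_iff l).mp e) hl
  have r1 : la' * la' = 1 := triv _ (L.mul_mem hla hla) (by
    rw [map_mul, ← hπa, ← map_mul, hA2, map_one])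
  have r2 : lb' * lb' = 1 := triv _ (L.mul_mem hlb hlb) (by
    rw [map_mul, ← hπb, ← map_mul, hB2, map_one])
  have r3 : la' * lb' * (la' * lb') = 1 := triv _ (L.mul_mem (L.mul_mem hla hlb) (L.mul_mem hla hlb))
    (by rw [map_mul, map_mul, ← hπa, ← hπb, ← map_mul, ← map_mul, hAB, hπi])
  have r4 : la' * lb' = lb' * la' := by
    calc la' * lb' = la' * lb' * (la' * lb') * (lb'⁻¹ * la'⁻¹) := by group
      _ = lb' * la' := by
        rw [r3, one_mul, inv_eq_of_mul_eq_one_right r1, inv_eq_of_mul_eq_one_right r2]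
  have act : ∀ (w : Q) (l C : MulAut Q) (c : M → M), MulAut.conj w * l = C →
      (∀ m, C (phi hz h m) = phi hz h (c m)) →
      ∀ m, l (phi hz h m) = phi hz h (c m * zc (dot (delta w e0, delta w e1, delta w e2,
        delta w f0, delta w f1, delta w f2) (c m))) := by
    intro w l C c e hC m
    have e2 := hC m
    rw [← e] at e2
    have e3 : w * l (phi hz h m) * w⁻¹ = phi hz h (c m) := e2
    have hcz : ∀ (a : ZMod 2) (u : Q), Commute (pw z a) u := fun a u =>
      Commute.pow_left (hz.central u) _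
    rw [← delta_phi_right hz h w (c m), map_mul, phi_zc, delta_symm hz,
      ← (hcz _ (phi hz h (c m))).eq]
    have e4 : l (phi hz h m) = w⁻¹ * (phi hz h (c m) * w) := by rw [← e3]; group
    rw [e4, delta_spec hz (phi hz h (c m)) w, ← mul_assoc (pw z _),
      ← mul_assoc, ← mul_assoc w⁻¹, ← (hcz _ w⁻¹).eq, mul_assoc, mul_assoc, inv_mul_cancel_left]
  have ea : ∀ m, la' (phi hz h m) = phi hz h (la (delta x e0, delta x e1,
      delta x e0 + delta x e2, delta x e0 + delta x e2 + delta x f0 + delta x f2, delta x f1,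
      delta x e0 + delta x f2) m) := fun m => by
    rw [act x la' A alphaFun hax hA m, dot_alpha]; rfl
  have eb : ∀ m, lb' (phi hz h m) = phi hz h (lb (delta y e0, delta y e1, delta y f2,
      delta y e1 + delta y f0, delta y e0 + delta y f1, delta y e2) m) := fun m => by
    rw [act y lb' B betaFun hby hB m, dot_beta]; rfl
  have inj := phi_injective hz h
  have qa : ∀ m, la' (la' (phi hz h m)) = phi hz h m := fun m => by
    rw [← MulAut.mul_apply, r1]; rfl
  have qb : ∀ m, lb' (lb' (phi hz h m)) = phi hz h m := fun m => by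
    rw [← MulAut.mul_apply, r2]; rfl
  have qc : ∀ m, la' (lb' (phi hz h m)) = lb' (la' (phi hz h m)) := fun m => by
    rw [← MulAut.mul_apply, r4]; rfl
  simp only [ea, eb] at qa qb qc
  exact no_lift _ ⟨⟨inj (qa _), inj (qa _), inj (qa _)⟩, _,
    ⟨inj (qb _), inj (qb _), inj (qb _)⟩, inj (qc _), inj (qc _), inj (qc _)⟩

theorem exists_pair (hz : Setting z) [Finite Q] (R A : Subgroup Q)
    (hR : ∀ y ∈ R, (∀ r ∈ R, Commute y r) → y = 1 ∨ y = z) (hAR : A ≤ R)
    (hA2 : ∀ a ∈ A, a * a = 1) (hAc : ∀ a ∈ A, ∀ b ∈ A, Commute a b) (hcard : 4 ≤ Nat.card A) :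
    ∃ e f : Q, IsPair z e f ∧ e ∈ R ∧ f ∈ R ∧ ∃ R' A' : Subgroup Q,
      (∀ x ∈ R', x ∈ R ∧ Commute e x ∧ Commute f x) ∧
      (∀ y ∈ R', (∀ r ∈ R', Commute y r) → y = 1 ∨ y = z) ∧ A' ≤ R' ∧
      (∀ a ∈ A', a * a = 1) ∧ (∀ a ∈ A', ∀ b ∈ A', Commute a b) ∧
      Nat.card A ≤ 2 * Nat.card A' := by
  classical
  have he : ∃ e ∈ A, e ≠ 1 ∧ e ≠ z := by
    by_contra hne
    push Not at hne
    have : (A : Set Q) ⊆ {1, z} := fun a ha => by
      by_cases h1 : a = 1
      · exact Or.inl h1
      · exact Or.inr (hne a ha h1)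
    have := Nat.card_mono (Set.toFinite _) this
    have h2 : Nat.card ({1, z} : Set Q) ≤ 2 := by
      rw [Nat.card_coe_set_eq]
      exact (Set.ncard_insert_le _ _).trans (by rw [Set.ncard_singleton])
    have : Nat.card A ≤ Nat.card ({1, z} : Set Q) := this
    omega
  obtain ⟨e, heA, he1, hez⟩ := he
  have hf : ∃ f ∈ R, ¬ Commute e f := by
    by_contra hne
    push Not at hne
    rcases hR e (hAR heA) hne with h | h
    · exact he1 h
    · exact hez h
  obtain ⟨f', hf'R, hf'⟩ := hf
  have hef' : e * f' = z * (f' * e) := (hz.comm e f').resolve_left hf'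
  have hee := hA2 e heA
  obtain ⟨f, hfR, hff, hef⟩ : ∃ f ∈ R, f * f = 1 ∧ e * f = z * (f * e) := by
    rcases hz.square f' with h | h
    · exact ⟨f', hf'R, h, hef'⟩
    · refine ⟨f' * e, R.mul_mem hf'R (hAR heA), ?_, ?_⟩
      · calc f' * e * (f' * e) = f' * (e * f') * e := by simp only [mul_assoc]
          _ = f' * (z * (f' * e)) * e := by rw [hef']
          _ = (f' * z) * f' * (e * e) := by simp only [mul_assoc]
          _ = 1 := by rw [hee, mul_one, ← hz.central, mul_assoc, h, hz.sq]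
      · rw [← mul_assoc, hef', mul_assoc, mul_assoc]
  have hpair : IsPair z e f := ⟨hee, hff, hef⟩
  have de : delta e f = 1 := delta_eq hz (by rw [pw_one]; exact hef)
  let R' : Subgroup Q := R ⊓ Subgroup.centralizer {e, f}
  have memR' : ∀ x, x ∈ R' ↔ x ∈ R ∧ Commute e x ∧ Commute f x := fun x => by
    simp [R', Subgroup.mem_inf, Subgroup.mem_centralizer_iff, Commute, SemiconjBy]
  let χ : A →* Multiplicative (ZMod 2) := MonoidHom.mk' (fun a => Multiplicative.ofAdd (delta f a))
    (fun a b => by rw [← ofAdd_add, ← delta_mul hz]; rfl)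
  let A' : Subgroup Q := χ.ker.map A.subtype
  have memA' : ∀ a ∈ A', a ∈ A ∧ Commute f a := by
    rintro a ⟨b, hb, rfl⟩
    exact ⟨b.2, commute_of_delta hz (Multiplicative.ofAdd.injective hb)⟩
  refine ⟨e, f, hpair, hAR heA, hfR, R', A', fun x hx => (memR' x).mp hx, ?_, ?_,
    fun a ha => hA2 a (memA' a ha).1, fun a ha b hb => hAc a (memA' a ha).1 b (memA' b hb).1, ?_⟩
  · intro y hy hyc
    obtain ⟨hyR, hye, hyf⟩ := (memR' y).mp hy
    refine hR y hyR fun r hr => ?_
    set r' := r * pw f (delta e r) * pw e (delta f r) with hr'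
    have h1 : r' ∈ R' := by
      refine (memR' _).mpr ⟨R.mul_mem (R.mul_mem hr (R.pow_mem hfR _)) (R.pow_mem (hAR heA) _),
        commute_of_delta hz ?_, commute_of_delta hz ?_⟩
      · rw [hr', delta_mul hz, delta_mul hz, delta_pw hz, delta_pw hz, de,
          delta_eq_zero (Commute.refl e)]
        generalize delta e r = a; generalize delta f r = b; revert a b; decide
      · rw [hr', delta_mul hz, delta_mul hz, delta_pw hz, delta_pw hz, delta_symm hz f e, de,
          delta_eq_zero (Commute.refl f)]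
        generalize delta e r = a; generalize delta f r = b; revert a b; decide
    have h2 : r = r' * (pw e (delta f r))⁻¹ * (pw f (delta e r))⁻¹ := by rw [hr']; group
    rw [h2]
    exact ((hyc r' h1).mul_right (hye.symm.pow_right _).inv_right).mul_right
      (hyf.symm.pow_right _).inv_right
  · intro a ha
    exact (memR' a).mpr ⟨hAR (memA' a ha).1, hAc e heA a (memA' a ha).1, (memA' a ha).2⟩
  · have h1 : Nat.card A' = Nat.card χ.ker :=
      Subgroup.card_map_of_injective A.subtype_injective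
    have h2 := Subgroup.card_mul_index χ.ker
    rw [Subgroup.index_ker] at h2
    have h3 : Nat.card χ.range ≤ 2 := by
      refine le_trans (Nat.card_le_card_of_injective _ Subtype.val_injective) ?_
      rw [Nat.card_eq_fintype_card, Fintype.card_multiplicative, ZMod.card]
    rw [h1, ← h2, mul_comm]
    exact Nat.mul_le_mul_right _ h3

/-- The setting in an extraspecial group of plus type with the six generators. -/
theorem exists_six [Finite Q] (n : ℕ) (hn : 3 ≤ n) (hQ : Cfsg.IsExtraspecial 2 Q)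
    (hplus : ∃ E : Subgroup Q, Cfsg.IsElementaryAbelian 2 E ∧ Nat.card ↥E = 2 ^ (n + 1)) :
    ∃ z e0 e1 e2 f0 f1 f2 : Q, Setting z ∧ Six z e0 e1 e2 f0 f1 f2 := by
  obtain ⟨⟨-, -, hcomm⟩, hc2⟩ := hQ
  obtain ⟨w, hw1, hwu⟩ := (Nat.card_eq_two_iff' (1 : Subgroup.center Q)).mp hc2
  have hcases : ∀ x ∈ Subgroup.center Q, x = 1 ∨ x = (w : Q) := fun x hx => by
    by_cases h : (⟨x, hx⟩ : Subgroup.center Q) = 1
    · exact Or.inl (congrArg Subtype.val h)
    · exact Or.inr (congrArg Subtype.val (hwu _ h))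
  have hz : Setting (w : Q) := by
    refine ⟨fun e => hw1 (Subtype.ext e), ?_, fun x => (Subgroup.mem_center_iff.mp w.2 x).symm,
      fun x y => ?_, fun x hx => hcases x (Subgroup.mem_center_iff.mpr fun y => (hx y).symm)⟩
    · rcases hcases _ ((Subgroup.center Q).mul_mem w.2 w.2) with h | h
      · exact h
      · exact absurd (mul_eq_left.mp h) fun e => hw1 (Subtype.ext e)
    · have hm : x * y * x⁻¹ * y⁻¹ ∈ Subgroup.center Q := by
        rw [← hcomm]; exact Subgroup.commutator_mem_commutator trivial trivial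
      rcases hcases _ hm with h | h
      · left; calc x * y = x * y * x⁻¹ * y⁻¹ * (y * x) := by group
          _ = y * x := by rw [h, one_mul]
      · right; calc x * y = x * y * x⁻¹ * y⁻¹ * (y * x) := by group
          _ = (w : Q) * (y * x) := by rw [h]
  obtain ⟨E, ⟨hEc, hE2⟩, hEcard⟩ := hplus
  have h16 : 16 ≤ Nat.card E := by
    rw [hEcard]; exact le_trans (by norm_num) (Nat.pow_le_pow_right two_pos (show 4 ≤ n + 1 by omega))
  obtain ⟨e0, f0, hp0, -, -, R1, A1, hR1, hc1, hA1, hA1s, hA1c, hk1⟩ := exists_pair hz ⊤ E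
    (fun y _ hy => hz.cen y fun r => hy r trivial) le_top
    (fun a ha => by rw [← pow_two]; exact hE2 a ha)
    (fun a ha b hb => congrArg Subtype.val (hEc.is_comm.comm (⟨a, ha⟩ : E) ⟨b, hb⟩)) (by omega)
  obtain ⟨e1, f1, hp1, he1, hf1, R2, A2, hR2, hc2', hA2, hA2s, hA2c, hk2⟩ :=
    exists_pair hz R1 A1 hc1 hA1 hA1s hA1c (by omega)
  obtain ⟨e2, f2, hp2, he2, hf2, -⟩ := exists_pair hz R2 A2 hc2' hA2 hA2s hA2c (by omega)
  obtain ⟨he2', a1, b1⟩ := hR2 e2 he2
  obtain ⟨hf2', a2, b2⟩ := hR2 f2 hf2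
  exact ⟨w, e0, e1, e2, f0, f1, f2, hz, hp0, hp1, hp2,
    ⟨(hR1 e1 he1).2.1, (hR1 f1 hf1).2.1, (hR1 e1 he1).2.2, (hR1 f1 hf1).2.2⟩,
    ⟨(hR1 e2 he2').2.1, (hR1 f2 hf2').2.1, (hR1 e2 he2').2.2, (hR1 f2 hf2').2.2⟩,
    ⟨a1, a2, b1, b2⟩⟩

end CfsgLib.Local.ExtEmbed
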