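import Cfsg.Agent.Lib.LocalPComponent
import Cfsg.Agent.Lib.FgsSylowProduct
import Cfsg.Prelude.Def_Balance

/-!
The extended `2`-layer.
-/

set_option autoImplicit false
set_option linter.style.haveILetI false

namespace CfsgLib.Local.ExtLayer

open Subgroup
open scoped commutatorElement

universe u

variable {G : Type u} [Group G] [Finite G] {p : ℕ} [hp : Fact p.Prime]

omit [Finite G] hp in
theorem map_conj_le_of_normal {N : Subgroup G} (hN : N.Normal) (g : G) :
    N.map (MulAut.conj g).toMonoidHom ≤ N := by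
  rintro _ ⟨x, hx, rfl⟩
  exact hN.conj_mem x hx g

theorem normal_pLayer : (Cfsg.pLayer p G).Normal := by
  haveI := CfsgLib.Core.normal_pPrimeCore (G := G) p
  set M := (Cfsg.layer (G ⧸ Cfsg.pPrimeCore p G)).comap
    (QuotientGroup.mk' (Cfsg.pPrimeCore p G)) with hM
  have hMn : M.Normal := (CfsgLib.Core.normal_layer).comap _
  have hsn : (Cfsg.pLayer p G).IsSubnormal :=
    CfsgLib.Core.isSubnormal_sSup fun K hK => hK.1
  have heq : Cfsg.pLayer p G = PComp.pGen p M := by
    refine le_antisymm (sSup_le fun K hK => ?_) ?_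
    · conv_lhs => rw [← PComp.pGen_self hK]
      refine PComp.pGen_mono p ?_
      rw [hM, ← Subgroup.map_le_iff_le_comap]
      exact CfsgLib.Core.component_le_layer hK.2.1
    · rw [hM, ← PComp.map_pLayer (p := p), ← PComp.sup_pPrimeCore_eq_comap]
      exact PComp.pGen_sup_le p hsn
  rw [heq, ← Subgroup.normalizer_eq_top_iff, eq_top_iff]
  intro g _
  exact PComp.normalizer_le_normalizer_pGen p M (by rw [Subgroup.normalizer_eq_top (H := M)]; trivial)

theorem normal_pPrimePCore : (Cfsg.pPrimePCore p G).Normal :=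
  (CfsgLib.Core.normal_pCore p).comap _

variable (p) in
/-- `O_{p'}(C_G(P))` as a subgroup of `G`. -/
def coreC (P : Subgroup G) : Subgroup G :=
  (Cfsg.pPrimeCore p ↥(Subgroup.centralizer (P : Set G))).map
    (Subgroup.centralizer (P : Set G)).subtype

omit [Finite G] hp in
theorem coreC_le (P : Subgroup G) : coreC p P ≤ Subgroup.centralizer (P : Set G) :=
  Subgroup.map_subtype_le _

theorem coprime_card_coreC (P : Subgroup G) : (Nat.card ↥(coreC p P)).Coprime p := by
  rw [coreC, Subgroup.card_subtype]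
  exact CfsgLib.Core.coprime_card_pPrimeCore p

omit hp in
theorem map_conj_coreC (P : Subgroup G) (g : G) :
    (coreC p P).map (MulAut.conj g).toMonoidHom ≤ coreC p (P.map (MulAut.conj g).toMonoidHom) := by
  set φ := (MulAut.conj g).toMonoidHom with hφ
  have hC : (Subgroup.centralizer (P : Set G)).map φ =
      Subgroup.centralizer ((P.map φ : Subgroup G) : Set G) := by
    refine le_antisymm (Subgroup.map_centralizer_le_centralizer_image _ _) fun x hx => ?_
    refine ⟨g⁻¹ * x * g, ?_, by simp [hφ, mul_assoc]⟩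
    rw [SetLike.mem_coe, Subgroup.mem_centralizer_iff]
    intro a ha
    have h := Subgroup.mem_centralizer_iff.mp hx (g * a * g⁻¹) ⟨a, ha, rfl⟩
    calc a * (g⁻¹ * x * g) = g⁻¹ * (g * a * g⁻¹ * x) * g := by group
      _ = g⁻¹ * (x * (g * a * g⁻¹)) * g := by rw [h]
      _ = g⁻¹ * x * g * a := by group
  set e := ((Subgroup.centralizer (P : Set G)).equivMapOfInjective φ
    (MulAut.conj g).injective).trans (MulEquiv.subgroupCongr hC) with he
  rintro _ ⟨_, ⟨x, hx, rfl⟩, rfl⟩
  exact ⟨e x, CfsgLib.Core.map_pPrimeCore_le_of_surjective p e.toMonoidHom e.surjective ⟨x, hx, rfl⟩,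
    rfl⟩

theorem normalizer_le_normalizer_coreC (P : Subgroup G) :
    Subgroup.normalizer (P : Set G) ≤ Subgroup.normalizer (coreC p P : Set G) := by
  have h : ∀ a ∈ Subgroup.normalizer (P : Set G), ∀ y ∈ coreC p P, a * y * a⁻¹ ∈ coreC p P := by
    intro a ha y hy
    have hP : P.map (MulAut.conj a).toMonoidHom = P := by
      rw [← CfsgLib.Core.conj_smul_eq_map, CfsgLib.Core.conj_smul_of_mem_normalizer ha]
    have := map_conj_coreC P a ⟨y, hy, rfl⟩
    rwa [hP] at this
  intro g hg
  rw [Subgroup.mem_normalizer_iff]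
  intro y
  refine ⟨h g hg y, fun hy => ?_⟩
  have := h g⁻¹ (inv_mem hg) _ hy
  simpa [mul_assoc] using this

/-- The centraliser of a Sylow subgroup of an overgroup normalises every `p`-component. -/
theorem centralizer_sylow_le_normalizer {K N : Subgroup G} (hK : Cfsg.IsPComponent p K)
    (hKN : K ≤ N) (T : Sylow p ↥N) :
    Subgroup.centralizer (((T : Subgroup ↥N).map N.subtype : Subgroup G) : Set G) ≤
      Subgroup.normalizer (K : Set G) := by
  haveI := CfsgLib.Core.normal_pPrimeCore (G := G) p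
  set f := QuotientGroup.mk' (Cfsg.pPrimeCore p G) with hf
  have hKN' : (K.subgroupOf N).IsSubnormal := hK.1.subgroupOf
  -- a Sylow subgroup of `K` inside `T`
  have key : ∀ (n : ℕ) (H : Subgroup ↥N), Nat.card ↥H = n → K.subgroupOf N ≤ H →
      ((K.subgroupOf N).subgroupOf H).IsSubnormal → ∀ S : Sylow p ↥H,
      ∃ R : Sylow p ↥K, ∀ x : ↥K, x ∈ (R : Subgroup ↥K) →
        ∃ y ∈ (S : Subgroup ↥H), ((y : ↥N) : G) = (x : G) := by
    intro n
    induction n using Nat.strong_induction_on with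
    | _ n ih =>
    intro H hn hKH hsn S
    subst hn
    rcases hsn.lt_normal with h | ⟨L, hL, hKL, hL'⟩
    · have hH : H = K.subgroupOf N := le_antisymm (Subgroup.subgroupOf_eq_top.mp h) hKH
      set e : ↥H ≃* ↥K := (MulEquiv.subgroupCongr hH).trans (Subgroup.subgroupOfEquivOfLe hKN)
        with he
      refine ⟨S.mapSurjective (f := e.toMonoidHom) e.surjective, fun x hx => ?_⟩
      obtain ⟨y, hy, rfl⟩ := hx
      exact ⟨y, hy, rfl⟩
    · haveI := hL
      obtain ⟨S', hS'⟩ := CfsgLib.SylowProd.sylow_inf_normal L S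
      set H' := L.map H.subtype with hH'
      have hlt : Nat.card ↥H' < Nat.card ↥H := by
        rw [hH', Subgroup.card_subtype, ← L.card_mul_index]
        exact lt_mul_of_one_lt_right Nat.card_pos (Subgroup.one_lt_index_of_ne_top hL'.ne)
      set e : ↥L ≃* ↥H' := L.equivMapOfInjective H.subtype H.subtype_injective with he
      obtain ⟨R, hR⟩ := ih _ hlt H' rfl
        (fun k hk => ⟨⟨k, hKH hk⟩, hKL (Subgroup.mem_subgroupOf.mpr hk), rfl⟩)
        (CfsgLib.Core.isSubnormal_subgroupOf_mono (Subgroup.map_subtype_le L) hsn)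
        (S'.mapSurjective (f := e.toMonoidHom) e.surjective)
      refine ⟨R, fun x hx => ?_⟩
      obtain ⟨y, hy, hyx⟩ := hR x hx
      obtain ⟨z, hz, rfl⟩ := hy
      refine ⟨(z : ↥H), ?_, hyx⟩
      rw [SetLike.mem_coe, hS'] at hz
      exact (Subgroup.mem_inf.mp (Subgroup.mem_subgroupOf.mp hz)).1
  obtain ⟨R, hR⟩ := key _ ⊤ rfl le_top hKN'.subgroupOf
    (T.mapSurjective (f := (Subgroup.topEquiv (G := ↥N)).symm.toMonoidHom)
      (fun y => (Subgroup.topEquiv (G := ↥N)).symm.surjective y))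
  intro x hx
  have hxR : ∀ k : ↥K, k ∈ (R : Subgroup ↥K) → x * (k : G) * x⁻¹ = (k : G) := by
    intro k hk
    obtain ⟨y, ⟨z, hz, rfl⟩, hyk⟩ := hR k hk
    rw [mul_inv_eq_iff_eq_mul, ← hyk]
    exact (Subgroup.mem_centralizer_iff.mp hx _ ⟨z, hz, rfl⟩).symm
  have hstep : ∀ y : G, (∀ k : ↥K, k ∈ (R : Subgroup ↥K) → y * (k : G) * y⁻¹ = (k : G)) →
      ∀ a ∈ K ⊔ Cfsg.pPrimeCore p G, y * a * y⁻¹ ∈ K ⊔ Cfsg.pPrimeCore p G := by
    intro y hy a ha
    set c := QuotientGroup.mk' (Cfsg.pPrimeCore p G) y with hc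
    have hcomp := CfsgLib.Core.isComponent_map_mulEquiv (MulAut.conj c) hK.2.1
    by_cases heq : (K.map f).map (MulAut.conj c).toMonoidHom = K.map f
    · rw [PComp.sup_pPrimeCore_eq_comap, Subgroup.mem_comap] at ha ⊢
      rw [map_mul, map_mul, map_inv]
      exact heq.le ⟨_, ha, rfl⟩
    · exfalso
      have hcomm := Subgroup.commutator_eq_bot_iff_le_centralizer.mp
        (CfsgLib.Core.components_commute hcomp hK.2.1 heq)
      set g := (f.comp K.subtype).rangeRestrict with hg
      haveI : Group.IsPerfect ↥(f.comp K.subtype).range := by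
        haveI := hK.2.1.2.1
        exact CfsgLib.Core.isPerfect_congr (MulEquiv.subgroupCongr (by
          rw [MonoidHom.range_comp, Subgroup.range_subtype]))
      refine PComp.not_dvd_card_of_center_le p
        (R.mapSurjective (f := g) (MonoidHom.rangeRestrict_surjective _)) ?_ ?_
      · rintro _ ⟨k, hk, rfl⟩
        rw [Subgroup.mem_center_iff]
        rintro ⟨_, l, rfl⟩
        apply Subtype.ext
        show f (l : G) * f (k : G) = f (k : G) * f (l : G)
        have hmem : f (k : G) ∈ (K.map f).map (MulAut.conj c).toMonoidHom :=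
          ⟨f (k : G), ⟨k, k.2, rfl⟩, by
            show c * f (k : G) * c⁻¹ = f (k : G)
            rw [hc, ← map_inv, ← map_mul, ← map_mul, hy k hk]⟩
        exact Subgroup.mem_centralizer_iff.mp (hcomm hmem) _ ⟨l, l.2, rfl⟩
      · have hd : p ∣ Nat.card ↥(K.map f) := PComp.dvd_card_component p
          (CfsgLib.Core.pPrimeCore_quotient_pPrimeCore p) hK.2.1
        rwa [MonoidHom.range_comp, Subgroup.range_subtype]
  rw [PComp.eq_pGen hK]
  refine PComp.normalizer_le_normalizer_pGen p _ ?_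
  rw [Subgroup.mem_normalizer_iff]
  intro a
  refine ⟨hstep x hxR a, fun ha => ?_⟩
  have := hstep x⁻¹ (fun k hk => by
    have h := hxR k hk
    calc x⁻¹ * (k : G) * x⁻¹⁻¹ = x⁻¹ * (x * (k : G) * x⁻¹) * x := by rw [h, inv_inv]
      _ = (k : G) := by group) _ ha
  simpa [mul_assoc] using this

/-- The subgroup `L_{p'}(G) O_{p',p}(G)`. -/
abbrev base (p : ℕ) (G : Type u) [Group G] : Subgroup G := Cfsg.pLayer p G ⊔ Cfsg.pPrimePCore p G

theorem normal_base : (base p G).Normal := by
  haveI := normal_pLayer (G := G) (p := p)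
  haveI := normal_pPrimePCore (G := G) (p := p)
  infer_instance

/-- `L_{p'}(G) O_{p',p}(G) = L_{p'}(G) O_{p'}(G) T` for a Sylow subgroup `T` of it. -/
theorem base_le (T : Sylow p ↥(base p G)) :
    base p G ≤ Cfsg.pLayer p G ⊔ Cfsg.pPrimeCore p G ⊔ (T : Subgroup ↥(base p G)).map (base p G).subtype := by
  haveI := normal_pLayer (G := G) (p := p)
  haveI := CfsgLib.Core.normal_pPrimeCore (G := G) p
  set A := Cfsg.pLayer p G ⊔ Cfsg.pPrimeCore p G with hA
  haveI : A.Normal := inferInstance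
  set g := ((QuotientGroup.mk' A).comp (base p G).subtype).rangeRestrict with hg
  have hpg : IsPGroup p ↥((QuotientGroup.mk' A).comp (base p G).subtype).range := by
    intro ⟨q, hq⟩
    rw [MonoidHom.range_comp, Subgroup.range_subtype, show base p G = Cfsg.pLayer p G ⊔
      Cfsg.pPrimePCore p G from rfl, Subgroup.map_sup] at hq
    rw [(Subgroup.map_eq_bot_iff _).mpr (by rw [QuotientGroup.ker_mk']; exact le_sup_left),
      bot_sup_eq] at hq
    obtain ⟨m, hm, rfl⟩ := hq
    obtain ⟨k, hk⟩ := (CfsgLib.Core.isPGroup_pCore p) ⟨_, Subgroup.mem_comap.mp hm⟩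
    refine ⟨k, Subtype.ext ?_⟩
    show (QuotientGroup.mk' A m) ^ p ^ k = 1
    rw [← map_pow, QuotientGroup.mk'_apply, QuotientGroup.eq_one_iff]
    refine Subgroup.mem_sup_right ?_
    rw [← QuotientGroup.eq_one_iff]
    have h1 := congrArg Subtype.val hk
    simpa using h1
  have htop : (T.mapSurjective (f := g) (MonoidHom.rangeRestrict_surjective _) :
      Subgroup ↥((QuotientGroup.mk' A).comp (base p G).subtype).range) = ⊤ :=
    ((T.mapSurjective (f := g) (MonoidHom.rangeRestrict_surjective _)).3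
      (hpg.of_equiv Subgroup.topEquiv.symm) le_top).symm
  intro b hb
  have hb' : g ⟨b, hb⟩ ∈ (T : Subgroup ↥(base p G)).map g :=
    (show (T : Subgroup ↥(base p G)).map g = ⊤ from htop) ▸ Subgroup.mem_top _
  obtain ⟨t, ht, htb⟩ := hb'
  have h2 : b * (t : G)⁻¹ ∈ A := by
    have h3 : QuotientGroup.mk' A (t : G) = QuotientGroup.mk' A b := congrArg Subtype.val htb
    rw [← QuotientGroup.eq_one_iff]
    show QuotientGroup.mk' A (b * (t : G)⁻¹) = 1
    rw [map_mul, map_inv, ← h3, mul_inv_cancel]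
  have := Subgroup.mul_mem_sup h2 (show (t : G) ∈ (T : Subgroup ↥(base p G)).map (base p G).subtype from ⟨t, ht, rfl⟩)
  simpa using this

/-- Every `O_{p'}(C_G(T))` lies in `L_{p'}(G) O_{p'}(G) O_{p'}(C_G(T₀))`. -/
theorem coreC_sylow_le (T T₀ : Sylow p ↥(base p G)) :
    coreC p ((T : Subgroup ↥(base p G)).map (base p G).subtype) ≤
      Cfsg.pLayer p G ⊔ Cfsg.pPrimeCore p G ⊔
        coreC p ((T₀ : Subgroup ↥(base p G)).map (base p G).subtype) := by
  haveI := normal_pLayer (G := G) (p := p)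
  haveI := CfsgLib.Core.normal_pPrimeCore (G := G) p
  set A := Cfsg.pLayer p G ⊔ Cfsg.pPrimeCore p G with hA
  haveI : A.Normal := inferInstance
  obtain ⟨n, hn⟩ := MulAction.exists_smul_eq ↥(base p G) T₀ T
  set T₀' := (T₀ : Subgroup ↥(base p G)).map (base p G).subtype with hT₀'
  obtain ⟨a, ha, t, ht, hat⟩ := Subgroup.mem_sup_of_normal_left.mp (base_le T₀ n.2)
  have hTeq : (T : Subgroup ↥(base p G)).map (base p G).subtype = T₀'.map (MulAut.conj (n : G)).toMonoidHom := by
    rw [← hn, Sylow.coe_subgroup_smul, CfsgLib.Core.conj_smul_eq_map, hT₀', Subgroup.map_map,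
      Subgroup.map_map]
    rfl
  have hT : (T : Subgroup ↥(base p G)).map (base p G).subtype = T₀'.map (MulAut.conj a).toMonoidHom := by
    rw [hTeq, ← hat, show (MulAut.conj (a * t)).toMonoidHom =
      (MulAut.conj a).toMonoidHom.comp (MulAut.conj t).toMonoidHom by ext y; simp [mul_assoc],
      ← Subgroup.map_map]
    have h1 : T₀'.map (MulAut.conj t).toMonoidHom = T₀' := by
      rw [← CfsgLib.Core.conj_smul_eq_map,
        CfsgLib.Core.conj_smul_of_mem_normalizer (Subgroup.le_normalizer ht)]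
    rw [h1]
  intro x hx
  have h2 : (coreC p ((T : Subgroup ↥(base p G)).map (base p G).subtype)).map (MulAut.conj a⁻¹).toMonoidHom ≤
      coreC p T₀' := by
    refine (map_conj_coreC _ _).trans (le_of_eq ?_)
    rw [hT, Subgroup.map_map]
    congr 1
    rw [show (MulAut.conj a⁻¹).toMonoidHom.comp (MulAut.conj a).toMonoidHom = MonoidHom.id G by
      ext y; simp [mul_assoc], Subgroup.map_id]
  have h3 := h2 ⟨x, hx, rfl⟩
  have h4 : a * (a⁻¹ * x * a⁻¹⁻¹) * a⁻¹ ∈ A ⊔ coreC p T₀' :=
    mul_mem (mul_mem (Subgroup.mem_sup_left ha) (Subgroup.mem_sup_right h3))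
      (Subgroup.mem_sup_left (inv_mem ha))
  simpa [mul_assoc] using h4

theorem extendedTwoLayer_eq [Fact (Nat.Prime 2)] (T₀ : Sylow 2 ↥(base 2 G)) :
    Cfsg.extendedTwoLayer G = Cfsg.pLayer 2 G ⊔ Cfsg.oddCore G ⊔
      coreC 2 ((T₀ : Subgroup ↥(base 2 G)).map (base 2 G).subtype) :=
  le_antisymm (sup_le le_sup_left (iSup_le fun T => coreC_sylow_le T T₀))
    (sup_le le_sup_left (le_sup_of_le_right
      (le_iSup_of_le T₀ le_rfl)))

theorem normal_extendedTwoLayer [Fact (Nat.Prime 2)] : (Cfsg.extendedTwoLayer G).Normal := by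
  haveI := normal_pLayer (G := G) (p := 2)
  haveI := CfsgLib.Core.normal_pPrimeCore (G := G) 2
  have hB : (base 2 G).Normal := normal_base
  obtain ⟨T₀⟩ := (inferInstance : Nonempty (Sylow 2 ↥(base 2 G)))
  refine ⟨fun x hx g => ?_⟩
  have hle : (Cfsg.extendedTwoLayer G).map (MulAut.conj g).toMonoidHom ≤
      Cfsg.extendedTwoLayer G := by
    conv_lhs => rw [Cfsg.extendedTwoLayer, Subgroup.map_sup, Subgroup.map_iSup]
    refine sup_le (le_sup_of_le_left (map_conj_le_of_normal inferInstance g)) (iSup_le fun T => ?_)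
    haveI := hB
    refine (map_conj_coreC _ g).trans (le_sup_of_le_right ?_)
    refine le_iSup_of_le (T.mapSurjective (f := (MulAut.conjNormal g : MulAut ↥(base 2 G)).toMonoidHom)
      (fun y => (MulAut.conjNormal g : MulAut ↥(base 2 G)).surjective y)) (le_of_eq ?_)
    congr 1
    show _ = ((T : Subgroup ↥(base 2 G)).map _).map _
    rw [Subgroup.map_map, Subgroup.map_map]
    rfl
  exact hle ⟨x, hx, rfl⟩

end CfsgLib.Local.ExtLayer
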