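import Mathlib.Algebra.Group.End
import Mathlib.Data.ZMod.Basic
import Mathlib.Data.Fintype.Prod
import Mathlib.Algebra.Group.Subgroup.Basic
import Mathlib.Tactic.FinCases
import Mathlib.Tactic.Ring

/-!
A concrete extraspecial group of order 2^7 and plus type, with two automorphisms whose classes
modulo inner automorphisms generate a four group that does not lift.
-/

set_option autoImplicit false

namespace CfsgLib.Local.ExtModel

@[ext]
structure M where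
  a0 : ZMod 2
  a1 : ZMod 2
  a2 : ZMod 2
  b0 : ZMod 2
  b1 : ZMod 2
  b2 : ZMod 2
  c : ZMod 2
deriving DecidableEq

def toProd : M ≃ (ZMod 2 × ZMod 2 × ZMod 2 × ZMod 2 × ZMod 2 × ZMod 2 × ZMod 2) where
  toFun m := (m.a0, m.a1, m.a2, m.b0, m.b1, m.b2, m.c)
  invFun t := ⟨t.1, t.2.1, t.2.2.1, t.2.2.2.1, t.2.2.2.2.1, t.2.2.2.2.2.1, t.2.2.2.2.2.2⟩
  left_inv _ := rfl
  right_inv _ := rfl

instance : Fintype M := Fintype.ofEquiv _ toProd.symm

instance : Mul M := ⟨fun x y => ⟨x.a0 + y.a0, x.a1 + y.a1, x.a2 + y.a2, x.b0 + y.b0, x.b1 + y.b1,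
  x.b2 + y.b2, x.c + y.c + (x.a0 * y.b0 + x.a1 * y.b1 + x.a2 * y.b2)⟩⟩
instance : One M := ⟨⟨0, 0, 0, 0, 0, 0, 0⟩⟩
instance : Inv M := ⟨fun x => ⟨x.a0, x.a1, x.a2, x.b0, x.b1, x.b2,
  x.c + (x.a0 * x.b0 + x.a1 * x.b1 + x.a2 * x.b2)⟩⟩

theorem mul_def (x y : M) : x * y = ⟨x.a0 + y.a0, x.a1 + y.a1, x.a2 + y.a2, x.b0 + y.b0,
  x.b1 + y.b1, x.b2 + y.b2, x.c + y.c + (x.a0 * y.b0 + x.a1 * y.b1 + x.a2 * y.b2)⟩ := rfl
theorem one_def : (1 : M) = ⟨0, 0, 0, 0, 0, 0, 0⟩ := rfl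
theorem inv_def (x : M) : x⁻¹ = ⟨x.a0, x.a1, x.a2, x.b0, x.b1, x.b2,
  x.c + (x.a0 * x.b0 + x.a1 * x.b1 + x.a2 * x.b2)⟩ := rfl

theorem mul_assoc' (x y z : M) : x * y * z = x * (y * z) := by
  ext <;> simp only [mul_def] <;> ring

theorem inv_mul' (x : M) : x⁻¹ * x = 1 := by
  ext <;> simp only [mul_def, inv_def, one_def] <;> ring_nf <;> simp [show (2 : ZMod 2) = 0 from rfl]

instance : Group M where
  mul_assoc := mul_assoc'
  one_mul x := by ext <;> simp [mul_def, one_def]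
  mul_one x := by ext <;> simp [mul_def, one_def]
  inv_mul_cancel := inv_mul'

/-- The element with the given coordinates. -/
def mk' (a0 a1 a2 b0 b1 b2 : ZMod 2) : M := ⟨a0, a1, a2, b0, b1, b2, 0⟩

def zc (s : ZMod 2) : M := ⟨0, 0, 0, 0, 0, 0, s⟩

def alphaFun (x : M) : M :=
  ⟨x.a0 + x.a2 + x.b0 + x.b2, x.a1, x.a2 + x.b0, x.b0, x.b1, x.b0 + x.b2,
    x.c + (x.a2 + x.b0 * x.b2)⟩

def betaFun (x : M) : M :=
  ⟨x.a0 + x.b1, x.a1 + x.b0, x.b2, x.b0, x.b1, x.a2, x.c + (x.a2 * x.b2 + x.b0 * x.b1)⟩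

theorem two_eq : (2 : ZMod 2) = 0 := rfl

theorem sq_eq (a : ZMod 2) : a ^ 2 = a := by revert a; decide

theorem four_eq : (4 : ZMod 2) = 0 := rfl

theorem add_self' (a : ZMod 2) : a + a = 0 := by revert a; decide

theorem add_self_assoc (a b : ZMod 2) : b + a + a = b := by revert a b; decide

theorem alpha_mul (x y : M) : alphaFun (x * y) = alphaFun x * alphaFun y := by
  ext <;> simp only [alphaFun, mul_def] <;> ring_nf <;> simp [two_eq]

theorem beta_mul (x y : M) : betaFun (x * y) = betaFun x * betaFun y := by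
  ext <;> simp only [betaFun, mul_def] <;> ring_nf <;> simp [two_eq]

theorem alpha_alpha (x : M) : alphaFun (alphaFun x) = x := by
  ext <;> simp only [alphaFun] <;> ring_nf <;>
    simp [two_eq, four_eq, sq_eq, add_self', add_self_assoc]

theorem beta_beta (x : M) : betaFun (betaFun x) = x := by
  ext <;> simp only [betaFun] <;> ring_nf <;>
    simp [two_eq, four_eq, sq_eq, add_self', add_self_assoc]

/-- The commutator of the two automorphisms is inner. -/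
def m0 : M := ⟨1, 0, 1, 0, 0, 1, 0⟩

theorem abab (x : M) : alphaFun (betaFun (alphaFun (betaFun x))) = m0 * x * m0⁻¹ := by
  ext <;> simp only [alphaFun, betaFun, mul_def, inv_def, m0] <;> ring_nf <;>
    simp [two_eq, four_eq, sq_eq, add_self', add_self_assoc] <;> ring_nf <;>
    simp [two_eq, four_eq, sq_eq, add_self', add_self_assoc]

theorem alpha_zc (s : ZMod 2) : alphaFun (zc s) = zc s := by revert s; decide
theorem beta_zc (s : ZMod 2) : betaFun (zc s) = zc s := by revert s; decide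

theorem zc_add (s t : ZMod 2) : zc (s + t) = zc s * zc t := by revert s t; decide

theorem zc_comm (s : ZMod 2) (x : M) : zc s * x = x * zc s := by
  ext <;> simp [mul_def, zc, add_comm]

/-- The linear functional on coordinates. -/
def dot (s : ZMod 2 × ZMod 2 × ZMod 2 × ZMod 2 × ZMod 2 × ZMod 2) (x : M) : ZMod 2 :=
  s.1 * x.a0 + s.2.1 * x.a1 + s.2.2.1 * x.a2 + s.2.2.2.1 * x.b0 + s.2.2.2.2.1 * x.b1
    + s.2.2.2.2.2 * x.b2

def la (s : ZMod 2 × ZMod 2 × ZMod 2 × ZMod 2 × ZMod 2 × ZMod 2) (x : M) : M :=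
  alphaFun x * zc (dot s x)

def lb (s : ZMod 2 × ZMod 2 × ZMod 2 × ZMod 2 × ZMod 2 × ZMod 2) (x : M) : M :=
  betaFun x * zc (dot s x)

def g2 : M := mk' 0 0 1 0 0 0
def g3 : M := mk' 0 0 0 1 0 0
def g4 : M := mk' 0 0 0 0 1 0

set_option maxRecDepth 100000 in
/-- No choice of inner corrections makes the two automorphisms commuting involutions. -/
theorem no_lift : ∀ s : ZMod 2 × ZMod 2 × ZMod 2 × ZMod 2 × ZMod 2 × ZMod 2,
    ¬ ((la s (la s g2) = g2 ∧ la s (la s g3) = g3 ∧ la s (la s g4) = g4) ∧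
    ∃ t : ZMod 2 × ZMod 2 × ZMod 2 × ZMod 2 × ZMod 2 × ZMod 2,
    (lb t (lb t g2) = g2 ∧ lb t (lb t g3) = g3 ∧ lb t (lb t g4) = g4) ∧
    la s (lb t g2) = lb t (la s g2) ∧ la s (lb t g3) = lb t (la s g3) ∧
    la s (lb t g4) = lb t (la s g4)) := by
  decide +kernel

/-- The commutator form. -/
def bil (x y : M) : ZMod 2 :=
  x.a0 * y.b0 + x.a1 * y.b1 + x.a2 * y.b2 + (y.a0 * x.b0 + y.a1 * x.b1 + y.a2 * x.b2)

theorem comm_zc (x y : M) : x * y = zc (bil x y) * (y * x) := by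
  ext <;> simp only [mul_def, zc, bil] <;> ring_nf <;>
    simp [two_eq, four_eq, sq_eq, add_self', add_self_assoc]

theorem eq_zc_of_bil (x : M) (h : ∀ y : M, bil x y = 0) : x = zc x.c := by
  have h0 := h (mk' 1 0 0 0 0 0)
  have h1 := h (mk' 0 1 0 0 0 0)
  have h2 := h (mk' 0 0 1 0 0 0)
  have h3 := h (mk' 0 0 0 1 0 0)
  have h4 := h (mk' 0 0 0 0 1 0)
  have h5 := h (mk' 0 0 0 0 0 1)
  simp [bil, mk'] at h0 h1 h2 h3 h4 h5
  ext <;> simp [zc, *]

theorem dot_alpha (s : ZMod 2 × ZMod 2 × ZMod 2 × ZMod 2 × ZMod 2 × ZMod 2) (x : M) :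
    dot s (alphaFun x) = dot (s.1, s.2.1, s.1 + s.2.2.1,
      s.1 + s.2.2.1 + s.2.2.2.1 + s.2.2.2.2.2, s.2.2.2.2.1, s.1 + s.2.2.2.2.2) x := by
  simp only [dot, alphaFun]; ring

theorem dot_beta (s : ZMod 2 × ZMod 2 × ZMod 2 × ZMod 2 × ZMod 2 × ZMod 2) (x : M) :
    dot s (betaFun x) = dot (s.1, s.2.1, s.2.2.2.2.2,
      s.2.1 + s.2.2.2.1, s.1 + s.2.2.2.2.1, s.2.2.1) x := by
  simp only [dot, betaFun]; ring

end CfsgLib.Local.ExtModel
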