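import Cfsg.Agent.Lib.LocalFFModel
import Cfsg.Agent.Lib.ClassicalProjLine

/-!
# Coprime operator groups and failure of the Thompson factorization
-/

set_option autoImplicit false

universe u

namespace CfsgLib.LocalFF

open Subgroup CfsgLib.LocalThompson CfsgLib.Core
open scoped commutatorElement IsMulCommutative

set_option linter.unusedSectionVars false

variable {G : Type u} [Group G] [Finite G] {p : ℕ} [hp : Fact p.Prime]

theorem fx_map_inj {H : Type u} [Group H] (f : G →* H) (hf : Function.Injective f)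
    (V A : Subgroup G) : fx (V.map f) (A.map f) = (fx V A).map f := by
  ext g
  constructor
  · intro hg
    obtain ⟨hgV, hc⟩ := mem_inf.mp hg
    obtain ⟨v, hv, rfl⟩ := hgV
    refine ⟨v, mem_inf.mpr ⟨hv, mem_centralizer_iff.mpr fun a ha => hf ?_⟩, rfl⟩
    rw [map_mul, map_mul]
    exact mem_centralizer_iff.mp hc _ ⟨a, ha, rfl⟩
  · rintro ⟨v, hv, rfl⟩
    refine mem_inf.mpr ⟨⟨v, (mem_inf.mp hv).1, rfl⟩, mem_centralizer_iff.mpr ?_⟩
    rintro _ ⟨a, ha, rfl⟩
    rw [← map_mul, ← map_mul, mem_centralizer_iff.mp (mem_inf.mp hv).2 a ha]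

theorem bo_map_inj {H : Type u} [Group H] [Finite H] (f : G →* H) (hf : Function.Injective f)
    {V A : Subgroup G} (hA : Cfsg.IsElementaryAbelian p A) (hbo : Cfsg.IsBestOffenderOn p V A) :
    Cfsg.IsBestOffenderOn p (V.map f) (A.map f) := by
  have hEA := isEA_map f hA
  refine ⟨fun B hB => ?_, Subgroup.commutator_le.mpr fun a ha b hb => ?_, fun a ha => by
    rw [hEA.2 a ha]; exact one_mem _⟩
  · have hBm : (A ⊓ B.comap f).map f = B := by
      refine le_antisymm ((map_mono inf_le_right).trans (map_comap_le _ _)) fun b hb => ?_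
      obtain ⟨a, ha, rfl⟩ := hB hb
      exact ⟨a, mem_inf.mpr ⟨ha, hb⟩, rfl⟩
    rw [← hBm]
    have h := hbo.1 (A ⊓ B.comap f) inf_le_left
    show _ * Nat.card ↥(fx (V.map f) _) ≤ _ * Nat.card ↥(fx (V.map f) _)
    rwa [fx_map_inj f hf, fx_map_inj f hf, card_map_of_injective hf, card_map_of_injective hf,
      card_map_of_injective hf, card_map_of_injective hf]
  · rw [commutatorElement_eq_one_iff_mul_comm.mpr (ea_comm hEA ha hb).eq]
    exact one_mem _

theorem map_char_normal {K : Type u} [Group K] (f : K →* G) (hf : Function.Injective f)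
    [f.range.Normal] (A : Subgroup K) [hA : A.Characteristic] : (A.map f).Normal := by
  let e : K ≃* f.range := MonoidHom.ofInjective hf
  have hc : (A.map e.toMonoidHom).Characteristic := by
    rw [characteristic_iff_map_le]
    intro σ
    rintro _ ⟨_, ⟨a, ha, rfl⟩, rfl⟩
    have h1 := (characteristic_iff_map_le.mp hA) ((e.trans σ).trans e.symm) ⟨a, ha, rfl⟩
    exact ⟨e.symm (σ (e a)), h1, e.apply_symm_apply _⟩
  have h := map_subtype_normal_of_characteristic (N := f.range) inferInstance hc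
  rwa [Subgroup.map_map] at h

theorem not_dvd_relIndex_inf {P R R' : Subgroup G} (hP : P ≤ R') (hR : R ≤ R')
    (hn : R' ≤ normalizer (R : Set G)) (h : ¬ p ∣ P.relIndex R') :
    ¬ p ∣ (P ⊓ R).relIndex R := by
  refine fun hd => h (hd.trans ?_)
  have h1 := card_sup_mul_card_inf (A := P) (K := R) (hP.trans hn)
  have h2 := card_mul_relIndex (inf_le_right : P ⊓ R ≤ R)
  have h3 := card_mul_relIndex (le_sup_left : P ≤ P ⊔ R)
  have e : (P ⊓ R).relIndex R = P.relIndex (P ⊔ R) := by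
    refine Nat.eq_of_mul_eq_mul_left (Nat.mul_pos (Nat.card_pos (α := P))
      (Nat.card_pos (α := ↥(P ⊓ R)))) ?_
    calc Nat.card P * Nat.card ↥(P ⊓ R) * (P ⊓ R).relIndex R
        = Nat.card P * (Nat.card ↥(P ⊓ R) * (P ⊓ R).relIndex R) := by ring
      _ = Nat.card ↥(P ⊔ R) * Nat.card ↥(P ⊓ R) := by rw [h2, h1]
      _ = _ := by rw [← h3]; ring
  rw [e, ← relIndex_mul_relIndex P (P ⊔ R) R' le_sup_left (sup_le hP hR)]
  exact dvd_mul_right _ _

theorem card_modEq_fixed {q : ℕ} [Fact q.Prime] {Y W : Subgroup G} (hY : IsPGroup q Y)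
    (hn : Y ≤ normalizer (W : Set G)) :
    Nat.card W ≡ Nat.card ↥(W ⊓ centralizer (Y : Set G)) [MOD q] := by
  letI : MulAction Y W :=
    { smul := fun y w => ⟨(y : G) * w * (y : G)⁻¹, conj_mem_of_le_normalizer hn y.2 w.2⟩
      one_smul := fun w => Subtype.ext (show (1 : G) * w * (1 : G)⁻¹ = w by simp)
      mul_smul := fun a b w => Subtype.ext
        (show ((a * b : Y) : G) * w * ((a * b : Y) : G)⁻¹ = a * (b * w * (b : G)⁻¹) * (a : G)⁻¹ by
          rw [Subgroup.coe_mul]; group) }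
  refine (hY.card_modEq_card_fixedPoints W).trans ?_
  rw [Nat.card_congr (α := MulAction.fixedPoints Y W) (β := ↥(W ⊓ centralizer (Y : Set G)))]
  exact
  { toFun := fun w => ⟨(w.1 : G), mem_inf.mpr ⟨w.1.2, mem_centralizer_iff.mpr fun y hy => by
      have h : y * (w.1 : G) * y⁻¹ = w.1 := congrArg Subtype.val (w.2 ⟨y, hy⟩)
      exact mul_inv_eq_iff_eq_mul.mp h⟩⟩
    invFun := fun w => ⟨⟨(w : G), (mem_inf.mp w.2).1⟩, fun y => Subtype.ext (by
      show (y : G) * (w : G) * (y : G)⁻¹ = w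
      rw [mem_centralizer_iff.mp (mem_inf.mp w.2).2 y y.2, mul_inv_cancel_right])⟩
    left_inv := fun w => rfl
    right_inv := fun w => rfl }

namespace Setup

variable {V H : Subgroup G} (S : Setup p V H)
include S

theorem line_conj {σ : G} (hV : σ ∈ normalizer (V : Set G)) (hH : σ ∈ normalizer (H : Set G))
    {L : Subgroup G} (hL : Line p V H L) :
    Line p V H (cj σ L) ∧ ext' p H (cj σ L) = cj σ (ext' p H L) ∧
      ⁅V, cj σ (ext' p H L)⁆ = cj σ ⁅V, ext' p H L⁆ := by
  have eV : V.map (MulAut.conj σ).toMonoidHom = V := mem_normalizer_iff_map_conj_eq.mp hV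
  have eH : H.map (MulAut.conj σ).toMonoidHom = H := mem_normalizer_iff_map_conj_eq.mp hH
  have eK : (core p H).map (MulAut.conj σ).toMonoidHom = core p H := by
    refine CfsgLib.Core.eq_of_le_of_card_le ?_ (by
      rw [card_map_of_injective (f := (MulAut.conj σ).toMonoidHom) (MulAut.conj σ).injective])
    rintro _ ⟨k, hk, rfl⟩
    obtain ⟨k', hk', rfl⟩ := hk
    let a : H →* H :=
      { toFun := fun h => ⟨σ * h * σ⁻¹, (Subgroup.mem_normalizer_iff.mp hH h).mp h.2⟩
        map_one' := Subtype.ext (by simp)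
        map_mul' := fun x y => Subtype.ext (by simp [mul_assoc]) }
    have ha : Function.Surjective a := Finite.surjective_of_injective fun x y h => Subtype.ext
      (mul_left_cancel (mul_right_cancel (congrArg Subtype.val h : σ * (x : G) * σ⁻¹ = σ * y * σ⁻¹)))
    exact ⟨a k', map_pPrimeCore_le_of_surjective p a ha ⟨k', hk', rfl⟩, rfl⟩
  refine ⟨⟨(map_mono hL.1).trans eH.le, ?_, ?_⟩, ?_, ?_⟩
  · rw [card_map_of_injective (f := (MulAut.conj σ).toMonoidHom) (MulAut.conj σ).injective]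
    exact hL.2.1
  · have := fx_map_inj (MulAut.conj σ).toMonoidHom (MulAut.conj σ).injective V L
    rw [eV] at this
    rw [this, card_map_of_injective (f := (MulAut.conj σ).toMonoidHom) (MulAut.conj σ).injective]
    exact hL.2.2
  · rw [ext', ext', cj, cj, Subgroup.map_sup, Subgroup.map_commutator, eK]
  · rw [cj, cj, Subgroup.map_commutator, eV]

theorem two_three_dvd {L : Subgroup G} (hL : Line p V H L) :
    2 ∣ Nat.card (ext' p H L) ∧ 3 ∣ Nat.card (ext' p H L) ∧
      ¬ p ^ 2 ∣ Nat.card (ext' p H L) ∧ p ∣ Nat.card (ext' p H L) := by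
  obtain ⟨-, -, -, -, ⟨e⟩, -⟩ := S.line_struct hL
  rw [Nat.card_congr e.toEquiv, CfsgLib.Classical.Two.card_sl_two, ZMod.card]
  rcases S.prime_eq hL with rfl | rfl <;> norm_num

theorem operator_cases {q : ℕ} [Fact q.Prime] (hq : ¬ q ∣ Nat.card H) {L : Subgroup G}
    (hL : Line p V H L) {σ : G} (hσq : ∃ n, σ ^ q ^ n = 1) (hV : σ ∈ normalizer (V : Set G))
    (hH : σ ∈ normalizer (H : Set G)) :
    (cj σ (ext' p H L) = ext' p H L ∧ (∀ e ∈ ext' p H L, σ * e * σ⁻¹ = e) ∧
      ∀ w ∈ ⁅V, ext' p H L⁆, σ * w * σ⁻¹ = w) ∨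
    (cj σ (ext' p H L) ≠ ext' p H L ∧ cj σ (ext' p H L) ≤ centralizer (ext' p H L : Set G) ∧
      cj σ (ext' p H L) ≤ centralizer ((⁅V, ext' p H L⁆ : Subgroup G) : Set G) ∧
      cj σ ⁅V, ext' p H L⁆ ≤ fx V (ext' p H L)) := by
  set E := ext' p H L with hE
  set W := ⁅V, E⁆ with hW
  obtain ⟨hM, hext, hplane⟩ := S.line_conj hV hH hL
  by_cases heq : cj σ E = E
  swap
  · right
    rcases S.dichotomy hL hM with h | ⟨h1, h2, -, h4⟩
    · exact absurd (hext.symm.trans h) heq
    · rw [hext] at h1 h2 h4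
      exact ⟨heq, h1, h2, hplane ▸ h4⟩
  left
  have hcW : Nat.card W = p ^ 2 := (S.line_struct hL).1
  have hf := (S.line_struct hL).2.2.2.1
  have hσW : σ ∈ normalizer (W : Set G) := mem_normalizer_iff_map_conj_eq.mpr (by
    show cj σ W = W
    rw [hW, ← hplane, heq])
  obtain ⟨n, hn⟩ := hσq
  have hY : IsPGroup q (zpowers σ) := by
    obtain ⟨k, -, hk⟩ := (Nat.dvd_prime_pow (Fact.out : q.Prime)).mp (orderOf_dvd_of_pow_eq_one hn)
    exact IsPGroup.of_card (n := k) (by rw [Nat.card_zpowers, hk])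
  have hmod := card_modEq_fixed hY (zpowers_le.mpr hσW)
  obtain ⟨h2, h3, -, -⟩ := S.two_three_dvd hL
  have hEH : Nat.card E ∣ Nat.card H := card_dvd_of_le (S.ext_le hL)
  have hq5 : 5 ≤ q := by
    have hq2 : q ≠ 2 := fun e => hq (e ▸ h2.trans hEH)
    have hq3 : q ≠ 3 := fun e => hq (e ▸ h3.trans hEH)
    have hq4 : q ≠ 4 := fun e => absurd (e ▸ (Fact.out : q.Prime)) (by norm_num)
    have := (Fact.out : q.Prime).two_le
    omega
  have hfix : W ⊓ centralizer (zpowers σ : Set G) = W := by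
    refine CfsgLib.Core.eq_of_le_of_card_le inf_le_left ?_
    obtain ⟨j, hj, hj'⟩ := (Nat.dvd_prime_pow hp.out).mp
      (hcW ▸ card_dvd_of_le (inf_le_left : W ⊓ centralizer (zpowers σ : Set G) ≤ W))
    rw [hcW, hj']
    by_contra hlt
    rw [hcW, hj'] at hmod
    have hjlt : j < 2 := by
      by_contra h
      exact hlt (Nat.pow_le_pow_right hp.out.pos (by omega))
    have hd := (Nat.modEq_iff_dvd' (Nat.pow_le_pow_right hp.out.pos (by omega))).mp hmod.symm
    have hpos : 0 < p ^ 2 - p ^ j :=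
      Nat.sub_pos_of_lt (Nat.pow_lt_pow_right hp.out.one_lt hjlt)
    have hle := Nat.le_of_dvd hpos hd
    obtain ⟨c, hc⟩ := hd
    rcases S.prime_eq hL with rfl | rfl <;> interval_cases j <;> norm_num at hc hle
    all_goals first
      | omega
      | (have hc2 : c = 1 ∨ 2 ≤ c := by
          rcases Nat.eq_zero_or_pos c with rfl | h
          · simp at hc
          · omega
         rcases hc2 with rfl | h
         · norm_num at hc
           exact absurd (hc ▸ (Fact.out : q.Prime)) (by norm_num)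
         · nlinarith)
  have hσw : ∀ w ∈ W, σ * w = w * σ := fun w hw =>
    mem_centralizer_iff.mp (mem_inf.mp (hfix.ge hw)).2 σ (mem_zpowers σ)
  refine ⟨heq, fun e he => ?_, fun w hw => by rw [hσw w hw, mul_inv_cancel_right]⟩
  have hmem : ⁅e, σ⁆ ∈ E ⊓ centralizer (W : Set G) := by
    refine mem_inf.mpr ⟨?_, mem_centralizer_iff.mpr fun w hw => (commutator_fixes
      (le_normalizer_commutator_right _ _ he) hσw w hw).symm⟩
    have := mul_mem he (heq.le (mem_map_of_mem (MulAut.conj σ).toMonoidHom (inv_mem he)))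
    simpa [commutatorElement_def, mul_assoc] using this
  rw [hf, mem_bot, commutatorElement_eq_one_iff_mul_comm] at hmem
  rw [← hmem, mul_inv_cancel_right]

theorem orbit_elem {q : ℕ} [Fact q.Prime] (hq : ¬ q ∣ Nat.card H) {L : Subgroup G}
    (hL : Line p V H L) (Y : Subgroup G) (hYq : IsPGroup q Y)
    (hYV : Y ≤ normalizer (V : Set G)) (hYH : Y ≤ normalizer (H : Set G))
    {e : G} (he : e ∈ ext' p H L) :
    ∃ c ∈ H, (∀ y ∈ Y, y * c * y⁻¹ = c) ∧ (∀ f ∈ ext' p H L, c * f * c⁻¹ = e * f * e⁻¹) ∧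
      ∀ w ∈ ⁅V, ext' p H L⁆, c * w * c⁻¹ = e * w * e⁻¹ := by
  classical
  letI := Fintype.ofFinite Y
  set E := ext' p H L with hE
  set W := ⁅V, E⁆ with hW
  have hcases : ∀ y : Y, _ := fun y : Y =>
    S.operator_cases hq hL (σ := (y : G)) (by
      obtain ⟨n, hn⟩ := hYq y
      exact ⟨n, congrArg Subtype.val hn⟩) (hYV y.2) (hYH y.2)
  -- the stabilizer of `E`
  set m := (Finset.univ.filter fun y : Y => cj (y : G) E = E).card with hm
  have hmcop : m.Coprime (Nat.card E) := by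
    have hmq : m = Nat.card ↥((normalizer (E : Set G)).subgroupOf Y) := by
      rw [hm, Nat.card_eq_fintype_card, Fintype.card_subtype]
      congr 1
      ext y
      simp only [Finset.mem_filter, Finset.mem_univ, true_and, mem_subgroupOf]
      exact mem_normalizer_iff_map_conj_eq.symm
    obtain ⟨k, hk⟩ := IsPGroup.iff_card.mp (hYq.to_subgroup ((normalizer (E : Set G)).subgroupOf Y))
    rw [hmq, hk]
    refine Nat.Coprime.pow_left k ?_
    exact (Nat.Prime.coprime_iff_not_dvd Fact.out).mpr fun h =>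
      hq (h.trans (card_dvd_of_le (S.ext_le hL)))
  obtain ⟨e₀, he₀⟩ : ∃ e₀ : E, e₀ ^ m = ⟨e, he⟩ :=
    ⟨_, (powCoprime (G := E) hmcop.symm).apply_symm_apply ⟨e, he⟩⟩
  -- the orbit
  let t : Y → G := fun y => (y : G) * (e₀ : G) * (y : G)⁻¹
  have htH : ∀ y, t y ∈ H := fun y =>
    (Subgroup.mem_normalizer_iff.mp (hYH y.2) _).mp (S.ext_le hL e₀.2)
  have hcent : ∀ y : Y, cj (y : G) E ≠ E → t y ∈ centralizer (E : Set G) ∧
      t y ∈ centralizer (W : Set G) := fun y hy => by
    rcases hcases y with ⟨h, -⟩ | ⟨-, h1, h2, -⟩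
    · exact absurd h hy
    · exact ⟨h1 ⟨e₀, e₀.2, rfl⟩, h2 ⟨e₀, e₀.2, rfl⟩⟩
  have hfix : ∀ y : Y, cj (y : G) E = E → t y = (e₀ : G) := fun y hy => by
    rcases hcases y with ⟨-, h1, -⟩ | ⟨h, -⟩
    · exact h1 _ e₀.2
    · exact absurd hy h
  have hcomm : ∀ y z : Y, Commute (t y) (t z) := by
    intro y z
    set u : Y := y⁻¹ * z with hu
    have h0 : Commute (e₀ : G) (t u) := by
      by_cases h : cj (u : G) E = E
      · rw [hfix u h]
      · exact mem_centralizer_iff.mp (hcent u h).1 _ e₀.2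
    have e1 : t z = MulAut.conj (y : G) (t u) := by
      simp only [t, hu, MulAut.conj_apply, Subgroup.coe_mul, Subgroup.coe_inv]; group
    rw [e1]
    exact h0.map (MulAut.conj (y : G)).toMonoidHom
  set A := closure (Set.range t) with hA
  haveI : IsMulCommutative A := Subgroup.isMulCommutative_closure fun a ha b hb => by
    obtain ⟨y, rfl⟩ := ha
    obtain ⟨z, rfl⟩ := hb
    exact (hcomm y z).eq
  let T : Y → A := fun y => ⟨t y, subset_closure ⟨y, rfl⟩⟩
  have hAH : A ≤ H := (closure_le H).mpr (by rintro _ ⟨y, rfl⟩; exact htH y)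
  refine ⟨((∏ y, T y : A) : G), hAH (∏ y, T y : A).2, fun x hx => ?_, ?_⟩
  · have hconjA : ∀ a ∈ A, x * a * x⁻¹ ∈ A := by
      intro a ha
      have hle : A ≤ A.comap (MulAut.conj x).toMonoidHom := by
        refine (closure_le _).mpr ?_
        rintro _ ⟨y, rfl⟩
        refine subset_closure ⟨⟨x, hx⟩ * y, ?_⟩
        show x * (y : G) * (e₀ : G) * (x * (y : G))⁻¹ = x * t y * x⁻¹
        simp only [t]; group
      exact hle ha
    let κ : A →* A :=
      { toFun := fun a => ⟨x * a * x⁻¹, hconjA a a.2⟩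
        map_one' := Subtype.ext (by simp)
        map_mul' := fun a b => Subtype.ext (by simp [mul_assoc]) }
    show ((κ (∏ y, T y) : A) : G) = _
    rw [map_prod]
    congr 1
    refine Fintype.prod_equiv (Equiv.mulLeft ⟨x, hx⟩) _ _ fun y => Subtype.ext ?_
    show x * ((y : G) * (e₀ : G) * (y : G)⁻¹) * x⁻¹ =
      x * (y : G) * (e₀ : G) * (x * (y : G))⁻¹
    group
  · have key : ∀ (U : Subgroup G), E ≤ normalizer (U : Set G) →
        (∀ y : Y, cj (y : G) E ≠ E → ∀ f ∈ U, t y * f * (t y)⁻¹ = f) →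
        ∀ f ∈ U, ((∏ y, T y : A) : G) * f * ((∏ y, T y : A) : G)⁻¹ = e * f * e⁻¹ := by
      intro U hU hother
      suffices h : ∀ s : Finset Y, ∀ f ∈ U, ((∏ y ∈ s, T y : A) : G) * f *
          ((∏ y ∈ s, T y : A) : G)⁻¹ =
          (e₀ : G) ^ (s.filter fun y : Y => cj (y : G) E = E).card * f *
            ((e₀ : G) ^ (s.filter fun y : Y => cj (y : G) E = E).card)⁻¹ by
        intro f hf
        rw [h Finset.univ f hf, ← hm, ← SubmonoidClass.coe_pow, he₀]
      intro s
      induction s using Finset.induction_on with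
      | empty => intro f _; simp
      | @insert y s hys ih =>
        intro f hf
        set k := (s.filter fun y : Y => cj (y : G) E = E).card with hk
        have hf' : (e₀ : G) ^ k * f * ((e₀ : G) ^ k)⁻¹ ∈ U :=
          conj_mem_of_le_normalizer hU (pow_mem e₀.2 k) hf
        rw [Finset.prod_insert hys, Subgroup.coe_mul]
        calc t y * ((∏ z ∈ s, T z : A) : G) * f * (t y * ((∏ z ∈ s, T z : A) : G))⁻¹
            = t y * (((∏ z ∈ s, T z : A) : G) * f * ((∏ z ∈ s, T z : A) : G)⁻¹) * (t y)⁻¹ := by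
              group
          _ = t y * ((e₀ : G) ^ k * f * ((e₀ : G) ^ k)⁻¹) * (t y)⁻¹ := by rw [ih f hf]
          _ = _ := by
              by_cases h : cj (y : G) E = E
              · rw [Finset.filter_insert, if_pos h, Finset.card_insert_of_notMem
                  (fun h' => hys (Finset.mem_filter.mp h').1), hfix y h, pow_succ', ← hk]
                group
              · rw [Finset.filter_insert, if_neg h, ← hk, hother y h _ hf']
    refine ⟨fun f hf => key E le_normalizer (fun y hy g hg => ?_) f hf,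
      fun w hw => key W (le_normalizer_commutator_right _ _) (fun y hy g hg => ?_) w hw⟩
    · rw [← mem_centralizer_iff.mp (hcent y hy).1 g hg, mul_inv_cancel_right]
    · rw [← mem_centralizer_iff.mp (hcent y hy).2 g hg, mul_inv_cancel_right]

end Setup

/-- The data shared by both theorems on coprime operators. -/
theorem operator_setup {K₀ : Type u} [Group K₀] [Finite K₀] (f : K₀ →* G)
    (hf : Function.Injective f) [f.range.Normal] (hsep : Cfsg.IsPSolvable p K₀)
    (hO : Cfsg.pPrimeCore p K₀ = ⊥) (V₀ : Subgroup K₀)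
    (hV₀ : V₀ = ⨆ S : Sylow p K₀, CfsgLib.LocalFactor.Zc p (S : Subgroup K₀)) :
    ∃ (_ : (V₀.map f).Normal) (Γ : Type u) (_ : Group Γ) (_ : Finite Γ) (M : Model (V₀.map f) Γ),
      Setup p M.ι.range (((Cfsg.thompsonSubgroup p K₀).map f).map M.ψ) ∧
      (((Cfsg.thompsonSubgroup p K₀).map f).map M.ψ =
        ⨆ A : {A : Subgroup Γ // A ≤ ((Cfsg.thompsonSubgroup p K₀).map f).map M.ψ ∧
          Cfsg.IsBestOffenderOn p M.ι.range A}, (A : Subgroup Γ)) ∧
      M.ψ.range ≤ normalizer ((((Cfsg.thompsonSubgroup p K₀).map f).map M.ψ : Subgroup Γ) : Set Γ) ∧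
      (M.ψ.comp f).ker = centralizer (V₀ : Set K₀) := by
  obtain ⟨-, hV, -⟩ :=
    omega_center_closure (centralizer_pCore_le_of_isPSolvable hsep hO) V₀ hV₀
  haveI hchar : V₀.Characteristic := by
    rw [characteristic_iff_map_le]
    intro σ
    rw [hV₀, Subgroup.map_iSup]
    refine iSup_le fun T => le_iSup_of_le (T.mapSurjective (f := σ.toMonoidHom) σ.surjective) ?_
    rw [← CfsgLib.LocalFactor.Zc_map _ _ σ.injective.injOn]
    exact le_rfl
  haveI hJc := thompson_characteristic (G := K₀) (p := p)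
  haveI hVn := map_char_normal f hf V₀
  haveI hJn := map_char_normal f hf (Cfsg.thompsonSubgroup p K₀)
  refine ⟨hVn, ?_⟩
  obtain ⟨Γ, i1, i2, ⟨M⟩⟩ := exists_model (V₀.map f)
  have hkerC : (M.ψ.comp f).ker = centralizer (V₀ : Set K₀) := by
    rw [← MonoidHom.comap_ker, M.ker_ψ]
    ext k
    rw [mem_comap, mem_centralizer_iff, mem_centralizer_iff]
    constructor
    · intro h v hv
      exact hf (by rw [map_mul, map_mul]; exact h _ ⟨v, hv, rfl⟩)
    · rintro h _ ⟨v, hv, rfl⟩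
      rw [← map_mul, ← map_mul, h v hv]
  set J := (Cfsg.thompsonSubgroup p K₀).map f with hJ
  have hHn : M.ψ.range ≤ normalizer ((J.map M.ψ : Subgroup Γ) : Set Γ) := by
    refine CfsgLib.Core.le_normalizer_iff_forall.mpr ?_
    rintro _ ⟨x, rfl⟩ _ ⟨j, hj, rfl⟩
    exact ⟨x * j * x⁻¹, hJn.conj_mem j hj x, by simp⟩
  refine ⟨Γ, i1, i2, M, ?_, ?_, hHn, hkerC⟩
  · have hr : Cfsg.pCore p (M.ψ.comp f).range = ⊥ := by
      have hgen : V₀ = ⨆ S : Sylow p K₀, V₀ ⊓ centralizer ((S : Subgroup K₀) : Set K₀) := by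
        refine le_antisymm ?_ (iSup_le fun S => inf_le_left)
        calc V₀ = ⨆ S : Sylow p K₀, CfsgLib.LocalFactor.Zc p (S : Subgroup K₀) := hV₀
          _ ≤ _ := iSup_mono fun S => le_inf
            (hV₀ ▸ le_iSup (fun S : Sylow p K₀ => CfsgLib.LocalFactor.Zc p (S : Subgroup K₀)) S)
            (CfsgLib.LocalFactor.Zc_le_centralizer _)
      haveI : V₀.Normal := inferInstance
      rw [← map_pCore_of_mulEquiv p ((QuotientGroup.quotientMulEquivOfEq hkerC.symm).trans
        (QuotientGroup.quotientKerEquivRange (M.ψ.comp f))), pCore_quotient_eq_bot V₀ hgen,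
        Subgroup.map_bot]
    have hle : J.map M.ψ ≤ (M.ψ.comp f).range := by
      rw [hJ, Subgroup.map_map]
      exact map_le_range _ _
    have hle' : J.map M.ψ ≤ M.ψ.range := map_le_range _ _
    refine ⟨M.isEA (isEA_map f hV), hle'.trans M.range_le_normalizer,
      eq_bot_iff.mpr ((inf_le_inf_right _ hle').trans M.faith.le), centralizer_pPrimeCore_le ?_ ?_⟩
    · exact isPSolvable_of_surjective (subgroupOfEquivOfLe hle).toMonoidHom
        (subgroupOfEquivOfLe hle).surjective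
        (isPSolvable_subgroup (isPSolvable_of_surjective (M.ψ.comp f).rangeRestrict
          (M.ψ.comp f).rangeRestrict_surjective hsep) _)
    · exact pCore_eq_bot_of_normal hle ((MonoidHom.range_comp M.ψ f).le.trans
        ((map_le_range _ _).trans hHn)) hr
  · refine le_antisymm ?_ (iSup_le fun A => A.2.1)
    rw [map_le_iff_le_comap, hJ, map_le_iff_le_comap]
    refine sSup_le fun A hA => map_le_iff_le_comap.mp (map_le_iff_le_comap.mp ?_)
    exact le_iSup_of_le ⟨(A.map f).map M.ψ, map_mono (map_mono (le_sSup hA)),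
      M.bo_map (isEA_map f hA.1) (bo_map_inj f hf hA.1 (bestOffender_of_max V₀ hV hA))⟩ le_rfl

theorem lift_fixed {K₀ : Type u} [Group K₀] [Finite K₀] (f : K₀ →* G) [f.range.Normal]
    {X : Subgroup G} (hsolv : Group.IsSolvable X) (hcop : (Nat.card X).Coprime (Nat.card f.range))
    {Γ : Type u} [Group Γ] (ψ : G →* Γ) {k : K₀}
    (hfix : ∀ x ∈ X, ψ x * ψ (f k) * (ψ x)⁻¹ = ψ (f k)) :
    ∃ d : K₀, f d ∈ centralizer (X : Set G) ∧ ψ (f d) = ψ (f k) := by
  obtain ⟨c, hc, hcN⟩ := exists_fixed_of_fixed_mod (A := X) (K := f.range) (N := f.range ⊓ ψ.ker)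
    le_normalizer_of_normal (CfsgLib.Core.inf_eq_bot_of_coprime hcop) inf_le_left
    le_normalizer_of_normal le_normalizer_of_normal
    (hcop.coprime_dvd_right (card_dvd_of_le inf_le_left)) (Or.inl hsolv) (k := f k) ⟨k, rfl⟩
    (fun x hx => mem_inf.mpr ⟨mul_mem
      (Normal.conj_mem inferInstance _ (show f k ∈ f.range from ⟨k, rfl⟩) x)
      (inv_mem (show f k ∈ f.range from ⟨k, rfl⟩)), by
        rw [MonoidHom.mem_ker, map_mul, map_mul, map_mul, map_inv, map_inv, hfix x hx,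
          mul_inv_cancel]⟩)
  obtain ⟨hcr, hcX⟩ := mem_inf.mp hc
  obtain ⟨d, rfl⟩ := hcr
  refine ⟨d, hcX, ?_⟩
  have h := (mem_inf.mp hcN).2
  rw [MonoidHom.mem_ker, map_mul, map_inv, inv_mul_eq_one] at h
  exact h.symm

theorem thompsonOf_inf {S : Sylow p G} {N : Subgroup G}
    (hN : Cfsg.thompsonSubgroupOf p (S : Subgroup G) ≤ N) :
    Cfsg.thompsonSubgroupOf p ((S : Subgroup G) ⊓ N) =
      Cfsg.thompsonSubgroupOf p (S : Subgroup G) := by
  have hmem : ∀ A : Subgroup G, (A ≤ (S : Subgroup G) ∧ Cfsg.IsElementaryAbelian p A ∧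
      ∀ D : Subgroup G, D ≤ (S : Subgroup G) → Cfsg.IsElementaryAbelian p D →
        Nat.card D ≤ Nat.card A) → A ≤ (S : Subgroup G) ⊓ N := fun A hA =>
    le_inf hA.1 (le_trans (by rw [thompsonOf_eq]; exact le_sSup hA) hN)
  obtain ⟨B₀, hB₀⟩ := exists_max (G := (S : Subgroup G)) (p := p)
  obtain ⟨hA₁, hA₂, hA₃⟩ := (map_max_iff (S : Subgroup G)).mp ⟨B₀, hB₀, rfl⟩
  rw [thompsonOf_eq, thompsonOf_eq]
  refine le_antisymm (sSup_le fun A hA => le_sSup ⟨hA.1.trans inf_le_left, hA.2.1, fun D hD hDe =>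
    (hA₃ D hD hDe).trans (hA.2.2 _ (hmem _ ⟨hA₁, hA₂, hA₃⟩) hA₂)⟩) (sSup_le fun A hA => ?_)
  exact le_sSup ⟨hmem A hA, hA.2.1, fun D hD hDe => hA.2.2 D (hD.trans inf_le_left) hDe⟩

theorem generation {K₀ : Type u} [Group K₀] [Finite K₀] (f : K₀ →* G)
    (hf : Function.Injective f) [f.range.Normal] {q : ℕ} [Fact q.Prime] (X : Subgroup G)
    (hX : Cfsg.IsElementaryAbelian q X) (hq : ¬ q ∣ Nat.card K₀)
    (hsep : Cfsg.IsPSolvable p K₀) (hO : Cfsg.pPrimeCore p K₀ = ⊥) (P : Sylow p K₀) :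
    normalizer (Cfsg.thompsonSubgroupOf p (P : Subgroup K₀) : Set K₀) ⊔
      centralizer (CfsgLib.LocalFactor.Zc p (P : Subgroup K₀) : Set K₀) ⊔
      (centralizer (X : Set G)).comap f = ⊤ := by
  obtain ⟨hVn, Γ, _, _, M, S, hS3, hHn, hker⟩ := operator_setup f hf hsep hO
    (⨆ S : Sylow p K₀, CfsgLib.LocalFactor.Zc p (S : Subgroup K₀)) rfl
  set J := Cfsg.thompsonSubgroup p K₀ with hJ
  set H := (J.map f).map M.ψ with hH
  set Mh := normalizer (Cfsg.thompsonSubgroupOf p (P : Subgroup K₀) : Set K₀) ⊔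
      centralizer (CfsgLib.LocalFactor.Zc p (P : Subgroup K₀) : Set K₀) ⊔
      (centralizer (X : Set G)).comap f with hMh
  set φ := M.ψ.comp f with hφ
  have hCM : φ.ker ≤ Mh := by
    rw [hker]
    exact le_trans (centralizer_le
      (le_iSup (fun T : Sylow p K₀ => CfsgLib.LocalFactor.Zc p (T : Subgroup K₀)) P))
      (le_sup_right.trans le_sup_left)
  have hPM : (P : Subgroup K₀) ≤ Mh :=
    (le_normalizer.trans (CfsgLib.LocalFactor.normalizer_le_normalizer_thompsonOf _)).trans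
      (le_sup_left.trans le_sup_left)
  have hqX : IsPGroup q X := isPGroup_of_pow hX.2
  have hcop : (Nat.card X).Coprime (Nat.card f.range) := by
    obtain ⟨n, hn⟩ := IsPGroup.iff_card.mp hqX
    rw [hn, ← Nat.card_congr (MonoidHom.ofInjective hf).toEquiv]
    exact ((Nat.Prime.coprime_iff_not_dvd Fact.out).mpr hq).pow_left n
  have hsolv : Group.IsSolvable X := by
    haveI : Group.IsNilpotent X := hqX.isNilpotent
    infer_instance
  have hHJ : H = J.map φ := Subgroup.map_map _ _ _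
  have hqH : ¬ q ∣ Nat.card H := fun h => hq (h.trans (by
    rw [hHJ]; exact (Subgroup.card_map_dvd _ _).trans (Subgroup.card_subgroup_dvd_card _)))
  -- the structure lies in the image
  have hHM : H ≤ Mh.map φ := by
    rw [hS3]
    refine iSup_le fun ⟨A, hA, hbo⟩ => ?_
    show A ≤ _
    rw [S.off_eq_sSup (S.off_of_bo hA hbo)]
    refine sSup_le fun L hL => le_trans le_sup_right (?_ : ext' p H L ≤ _)
    obtain ⟨hL, -⟩ := hL
    set E := ext' p H L with hE
    set U := E ⊓ Mh.map φ with hU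
    have hUn : E ≤ normalizer (U : Set Γ) := by
      refine CfsgLib.Core.le_normalizer_iff_forall.mpr fun e he u hu => ?_
      refine mem_inf.mpr ⟨mul_mem (mul_mem he (mem_inf.mp hu).1) (inv_mem he), ?_⟩
      obtain ⟨c, hc, hcX, hcE, -⟩ := S.orbit_elem hqH hL (X.map M.ψ) (hqX.map _)
        ((map_le_range _ _).trans M.range_le_normalizer) ((map_le_range _ _).trans hHn) he
      obtain ⟨k, -, rfl⟩ := hHJ.le hc
      obtain ⟨d, hd, hdk⟩ := lift_fixed f hsolv hcop M.ψ (k := k)
        (fun x hx => hcX _ ⟨x, hx, rfl⟩)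
      have hck : φ k ∈ Mh.map φ := ⟨d, mem_sup_right hd, hdk⟩
      rw [← hcE u (mem_inf.mp hu).1]
      exact mul_mem (mul_mem hck (mem_inf.mp hu).2) (inv_mem hck)
    obtain ⟨-, -, hp2, hpE⟩ := S.two_three_dvd hL
    have hPsyl : ¬ p ∣ ((P : Subgroup K₀).map φ).relIndex φ.range := by
      intro h
      have h1 : ((P : Subgroup K₀).map φ).relIndex φ.range ∣ (P : Subgroup K₀).index := by
        rw [MonoidHom.range_eq_map, relIndex_map_map, top_sup_eq, relIndex_top_right]
        exact index_dvd_of_le le_sup_left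
      exact P.not_dvd_index (h.trans h1)
    have h1 := not_dvd_relIndex_inf (p := p) (R := H) (map_le_range φ (P : Subgroup K₀))
      (hHJ ▸ map_le_range φ J) ((MonoidHom.range_comp M.ψ f).le.trans ((map_le_range _ _).trans hHn))
      hPsyl
    have h2 := not_dvd_relIndex_inf (p := p) (R := E) (inf_le_right : _ ⊓ H ≤ H) (S.ext_le hL)
      (S.direct_factor hS3 hL).2.2.2.2 h1
    have hpU : p ∣ Nat.card U := by
      refine Dvd.dvd.trans ?_ (card_dvd_of_le (le_inf inf_le_right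
        ((inf_le_left.trans inf_le_left).trans (map_mono hPM)) :
          (P : Subgroup K₀).map φ ⊓ H ⊓ E ≤ U))
      have := card_mul_relIndex (inf_le_right : (P : Subgroup K₀).map φ ⊓ H ⊓ E ≤ E)
      rw [← this] at hpE
      exact (hp.out.dvd_mul.mp hpE).resolve_right h2
    have hlines : ∀ L' : Subgroup Γ, L' ≤ E → Nat.card L' = p → L' ≤ U := by
      intro L' hL' hc'
      by_contra hnle
      refine hp2 ?_
      refine Dvd.dvd.trans ?_ (card_dvd_of_le (sup_le hL' inf_le_left : L' ⊔ U ≤ E))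
      rw [card_sup_of_disjoint (hL'.trans hUn) (inf_eq_bot_of_prime hc' hnle), hc', sq]
      exact Nat.mul_dvd_mul_left p hpU
    obtain ⟨x, hx, hxL⟩ := S.exists_noncomm hL
    have hEU : E ≤ U := (S.ext_eq hL hx hxL).le.trans (sup_le (hlines L le_sup_right hL.2.1)
      (hlines _ (S.cj_le_ext hL hx) (S.line_cj hL (core_le hx)).2.1))
    exact hEU.trans inf_le_right
  have hJM : J ⊔ φ.ker ≤ Mh := by
    refine sup_le (fun j hj => ?_) hCM
    obtain ⟨m, hm, hmj⟩ := hHM (hHJ.ge (⟨j, hj, rfl⟩ : φ j ∈ J.map φ))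
    have : m⁻¹ * j ∈ φ.ker := by
      rw [MonoidHom.mem_ker, map_mul, map_inv, hmj, inv_mul_cancel]
    have := mul_mem hm (hCM this)
    rwa [mul_inv_cancel_left] at this
  haveI : J.Characteristic := thompson_characteristic
  haveI : φ.ker.Normal := inferInstance
  set N := J ⊔ φ.ker with hN
  obtain ⟨Q, hQ⟩ := CfsgLib.SylowProd.sylow_inf_normal N P
  have hmap : (Q : Subgroup N).map N.subtype = (P : Subgroup K₀) ⊓ N := by
    rw [hQ, map_subgroupOf_eq_of_le inf_le_right]
  have hJN : Cfsg.thompsonSubgroupOf p (P : Subgroup K₀) ≤ N := by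
    refine le_trans ?_ le_sup_left
    rw [hJ, thompson_eq_iSup]
    exact le_iSup (fun T : Sylow p K₀ => Cfsg.thompsonSubgroupOf p (T : Subgroup K₀)) P
  have htop := Sylow.normalizer_sup_eq_top Q
  rw [hmap] at htop
  refine eq_top_iff.mpr (htop ▸ sup_le ?_ hJM)
  refine (CfsgLib.LocalFactor.normalizer_le_normalizer_thompsonOf (p := p) _).trans ?_
  rw [thompsonOf_inf hJN]
  exact le_sup_left.trans le_sup_left

theorem fixed_sl_two {K₀ : Type u} [Group K₀] [Finite K₀] (f : K₀ →* G)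
    (hf : Function.Injective f) [f.range.Normal] {q : ℕ} [Fact q.Prime] (X : Subgroup G)
    (hX : Cfsg.IsElementaryAbelian q X) (hq : ¬ q ∣ Nat.card K₀)
    (hsep : Cfsg.IsPSolvable p K₀) (hO : Cfsg.pPrimeCore p K₀ = ⊥)
    (hnf : ¬ Cfsg.IsThompsonFactorizable p K₀) :
    (p = 2 ∨ p = 3) ∧ ∃ W D : Subgroup G, W ≤ f.range ⊓ centralizer (X : Set G) ∧
      D ≤ f.range ⊓ centralizer (X : Set G) ∧ Cfsg.IsElementaryAbelian p W ∧ Nat.card W = p ^ 2 ∧
      D ≤ normalizer (W : Set G) ∧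
      ∃ θ : D →* Matrix.SpecialLinearGroup (Fin 2) (ZMod p),
        Function.Surjective θ ∧ θ.ker = (centralizer (W : Set G)).subgroupOf D := by
  classical
  obtain ⟨hVn, Γ, _, _, M, S, hS3, hHn, hker⟩ := operator_setup f hf hsep hO
    (⨆ S : Sylow p K₀, CfsgLib.LocalFactor.Zc p (S : Subgroup K₀)) rfl
  set V₀ := ⨆ S : Sylow p K₀, CfsgLib.LocalFactor.Zc p (S : Subgroup K₀) with hV₀
  obtain ⟨-, hV₀e, -⟩ :=
    omega_center_closure (centralizer_pCore_le_of_isPSolvable hsep hO) V₀ hV₀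
  set V := V₀.map f with hV
  set J := Cfsg.thompsonSubgroup p K₀ with hJ
  set H := (J.map f).map M.ψ with hH
  have hHJ : H = J.map (M.ψ.comp f) := Subgroup.map_map _ _ _
  have hH1 : H ≠ ⊥ := fun e => hnf ((CfsgLib.LocalFactor.factorizable_iff hO).mpr (by
    rw [← hV₀, ← hker]
    exact (Subgroup.map_eq_bot_iff _).mp (hHJ ▸ e)))
  obtain ⟨⟨A, hA, hbo⟩, hA1⟩ : ∃ A : {A : Subgroup Γ // A ≤ H ∧
      Cfsg.IsBestOffenderOn p M.ι.range A}, (A : Subgroup Γ) ≠ ⊥ := by
    by_contra hcon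
    push Not at hcon
    exact hH1 (hS3.trans (by simp [hcon]))
  obtain ⟨L, hL, -⟩ := S.exists_line (S.off_of_bo hA hbo) hA1
  obtain ⟨hcW, hd, -, hfE, ⟨iso⟩, -⟩ := S.line_struct hL
  obtain ⟨-, hd0, hsup0, -, hHnE⟩ := S.direct_factor hS3 hL
  set E := ext' p H L with hE
  set W' := ⁅M.ι.range, E⁆ with hW'
  have hqX : IsPGroup q X := isPGroup_of_pow hX.2
  have hcop : (Nat.card X).Coprime (Nat.card f.range) := by
    obtain ⟨n, hn⟩ := IsPGroup.iff_card.mp hqX
    rw [hn, ← Nat.card_congr (MonoidHom.ofInjective hf).toEquiv]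
    exact ((Nat.Prime.coprime_iff_not_dvd Fact.out).mpr hq).pow_left n
  have hsolv : Group.IsSolvable X := by
    haveI : Group.IsNilpotent X := hqX.isNilpotent
    infer_instance
  have hqH : ¬ q ∣ Nat.card H := fun h => hq (h.trans (by
    rw [hHJ]; exact (Subgroup.card_map_dvd _ _).trans (Subgroup.card_subgroup_dvd_card _)))
  have hXq : ∀ x ∈ X, ∃ n, M.ψ x ^ q ^ n = 1 := fun x hx => ⟨1, by
    rw [pow_one, ← map_pow, hX.2 x hx, map_one]⟩
  have hcases : ∀ x : X, _ := fun x : X => S.operator_cases hqH hL (σ := M.ψ x) (hXq x x.2)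
    (M.range_le_normalizer ⟨_, rfl⟩) (hHn ⟨_, rfl⟩)
  haveI : IsMulCommutative V := (isEA_map f hV₀e).1
  letI := Fintype.ofFinite X
  set m := (Finset.univ.filter fun x : X => cj (M.ψ x) E = E).card with hm
  have hmcop : p.Coprime m := by
    have hmq : m = Nat.card ↥(((normalizer (E : Set Γ)).comap M.ψ).subgroupOf X) := by
      rw [hm, Nat.card_eq_fintype_card, Fintype.card_subtype]
      congr 1
      ext x
      simp only [Finset.mem_filter, Finset.mem_univ, true_and, mem_subgroupOf, mem_comap]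
      exact mem_normalizer_iff_map_conj_eq.symm
    obtain ⟨k, hk⟩ := IsPGroup.iff_card.mp
      (hqX.to_subgroup (((normalizer (E : Set Γ)).comap M.ψ).subgroupOf X))
    rw [hmq, hk]
    refine Nat.Coprime.pow_right k ((Nat.coprime_primes hp.out Fact.out).mpr fun e => hqH ?_)
    exact e ▸ (S.two_three_dvd hL).2.2.2.trans (card_dvd_of_le (S.ext_le hL))
  -- averaging over the operators
  let μ : V →* V :=
    { toFun := fun v => ∏ x : X, MulAut.conjNormal (x : G) v
      map_one' := Finset.prod_eq_one fun x _ => map_one _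
      map_mul' := fun v w => by
        rw [← Finset.prod_mul_distrib]
        exact Finset.prod_congr rfl fun x _ => map_mul _ v w }
  set W₁ : Subgroup V := W'.comap M.ι with hW₁
  have hW'V : W' ≤ M.ι.range := le_sup_left.trans (S.line_struct hL).2.2.1.le
  have hcW₁ : Nat.card W₁ = p ^ 2 := by
    rw [← hcW, ← map_comap_eq_self hW'V, card_map_of_injective M.ι_inj]
  have hμinj : ∀ w ∈ W₁, μ w = 1 → w = 1 := by
    intro w hw hμ
    have hwp : w ^ p = 1 := Subtype.ext ((isEA_map f hV₀e).2 w w.2)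
    have key : ∀ s : Finset X, M.ι ((w ^ (s.filter fun x : X => cj (M.ψ x) E = E).card)⁻¹ *
        ∏ x ∈ s, MulAut.conjNormal (x : G) w) ∈ fx M.ι.range E := by
      intro s
      induction s using Finset.induction_on with
      | empty => simp
      | @insert x s hxs ih =>
        rcases hcases x with ⟨heq, -, hw'⟩ | ⟨hne, -, -, hfix⟩
        · have e1 : MulAut.conjNormal (x : G) w = w := M.ι_inj (by rw [← M.conj]; exact hw' _ hw)
          rw [Finset.filter_insert, if_pos heq, Finset.card_insert_of_notMem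
            (fun h' => hxs (Finset.mem_filter.mp h').1), Finset.prod_insert hxs, e1, pow_succ',
            mul_inv_rev, mul_assoc, inv_mul_cancel_left]
          exact ih
        · rw [Finset.filter_insert, if_neg hne, Finset.prod_insert hxs, mul_left_comm, map_mul]
          refine mul_mem ?_ ih
          rw [← M.conj]
          exact hfix ⟨M.ι w, hw, rfl⟩
    have h1 := key Finset.univ
    rw [show (∏ x : X, MulAut.conjNormal (x : G) w) = 1 from hμ, mul_one, map_inv] at h1
    have h2 : M.ι (w ^ m) ∈ W' ⊓ fx M.ι.range E := mem_inf.mpr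
      ⟨by rw [map_pow]; exact pow_mem (show M.ι w ∈ W' from hw) m, inv_mem_iff.mp h1⟩
    rw [hd, mem_bot] at h2
    have h3 : w ^ m = 1 := M.ι_inj (by rw [h2, map_one])
    have h4 : w ^ Nat.gcd p m = 1 := pow_gcd_eq_one.mpr ⟨hwp, h3⟩
    rwa [hmcop.gcd_eq_one, pow_one] at h4
  have hμX : ∀ v : V, ∀ x ∈ X, x * (μ v : G) * x⁻¹ = μ v := by
    intro v x hx
    have : MulAut.conjNormal x (μ v) = μ v := by
      show MulAut.conjNormal x (∏ y : X, MulAut.conjNormal (y : G) v) = _
      rw [map_prod]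
      refine Fintype.prod_equiv (Equiv.mulLeft ⟨x, hx⟩) _ _ fun y => ?_
      show MulAut.conjNormal x (MulAut.conjNormal (y : G) v) =
        MulAut.conjNormal ((x : G) * (y : G)) v
      rw [map_mul]; rfl
    exact congrArg Subtype.val this
  set W : Subgroup G := W₁.map (V.subtype.comp μ) with hW
  set D : Subgroup G := f.range ⊓ centralizer (X : Set G) ⊓ H.comap M.ψ with hD
  have hdW : ∀ d ∈ D, ∀ w ∈ W₁, MulAut.conjNormal d w ∈ W₁ := by
    intro d hd w hw
    have hdH : M.ψ d ∈ H := (mem_inf.mp hd).2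
    show M.ι _ ∈ W'
    rw [← M.conj]
    have hn : cj (M.ψ d) E = E := mem_normalizer_iff_map_conj_eq.mp (hHnE hdH)
    have h1 : M.ψ d * M.ι w * (M.ψ d)⁻¹ ∈ cj (M.ψ d) W' := ⟨M.ι w, hw, rfl⟩
    rw [hW', cj, Subgroup.map_commutator] at h1
    exact commutator_mono (mem_normalizer_iff_map_conj_eq.mp
      (M.range_le_normalizer ⟨d, rfl⟩)).le hn.le h1
  have hdμ : ∀ d ∈ D, ∀ v : V, MulAut.conjNormal d (μ v) = μ (MulAut.conjNormal d v) := by
    intro d hd v
    show MulAut.conjNormal d (∏ y : X, MulAut.conjNormal (y : G) v) = ∏ y : X, _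
    rw [map_prod]
    refine Finset.prod_congr rfl fun y _ => Subtype.ext ?_
    have hdy : (y : G) * d = d * y := mem_centralizer_iff.mp (mem_inf.mp (mem_inf.mp hd).1).2 y y.2
    simp only [MulAut.conjNormal_apply]
    calc d * ((y : G) * v * (y : G)⁻¹) * d⁻¹ = d * y * v * (d * y)⁻¹ := by group
      _ = y * (d * v * d⁻¹) * (y : G)⁻¹ := by rw [← hdy]; group
  have hcentW : ∀ d ∈ D, (d ∈ centralizer (W : Set G) ↔
      ∀ w ∈ W₁, MulAut.conjNormal d w = w) := by
    intro d hd
    constructor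
    · intro h w hw
      have h1 := mem_centralizer_iff.mp h (μ w : G) ⟨w, hw, rfl⟩
      have h2 : MulAut.conjNormal d (μ w) = μ w := Subtype.ext (by
        rw [MulAut.conjNormal_apply, ← h1, mul_inv_cancel_right])
      rw [hdμ d hd] at h2
      exact inv_mul_eq_one.mp (hμinj _ (mul_mem (inv_mem (hdW d hd w hw)) hw)
        (by rw [map_mul, map_inv, h2, inv_mul_cancel]))
    · intro h
      refine mem_centralizer_iff.mpr ?_
      rintro _ ⟨w, hw, rfl⟩
      have h2 := hdμ d hd w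
      rw [h w hw] at h2
      exact (mul_inv_eq_iff_eq_mul.mp (congrArg Subtype.val h2)).symm
  have hDK : D ≤ f.range ⊓ centralizer (X : Set G) := inf_le_left
  refine ⟨S.prime_eq hL, W, D, ?_, hDK, ?_, ?_, ?_, ?_⟩
  · rintro _ ⟨w, -, rfl⟩
    refine mem_inf.mpr ⟨?_, mem_centralizer_iff.mpr fun x hx => mul_inv_eq_iff_eq_mul.mp (hμX w x hx)⟩
    obtain ⟨v, -, hv⟩ : (μ w : G) ∈ V₀.map f := (μ w).2
    exact ⟨v, hv⟩
  · exact isEA_of_le (isEA_map f hV₀e) (by rintro _ ⟨w, -, rfl⟩; exact (μ w).2)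
  · rw [hW, ← Subgroup.map_map, card_map_of_injective V.subtype_injective, ← hcW₁]
    have hinj : Function.Injective (μ.comp W₁.subtype) := (injective_iff_map_eq_one _).mpr
      fun w hw => Subtype.ext (hμinj w w.2 hw)
    rw [Nat.card_congr (MonoidHom.ofInjective hinj).toEquiv, MonoidHom.range_comp, range_subtype]
  · refine CfsgLib.Core.le_normalizer_iff_forall.mpr fun d hd => ?_
    rintro _ ⟨w, hw, rfl⟩
    exact ⟨_, hdW d hd w hw, (congrArg Subtype.val (hdμ d hd w)).symm⟩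
  · -- the component in `E`
    set H₀ := H ⊓ centralizer (W' : Set Γ) with hH₀
    have hH₀E : ∀ a ∈ H₀, ∀ e ∈ E, a * e = e * a := fun a ha e he => by
      have h := commutator_mem_commutator (H₂ := H₀) he ha
      rw [(S.direct_factor hS3 hL).1, mem_bot, commutatorElement_eq_one_iff_mul_comm] at h
      exact h.symm
    have hex : ∀ h : H, ∃ e : E, (e : Γ)⁻¹ * h ∈ H₀ := by
      intro h
      have hn : H₀ ≤ normalizer (E : Set Γ) := inf_le_left.trans hHnE
      obtain ⟨e, he, a, ha, hea⟩ := (mem_sup_iff_of_le_normalizer' hn).mp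
        (show (h : Γ) ∈ H₀ ⊔ E by rw [sup_comm, hsup0]; exact h.2)
      exact ⟨⟨e, he⟩, by show e⁻¹ * (h : Γ) ∈ H₀; rw [← hea, inv_mul_cancel_left]; exact ha⟩
    choose π hπ using hex
    have huniq : ∀ (h : H) (e : E), (e : Γ)⁻¹ * h ∈ H₀ → π h = e := by
      intro h e he
      have h1 := mul_mem (hπ h) (inv_mem he)
      rw [mul_inv_rev, inv_inv, ← mul_assoc, mul_inv_cancel_right] at h1
      have h2 : ((π h)⁻¹ * e : E).1 ∈ E ⊓ H₀ := mem_inf.mpr ⟨((π h)⁻¹ * e : E).2, h1⟩
      rw [hd0, mem_bot] at h2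
      exact inv_mul_eq_one.mp (Subtype.ext h2)
    have hπmul : ∀ a b : H, π (a * b) = π a * π b := by
      intro a b
      refine huniq _ _ ?_
      have h1 := hH₀E _ (hπ a) _ (inv_mem (π b).2)
      rw [Subgroup.coe_mul, Subgroup.coe_mul, mul_inv_rev,
        show (π b : Γ)⁻¹ * (π a : Γ)⁻¹ * ((a : Γ) * b) =
          ((π b : Γ)⁻¹ * ((π a : Γ)⁻¹ * a)) * b by group, ← h1, mul_assoc]
      exact mul_mem (hπ a) (hπ b)
    let θ₀ : D →* E :=
      { toFun := fun d => π ⟨M.ψ d, (mem_inf.mp d.2).2⟩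
        map_one' := huniq _ _ (by simp)
        map_mul' := fun a b => by
          rw [← hπmul]; congr 1; exact Subtype.ext (map_mul _ _ _) }
    have hθsurj : Function.Surjective θ₀ := by
      intro e
      obtain ⟨c, hc, hcX, -, hcW'⟩ := S.orbit_elem hqH hL (X.map M.ψ) (hqX.map _)
        ((map_le_range _ _).trans M.range_le_normalizer) ((map_le_range _ _).trans hHn) e.2
      obtain ⟨k, -, rfl⟩ := hHJ.le hc
      obtain ⟨d, hdX, hdk⟩ := lift_fixed f hsolv hcop M.ψ (k := k)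
        (fun x hx => hcX _ ⟨x, hx, rfl⟩)
      have hdH : M.ψ (f d) ∈ H := hdk ▸ hc
      refine ⟨⟨f d, mem_inf.mpr ⟨mem_inf.mpr ⟨⟨d, rfl⟩, hdX⟩, hdH⟩⟩, huniq _ _ ?_⟩
      refine mem_inf.mpr ⟨mul_mem (inv_mem (S.ext_le hL e.2)) hdH, mem_centralizer_iff.mpr fun w hw => ?_⟩
      have h1 : M.ψ (f k) * w * (M.ψ (f k))⁻¹ = (e : Γ) * w * (e : Γ)⁻¹ := hcW' w hw
      show w * ((e : Γ)⁻¹ * M.ψ (f d)) = (e : Γ)⁻¹ * M.ψ (f d) * w
      rw [hdk]
      calc w * ((e : Γ)⁻¹ * M.ψ (f k))
          = (e : Γ)⁻¹ * ((e : Γ) * w * (e : Γ)⁻¹) * M.ψ (f k) := by group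
        _ = _ := by rw [← h1]; group
    refine ⟨iso.toMonoidHom.comp θ₀, iso.surjective.comp hθsurj, ?_⟩
    ext d
    rw [MonoidHom.mem_ker, MonoidHom.comp_apply, MulEquiv.coe_toMonoidHom,
      MulEquiv.map_eq_one_iff, mem_subgroupOf, hcentW d d.2]
    have hdH : M.ψ d ∈ H := (mem_inf.mp d.2).2
    constructor
    · intro h w hw
      have h1 : M.ψ d ∈ H₀ := by
        have := hπ ⟨M.ψ d, hdH⟩
        rwa [show π ⟨M.ψ d, hdH⟩ = 1 from h, Subgroup.coe_one, inv_one, one_mul] at this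
      refine M.ι_inj ?_
      rw [← M.conj, ← mem_centralizer_iff.mp (mem_inf.mp h1).2 _ hw, mul_inv_cancel_right]
    · intro h
      refine huniq _ _ ?_
      rw [Subgroup.coe_one, inv_one, one_mul]
      refine mem_inf.mpr ⟨hdH, mem_centralizer_iff.mpr fun w hw => ?_⟩
      obtain ⟨v, rfl⟩ := hW'V hw
      have h2 := M.conj d v
      rw [h v hw, mul_inv_eq_iff_eq_mul] at h2
      exact h2.symm

end CfsgLib.LocalFF
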