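import Cfsg.Agent.Lib.LocalFFPair
import Cfsg.Agent.Lib.LocalPStableTwo
import Cfsg.Agent.Lib.ClassicalProjLine

/-!
# The commutator of the `p'`-core with an offender of order `p`
-/

set_option autoImplicit false

universe u

namespace CfsgLib.LocalFF

open Subgroup CfsgLib.LocalThompson CfsgLib.Core
open scoped commutatorElement

variable {G : Type u} [Group G] [Finite G] {p : ℕ} [hp : Fact p.Prime] {V H : Subgroup G}

theorem Setup.comm_core_structure (S : Setup p V H) {L : Subgroup G} (hL : Line p V H L) :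
    (p = 2 ∧ IsPGroup 3 ↥⁅core p H, L⁆) ∨
      (p = 3 ∧ IsPGroup 2 ↥⁅core p H, L⁆ ∧ ¬ IsMulCommutative ↥⁅core p H, L⁆) := by
  haveI : Fact (Nat.Prime 2) := ⟨Nat.prime_two⟩
  haveI : Fact (Nat.Prime 3) := ⟨Nat.prime_three⟩
  obtain ⟨x, hx, hxL⟩ := S.exists_noncomm hL
  obtain ⟨-, -, -, -, ⟨e⟩, -⟩ := S.pair hL hx hxL
  rw [← S.ext_eq hL hx hxL] at e
  have hc := (S.comm_coprime hL).2
  rw [Nat.card_congr e.toEquiv, CfsgLib.Classical.Two.card_sl_two, ZMod.card] at hc
  rcases S.prime_eq hL with rfl | rfl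
  · refine Or.inl ⟨rfl, IsPGroup.of_card (n := 1) ?_⟩
    omega
  · have h8 : Nat.card ↥⁅core 3 H, L⁆ = 8 := by omega
    refine Or.inr ⟨rfl, IsPGroup.of_card (n := 3) h8, fun hab => ?_⟩
    set E := ext' 3 H L with hE
    set D : Subgroup E := (⁅core 3 H, L⁆).subgroupOf E with hD
    have hDE : ⁅core 3 H, L⁆ ≤ E := le_sup_left
    have hD8 : Nat.card D = 8 := by
      rw [hD, Nat.card_congr (subgroupOfEquivOfLe hDE).toEquiv, h8]
    obtain ⟨T, hT⟩ := (IsPGroup.of_card (p := 2) (n := 3) hD8).exists_le_sylow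
    obtain ⟨n, hn⟩ := IsPGroup.iff_card.mp T.2
    have hdvd : 2 ^ n ∣ 8 * 3 := by
      have h := Subgroup.card_subgroup_dvd_card (T : Subgroup E)
      rw [hn, Nat.card_congr e.toEquiv, CfsgLib.Classical.Two.card_sl_two, ZMod.card] at h
      exact h
    have h2 : 2 ^ n ∣ 8 := ((Nat.Coprime.pow_left n (by norm_num : Nat.Coprime 2 3))).dvd_of_dvd_mul_right hdvd
    have hTD : D = (T : Subgroup E) :=
      CfsgLib.Core.eq_of_le_of_card_le hT (by rw [hn, hD8]; exact Nat.le_of_dvd (by norm_num) h2)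
    refine CfsgLib.PStableTwo.not_abelian_two (p := 3) (by norm_num)
      ⟨⊤, e.toMonoidHom.comp (topEquiv (G := E)).toMonoidHom,
        e.surjective.comp (topEquiv (G := E)).surjective⟩ T ⟨⟨fun a b => Subtype.ext ?_⟩⟩
    have ha : ((a : E) : G) ∈ ⁅core 3 H, L⁆ := by
      have : (a : E) ∈ D := hTD.ge a.2
      exact this
    have hb : ((b : E) : G) ∈ ⁅core 3 H, L⁆ := by
      have : (b : E) ∈ D := hTD.ge b.2
      exact this
    exact Subtype.ext (congrArg (fun w : ↥⁅core 3 H, L⁆ => (w : G))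
      (hab.is_comm.comm ⟨_, ha⟩ ⟨_, hb⟩))

end CfsgLib.LocalFF
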