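import Cfsg.Agent.Lib.LocalFFCoprime

/-!
# Coprime operators on a `p`-separable subgroup
-/

set_option autoImplicit false

universe u

namespace CfsgLib.LocalFF

open Subgroup CfsgLib.LocalThompson

variable {G : Type u} [Group G] [Finite G] {p : ℕ} [hp : Fact p.Prime] {q : ℕ} [Fact q.Prime]

theorem generation' (K X : Subgroup G) (hXK : X ≤ normalizer (K : Set G))
    (hX : Cfsg.IsElementaryAbelian q X) (hq : ¬ q ∣ Nat.card K) (hsep : Cfsg.IsPSolvable p K)
    (hO : Cfsg.pPrimeCore p K = ⊥) (S : Sylow p K) :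
    normalizer (Cfsg.thompsonSubgroupOf p (S : Subgroup K) : Set K) ⊔
      centralizer (CfsgLib.LocalFactor.Zc p (S : Subgroup K) : Set K) ⊔
      (centralizer (X : Set G)).subgroupOf K = ⊤ := by
  set f : K →* ↥(K ⊔ X) := inclusion le_sup_left with hf
  haveI : f.range.Normal := by
    rw [hf, inclusion_range]
    exact normal_subgroupOf_of_le_normalizer (sup_le le_normalizer hXK)
  have hX' : Cfsg.IsElementaryAbelian q (X.subgroupOf (K ⊔ X)) :=
    isEA_of_map (K ⊔ X).subtype (subtype_injective _) (by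
      rw [map_subgroupOf_eq_of_le le_sup_right]; exact hX)
  have h := generation f (inclusion_injective _) (X.subgroupOf (K ⊔ X)) hX' hq hsep hO S
  have e : (centralizer ((X.subgroupOf (K ⊔ X) : Subgroup ↥(K ⊔ X)) : Set ↥(K ⊔ X))).comap f =
      (centralizer (X : Set G)).subgroupOf K := by
    ext k
    rw [mem_comap, mem_subgroupOf, mem_centralizer_iff, mem_centralizer_iff]
    constructor
    · intro h x hx
      exact congrArg Subtype.val (h ⟨x, mem_sup_right hx⟩ hx)
    · intro h x hx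
      exact Subtype.ext (h x hx)
  rw [e] at h
  exact h

theorem fixed_sl_two' (K X : Subgroup G) (hXK : X ≤ normalizer (K : Set G))
    (hX : Cfsg.IsElementaryAbelian q X) (hq : ¬ q ∣ Nat.card K) (hsep : Cfsg.IsPSolvable p K)
    (hO : Cfsg.pPrimeCore p K = ⊥) (hnf : ¬ Cfsg.IsThompsonFactorizable p K) :
    (p = 2 ∨ p = 3) ∧ ∃ W D : Subgroup G, W ≤ K ⊓ centralizer (X : Set G) ∧
      D ≤ K ⊓ centralizer (X : Set G) ∧ Cfsg.IsElementaryAbelian p W ∧ Nat.card W = p ^ 2 ∧
      D ≤ normalizer (W : Set G) ∧ ∃ _ : ((centralizer (W : Set G)).subgroupOf D).Normal,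
        Nonempty ((↥D ⧸ (centralizer (W : Set G)).subgroupOf D) ≃*
          Matrix.SpecialLinearGroup (Fin 2) (ZMod p)) := by
  set f : K →* ↥(K ⊔ X) := inclusion le_sup_left with hf
  haveI : f.range.Normal := by
    rw [hf, inclusion_range]
    exact normal_subgroupOf_of_le_normalizer (sup_le le_normalizer hXK)
  have hX' : Cfsg.IsElementaryAbelian q (X.subgroupOf (K ⊔ X)) :=
    isEA_of_map (K ⊔ X).subtype (subtype_injective _) (by
      rw [map_subgroupOf_eq_of_le le_sup_right]; exact hX)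
  obtain ⟨hp23, W, D, hW, hD, hWe, hWc, hDW, θ, hθ, hker⟩ :=
    fixed_sl_two f (inclusion_injective _) (X.subgroupOf (K ⊔ X)) hX' hq hsep hO hnf
  have hle : ∀ A : Subgroup ↥(K ⊔ X),
      A ≤ f.range ⊓ centralizer ((X.subgroupOf (K ⊔ X) : Subgroup ↥(K ⊔ X)) : Set ↥(K ⊔ X)) →
      A.map (K ⊔ X).subtype ≤ K ⊓ centralizer (X : Set G) := by
    rintro A hA _ ⟨a, ha, rfl⟩
    obtain ⟨ha1, ha2⟩ := mem_inf.mp (hA ha)
    refine mem_inf.mpr ⟨?_, mem_centralizer_iff.mpr fun x hx => congrArg Subtype.val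
      (mem_centralizer_iff.mp ha2 ⟨x, mem_sup_right hx⟩ hx)⟩
    obtain ⟨k, rfl⟩ := ha1
    exact k.2
  set eD := D.equivMapOfInjective (K ⊔ X).subtype (subtype_injective _) with heD
  refine ⟨hp23, W.map (K ⊔ X).subtype, D.map (K ⊔ X).subtype, hle W hW, hle D hD,
    isEA_map _ hWe, by rw [card_map_of_injective (subtype_injective _), hWc],
    (map_mono hDW).trans (le_normalizer_map _), ?_⟩
  set θ' := θ.comp eD.symm.toMonoidHom with hθ'
  have hker' : θ'.ker =
      (centralizer ((W.map (K ⊔ X).subtype : Subgroup G) : Set G)).subgroupOf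
        (D.map (K ⊔ X).subtype) := by
    ext d
    obtain ⟨a, rfl⟩ := eD.surjective d
    have h0 : a ∈ θ.ker ↔ (a : ↥(K ⊔ X)) ∈ centralizer (W : Set ↥(K ⊔ X)) := by
      rw [hker, mem_subgroupOf]
    rw [MonoidHom.mem_ker, hθ', MonoidHom.comp_apply, MulEquiv.coe_toMonoidHom,
      eD.symm_apply_apply, ← MonoidHom.mem_ker, h0, mem_subgroupOf, mem_centralizer_iff,
      mem_centralizer_iff]
    constructor
    · rintro h _ ⟨w, hw, rfl⟩
      exact congrArg Subtype.val (h w hw)
    · intro h w hw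
      exact Subtype.ext (h w ⟨w, hw, rfl⟩)
  have hn : ((centralizer ((W.map (K ⊔ X).subtype : Subgroup G) : Set G)).subgroupOf
      (D.map (K ⊔ X).subtype)).Normal := hker' ▸ inferInstance
  exact ⟨hn, ⟨(QuotientGroup.quotientMulEquivOfEq hker'.symm).trans
    (QuotientGroup.quotientKerEquivOfSurjective θ' (hθ.comp eD.symm.surjective))⟩⟩

end CfsgLib.LocalFF
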