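import Cfsg.Agent.Lib.CoreCoprime
import Mathlib

/-!
# The order formula for a coprime action of an elementary abelian group of order `p²`
-/

set_option autoImplicit false
set_option linter.unusedSectionVars false

namespace CfsgLib.Local.FPF

open Subgroup

universe u v

variable {E : Type v} [Group E] [Finite E] {p : ℕ} [hp : Fact p.Prime]

/-- Fixed points of a subgroup of operators. -/
def fixed (V : Type u) [Group V] [MulDistribMulAction E V] (B : Subgroup E) : Subgroup V where
  carrier := {v | ∀ b ∈ B, b • v = v}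
  one_mem' b _ := smul_one b
  mul_mem' hx hy b hb := by rw [smul_mul', hx b hb, hy b hb]
  inv_mem' hx b hb := by rw [smul_inv', hx b hb]

/-- The lines of `E`. -/
abbrev Line (E : Type v) [Group E] (p : ℕ) : Type v := {B : Subgroup E // Nat.card B = p}

theorem eq_zpowers {B : Subgroup E} (hB : Nat.card B = p) {e : E} (he : e ∈ B) (he1 : e ≠ 1) :
    zpowers e = B := by
  refine eq_of_le_of_card_ge (zpowers_le.mpr he) ?_
  rw [hB, Nat.card_zpowers]
  rcases (Nat.dvd_prime hp.out).mp (hB ▸ Subgroup.orderOf_dvd_natCard B he) with h | h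
  · exact absurd (orderOf_eq_one_iff.mp h) he1
  · exact h.ge

theorem sup_line_eq_top (hE : Nat.card E = p ^ 2) {B B' : Subgroup E} (hB : Nat.card B = p)
    (hB' : Nat.card B' = p) (hne : B ≠ B') : B ⊔ B' = ⊤ := by
  refine Subgroup.eq_top_of_card_eq _ ?_
  have hd := card_dvd_of_le (le_top : B ⊔ B' ≤ ⊤)
  rw [card_top, hE, Nat.dvd_prime_pow hp.out] at hd
  obtain ⟨i, hi, hiX⟩ := hd
  have hlt : Nat.card B < Nat.card (B ⊔ B' : Subgroup E) := by
    refine lt_of_le_of_ne (card_le_of_le le_sup_left) fun e => hne ?_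
    have h1 : B' ≤ B := (eq_of_le_of_card_ge le_sup_left e.ge) ▸ le_sup_right
    exact (eq_of_le_of_card_ge h1 (by rw [hB, hB'])).symm
  rw [hB, hiX] at hlt
  rw [hE, hiX]
  congr 1
  interval_cases i
  · exact absurd hlt (by simpa using hp.out.ne_zero)
  · simp at hlt
  · rfl

theorem pow_bij {V : Type u} [Group V] [Finite V] (hV : ¬ p ∣ Nat.card V) (x : V) :
    x ∈ zpowers (x ^ p) := by
  have hc : (orderOf x).Coprime p :=
    ((hp.out.coprime_iff_not_dvd.mpr fun h => hV (h.trans (orderOf_dvd_natCard x)))).symm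
  obtain ⟨m, hm⟩ := exists_pow_eq_self_of_coprime hc.symm
  exact mem_zpowers_iff.mpr ⟨m, by rw [zpow_natCast, hm]⟩

/-- The abelian case. -/
theorem formula_abelian {V : Type u} [CommGroup V] [Finite V] [MulDistribMulAction E V]
    [Fintype (Line E p)] (hE : Nat.card E = p ^ 2) (hexp : ∀ e : E, e ^ p = 1)
    (hV : ¬ p ∣ Nat.card V) :
    Nat.card V * Nat.card (fixed V (⊤ : Subgroup E)) ^ p =
      ∏ B : Line E p, Nat.card (fixed V B.1) := by
  classical
  haveI := Fintype.ofFinite E
  have hcomm : ∀ a b : E, a * b = b * a := fun a b =>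
    (IsPGroup.isMulCommutative_of_card_eq_prime_sq hE).is_comm.comm a b
  let N : Subgroup E → V → V := fun B v => ∏ b : B, (b : E) • v
  have hNfix : ∀ B v, N B v ∈ fixed V B := by
    intro B v b hb
    simp only [N, Finset.smul_prod', smul_smul]
    exact Fintype.prod_equiv (Equiv.mulLeft (⟨b, hb⟩ : B)) _ _ fun x => rfl
  have hline : ∀ e : E, e ≠ 1 → Nat.card (zpowers e) = p := fun e he => by
    rw [Nat.card_zpowers, orderOf_eq_prime (hexp e) he]
  -- a decomposition of `E` into lines
  have hfib : ∀ B : Line E p,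
      (Finset.univ.erase (1 : E)).filter (fun e => zpowers e = B.1) =
        ((Finset.univ : Finset E).filter (· ∈ B.1)).erase 1 := by
    intro B
    ext e
    simp only [Finset.mem_filter, Finset.mem_erase, Finset.mem_univ, and_true, true_and]
    exact ⟨fun h => ⟨h.1, h.2 ▸ mem_zpowers e⟩, fun h => ⟨h.1, eq_zpowers B.2 h.2 h.1⟩⟩
  have hprod : ∀ {M : Type u} [CommMonoid M] (f : E → M),
      ∏ B : Line E p, ∏ e ∈ ((Finset.univ : Finset E).filter (· ∈ B.1)).erase 1, f e =
        ∏ e ∈ Finset.univ.erase (1 : E), f e := by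
    intro M _ f
    simp only [← hfib]
    rw [← Finset.prod_fiberwise_of_maps_to (t := Finset.univ.image (fun B : Line E p => B.1))
      (g := fun e => zpowers e) (fun e he => by
        simp only [Finset.mem_image, Finset.mem_univ, true_and]
        exact ⟨⟨_, hline e (Finset.ne_of_mem_erase he)⟩, rfl⟩)]
    rw [Finset.prod_image (fun x _ y _ h => Subtype.ext h)]
  have hn : Fintype.card (Line E p) = p + 1 := by
    have hcard : (Finset.univ.erase (1 : E)).card =
        ∑ B : Line E p, (((Finset.univ : Finset E).filter (· ∈ B.1)).erase 1).card := by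
      simp only [← hfib]
      rw [Finset.card_eq_sum_card_fiberwise (t := Finset.univ.image (fun B : Line E p => B.1))
        (f := fun e => zpowers e) (fun e he => by
          simp only [Finset.coe_image, Set.mem_image, Finset.coe_univ, Set.mem_univ, true_and]
          exact ⟨⟨_, hline e (Finset.ne_of_mem_erase he)⟩, rfl⟩)]
      rw [Finset.sum_image (fun x _ y _ h => Subtype.ext h)]
    have hB : ∀ B : Line E p, (((Finset.univ : Finset E).filter (· ∈ B.1)).erase 1).card = p - 1 := by
      intro B
      rw [Finset.card_erase_of_mem (by simp), ← Fintype.card_subtype, ← Nat.card_eq_fintype_card]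
      exact congrArg (· - 1) B.2
    simp only [hB, Finset.sum_const, Finset.card_univ, smul_eq_mul] at hcard
    rw [Finset.card_erase_of_mem (Finset.mem_univ _), Finset.card_univ, ← Nat.card_eq_fintype_card, hE] at hcard
    generalize Fintype.card (Line E p) = c at hcard ⊢
    obtain ⟨k, hk⟩ : ∃ k, p = k + 2 := ⟨p - 2, by have := hp.out.two_le; omega⟩
    rw [hk] at hcard ⊢
    have : (k + 2) ^ 2 - 1 = (k + 3) * (k + 1) := by
      rw [Nat.sub_eq_iff_eq_add (Nat.one_le_pow _ _ (by omega))]; ring
    rw [this, show k + 2 - 1 = k + 1 by omega] at hcard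
    exact (Nat.eq_of_mul_eq_mul_right (by omega) hcard).symm
  have hsplit : ∀ (B : Subgroup E) v,
      N B v = v * ∏ e ∈ ((Finset.univ : Finset E).filter (· ∈ B)).erase 1, e • v := by
    intro B v
    have h1 : N B v = ∏ e ∈ (Finset.univ : Finset E).filter (· ∈ B), e • v := by
      simp only [N]
      exact (Finset.prod_subtype _ (by simp) (fun e => e • v)).symm
    rw [h1, ← Finset.mul_prod_erase _ (fun e : E => e • v) (show (1 : E) ∈ _ by simp), one_smul]
  -- the key identity
  have hid : ∀ v : V, ∏ B : Line E p, N B.1 v = v ^ p * ∏ e : E, e • v := by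
    intro v
    simp only [hsplit, Finset.prod_mul_distrib, Finset.prod_const, Finset.card_univ, hn, hprod]
    rw [← Finset.mul_prod_erase _ (fun e : E => e • v) (Finset.mem_univ (1 : E)), one_smul,
      ← mul_assoc, ← pow_succ]
  let ι := Line E p
  let W := (B : ι) → fixed V B.1
  let Φ : W →* V :=
    { toFun := fun c => ∏ B, (c B : V)
      map_one' := Finset.prod_eq_one fun _ _ => rfl
      map_mul' := fun c d => Finset.prod_mul_distrib }
  let W₀ := (B : ι) → fixed V (⊤ : Subgroup E)
  let Φ₀ : W₀ →* fixed V (⊤ : Subgroup E) :=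
    { toFun := fun c => ∏ B, c B
      map_one' := Finset.prod_eq_one fun _ _ => rfl
      map_mul' := fun c d => Finset.prod_mul_distrib }
  have hι : Nonempty ι := Fintype.card_pos_iff.mp (show 0 < Fintype.card (Line E p) by rw [hn]; omega)
  obtain ⟨B₀⟩ := hι
  have hsurj₀ : Function.Surjective Φ₀ := fun x => ⟨Pi.mulSingle B₀ x, by
    show ∏ B, (Pi.mulSingle B₀ x : W₀) B = x
    rw [Finset.prod_eq_single B₀ (fun B _ hB => Pi.mulSingle_eq_of_ne hB _)
      (fun h => absurd (Finset.mem_univ _) h), Pi.mulSingle_eq_same]⟩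
  have hsurj : Function.Surjective Φ := by
    intro v
    have hN : (∏ e : E, e • v) ∈ fixed V B₀.1 := fun b _ => by
      simp only [Finset.smul_prod', smul_smul]
      exact Fintype.prod_equiv (Equiv.mulLeft b) _ _ fun x => rfl
    have hmem : v ^ p ∈ Φ.range := by
      refine ⟨(fun B => ⟨N B.1 v, hNfix _ _⟩) * Pi.mulSingle B₀ ⟨_, inv_mem hN⟩, ?_⟩
      rw [map_mul]
      have h1 : Φ (Pi.mulSingle B₀ ⟨_, inv_mem hN⟩) = (∏ e : E, e • v)⁻¹ := by
        show ∏ B, ((Pi.mulSingle B₀ (⟨_, inv_mem hN⟩ : fixed V B₀.1) : W) B : V) = _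
        rw [Finset.prod_eq_single B₀ (fun B _ hB => by rw [Pi.mulSingle_eq_of_ne hB]; rfl)
          (fun h => absurd (Finset.mem_univ _) h), Pi.mulSingle_eq_same]
      rw [h1]
      show (∏ B : Line E p, N B.1 v) * _ = _
      rw [hid, mul_inv_cancel_right]
    exact (zpowers_le.mpr hmem) (pow_bij hV v)
  -- the kernel lies in the common fixed points
  have hker : ∀ c : W, Φ c = 1 → ∀ B, (c B : V) ∈ fixed V (⊤ : Subgroup E) := by
    intro c hc B
    have h2 : (c B : V) ^ p ∈ fixed V (⊤ : Subgroup E) := by
      have hmul : ∀ (x : ι → V), N B.1 (∏ B', x B') = ∏ B', N B.1 (x B') := by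
        intro x
        simp only [N, Finset.smul_prod']
        exact Finset.prod_comm
      have h1 : ∏ B', N B.1 (c B' : V) = 1 := by
        rw [← hmul]
        show N B.1 (Φ c) = 1
        rw [hc]; simp [N]
      rw [← Finset.mul_prod_erase _ _ (Finset.mem_univ B), mul_eq_one_iff_eq_inv] at h1
      have h3 : N B.1 (c B : V) = (c B : V) ^ p := by
        simp only [N]
        rw [Finset.prod_congr rfl (fun b _ => (c B).2 _ b.2), Finset.prod_const, Finset.card_univ,
          ← Nat.card_eq_fintype_card, B.2]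
      rw [← h3, h1]
      refine inv_mem (Subgroup.prod_mem _ fun B' hB' => ?_)
      have hne : B'.1 ≠ B.1 := fun e => Finset.ne_of_mem_erase hB' (Subtype.ext e)
      intro e _
      have hle : B.1 ⊔ B'.1 ≤ MulAction.stabilizer E (N B.1 (c B' : V)) := by
        refine sup_le (fun b hb => hNfix _ _ b hb) fun b hb => ?_
        show b • N B.1 (c B' : V) = _
        simp only [N, Finset.smul_prod', smul_smul]
        refine Finset.prod_congr rfl fun x _ => ?_
        rw [hcomm, ← smul_smul, (c B').2 b hb]
      rw [sup_line_eq_top hE B.2 B'.2 hne.symm] at hle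
      exact hle (mem_top e)
    exact (zpowers_le.mpr h2) (pow_bij hV _)
  have e1 : Nat.card Φ.ker = Nat.card Φ₀.ker := by
    refine Nat.card_congr
      { toFun := fun c => ⟨fun B => ⟨(c.1 B : V), hker c.1 c.2 B⟩, ?_⟩
        invFun := fun c => ⟨fun B => ⟨(c.1 B : V), fun b _ => (c.1 B).2 b (mem_top b)⟩, ?_⟩
        left_inv := fun c => rfl
        right_inv := fun c => rfl }
    · rw [MonoidHom.mem_ker]
      apply Subtype.ext
      exact (Subgroup.val_finsetProd _ _ _).trans c.2
    · rw [MonoidHom.mem_ker]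
      exact (Subgroup.val_finsetProd _ _ _).symm.trans (congrArg Subtype.val c.2)
  have c1 := Φ.ker.card_mul_index
  rw [Subgroup.index_ker, MonoidHom.range_eq_top.mpr hsurj, card_top, Nat.card_pi] at c1
  have c0 := Φ₀.ker.card_mul_index
  rw [Subgroup.index_ker, MonoidHom.range_eq_top.mpr hsurj₀, card_top, Nat.card_pi,
    Finset.prod_const, Finset.card_univ, hn, pow_succ] at c0
  rw [← c1, e1, Nat.eq_of_mul_eq_mul_right Nat.card_pos c0, mul_comm]

/-- Fixed points of a quotient by an invariant central subgroup. -/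
theorem formula_pgroup {q : ℕ} [hq : Fact q.Prime] (hqp : q ≠ p) [Fintype (Line E p)]
    (hE : Nat.card E = p ^ 2) (hexp : ∀ e : E, e ^ p = 1) :
    ∀ (n : ℕ) (V : Type u) [Group V] [Finite V] [MulDistribMulAction E V], Nat.card V = n →
      IsPGroup q V →
      Nat.card V * Nat.card (fixed V (⊤ : Subgroup E)) ^ p =
        ∏ B : Line E p, Nat.card (fixed V B.1) := by
  intro n
  induction n using Nat.strong_induction_on with
  | h n ih =>
    intro V _ _ _ hn hV
    classical
    have hpV : ¬ p ∣ Nat.card V := by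
      obtain ⟨k, hk⟩ := IsPGroup.iff_card.mp hV
      rw [hk]
      exact fun h => hqp ((Nat.prime_dvd_prime_iff_eq hp.out hq.out).mp (hp.out.dvd_of_dvd_pow h)).symm
    let Z := center V
    by_cases hab : ∀ a b : V, a * b = b * a
    · let cg : CommGroup V := { (inferInstance : Group V) with mul_comm := hab }
      exact formula_abelian hE hexp hpV
    have hZtop : Z ≠ ⊤ := fun h => hab fun a b =>
      (mem_center_iff.mp (h ▸ mem_top a : a ∈ Z) b).symm
    haveI : Nontrivial V := by
      by_contra h
      rw [not_nontrivial_iff_subsingleton] at h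
      exact hab fun a b => Subsingleton.elim _ _
    have hZbot : Z ≠ ⊥ := (Subgroup.nontrivial_iff_ne_bot Z).mp hV.center_nontrivial
    have hinv : ∀ (e : E) (z : V), z ∈ Z → e • z ∈ Z := by
      intro e z hz
      rw [mem_center_iff] at hz ⊢
      intro g
      have := congrArg (e • ·) (hz (e⁻¹ • g))
      simpa [smul_mul'] using this
    let aZ : MulDistribMulAction E Z :=
      { smul := fun e z => ⟨e • (z : V), hinv e z z.2⟩
        one_smul := fun z => Subtype.ext (one_smul E (z : V))
        mul_smul := fun e f z => Subtype.ext (mul_smul e f (z : V))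
        smul_mul := fun e z w => Subtype.ext (smul_mul' e (z : V) w)
        smul_one := fun e => Subtype.ext (smul_one e) }
    let act : E →* MulAut V := MulDistribMulAction.toMulAut E V
    let aQ : MulDistribMulAction E (V ⧸ Z) :=
      { smul := fun e => QuotientGroup.map Z Z (act e).toMonoidHom (fun z hz => hinv e z hz)
        one_smul := fun x => by
          obtain ⟨v, rfl⟩ := QuotientGroup.mk_surjective x
          exact congrArg _ (one_smul E v)
        mul_smul := fun e f x => by
          obtain ⟨v, rfl⟩ := QuotientGroup.mk_surjective x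
          exact congrArg _ (mul_smul e f v)
        smul_mul := fun e x y => map_mul _ x y
        smul_one := fun e => map_one _ }
    have hcZ : Nat.card Z < n := by
      rw [← hn]
      exact lt_of_le_of_ne (card_le_card_group Z) fun e => hZtop (eq_top_of_card_eq _ e)
    have hcQ : Nat.card (V ⧸ Z) < n := by
      rw [← hn, card_eq_card_quotient_mul_card_subgroup Z]
      exact lt_mul_of_one_lt_right Nat.card_pos ((Subgroup.one_lt_card_iff_ne_bot Z).mpr hZbot)
    have hfix : ∀ B : Subgroup E, Nat.card (fixed V B) =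
        Nat.card (fixed Z B) * Nat.card (fixed (V ⧸ Z) B) := by
      intro B
      let ψ : fixed V B →* V ⧸ Z := (QuotientGroup.mk' Z).comp (fixed V B).subtype
      have hr : ψ.range = fixed (V ⧸ Z) B := by
        ext x
        constructor
        · rintro ⟨v, rfl⟩ b hb
          exact congrArg (QuotientGroup.mk' Z) (v.2 b hb)
        · intro hx
          obtain ⟨v, rfl⟩ := QuotientGroup.mk_surjective x
          let C := {w : V // (w : V ⧸ Z) = (v : V ⧸ Z)}
          have hCinv : ∀ (b : B) (w : C), (((b : E) • w.1 : V) : V ⧸ Z) = (v : V ⧸ Z) := by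
            intro b w
            calc (((b : E) • w.1 : V) : V ⧸ Z) = (b : E) • ((w.1 : V) : V ⧸ Z) := rfl
              _ = _ := by rw [w.2]; exact hx _ b.2
          letI aC : MulAction B C :=
            { smul := fun b w => ⟨(b : E) • w.1, hCinv b w⟩
              one_smul := fun w => Subtype.ext (one_smul E w.1)
              mul_smul := fun b c w => Subtype.ext (mul_smul (b : E) (c : E) w.1) }
          have hBp : IsPGroup p B := (IsPGroup.of_card (n := 2) hE).to_subgroup B
          have hcard : Nat.card C = Nat.card Z := Nat.card_congr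
            { toFun := fun w => ⟨v⁻¹ * w.1, QuotientGroup.eq.mp w.2.symm⟩
              invFun := fun z => ⟨v * z, (QuotientGroup.eq.mpr (by simp)).symm⟩
              left_inv := fun w => Subtype.ext (mul_inv_cancel_left _ _)
              right_inv := fun z => Subtype.ext (inv_mul_cancel_left _ _) }
          obtain ⟨w, hw⟩ := hBp.nonempty_fixed_point_of_prime_not_dvd_card C (by
            rw [hcard]; exact fun h => hpV (h.trans (card_subgroup_dvd_card Z)))
          exact ⟨⟨w.1, fun b hb => congrArg Subtype.val (hw ⟨b, hb⟩)⟩, w.2⟩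
      have hk : Nat.card ψ.ker = Nat.card (fixed Z B) := Nat.card_congr
        { toFun := fun v => ⟨⟨v.1.1, (QuotientGroup.eq_one_iff _).mp v.2⟩,
            fun b hb => Subtype.ext (v.1.2 b hb)⟩
          invFun := fun z => ⟨⟨z.1.1, fun b hb => congrArg Subtype.val (z.2 b hb)⟩,
            (QuotientGroup.eq_one_iff _).mpr z.1.2⟩
          left_inv := fun v => rfl
          right_inv := fun z => rfl }
      rw [← ψ.ker.card_mul_index, Subgroup.index_ker, hr, hk]
    have hZ := ih _ hcZ Z rfl (hV.to_subgroup Z)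
    have hQ := ih _ hcQ (V ⧸ Z) rfl (hV.to_quotient Z)
    simp only [hfix, Finset.prod_mul_distrib, ← hZ, ← hQ]
    rw [card_eq_card_quotient_mul_card_subgroup Z]
    ring

/-- The order formula inside an ambient group. -/
theorem formula {H : Type u} [Group H] [Finite H] (E K : Subgroup H) [Fintype (Line ↥E p)]
    (hE : Nat.card E = p ^ 2) (hexp : ∀ e ∈ E, e ^ p = 1)
    (hEK : E ≤ normalizer (K : Set H)) (hK : ¬ p ∣ Nat.card K) :
    Nat.card K * Nat.card ↥(K ⊓ centralizer (E : Set H)) ^ p =
      ∏ B : Line ↥E p, Nat.card ↥(K ⊓ centralizer ((B.1.map E.subtype : Subgroup H) : Set H)) := by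
  classical
  have hne0 : ∀ X : Subgroup H, Nat.card X ≠ 0 := fun X => Nat.card_pos.ne'
  refine Nat.eq_of_factorization_eq (mul_ne_zero (hne0 _) (pow_ne_zero _ (hne0 _)))
    (Finset.prod_ne_zero_iff.mpr fun B _ => hne0 _) fun q => ?_
  rw [Nat.factorization_mul (hne0 _) (pow_ne_zero _ (hne0 _)), Nat.factorization_pow,
    Nat.factorization_prod_apply fun B _ => hne0 _, Finsupp.add_apply, Finsupp.smul_apply,
    smul_eq_mul]
  by_cases hq : q.Prime
  swap
  · simp [Nat.factorization_eq_zero_of_not_prime _ hq]
  haveI : Fact q.Prime := ⟨hq⟩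
  by_cases hqp : q = p
  · subst hqp
    have hz : ∀ X : Subgroup H, (Nat.card ↥(K ⊓ X)).factorization q = 0 := fun X =>
      Nat.factorization_eq_zero_of_not_dvd fun h => hK (h.trans (card_dvd_of_le inf_le_left))
    rw [hz, Nat.factorization_eq_zero_of_not_dvd hK, Finset.sum_eq_zero (fun B _ => hz _)]
    simp
  have hEp : IsPGroup p E := IsPGroup.of_card hE
  have hsolE : Group.IsSolvable E := by haveI := hEp.isNilpotent; infer_instance
  have hcop : ∀ X : Subgroup H, X ≤ E → (Nat.card X).Coprime (Nat.card K) := by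
    intro X hX
    obtain ⟨k, hk⟩ := IsPGroup.iff_card.mp (hEp.to_le hX)
    rw [hk]
    exact ((hp.out.coprime_iff_not_dvd).mpr hK).pow_left k
  obtain ⟨P, hPE⟩ := CfsgLib.Core.exists_invariant_sylow q hEK (hcop E le_rfl) (Or.inl hsolE)
  set Q := (P : Subgroup K).map K.subtype with hQdef
  have hQK : Q ≤ K := map_subtype_le _
  have hQq : IsPGroup q Q := P.2.map _
  have hQH : CfsgLib.Core.IsHallIn {q} Q K :=
    CfsgLib.Core.isHallIn_singleton_iff_exists_sylow.mpr ⟨P, rfl⟩
  -- the `q`-part of each fixed point group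
  have hpart : ∀ X : Subgroup H, X ≤ E →
      Nat.card ↥(Q ⊓ centralizer (X : Set H)) =
        q ^ (Nat.card ↥(K ⊓ centralizer (X : Set H))).factorization q := by
    intro X hXE
    set S := K ⊓ centralizer (X : Set H) with hS
    obtain ⟨T⟩ := (inferInstance : Nonempty (Sylow q S))
    set U := (T : Subgroup S).map S.subtype with hU
    have hUc : Nat.card U = q ^ (Nat.card S).factorization q := by
      rw [hU, card_map_of_injective S.subtype_injective, T.card_eq_multiplicity]
    have hUS : U ≤ S := map_subtype_le _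
    have hXK : X ≤ normalizer (K : Set H) := hXE.trans hEK
    have hXU : X ≤ normalizer (U : Set H) :=
      ((le_centralizer_iff.mp ((hUS.trans inf_le_right))).trans
        (CfsgLib.Core.centralizer_le_normalizer U))
    have hsolX : Group.IsSolvable X ∨ Group.IsSolvable K :=
      Or.inl (by haveI := (hEp.to_le hXE).isNilpotent; infer_instance)
    obtain ⟨P', hUP', hP'X⟩ := CfsgLib.Core.exists_invariant_sylow_ge q hXK (hcop X hXE) hsolX
      (hUS.trans inf_le_left) (T.2.map _) hXU
    obtain ⟨c, hc, hcQ⟩ := (CfsgLib.Core.exists_invariant_sylow_aux q hXK (hcop X hXE) hsolX).2 _ Q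
      (CfsgLib.Core.isHallIn_singleton_iff_exists_sylow.mpr ⟨P', rfl⟩) hP'X hQH (hXE.trans hPE)
    apply le_antisymm
    · have hd : Nat.card ↥(Q ⊓ centralizer (X : Set H)) ∣ Nat.card S :=
        card_dvd_of_le (inf_le_inf_right _ hQK)
      obtain ⟨k, hk⟩ := IsPGroup.iff_card.mp (hQq.to_le (inf_le_left : Q ⊓ centralizer (X : Set H) ≤ Q))
      rw [hk] at hd ⊢
      exact Nat.pow_le_pow_right hq.pos ((hq.pow_dvd_iff_le_factorization (hne0 _)).mp hd)
    · rw [← hUc, ← CfsgLib.Core.card_conj_smul c U]
      refine card_le_of_le (le_inf (hcQ ▸ Subgroup.pointwise_smul_le_pointwise_smul_iff.mpr hUP') ?_)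
      intro x hx
      rw [CfsgLib.Core.mem_conj_smul] at hx
      have hm : c * (c⁻¹ * x * c) * c⁻¹ ∈ centralizer (X : Set H) :=
        mul_mem (mul_mem (mem_inf.mp hc).2 (mem_inf.mp (hUS hx)).2) (inv_mem (mem_inf.mp hc).2)
      simpa [mul_assoc] using hm
  -- apply the formula to `Q`
  let act : ↥E →* MulAut ↥Q :=
    { toFun := fun e =>
        { toFun := fun x => ⟨(e : H) * x * (e : H)⁻¹, (mem_normalizer_iff.mp (hPE e.2) _).mp x.2⟩
          invFun := fun x => ⟨(e : H)⁻¹ * x * e, by
            have := (mem_normalizer_iff.mp (hPE (inv_mem e.2)) _).mp x.2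
            rwa [inv_inv] at this⟩
          left_inv := fun x => Subtype.ext (by simp [mul_assoc])
          right_inv := fun x => Subtype.ext (by simp [mul_assoc])
          map_mul' := fun x y => Subtype.ext (by simp [mul_assoc]) }
      map_one' := MulEquiv.ext fun x => Subtype.ext (by simp)
      map_mul' := fun e f => MulEquiv.ext fun x => Subtype.ext (by simp [mul_assoc]) }
  letI aQ : MulDistribMulAction ↥E ↥Q := MulDistribMulAction.compHom _ act
  have hfixc : ∀ B : Subgroup ↥E, Nat.card (fixed ↥Q B) =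
      Nat.card ↥(Q ⊓ centralizer ((B.map E.subtype : Subgroup H) : Set H)) := by
    intro B
    refine Nat.card_congr
      { toFun := fun x => ⟨x.1.1, mem_inf.mpr ⟨x.1.2, ?_⟩⟩
        invFun := fun x => ⟨⟨x.1, (mem_inf.mp x.2).1⟩, ?_⟩
        left_inv := fun x => rfl
        right_inv := fun x => rfl }
    · rw [mem_centralizer_iff]
      rintro _ ⟨b, hb, rfl⟩
      have h1 : (b : H) * (x.1 : H) * (b : H)⁻¹ = (x.1 : H) := congrArg Subtype.val (x.2 b hb)
      exact eq_mul_of_mul_inv_eq h1
    · intro b hb
      apply Subtype.ext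
      show (b : H) * x.1 * (b : H)⁻¹ = x.1
      exact mul_inv_eq_of_eq_mul (mem_centralizer_iff.mp (mem_inf.mp x.2).2 _ ⟨b, hb, rfl⟩)
  have main := formula_pgroup (E := ↥E) hqp (by simpa using hE)
    (fun e => Subtype.ext (hexp e e.2)) _ ↥Q rfl hQq
  have htop : (⊤ : Subgroup ↥E).map E.subtype = E := by
    rw [← MonoidHom.range_eq_map, range_subtype]
  have hBE : ∀ B : Subgroup ↥E, B.map E.subtype ≤ E := fun B => map_subtype_le B
  have hQc : Nat.card Q = q ^ (Nat.card K).factorization q := by
    rw [hQdef, card_map_of_injective K.subtype_injective, P.card_eq_multiplicity]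
  simp only [hfixc, htop, hpart _ le_rfl, hpart _ (hBE _), hQc] at main
  rw [← pow_mul, ← pow_add, Finset.prod_pow_eq_pow_sum] at main
  rw [mul_comm p]
  exact Nat.pow_right_injective hq.two_le main

end CfsgLib.Local.FPF
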