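import Mathlib
import Cfsg.Prelude.Def_LieExceptional
import Cfsg.Agent.Lib.CharCN5
import Cfsg.Agent.Lib.LocalPGVBase

/-!
# Two elements acting quadratically: a central involution on a section
-/

set_option autoImplicit false

namespace CfsgLib.Local.Invert

open CfsgLib.Local.PGV Matrix

section Matrices

variable {K : Type*} [Field K] [Finite K]

/-- A finite group of matrices of determinant one containing two opposite transvections contains
`-1` when the characteristic is odd. -/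
theorem exists_neg_one (h2 : (2 : K) ≠ 0) {γ : K} (hγ : γ ≠ 0)
    (Γ : Subgroup (Matrix.SpecialLinearGroup (Fin 2) K))
    {X Y : Matrix.SpecialLinearGroup (Fin 2) K} (hX : X ∈ Γ) (hY : Y ∈ Γ)
    (hXv : (X : Matrix (Fin 2) (Fin 2) K) = !![1, γ; 0, 1])
    (hYv : (Y : Matrix (Fin 2) (Fin 2) K) = !![1, 0; 1, 1]) :
    ∃ Z ∈ Γ, (Z : Matrix (Fin 2) (Fin 2) K) = !![-1, 0; 0, -1] := by
  classical
  by_contra hno
  -- the product rule
  have hmul : ∀ g h : Matrix.SpecialLinearGroup (Fin 2) K, ∀ i j,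
      ((g * h : Matrix.SpecialLinearGroup (Fin 2) K) : Matrix (Fin 2) (Fin 2) K) i j =
        g.1 i 0 * h.1 0 j + g.1 i 1 * h.1 1 j := fun g h i j => by
    rw [Matrix.SpecialLinearGroup.coe_mul, Matrix.mul_apply, Fin.sum_univ_two]
  have hext : ∀ g h : Matrix.SpecialLinearGroup (Fin 2) K, g.1 0 0 = h.1 0 0 → g.1 0 1 = h.1 0 1 →
      g.1 1 0 = h.1 1 0 → g.1 1 1 = h.1 1 1 → g = h := fun g h a b c d => by
    refine Subtype.ext (Matrix.ext fun i j => ?_)
    fin_cases i <;> fin_cases j <;> assumption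
  have hone : ∀ i j, ((1 : Matrix.SpecialLinearGroup (Fin 2) K) : Matrix (Fin 2) (Fin 2) K) i j =
      (1 : Matrix (Fin 2) (Fin 2) K) i j := fun i j => rfl
  have hdet : ∀ g : Matrix.SpecialLinearGroup (Fin 2) K,
      g.1 0 0 * g.1 1 1 - g.1 0 1 * g.1 1 0 = 1 := fun g => by
    have := g.2
    rwa [Matrix.det_fin_two] at this
  -- elements which are not scalar
  have hscal : ∀ g ∈ Γ, g ≠ 1 → g.1 0 1 = 0 → g.1 1 0 = 0 → g.1 0 0 = g.1 1 1 → False := by
    intro g hg hg1 hb hc hd
    have h := hdet g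
    rw [hb, zero_mul, sub_zero, hd] at h
    rcases mul_self_eq_one_iff.1 h with h' | h'
    · exact hg1 (hext g 1 (by rw [hone, hd, h']; rfl) (by rw [hone, hb]; rfl) (by rw [hone, hc]; rfl)
        (by rw [hone, h']; rfl))
    · refine hno ⟨g, hg, ?_⟩
      ext i j
      fin_cases i <;> fin_cases j <;> simp_all
  -- no involution
  have hinv : ∀ g ∈ Γ, g * g = 1 → g = 1 := by
    intro g hg hgg
    have e00 := hmul g g 0 0
    have e01 := hmul g g 0 1
    have e10 := hmul g g 1 0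
    rw [hgg, hone] at e00 e01 e10
    simp at e00 e01 e10
    have hd := hdet g
    have hne : g.1 0 0 + g.1 1 1 ≠ 0 := fun e => h2 (by
      linear_combination e00 - hd + g.1 0 0 * e)
    have hb : g.1 0 1 = 0 := by
      have h : g.1 0 1 * (g.1 0 0 + g.1 1 1) = 0 := by linear_combination -e01
      exact (mul_eq_zero.1 h).resolve_right hne
    have hc : g.1 1 0 = 0 := by
      have h : g.1 1 0 * (g.1 0 0 + g.1 1 1) = 0 := by linear_combination -e10
      exact (mul_eq_zero.1 h).resolve_right hne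
    by_contra hg1
    refine hscal g hg hg1 hb hc ?_
    rw [hb, zero_mul, sub_zero] at hd
    rw [hb, zero_mul, add_zero] at e00
    have h0 : g.1 0 0 ≠ 0 := fun e => by rw [e, zero_mul] at hd; exact zero_ne_one hd
    exact mul_left_cancel₀ h0 (by rw [hd, ← e00])
  -- centralisers are abelian
  have hcomm : ∀ g ∈ Γ, g ≠ 1 → ∀ x y : Matrix.SpecialLinearGroup (Fin 2) K,
      g * x = x * g → g * y = y * g → x * y = y * x := by
    intro g hg hg1 x y hx hy
    set a := g.1 0 0; set b := g.1 0 1; set c := g.1 1 0; set d := g.1 1 1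
    have key : ∀ z : Matrix.SpecialLinearGroup (Fin 2) K, g * z = z * g →
        b * z.1 1 0 = c * z.1 0 1 ∧ b * (z.1 0 0 - z.1 1 1) = z.1 0 1 * (a - d) ∧
          c * (z.1 0 0 - z.1 1 1) = z.1 1 0 * (a - d) := by
      intro z hz
      have e00 := congrArg (fun w : Matrix.SpecialLinearGroup (Fin 2) K => w.1 0 0) hz
      have e01 := congrArg (fun w : Matrix.SpecialLinearGroup (Fin 2) K => w.1 0 1) hz
      have e10 := congrArg (fun w : Matrix.SpecialLinearGroup (Fin 2) K => w.1 1 0) hz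
      simp only [hmul] at e00 e01 e10
      refine ⟨by linear_combination e00, by linear_combination -e01, by linear_combination e10⟩
    obtain ⟨x1, x2, x3⟩ := key x hx
    obtain ⟨y1, y2, y3⟩ := key y hy
    obtain ⟨A1, A2, A3⟩ : x.1 0 1 * y.1 1 0 = y.1 0 1 * x.1 1 0 ∧
        x.1 0 1 * (y.1 0 0 - y.1 1 1) = y.1 0 1 * (x.1 0 0 - x.1 1 1) ∧
        x.1 1 0 * (y.1 0 0 - y.1 1 1) = y.1 1 0 * (x.1 0 0 - x.1 1 1) := by
      by_cases hb : b = 0
      · by_cases hc : c = 0
        · have had : a - d ≠ 0 := fun e => hscal g hg hg1 hb hc (sub_eq_zero.1 e)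
          refine ⟨?_, ?_, ?_⟩ <;> refine mul_left_cancel₀ had ?_
          · have hx01 : x.1 0 1 * (a - d) = 0 := by rw [← x2, hb, zero_mul]
            have hy01 : y.1 0 1 * (a - d) = 0 := by rw [← y2, hb, zero_mul]
            linear_combination y.1 1 0 * hx01 - x.1 1 0 * hy01
          · have hx01 : x.1 0 1 * (a - d) = 0 := by rw [← x2, hb, zero_mul]
            have hy01 : y.1 0 1 * (a - d) = 0 := by rw [← y2, hb, zero_mul]
            linear_combination (y.1 0 0 - y.1 1 1) * hx01 - (x.1 0 0 - x.1 1 1) * hy01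
          · have hx10 : x.1 1 0 * (a - d) = 0 := by rw [← x3, hc, zero_mul]
            have hy10 : y.1 1 0 * (a - d) = 0 := by rw [← y3, hc, zero_mul]
            linear_combination (y.1 0 0 - y.1 1 1) * hx10 - (x.1 0 0 - x.1 1 1) * hy10
        · refine ⟨?_, ?_, ?_⟩ <;> refine mul_left_cancel₀ hc ?_
          · linear_combination x.1 1 0 * y1 - y.1 1 0 * x1
          · linear_combination (x.1 0 0 - x.1 1 1) * y1 - (y.1 0 0 - y.1 1 1) * x1 +
              ((y.1 0 0 - y.1 1 1) * x.1 1 0 - (x.1 0 0 - x.1 1 1) * y.1 1 0) * hb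
          · linear_combination x.1 1 0 * y3 - y.1 1 0 * x3
      · have A1 : x.1 0 1 * y.1 1 0 = y.1 0 1 * x.1 1 0 := mul_left_cancel₀ hb (by
          linear_combination x.1 0 1 * y1 - y.1 0 1 * x1)
        refine ⟨A1, ?_, ?_⟩ <;> refine mul_left_cancel₀ hb ?_
        · linear_combination x.1 0 1 * y2 - y.1 0 1 * x2
        · linear_combination x.1 1 0 * y2 - y.1 1 0 * x2 - (a - d) * A1
    refine hext _ _ ?_ ?_ ?_ ?_ <;> rw [hmul, hmul]
    · linear_combination A1
    · linear_combination -A2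
    · linear_combination A3
    · linear_combination -A1
  -- so the group is soluble
  have hodd : Odd (Nat.card ↥Γ) := by
    by_contra he
    rw [Nat.not_odd_iff_even] at he
    haveI : Fact (Nat.Prime 2) := ⟨Nat.prime_two⟩
    obtain ⟨g, hg⟩ := exists_prime_orderOf_dvd_card' 2 (G := ↥Γ) (even_iff_two_dvd.1 he)
    have h := pow_orderOf_eq_one g
    rw [hg, pow_two] at h
    have : (g : Matrix.SpecialLinearGroup (Fin 2) K) = 1 := hinv g g.2 (congrArg Subtype.val h)
    rw [orderOf_eq_one_iff.2 (Subtype.ext this : g = 1)] at hg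
    norm_num at hg
  have hCN : Cfsg.IsCNGroup ↥Γ := by
    intro g hg1
    letI : CommGroup ↥(Subgroup.centralizer ({g} : Set ↥Γ)) :=
      { (inferInstance : Group ↥(Subgroup.centralizer ({g} : Set ↥Γ))) with
        mul_comm := fun x y => Subtype.ext
          (Subtype.ext (hcomm g g.2 (fun e => hg1 (Subtype.ext e)) _ _
            (congrArg Subtype.val (Subgroup.mem_centralizer_singleton_iff.1 x.2)).symm
            (congrArg Subtype.val (Subgroup.mem_centralizer_singleton_iff.1 y.2)).symm)) }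
    exact CommGroup.isNilpotent
  haveI hsol : Group.IsSolvable ↥Γ := CfsgLib.CN.isSolvable_of_odd _ _ rfl hodd hCN
  have hX1 : (⟨X, hX⟩ : ↥Γ) ≠ 1 := fun e => hγ (by
    have h := congrArg (fun w : ↥Γ => w.1.1 0 1) e
    simpa [hXv, hone] using h)
  obtain ⟨n, hn⟩ := (Group.isSolvable_def _).1 hsol
  obtain ⟨M, hMn, hM1, hMc⟩ : ∃ M : Subgroup ↥Γ, M.Normal ∧ M ≠ ⊥ ∧
      ∀ x ∈ M, ∀ y ∈ M, x * y = y * x := by
    have hex : ∃ n, derivedSeries ↥Γ n = ⊥ := ⟨n, hn⟩
    have h0 : Nat.find hex ≠ 0 := fun e => by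
      have := Nat.find_spec hex
      rw [e, derivedSeries_zero] at this
      exact hX1 (Subgroup.mem_bot.1 (this ▸ Subgroup.mem_top (⟨X, hX⟩ : ↥Γ)))
    obtain ⟨k, hk⟩ := Nat.exists_eq_succ_of_ne_zero h0
    refine ⟨derivedSeries ↥Γ k, derivedSeries_normal _ _, Nat.find_min hex (by omega), ?_⟩
    have h := Nat.find_spec hex
    rw [hk, derivedSeries_succ] at h
    intro x hx y hy
    exact (Subgroup.mem_centralizer_iff.1
      (Subgroup.commutator_eq_bot_iff_le_centralizer.1 h hx) y hy).symm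
  obtain ⟨x, hxM, hx1⟩ := (Subgroup.bot_or_exists_ne_one M).resolve_left hM1
  set p := x.1.1 0 0 with hp; set q := x.1.1 0 1 with hq; set r := x.1.1 1 0 with hr
  set s := x.1.1 1 1 with hs
  have hconj : ∀ g : ↥Γ, ∀ y : ↥Γ, g * x = y * g →
      q * y.1.1 1 0 = r * y.1.1 0 1 ∧ q * (y.1.1 0 0 - y.1.1 1 1) = y.1.1 0 1 * (p - s) ∧
        r * (y.1.1 0 0 - y.1.1 1 1) = y.1.1 1 0 * (p - s) := by
    intro g y hy
    have hym : y ∈ M := by
      have := hMn.conj_mem x hxM g
      rwa [hy, mul_inv_cancel_right] at this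
    have hz : x.1 * y.1 = y.1 * x.1 := congrArg Subtype.val (hMc x hxM y hym)
    have e00 := congrArg (fun w : Matrix.SpecialLinearGroup (Fin 2) K => w.1 0 0) hz
    have e01 := congrArg (fun w : Matrix.SpecialLinearGroup (Fin 2) K => w.1 0 1) hz
    have e10 := congrArg (fun w : Matrix.SpecialLinearGroup (Fin 2) K => w.1 1 0) hz
    simp only [hmul] at e00 e01 e10
    exact ⟨by linear_combination e00, by linear_combination -e01, by linear_combination e10⟩
  have hr0 : r = 0 := by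
    set y : ↥Γ := ⟨X, hX⟩ * x * (⟨X, hX⟩ : ↥Γ)⁻¹ with hy
    have hyx : (⟨X, hX⟩ : ↥Γ) * x = y * ⟨X, hX⟩ := by rw [hy, inv_mul_cancel_right]
    have e00 := congrArg (fun w : ↥Γ => w.1.1 0 0) hyx
    have e10 := congrArg (fun w : ↥Γ => w.1.1 1 0) hyx
    have e11 := congrArg (fun w : ↥Γ => w.1.1 1 1) hyx
    simp only [Subgroup.coe_mul, hmul, hXv] at e00 e10 e11
    simp at e00 e10 e11
    obtain ⟨c1, c2, c3⟩ := hconj _ y hyx
    rw [← e10] at c3
    have h : r * r * (2 * γ) = 0 := by linear_combination c3 + r * (e00 - e11) + r * γ * e10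
    rcases mul_eq_zero.1 h with h' | h'
    · exact mul_self_eq_zero.1 h'
    · exact absurd h' (mul_ne_zero h2 hγ)
  have hq0 : q = 0 := by
    set y : ↥Γ := ⟨Y, hY⟩ * x * (⟨Y, hY⟩ : ↥Γ)⁻¹ with hy
    have hyx : (⟨Y, hY⟩ : ↥Γ) * x = y * ⟨Y, hY⟩ := by rw [hy, inv_mul_cancel_right]
    have e00 := congrArg (fun w : ↥Γ => w.1.1 0 0) hyx
    have e01 := congrArg (fun w : ↥Γ => w.1.1 0 1) hyx
    have e11 := congrArg (fun w : ↥Γ => w.1.1 1 1) hyx
    simp only [Subgroup.coe_mul, hmul, hYv] at e00 e01 e11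
    simp at e00 e01 e11
    obtain ⟨c1, c2, c3⟩ := hconj _ y hyx
    rw [← e01] at c2
    have h : q * q * 2 = 0 := by linear_combination -c2 + q * (e11 - e00) + q * e01
    rcases mul_eq_zero.1 h with h' | h'
    · exact mul_self_eq_zero.1 h'
    · exact absurd h' h2
  have hps : p = s := by
    set y : ↥Γ := ⟨Y, hY⟩ * x * (⟨Y, hY⟩ : ↥Γ)⁻¹ with hy
    have hyx : (⟨Y, hY⟩ : ↥Γ) * x = y * ⟨Y, hY⟩ := by rw [hy, inv_mul_cancel_right]
    have e10 := congrArg (fun w : ↥Γ => w.1.1 1 0) hyx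
    have e11 := congrArg (fun w : ↥Γ => w.1.1 1 1) hyx
    simp only [Subgroup.coe_mul, hmul, hYv] at e10 e11
    simp at e10 e11
    obtain ⟨c1, c2, c3⟩ := hconj _ y hyx
    rw [hr0, zero_mul] at c3
    rw [← hr, hr0] at e10
    rw [← hs, ← hq, hq0] at e11
    have h : (p - s) * (p - s) = 0 := by
      linear_combination (p - s) * (e10 - e11) - c3
    exact sub_eq_zero.1 (mul_self_eq_zero.1 h)
  exact hscal x x.2 (fun e => hx1 (Subtype.ext e)) hq0 hr0 hps

end Matrices

section Pair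

universe v

variable {G : Type*} [Group G] {p : ℕ} [hp : Fact p.Prime]

/-- Two elements acting quadratically, generating a group which does not act as a `p`-group, give an
element which is a central involution modulo a normal subgroup containing the kernel. -/
theorem central_of_quadratic_pair (hodd : p ≠ 2) (a b : G) (hgen : Subgroup.closure {a, b} = ⊤) :
    ∀ (U : Type v) [AddCommGroup U] [Finite U] [Module (ZMod p) U]
      (ρ : Representation (ZMod p) G U), (∀ u, ρ a (ρ a u - u) = ρ a u - u) →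
      (∀ u, ρ b (ρ b u - u) = ρ b u - u) →
      (∃ y : G, (orderOf y).Coprime p ∧ ∃ u, ρ y u ≠ u) →
      ∃ N : Subgroup G, N.Normal ∧ (∀ g, (∀ u, ρ g u = u) → g ∈ N) ∧
        ∃ z, z ∉ N ∧ z * z ∈ N ∧ ∀ g, z * g * z⁻¹ * g⁻¹ ∈ N := by
  intro U
  induction hn : Nat.card U using Nat.strong_induction_on generalizing U with
  | _ n ih =>
  subst hn
  intro iA iF iM ρ qa qb ⟨y, hy, u₀, hu₀⟩
  classical
  have hinv : ∀ W : AddSubgroup U, (∀ w ∈ W, ρ a w ∈ W) → (∀ w ∈ W, ρ b w ∈ W) →
      ∀ g : G, ∀ w ∈ W, ρ g w ∈ W := by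
    intro W ha hb g
    have hg : g ∈ Subgroup.closure ({a, b} : Set G) := by rw [hgen]; exact Subgroup.mem_top g
    induction hg using Subgroup.closure_induction with
    | mem x hx => rcases hx with rfl | rfl <;> assumption
    | one => intro w hw; rwa [rho_one]
    | mul x y _ _ hx hy => intro w hw; rw [rho_mul]; exact hx _ (hy w hw)
    | inv x _ hx =>
      intro w hw
      have hbij : Function.Bijective (fun z : ↥W => (⟨ρ x z, hx _ z.2⟩ : ↥W)) :=
        Finite.injective_iff_bijective.1 (fun z z' h => Subtype.ext (rho_inj ρ (congrArg Subtype.val h)))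
      obtain ⟨⟨z, hz⟩, he⟩ := hbij.2 ⟨w, hw⟩
      have he' : ρ x z = w := congrArg Subtype.val he
      rwa [← he', ← rho_mul, inv_mul_cancel, rho_one]
  by_cases hirr : ∀ W : AddSubgroup U, (∀ w ∈ W, ρ a w ∈ W) → (∀ w ∈ W, ρ b w ∈ W) → W = ⊥ ∨ W = ⊤
  swap
  · push_neg at hirr
    obtain ⟨W, ha, hb, hWb, hWt⟩ := hirr
    let Ws : Submodule (ZMod p) U := AddSubgroup.toZModSubmodule p W
    have hmem : ∀ u, u ∈ Ws ↔ u ∈ W := fun u => Iff.rfl
    have hWs : ∀ g : G, ∀ w ∈ Ws, ρ g w ∈ Ws := hinv W ha hb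
    by_cases hyW : ∃ w ∈ W, ρ y w ≠ w
    · obtain ⟨w, hw, hne⟩ := hyW
      let σ : Representation (ZMod p) G ↥Ws :=
        { toFun := fun g => (ρ g).restrict (hWs g)
          map_one' := LinearMap.ext fun v => Subtype.ext (rho_one ρ (v : U))
          map_mul' := fun g h => LinearMap.ext fun v => Subtype.ext (rho_mul ρ g h (v : U)) }
      have hlt : Nat.card ↥Ws < Nat.card U := lt_of_le_of_ne
        (Nat.card_le_card_of_injective _ Subtype.val_injective) fun e => hWt (eq_top_iff.2 fun u _ => by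
          obtain ⟨⟨z, hz⟩, rfl⟩ :=
            ((Nat.bijective_iff_injective_and_card (Subtype.val : ↥Ws → U)).2
              ⟨Subtype.val_injective, e⟩).2 u
          exact hz)
      obtain ⟨N, hN, hker, z, hz⟩ := ih _ hlt ↥Ws rfl σ (fun u => Subtype.ext (qa (u : U)))
        (fun u => Subtype.ext (qb (u : U))) ⟨y, hy, ⟨w, hw⟩, fun e => hne (congrArg Subtype.val e)⟩
      exact ⟨N, hN, fun g hg => hker g fun u => Subtype.ext (hg u), z, hz⟩
    · push_neg at hyW
      let σ : Representation (ZMod p) G (U ⧸ Ws) :=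
        { toFun := fun g => Ws.mapQ Ws (ρ g) (hWs g)
          map_one' := LinearMap.ext fun q => Submodule.Quotient.induction_on _ q fun v =>
            congrArg Submodule.Quotient.mk (rho_one ρ v)
          map_mul' := fun g h => LinearMap.ext fun q => Submodule.Quotient.induction_on _ q fun v =>
            congrArg Submodule.Quotient.mk (rho_mul ρ g h v) }
      haveI : Finite (U ⧸ Ws) := Finite.of_surjective _ (Submodule.mkQ_surjective Ws)
      have hlt : Nat.card (U ⧸ Ws) < Nat.card U := by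
        refine lt_of_le_of_ne (Nat.card_le_card_of_surjective _ (Submodule.mkQ_surjective Ws)) fun e => hWb ?_
        have hb' := (Nat.bijective_iff_surjective_and_card _).2 ⟨Submodule.mkQ_surjective Ws, e.symm⟩
        refine eq_bot_iff.2 fun u hu => AddSubgroup.mem_bot.2 (hb'.1 ?_)
        rw [map_zero, Submodule.mkQ_apply, Submodule.Quotient.mk_eq_zero]
        exact hu
      have hne : σ y (Submodule.Quotient.mk u₀) ≠ Submodule.Quotient.mk u₀ := fun e => hu₀
        (fixed_of_sub_fixed ρ hy (hyW _ ((Submodule.Quotient.eq Ws).1 e)))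
      obtain ⟨N, hN, hker, z, hz⟩ := ih _ hlt (U ⧸ Ws) rfl σ
        (fun q => Submodule.Quotient.induction_on _ q fun v => congrArg Submodule.Quotient.mk (qa v))
        (fun q => Submodule.Quotient.induction_on _ q fun v => congrArg Submodule.Quotient.mk (qb v))
        ⟨y, hy, _, hne⟩
      exact ⟨N, hN, fun g hg => hker g fun q => Submodule.Quotient.induction_on _ q fun v =>
        congrArg Submodule.Quotient.mk (hg v), z, hz⟩
  -- the irreducible case
  set α : Module.End (ZMod p) U := ρ a - 1 with hα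
  set β : Module.End (ZMod p) U := ρ b - 1 with hβ
  have hαv : ∀ u, α u = ρ a u - u := fun u => rfl
  have hβv : ∀ u, β u = ρ b u - u := fun u => rfl
  have hα2 : ∀ u, α (α u) = 0 := fun u => by rw [hαv, hαv, qa, sub_self]
  have hβ2 : ∀ u, β (β u) = 0 := fun u => by rw [hβv, hβv, qb, sub_self]
  set γ : Module.End (ZMod p) U := α * β + β * α with hγ
  have hγv : ∀ u, γ u = α (β u) + β (α u) := fun u => rfl
  have hγα : Commute α γ := by
    refine LinearMap.ext fun u => ?_
    show α (γ u) = γ (α u)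
    rw [hγv, hγv, map_add, hα2, hα2, map_zero, zero_add, add_zero]
  have hγβ : Commute β γ := by
    refine LinearMap.ext fun u => ?_
    show β (γ u) = γ (β u)
    rw [hγv, hγv, map_add, hβ2, hβ2, map_zero, zero_add, add_zero]
  have hfixbot : ∀ u, α u = 0 → β u = 0 → u = 0 := by
    intro u h1 h2
    by_contra hu
    let W : AddSubgroup U := α.toAddMonoidHom.ker ⊓ β.toAddMonoidHom.ker
    have hWa : ∀ w ∈ W, ρ a w = w := fun w hw => sub_eq_zero.1 ((hαv w).symm.trans hw.1)
    have hWb : ∀ w ∈ W, ρ b w = w := fun w hw => sub_eq_zero.1 ((hβv w).symm.trans hw.2)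
    rcases hirr W (fun w hw => by rwa [hWa w hw]) (fun w hw => by rwa [hWb w hw]) with h | h
    · exact hu (AddSubgroup.mem_bot.1 (h ▸ (⟨h1, h2⟩ : u ∈ W)))
    · have hle : Subgroup.closure ({a, b} : Set G) ≤ pointFix ρ Set.univ := by
        rw [Subgroup.closure_le]
        intro g hg
        refine (mem_pointFix ρ).2 fun w _ => ?_
        rcases hg with rfl | rfl
        · exact hWa w (h ▸ AddSubgroup.mem_top w)
        · exact hWb w (h ▸ AddSubgroup.mem_top w)
      exact hu₀ ((mem_pointFix ρ).1 (hle (hgen ▸ Subgroup.mem_top y)) u₀ trivial)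
  have hcom0 : ∀ T : Module.End (ZMod p) U, Commute α T → Commute β T → T ≠ 0 →
      Function.Injective T := by
    intro T hTa hTb hT0
    rw [injective_iff_map_eq_zero]
    intro u hu
    have hk : ∀ g : G, (∀ w, T (ρ g w) = ρ g (T w)) → ∀ w ∈ T.toAddMonoidHom.ker,
        ρ g w ∈ T.toAddMonoidHom.ker := fun g hg w hw => by
      show T (ρ g w) = 0
      rw [hg, show T w = 0 from hw, map_zero]
    have hTρa : ∀ w, T (ρ a w) = ρ a (T w) := fun w => by
      have h : α (T w) = T (α w) := congrArg (fun L : Module.End (ZMod p) U => L w) hTa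
      rw [hαv, hαv, map_sub, sub_left_inj] at h
      exact h.symm
    have hTρb : ∀ w, T (ρ b w) = ρ b (T w) := fun w => by
      have h : β (T w) = T (β w) := congrArg (fun L : Module.End (ZMod p) U => L w) hTb
      rw [hβv, hβv, map_sub, sub_left_inj] at h
      exact h.symm
    rcases hirr T.toAddMonoidHom.ker (hk a hTρa) (hk b hTρb) with h | h
    · exact AddSubgroup.mem_bot.1 (h ▸ (hu : u ∈ T.toAddMonoidHom.ker))
    · exact absurd (LinearMap.ext fun w => (show T w = 0 from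
        (h ▸ AddSubgroup.mem_top w : w ∈ T.toAddMonoidHom.ker))) hT0
  -- `γ` is not zero
  have hγ0 : γ ≠ 0 := by
    intro e
    have e' : ∀ u, α (β u) + β (α u) = 0 := fun u => by rw [← hγv, e]; rfl
    have hu0 : u₀ ≠ 0 := fun h => hu₀ (by rw [h, map_zero])
    obtain ⟨v, hv0, hv⟩ : ∃ v, v ≠ 0 ∧ α v = 0 := by
      by_cases h : α u₀ = 0
      · exact ⟨u₀, hu0, h⟩
      · exact ⟨α u₀, h, hα2 u₀⟩
    have h1 : α (β v) = 0 := by
      have := e' v
      rwa [hv, map_zero, add_zero] at this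
    have h2 : β v = 0 := hfixbot _ h1 (hβ2 v)
    exact hv0 (hfixbot _ hv h2)
  -- the field
  let K := Algebra.adjoin (ZMod p) ({γ} : Set (Module.End (ZMod p) U))
  have hKα : ∀ c : ↥K, Commute α (c : Module.End (ZMod p) U) := fun c =>
    Algebra.commute_of_mem_adjoin_singleton_of_commute c.2 hγα
  have hKβ : ∀ c : ↥K, Commute β (c : Module.End (ZMod p) U) := fun c =>
    Algebra.commute_of_mem_adjoin_singleton_of_commute c.2 hγβ
  letI : CommRing ↥K :=
    { (inferInstance : Ring ↥K) with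
      mul_comm := fun x y => Subtype.ext ((Algebra.commute_of_mem_adjoin_singleton_of_commute x.2
        (Algebra.commute_of_mem_adjoin_singleton_of_commute y.2 (Commute.refl γ)).symm).symm.eq) }
  haveI : Nontrivial ↥K := ⟨⟨0, ⟨γ, Algebra.subset_adjoin rfl⟩, fun e => hγ0 (congrArg Subtype.val e).symm⟩⟩
  haveI : NoZeroDivisors ↥K := ⟨fun {x y} hxy => by
    by_contra h
    push_neg at h
    have hx' : (x : Module.End (ZMod p) U) ≠ 0 := fun e => h.1 (Subtype.ext e)
    refine h.2 (Subtype.ext (LinearMap.ext fun w => hcom0 _ (hKα x) (hKβ x) hx' ?_))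
    have : (x : Module.End (ZMod p) U) * (y : Module.End (ZMod p) U) = 0 := congrArg Subtype.val hxy
    rw [show (x : Module.End (ZMod p) U) ((y : Module.End (ZMod p) U) w) = 0 from
      congrArg (fun L : Module.End (ZMod p) U => L w) this]
    exact (map_zero _).symm⟩
  haveI : IsDomain ↥K := NoZeroDivisors.to_isDomain _
  haveI : Finite (Module.End (ZMod p) U) := Finite.of_injective _ DFunLike.coe_injective
  letI : Field ↥K := (Finite.isField_of_domain ↥K).toField
  set γK : ↥K := ⟨γ, Algebra.subset_adjoin rfl⟩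
  have hK2 : (2 : ↥K) ≠ 0 := by
    intro e
    have h : ∀ u : U, u + u = 0 := fun u => by
      have h' := congrArg (fun c : ↥K => (c : Module.End (ZMod p) U) u) ((one_add_one_eq_two (R := ↥K)).trans e)
      simpa using h'
    have hu0 : u₀ ≠ 0 := fun h => hu₀ (by rw [h, map_zero])
    refine hu0 (AddMonoid.addOrderOf_eq_one_iff.1 (Nat.eq_one_of_dvd_coprimes
      ((Nat.coprime_primes hp.out Nat.prime_two).2 hodd)
      (addOrderOf_dvd_of_nsmul_eq_zero (p_nsmul (p := p) u₀))
      (addOrderOf_dvd_of_nsmul_eq_zero (by rw [two_nsmul]; exact h u₀))))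
  -- coordinates
  obtain ⟨u₁, hu₁⟩ : ∃ u, α u ≠ 0 := by
    by_contra h
    push_neg at h
    exact hγ0 (LinearMap.ext fun u => by rw [hγv, h, h, map_zero, add_zero]; rfl)
  set v := α u₁ with hv
  set w := β v with hw
  have hαv0 : α v = 0 := hα2 u₁
  have hαw : α w = γ v := by rw [hγv, hαv0, map_zero, add_zero]
  have hβw : β w = 0 := hβ2 v
  let e : (Fin 2 → ↥K) →+ U :=
    { toFun := fun f => (f 0 : Module.End (ZMod p) U) v + (f 1 : Module.End (ZMod p) U) w
      map_zero' := by simp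
      map_add' := fun f g => by simp [add_add_add_comm] }
  have heapp : ∀ f, e f = (f 0 : Module.End (ZMod p) U) v + (f 1 : Module.End (ZMod p) U) w :=
    fun f => rfl
  have hmulK : ∀ (c d : ↥K) (u : U), ((c * d : ↥K) : Module.End (ZMod p) U) u =
      (c : Module.End (ZMod p) U) ((d : Module.End (ZMod p) U) u) := fun c d u => rfl
  have hcα : ∀ (c : ↥K) (u : U), α ((c : Module.End (ZMod p) U) u) = (c : Module.End (ZMod p) U) (α u) :=
    fun c u => congrArg (fun L : Module.End (ZMod p) U => L u) (hKα c)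
  have hcβ : ∀ (c : ↥K) (u : U), β ((c : Module.End (ZMod p) U) u) = (c : Module.End (ZMod p) U) (β u) :=
    fun c u => congrArg (fun L : Module.End (ZMod p) U => L u) (hKβ c)
  have hcγ : ∀ (c : ↥K) (u : U), (c : Module.End (ZMod p) U) (γ u) = γ ((c : Module.End (ZMod p) U) u) :=
    fun c u => by rw [← hmulK c γK u, mul_comm, hmulK]
  have hρa : ∀ f : Fin 2 → ↥K, ρ a (e f) = e (!![1, γK; 0, 1] *ᵥ f) := by
    intro f
    have h : ρ a (e f) = α (e f) + e f := by rw [hαv, sub_add_cancel]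
    rw [h, heapp, heapp, map_add, hcα, hcα, hαv0, hαw, map_zero, zero_add, hcγ]
    simp [Matrix.mulVec, Matrix.vecMul, dotProduct, Fin.sum_univ_two]
    abel
  have hρb : ∀ f : Fin 2 → ↥K, ρ b (e f) = e (!![1, 0; 1, 1] *ᵥ f) := by
    intro f
    have h : ρ b (e f) = β (e f) + e f := by rw [hβv, sub_add_cancel]
    rw [h, heapp, heapp, map_add, hcβ, hcβ, ← hw, hβw, map_zero, add_zero]
    simp [Matrix.mulVec, Matrix.vecMul, dotProduct, Fin.sum_univ_two]
    abel
  have hetop : e.range = ⊤ := by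
    refine (hirr e.range ?_ ?_).resolve_left fun hb => hu₁ ?_
    · rintro _ ⟨f, rfl⟩; exact ⟨_, (hρa f).symm⟩
    · rintro _ ⟨f, rfl⟩; exact ⟨_, (hρb f).symm⟩
    · have : e ![1, 0] ∈ e.range := ⟨_, rfl⟩
      rw [hb, AddSubgroup.mem_bot, heapp] at this
      simpa using this
  let Γ : Subgroup (Matrix.SpecialLinearGroup (Fin 2) ↥K) :=
    { carrier := {M | ∃ g : G, ∀ f, ρ g (e f) = e ((M : Matrix (Fin 2) (Fin 2) ↥K) *ᵥ f)}
      mul_mem' := fun {M M'} ⟨g, hg⟩ ⟨g', hg'⟩ => ⟨g * g', fun f => by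
        rw [rho_mul, hg', hg, Matrix.SpecialLinearGroup.coe_mul, Matrix.mulVec_mulVec]⟩
      one_mem' := ⟨1, fun f => by rw [rho_one, Matrix.SpecialLinearGroup.coe_one, Matrix.one_mulVec]⟩
      inv_mem' := fun {M} ⟨g, hg⟩ => ⟨g⁻¹, fun f => by
        have h := hg (((M⁻¹ : Matrix.SpecialLinearGroup (Fin 2) ↥K) : Matrix (Fin 2) (Fin 2) ↥K) *ᵥ f)
        rw [Matrix.mulVec_mulVec, ← Matrix.SpecialLinearGroup.coe_mul, mul_inv_cancel,
          Matrix.SpecialLinearGroup.coe_one, Matrix.one_mulVec] at h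
        rw [← h, ← rho_mul, inv_mul_cancel, rho_one]⟩ }
  obtain ⟨Z, ⟨z, hz⟩, hZv⟩ := exists_neg_one hK2 (γ := γK)
    (fun e => hγ0 (congrArg Subtype.val e)) Γ
    (X := ⟨!![1, γK; 0, 1], by simp [Matrix.det_fin_two]⟩)
    (Y := ⟨!![1, 0; 1, 1], by simp [Matrix.det_fin_two]⟩) ⟨a, hρa⟩ ⟨b, hρb⟩ rfl rfl
  have hzneg : ∀ u, ρ z u = -u := by
    intro u
    obtain ⟨f, rfl⟩ : u ∈ e.range := hetop ▸ AddSubgroup.mem_top u
    rw [hz f, hZv, ← map_neg]
    congr 1
    funext i
    fin_cases i <;> simp [Matrix.mulVec, dotProduct, Fin.sum_univ_two]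
  refine ⟨pointFix ρ Set.univ, ⟨fun n hn g => (mem_pointFix ρ).2 fun u _ => ?_⟩,
    fun g hg => (mem_pointFix ρ).2 fun u _ => hg u, z, fun hzN => ?_, ?_, fun g => ?_⟩
  · rw [rho_mul, rho_mul, (mem_pointFix ρ).1 hn _ trivial, ← rho_mul, mul_inv_cancel, rho_one]
  · have h := (mem_pointFix ρ).1 hzN u₀ trivial
    rw [hzneg] at h
    have h2 : (2 : ℕ) • u₀ = 0 := by
      rw [two_nsmul]; nth_rewrite 1 [← h]; exact neg_add_cancel u₀
    have hu0 : u₀ ≠ 0 := fun h => hu₀ (by rw [h, map_zero])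
    exact hu0 (AddMonoid.addOrderOf_eq_one_iff.1 (Nat.eq_one_of_dvd_coprimes
      ((Nat.coprime_primes hp.out Nat.prime_two).2 hodd)
      (addOrderOf_dvd_of_nsmul_eq_zero (p_nsmul (p := p) u₀))
      (addOrderOf_dvd_of_nsmul_eq_zero h2)))
  · exact (mem_pointFix ρ).2 fun u _ => by rw [rho_mul, hzneg, hzneg, neg_neg]
  · refine (mem_pointFix ρ).2 fun u _ => ?_
    have hzinv : ρ z⁻¹ (ρ g⁻¹ u) = -(ρ g⁻¹ u) := by
      have h : ρ z (-(ρ g⁻¹ u)) = ρ g⁻¹ u := by rw [hzneg, neg_neg]
      conv_lhs => rw [← h]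
      rw [← rho_mul, inv_mul_cancel, rho_one]
    rw [rho_mul, rho_mul, rho_mul, hzinv, map_neg, ← rho_mul ρ g g⁻¹, mul_inv_cancel, rho_one,
      hzneg, neg_neg]

end Pair

end CfsgLib.Local.Invert
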