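import Mathlib
import Cfsg.Prelude.Def_PLocal
import Cfsg.Agent.Lib.StableThompson
import Cfsg.Agent.Lib.StableBridge
import Cfsg.Agent.Lib.CoreSubnormal
import Cfsg.Agent.Lib.CoreCoprime2
import Cfsg.Agent.Lib.CorePGroup
import Cfsg.Agent.Lib.LocalInvertLin
import Cfsg.Agent.Lib.LocalInvertZJ

/-!
# No `p`-element is inverted if none is inverted in `N(Z(J(T)))`
-/

set_option autoImplicit false

universe u

namespace CfsgLib.Local.Invert

open scoped Pointwise commutatorElement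
open CfsgLib.Core CfsgLib.Stable

section Basic

variable {G : Type*} [Group G]

/-- Some nontrivial `p`-element of `H` is inverted by an element of `H`. -/
def InvIn (p : ℕ) (H : Subgroup G) : Prop :=
  ∃ g ∈ H, ∃ x ∈ H, (∃ k, x ^ p ^ k = 1) ∧ x ≠ 1 ∧ g * x * g⁻¹ = x⁻¹

/-- The order of `z` is a power of two. -/
def IsTwo (z : G) : Prop := ∃ k, z ^ 2 ^ k = 1

variable [Finite G] {p : ℕ} [hp : Fact p.Prime]

theorem InvIn.mono {H K : Subgroup G} (h : InvIn p H) (hle : H ≤ K) : InvIn p K := by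
  obtain ⟨g, hg, x, hx, h⟩ := h
  exact ⟨g, hle hg, x, hle hx, h⟩

theorem InvIn.map {G' : Type*} [Group G'] (f : G →* G') (hf : Function.Injective f)
    {H : Subgroup G} (h : InvIn p H) : InvIn p (H.map f) := by
  obtain ⟨g, hg, x, hx, ⟨k, hk⟩, hx1, he⟩ := h
  refine ⟨f g, ⟨g, hg, rfl⟩, f x, ⟨x, hx, rfl⟩, ⟨k, by rw [← map_pow, hk, map_one]⟩,
    fun e => hx1 (hf (by rw [e, map_one])), ?_⟩
  rw [← map_inv, ← map_mul, ← map_mul, he, map_inv]

theorem invIn_top_subgroup {H : Subgroup G} (h : InvIn p H) : InvIn p (⊤ : Subgroup ↥H) := by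
  obtain ⟨g, hg, x, hx, ⟨k, hk⟩, hx1, he⟩ := h
  exact ⟨⟨g, hg⟩, Subgroup.mem_top _, ⟨x, hx⟩, Subgroup.mem_top _, ⟨k, Subtype.ext hk⟩,
    fun e => hx1 (congrArg Subtype.val e), Subtype.ext he⟩

/-- A power with odd exponent is a 2-element. -/
theorem exists_odd_isTwo (g : G) : ∃ m, Odd m ∧ IsTwo (g ^ m) := by
  obtain ⟨e, r, hr, hgr⟩ := Nat.exists_eq_pow_mul_and_not_dvd (orderOf_pos g).ne' 2 (by norm_num)
  refine ⟨r, Nat.not_even_iff_odd.1 fun h => hr (even_iff_two_dvd.1 h), e, ?_⟩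
  rw [← pow_mul, mul_comm, ← hgr, pow_orderOf_eq_one]

theorem IsTwo.pow {z : G} (h : IsTwo z) (n : ℕ) : IsTwo (z ^ n) := by
  obtain ⟨k, hk⟩ := h
  exact ⟨k, by rw [← pow_mul, mul_comm, pow_mul, hk, one_pow]⟩

omit [Finite G] in
theorem IsTwo.mem_zpowers {z : G} (h : IsTwo z) {m : ℕ} (hm : Odd m) :
    z ∈ Subgroup.zpowers (z ^ m) := by
  obtain ⟨k, hk⟩ := h
  have hco : IsCoprime (m : ℤ) ((2 ^ k : ℕ) : ℤ) := by
    rw [Int.isCoprime_iff_gcd_eq_one]
    exact (Nat.coprime_two_right.2 hm).pow_right k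
  obtain ⟨a, b, hab⟩ := hco
  refine ⟨a, ?_⟩
  show (z ^ m) ^ a = z
  rw [← zpow_natCast z m, ← zpow_mul, show (m : ℤ) * a = 1 + (2 ^ k : ℕ) * (-b) by linarith,
    zpow_add, zpow_one, zpow_mul, zpow_natCast, hk, one_zpow, mul_one]

theorem isTwo_map {G' : Type*} [Group G'] (f : G →* G') {z : G} (h : IsTwo z) : IsTwo (f z) := by
  obtain ⟨k, hk⟩ := h
  exact ⟨k, by rw [← map_pow, hk, map_one]⟩

omit [Finite G] hp in
theorem self_inv_eq_one (hodd : p ≠ 2) [Fact p.Prime] {x : G} (hk : ∃ k, x ^ p ^ k = 1)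
    (h : x = x⁻¹) : x = 1 := by
  obtain ⟨k, hk⟩ := hk
  have h2 : x ^ 2 = 1 := by rw [pow_two]; nth_rewrite 2 [h]; exact mul_inv_cancel x
  exact orderOf_eq_one_iff.1 (Nat.eq_one_of_dvd_coprimes
    (((Nat.coprime_primes (Fact.out) Nat.prime_two).2 hodd).pow_left k)
    (orderOf_dvd_of_pow_eq_one hk) (orderOf_dvd_of_pow_eq_one h2))

/-- A 2-element acting nontrivially on a `p`-group gives an inverted element. -/
theorem invIn_of_moves {H R : Subgroup G} (hRH : R ≤ H) (hR : IsPGroup p ↥R) {z : G} (hzH : z ∈ H)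
    (hz : IsTwo z) (hzR : z ∈ Subgroup.normalizer (R : Set G)) (hmv : ∃ r ∈ R, z * r ≠ r * z) :
    InvIn p H := by
  classical
  obtain ⟨k, hk⟩ := hz
  have hex : ∃ j, ∀ r ∈ R, z ^ 2 ^ j * r = r * z ^ 2 ^ j :=
    ⟨k, fun r _ => by rw [hk, one_mul, mul_one]⟩
  have h0 : Nat.find hex ≠ 0 := fun e => by
    obtain ⟨r, hr, hne⟩ := hmv
    have := Nat.find_spec hex r hr
    rw [e, pow_zero, pow_one] at this
    exact hne this
  obtain ⟨i, hi⟩ := Nat.exists_eq_succ_of_ne_zero h0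
  have hmin := Nat.find_min hex (show i < Nat.find hex by omega)
  push_neg at hmin
  obtain ⟨r, hr, hne⟩ := hmin
  set g := z ^ 2 ^ i with hg
  have hgg : ∀ r ∈ R, g * g * r = r * (g * g) := by
    intro r hr
    have := Nat.find_spec hex r hr
    rwa [hi, pow_succ, pow_mul, pow_two] at this
  have hgR : g ∈ Subgroup.normalizer (R : Set G) := pow_mem hzR _
  set x := g * r * g⁻¹ * r⁻¹ with hx
  have hxR : x ∈ R := R.mul_mem ((Subgroup.mem_normalizer_iff.1 hgR r).1 hr) (R.inv_mem hr)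
  refine ⟨g, pow_mem hzH _, x, hRH hxR, ?_, fun e => hne ?_, ?_⟩
  · obtain ⟨j, hj⟩ := hR ⟨x, hxR⟩
    exact ⟨j, congrArg Subtype.val hj⟩
  · calc g * r = x * r * g := by rw [hx]; group
      _ = r * g := by rw [e, one_mul]
  · have h1 : g * g * r * (g * g)⁻¹ = r := by rw [hgg r hr, mul_inv_cancel_right]
    calc g * x * g⁻¹ = g * g * r * (g * g)⁻¹ * (g * r⁻¹ * g⁻¹) := by rw [hx]; group
      _ = r * (g * r⁻¹ * g⁻¹) := by rw [h1]
      _ = x⁻¹ := by rw [hx]; group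

/-- An inverted element is inverted by a 2-element. -/
theorem exists_two_inverting {H : Subgroup G} (h : InvIn p H) :
    ∃ z ∈ H, IsTwo z ∧ ∃ x ∈ H, (∃ k, x ^ p ^ k = 1) ∧ x ≠ 1 ∧ z * x * z⁻¹ = x⁻¹ := by
  obtain ⟨g, hg, x, hx, hk, hx1, he⟩ := h
  obtain ⟨m, ⟨i, rfl⟩, hm⟩ := exists_odd_isTwo g
  refine ⟨_, pow_mem hg _, hm, x, hx, hk, hx1, ?_⟩
  have h2 : Commute (g ^ 2) x := by
    show g ^ 2 * x = x * g ^ 2
    have h1 : g * x⁻¹ * g⁻¹ = x := by rw [← conj_inv, he, inv_inv]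
    calc g ^ 2 * x = g * (g * x * g⁻¹) * g⁻¹ * g ^ 2 := by rw [pow_two]; group
      _ = g * x⁻¹ * g⁻¹ * g ^ 2 := by rw [he]
      _ = x * g ^ 2 := by rw [h1]
  have h3 : Commute ((g ^ 2) ^ i) x := h2.pow_left i
  have h4 : g ^ (2 * i + 1) = g * (g ^ 2) ^ i := by rw [← pow_mul, ← pow_succ']
  rw [h4, mul_inv_rev, show g * (g ^ 2) ^ i * x * (((g ^ 2) ^ i)⁻¹ * g⁻¹) =
    g * ((g ^ 2) ^ i * x * ((g ^ 2) ^ i)⁻¹) * g⁻¹ by group, h3.eq, mul_inv_cancel_right, he]

end Basic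

section Baer

variable {G : Type u} [Group G] [Finite G] {p : ℕ} [hp : Fact p.Prime]

/-- The representation given by an action on a commutative group of exponent `p`. -/
def repOf {Y : Type*} [Group Y] {Q : Type*} [CommGroup Q] [Module (ZMod p) (Additive Q)]
    (φ : Y → (Q →* Q)) (h1 : ∀ q, φ 1 q = q) (hm : ∀ x y q, φ (x * y) q = φ x (φ y q)) :
    Representation (ZMod p) Y (Additive Q) where
  toFun x := AddMonoidHom.toZModLinearMap p (MonoidHom.toAdditive (φ x))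
  map_one' := LinearMap.ext fun q => congrArg Additive.ofMul (h1 (Additive.toMul q))
  map_mul' x y := LinearMap.ext fun q => congrArg Additive.ofMul (hm x y (Additive.toMul q))

/-- The centraliser of a normal subgroup, inside a subgroup. -/
theorem normal_centralizer_subgroupOf (V : Subgroup G) [V.Normal] (H : Subgroup G) :
    ((Subgroup.centralizer (V : Set G)).subgroupOf H).Normal :=
  Subgroup.Normal.comap inferInstance H.subtype

/-- A quadratic `p`-element outside `O_p` gives a 2-element moving the module. -/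
theorem baer_step (hodd : p ≠ 2) (V : Subgroup G) [hV : V.Normal] (hVp : IsPGroup p ↥V)
    (H : Subgroup G) {a : G} (ha : a ∈ H) (hap : ∃ k, a ^ p ^ k = 1)
    (hq : ∀ v ∈ V, a * (a * v * a⁻¹ * v⁻¹) * a⁻¹ = a * v * a⁻¹ * v⁻¹)
    [hCn : ((Subgroup.centralizer (V : Set G)).subgroupOf H).Normal]
    (hnot : (QuotientGroup.mk (⟨a, ha⟩ : ↥H) : ↥H ⧸ (Subgroup.centralizer (V : Set G)).subgroupOf H) ∉
      Cfsg.pCore p (↥H ⧸ (Subgroup.centralizer (V : Set G)).subgroupOf H)) :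
    ∃ z ∈ H, IsTwo z ∧ (∃ v ∈ V, z * v ≠ v * z) ∧
      ∃ P : Subgroup G, IsPGroup p ↥P ∧ a ∈ P ∧ P ≤ H ∧ z ∈ Subgroup.normalizer (P : Set G) := by
  classical
  set C := (Subgroup.centralizer (V : Set G)).subgroupOf H with hC
  set f := QuotientGroup.mk' C with hf
  obtain ⟨g, hg⟩ : ∃ g : ↥H ⧸ C, ¬ IsPGroup p
      ↥(Subgroup.closure ({f ⟨a, ha⟩, g * f ⟨a, ha⟩ * g⁻¹} : Set (↥H ⧸ C))) := by
    by_contra h
    push_neg at h
    exact hnot (baer_suzuki h)
  obtain ⟨g, rfl⟩ := QuotientGroup.mk'_surjective C g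
  set b : G := g * a * (g : G)⁻¹ with hb
  have hbH : b ∈ H := H.mul_mem (H.mul_mem g.2 ha) (H.inv_mem g.2)
  set Y := Subgroup.closure ({a, b} : Set G) with hY
  have hYH : Y ≤ H := by
    rw [hY, Subgroup.closure_le]; rintro x (rfl | rfl) <;> assumption
  -- some element of order prime to `p` moves `V`
  obtain ⟨y, hyY, hyc, hymv⟩ : ∃ y ∈ Y, (orderOf y).Coprime p ∧
      y ∉ Subgroup.centralizer (V : Set G) := by
    by_contra h
    push_neg at h
    refine hg fun q => ?_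
    obtain ⟨q, hq⟩ := q
    have hmap : Subgroup.closure ({f ⟨a, ha⟩, f g * f ⟨a, ha⟩ * (f g)⁻¹} : Set (↥H ⧸ C)) =
        (Y.subgroupOf H).map f := by
      have h1 : Y.subgroupOf H = Subgroup.closure ({⟨a, ha⟩, g * ⟨a, ha⟩ * g⁻¹} : Set ↥H) := by
        refine Subgroup.map_injective H.subtype_injective ?_
        rw [Subgroup.map_subgroupOf_eq_of_le hYH, MonoidHom.map_closure, Set.image_pair]
        rfl
      rw [h1, MonoidHom.map_closure, Set.image_pair, map_mul, map_mul, map_inv]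
    rw [hmap] at hq
    obtain ⟨y, hy, rfl⟩ := hq
    obtain ⟨e, r, hr, hor⟩ := Nat.exists_eq_pow_mul_and_not_dvd (orderOf_pos (y : G)).ne' p hp.out.ne_one
    refine ⟨e, Subtype.ext ?_⟩
    show (f y) ^ p ^ e = 1
    rw [← map_pow]
    refine (QuotientGroup.eq_one_iff _).2 (Subgroup.mem_subgroupOf.2 ?_)
    rw [SubgroupClass.coe_pow]
    refine h _ (pow_mem (Subgroup.mem_subgroupOf.1 hy) _) ?_
    rw [orderOf_pow, hor, Nat.gcd_mul_right_left, Nat.mul_div_cancel_left _ (pow_pos hp.out.pos e)]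
    exact (hp.out.coprime_iff_not_dvd.2 hr).symm
  -- the Frattini quotient of `V` as a module for `Y`
  set Φ := frattini ↥V with hΦ
  haveI hΦc : Φ.Characteristic := by rw [hΦ]; infer_instance
  letI : CommGroup (↥V ⧸ Φ) :=
    { (inferInstance : Group (↥V ⧸ Φ)) with
      mul_comm := fun q q' => by
        obtain ⟨s, rfl⟩ := QuotientGroup.mk_surjective q
        obtain ⟨t, rfl⟩ := QuotientGroup.mk_surjective q'
        rw [← QuotientGroup.mk_mul, ← QuotientGroup.mk_mul]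
        refine QuotientGroup.eq.2 (pgroup_commutator_le_frattini hVp ?_)
        rw [show (s * t)⁻¹ * (t * s) = ⁅t⁻¹, s⁻¹⁆ by rw [commutatorElement_def]; group, commutator_def]
        exact Subgroup.commutator_mem_commutator (Subgroup.mem_top _) (Subgroup.mem_top _) }
  letI : Module (ZMod p) (Additive (↥V ⧸ Φ)) := AddCommGroup.zmodModule fun q => by
    obtain ⟨s, hs⟩ := QuotientGroup.mk_surjective (Additive.toMul q : ↥V ⧸ Φ)
    refine Additive.toMul.injective ?_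
    rw [toMul_nsmul, ← hs, ← QuotientGroup.mk_pow, toMul_zero, QuotientGroup.eq_one_iff]
    exact pgroup_pow_mem_frattini hVp s
  have _hmod : Module (ZMod p) (Additive (↥V ⧸ Φ)) := inferInstance
  have hcomap : ∀ φ : ↥V ≃* ↥V, Φ ≤ Φ.comap φ.toMonoidHom := fun φ =>
    (Subgroup.characteristic_iff_comap_eq.1 hΦc φ).ge
  let act : ↥Y → (↥V ⧸ Φ →* ↥V ⧸ Φ) := fun x =>
    QuotientGroup.map Φ Φ (MulAut.conjNormal (x : G) : MulAut ↥V).toMonoidHom (hcomap _)
  let ρ : Representation (ZMod p) ↥Y (Additive (↥V ⧸ Φ)) := repOf act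
    (fun q => by
      obtain ⟨s, rfl⟩ := QuotientGroup.mk_surjective q
      exact congrArg QuotientGroup.mk (Subtype.ext (by
        show ((1 : ↥Y) : G) * (s : G) * ((1 : ↥Y) : G)⁻¹ = (s : G)
        simp)))
    (fun x x' q => by
      obtain ⟨s, rfl⟩ := QuotientGroup.mk_surjective q
      exact congrArg QuotientGroup.mk (Subtype.ext (by
        show (x : G) * x' * (s : G) * ((x : G) * x')⁻¹ = (x : G) * ((x' : G) * (s : G) * (x' : G)⁻¹) * (x : G)⁻¹
        group)))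
  have hρ : ∀ (x : ↥Y) (s : ↥V), ρ x (Additive.ofMul (s : ↥V ⧸ Φ)) =
      Additive.ofMul (((MulAut.conjNormal (x : G) : MulAut ↥V) s : ↥V) : ↥V ⧸ Φ) := fun x s => rfl
  have hquad : ∀ c : G, ∀ hc : c ∈ Y, (∀ v ∈ V, c * (c * v * c⁻¹ * v⁻¹) * c⁻¹ = c * v * c⁻¹ * v⁻¹) →
      ∀ q, ρ ⟨c, hc⟩ (ρ ⟨c, hc⟩ q - q) = ρ ⟨c, hc⟩ q - q := by
    intro c hc hcq q
    obtain ⟨s, hs⟩ := QuotientGroup.mk_surjective (Additive.toMul q : ↥V ⧸ Φ)
    have hq' : q = Additive.ofMul (s : ↥V ⧸ Φ) := Additive.toMul.injective hs.symm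
    subst hq'
    rw [hρ, ← ofMul_div, ← QuotientGroup.mk_div, hρ]
    refine congrArg (fun w : ↥V => Additive.ofMul (w : ↥V ⧸ Φ)) (Subtype.ext ?_)
    show c * (c * (s : G) * c⁻¹ / (s : G)) * c⁻¹ = c * (s : G) * c⁻¹ / (s : G)
    rw [div_eq_mul_inv]
    exact hcq s s.2
  have hqb : ∀ v ∈ V, b * (b * v * b⁻¹ * v⁻¹) * b⁻¹ = b * v * b⁻¹ * v⁻¹ := by
    intro v hv
    have h := hq ((g : G)⁻¹ * v * g) (by simpa using hV.conj_mem v hv (g : G)⁻¹)
    calc b * (b * v * b⁻¹ * v⁻¹) * b⁻¹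
        = g * (a * (a * ((g : G)⁻¹ * v * g) * a⁻¹ * ((g : G)⁻¹ * v * g)⁻¹) * a⁻¹) * (g : G)⁻¹ := by
          rw [hb]; group
      _ = g * (a * ((g : G)⁻¹ * v * g) * a⁻¹ * ((g : G)⁻¹ * v * g)⁻¹) * (g : G)⁻¹ := by rw [h]
      _ = b * v * b⁻¹ * v⁻¹ := by rw [hb]; group
  have haY : a ∈ Y := Subgroup.subset_closure (Set.mem_insert _ _)
  have hbY : b ∈ Y := Subgroup.subset_closure (Set.mem_insert_of_mem _ rfl)
  have hgen : Subgroup.closure ({⟨a, haY⟩, ⟨b, hbY⟩} : Set ↥Y) = ⊤ := by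
    refine Subgroup.map_injective Y.subtype_injective ?_
    rw [MonoidHom.map_closure, Set.image_pair, ← MonoidHom.range_eq_map, Subgroup.range_subtype]
    rfl
  have hyq : ∃ q, ρ ⟨y, hyY⟩ q ≠ q := by
    by_contra h
    push_neg at h
    refine hymv (le_centralizer_of_trivial_mod_frattini (A := Subgroup.zpowers y) (K := V)
      (by rw [Subgroup.normalizer_eq_top]; exact le_top) ?_ ?_ (Subgroup.mem_zpowers y))
    · obtain ⟨j, hj⟩ := IsPGroup.iff_card.1 (hVp.to_subgroup (frattini ↥V))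
      rw [Nat.card_zpowers, hj]
      exact hyc.pow_right j
    · rintro c ⟨i, rfl⟩ k hk
      have hfix : ρ ((⟨y, hyY⟩ : ↥Y) ^ i) (Additive.ofMul ((⟨k, hk⟩ : ↥V) : ↥V ⧸ Φ)) =
          Additive.ofMul ((⟨k, hk⟩ : ↥V) : ↥V ⧸ Φ) :=
        (PGV.mem_pointFix ρ).1 (Subgroup.zpow_mem (PGV.pointFix ρ Set.univ)
          ((PGV.mem_pointFix ρ).2 fun u _ => h u) i) _ trivial
      rw [hρ] at hfix
      have h1 := QuotientGroup.eq.1 (Additive.ofMul.injective hfix).symm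
      have h2 := hΦ ▸ h1
      refine ⟨(⟨y ^ i * k * (y ^ i)⁻¹, hV.conj_mem k hk _⟩ : ↥V) * (⟨k, hk⟩ : ↥V)⁻¹, ?_, rfl⟩
      have h3 : ((⟨k, hk⟩ : ↥V) * ((⟨k, hk⟩ : ↥V)⁻¹ *
          (MulAut.conjNormal ((((⟨y, hyY⟩ : ↥Y) ^ i : ↥Y)) : G) : MulAut ↥V) ⟨k, hk⟩) *
          (⟨k, hk⟩ : ↥V)⁻¹) ∈ frattini ↥V :=
        (Subgroup.normal_of_characteristic (frattini ↥V)).conj_mem _ h2 _
      rw [mul_inv_cancel_left] at h3
      exact h3
  obtain ⟨N, hNn, hker, z, hzN, hz2, hzc⟩ := central_of_quadratic_pair (p := p) hodd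
    (⟨a, haY⟩ : ↥Y) ⟨b, hbY⟩ hgen (Additive (↥V ⧸ Φ)) ρ (hquad a haY hq) (hquad b hbY hqb)
    ⟨⟨y, hyY⟩, by rwa [← Subgroup.orderOf_coe], hyq⟩
  haveI := hNn
  -- a Sylow subgroup of `Y` containing `a`
  obtain ⟨P₀, hP₀⟩ := (show IsPGroup p ↥(Subgroup.zpowers (⟨a, haY⟩ : ↥Y)) from by
    obtain ⟨k, hk⟩ := hap
    obtain ⟨i, -, hi⟩ := (Nat.dvd_prime_pow hp.out).1
      (orderOf_dvd_of_pow_eq_one (show (⟨a, haY⟩ : ↥Y) ^ p ^ k = 1 from Subtype.ext hk))
    exact IsPGroup.of_card (n := i) (by rw [Nat.card_zpowers, hi])).exists_le_sylow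
  set M := N ⊔ (P₀ : Subgroup ↥Y) with hM
  have hP₀M : (P₀ : Subgroup ↥Y) ≤ M := le_sup_right
  have hzP : ((z • P₀ : Sylow p ↥Y) : Subgroup ↥Y) ≤ M := by
    intro x hx
    rw [Sylow.coe_subgroup_smul] at hx
    obtain ⟨w, hw, rfl⟩ := hx
    show z * w * z⁻¹ ∈ M
    rw [show z * w * z⁻¹ = z * w * z⁻¹ * w⁻¹ * w from (inv_mul_cancel_right _ _).symm]
    exact M.mul_mem (Subgroup.mem_sup_left (hzc w)) (hP₀M hw)
  obtain ⟨m, hm⟩ := MulAction.exists_smul_eq ↥M (P₀.subtype hP₀M) ((z • P₀).subtype hzP)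
  have hmeq : (m : ↥Y) • P₀ = z • P₀ := by
    have h1 := congrArg (fun Q : Sylow p ↥M => (Q : Subgroup ↥M).map M.subtype) hm
    simp only [Sylow.coe_subgroup_smul, Sylow.coe_subtype] at h1
    rw [Subgroup.map_subgroupOf_eq_of_le (by simpa [Sylow.coe_subgroup_smul] using hzP)] at h1
    refine Sylow.ext ?_
    rw [Sylow.coe_subgroup_smul, Sylow.coe_subgroup_smul, ← h1]
    ext x
    constructor
    · rintro ⟨w, hw, rfl⟩
      exact ⟨m * ⟨w, hP₀M hw⟩ * m⁻¹, ⟨⟨w, hP₀M hw⟩, hw, rfl⟩, rfl⟩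
    · rintro ⟨_, ⟨w, hw, rfl⟩, rfl⟩
      exact ⟨w, hw, rfl⟩
  obtain ⟨n, hn, s, hs, hns⟩ := Subgroup.mem_sup_of_normal_left.1 m.2
  have hsP : s • P₀ = P₀ := Sylow.smul_eq_iff_mem_normalizer.2 (Subgroup.le_normalizer hs)
  rw [← hns, mul_smul, hsP] at hmeq
  set z' := n⁻¹ * z with hz'
  have hz'P : z' ∈ Subgroup.normalizer ((P₀ : Subgroup ↥Y) : Set ↥Y) := by
    refine Sylow.smul_eq_iff_mem_normalizer.1 ?_
    rw [hz', mul_smul, ← hmeq, inv_smul_smul]
  have hz'N : z' ∉ N := fun h => hzN (by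
    have := N.mul_mem hn h
    rwa [hz', mul_inv_cancel_left] at this)
  have hz'2 : z' * z' ∈ N := by
    have h1 : n⁻¹ * (z * n⁻¹ * z⁻¹) * (z * z) ∈ N :=
      N.mul_mem (N.mul_mem (N.inv_mem hn) (hNn.conj_mem _ (N.inv_mem hn) z)) hz2
    rwa [show n⁻¹ * (z * n⁻¹ * z⁻¹) * (z * z) = z' * z' by rw [hz']; group] at h1
  obtain ⟨r, ⟨i, rfl⟩, hr⟩ := exists_odd_isTwo z'
  set w := z' ^ (2 * i + 1) with hw
  have hwN : w ∉ N := fun h => hz'N (by
    rw [hw, pow_succ, pow_mul, pow_two] at h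
    have := N.mul_mem (N.inv_mem (pow_mem hz'2 i)) h
    rwa [inv_mul_cancel_left] at this)
  refine ⟨(w : G), hYH w.2, isTwo_map Y.subtype hr, ?_, (P₀ : Subgroup ↥Y).map Y.subtype,
    P₀.2.map _, ⟨⟨a, haY⟩, hP₀ (Subgroup.mem_zpowers _), rfl⟩,
    (Subgroup.map_subtype_le _).trans hYH, ?_⟩
  · by_contra h
    push_neg at h
    refine hwN (hker w fun q => ?_)
    obtain ⟨s, hs⟩ := QuotientGroup.mk_surjective (Additive.toMul q : ↥V ⧸ Φ)
    have hq' : q = Additive.ofMul (s : ↥V ⧸ Φ) := Additive.toMul.injective hs.symm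
    subst hq'
    rw [hρ]
    refine congrArg (fun w : ↥V => Additive.ofMul (w : ↥V ⧸ Φ)) (Subtype.ext ?_)
    show (w : G) * (s : G) * (w : G)⁻¹ = (s : G)
    rw [h s s.2, mul_inv_cancel_right]
  · exact Subgroup.le_normalizer_map Y.subtype ⟨w, pow_mem hz'P _, rfl⟩

end Baer

section Main

variable {G : Type u} [Group G] [Finite G] {p : ℕ} [hp : Fact p.Prime]

/-- The preimage in a `p`-core quotient argument: a central image goes to `O_p`. -/
theorem mk_mem_pCore_of_normal {X : Type*} [Group X] [Finite X] {C R : Subgroup X} [C.Normal]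
    [hR : R.Normal] (hRp : IsPGroup p ↥R) {x : X} (hx : x ∈ R) :
    (QuotientGroup.mk x : X ⧸ C) ∈ Cfsg.pCore p (X ⧸ C) :=
  CfsgLib.Core.le_pCore (hR.map _ (QuotientGroup.mk'_surjective C)) (hRp.map _) ⟨x, hx, rfl⟩

/-- Growing a set of elements centralised modulo `D` by a 2-element moving `V`. -/
theorem grow (hodd : p ≠ 2) {D : Subgroup G} [hD : D.Normal] (hDp : IsPGroup p ↥D)
    (hcent : ∀ z : G, IsTwo z → ∀ R : Subgroup G, IsPGroup p ↥R →
      z ∈ Subgroup.normalizer (R : Set G) → ∀ r ∈ R, z * r * z⁻¹ * r⁻¹ ∈ D)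
    (V : Subgroup G) [hV : V.Normal] (hVp : IsPGroup p ↥V) (A : Subgroup G) (hAp : IsPGroup p ↥A)
    (hAc : ∀ a ∈ A, ∀ b ∈ A, a * b = b * a) (hVA : V ≤ Subgroup.normalizer (A : Set G))
    (hinit : ∃ z, IsTwo z ∧ ∃ v ∈ V, z * v ≠ v * z) :
    ∃ z, IsTwo z ∧ (∃ v ∈ V, z * v ≠ v * z) ∧ ∀ a ∈ A, z * a * z⁻¹ * a⁻¹ ∈ D := by
  classical
  set f := QuotientGroup.mk' D with hf
  have hcD : ∀ z b : G, z * b * z⁻¹ * b⁻¹ ∈ D ↔ f b * f z = f z * f b := by
    intro z b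
    rw [← QuotientGroup.eq_one_iff]
    show f (z * b * z⁻¹ * b⁻¹) = 1 ↔ _
    rw [map_mul, map_mul, map_mul, map_inv, map_inv, mul_inv_eq_one, mul_inv_eq_iff_eq_mul]
    exact eq_comm
  obtain ⟨B, ⟨hBA, z, hz, hzV, hzB⟩, hBmax⟩ := Set.exists_max_image
    {B : Subgroup G | B ≤ A ∧ ∃ z, IsTwo z ∧ (∃ v ∈ V, z * v ≠ v * z) ∧
      ∀ b ∈ B, z * b * z⁻¹ * b⁻¹ ∈ D}
    (fun B => Nat.card ↥B) (Set.toFinite _) (by
      obtain ⟨z, hz, hzV⟩ := hinit
      exact ⟨⊥, bot_le, z, hz, hzV, fun b hb => by rw [Subgroup.mem_bot.1 hb]; simp⟩)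
  by_contra hno
  have hBA' : ¬ A ≤ B := fun h => hno ⟨z, hz, hzV, fun a ha => hzB a (h ha)⟩
  set H := (Subgroup.centralizer ((B.map f : Subgroup (G ⧸ D)) : Set (G ⧸ D))).comap f with hH
  have hmemH : ∀ x, x ∈ H ↔ ∀ b ∈ B, x * b * x⁻¹ * b⁻¹ ∈ D := by
    intro x
    rw [hH, Subgroup.mem_comap, Subgroup.mem_centralizer_iff]
    refine ⟨fun h b hb => (hcD x b).2 (h _ ⟨b, hb, rfl⟩), ?_⟩
    rintro h _ ⟨b, hb, rfl⟩
    exact (hcD x b).1 (h b hb)
  have hAH : A ≤ H := fun a ha => (hmemH a).2 fun b hb => by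
    rw [hAc a ha b (hBA hb), mul_inv_cancel_right, mul_inv_cancel]; exact D.one_mem
  have hzH : z ∈ H := (hmemH z).2 hzB
  have hDH : D ≤ H := fun d hd => Subgroup.mem_comap.2 (by
    rw [show f d = 1 from (QuotientGroup.eq_one_iff d).2 hd]; exact Subgroup.one_mem _)
  haveI hCn := normal_centralizer_subgroupOf V H
  set C := (Subgroup.centralizer (V : Set G)).subgroupOf H with hC
  -- the case that every element of `A` goes into `O_p`
  by_cases hall : ∀ a, ∀ ha : a ∈ A, (QuotientGroup.mk (⟨a, hAH ha⟩ : ↥H) : ↥H ⧸ C) ∈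
      Cfsg.pCore p (↥H ⧸ C)
  · haveI := CfsgLib.Core.normal_pCore (G := ↥H ⧸ C) p
    set K := (Cfsg.pCore p (↥H ⧸ C)).comap (QuotientGroup.mk' C) with hK
    haveI hKn : K.Normal := Subgroup.Normal.comap inferInstance _
    have hCK : C ≤ K := fun x hx => Subgroup.mem_comap.2 (by
      rw [show QuotientGroup.mk' C x = 1 from (QuotientGroup.eq_one_iff x).2 hx]
      exact Subgroup.one_mem _)
    have hAK : A.subgroupOf H ≤ K := fun x hx => by
      have := hall (x : G) (Subgroup.mem_subgroupOf.1 hx)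
      exact this
    obtain ⟨R, hR⟩ := ((hAp.comap_of_injective H.subtype H.subtype_injective).comap_of_injective
      K.subtype K.subtype_injective).exists_le_sylow
    set R₁ := (R : Subgroup ↥K).map K.subtype with hR₁
    have hfr : Subgroup.normalizer (R₁ : Set ↥H) ⊔ K = ⊤ := Sylow.normalizer_sup_eq_top R
    have hKeq : K = C ⊔ R₁ := by
      refine le_antisymm ?_ (sup_le hCK (Subgroup.map_subtype_le _))
      rw [← Subgroup.relIndex_eq_one]
      obtain ⟨j, hj⟩ := IsPGroup.iff_card.1 (CfsgLib.Core.isPGroup_pCore (G := ↥H ⧸ C) p)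
      have h1 : C.relIndex K = p ^ j := by
        rw [← QuotientGroup.ker_mk' C, ← MonoidHom.comap_bot, hK, Subgroup.relIndex_comap,
          Subgroup.map_comap_eq_self_of_surjective (QuotientGroup.mk'_surjective C),
          Subgroup.relIndex_bot_left, hj]
      have h2 : R₁.relIndex K = (R : Subgroup ↥K).index := by
        show (R₁.comap K.subtype).index = _
        rw [hR₁, Subgroup.comap_map_eq_self_of_injective K.subtype_injective]
      refine Nat.eq_one_of_dvd_coprimes ((hp.out.coprime_iff_not_dvd.2 R.not_dvd_index).pow_left j)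
        (h1 ▸ Subgroup.relIndex_dvd_of_le_left K le_sup_left)
        (h2 ▸ Subgroup.relIndex_dvd_of_le_left K le_sup_right)
    have hzm : (⟨z, hzH⟩ : ↥H) ∈ C ⊔ Subgroup.normalizer (R₁ : Set ↥H) := by
      have h : (C ⊔ Subgroup.normalizer (R₁ : Set ↥H)) = ⊤ := by
        refine top_le_iff.1 (hfr.ge.trans (sup_le le_sup_right ?_))
        rw [hKeq]
        exact sup_le le_sup_left (Subgroup.le_normalizer.trans le_sup_right)
      rw [h]; trivial
    rw [Subgroup.mem_sup_of_normal_left] at hzm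
    obtain ⟨c, hc, n, hn, hcn⟩ := hzm
    obtain ⟨m, hm, hm2⟩ := exists_odd_isTwo n
    have hnV : ∃ v ∈ V, ((n ^ m : ↥H) : G) * v ≠ v * ((n ^ m : ↥H) : G) := by
      by_contra h
      push_neg at h
      have h1 : (n ^ m : ↥H) ∈ C := Subgroup.mem_subgroupOf.2 (Subgroup.mem_centralizer_iff.2
        fun v hv => (h v hv).symm)
      have h2 : (⟨z, hzH⟩ : ↥H) ^ m ∈ C := by
        rw [← QuotientGroup.eq_one_iff] at h1 ⊢
        rw [QuotientGroup.mk_pow] at h1 ⊢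
        rwa [← hcn, QuotientGroup.mk_mul, (QuotientGroup.eq_one_iff c).2 hc, one_mul]
      have h3 : z ∈ Subgroup.centralizer (V : Set G) :=
        (Subgroup.zpowers_le.2 (Subgroup.mem_subgroupOf.1 h2)) (hz.mem_zpowers hm)
      obtain ⟨v, hv, hne⟩ := hzV
      exact hne (Subgroup.mem_centralizer_iff.1 h3 v hv).symm
    refine hno ⟨((n ^ m : ↥H) : G), isTwo_map H.subtype hm2, hnV, fun a ha => ?_⟩
    refine hcent _ (isTwo_map H.subtype hm2) (R₁.map H.subtype) ((R.2.map _).map _) ?_ a ?_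
    · exact Subgroup.le_normalizer_map H.subtype ⟨n ^ m, pow_mem hn m, rfl⟩
    · exact ⟨⟨a, hAH ha⟩, ⟨⟨⟨a, hAH ha⟩, hAK (Subgroup.mem_subgroupOf.2 ha)⟩,
        hR (Subgroup.mem_comap.2 (Subgroup.mem_comap.2 ha)), rfl⟩, rfl⟩
  -- an element outside `O_p`
  push_neg at hall
  obtain ⟨a, ha, hnot⟩ := hall
  have hap : ∃ k, a ^ p ^ k = 1 := by
    obtain ⟨k, hk⟩ := hAp ⟨a, ha⟩
    exact ⟨k, congrArg Subtype.val hk⟩
  have hq : ∀ v ∈ V, a * (a * v * a⁻¹ * v⁻¹) * a⁻¹ = a * v * a⁻¹ * v⁻¹ := by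
    intro v hv
    have h : a * v * a⁻¹ * v⁻¹ ∈ A := by
      rw [show a * v * a⁻¹ * v⁻¹ = a * (v * a⁻¹ * v⁻¹) by group]
      exact A.mul_mem ha ((Subgroup.mem_normalizer_iff.1 (hVA hv) _).1 (A.inv_mem ha))
    rw [hAc a ha _ h, mul_inv_cancel_right]
  obtain ⟨z', hz'H, hz', hz'V, P, hP, haP, -, hzP⟩ := baer_step hodd V hVp H (hAH ha) hap hq hnot
  set B' := A ⊓ (Subgroup.centralizer ({f z'} : Set (G ⧸ D))).comap f with hB'
  have hmem' : ∀ x ∈ A, x ∈ B' ↔ z' * x * z'⁻¹ * x⁻¹ ∈ D := by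
    intro x hx
    rw [hB', Subgroup.mem_inf, Subgroup.mem_comap, Subgroup.mem_centralizer_singleton_iff, hcD]
    exact ⟨fun h => h.2, fun h => ⟨hx, h⟩⟩
  have hBB' : B ≤ B' := fun b hb => (hmem' b (hBA hb)).2 ((hmemH z').1 hz'H b hb)
  have haB' : a ∈ B' := (hmem' a ha).2 (hcent z' hz' P hP hzP a haP)
  have hle : Nat.card ↥B' ≤ Nat.card ↥B := hBmax B' ⟨inf_le_left, z', hz', hz'V,
    fun b hb => (hmem' b hb.1).1 hb⟩
  have haB : a ∈ B := (Subgroup.eq_of_le_of_card_ge hBB' hle).ge haB'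
  -- elements of `B` go into `O_p`
  set R := ((B.map f).comap f).subgroupOf H with hRdef
  haveI : R.Normal := ⟨fun x hx h => by
    have hx' : f (x : G) ∈ B.map f := hx
    show f ((h : G) * (x : G) * (h : G)⁻¹) ∈ B.map f
    have hh := Subgroup.mem_centralizer_iff.1 (h.2 : f (h : G) ∈ _) (f (x : G)) hx'
    rwa [map_mul, map_mul, map_inv, ← hh, mul_inv_cancel_right]⟩
  refine hnot (mk_mem_pCore_of_normal (R := R) ?_ ⟨a, haB, rfl⟩)
  exact ((((hAp.to_le hBA).map f).comap_of_ker_isPGroup f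
    (by rw [hf, QuotientGroup.ker_mk']; exact hDp)).comap_of_injective H.subtype H.subtype_injective)

/-- If no element of `N(Z(J(T)))` inverts a nontrivial `p`-element then none of `G` does. -/
theorem invIn_normalizer_Zsub (hodd : p ≠ 2) (T : Sylow p G) (hInv : InvIn p (⊤ : Subgroup G)) :
    InvIn p (Subgroup.normalizer (Zsub 0 (T : Subgroup G) : Set G)) := by
  classical
  induction hn : Nat.card G using Nat.strong_induction_on generalizing G with
  | _ n ih =>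
  subst hn
  by_contra hN
  -- proper subgroups
  have ihH : ∀ H : Subgroup G, H ≠ ⊤ → InvIn p H → ∀ Q : Sylow p ↥H,
      InvIn p (H ⊓ Subgroup.normalizer (Zsub 0 ((Q : Subgroup ↥H).map H.subtype) : Set G)) := by
    intro H hH h Q
    have h1 := ih _ (lt_of_le_of_ne (Subgroup.card_le_card_group H)
      fun e => hH ((Subgroup.card_eq_iff_eq_top H).1 e)) Q (invIn_top_subgroup h) rfl
    refine (h1.map H.subtype H.subtype_injective).mono (le_inf (Subgroup.map_subtype_le _) ?_)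
    rw [← map_Zsub 0 _ _ (Set.injOn_of_injective H.subtype_injective)]
    exact Subgroup.le_normalizer_map _
  have hconj : ∀ T' : Sylow p G,
      ¬ InvIn p (Subgroup.normalizer (Zsub 0 (T' : Subgroup G) : Set G)) := by
    intro T' h
    obtain ⟨g, hg⟩ := MulAction.exists_smul_eq G T' T
    refine hN ?_
    have e : (T : Subgroup G) = (T' : Subgroup G).map (MulAut.conj g).toMonoidHom := by
      rw [← hg, Sylow.coe_subgroup_smul]; rfl
    rw [e, ← Zsub_conj]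
    exact (h.map (MulAut.conj g).toMonoidHom (MulAut.conj g).injective).mono
      (Subgroup.le_normalizer_map _)
  have hproper : ∀ (T' : Sylow p G) (H : Subgroup G), H ≠ ⊤ → (T' : Subgroup G) ≤ H →
      ¬ InvIn p H := by
    intro T' H hH hle h
    have h1 := ihH H hH h (T'.subtype hle)
    rw [Sylow.coe_subtype, Subgroup.map_subgroupOf_eq_of_le hle] at h1
    exact hconj T' (h1.mono inf_le_right)
  -- a larger `p`-part
  have hcardle : ∀ R K : Subgroup G, IsPGroup p ↥R → R ≤ K →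
      Nat.card ↥R ≤ p ^ (Nat.card ↥K).factorization p := by
    intro R K hR hRK
    obtain ⟨P, hP⟩ := (hR.comap_of_injective K.subtype K.subtype_injective).exists_le_sylow
    rw [← P.card_eq_multiplicity, ← Nat.card_congr (Subgroup.subgroupOfEquivOfLe hRK).toEquiv]
    exact Subgroup.card_le_of_le hP
  have hstep : ∀ L : Subgroup G, L ≠ ⊤ → InvIn p L → ∀ Q : Sylow p ↥L,
      (Q : Subgroup ↥L).map L.subtype ≠ ⊥ →
      InvIn p (Subgroup.normalizer (Zsub 0 ((Q : Subgroup ↥L).map L.subtype) : Set G)) ∧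
        p ^ (Nat.card ↥L).factorization p < p ^ (Nat.card
          ↥(Subgroup.normalizer (Zsub 0 ((Q : Subgroup ↥L).map L.subtype) : Set G))).factorization p := by
    intro L hL hLInv Q _
    refine ⟨(ihH L hL hLInv Q).mono inf_le_right, ?_⟩
    obtain ⟨T', hT'⟩ := (Q.2.map L.subtype).exists_le_sylow
    have hlt : (Q : Subgroup ↥L).map L.subtype < (T' : Subgroup G) := by
      refine lt_of_le_of_ne hT' fun e => hproper T' L hL ?_ hLInv
      rw [← e]; exact Subgroup.map_subtype_le _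
    obtain ⟨R, hRp, hRN, -, hcard⟩ := exists_bigger hlt T'.2
    rw [← Q.card_eq_multiplicity]
    rw [Subgroup.card_map_of_injective L.subtype_injective] at hcard
    exact lt_of_lt_of_le hcard (hcardle R _ hRp
      (hRN.trans ((normalizer_le_Jsub 0 _).trans (normalizer_Jsub_le_Zsub 0 _))))
  -- the `p`-core
  obtain ⟨z₀, -, hz₀, x₀, -, ⟨k₀, hk₀⟩, hx₀, he₀⟩ := exists_two_inverting hInv
  obtain ⟨U, ⟨hUp, hU1, hUInv⟩, hUmax⟩ := Set.exists_max_image
    {U : Subgroup G | IsPGroup p ↥U ∧ U ≠ ⊥ ∧ InvIn p (Subgroup.normalizer (U : Set G))}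
    (fun U => p ^ (Nat.card ↥(Subgroup.normalizer (U : Set G))).factorization p) (Set.toFinite _) (by
      refine ⟨Subgroup.zpowers x₀, ?_, fun e => hx₀ (Subgroup.zpowers_eq_bot.1 e),
        z₀, ?_, x₀, Subgroup.le_normalizer (Subgroup.mem_zpowers x₀), ⟨k₀, hk₀⟩, hx₀, he₀⟩
      · obtain ⟨i, -, hi⟩ := (Nat.dvd_prime_pow hp.out).1 (orderOf_dvd_of_pow_eq_one hk₀)
        exact IsPGroup.of_card (n := i) (by rw [Nat.card_zpowers, hi])
      · refine mem_normalizer_of_map_eq fun y hy => ?_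
        obtain ⟨i, rfl⟩ := hy
        show z₀ * x₀ ^ i * z₀⁻¹ ∈ _
        rw [← conj_zpow, he₀]
        exact Subgroup.zpow_mem _ (Subgroup.inv_mem _ (Subgroup.mem_zpowers x₀)) i)
  have hUn : Subgroup.normalizer (U : Set G) = ⊤ := by
    by_contra hL
    obtain ⟨Q⟩ := (inferInstance : Nonempty (Sylow p ↥(Subgroup.normalizer (U : Set G))))
    set Q₁ := (Q : Subgroup ↥(Subgroup.normalizer (U : Set G))).map
      (Subgroup.normalizer (U : Set G)).subtype with hQ₁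
    have hUQ : U ≤ Q₁ := by
      intro x hx
      refine ⟨⟨x, Subgroup.le_normalizer hx⟩, ?_, rfl⟩
      exact CfsgLib.Core.pCore_le_sylow Q (CfsgLib.Core.le_pCore Subgroup.normal_in_normalizer
        (hUp.comap_of_injective (Subgroup.subtype _) (Subgroup.subtype_injective _)) hx)
    have hQ1 : Q₁ ≠ ⊥ := fun e => hU1 (le_bot_iff.1 (e ▸ hUQ))
    obtain ⟨hi, hlt⟩ := hstep _ hL hUInv Q hQ1
    rw [← hQ₁] at hlt
    have := hUmax (Zsub 0 Q₁) ⟨(Q.2.map _).to_le (Zsub_le 0 _),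
      Zsub_ne_bot (Or.inl rfl) (Q.2.map _) hQ1, hi⟩
    omega
  haveI hUnorm : U.Normal := Subgroup.normalizer_eq_top_iff.1 hUn
  haveI hDn := CfsgLib.Core.normal_pCore (G := G) p
  set D := Cfsg.pCore p G with hD
  have hDp : IsPGroup p ↥D := CfsgLib.Core.isPGroup_pCore p
  have hDT : D ≤ (T : Subgroup G) := CfsgLib.Core.pCore_le_sylow T
  have hD1 : D ≠ ⊥ := fun e => hU1 (le_bot_iff.1 (e ▸ CfsgLib.Core.le_pCore hUnorm hUp))
  have hTD : ¬ (T : Subgroup G) ≤ D := by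
    intro h
    refine hN (hInv.mono ?_)
    rw [← Subgroup.normalizer_eq_top (H := D), show D = (T : Subgroup G) from le_antisymm hDT h]
    exact (normalizer_le_Jsub 0 _).trans (normalizer_Jsub_le_Zsub 0 _)
  -- the quotient has no inversion
  set f := QuotientGroup.mk' D with hf
  have hfs : Function.Surjective f := QuotientGroup.mk'_surjective D
  have hfk : f.ker = D := QuotientGroup.ker_mk' D
  have hquot : ¬ InvIn p (⊤ : Subgroup (G ⧸ D)) := by
    intro h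
    have hT₁ : ((T.mapSurjective hfs : Sylow p (G ⧸ D)) : Subgroup (G ⧸ D)) ≠ ⊥ := by
      rw [Sylow.coe_mapSurjective, Ne, Subgroup.map_eq_bot_iff, hfk]
      exact hTD
    set Tb := (T.mapSurjective hfs : Sylow p (G ⧸ D)) with hTb
    have hlt : Nat.card (G ⧸ D) < Nat.card G := by
      rw [Subgroup.card_eq_card_quotient_mul_card_subgroup D]
      exact lt_mul_of_one_lt_right Nat.card_pos ((Subgroup.one_lt_card_iff_ne_bot _).2 hD1)
    obtain ⟨zb, hzbN, hzb, xb, hxbN, ⟨k, hk⟩, hxb, heb⟩ := exists_two_inverting (ih _ hlt Tb h rfl)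
    set H := (Subgroup.normalizer (Zsub 0 (Tb : Subgroup (G ⧸ D)) : Set (G ⧸ D))).comap f with hH
    have hTH : (T : Subgroup G) ≤ H := by
      rw [hH, ← Subgroup.map_le_iff_le_comap, ← Sylow.coe_mapSurjective hfs]
      exact Subgroup.le_normalizer.trans ((normalizer_le_Jsub 0 _).trans (normalizer_Jsub_le_Zsub 0 _))
    refine hproper T H ?_ hTH ?_
    · intro e
      have hne := Zsub_ne_bot (Or.inl rfl) Tb.2 hT₁
      haveI hZn : (Zsub 0 (Tb : Subgroup (G ⧸ D))).Normal := Subgroup.normalizer_eq_top_iff.1 (by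
        rw [← Subgroup.map_comap_eq_self_of_surjective hfs
          (Subgroup.normalizer (Zsub 0 (Tb : Subgroup (G ⧸ D)) : Set (G ⧸ D))), ← hH, e,
          Subgroup.map_top_of_surjective f hfs])
      refine hne ?_
      rw [← Subgroup.map_comap_eq_self_of_surjective hfs (Zsub 0 (Tb : Subgroup (G ⧸ D))), eq_bot_iff]
      have hle : (Zsub 0 (Tb : Subgroup (G ⧸ D))).comap f ≤ D :=
        CfsgLib.Core.le_pCore (hZn.comap f)
          ((Tb.2.to_le (Zsub_le 0 _)).comap_of_ker_isPGroup f (hfk.symm ▸ hDp))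
      refine (Subgroup.map_mono hle).trans ?_
      rw [QuotientGroup.map_mk'_self]
    obtain ⟨g, rfl⟩ := hfs zb
    obtain ⟨x, rfl⟩ := hfs xb
    obtain ⟨m, ⟨i, rfl⟩, hm⟩ := exists_odd_isTwo g
    set R := (Subgroup.zpowers (f x)).comap f with hR
    have hRp : IsPGroup p ↥R := by
      refine IsPGroup.comap_of_ker_isPGroup ?_ f (hfk.symm ▸ hDp)
      obtain ⟨i, -, hi⟩ := (Nat.dvd_prime_pow hp.out).1 (orderOf_dvd_of_pow_eq_one hk)
      exact IsPGroup.of_card (n := i) (by rw [Nat.card_zpowers, hi])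
    refine invIn_of_moves (R := R) (z := g ^ (2 * i + 1)) ?_ hRp (pow_mem hzbN _) hm ?_ ?_
    · exact Subgroup.comap_mono (Subgroup.zpowers_le.2 hxbN)
    · refine pow_mem (mem_normalizer_of_map_eq fun y hy => ?_) _
      obtain ⟨j, hj⟩ := (hy : f y ∈ Subgroup.zpowers (f x))
      show f (g * y * g⁻¹) ∈ Subgroup.zpowers (f x)
      rw [map_mul, map_mul, map_inv, ← show f x ^ j = f y from hj, ← conj_zpow, heb]
      exact Subgroup.zpow_mem _ (Subgroup.inv_mem _ (Subgroup.mem_zpowers _)) j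
    · refine ⟨x, Subgroup.mem_comap.2 (Subgroup.mem_zpowers (f x)), fun e => hxb ?_⟩
      refine self_inv_eq_one hodd ⟨k, hk⟩ ?_
      have h2 : f g * f g * f x = f x * (f g * f g) := by
        have h1 : f g * (f x)⁻¹ * (f g)⁻¹ = f x := by rw [← conj_inv, heb, inv_inv]
        calc f g * f g * f x = f g * (f g * f x * (f g)⁻¹) * (f g)⁻¹ * (f g * f g) := by group
          _ = f g * (f x)⁻¹ * (f g)⁻¹ * (f g * f g) := by rw [heb]
          _ = f x * (f g * f g) := by rw [h1]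
      have h3 : Commute ((f g * f g) ^ i) (f x) := Commute.pow_left h2 i
      have h4 : (f g * f g) ^ i * f g * f x = f x * ((f g * f g) ^ i * f g) := by
        have := congrArg f e
        rwa [map_mul, map_mul, map_pow, pow_succ, pow_mul, pow_two] at this
      have h5 : f g * f x = f x * f g := by
        refine mul_left_cancel (a := (f g * f g) ^ i) ?_
        rw [← mul_assoc, h4, ← mul_assoc, ← h3.eq, mul_assoc]
      calc f x = f x * f g * (f g)⁻¹ := (mul_inv_cancel_right _ _).symm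
        _ = (f x)⁻¹ := by rw [← h5, heb]
  have hcent : ∀ z : G, IsTwo z → ∀ R : Subgroup G, IsPGroup p ↥R →
      z ∈ Subgroup.normalizer (R : Set G) → ∀ r ∈ R, z * r * z⁻¹ * r⁻¹ ∈ D := by
    intro z hz R hR hzR r hr
    by_contra hne
    refine hquot (invIn_of_moves (R := R.map f) le_top (hR.map f) (Subgroup.mem_top _)
      (isTwo_map f hz) (Subgroup.le_normalizer_map f ⟨z, hzR, rfl⟩) ⟨f r, ⟨r, hr, rfl⟩, fun e => hne ?_⟩)
    rw [← hfk, MonoidHom.mem_ker, map_mul, map_mul, map_mul, map_inv, map_inv, e,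
      mul_inv_cancel_right, mul_inv_cancel]
  -- moving elements
  have hmove : ∀ H : Subgroup G, InvIn p H → ∃ z ∈ H, IsTwo z ∧ ∃ d ∈ D, z * d ≠ d * z := by
    intro H h
    obtain ⟨z, hzH, hz, x, -, ⟨k, hk⟩, hx, he⟩ := exists_two_inverting h
    have hxp : IsPGroup p ↥(Subgroup.zpowers x) := by
      obtain ⟨i, -, hi⟩ := (Nat.dvd_prime_pow hp.out).1 (orderOf_dvd_of_pow_eq_one hk)
      exact IsPGroup.of_card (n := i) (by rw [Nat.card_zpowers, hi])
    have hzn : z ∈ Subgroup.normalizer (Subgroup.zpowers x : Set G) := by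
      refine mem_normalizer_of_map_eq fun y hy => ?_
      obtain ⟨i, rfl⟩ := hy
      show z * x ^ i * z⁻¹ ∈ _
      rw [← conj_zpow, he]
      exact Subgroup.zpow_mem _ (Subgroup.inv_mem _ (Subgroup.mem_zpowers x)) i
    have h2 := hcent z hz _ hxp hzn x (Subgroup.mem_zpowers x)
    rw [he, ← mul_inv_rev, Subgroup.inv_mem_iff] at h2
    obtain ⟨i, hi⟩ : Odd (p ^ k) := (hp.out.odd_of_ne_two hodd).pow
    have hxD : x ∈ D := by
      have h3 : x = ((x * x) ^ i)⁻¹ := by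
        refine eq_inv_of_mul_eq_one_right ?_
        rw [← pow_two, ← pow_mul, ← pow_succ, ← hi, hk]
      rw [h3]
      exact D.inv_mem (pow_mem h2 i)
    refine ⟨z, hzH, hz, x, hxD, fun e => hx (self_inv_eq_one hodd ⟨k, hk⟩ ?_)⟩
    rw [← he, e, mul_inv_cancel_right]
  have hmoveInv : ∀ H : Subgroup G, D ≤ H → ∀ z ∈ H, IsTwo z → (∃ d ∈ D, z * d ≠ d * z) →
      InvIn p H := fun H hDH z hzH hz hmv => invIn_of_moves hDH hDp hzH hz
        (by rw [Subgroup.normalizer_eq_top]; exact Subgroup.mem_top _) hmv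
  set Z := Zsub 0 (T : Subgroup G) with hZ
  have hTZ : (T : Subgroup G) ≤ Subgroup.normalizer (Z : Set G) :=
    Subgroup.le_normalizer.trans ((normalizer_le_Jsub 0 _).trans (normalizer_Jsub_le_Zsub 0 _))
  have hZp : IsPGroup p ↥Z := T.2.to_le (Zsub_le 0 _)
  by_cases hZD : Z ≤ D
  swap
  · -- `Z(J(T))` outside the core
    obtain ⟨z₁, -, hz₁, hm₁⟩ := hmove ⊤ hInv
    obtain ⟨z, hz, hzD, hzZ⟩ := grow hodd hDp hcent D hDp Z hZp (fun a ha b hb => Zsub_abelian 0 _ a ha b hb)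
      (hDT.trans hTZ) ⟨z₁, hz₁, hm₁⟩
    set H := Subgroup.normalizer ((Z ⊔ D : Subgroup G) : Set G) with hH
    have hH1 : H ≠ ⊤ := fun e => hZD (le_trans le_sup_left (CfsgLib.Core.le_pCore
      (Subgroup.normalizer_eq_top_iff.1 e) (T.2.to_le (sup_le (Zsub_le 0 _) hDT))))
    refine hproper T H hH1 ?_ (hmoveInv H (le_trans le_sup_right Subgroup.le_normalizer) z ?_ hz hzD)
    · intro t ht
      refine mem_normalizer_of_map_eq fun y hy => ?_
      rw [Subgroup.mem_sup_of_normal_right] at hy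
      obtain ⟨a, ha, d, hd, rfl⟩ := hy
      rw [show t * (a * d) * t⁻¹ = t * a * t⁻¹ * (t * d * t⁻¹) by group]
      exact Subgroup.mul_mem _ (Subgroup.mem_sup_left ((Subgroup.mem_normalizer_iff.1 (hTZ ht) a).1 ha))
        (Subgroup.mem_sup_right (hDn.conj_mem d hd t))
    · refine mem_normalizer_of_map_eq fun y hy => ?_
      rw [Subgroup.mem_sup_of_normal_right] at hy
      obtain ⟨a, ha, d, hd, rfl⟩ := hy
      rw [show z * (a * d) * z⁻¹ = z * a * z⁻¹ * a⁻¹ * (a * (z * d * z⁻¹)) by group]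
      exact Subgroup.mul_mem _ (Subgroup.mem_sup_right (hzZ a ha))
        (Subgroup.mul_mem _ (Subgroup.mem_sup_left ha) (Subgroup.mem_sup_right (hDn.conj_mem d hd z)))
  -- `Z(J(T))` inside the core
  obtain ⟨V, hVn, hVp, hVcl, A, hA, hVA, a, ha, hnot⟩ :
      ∃ (V : Subgroup G) (_ : V.Normal), IsPGroup p ↥V ∧
        V ≤ Subgroup.normalClosure (Z : Set G) ∧ ∃ A, IsMax 0 (T : Subgroup G) A ∧
          V ≤ Subgroup.normalizer (A : Set G) ∧ ∃ a ∈ A,
            (QuotientGroup.mk a : G ⧸ Subgroup.centralizer (V : Set G)) ∉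
              Cfsg.pCore p (G ⧸ Subgroup.centralizer (V : Set G)) := by
    by_contra hno
    push_neg at hno
    have h := inf_Zsub_normal_of hodd T (fun V _ hV hcl A hA hVA a ha =>
      hno V inferInstance hV hcl A hA hVA a ha) D hDn hDp
    rw [← hZ, inf_eq_right.2 hZD] at h
    refine hN (hInv.mono ?_)
    rw [Subgroup.normalizer_eq_top (H := Z)]
  have hVD : V ≤ D := CfsgLib.Core.le_pCore hVn hVp
  have hAp : IsPGroup p ↥A := T.2.to_le hA.1
  have hap : ∃ k, a ^ p ^ k = 1 := by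
    obtain ⟨k, hk⟩ := hAp ⟨a, ha⟩
    exact ⟨k, congrArg Subtype.val hk⟩
  have hq : ∀ v ∈ V, a * (a * v * a⁻¹ * v⁻¹) * a⁻¹ = a * v * a⁻¹ * v⁻¹ := by
    intro v hv
    have h : a * v * a⁻¹ * v⁻¹ ∈ A := by
      rw [show a * v * a⁻¹ * v⁻¹ = a * (v * a⁻¹ * v⁻¹) by group]
      exact A.mul_mem ha ((Subgroup.mem_normalizer_iff.1 (hVA hv) _).1 (A.inv_mem ha))
    rw [hA.2.1.1 a ha _ h, mul_inv_cancel_right]
  haveI hCn := normal_centralizer_subgroupOf V (⊤ : Subgroup G)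
  obtain ⟨z₁, -, hz₁, hm₁, -⟩ := baer_step hodd V hVp ⊤ (Subgroup.mem_top a) hap hq (by
    intro h
    refine hnot ?_
    let φ : ↥(⊤ : Subgroup G) ⧸ (Subgroup.centralizer (V : Set G)).subgroupOf ⊤ →*
        G ⧸ Subgroup.centralizer (V : Set G) :=
      QuotientGroup.map _ _ (⊤ : Subgroup G).subtype fun x hx => hx
    have hφ : Function.Surjective φ := fun q => by
      obtain ⟨x, rfl⟩ := QuotientGroup.mk_surjective q
      exact ⟨QuotientGroup.mk (⟨x, Subgroup.mem_top x⟩ : ↥(⊤ : Subgroup G)), rfl⟩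
    exact CfsgLib.Core.map_pCore_le_of_surjective p φ hφ ⟨_, h, rfl⟩)
  obtain ⟨z, hz, hzV, hzA⟩ := grow hodd hDp hcent V hVp A hAp hA.2.1.1 hVA ⟨z₁, hz₁, hm₁⟩
  have hAD : ¬ A ≤ D := fun h => hnot (mk_mem_pCore_of_normal hDp (h ha))
  -- the family of proper subgroups
  obtain ⟨L, ⟨hL, hLInv, hDL, hAL⟩, hLmax⟩ := Set.exists_max_image
    {L : Subgroup G | L ≠ ⊤ ∧ InvIn p L ∧ D ≤ L ∧ A ≤ L}
    (fun L => p ^ (Nat.card ↥L).factorization p) (Set.toFinite _) (by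
      refine ⟨Subgroup.normalizer ((A ⊔ D : Subgroup G) : Set G), ?_, ?_,
        le_trans le_sup_right Subgroup.le_normalizer, le_trans le_sup_left Subgroup.le_normalizer⟩
      · exact fun e => hAD (le_trans le_sup_left (CfsgLib.Core.le_pCore
          (Subgroup.normalizer_eq_top_iff.1 e) (T.2.to_le (sup_le hA.1 hDT))))
      · obtain ⟨v, hv, hne⟩ := hzV
        refine hmoveInv _ (le_trans le_sup_right Subgroup.le_normalizer) z ?_ hz ⟨v, hVD hv, hne⟩
        refine mem_normalizer_of_map_eq fun y hy => ?_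
        rw [Subgroup.mem_sup_of_normal_right] at hy
        obtain ⟨b, hb, d, hd, rfl⟩ := hy
        rw [show z * (b * d) * z⁻¹ = z * b * z⁻¹ * b⁻¹ * (b * (z * d * z⁻¹)) by group]
        exact Subgroup.mul_mem _ (Subgroup.mem_sup_right (hzA b hb))
          (Subgroup.mul_mem _ (Subgroup.mem_sup_left hb) (Subgroup.mem_sup_right (hDn.conj_mem d hd z))))
  obtain ⟨Q, hQ⟩ := (hAp.comap_of_injective L.subtype L.subtype_injective).exists_le_sylow
  set Q₁ := (Q : Subgroup ↥L).map L.subtype with hQ₁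
  have hAQ : A ≤ Q₁ := fun b hb => ⟨⟨b, hAL hb⟩, hQ hb, rfl⟩
  have hDQ : D ≤ Q₁ := fun d hd => ⟨⟨d, hDL hd⟩, CfsgLib.Core.pCore_le_sylow Q
    (CfsgLib.Core.le_pCore (hDn.comap L.subtype)
      (hDp.comap_of_injective L.subtype L.subtype_injective) hd), rfl⟩
  have hQ1 : Q₁ ≠ ⊥ := fun e => hD1 (le_bot_iff.1 (e ▸ hDQ))
  obtain ⟨hi, hlt⟩ := hstep L hL hLInv Q hQ1
  rw [← hQ₁] at hlt
  have hQN : Q₁ ≤ Subgroup.normalizer (Zsub 0 Q₁ : Set G) :=
    Subgroup.le_normalizer.trans ((normalizer_le_Jsub 0 _).trans (normalizer_Jsub_le_Zsub 0 _))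
  have htop : Subgroup.normalizer (Zsub 0 Q₁ : Set G) = ⊤ := by
    by_contra hne
    have := hLmax _ ⟨hne, hi, hDQ.trans hQN, hAQ.trans hQN⟩
    omega
  haveI hZ1n : (Zsub 0 Q₁).Normal := Subgroup.normalizer_eq_top_iff.1 htop
  obtain ⟨T', hT'⟩ := (Q.2.map L.subtype).exists_le_sylow
  obtain ⟨g, hg⟩ := MulAction.exists_smul_eq G T' T
  have e : (T : Subgroup G) = (T' : Subgroup G).map (MulAut.conj g).toMonoidHom := by
    rw [← hg, Sylow.coe_subgroup_smul]; rfl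
  have hAmax : IsMax 0 (T' : Subgroup G) A := by
    refine ⟨hAQ.trans hT', hA.2.1, fun B hB hBab => ?_⟩
    rw [← card_conj B g]
    exact hA.2.2 _ (e ▸ Subgroup.map_mono hB) (isAb_map hBab _)
  have hAQm : IsMax 0 Q₁ A := ⟨hAQ, hA.2.1, fun B hB hBab => hAmax.2.2 B (hB.trans hT') hBab⟩
  have hZ' : Zsub 0 (T' : Subgroup G) ≤ Zsub 0 Q₁ := by
    intro x hx
    have hxA : x ∈ A := mem_of_isMax hAmax (Zsub_le 0 _ hx) (pow_zero x)
      (fun b hb => Zsub_comm_Jsub hx (isMax_le_Jsub hAmax hb))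
    refine ⟨isMax_le_Jsub hAQm hxA, ?_⟩
    show x ∈ Subgroup.centralizer (Jsub 0 Q₁ : Set G)
    have hle : Jsub 0 Q₁ ≤ Jsub 0 (T' : Subgroup G) := sSup_le fun B hB => isMax_le_Jsub
      ⟨hB.1.trans hT', hB.2.1, fun B' hB' hB'ab => (hAmax.2.2 B' hB' hB'ab).trans
        (hB.2.2 A hAQ hA.2.1)⟩
    exact Subgroup.mem_centralizer_iff.2 fun y hy => Zsub_comm_Jsub hx (hle hy)
  have hZcl : Subgroup.normalClosure (Z : Set G) ≤ Zsub 0 Q₁ := by
    refine Subgroup.normalClosure_le_normal ?_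
    rw [hZ, e, ← Zsub_conj]
    rintro _ ⟨x, hx, rfl⟩
    exact hZ1n.conj_mem x (hZ' hx) g
  refine hnot ?_
  have haC : a ∈ Subgroup.centralizer (V : Set G) := by
    rw [Subgroup.mem_centralizer_iff]
    exact fun v hv => (Zsub_comm_Jsub (hZcl (hVcl hv)) (isMax_le_Jsub hAQm ha)).symm
  rw [(QuotientGroup.eq_one_iff a).2 haC]
  exact Subgroup.one_mem _

end Main

end CfsgLib.Local.Invert
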