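import Mathlib
import Cfsg.Agent.Lib.LocalInvert

/-!
# The Sylow 2-subgroup is normal when no element of odd order is inverted
-/

set_option autoImplicit false

universe u

namespace CfsgLib.Local.Invert

open CfsgLib.Core CfsgLib.Stable

variable {G : Type u} [Group G] [Finite G]

/-- A group whose Sylow 2-subgroup is not normal inverts an element of odd prime order. -/
theorem exists_odd_invIn (P : Sylow 2 G) (hP : ¬ (P : Subgroup G).Normal) :
    ∃ q : ℕ, q.Prime ∧ q ≠ 2 ∧ InvIn q (⊤ : Subgroup G) := by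
  classical
  haveI : Fact (Nat.Prime 2) := ⟨Nat.prime_two⟩
  haveI := CfsgLib.Core.normal_pCore (G := G) 2
  set O := Cfsg.pCore 2 G with hO
  have hOp : IsPGroup 2 ↥O := CfsgLib.Core.isPGroup_pCore 2
  set f := QuotientGroup.mk' O with hf
  have hfs : Function.Surjective f := QuotientGroup.mk'_surjective O
  have hfk : f.ker = O := QuotientGroup.ker_mk' O
  have hcore : ∀ N : Subgroup (G ⧸ O), N.Normal → IsPGroup 2 ↥N → N = ⊥ := by
    intro N hN hNp
    have hle : N.comap f ≤ O := CfsgLib.Core.le_pCore (hN.comap f)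
      (hNp.comap_of_ker_isPGroup f (hfk.symm ▸ hOp))
    rw [← Subgroup.map_comap_eq_self_of_surjective hfs N, eq_bot_iff]
    refine (Subgroup.map_mono hle).trans ?_
    rw [QuotientGroup.map_mk'_self]
  -- an involution
  have hPb : (P : Subgroup G).map f ≠ ⊥ := fun e => hP (by
    rw [Subgroup.map_eq_bot_iff, hfk] at e
    rw [le_antisymm e (CfsgLib.Core.pCore_le_sylow P)]
    infer_instance)
  haveI := (Subgroup.nontrivial_iff_ne_bot _).2 hPb
  obtain ⟨i, hi0, hi⟩ := (P.2.map f).nontrivial_iff_card.1 inferInstance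
  obtain ⟨t₀, ht₀⟩ := exists_prime_orderOf_dvd_card' 2
    (G := ↥((P : Subgroup G).map f)) (hi ▸ dvd_pow_self 2 hi0.ne')
  set t : G ⧸ O := (t₀ : G ⧸ O) with htdef
  have hto : orderOf t = 2 := by rw [htdef, Subgroup.orderOf_coe, ht₀]
  have ht2 : t * t = 1 := by rw [← pow_two, ← hto, pow_orderOf_eq_one]
  obtain ⟨g, hg⟩ : ∃ g : G ⧸ O, ¬ IsPGroup 2
      ↥(Subgroup.closure ({t, g * t * g⁻¹} : Set (G ⧸ O))) := by
    by_contra h
    push_neg at h
    have h1 := baer_suzuki h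
    rw [hcore _ (CfsgLib.Core.normal_pCore 2) (CfsgLib.Core.isPGroup_pCore 2), Subgroup.mem_bot] at h1
    rw [h1, orderOf_one] at hto
    norm_num at hto
  set s := g * t * g⁻¹ with hs
  have hs2 : s * s = 1 := by rw [hs, show g * t * g⁻¹ * (g * t * g⁻¹) = g * (t * t) * g⁻¹ by group, ht2]; group
  set y := t * s with hy
  have hty : t * y * t⁻¹ = y⁻¹ := by
    have hsi : s⁻¹ = s := inv_eq_of_mul_eq_one_right hs2
    have hti : t⁻¹ = t := inv_eq_of_mul_eq_one_right ht2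
    rw [hy, mul_inv_rev, hti, hsi, ← mul_assoc t t s, ht2, one_mul]
  have hnp : ¬ ∃ e, y ^ 2 ^ e = 1 := by
    rintro ⟨e, he⟩
    refine hg (IsPGroup.to_le (K := Subgroup.zpowers t ⊔ Subgroup.zpowers y) ?_ ?_)
    · have hn : Subgroup.zpowers t ≤ Subgroup.normalizer (Subgroup.zpowers y : Set (G ⧸ O)) := by
        refine Subgroup.zpowers_le.2 (mem_normalizer_of_map_eq fun z hz => ?_)
        obtain ⟨i, rfl⟩ := hz
        show t * y ^ i * t⁻¹ ∈ _
        rw [← conj_zpow, hty]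
        exact Subgroup.zpow_mem _ (Subgroup.inv_mem _ (Subgroup.mem_zpowers y)) i
      refine IsPGroup.to_sup_of_normal_right' ?_ ?_ hn
      · exact IsPGroup.of_card (n := 1) (by rw [Nat.card_zpowers, hto, pow_one])
      · obtain ⟨j, -, hj⟩ := (Nat.dvd_prime_pow Nat.prime_two).1 (orderOf_dvd_of_pow_eq_one he)
        exact IsPGroup.of_card (n := j) (by rw [Nat.card_zpowers, hj])
    · rw [Subgroup.closure_le]
      rintro z (rfl | rfl)
      · exact Subgroup.mem_sup_left (Subgroup.mem_zpowers t)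
      · have h : s = t * y := by rw [hy, ← mul_assoc, ht2, one_mul]
        rw [SetLike.mem_coe, h]
        exact Subgroup.mul_mem_sup (Subgroup.mem_zpowers t) (Subgroup.mem_zpowers y)
  obtain ⟨e, r, hr, hor⟩ := Nat.exists_eq_pow_mul_and_not_dvd (orderOf_pos y).ne' 2 (by norm_num)
  have hr1 : r ≠ 1 := fun h => hnp ⟨e, by rw [← mul_one (2 ^ e), ← h, ← hor, pow_orderOf_eq_one]⟩
  set q := r.minFac with hq
  have hqp : q.Prime := Nat.minFac_prime hr1
  haveI : Fact q.Prime := ⟨hqp⟩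
  have hq2 : q ≠ 2 := fun h => hr (h ▸ Nat.minFac_dvd r)
  obtain ⟨r', hr'⟩ := Nat.minFac_dvd r
  set k := y ^ (2 ^ e * r') with hk
  have hko : orderOf k = q := by
    refine orderOf_eq_prime ?_ ?_
    · rw [hk, ← pow_mul, mul_assoc, mul_comm r' q, ← hr', ← hor, pow_orderOf_eq_one]
    · intro h
      have h1 := orderOf_dvd_of_pow_eq_one h
      rw [hor, hr'] at h1
      have hr'0 : 0 < r' := Nat.pos_of_ne_zero fun h0 => hr (by rw [hr', h0, mul_zero]; exact dvd_zero 2)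
      have h2 := Nat.le_of_dvd hr'0 (Nat.dvd_of_mul_dvd_mul_left (pow_pos two_pos e) h1)
      rw [← hq] at h2
      have := hqp.two_le
      nlinarith
  have htk : t * k * t⁻¹ = k⁻¹ := by rw [hk, ← conj_pow, hty, inv_pow]
  -- lift
  obtain ⟨x₀, hx₀⟩ := hfs k
  obtain ⟨j, hj⟩ := IsPGroup.iff_card.1 hOp
  set x := x₀ ^ 2 ^ j with hx
  have hxq : x ^ q = 1 := by
    have h : x₀ ^ q ∈ O := by rw [← hfk, MonoidHom.mem_ker, map_pow, hx₀, ← hko, pow_orderOf_eq_one]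
    have h2 : (⟨x₀ ^ q, h⟩ : ↥O) ^ Nat.card ↥O = 1 := pow_card_eq_one'
    rw [hj] at h2
    rw [hx, ← pow_mul, mul_comm, pow_mul]
    exact congrArg Subtype.val h2
  have hcop : (2 ^ j).Coprime q := ((Nat.coprime_primes Nat.prime_two hqp).2 hq2.symm).pow_left j
  have hfx : f x = k ^ 2 ^ j := by rw [hx, map_pow, hx₀]
  have hfx1 : f x ≠ 1 := fun h => by
    have h1 := orderOf_dvd_of_pow_eq_one (hfx ▸ h)
    rw [hko] at h1
    exact hqp.ne_one (Nat.eq_one_of_dvd_coprimes hcop h1 dvd_rfl)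
  have hZp : IsPGroup q ↥(Subgroup.zpowers x) := IsPGroup.of_card (n := 1) (by
    rw [Nat.card_zpowers, orderOf_eq_prime hxq fun h => hfx1 (by rw [h, map_one]), pow_one])
  have htx : t * f x * t⁻¹ = (f x)⁻¹ := by rw [hfx, ← conj_pow, htk, inv_pow]
  have hkc : (Nat.card f.ker).Coprime q := by rw [hfk, hj]; exact hcop
  obtain ⟨z, hzN, hzt⟩ := normalizer_map_le f hfs hkc hZp (show t ∈ Subgroup.normalizer
      (((Subgroup.zpowers x).map f : Subgroup (G ⧸ O)) : Set (G ⧸ O)) by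
    refine mem_normalizer_of_map_eq fun w hw => ?_
    rw [MonoidHom.map_zpowers] at hw ⊢
    obtain ⟨i, rfl⟩ := hw
    show t * f x ^ i * t⁻¹ ∈ _
    rw [← conj_zpow, htx]
    exact Subgroup.zpow_mem _ (Subgroup.inv_mem _ (Subgroup.mem_zpowers _)) i)
  refine ⟨q, hqp, hq2, z, Subgroup.mem_top _, x, Subgroup.mem_top _, ⟨1, by rw [pow_one, hxq]⟩,
    fun h => hfx1 (by rw [h, map_one]), ?_⟩
  refine injOn_of_coprime_ker f hkc hZp ((Subgroup.mem_normalizer_iff.1 hzN x).1 (Subgroup.mem_zpowers x))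
    (Subgroup.inv_mem _ (Subgroup.mem_zpowers x)) ?_
  rw [map_mul, map_mul, map_inv, map_inv, hzt, htx]

/-- Normality of the Sylow 2-subgroup passes to subgroups. -/
theorem sylow_two_normal_subgroup (hP : ∀ P : Sylow 2 G, (P : Subgroup G).Normal) (N : Subgroup G)
    (Q : Sylow 2 ↥N) : (Q : Subgroup ↥N).Normal := by
  haveI : Fact (Nat.Prime 2) := ⟨Nat.prime_two⟩
  obtain ⟨P, hQP⟩ := (Q.2.map N.subtype).exists_le_sylow
  haveI := hP P
  have hle : (Q : Subgroup ↥N) ≤ (P : Subgroup G).subgroupOf N := fun x hx => hQP ⟨x, hx, rfl⟩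
  rw [← Q.3 (P.2.comap_of_injective N.subtype N.subtype_injective) hle]
  exact (hP P).comap N.subtype

/-- With a normal Sylow 2-subgroup nothing of odd order is inverted. -/
theorem not_invIn_of_sylow_two_normal {q : ℕ} [Fact q.Prime] (hq : q ≠ 2) (N : Subgroup G)
    (hN : ∀ P : Sylow 2 ↥N, (P : Subgroup ↥N).Normal) : ¬ InvIn q N := by
  intro h
  haveI : Fact (Nat.Prime 2) := ⟨Nat.prime_two⟩
  obtain ⟨z, hz, ⟨k, hk⟩, x, hx, hxk, hx1, he⟩ := exists_two_inverting h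
  obtain ⟨Q, hQ⟩ := (show IsPGroup 2 ↥(Subgroup.zpowers (⟨z, hz⟩ : ↥N)) from by
    obtain ⟨i, -, hi⟩ := (Nat.dvd_prime_pow Nat.prime_two).1
      (orderOf_dvd_of_pow_eq_one (show (⟨z, hz⟩ : ↥N) ^ 2 ^ k = 1 from Subtype.ext hk))
    exact IsPGroup.of_card (n := i) (by rw [Nat.card_zpowers, hi])).exists_le_sylow
  haveI := hN Q
  set zz : ↥N := ⟨z, hz⟩
  set xx : ↥N := ⟨x, hx⟩
  have hzQ : zz ∈ (Q : Subgroup ↥N) := hQ (Subgroup.mem_zpowers zz)
  have h2 : zz * (xx * zz⁻¹ * xx⁻¹) ∈ (Q : Subgroup ↥N) :=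
    Subgroup.mul_mem _ hzQ ((hN Q).conj_mem _ (Subgroup.inv_mem _ hzQ) xx)
  obtain ⟨j, hj⟩ := Q.2 ⟨_, h2⟩
  have h3 : (x⁻¹ * x⁻¹) ^ 2 ^ j = 1 := by
    have h4 : (zz * (xx * zz⁻¹ * xx⁻¹)) ^ 2 ^ j = 1 := congrArg Subtype.val hj
    have h5 : (((zz * (xx * zz⁻¹ * xx⁻¹) : ↥N)) : G) = x⁻¹ * x⁻¹ := by
      show z * (x * z⁻¹ * x⁻¹) = x⁻¹ * x⁻¹
      rw [← mul_assoc, ← mul_assoc, he]
    rw [← h5, ← SubgroupClass.coe_pow, h4]; rfl
  obtain ⟨i, hi⟩ := hxk
  have hord : orderOf x = 1 := by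
    refine Nat.eq_one_of_dvd_coprimes (((Nat.coprime_primes (Fact.out) Nat.prime_two).2 hq).pow i (j + 1))
      (orderOf_dvd_of_pow_eq_one hi) (orderOf_dvd_of_pow_eq_one ?_)
    rw [pow_succ', pow_mul, pow_two, ← inv_inj, ← inv_pow, mul_inv_rev, h3, inv_one]
  exact hx1 (orderOf_eq_one_iff.1 hord)

end CfsgLib.Local.Invert
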