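import Cfsg.Agent.Lib.LocalKBalanced
import Cfsg.Agent.Lib.CoreCoprime
import Mathlib.GroupTheory.Solvable

/-!
A balanced family of subgroups on a soluble `p'`-group is the family of centralisers.
-/

set_option autoImplicit false
set_option linter.style.haveILetI false

open scoped commutatorElement

namespace CfsgLib.Local.KBal

universe u

variable {G : Type u} [Group G] [Finite G] {p : ℕ} [hp : Fact p.Prime]

omit [Finite G] in
theorem conj_mem_of_le_normalizer {A K : Subgroup G} (h : A ≤ Subgroup.normalizer (K : Set G))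
    {a x : G} (ha : a ∈ A) (hx : x ∈ K) : a * x * a⁻¹ ∈ K :=
  (Subgroup.mem_normalizer_iff.mp (h ha) x).mp hx

set_option maxHeartbeats 1000000 in
/-- If a family `f` with the balance properties generates the soluble group `K`, then it consists
of the centralisers of the cocyclic subgroups. -/
theorem centralizer_le {A : Subgroup G} (hA : Cfsg.IsElementaryAbelian p A) {k : ℕ} (hk : 1 ≤ k)
    (hAk : p ^ (k + 2) ≤ Nat.card ↥A) :
    ∀ (n : ℕ) (K : Subgroup G) (f : Subgroup G → Subgroup G), Nat.card ↥K = n →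
      Group.IsSolvable ↥K → A ≤ Subgroup.normalizer (K : Set G) → ¬ p ∣ Nat.card ↥K →
      (∀ H, H ≤ A → p ^ k ≤ Nat.card ↥H → f H ≤ K) →
      (∀ H, H ≤ A → p ^ k ≤ Nat.card ↥H → f H ≤ Subgroup.centralizer (H : Set G)) →
      (∀ H, H ≤ A → p ^ k ≤ Nat.card ↥H → ∀ y ∈ K, y ∈ Subgroup.centralizer (H : Set G) →
        ∀ x ∈ f H, y * x * y⁻¹ ∈ f H) →
      (∀ H, H ≤ A → p ^ k ≤ Nat.card ↥H → A ≤ Subgroup.normalizer (f H : Set G)) →
      (∀ D E, D ≤ A → E ≤ A → p ^ k ≤ Nat.card ↥D → p ^ k ≤ Nat.card ↥E →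
        f D ⊓ Subgroup.centralizer (E : Set G) ≤ f E) →
      (∀ D E, D ≤ E → E ≤ A → p ^ k ≤ Nat.card ↥D → f E ≤ f D) →
      K ≤ ⨆ H ∈ CfsgLib.Core.Cocyclic A, f H →
      ∀ H ∈ CfsgLib.Core.Cocyclic A, K ⊓ Subgroup.centralizer (H : Set G) ≤ f H := by
  intro n
  induction n using Nat.strong_induction_on with
  | _ n ih =>
  intro K f hcard hs hAK hpK hle hcent hconj hAf hbal hmono hgen H₀ hH₀
  subst hcard
  haveI : IsMulCommutative ↥A := hA.1
  haveI := hs
  by_cases hK1 : K = ⊥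
  · subst hK1; rw [bot_inf_eq]; exact bot_le
  have hbig : ∀ H ∈ CfsgLib.Core.Cocyclic A, p ^ (k + 1) ≤ Nat.card ↥H := fun H hH => by
    have := le_card_inf hA le_rfl hH (n := k + 1) hAk
    rwa [inf_eq_left.mpr hH.1] at this
  have hbk : ∀ H ∈ CfsgLib.Core.Cocyclic A, p ^ k ≤ Nat.card ↥H := fun H hH =>
    (Nat.pow_le_pow_right hp.out.pos (Nat.le_succ k)).trans (hbig H hH)
  -- two members lie in a common one
  have hcommon : ∀ H ∈ CfsgLib.Core.Cocyclic A, ∀ H' ∈ CfsgLib.Core.Cocyclic A,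
      f H ≤ f (H ⊓ H') ∧ f H' ≤ f (H ⊓ H') ∧ H ⊓ H' ≤ A ∧
        p ^ k ≤ Nat.card ↥(H ⊓ H' : Subgroup G) := by
    intro H hH H' hH'
    have hc := le_card_inf hA hH'.1 hH (hbig H' hH')
    exact ⟨hmono _ _ inf_le_left hH.1 hc, hmono _ _ inf_le_right hH'.1 hc,
      inf_le_left.trans hH.1, hc⟩
  set N := ⁅K, K⁆ with hN
  have hNK : N ≤ K := Subgroup.commutator_le_self K
  have hAN : A ≤ Subgroup.normalizer (N : Set G) :=
    CfsgLib.Core.le_normalizer_commutator hAK hAK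
  have hKN : K ≤ Subgroup.normalizer (N : Set G) :=
    CfsgLib.Core.le_normalizer_commutator Subgroup.le_normalizer Subgroup.le_normalizer
  set M := ⨆ H ∈ CfsgLib.Core.Cocyclic A, f H ⊓ N with hM
  have hMN : M ≤ N := iSup₂_le fun _ _ => inf_le_right
  -- the part of a member in `N`
  have hpart : ∀ D, D ≤ A → p ^ k ≤ Nat.card ↥D → f D ⊓ N ≤ M := by
    intro D hD hDk
    have hAD : A ≤ Subgroup.normalizer ((f D ⊓ N : Subgroup G) : Set G) := fun a ha =>
      Subgroup.mem_normalizer_iff.mpr fun x =>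
        ⟨fun hx => ⟨conj_mem_of_le_normalizer (hAf D hD hDk) ha hx.1,
            conj_mem_of_le_normalizer hAN ha hx.2⟩,
          fun hx => ⟨(Subgroup.mem_normalizer_iff.mp (hAf D hD hDk ha) x).mpr hx.1,
            (Subgroup.mem_normalizer_iff.mp (hAN ha) x).mpr hx.2⟩⟩
    refine (CfsgLib.Core.generated_by_cocyclic hAD (CoprimeGen.coprime_of_not_dvd hA fun h =>
      hpK (h.trans (Subgroup.card_dvd_of_le (inf_le_right.trans hNK))))).ge.trans
      (iSup₂_le fun B hB => le_trans ?_ (le_iSup₂ B hB))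
    exact fun x hx => ⟨hbal D B hD hB.1 hDk (hbk B hB) ⟨hx.1.1, hx.2⟩, hx.1.2⟩
  have hfM : ∀ H ∈ CfsgLib.Core.Cocyclic A, f H ≤ Subgroup.normalizer (M : Set G) := by
    intro H hH
    have key : ∀ u ∈ f H, ∀ m ∈ M, u * m * u⁻¹ ∈ M := by
      intro u hu m hm
      have hsub : M ≤ M.comap (MulAut.conj u).toMonoidHom := by
        refine iSup₂_le fun H' hH' x hx => ?_
        obtain ⟨h1, h2, h3, h4⟩ := hcommon H hH H' hH'
        exact hpart _ h3 h4 (Subgroup.mem_inf.mpr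
          ⟨mul_mem (mul_mem (h1 hu) (h2 hx.1)) (inv_mem (h1 hu)),
          conj_mem_of_le_normalizer hKN (hle H hH.1 (hbk H hH) hu) hx.2⟩)
      exact hsub hm
    intro u hu
    rw [Subgroup.mem_normalizer_iff]
    refine fun m => ⟨key u hu m, fun hm => ?_⟩
    have := key u⁻¹ (inv_mem hu) _ hm
    rwa [show u⁻¹ * (u * m * u⁻¹) * u⁻¹⁻¹ = m by group] at this
  have hKM : K ≤ Subgroup.normalizer (M : Set G) := hgen.trans (iSup₂_le hfM)
  -- `N = M`
  have hNM : N ≤ M := by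
    set Nm := Subgroup.normalizer (M : Set G) with hNm
    haveI : (M.subgroupOf Nm).Normal := Subgroup.normal_subgroupOf_of_le_normalizer le_rfl
    set π := QuotientGroup.mk' (M.subgroupOf Nm) with hπ
    have hsub : K.subgroupOf Nm ≤ ⨆ H ∈ CfsgLib.Core.Cocyclic A, (f H).subgroupOf Nm := by
      rw [← Subgroup.map_le_map_iff_of_injective Nm.subtype_injective,
        Subgroup.subgroupOf_map_subtype, inf_eq_left.mpr hKM]
      simp only [Subgroup.map_iSup, Subgroup.subgroupOf_map_subtype]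
      exact hgen.trans (iSup₂_mono fun H hH => le_inf le_rfl (hfM H hH))
    have hJ : (K.subgroupOf Nm).map π ≤
        Subgroup.centralizer (((K.subgroupOf Nm).map π : Subgroup _) : Set _) := by
      have hgenJ := Subgroup.map_mono (f := π) hsub
      rw [Subgroup.map_iSup] at hgenJ
      simp only [Subgroup.map_iSup] at hgenJ
      refine hgenJ.trans (iSup₂_le fun H hH => ?_)
      rw [Subgroup.le_centralizer_iff]
      refine hgenJ.trans (iSup₂_le fun H' hH' => ?_)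
      rw [Subgroup.le_centralizer_iff]
      rintro _ ⟨u, hu, rfl⟩
      rw [Subgroup.mem_centralizer_iff]
      rintro _ ⟨v, hv, rfl⟩
      obtain ⟨h1, h2, h3, h4⟩ := hcommon H hH H' hH'
      rw [← map_mul, ← map_mul]
      refine (QuotientGroup.eq.mpr ?_)
      rw [Subgroup.mem_subgroupOf]
      show ((v : G) * u)⁻¹ * ((u : G) * v) ∈ M
      rw [show ((v : G) * u)⁻¹ * ((u : G) * v) = ⁅(u : G)⁻¹, (v : G)⁻¹⁆ by
        rw [commutatorElement_def]; group]
      refine hpart _ h3 h4 (Subgroup.mem_inf.mpr ⟨?_, Subgroup.commutator_mem_commutator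
        (inv_mem (hle _ hH.1 (hbk _ hH) (Subgroup.mem_subgroupOf.mp hu)))
        (inv_mem (hle _ hH'.1 (hbk _ hH') (Subgroup.mem_subgroupOf.mp hv)))⟩)
      have a1 := h1 (Subgroup.mem_subgroupOf.mp hu)
      have a2 := h2 (Subgroup.mem_subgroupOf.mp hv)
      rw [commutatorElement_def]
      exact mul_mem (mul_mem (mul_mem (inv_mem a1) (inv_mem a2)) (inv_mem (inv_mem a1)))
        (inv_mem (inv_mem a2))
    rw [hN, Subgroup.commutator_le]
    intro x hx y hy
    have h := Subgroup.mem_centralizer_iff.mp (hJ ⟨⟨x, hKM hx⟩, hx, rfl⟩) (π ⟨y, hKM hy⟩)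
      ⟨_, hy, rfl⟩
    have h1 : π ⁅(⟨x, hKM hx⟩ : ↥Nm), ⟨y, hKM hy⟩⁆ = 1 := by
      rw [map_commutatorElement, commutatorElement_eq_one_iff_mul_comm]
      exact h.symm
    exact Subgroup.mem_subgroupOf.mp ((QuotientGroup.eq_one_iff _).mp h1)
  -- induction
  have hlt : Nat.card ↥N < Nat.card ↥K := by
    refine lt_of_le_of_ne (Nat.le_of_dvd Nat.card_pos (Subgroup.card_dvd_of_le hNK)) fun e => ?_
    haveI : Nontrivial ↥K := (Subgroup.nontrivial_iff_ne_bot K).mpr hK1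
    have h1 : N = K := Subgroup.eq_of_le_of_card_ge hNK e.ge
    have h2 := Group.IsSolvable.commutator_lt_top_of_nontrivial ↥K
    refine h2.ne (Subgroup.map_injective K.subtype_injective ?_)
    rw [Subgroup.map_subtype_commutator, ← hN, h1, ← MonoidHom.range_eq_map, Subgroup.range_subtype]
  have hihN : ∀ B ∈ CfsgLib.Core.Cocyclic A, N ⊓ Subgroup.centralizer (B : Set G) ≤ f B ⊓ N := by
    refine ih _ hlt N (fun H => f H ⊓ N) rfl
      (Group.isSolvable_of_isSolvable_injective (f := Subgroup.inclusion hNK) (Subgroup.inclusion_injective hNK))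
      hAN (fun h => hpK (h.trans (Subgroup.card_dvd_of_le hNK))) (fun _ _ _ => inf_le_right)
      (fun H h1 h2 => inf_le_left.trans (hcent H h1 h2))
      (fun H h1 h2 y hy hyC x hx => Subgroup.mem_inf.mpr ⟨hconj H h1 h2 y (hNK hy) hyC x hx.1,
        mul_mem (mul_mem hy hx.2) (inv_mem hy)⟩) ?_ ?_ ?_ hNM
    · intro H h1 h2 a ha
      rw [Subgroup.mem_normalizer_iff]
      exact fun x => ⟨fun hx => ⟨conj_mem_of_le_normalizer (hAf H h1 h2) ha hx.1,
            conj_mem_of_le_normalizer hAN ha hx.2⟩,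
          fun hx => ⟨(Subgroup.mem_normalizer_iff.mp (hAf H h1 h2 ha) x).mpr hx.1,
            (Subgroup.mem_normalizer_iff.mp (hAN ha) x).mpr hx.2⟩⟩
    · exact fun D E h1 h2 h3 h4 x hx => ⟨hbal D E h1 h2 h3 h4 ⟨hx.1.1, hx.2⟩, hx.1.2⟩
    · exact fun D E h1 h2 h3 => inf_le_inf_right _ (hmono D E h1 h2 h3)
  -- the norm map to the abelian quotient
  haveI : (N.subgroupOf K).Normal := Subgroup.normal_subgroupOf_of_le_normalizer hKN
  letI : CommGroup (↥K ⧸ N.subgroupOf K) :=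
    { (inferInstance : Group (↥K ⧸ N.subgroupOf K)) with
      mul_comm := by
        intro x y
        obtain ⟨x, rfl⟩ := QuotientGroup.mk_surjective x
        obtain ⟨y, rfl⟩ := QuotientGroup.mk_surjective y
        rw [← QuotientGroup.mk_mul, ← QuotientGroup.mk_mul, QuotientGroup.eq, Subgroup.mem_subgroupOf]
        show ((x : G) * y)⁻¹ * ((y : G) * x) ∈ N
        rw [show ((x : G) * y)⁻¹ * ((y : G) * x) = ⁅(y : G)⁻¹, (x : G)⁻¹⁆ by
          rw [commutatorElement_def]; group]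
        exact Subgroup.commutator_mem_commutator (inv_mem y.2) (inv_mem x.2) }
  letI := Fintype.ofFinite ↥H₀
  set ρ := QuotientGroup.mk' (N.subgroupOf K) with hρ
  have hHK : ∀ (h : ↥H₀) (x : ↥K), (h : G) * x * (h : G)⁻¹ ∈ K := fun h x =>
    conj_mem_of_le_normalizer hAK (hH₀.1 h.2) x.2
  let N₀ : ↥K →* ↥K ⧸ N.subgroupOf K := MonoidHom.mk' (fun x => ∏ h : ↥H₀, ρ ⟨_, hHK h x⟩) (by
    intro x y
    rw [← Finset.prod_mul_distrib]
    refine Finset.prod_congr rfl fun h _ => ?_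
    rw [← map_mul]
    refine congrArg ρ (Subtype.ext ?_)
    show (h : G) * ((x : G) * y) * (h : G)⁻¹ = (h : G) * x * (h : G)⁻¹ * ((h : G) * y * (h : G)⁻¹)
    group)
  have hfix : ∀ x : ↥K, (x : G) ∈ Subgroup.centralizer (H₀ : Set G) →
      N₀ x = ρ x ^ Nat.card ↥H₀ := by
    intro x hx
    show ∏ h : ↥H₀, ρ ⟨_, hHK h x⟩ = _
    rw [Finset.prod_congr rfl fun h _ => show ρ ⟨_, hHK h x⟩ = ρ x from congrArg ρ (Subtype.ext (by
      show (h : G) * x * (h : G)⁻¹ = x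
      rw [Subgroup.mem_centralizer_iff.mp hx h h.2, mul_inv_cancel_right])),
      Finset.prod_const, Finset.card_univ, Nat.card_eq_fintype_card]
  have hker : ∀ (x : ↥K) (h₀ : ↥H₀),
      N₀ ⟨⁅(x : G), (h₀ : G)⁆, by
        rw [commutatorElement_def, mul_assoc, mul_assoc]
        refine mul_mem x.2 ?_
        rw [← mul_assoc]
        exact hHK h₀ x⁻¹⟩ = 1 := by
    intro x h₀
    have hc : (x : G) * ((h₀ : G) * (x : G)⁻¹ * (h₀ : G)⁻¹) = ⁅(x : G), (h₀ : G)⁆ := by
      rw [commutatorElement_def]; group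
    rw [show (⟨⁅(x : G), (h₀ : G)⁆, _⟩ : ↥K) = x * ⟨_, hHK h₀ x⁻¹⟩ from Subtype.ext hc.symm,
      map_mul]
    have hshift : N₀ ⟨_, hHK h₀ x⁻¹⟩ = N₀ x⁻¹ := by
      show ∏ h : ↥H₀, ρ ⟨_, hHK h _⟩ = ∏ h : ↥H₀, ρ ⟨_, hHK h x⁻¹⟩
      refine Fintype.prod_equiv (Equiv.mulRight h₀) _ _ fun h => congrArg ρ (Subtype.ext ?_)
      show (h : G) * ((h₀ : G) * ((x⁻¹ : ↥K) : G) * (h₀ : G)⁻¹) * (h : G)⁻¹ =
        ((h : G) * (h₀ : G)) * ((x⁻¹ : ↥K) : G) * ((h : G) * (h₀ : G))⁻¹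
      group
    rw [hshift, map_inv, mul_inv_cancel]
  set T := ((f H₀).subgroupOf K).map ρ with hT
  have hgenK : K.subgroupOf K ≤ T.comap N₀ := by
    rw [← Subgroup.map_le_map_iff_of_injective K.subtype_injective, Subgroup.subgroupOf_map_subtype,
      inf_idem]
    refine hgen.trans (iSup₂_le fun H hH => ?_)
    have hH0H : H₀ ≤ Subgroup.normalizer (f H : Set G) := hH₀.1.trans (hAf H hH.1 (hbk H hH))
    refine (CfsgLib.Core.commutator_sup_centralizer hH0H (Nat.Coprime.coprime_dvd_left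
      (Subgroup.card_dvd_of_le hH₀.1) (CoprimeGen.coprime_of_not_dvd hA fun h =>
        hpK (h.trans (Subgroup.card_dvd_of_le (hle H hH.1 (hbk H hH))))))
      (Or.inr (Group.isSolvable_of_isSolvable_injective (f := Subgroup.inclusion (hle H hH.1 (hbk H hH)))
        (Subgroup.inclusion_injective _)))).ge.trans (sup_le ?_ ?_)
    · rw [Subgroup.commutator_le]
      intro x hx h₀ hh₀
      exact ⟨_, show N₀ _ ∈ T by
        rw [hker ⟨x, hle H hH.1 (hbk H hH) hx⟩ ⟨h₀, hh₀⟩]; exact one_mem _, rfl⟩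
    · intro x hx
      refine ⟨⟨x, hle H hH.1 (hbk H hH) hx.1⟩, ?_, rfl⟩
      show N₀ _ ∈ T
      rw [hfix _ hx.2]
      exact pow_mem (Subgroup.mem_map_of_mem ρ (Subgroup.mem_subgroupOf.mpr
        (hbal H H₀ hH.1 hH₀.1 (hbk H hH) (hbk H₀ hH₀) hx))) _
  intro m hm
  have h1 : N₀ ⟨m, hm.1⟩ ∈ T := hgenK (Subgroup.mem_subgroupOf.mpr hm.1)
  rw [hfix ⟨m, hm.1⟩ hm.2] at h1
  have hcop : (Nat.card ↥H₀).Coprime (orderOf (ρ ⟨m, hm.1⟩)) :=
    ((CoprimeGen.coprime_of_not_dvd hA hpK).coprime_dvd_left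
      (Subgroup.card_dvd_of_le hH₀.1)).coprime_dvd_right
      ((orderOf_dvd_natCard _).trans (Subgroup.card_quotient_dvd_card _))
  obtain ⟨j, hj⟩ := exists_pow_eq_self_of_coprime hcop
  have h2 : ρ ⟨m, hm.1⟩ ∈ T := hj ▸ pow_mem h1 j
  obtain ⟨w, hw, hwe⟩ := h2
  have hn : w⁻¹ * ⟨m, hm.1⟩ ∈ N.subgroupOf K := QuotientGroup.eq.mp hwe
  have hwC := hcent H₀ hH₀.1 (hbk H₀ hH₀) (Subgroup.mem_subgroupOf.mp hw)
  have h3 := (hihN H₀ hH₀ (Subgroup.mem_inf.mpr ⟨Subgroup.mem_subgroupOf.mp hn, mul_mem (inv_mem hwC) hm.2⟩)).1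
  have h4 := mul_mem (Subgroup.mem_subgroupOf.mp hw) h3
  rwa [show (w : G) * ((w⁻¹ * ⟨m, hm.1⟩ : ↥K) : G) = m from mul_inv_cancel_left (w : G) m] at h4

/-- The `k`-balanced functor on a group with soluble cores is a signalizer functor. -/
theorem isSignalizerFunctor {A : Subgroup G} (hA : Cfsg.IsElementaryAbelian p A) {k : ℕ} (hk : 1 ≤ k)
    (hAk : p ^ (k + 2) ≤ Nat.card ↥A)
    (hbal : ∀ B : Subgroup G, B ≤ A → p ^ k ≤ Nat.card ↥B → ∀ a ∈ A, a ≠ 1 →
      Cfsg.signalizerDelta p B ⊓ Subgroup.centralizer {a} ≤ Cfsg.centralizerPPrimeCore p a)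
    (hsolv : ∀ a ∈ A, a ≠ 1 → Group.IsSolvable ↥(Cfsg.centralizerPPrimeCore p a))
    (P : Set (Subgroup G)) (hP : ∀ B ∈ P, B ≤ A ∧ p ^ k ≤ Nat.card ↥B)
    (hP' : ∀ H : Subgroup G, H ≤ A → p ^ k ≤ Nat.card ↥H → ∃ B ∈ P, B ≤ H) :
    Cfsg.IsSignalizerFunctor p A (fun a => ⨆ D : {D : Subgroup G // D ∈ P},
      Cfsg.signalizerDelta p (D : Subgroup G) ⊓ Subgroup.centralizer {a}) := by
  haveI : IsMulCommutative ↥A := hA.1
  set θ := fun a => ⨆ D : {D : Subgroup G // D ∈ P},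
    Cfsg.signalizerDelta p (D : Subgroup G) ⊓ Subgroup.centralizer {a} with hθ
  have hθC : ∀ a, θ a ≤ Subgroup.centralizer {a} := fun a => iSup_le fun _ => inf_le_right
  have hθO : ∀ a ∈ A, a ≠ 1 → θ a ≤ Cfsg.centralizerPPrimeCore p a := fun a ha h1 =>
    iSup_le fun D => hbal D (hP D D.2).1 (hP D D.2).2 a ha h1
  have hnorm : ∀ a ∈ A, A ≤ Subgroup.normalizer (θ a : Set G) := by
    intro a ha b hb
    have key : ∀ c ∈ A, θ a ≤ (θ a).comap (MulAut.conj c).toMonoidHom := by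
      intro c hc
      refine iSup_le fun D x hx => ?_
      refine Subgroup.mem_comap.mpr (le_iSup (fun D : {D : Subgroup G // D ∈ P} =>
        Cfsg.signalizerDelta p (D : Subgroup G) ⊓ Subgroup.centralizer {a}) D (Subgroup.mem_inf.mpr ⟨?_, ?_⟩))
      · exact conj_mem_of_le_normalizer (le_normalizer_delta (hP D D.2).1) hc hx.1
      · refine mul_mem (mul_mem ?_ hx.2) (inv_mem ?_) <;>
        exact Subgroup.mem_centralizer_singleton_iff.mpr
          (congrArg Subtype.val (mul_comm' (⟨c, hc⟩ : ↥A) ⟨a, ha⟩))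
    rw [Subgroup.mem_normalizer_iff]
    refine fun x => ⟨fun hx => key b hb hx, fun hx => ?_⟩
    have h := key b⁻¹ (inv_mem hb) hx
    change b⁻¹ * (b * x * b⁻¹) * b⁻¹⁻¹ ∈ θ a at h
    rwa [show b⁻¹ * (b * x * b⁻¹) * b⁻¹⁻¹ = x by group] at h
  have hθp : ∀ a ∈ A, a ≠ 1 → ¬ p ∣ Nat.card ↥(θ a) := fun a ha h1 h =>
    not_dvd_core a (h.trans (Subgroup.card_dvd_of_le (hθO a ha h1)))
  refine ⟨fun a _ _ => hθC a, hθp,
    fun a ha _ b hb x hx => conj_mem_of_le_normalizer (hnorm a ha) hb hx, ?_⟩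
  intro a ha ha1 b hb hb1
  set K := θ a with hK
  have hdelta : ∀ D E : Subgroup G, D ≤ A → E ≤ A → p ^ k ≤ Nat.card ↥D →
      Cfsg.signalizerDelta p D ⊓ Subgroup.centralizer (E : Set G) ≤ Cfsg.signalizerDelta p E := by
    intro D E hD hE hDk x hx
    refine mem_delta fun c hc hc1 => hbal D hD hDk c (hE hc) hc1 ⟨hx.1, ?_⟩
    exact Subgroup.centralizer_le (by simpa using hc) hx.2
  haveI := hsolv a ha ha1
  have hbk : ∀ H ∈ CfsgLib.Core.Cocyclic A, p ^ k ≤ Nat.card ↥H := fun H hH => by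
    have := le_card_inf hA le_rfl hH (n := k + 1) hAk
    rw [inf_eq_left.mpr hH.1] at this
    exact (Nat.pow_le_pow_right hp.out.pos (Nat.le_succ k)).trans this
  have hgenθ : ∀ D : {D : Subgroup G // D ∈ P}, ∀ H ∈ CfsgLib.Core.Cocyclic A,
      Cfsg.signalizerDelta p (D : Subgroup G) ⊓ Subgroup.centralizer {a} ⊓
        Subgroup.centralizer (H : Set G) ≤ Cfsg.signalizerDelta p H :=
    fun D H hH x hx => hdelta D H (hP D D.2).1 hH.1 (hP D D.2).2 ⟨hx.1.1, hx.2⟩
  have key := centralizer_le hA hk hAk _ K (fun H => K ⊓ Cfsg.signalizerDelta p H) rfl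
    (Group.isSolvable_of_isSolvable_injective (f := Subgroup.inclusion (hθO a ha ha1))
      (Subgroup.inclusion_injective _)) (hnorm a ha) (hθp a ha ha1)
    (fun _ _ _ => inf_le_left) (fun H _ _ => inf_le_right.trans (delta_le_centralizer H))
    (fun H hH _ y hy hyC x hx => Subgroup.mem_inf.mpr ⟨mul_mem (mul_mem hy hx.1) (inv_mem hy),
      mem_delta fun c hc hc1 => conj_mem_core (Subgroup.centralizer_le (by simpa using hc) hyC)
        (delta_le hc hc1 hx.2)⟩)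
    (fun H hH _ c hc => Subgroup.mem_normalizer_iff.mpr fun x =>
      ⟨fun hx => ⟨conj_mem_of_le_normalizer (hnorm a ha) hc hx.1,
          conj_mem_of_le_normalizer (le_normalizer_delta hH) hc hx.2⟩,
        fun hx => ⟨(Subgroup.mem_normalizer_iff.mp (hnorm a ha hc) x).mpr hx.1,
          (Subgroup.mem_normalizer_iff.mp (le_normalizer_delta hH hc) x).mpr hx.2⟩⟩)
    (fun D E hD hE hDk _ x hx => ⟨hx.1.1, hdelta D E hD hE hDk ⟨hx.1.2, hx.2⟩⟩)
    (fun D E hDE _ _ => inf_le_inf_left _ (le_iInf fun d => delta_le (hDE d.2.1) d.2.2))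
    (iSup_le fun D => by
      have hAD : A ≤ Subgroup.normalizer
          ((Cfsg.signalizerDelta p (D : Subgroup G) ⊓ Subgroup.centralizer {a} : Subgroup G) : Set G) :=
        fun c hc => Subgroup.mem_normalizer_iff.mpr fun x => by
          have hcC : c ∈ Subgroup.centralizer ({a} : Set G) := Subgroup.mem_centralizer_singleton_iff.mpr
            (congrArg Subtype.val (mul_comm' (⟨c, hc⟩ : ↥A) ⟨a, ha⟩))
          exact ⟨fun hx => Subgroup.mem_inf.mpr ⟨conj_mem_of_le_normalizer (le_normalizer_delta (hP D D.2).1) hc hx.1,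
              mul_mem (mul_mem hcC hx.2) (inv_mem hcC)⟩,
            fun hx => ⟨(Subgroup.mem_normalizer_iff.mp (le_normalizer_delta (hP D D.2).1 hc) x).mpr hx.1,
              by
                have := mul_mem (mul_mem (inv_mem hcC) hx.2) hcC
                rwa [show c⁻¹ * (c * x * c⁻¹) * c = x by group] at this⟩⟩
      have hDne : (D : Subgroup G) ≠ ⊥ := ne_bot_of_le hk (hP D D.2).2
      refine (CfsgLib.Core.generated_by_cocyclic hAD (CoprimeGen.coprime_of_not_dvd hA fun h =>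
        not_dvd_delta hDne (h.trans (Subgroup.card_dvd_of_le inf_le_left)))).ge.trans
        (iSup₂_le fun H hH => le_trans ?_ (le_iSup₂ H hH))
      exact le_inf (inf_le_left.trans (le_iSup (fun D : {D : Subgroup G // D ∈ P} =>
        Cfsg.signalizerDelta p (D : Subgroup G) ⊓ Subgroup.centralizer {a}) D)) (hgenθ D H hH))
  have hbA : b ∈ A := hb
  have hAX : A ≤ Subgroup.normalizer ((K ⊓ Subgroup.centralizer {b} : Subgroup G) : Set G) :=
    fun c hc => Subgroup.mem_normalizer_iff.mpr fun x => by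
      have hcC : c ∈ Subgroup.centralizer ({b} : Set G) := Subgroup.mem_centralizer_singleton_iff.mpr
        (congrArg Subtype.val (mul_comm' (⟨c, hc⟩ : ↥A) ⟨b, hbA⟩))
      exact ⟨fun hx => Subgroup.mem_inf.mpr ⟨conj_mem_of_le_normalizer (hnorm a ha) hc hx.1,
          mul_mem (mul_mem hcC hx.2) (inv_mem hcC)⟩,
        fun hx => ⟨(Subgroup.mem_normalizer_iff.mp (hnorm a ha hc) x).mpr hx.1, by
          have := mul_mem (mul_mem (inv_mem hcC) hx.2) hcC
          rwa [show c⁻¹ * (c * x * c⁻¹) * c = x by group] at this⟩⟩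
  refine (CfsgLib.Core.generated_by_cocyclic hAX (CoprimeGen.coprime_of_not_dvd hA fun h =>
    hθp a ha ha1 (h.trans (Subgroup.card_dvd_of_le inf_le_left)))).ge.trans (iSup₂_le fun H hH => ?_)
  intro x hx
  obtain ⟨B, hB, hBH⟩ := hP' H hH.1 (hbk H hH)
  have hx1 := (key H hH ⟨hx.1.1, hx.2⟩).2
  exact le_iSup (fun D : {D : Subgroup G // D ∈ P} =>
    Cfsg.signalizerDelta p (D : Subgroup G) ⊓ Subgroup.centralizer {b}) ⟨B, hB⟩
    ⟨mem_delta fun c hc hc1 => delta_le (hBH hc) hc1 hx1, hx.1.2⟩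

end CfsgLib.Local.KBal
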