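import Mathlib
import Cfsg.Prelude.Def_LocalEven
import Cfsg.Agent.Lib.LocalKInfNormal
import Cfsg.Agent.Lib.LocalTransferCtl

/-!
# The K-infinity subgroups in constrained stable groups

If `C(T) ≤ T` for `T = O_p(G)` and `G`, `G / Z(C)` are normalizer stable, the members of the lower and
upper families lie in `T`.
-/

set_option autoImplicit false

namespace CfsgLib.Local.KInf

variable {G : Type*} [Group G]

/-- The commutator `x y x⁻¹ y⁻¹`. -/
def cm (x y : G) : G := x * y * x⁻¹ * y⁻¹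

theorem conj_cm (g x y : G) : g * cm x y * g⁻¹ = cm (g * x * g⁻¹) (g * y * g⁻¹) := by
  unfold cm; group

theorem quadratic_of_dlt {P : Subgroup G} {g : G} (h : ∀ x ∈ P, dlt g (dlt g x) = 1) :
    ⁅⁅P, Subgroup.zpowers g⁆, Subgroup.zpowers g⁆ = ⊥ := by
  rw [Subgroup.commutator_eq_bot_iff_le_centralizer, Subgroup.commutator_le]
  intro x hx c hc
  rw [Subgroup.mem_centralizer_iff]
  intro d hd
  obtain ⟨i, rfl⟩ := Subgroup.mem_zpowers_iff.1 hc
  obtain ⟨j, rfl⟩ := Subgroup.mem_zpowers_iff.1 hd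
  have h1 : Commute g (dlt g x) := mul_inv_eq_iff_eq_mul.1 (mul_inv_eq_one.1 (h x hx))
  have h2 : Commute g (x * g * x⁻¹) := by
    have := h1.inv_right.mul_right (Commute.refl g)
    rwa [show (dlt g x)⁻¹ * g = x * g * x⁻¹ by unfold dlt; group] at this
  have h3 : Commute g (x * g ^ i * x⁻¹) := by
    have := h2.zpow_right i
    rwa [conj_zpow] at this
  exact ((h3.mul_right ((Commute.refl g).zpow_right i).inv_right).zpow_left j)

variable [Finite G] {p : ℕ} [hp : Fact p.Prime]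

/-- A `p'`-element fixing both layers of a series fixes the element. -/
theorem fix_step {x y c : G} (hx : (orderOf x).Coprime p) (hy : ∃ k, y ^ p ^ k = 1)
    (hfix : x * y * x⁻¹ = y) (hc : x * c * x⁻¹ = y * c) : x * c * x⁻¹ = c := by
  have h : ∀ n : ℕ, x ^ n * c * (x ^ n)⁻¹ = y ^ n * c := by
    intro n
    induction n with
    | zero => simp
    | succ n ih =>
      have hyn : x * y ^ n * x⁻¹ = y ^ n := by rw [← conj_pow, hfix]
      calc x ^ (n + 1) * c * (x ^ (n + 1))⁻¹ = x * (x ^ n * c * (x ^ n)⁻¹) * x⁻¹ := by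
            rw [pow_succ']; group
        _ = x * (y ^ n * c) * x⁻¹ := by rw [ih]
        _ = (x * y ^ n * x⁻¹) * (x * c * x⁻¹) := by group
        _ = _ := by rw [hyn, hc, pow_succ, mul_assoc]
  have h1 := h (orderOf x)
  rw [pow_orderOf_eq_one, one_mul, inv_one, mul_one] at h1
  have h2 : y ^ orderOf x = 1 := by
    have := h1.symm
    rwa [mul_eq_right] at this
  obtain ⟨k, hk⟩ := hy
  have h3 : y = 1 := by
    have := pow_gcd_eq_one.2 ⟨h2, hk⟩
    rwa [show Nat.gcd (orderOf x) (p ^ k) = 1 from Nat.Coprime.pow_right k hx, pow_one] at this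
  rw [hc, h3, one_mul]

/-- A subgroup without `p'`-elements is a `p`-group. -/
theorem isPGroup_of_coprime_trivial {H : Subgroup G}
    (h : ∀ x ∈ H, (orderOf x).Coprime p → x = 1) : IsPGroup p ↥H := by
  rintro ⟨g, hg⟩
  obtain ⟨k, m, hm, hgo⟩ := Nat.exists_eq_pow_mul_and_not_dvd (orderOf_pos g).ne' p hp.out.ne_one
  refine ⟨k, Subtype.ext ?_⟩
  rw [SubgroupClass.coe_pow]
  refine h (g ^ p ^ k) (H.pow_mem hg _) ?_
  refine Nat.Coprime.coprime_dvd_left ?_ ((Nat.Prime.coprime_iff_not_dvd hp.out).2 hm).symm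
  rw [orderOf_dvd_iff_pow_eq_one, ← pow_mul, ← hgo, pow_orderOf_eq_one]

theorem eq_one_of_coprime {P : Subgroup G} (hP : IsPGroup p ↥P) {x : G} (hx : x ∈ P)
    (hc : (orderOf x).Coprime p) : x = 1 := by
  obtain ⟨k, hk⟩ := hP ⟨x, hx⟩
  have := pow_gcd_eq_one.2 ⟨pow_orderOf_eq_one x, (congrArg Subtype.val hk : x ^ p ^ k = 1)⟩
  rwa [show Nat.gcd (orderOf x) (p ^ k) = 1 from Nat.Coprime.pow_right k hc, pow_one] at this

/-- What stability gives: a subgroup containing `g`, normalized by `N(P)`, whose `p'`-elements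
centralize `P`. -/
theorem exists_stable_subgroup (hst : Cfsg.IsNormalizerPStable p G) {P : Subgroup G}
    (hP : IsPGroup p ↥P) {g : G} (hg : g ∈ Subgroup.normalizer (P : Set G))
    (hq : ∀ x ∈ P, dlt g (dlt g x) = 1) :
    ∃ D : Subgroup G, g ∈ D ∧ Subgroup.normalizer (P : Set G) ≤ Subgroup.normalizer (D : Set G) ∧
      ∀ x ∈ D, (orderOf x).Coprime p → ∀ m ∈ P, x * m * x⁻¹ = m := by
  set N := Subgroup.normalizer (P : Set G) with hN
  set Cn := (Subgroup.centralizer (P : Set G)).subgroupOf N with hCn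
  haveI hCnn : Cn.Normal := by
    refine ⟨fun c hc n => ?_⟩
    show (n : G) * c * (n : G)⁻¹ ∈ Subgroup.centralizer (P : Set G)
    rw [Subgroup.mem_centralizer_iff]
    intro m hm
    have h1 : (n : G)⁻¹ * m * n ∈ P := (Subgroup.mem_normalizer_iff''.1 n.2 m).1 hm
    have h2 : ((n : G)⁻¹ * m * n) * (c : G) = (c : G) * ((n : G)⁻¹ * m * n) :=
      Subgroup.mem_centralizer_iff.1 (hc : (c : G) ∈ Subgroup.centralizer (P : Set G)) _ h1
    calc m * ((n : G) * c * (n : G)⁻¹) = (n : G) * (((n : G)⁻¹ * m * n) * c) * (n : G)⁻¹ := by group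
      _ = (n : G) * (c * ((n : G)⁻¹ * m * n)) * (n : G)⁻¹ := by rw [h2]
      _ = _ := by group
  have hmem := hst P hP g hg (quadratic_of_dlt hq)
  set D₀ := (Cfsg.pCore p (↥N ⧸ Cn)).comap (QuotientGroup.mk' Cn) with hD₀
  haveI : (Cfsg.pCore p (↥N ⧸ Cn)).Normal := CfsgLib.Core.normal_pCore p
  haveI hD₀n : D₀.Normal := by rw [hD₀]; infer_instance
  refine ⟨D₀.map N.subtype, ⟨⟨g, hg⟩, hmem, rfl⟩, ?_, ?_⟩
  · intro n hn
    refine CfsgLib.Stable.mem_normalizer_of_map_eq ?_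
    rintro _ ⟨d, hd, rfl⟩
    exact ⟨⟨n, hn⟩ * d * ⟨n, hn⟩⁻¹, hD₀n.conj_mem d hd _, rfl⟩
  · rintro _ ⟨x, hx, rfl⟩ hcop m hm
    rw [Subgroup.coe_subtype, Subgroup.orderOf_coe] at hcop
    have h1 : (QuotientGroup.mk' Cn x) = 1 :=
      eq_one_of_coprime (CfsgLib.Core.isPGroup_pCore p) hx
        (hcop.coprime_dvd_left (orderOf_map_dvd _ x))
    have h2 : (x : G) ∈ Subgroup.centralizer (P : Set G) := (QuotientGroup.eq_one_iff x).1 h1
    rw [Subgroup.coe_subtype, ← Subgroup.mem_centralizer_iff.1 h2 m hm, mul_inv_cancel_right]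

/-- The same in a quotient by `Z`, pulled back. -/
theorem exists_stable_subgroup_mod {Z : Subgroup G} [Z.Normal]
    (hst : Cfsg.IsNormalizerPStable p (G ⧸ Z)) {P : Subgroup G} (hZP : Z ≤ P)
    (hP : IsPGroup p ↥P) {g : G} (hg : g ∈ Subgroup.normalizer (P : Set G))
    (hq : ∀ x ∈ P, dlt g (dlt g x) ∈ Z) :
    ∃ D : Subgroup G, g ∈ D ∧ Subgroup.normalizer (P : Set G) ≤ Subgroup.normalizer (D : Set G) ∧
      ∀ x ∈ D, (orderOf x).Coprime p → ∀ m ∈ P, x * m * x⁻¹ * m⁻¹ ∈ Z := by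
  set f := QuotientGroup.mk' Z with hf
  obtain ⟨D, hgD, hND, hDc⟩ := exists_stable_subgroup hst (hP.map f)
    (g := f g) (Subgroup.le_normalizer_map f ⟨g, hg, rfl⟩) (by
      rintro _ ⟨x, hx, rfl⟩
      have h1 : f (dlt g (dlt g x)) = 1 := (QuotientGroup.eq_one_iff _).2 (hq x hx)
      simpa [dlt, map_mul, map_inv] using h1)
  refine ⟨D.comap f, hgD, fun n hn => ?_, fun x hx hcop m hm => ?_⟩
  · have h1 := hND (Subgroup.le_normalizer_map f ⟨n, hn, rfl⟩)
    refine CfsgLib.Stable.mem_normalizer_of_map_eq fun d hd => ?_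
    show f (n * d * n⁻¹) ∈ D
    rw [map_mul, map_mul, map_inv]
    exact (Subgroup.mem_normalizer_iff.1 h1 _).1 hd
  · have h1 := hDc (f x) hx (hcop.coprime_dvd_left (orderOf_map_dvd f x)) (f m) ⟨m, hm, rfl⟩
    refine (QuotientGroup.eq_one_iff _).1 ?_
    show f (x * m * x⁻¹ * m⁻¹) = 1
    rw [map_mul, map_mul, map_mul, map_inv, map_inv, h1, mul_inv_cancel]

/-- The stable subgroup, from the stability of the trivial quotient. -/
theorem exists_stable_subgroup'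
    (hstq : ∀ N : Subgroup G, [N.Normal] → Cfsg.IsNormalizerPStable p (G ⧸ N)) {P : Subgroup G}
    (hP : IsPGroup p ↥P) {g : G} (hg : g ∈ Subgroup.normalizer (P : Set G))
    (hq : ∀ x ∈ P, dlt g (dlt g x) = 1) :
    ∃ D : Subgroup G, g ∈ D ∧ Subgroup.normalizer (P : Set G) ≤ Subgroup.normalizer (D : Set G) ∧
      ∀ x ∈ D, (orderOf x).Coprime p → ∀ m ∈ P, x * m * x⁻¹ = m := by
  obtain ⟨D, h1, h2, h3⟩ := exists_stable_subgroup_mod (Z := (⊥ : Subgroup G)) (hstq ⊥) bot_le hP hg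
    fun x hx => Subgroup.mem_bot.2 (hq x hx)
  exact ⟨D, h1, h2, fun x hx hc m hm => mul_inv_eq_one.1 (Subgroup.mem_bot.1 (h3 x hx hc m hm))⟩

section Constrained

variable {T C : Subgroup G}

/-- The centralizer of a critical subgroup lies in `T`. -/
theorem centralizer_crit_le (hT : IsPGroup p ↥T) (hTn : T.Normal)
    (hmax : ∀ N : Subgroup G, N.Normal → IsPGroup p ↥N → N ≤ T)
    (hcons : Subgroup.centralizer (T : Set G) ≤ T) (hC : IsCrit T C) :
    ∀ x : G, (orderOf x).Coprime p → (∀ c ∈ C, x * c * x⁻¹ = c) → x = 1 := by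
  intro x hx hfix
  refine eq_one_of_coprime hT (hcons (Subgroup.mem_centralizer_iff.2 fun t ht => ?_)) hx
  suffices h : x * t * x⁻¹ = t from (mul_inv_eq_iff_eq_mul.1 h).symm
  set y := x * t * x⁻¹ * t⁻¹ with hy
  have hyT : y ∈ T := T.mul_mem (hTn.conj_mem t ht x) (T.inv_mem ht)
  have hyC : y ∈ Subgroup.centralizer (C : Set G) := Subgroup.mem_centralizer_iff.2 fun c hc => by
    have h1 : t⁻¹ * c * t ∈ C := by
      have := hC.normal.conj_mem c hc t⁻¹
      rwa [inv_inv] at this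
    have h2 := hfix _ h1
    have h3 := hfix c hc
    have e : y * c * y⁻¹ = c :=
      calc y * c * y⁻¹ = x * t * x⁻¹ * (t⁻¹ * c * t) * (x * t⁻¹ * x⁻¹) := by rw [hy]; group
        _ = x * t * x⁻¹ * (x * (t⁻¹ * c * t) * x⁻¹) * (x * t⁻¹ * x⁻¹) := by rw [h2]
        _ = x * c * x⁻¹ := by group
        _ = c := h3
    exact (mul_inv_eq_iff_eq_mul.1 e).symm
  refine fix_step hx (y := y) ?_ (hfix y (hC.cent ⟨hyT, hyC⟩)) (by rw [hy, inv_mul_cancel_right])
  obtain ⟨k, hk⟩ := hT ⟨y, hyT⟩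
  exact ⟨k, congrArg Subtype.val hk⟩

/-- Elements acting quadratically on `Z(C)` and on `C / Z(C)` lie in `T`. -/
theorem mem_of_quadratic (hT : IsPGroup p ↥T) (hTn : T.Normal)
    (hmax : ∀ N : Subgroup G, N.Normal → IsPGroup p ↥N → N ≤ T)
    (hcons : Subgroup.centralizer (T : Set G) ≤ T) (hC : IsCrit T C)
    (hstq : ∀ N : Subgroup G, [N.Normal] → Cfsg.IsNormalizerPStable p (G ⧸ N))
    {g : G} (hq : ∀ z ∈ C ⊓ Subgroup.centralizer (C : Set G), dlt g (dlt g z) = 1)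
    (hc : ∀ c ∈ C, dlt g (dlt g c) ∈ C ⊓ Subgroup.centralizer (C : Set G)) : g ∈ T := by
  haveI := hC.normal
  set Z := C ⊓ Subgroup.centralizer (C : Set G) with hZ
  haveI hZn : Z.Normal := by rw [hZ]; infer_instance
  have htop : ∀ P : Subgroup G, P.Normal → Subgroup.normalizer (P : Set G) = ⊤ := fun P hP => by
    exact Subgroup.normalizer_eq_top_iff.2 hP
  obtain ⟨D₁, hg₁, hn₁, hd₁⟩ := exists_stable_subgroup' hstq (P := Z) (hT.to_le (inf_le_left.trans hC.le))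
    (by rw [htop Z hZn]; trivial) hq
  obtain ⟨D₂, hg₂, hn₂, hd₂⟩ := exists_stable_subgroup_mod (hstq Z) (P := C) inf_le_left
    (hT.to_le hC.le) (by rw [htop C hC.normal]; trivial) hc
  rw [htop Z hZn] at hn₁
  rw [htop C hC.normal] at hn₂
  haveI : D₁.Normal := Subgroup.normalizer_eq_top_iff.1 (top_le_iff.1 hn₁)
  haveI : D₂.Normal := Subgroup.normalizer_eq_top_iff.1 (top_le_iff.1 hn₂)
  refine hmax (D₁ ⊓ D₂) inferInstance (isPGroup_of_coprime_trivial fun x hx hcop => ?_) ⟨hg₁, hg₂⟩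
  refine centralizer_crit_le hT hTn hmax hcons hC x hcop fun c hc' => ?_
  have hy := hd₂ x hx.2 hcop c hc'
  refine fix_step hcop ?_ (hd₁ x hx.1 hcop _ hy) (by rw [inv_mul_cancel_right])
  obtain ⟨k, hk⟩ := hT ⟨_, hC.le hy.1⟩
  exact ⟨k, congrArg Subtype.val hk⟩

set_option maxHeartbeats 1000000 in
/-- The members of the lower family lie in `T`. -/
theorem lower_le (hodd : p ≠ 2) (hT : IsPGroup p ↥T) (hTn : T.Normal)
    (hmax : ∀ N : Subgroup G, N.Normal → IsPGroup p ↥N → N ≤ T)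
    (hcons : Subgroup.centralizer (T : Set G) ≤ T) (hC : IsCrit T C)
    (hstq : ∀ N : Subgroup G, [N.Normal] → Cfsg.IsNormalizerPStable p (G ⧸ N))
    {S Q B : Subgroup G} (hS : IsPGroup p ↥S) (hCQ : C ≤ Q) (hB : B ∈ lowerIn S Q) : B ≤ T := by
  obtain ⟨hBS, hB2, hQB, hcond⟩ := hB
  haveI := hC.normal
  set Z := C ⊓ Subgroup.centralizer (C : Set G) with hZ
  haveI hZn : Z.Normal := by rw [hZ]; infer_instance
  set ZB := B ⊓ Subgroup.centralizer (B : Set G) with hZB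
  have hCB : C ≤ Subgroup.normalizer (B : Set G) := hCQ.trans hQB
  have hcomm : ∀ {X Y : Subgroup G} {x y : G}, x ∈ X → y ∈ Y → dlt y x ∈ ⁅X, Y⁆ :=
    fun hx hy => dlt_mem_commutator hx hy
  have hpow : ∀ {y : G}, y ∈ C → ∃ k, y ^ p ^ k = 1 := fun {y} hy => by
    obtain ⟨k, hk⟩ := hT ⟨y, hC.le hy⟩
    exact ⟨k, congrArg Subtype.val hk⟩
  -- `[B, Z] ≤ Z(B)`
  have hZ0 : ⁅Z, Z⁆ = ⊥ := Subgroup.commutator_eq_bot_iff_le_centralizer.2
    (inf_le_right.trans (Subgroup.centralizer_le inf_le_left))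
  have hBZ : ⁅B, Z⁆ ≤ ZB := hcond Z (by show ⁅Z, Z⁆ ≤ _; rw [hZ0]; exact bot_le)
    (inf_le_left.trans hCQ) (by rw [Subgroup.normalizer_eq_top]; exact le_top)
    (by rw [hZ0, Subgroup.commutator_bot_right]) (le_bot_iff.1 (by
      rw [← hZ0]; exact Subgroup.commutator_mono (Subgroup.commutator_le_right _ _) le_rfl))
  have hdZ : ∀ b ∈ B, ∀ z ∈ Z, dlt b z ∈ ZB := fun b hb z hz =>
    hBZ (Subgroup.commutator_comm Z B ▸ hcomm hz hb)
  have hfixB : ∀ {b u : G}, b ∈ B → u ∈ Subgroup.centralizer (B : Set G) → dlt b u = 1 := by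
    intro b u hb hu
    show b * u * b⁻¹ * u⁻¹ = 1
    rw [Subgroup.mem_centralizer_iff.1 hu b hb, mul_inv_cancel_right, mul_inv_cancel]
  -- conjugates of central elements of `B` by `C`
  have hZBC : ∀ c ∈ C, ∀ u ∈ ZB, c * u * c⁻¹ ∈ ZB := by
    intro c hc u hu
    refine ⟨(Subgroup.mem_normalizer_iff.1 (hCB hc) u).1 hu.1, Subgroup.mem_centralizer_iff.2 ?_⟩
    intro v hv
    have h1 : c⁻¹ * v * c ∈ B := (Subgroup.mem_normalizer_iff''.1 (hCB hc) v).1 hv
    have h2 := Subgroup.mem_centralizer_iff.1 hu.2 _ h1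
    calc v * (c * u * c⁻¹) = c * ((c⁻¹ * v * c) * u) * c⁻¹ := by group
      _ = c * (u * (c⁻¹ * v * c)) * c⁻¹ := by rw [h2]
      _ = _ := by group
  have hdC : ∀ b ∈ B, ∀ c ∈ C, dlt b c ∈ B := fun b hb c hc => by
    rw [show dlt b c = b * (c * b⁻¹ * c⁻¹) by unfold dlt; group]
    exact B.mul_mem hb ((Subgroup.mem_normalizer_iff.1 (hCB hc) _).1 (B.inv_mem hb))
  -- `Z(B) ≤ T`
  have hZBT : ZB ≤ T := fun u hu => mem_of_quadratic hT hTn hmax hcons hC hstq
    (fun z hz => hfixB hu.1 (hdZ u hu.1 z hz).2) fun c hc => by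
      have h1 : dlt u c ∈ ZB := by
        rw [show dlt u c = u * (c * u⁻¹ * c⁻¹) by unfold dlt; group]
        exact ZB.mul_mem hu (hZBC c hc _ (ZB.inv_mem hu))
      rw [hfixB hu.1 h1.2]; exact Z.one_mem
  intro b hb
  -- values
  have hω : ∀ {c c' : G}, c ∈ C → c' ∈ C → cm c c' ∈ Z := by
    intro c c' hc hc'
    have := hC.comm (Subgroup.commutator_mem_commutator hc (hC.le hc'))
    rwa [commutatorElement_def] at this
  have hZc : ∀ {z c : G}, z ∈ Z → c ∈ C → c * z = z * c := fun hz hc =>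
    Subgroup.mem_centralizer_iff.1 hz.2 _ hc
  have hωl : ∀ {a a' c : G}, a ∈ C → a' ∈ C → c ∈ C → cm (a * a') c = cm a c * cm a' c := by
    intro a a' c ha ha' hc
    have h1 : cm (a * a') c = a * cm a' c * a⁻¹ * cm a c := by unfold cm; group
    rw [h1, hZc (hω ha' hc) ha, mul_inv_cancel_right, hZc (hω ha hc) (hω ha' hc).1]
  have hωi : ∀ {a c : G}, a ∈ C → c ∈ C → cm a⁻¹ c = (cm a c)⁻¹ := by
    intro a c ha hc
    refine eq_inv_of_mul_eq_one_left ?_
    rw [← hωl (C.inv_mem ha) ha hc, inv_mul_cancel]; unfold cm; group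
  have hωr : ∀ {a c c' : G}, a ∈ C → c ∈ C → c' ∈ C → cm a (c * c') = cm a c * cm a c' := by
    intro a c c' ha hc hc'
    have h1 : cm a (c * c') = cm a c * (c * cm a c' * c⁻¹) := by unfold cm; group
    rw [h1, hZc (hω ha hc') hc, mul_inv_cancel_right]
  have hωri : ∀ {a c : G}, a ∈ C → c ∈ C → cm a c⁻¹ = (cm a c)⁻¹ := by
    intro a c ha hc
    refine eq_inv_of_mul_eq_one_left ?_
    rw [← hωr ha (C.inv_mem hc) hc, inv_mul_cancel]; unfold cm; group
  set K := Subgroup.centralizer (Z : Set G) with hK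
  haveI hKn : K.Normal := by rw [hK]; infer_instance
  have hKfix : ∀ {g z : G}, g ∈ K → z ∈ Z → g * z * g⁻¹ = z := fun {g z} hg hz => by
    rw [← Subgroup.mem_centralizer_iff.1 hg z hz, mul_inv_cancel_right]
  have hTC : ∀ {t c : G}, t ∈ T → c ∈ C → c * t * c⁻¹ * t⁻¹ ∈ Z := by
    intro t c ht hc
    have := hC.comm (Subgroup.commutator_mem_commutator hc ht)
    rwa [commutatorElement_def] at this
  -- the subgroup `P₁`
  set F := Z ⊓ Subgroup.centralizer (B : Set G) with hF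
  let P₁ : Subgroup G :=
    { carrier := {c | c ∈ C ∧ ∀ c' ∈ C, cm c c' ∈ F}
      mul_mem' := fun {a a'} ha ha' => ⟨C.mul_mem ha.1 ha'.1, fun c hc => by
        rw [hωl ha.1 ha'.1 hc]; exact F.mul_mem (ha.2 c hc) (ha'.2 c hc)⟩
      one_mem' := ⟨C.one_mem, fun c _ => by rw [show cm 1 c = 1 by unfold cm; group]; exact F.one_mem⟩
      inv_mem' := fun {a} ha => ⟨C.inv_mem ha.1, fun c hc => by
        rw [hωi ha.1 hc]; exact F.inv_mem (ha.2 c hc)⟩ }
  have hP₁C : P₁ ≤ C := fun c hc => hc.1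
  have hP₁norm : ∀ {g : G}, (∀ u ∈ F, g * u * g⁻¹ = u) → g ∈ Subgroup.normalizer (P₁ : Set G) := by
    intro g hg
    refine CfsgLib.Stable.mem_normalizer_of_map_eq fun c hc =>
      ⟨hC.normal.conj_mem c hc.1 g, fun c' hc' => ?_⟩
    have hc'' : g⁻¹ * c' * g ∈ C := by
      have := hC.normal.conj_mem c' hc' g⁻¹
      rwa [inv_inv] at this
    have h2 := hg _ (hc.2 _ hc'')
    have h1 := conj_cm g c (g⁻¹ * c' * g)
    rw [h2, show g * (g⁻¹ * c' * g) * g⁻¹ = c' by group] at h1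
    rw [← h1]; exact hc.2 _ hc''
  have hBfix : ∀ {v u : G}, v ∈ B → u ∈ Subgroup.centralizer (B : Set G) → v * u * v⁻¹ = u :=
    fun {v u} hv hu => by rw [Subgroup.mem_centralizer_iff.1 hu v hv, mul_inv_cancel_right]
  have hP₁1 : ⁅P₁, P₁⁆ ≤ F := by
    rw [Subgroup.commutator_le]
    exact fun a ha a' ha' => by rw [commutatorElement_def]; exact ha.2 a' ha'.1
  have hBP : ⁅B, P₁⁆ ≤ ZB := by
    refine hcond P₁ (hP₁1.trans (inf_le_left.trans (inf_le_right.trans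
      (Subgroup.centralizer_le hP₁C)))) (hP₁C.trans hCQ)
      (fun v hv => hP₁norm fun u hu => hBfix hv hu.2) ?_ ?_
    · rw [Subgroup.commutator_comm]
      exact Subgroup.commutator_eq_bot_iff_le_centralizer.2 (hP₁1.trans inf_le_right)
    · refine le_bot_iff.1 ?_
      have h1 : ⁅ZB, P₁⁆ ≤ Z := by
        rw [Subgroup.commutator_le]
        intro t ht c hc
        rw [← inv_mem_iff, commutatorElement_inv, commutatorElement_def]
        exact hTC (hZBT ht) (hP₁C hc)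
      refine (Subgroup.commutator_mono h1 hP₁C).trans (le_of_eq ?_)
      exact Subgroup.commutator_eq_bot_iff_le_centralizer.2 inf_le_right
  have hqP₁ : ∀ m ∈ P₁, dlt b (dlt b m) = 1 := fun m hm =>
    hfixB hb (hBP (Subgroup.commutator_comm P₁ B ▸ hcomm hm hb)).2
  have hdd : ∀ c ∈ C, ∀ v ∈ B, dlt v c ∈ C := fun c hc v _ =>
    C.mul_mem (hC.normal.conj_mem c hc v) (C.inv_mem hc)
  have hddP₁ : ∀ v ∈ B, ∀ c ∈ C, dlt v (dlt v c) ∈ P₁ := by
    intro v hv c hc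
    have hu1 : dlt v (dlt v c) ∈ ⁅B, B⁆ := hcomm (hdC v hv c hc) hv
    have hu : dlt v (dlt v c) ∈ ZB := ⟨Subgroup.commutator_le_self B hu1, hB2 hu1⟩
    refine ⟨hdd _ (hdd c hc v hv) v hv, fun c' hc' => ⟨hω (hdd _ (hdd c hc v hv) v hv) hc', ?_⟩⟩
    rw [show cm (dlt v (dlt v c)) c' = dlt v (dlt v c) * (c' * (dlt v (dlt v c))⁻¹ * c'⁻¹) by
      unfold cm; group]
    exact (ZB.mul_mem hu (hZBC c' hc' _ (ZB.inv_mem hu))).2
  -- `V₀`, `P₂` and `Y`
  set V₀ := C ⊓ Subgroup.centralizer (P₁ : Set G) with hV₀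
  have hV₀1 : ∀ {v m : G}, v ∈ V₀ → m ∈ P₁ → cm v m = 1 := fun {v m} hv hm => by
    unfold cm
    rw [← Subgroup.mem_centralizer_iff.1 hv.2 m hm, mul_inv_cancel_right, mul_inv_cancel]
  have hV₀norm : ∀ {g : G}, g ∈ Subgroup.normalizer (P₁ : Set G) →
      g ∈ Subgroup.normalizer (V₀ : Set G) := by
    intro g hg
    refine CfsgLib.Stable.mem_normalizer_of_map_eq fun v hv =>
      ⟨hC.normal.conj_mem v hv.1 g, Subgroup.mem_centralizer_iff.2 fun m hm => ?_⟩
    have h1 : g⁻¹ * m * g ∈ P₁ := (Subgroup.mem_normalizer_iff''.1 hg m).1 hm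
    have h2 := Subgroup.mem_centralizer_iff.1 hv.2 _ h1
    calc m * (g * v * g⁻¹) = g * ((g⁻¹ * m * g) * v) * g⁻¹ := by group
      _ = g * (v * (g⁻¹ * m * g)) * g⁻¹ := by rw [h2]
      _ = _ := by group
  have hdl : ∀ {z z' : G}, z ∈ Z → z' ∈ Z → dlt b (z * z') = dlt b z * dlt b z' := by
    intro z z' hz hz'
    have h1 : b * z * b⁻¹ ∈ Z := hZn.conj_mem z hz b
    have h2 : dlt b z' ∈ Z := Z.mul_mem (hZn.conj_mem z' hz' b) (Z.inv_mem hz')
    rw [dlt_mul, hZc h2 h1.1, mul_inv_cancel_right]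
    exact (hZc h2 (C.mul_mem h1.1 (C.inv_mem hz.1))).symm
  have hdli : ∀ {z : G}, z ∈ Z → dlt b z⁻¹ = (dlt b z)⁻¹ := fun {z} hz => by
    refine eq_inv_of_mul_eq_one_left ?_
    rw [← hdl (Z.inv_mem hz) hz, inv_mul_cancel, dlt_one]
  let P₂ : Subgroup G :=
    { carrier := {v | v ∈ V₀ ∧ ∀ w ∈ C, dlt b (cm v w) = 1}
      mul_mem' := fun {a a'} ha ha' => ⟨V₀.mul_mem ha.1 ha'.1, fun w hw => by
        rw [hωl ha.1.1 ha'.1.1 hw, hdl (hω ha.1.1 hw) (hω ha'.1.1 hw), ha.2 w hw, ha'.2 w hw, one_mul]⟩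
      one_mem' := ⟨V₀.one_mem, fun w _ => by
        rw [show cm 1 w = 1 by unfold cm; group, dlt_one]⟩
      inv_mem' := fun {a} ha => ⟨V₀.inv_mem ha.1, fun w hw => by
        rw [hωi ha.1.1 hw, hdli (hω ha.1.1 hw), ha.2 w hw, inv_one]⟩ }
  have hcbar : ∀ {g c : G}, c ∈ C → g⁻¹ * c * g ∈ C := fun {g c} hc => by
    have := hC.normal.conj_mem c hc g⁻¹
    rwa [inv_inv] at this
  have hconjω : ∀ (g v w : G), cm (g * v * g⁻¹) w = g * cm v (g⁻¹ * w * g) * g⁻¹ := fun g v w => by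
    rw [conj_cm]; congr 1; group
  have hωK : ∀ {g v w : G}, g ∈ K → v ∈ C → w ∈ C → cm (g * v * g⁻¹) w = cm v (g⁻¹ * w * g) :=
    fun {g v w} hg hv hw => by rw [hconjω, hKfix hg (hω hv (hcbar hw))]
  have hKP₁ : ∀ {g : G}, g ∈ K → g ∈ Subgroup.normalizer (P₁ : Set G) := fun hg =>
    hP₁norm fun u hu => hKfix hg hu.1
  have hbP₁ : b ∈ Subgroup.normalizer (P₁ : Set G) := hP₁norm fun u hu => hBfix hb hu.2
  have hKP₂ : ∀ {g : G}, g ∈ K → g ∈ Subgroup.normalizer (P₂ : Set G) := by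
    intro g hg
    refine CfsgLib.Stable.mem_normalizer_of_map_eq fun v hv =>
      ⟨(Subgroup.mem_normalizer_iff.1 (hV₀norm (hKP₁ hg)) v).1 hv.1, fun w hw => ?_⟩
    rw [hωK hg hv.1.1 hw]
    exact hv.2 _ (hcbar hw)
  have hbP₂ : b ∈ Subgroup.normalizer (P₂ : Set G) := by
    refine CfsgLib.Stable.mem_normalizer_of_map_eq fun v hv =>
      ⟨(Subgroup.mem_normalizer_iff.1 (hV₀norm hbP₁) v).1 hv.1, fun w hw => ?_⟩
    rw [hconjω, ← conj_dlt, hv.2 _ (hcbar hw), mul_one, mul_inv_cancel]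
  -- the basic identity
  set δ : G → G → G := fun v w => dlt b (cm v w) with hδ
  have hδF : ∀ {v w : G}, v ∈ C → w ∈ C → δ v w ∈ ZB ∧ δ v w ∈ Z := fun {v w} hv hw =>
    ⟨hdZ b hb _ (hω hv hw), Z.mul_mem (hZn.conj_mem _ (hω hv hw) b) (Z.inv_mem (hω hv hw))⟩
  have hshift : ∀ {v w : G}, v ∈ C → w ∈ C →
      cm (b * v * b⁻¹) w = δ v (b⁻¹ * w * b) * cm v (b⁻¹ * w * b) := fun {v w} hv hw => by
    rw [hconjω, hδ]
    show _ = b * cm v (b⁻¹ * w * b) * b⁻¹ * (cm v (b⁻¹ * w * b))⁻¹ * cm v (b⁻¹ * w * b)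
    rw [inv_mul_cancel_right]
  have hδd : ∀ {v w : G}, v ∈ C → w ∈ C →
      δ (dlt b v) w = δ v (b⁻¹ * w * b * w⁻¹) := by
    intro v w hv hw
    have hbv : b * v * b⁻¹ ∈ C := hC.normal.conj_mem v hv b
    have hw' : b⁻¹ * w * b ∈ C := hcbar hw
    show dlt b (cm (b * v * b⁻¹ * v⁻¹) w) = dlt b (cm v (b⁻¹ * w * b * w⁻¹))
    rw [hωl hbv (C.inv_mem hv) hw, hωi hv hw, hωr hv hw' (C.inv_mem hw), hωri hv hw,
      hdl (hω hbv hw) (Z.inv_mem (hω hv hw)), hdl (hω hv hw') (Z.inv_mem (hω hv hw)),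
      hshift hv hw, hdl (hδF hv hw').2 (hω hv hw'), hfixB hb (hδF hv hw').1.2, one_mul]
  have hmain : ∀ v ∈ V₀, ∀ w ∈ C,
      cm (dlt b (dlt b v)) w = δ (dlt b v) (b⁻¹ * w * b) * δ (dlt b v) (b⁻¹ * w * b) := by
    intro v hv w hw
    have hvC : v ∈ C := hv.1
    set u := dlt b v with hu
    have huC : u ∈ C := hdd v hvC b hb
    set w' := b⁻¹ * w * b with hw'
    have hw'C : w' ∈ C := hcbar hw
    set y := w' * w⁻¹ with hy
    have hyC : y ∈ C := C.mul_mem hw'C (C.inv_mem hw)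
    set y' := b⁻¹ * y * b with hy'
    have hy'C : y' ∈ C := hcbar hyC
    have hP : y' * y⁻¹ ∈ P₁ := by
      have := hddP₁ b⁻¹ (B.inv_mem hb) w hw
      rw [show dlt b⁻¹ (dlt b⁻¹ w) = y' * y⁻¹ by rw [hy', hy, hw']; unfold dlt; group] at this
      exact this
    have h1 : cm (dlt b u) w = δ u w' * cm u y := by
      show cm (b * u * b⁻¹ * u⁻¹) w = _
      rw [hωl (hC.normal.conj_mem u huC b) (C.inv_mem huC) hw, hωi huC hw, hshift huC hw, hy,
        hωr huC hw'C (C.inv_mem hw), hωri huC hw, ← hw', mul_assoc]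
    have h2 : cm u y = δ v y' := by
      show cm (b * v * b⁻¹ * v⁻¹) y = _
      rw [hωl (hC.normal.conj_mem v hvC b) (C.inv_mem hvC) hyC, hωi hvC hyC, hshift hvC hyC, ← hy',
        mul_assoc, ← hωri hvC hyC, ← hωr hvC hy'C (C.inv_mem hyC), hV₀1 hv hP, mul_one]
    have h3 : δ v y' = δ u w' := by
      rw [hu, hδd hvC hw'C]
      congr 1
      rw [hy', hy, hw']; group
    rw [h1, h2, h3]
  -- `b` is quadratic on `P₂` modulo `Z`
  have hZP₂ : Z ≤ P₂ := fun z hz => by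
    refine ⟨⟨hz.1, Subgroup.mem_centralizer_iff.2 fun m hm => hZc hz (hP₁C hm)⟩, fun w hw => ?_⟩
    rw [show cm z w = 1 by unfold cm; rw [← hZc hz hw]; group, dlt_one]
  have hqP₂ : ∀ v ∈ P₂, dlt b (dlt b v) ∈ Z := by
    intro v hv
    have hvC : v ∈ C := hv.1.1
    refine ⟨hdd _ (hdd v hvC b hb) b hb, Subgroup.mem_centralizer_iff.2 fun w hw => ?_⟩
    have h := hmain v hv.1 w hw
    rw [hδd hvC (hcbar hw),
      show δ v (b⁻¹ * (b⁻¹ * w * b) * b * (b⁻¹ * w * b)⁻¹) = 1 from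
        hv.2 _ (C.mul_mem (hcbar (hcbar hw)) (C.inv_mem (hcbar hw))), one_mul] at h
    exact (mul_inv_eq_iff_eq_mul.1 (mul_inv_eq_one.1 h)).symm
  -- `Y`
  set K₁ := K ⊓ Subgroup.centralizer (P₁ : Set G) with hK₁
  have hCP₂ : ∀ a ∈ C, ∀ q ∈ P₂, a * q * a⁻¹ ∈ P₂ := fun a ha q hq => by
    have h1 : cm a q ∈ P₂ := hZP₂ (hω ha hq.1.1)
    have := P₂.mul_mem h1 hq
    rwa [show cm a q * q = a * q * a⁻¹ by unfold cm; group] at this
  let Y : Subgroup G :=
    { carrier := {v | v ∈ V₀ ∧ ∀ x ∈ K₁, cm x v ∈ P₂}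
      mul_mem' := fun {a a'} ha ha' => ⟨V₀.mul_mem ha.1 ha'.1, fun x hx => by
        rw [show cm x (a * a') = cm x a * (a * cm x a' * a⁻¹) by unfold cm; group]
        exact P₂.mul_mem (ha.2 x hx) (hCP₂ a ha.1.1 _ (ha'.2 x hx))⟩
      one_mem' := ⟨V₀.one_mem, fun x _ => by
        rw [show cm x 1 = 1 by unfold cm; group]; exact P₂.one_mem⟩
      inv_mem' := fun {a} ha => ⟨V₀.inv_mem ha.1, fun x hx => by
        rw [show cm x a⁻¹ = a⁻¹ * (cm x a)⁻¹ * a⁻¹⁻¹ by unfold cm; group]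
        exact hCP₂ _ (C.inv_mem ha.1.1) _ (P₂.inv_mem (ha.2 x hx))⟩ }
  have hK₁norm : ∀ {g : G}, g ∈ Subgroup.normalizer (P₁ : Set G) → ∀ x ∈ K₁, g⁻¹ * x * g ∈ K₁ := by
    intro g hg x hx
    refine ⟨?_, Subgroup.mem_centralizer_iff.2 fun m hm => ?_⟩
    · have := hKn.conj_mem x hx.1 g⁻¹
      rwa [inv_inv] at this
    · have h1 : g * m * g⁻¹ ∈ P₁ := (Subgroup.mem_normalizer_iff.1 hg m).1 hm
      have h2 := Subgroup.mem_centralizer_iff.1 hx.2 _ h1
      calc m * (g⁻¹ * x * g) = g⁻¹ * ((g * m * g⁻¹) * x) * g := by group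
        _ = g⁻¹ * (x * (g * m * g⁻¹)) * g := by rw [h2]
        _ = _ := by group
  have hYnorm : ∀ {g : G}, g ∈ Subgroup.normalizer (P₁ : Set G) →
      g ∈ Subgroup.normalizer (P₂ : Set G) → g ∈ Subgroup.normalizer (Y : Set G) := by
    intro g hg hg'
    refine CfsgLib.Stable.mem_normalizer_of_map_eq fun v hv =>
      ⟨(Subgroup.mem_normalizer_iff.1 (hV₀norm hg) v).1 hv.1, fun x hx => ?_⟩
    rw [show cm x (g * v * g⁻¹) = g * cm (g⁻¹ * x * g) v * g⁻¹ by unfold cm; group]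
    exact (Subgroup.mem_normalizer_iff.1 hg' _).1 (hv.2 _ (hK₁norm hg x hx))
  have hdY : ∀ v ∈ V₀, dlt b v ∈ Y := by
    intro v hv
    set u := dlt b v with hu
    have huV : u ∈ V₀ :=
      V₀.mul_mem ((Subgroup.mem_normalizer_iff.1 (hV₀norm hbP₁) v).1 hv) (V₀.inv_mem hv)
    refine ⟨huV, fun x hx => ⟨V₀.mul_mem ((Subgroup.mem_normalizer_iff.1 (hV₀norm (hKP₁ hx.1)) u).1 huV)
      (V₀.inv_mem huV), fun w hw => ?_⟩⟩
    -- `δ u` is invariant under `x`
    have hinv : ∀ x ∈ K₁, ∀ y ∈ C, δ u (x * y * x⁻¹) = δ u y := by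
      intro x hx y hy
      have hx' : b * x * b⁻¹ ∈ K₁ := by
        have := hK₁norm (inv_mem hbP₁) x hx
        rwa [inv_inv] at this
      set x' := b * x * b⁻¹ with hx'e
      set w₀ := b * y * b⁻¹ with hw₀
      have hw₀C : w₀ ∈ C := hC.normal.conj_mem y hy b
      have hP := hddP₁ b hb v hv.1
      have e1 : cm (dlt b u) (x' * w₀ * x'⁻¹) = cm (dlt b u) w₀ := by
        have h := conj_cm x' (dlt b u) w₀
        rw [hKfix hx'.1 (hω hP.1 hw₀C),
          show x' * dlt b u * x'⁻¹ = dlt b u by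
            rw [← Subgroup.mem_centralizer_iff.1 hx'.2 _ hP, mul_inv_cancel_right]] at h
        exact h.symm
      rw [hmain v hv w₀ hw₀C, hmain v hv _ (hC.normal.conj_mem _ hw₀C x'), ← hu,
        show b⁻¹ * (x' * w₀ * x'⁻¹) * b = x * y * x⁻¹ by rw [hx'e, hw₀]; group,
        show b⁻¹ * w₀ * b = y by rw [hw₀]; group] at e1
      -- cancel the square
      set a₁ := δ u (x * y * x⁻¹) with ha₁
      set a₂ := δ u y with ha₂
      have huC : u ∈ C := huV.1
      have hm1 : a₁ ∈ Z := (hδF huC (hC.normal.conj_mem y hy x)).2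
      have hm2 : a₂ ∈ Z := (hδF huC hy).2
      set q := a₁ * a₂⁻¹ with hq
      have hq2 : q ^ 2 = 1 := by
        rw [hq, pow_two,
          show a₁ * a₂⁻¹ * (a₁ * a₂⁻¹) = a₁ * (a₂⁻¹ * a₁) * a₂⁻¹ by group,
          show a₂⁻¹ * a₁ = a₁ * a₂⁻¹ from hZc hm1 (C.inv_mem hm2.1),
          show a₁ * (a₁ * a₂⁻¹) * a₂⁻¹ = a₁ * a₁ * (a₂ * a₂)⁻¹ by group, e1, mul_inv_cancel]
      obtain ⟨k, hk⟩ := hpow (Z.mul_mem hm1 (Z.inv_mem hm2)).1
      have : q = 1 := by
        have h := pow_gcd_eq_one.2 ⟨hq2, hk⟩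
        rwa [show Nat.gcd 2 (p ^ k) = 1 from Nat.Coprime.pow_right k
          ((Nat.coprime_primes Nat.prime_two hp.out).2 hodd.symm), pow_one] at h
      exact mul_inv_eq_one.1 this
    have huC : u ∈ C := huV.1
    have hxu : x * u * x⁻¹ ∈ C := hC.normal.conj_mem u huC x
    show dlt b (cm (x * u * x⁻¹ * u⁻¹) w) = 1
    rw [hωl hxu (C.inv_mem huC) hw, hωi huC hw, hdl (hω hxu hw) (Z.inv_mem (hω huC hw)),
      hdli (hω huC hw), hωK hx.1 huC hw]
    have h := hinv x⁻¹ (K₁.inv_mem hx) w hw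
    rw [inv_inv] at h
    show δ u (x⁻¹ * w * x) * (δ u w)⁻¹ = 1
    rw [h, mul_inv_cancel]
  -- the group `H` and its normal subgroup `D`
  set H := K ⊔ Subgroup.zpowers b with hH
  have hbH : b ∈ H := Subgroup.mem_sup_right (Subgroup.mem_zpowers b)
  have hHP₁ : H ≤ Subgroup.normalizer (P₁ : Set G) :=
    sup_le (fun g hg => hKP₁ hg) (Subgroup.zpowers_le.2 hbP₁)
  have hHP₂ : H ≤ Subgroup.normalizer (P₂ : Set G) :=
    sup_le (fun g hg => hKP₂ hg) (Subgroup.zpowers_le.2 hbP₂)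
  have hHY : H ≤ Subgroup.normalizer (Y : Set G) := fun g hg => hYnorm (hHP₁ hg) (hHP₂ hg)
  have hV₀H : ∀ {g v : G}, g ∈ H → v ∈ V₀ → g * v * g⁻¹ ∈ V₀ := fun {g v} hg hv =>
    (Subgroup.mem_normalizer_iff.1 (hV₀norm (hHP₁ hg)) v).1 hv
  let N₀ : Subgroup G :=
    { carrier := {g | g ∈ H ∧ ∀ v ∈ V₀, cm g v ∈ Y}
      mul_mem' := fun {a a'} ha ha' => ⟨H.mul_mem ha.1 ha'.1, fun v hv => by
        rw [show cm (a * a') v = a * cm a' v * a⁻¹ * cm a v by unfold cm; group]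
        exact Y.mul_mem ((Subgroup.mem_normalizer_iff.1 (hHY ha.1) _).1 (ha'.2 v hv)) (ha.2 v hv)⟩
      one_mem' := ⟨H.one_mem, fun v _ => by rw [show cm 1 v = 1 by unfold cm; group]; exact Y.one_mem⟩
      inv_mem' := fun {a} ha => ⟨H.inv_mem ha.1, fun v hv => by
        rw [show cm a⁻¹ v = a⁻¹ * (cm a v)⁻¹ * a⁻¹⁻¹ by unfold cm; group]
        exact (Subgroup.mem_normalizer_iff.1 (hHY (H.inv_mem ha.1)) _).1 (Y.inv_mem (ha.2 v hv))⟩ }
  have hN₀norm : H ≤ Subgroup.normalizer (N₀ : Set G) := fun g hg => by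
    refine CfsgLib.Stable.mem_normalizer_of_map_eq fun a ha =>
      ⟨H.mul_mem (H.mul_mem hg ha.1) (H.inv_mem hg), fun v hv => ?_⟩
    have hv' : g⁻¹ * v * g ∈ V₀ := by
      have := hV₀H (H.inv_mem hg) hv
      rwa [inv_inv] at this
    rw [show cm (g * a * g⁻¹) v = g * cm a (g⁻¹ * v * g) * g⁻¹ by unfold cm; group]
    exact (Subgroup.mem_normalizer_iff.1 (hHY hg) _).1 (ha.2 _ hv')
  obtain ⟨D₁, hbD₁, hnD₁, hd₁⟩ := exists_stable_subgroup' hstq (hT.to_le (hP₁C.trans hC.le)) hbP₁ hqP₁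
  obtain ⟨D₂, hbD₂, hnD₂, hd₂⟩ := exists_stable_subgroup_mod (hstq Z) hZP₂
    (hT.to_le ((show P₂ ≤ C from fun v hv => hv.1.1).trans hC.le)) hbP₂ hqP₂
  set D := N₀ ⊓ D₁ ⊓ D₂ with hD
  have hbD : b ∈ D := ⟨⟨⟨hbH, hdY⟩, hbD₁⟩, hbD₂⟩
  have hDnorm : ∀ {g a : G}, g ∈ H → a ∈ D → g * a * g⁻¹ ∈ D := fun {g a} hg ha =>
    ⟨⟨(Subgroup.mem_normalizer_iff.1 (hN₀norm hg) a).1 ha.1.1,
      (Subgroup.mem_normalizer_iff.1 (hnD₁ (hHP₁ hg)) a).1 ha.1.2⟩,
      (Subgroup.mem_normalizer_iff.1 (hnD₂ (hHP₂ hg)) a).1 ha.2⟩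
  have hbo : ∀ x ∈ H, (orderOf x).Coprime p → x ∈ K := by
    intro x hx hcop
    refine (QuotientGroup.eq_one_iff x).1 ?_
    have h1 : QuotientGroup.mk' K x ∈ (Subgroup.zpowers b).map (QuotientGroup.mk' K) := by
      have h2 : QuotientGroup.mk' K x ∈ H.map (QuotientGroup.mk' K) := ⟨x, hx, rfl⟩
      rwa [hH, Subgroup.map_sup, (Subgroup.map_eq_bot_iff K).2 (QuotientGroup.ker_mk' K).ge,
        bot_sup_eq] at h2
    exact eq_one_of_coprime ((hS.to_le (Subgroup.zpowers_le.2 (hBS hb))).map _) h1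
      (hcop.coprime_dvd_left (orderOf_map_dvd (QuotientGroup.mk' K) x))
  have hDp : IsPGroup p ↥D := by
    refine isPGroup_of_coprime_trivial fun x hx hcop => ?_
    have hxK : x ∈ K := hbo x hx.1.1.1 hcop
    have hfix₁ : ∀ m ∈ P₁, x * m * x⁻¹ = m := hd₁ x hx.1.2 hcop
    have hfix₂ : ∀ v ∈ P₂, x * v * x⁻¹ = v := fun v hv => by
      have hy := hd₂ x hx.2 hcop v hv
      exact fix_step hcop (hpow hy.1) (hKfix hxK hy) (by rw [inv_mul_cancel_right])
    have hxK₁ : x ∈ K₁ := ⟨hxK, Subgroup.mem_centralizer_iff.2 fun m hm =>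
      (mul_inv_eq_iff_eq_mul.1 (hfix₁ m hm)).symm⟩
    have hfixY : ∀ v ∈ Y, x * v * x⁻¹ = v := fun v hv =>
      fix_step hcop (hpow (hv.2 x hxK₁).1.1) (hfix₂ _ (hv.2 x hxK₁))
        (show x * v * x⁻¹ = cm x v * v by unfold cm; group)
    have hfixV : ∀ v ∈ V₀, x * v * x⁻¹ = v := fun v hv =>
      fix_step hcop (hpow (hx.1.1.2 v hv).1.1) (hfixY _ (hx.1.1.2 v hv))
        (show x * v * x⁻¹ = cm x v * v by unfold cm; group)
    refine centralizer_crit_le hT hTn hmax hcons hC x hcop fun c hc => ?_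
    have hy : cm x c ∈ C := C.mul_mem (hC.normal.conj_mem c hc x) (C.inv_mem hc)
    have hyV : cm x c ∈ V₀ := by
      refine ⟨hy, Subgroup.mem_centralizer_iff.2 fun m hm => ?_⟩
      have hm' := hP₁C hm
      have hxc : x * c * x⁻¹ ∈ C := hC.normal.conj_mem c hc x
      have e : cm (cm x c) m = 1 := by
        show cm (x * c * x⁻¹ * c⁻¹) m = 1
        have h := conj_cm x c m
        rw [hKfix hxK (hω hc hm'), hfix₁ m hm] at h
        rw [hωl hxc (C.inv_mem hc) hm', ← h, hωi hc hm', mul_inv_cancel]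
      exact (mul_inv_eq_iff_eq_mul.1 (mul_inv_eq_one.1 e)).symm
    exact fix_step hcop (hpow hy) (hfixV _ hyV) (show x * c * x⁻¹ = cm x c * c by unfold cm; group)
  -- `[b, K] ≤ T`
  have hbK : ∀ k ∈ K, cm b k ∈ T := by
    intro k hk
    have hRn : ((D ⊓ K).subgroupOf K).Normal :=
      ⟨fun a ha g => ⟨hDnorm (Subgroup.mem_sup_left g.2) ha.1, K.mul_mem (K.mul_mem g.2 a.2) (K.inv_mem g.2)⟩⟩
    have hRp : IsPGroup p ↥((D ⊓ K).subgroupOf K) := (hDp.to_le inf_le_left).comap_subtype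
    have hmem : cm b k ∈ D ⊓ K := by
      refine ⟨?_, K.mul_mem (hKn.conj_mem k hk b) (K.inv_mem hk)⟩
      rw [show cm b k = b * (k * b⁻¹ * k⁻¹) by unfold cm; group]
      exact D.mul_mem hbD (hDnorm (Subgroup.mem_sup_left hk) (D.inv_mem hbD))
    refine hmax _ (CfsgLib.Core.map_subtype_normal_of_characteristic hKn
      (CfsgLib.Core.characteristic_pCore p)) ((CfsgLib.Core.isPGroup_pCore p).map _) ?_
    exact ⟨⟨cm b k, hmem.2⟩, CfsgLib.Core.le_pCore hRn hRp hmem, rfl⟩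
  -- conclusion in `G / T`
  obtain ⟨DZ, hbDZ, hnDZ, hdZ'⟩ := exists_stable_subgroup' hstq (P := Z)
    (hT.to_le (inf_le_left.trans hC.le)) (g := b) (by rw [Subgroup.normalizer_eq_top]; trivial)
    fun z hz => hfixB hb (hdZ b hb z hz).2
  haveI hDZn : DZ.Normal := by
    rw [Subgroup.normalizer_eq_top] at hnDZ
    exact Subgroup.normalizer_eq_top_iff.1 (top_le_iff.1 hnDZ)
  haveI := hTn
  set f := QuotientGroup.mk' T with hf
  have hfs : Function.Surjective f := QuotientGroup.mk'_surjective T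
  haveI hKbn : (K.map f).Normal := hKn.map f hfs
  set Mq := DZ.map f ⊓ Subgroup.centralizer ((K.map f : Subgroup (G ⧸ T)) : Set (G ⧸ T)) with hMq
  haveI : (DZ.map f).Normal := hDZn.map f hfs
  haveI hMqn : Mq.Normal := by rw [hMq]; infer_instance
  have hbM : f b ∈ Mq := by
    refine ⟨⟨b, hbDZ, rfl⟩, Subgroup.mem_centralizer_iff.2 ?_⟩
    rintro _ ⟨k, hk, rfl⟩
    have : f (cm b k) = 1 := (QuotientGroup.eq_one_iff _).2 (hbK k hk)
    rw [show cm b k = b * k * b⁻¹ * k⁻¹ from rfl, map_mul, map_mul, map_mul, map_inv, map_inv] at this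
    exact (mul_inv_eq_iff_eq_mul.1 (mul_inv_eq_one.1 this)).symm
  set q := ((QuotientGroup.mk' (K.map f)).comp Mq.subtype).rangeRestrict with hq
  have hker : q.ker ≤ Subgroup.center ↥Mq := by
    intro m hm
    rw [hq, MonoidHom.ker_rangeRestrict] at hm
    have hm' : (m : G ⧸ T) ∈ K.map f := (QuotientGroup.eq_one_iff _).1 hm
    exact Subgroup.mem_center_iff.2 fun n => Subtype.ext
      (Subgroup.mem_centralizer_iff.1 n.2.2 _ hm').symm
  have hrange : IsPGroup p ↥((QuotientGroup.mk' (K.map f)).comp Mq.subtype).range := by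
    rintro ⟨_, m, rfl⟩
    obtain ⟨g, hg, hgm⟩ := m.2.1
    obtain ⟨k, j, hj, hgo⟩ := Nat.exists_eq_pow_mul_and_not_dvd (orderOf_pos g).ne' p hp.out.ne_one
    refine ⟨k, Subtype.ext ?_⟩
    show (QuotientGroup.mk' (K.map f)) (m : G ⧸ T) ^ p ^ k = 1
    rw [← map_pow, ← hgm, ← map_pow]
    refine (QuotientGroup.eq_one_iff _).2 ⟨g ^ p ^ k, ?_, rfl⟩
    refine Subgroup.mem_centralizer_iff.2 fun z hz => (mul_inv_eq_iff_eq_mul.1
      (hdZ' _ (DZ.pow_mem hg _) ?_ z hz)).symm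
    refine Nat.Coprime.coprime_dvd_left ?_ ((Nat.Prime.coprime_iff_not_dvd hp.out).2 hj).symm
    rw [orderOf_dvd_iff_pow_eq_one, ← pow_mul, ← hgo, pow_orderOf_eq_one]
  haveI := hrange.isNilpotent
  haveI : Group.IsNilpotent ↥Mq := Subgroup.isNilpotent_of_ker_le_center q hker
  obtain ⟨P, hP⟩ := (((hS.to_le (Subgroup.zpowers_le.2 (hBS hb))).map f).comap_subtype
    (K := Mq)).exists_le_sylow
  have hPn : (P : Subgroup ↥Mq).Normal :=
    Sylow.normal_of_normalizerCondition Group.normalizerCondition_of_isNilpotent P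
  have hPc : (P : Subgroup ↥Mq).Characteristic := Sylow.characteristic_of_normal P hPn
  haveI hPG : ((P : Subgroup ↥Mq).map Mq.subtype).Normal :=
    CfsgLib.Core.map_subtype_normal_of_characteristic hMqn hPc
  have hbP : f b ∈ (P : Subgroup ↥Mq).map Mq.subtype :=
    ⟨⟨f b, hbM⟩, hP ⟨b, Subgroup.mem_zpowers b, rfl⟩, rfl⟩
  have hle := hmax (((P : Subgroup ↥Mq).map Mq.subtype).comap f) inferInstance
    ((P.isPGroup'.map _).comap_of_ker_isPGroup f (by rw [QuotientGroup.ker_mk']; exact hT))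
  exact hle hbP

/-- Elements of order two modulo `T` cannot exist when the quotients are stable. -/
theorem mem_of_sq_mem (h2 : p = 2) (hT : IsPGroup p ↥T) (hTn : T.Normal)
    (hmax : ∀ N : Subgroup G, N.Normal → IsPGroup p ↥N → N ≤ T)
    (hcons : Subgroup.centralizer (T : Set G) ≤ T)
    (hstq : ∀ N : Subgroup G, [N.Normal] → Cfsg.IsNormalizerPStable p (G ⧸ N))
    {u : G} (hu : u ^ 2 ∈ T) : u ∈ T := by
  set N := Subgroup.normalClosure ({u} : Set G) with hN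
  refine hmax N Subgroup.normalClosure_normal (isPGroup_of_coprime_trivial fun x hx hcop => ?_)
    (Subgroup.subset_normalClosure (Set.mem_singleton u))
  -- `x` fixes each chief factor inside `T`
  have hfac : ∀ U V : Subgroup G, Cfsg.IsChiefFactor U V → U ≤ T → ∀ m ∈ U, cm x m ∈ V := by
    intro U V hUV hUT
    obtain ⟨hab, hexp⟩ :=
      CfsgLib.Local.TransferCtl.elementary_of_isChiefFactor (p := p) (hT.to_le hUT) hUV
    obtain ⟨hlt, hUn, hVn, hmin⟩ := hUV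
    haveI := hUn
    haveI := hVn
    haveI := hTn
    -- `T` acts trivially
    have htriv : ⁅U, T⁆ ≤ V := by
      rcases hmin (⁅U, T⁆ ⊔ V) inferInstance le_sup_right
          (sup_le (Subgroup.commutator_le_left _ _) hlt.le) with e | e
      · exact le_sup_left.trans e.le
      · exfalso
        set f := QuotientGroup.mk' V with hf
        have hfV : V.map f = ⊥ := (Subgroup.map_eq_bot_iff V).2 (QuotientGroup.ker_mk' V).ge
        have he : U.map f = ⁅U.map f, T.map f⁆ := by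
          conv_lhs => rw [← e]
          rw [Subgroup.map_sup, hfV, sup_bot_eq, Subgroup.map_commutator]
        haveI : Group.IsNilpotent ↥(T.map f) := (hT.map f).isNilpotent
        have hchain : ∀ k, U.map f ≤ Subgroup.lowerCentralSeries (T.map f) k := by
          intro k
          induction k with
          | zero => exact Subgroup.map_mono hUT
          | succ k ih => exact he.le.trans (Subgroup.commutator_mono ih le_rfl)
        obtain ⟨k, hk⟩ := (Subgroup.isNilpotent_iff_lowerCentralSeries (T.map f)).1 inferInstance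
        refine not_le_of_gt hlt fun m hm => (QuotientGroup.eq_one_iff m).1 ?_
        exact Subgroup.mem_bot.1 (hk.le (hchain k ⟨m, hm, rfl⟩))
    obtain ⟨D, huD, hnD, hdD⟩ := exists_stable_subgroup_mod (hstq V) (P := U) hlt.le (hT.to_le hUT)
      (g := u) (by rw [Subgroup.normalizer_eq_top]; trivial) (fun m hm => by
        have hu2 : u ^ 2 * m * (u ^ 2)⁻¹ * m⁻¹ ∈ V := by
          refine htriv ?_
          have := Subgroup.inv_mem _ (Subgroup.commutator_mem_commutator hm hu)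
          rwa [commutatorElement_inv, commutatorElement_def] at this
        have hy : dlt u m ∈ U := U.mul_mem (hUn.conj_mem m hm u) (U.inv_mem hm)
        have hy2 := hexp _ hy
        rw [h2, pow_two] at hy2
        have e : dlt u (dlt u m) = (u ^ 2 * m * (u ^ 2)⁻¹ * m⁻¹) * (dlt u m * dlt u m)⁻¹ := by
          unfold dlt; rw [pow_two]; group
        rw [e]
        exact V.mul_mem hu2 (V.inv_mem hy2))
    haveI : D.Normal := by
      rw [Subgroup.normalizer_eq_top] at hnD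
      exact Subgroup.normalizer_eq_top_iff.1 (top_le_iff.1 hnD)
    exact hdD x (Subgroup.normalClosure_le_normal (Set.singleton_subset_iff.2 huD) hx) hcop
  have hall : ∀ (n : ℕ) (X : Subgroup G), Nat.card ↥X = n → X.Normal → X ≤ T →
      ∀ m ∈ X, x * m * x⁻¹ = m := by
    intro n
    induction n using Nat.strong_induction_on with
    | _ n ih =>
      intro X hn hX hXT m hm
      by_cases hX1 : X = ⊥
      · rw [hX1, Subgroup.mem_bot] at hm
        rw [hm]; group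
      obtain ⟨Y, ⟨hYn, hYX⟩, hYmax⟩ := Set.exists_max_image
        {Y : Subgroup G | Y.Normal ∧ Y < X} (fun Y => Nat.card ↥Y) (Set.toFinite _)
        ⟨⊥, inferInstance, bot_lt_iff_ne_bot.2 hX1⟩
      have hch : Cfsg.IsChiefFactor X Y := ⟨hYX, hX, hYn, fun N hN h1 h2 => by
        by_cases e : N = X
        · exact Or.inr e
        · exact Or.inl (Subgroup.eq_of_le_of_card_ge h1
            (hYmax N ⟨hN, lt_of_le_of_ne h2 e⟩)).symm⟩
      have hy := hfac X Y hch hXT m hm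
      have hfix := ih _ (hn ▸ CfsgLib.Local.card_lt_card_of_lt hYX) Y rfl hYn (hYX.le.trans hXT) _ hy
      refine fix_step hcop ?_ hfix (show x * m * x⁻¹ = cm x m * m by unfold cm; group)
      obtain ⟨k, hk⟩ := hT ⟨_, hXT (hYX.le hy)⟩
      exact ⟨k, congrArg Subtype.val hk⟩
  refine eq_one_of_coprime hT (hcons (Subgroup.mem_centralizer_iff.2 fun t ht => ?_)) hcop
  exact (mul_inv_eq_iff_eq_mul.1 (hall _ T rfl hTn le_rfl t ht)).symm

end Constrained

/-- The K-infinity subgroups of a Sylow subgroup are normal in a constrained group with stable quotients. -/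
theorem normal_of_stable (S : Sylow p G)
    (hcons : Subgroup.centralizer (Cfsg.pCore p G : Set G) ≤ Cfsg.pCore p G)
    (hstq : ∀ N : Subgroup G, [N.Normal] → Cfsg.IsNormalizerPStable p (G ⧸ N)) :
    (lowerInf (S : Subgroup G)).Normal ∧ (upperInf (S : Subgroup G)).Normal := by
  set T := Cfsg.pCore p G with hTdef
  haveI hTn : T.Normal := CfsgLib.Core.normal_pCore p
  have hT : IsPGroup p ↥T := CfsgLib.Core.isPGroup_pCore p
  have hmax : ∀ N : Subgroup G, N.Normal → IsPGroup p ↥N → N ≤ T := fun N h1 h2 =>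
    CfsgLib.Core.le_pCore h1 h2
  have hTS : T ≤ (S : Subgroup G) := CfsgLib.Core.pCore_le_sylow S
  obtain ⟨hl, hu⟩ := inf_map_normal hTn
  by_cases h2 : p = 2
  · have hST : (S : Subgroup G) = T := by
      refine le_antisymm ?_ hTS
      have key : ∀ (k : ℕ) (s : G), s ^ 2 ^ k ∈ T → s ∈ T := by
        intro k
        induction k with
        | zero => intro s hs; simpa using hs
        | succ k ih =>
          intro s hs
          rw [pow_succ, pow_mul] at hs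
          exact ih s (mem_of_sq_mem h2 hT hTn hmax hcons hstq hs)
      intro s hs
      obtain ⟨k, hk⟩ := S.isPGroup' ⟨s, hs⟩
      have hk' : s ^ p ^ k = 1 := congrArg Subtype.val hk
      rw [h2] at hk'
      exact key k s (hk'.symm ▸ T.one_mem)
    rw [hST]; exact ⟨hl, hu⟩
  obtain ⟨C, hC⟩ := exists_crit T hT
  haveI := hC.normal
  have key := inf_eq_of_le hC hTS (by rw [Subgroup.normalizer_eq_top]; exact le_top)
    (fun A _ hA hCA hAC hZA a ha => mem_of_quadratic hT hTn hmax hcons hC hstq (fun z hz => by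
        have h := dlt_mem_commutator (b := a) (dlt_mem_commutator hz ha) ha
        rwa [hZA, Subgroup.mem_bot] at h) fun c hc => by
        have h1 : dlt a c ∈ A := by
          rw [show dlt a c = a * (c * a⁻¹ * c⁻¹) by unfold dlt; group]
          exact A.mul_mem ha ((Subgroup.mem_normalizer_iff.1 (hCA hc) _).1 (A.inv_mem ha))
        exact ⟨C.mul_mem (hC.normal.conj_mem _ (C.mul_mem (hC.normal.conj_mem c hc a)
            (C.inv_mem hc)) a) (C.inv_mem (C.mul_mem (hC.normal.conj_mem c hc a) (C.inv_mem hc))),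
          Subgroup.le_centralizer_iff.1 (Subgroup.commutator_eq_bot_iff_le_centralizer.1 hAC)
            (dlt_mem_commutator h1 ha)⟩)
    (fun Q hCQ _ B hB => lower_le h2 hT hTn hmax hcons hC hstq S.isPGroup' hCQ hB)
  exact ⟨key.1 ▸ hl, key.2 ▸ hu⟩

end CfsgLib.Local.KInf
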