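import Mathlib
import Cfsg.Agent.Lib.LocalKInfStable
import Cfsg.Agent.Lib.StableControlApps
import Cfsg.Agent.Lib.StableSeries

/-!
# The K-infinity functors control strong fusion in stable groups
-/

set_option autoImplicit false
set_option linter.style.haveILetI false

universe u

namespace CfsgLib.Local.KInf

variable {p : ℕ} [hp : Fact p.Prime]

/-- All sections of `G` are normalizer stable. -/
def SecStable (p : ℕ) (G : Type u) [Group G] : Prop :=
  ∀ (K R : Subgroup G) [(R.subgroupOf K).Normal], Cfsg.IsNormalizerPStable p (↥K ⧸ R.subgroupOf K)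

theorem normal_centralizer_subgroupOf {X : Type u} [Group X] (P : Subgroup X) :
    ((Subgroup.centralizer (P : Set X)).subgroupOf (Subgroup.normalizer (P : Set X))).Normal := by
  refine ⟨fun c hc n => ?_⟩
  show (n : X) * c * (n : X)⁻¹ ∈ Subgroup.centralizer (P : Set X)
  rw [Subgroup.mem_centralizer_iff]
  intro m hm
  have h1 : (n : X)⁻¹ * m * n ∈ P := (Subgroup.mem_normalizer_iff''.1 n.2 m).1 hm
  have h2 : ((n : X)⁻¹ * m * n) * (c : X) = (c : X) * ((n : X)⁻¹ * m * n) :=
    Subgroup.mem_centralizer_iff.1 (hc : (c : X) ∈ Subgroup.centralizer (P : Set X)) _ h1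
  calc m * ((n : X) * c * (n : X)⁻¹) = (n : X) * (((n : X)⁻¹ * m * n) * c) * (n : X)⁻¹ := by group
    _ = (n : X) * (c * ((n : X)⁻¹ * m * n)) * (n : X)⁻¹ := by rw [h2]
    _ = _ := by group

theorem stable_of_equiv {X Y : Type u} [Group X] [Group Y] (e : X ≃* Y)
    (h : Cfsg.IsNormalizerPStable p X) : Cfsg.IsNormalizerPStable p Y := by
  intro P hP g hg hq
  set P₀ := P.map e.symm.toMonoidHom with hP₀
  have hg₀ : e.symm g ∈ Subgroup.normalizer (P₀ : Set X) :=
    Subgroup.le_normalizer_map e.symm.toMonoidHom ⟨g, hg, rfl⟩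
  have hq₀ : ⁅⁅P₀, Subgroup.zpowers (e.symm g)⁆, Subgroup.zpowers (e.symm g)⁆ = ⊥ := by
    rw [hP₀, show Subgroup.zpowers (e.symm g) = (Subgroup.zpowers g).map e.symm.toMonoidHom from
      (MonoidHom.map_zpowers e.symm.toMonoidHom g).symm, ← Subgroup.map_commutator, ← Subgroup.map_commutator, hq,
      Subgroup.map_bot]
  have h1 := h P₀ (hP.map _) (e.symm g) hg₀ hq₀
  have hPe : ∀ x, x ∈ P₀ ↔ e x ∈ P := by
    intro x
    constructor
    · rintro ⟨y, hy, rfl⟩
      show e (e.symm y) ∈ P
      rwa [e.apply_symm_apply]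
    · exact fun hx => ⟨e x, hx, e.symm_apply_apply x⟩
  let f : ↥(Subgroup.normalizer (P₀ : Set X)) →* ↥(Subgroup.normalizer (P : Set Y)) :=
    (e.toMonoidHom.comp (Subgroup.normalizer (P₀ : Set X)).subtype).codRestrict
      (Subgroup.normalizer (P : Set Y)) fun x => by
        show e (x : X) ∈ Subgroup.normalizer (P : Set Y)
        rw [Subgroup.mem_normalizer_iff]
        intro y
        have h2 := Subgroup.mem_normalizer_iff.1 x.2 (e.symm y)
        rw [hPe, hPe, map_mul, map_mul, map_inv, e.apply_symm_apply] at h2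
        exact h2
  have hf : Function.Surjective f := fun y =>
    ⟨⟨e.symm y, Subgroup.le_normalizer_map e.symm.toMonoidHom ⟨y, y.2, rfl⟩⟩,
      Subtype.ext (e.apply_symm_apply _)⟩
  haveI hn : ((Subgroup.centralizer (P₀ : Set X)).subgroupOf
      (Subgroup.normalizer (P₀ : Set X))).Normal := normal_centralizer_subgroupOf P₀
  haveI hn' : ((Subgroup.centralizer (P : Set Y)).subgroupOf
      (Subgroup.normalizer (P : Set Y))).Normal := normal_centralizer_subgroupOf P
  let F := QuotientGroup.map ((Subgroup.centralizer (P₀ : Set X)).subgroupOf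
      (Subgroup.normalizer (P₀ : Set X))) ((Subgroup.centralizer (P : Set Y)).subgroupOf
      (Subgroup.normalizer (P : Set Y))) f (fun x hx => by
    show e (x : X) ∈ Subgroup.centralizer (P : Set Y)
    rw [Subgroup.mem_centralizer_iff]
    intro y hy
    have h2 := Subgroup.mem_centralizer_iff.1
      (hx : (x : X) ∈ Subgroup.centralizer (P₀ : Set X)) (e.symm y) ⟨y, hy, rfl⟩
    have h3 := congrArg e h2
    rwa [map_mul, map_mul, e.apply_symm_apply] at h3)
  have hF : Function.Surjective F := by
    intro q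
    obtain ⟨y, rfl⟩ := QuotientGroup.mk_surjective q
    obtain ⟨x, rfl⟩ := hf y
    exact ⟨QuotientGroup.mk x, rfl⟩
  have h4 := CfsgLib.Core.map_pCore_le_of_surjective p F hF ⟨_, h1, rfl⟩
  convert h4 using 1
  show _ = (QuotientGroup.mk (f ⟨e.symm g, hg₀⟩) : _)
  exact congrArg _ (Subtype.ext (e.apply_symm_apply g).symm)

theorem SecStable.of_isSec {G X : Type u} [Group G] [Group X] (h : SecStable p G)
    (hX : CfsgLib.Stable.IsSec X G) : Cfsg.IsNormalizerPStable p X := by
  obtain ⟨K, R, hR, ⟨e⟩⟩ := hX.exists_equiv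
  exact stable_of_equiv e (h K R)

theorem stable_quotients_of_sec {G X : Type u} [Group G] [Group X] (h : SecStable p G)
    (hX : CfsgLib.Stable.IsSec X G) (N : Subgroup X) [N.Normal] :
    Cfsg.IsNormalizerPStable p (X ⧸ N) :=
  h.of_isSec (hX.quotient (QuotientGroup.mk' N) (QuotientGroup.mk'_surjective N))

variable {G : Type u} [Group G] [Finite G]

/-- Control of strong fusion from the local normality. -/
theorem controls_of_secStable (h : SecStable p G) {W : ∀ (Q : Type u) [Group Q], Subgroup Q}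
    (hW : Cfsg.IsCharPFunctor.{u} p W)
    (hnorm : ∀ {X : Type u} [Group X] [Finite X] (S : Sylow p X),
      Subgroup.centralizer (Cfsg.pCore p X : Set X) ≤ Cfsg.pCore p X →
      (∀ N : Subgroup X, [N.Normal] → Cfsg.IsNormalizerPStable p (X ⧸ N)) →
      (Cfsg.inducedFunctor W (S : Subgroup X)).Normal) (S : Sylow p G) :
    Cfsg.ControlsStrongFusion p (Cfsg.inducedFunctor W (S : Subgroup G)) := by
  have hV := CfsgLib.Stable.localData_functor (G₀ := G) hW (fun {X} _ _ hX hc P =>
    hnorm P hc fun N _ => stable_quotients_of_sec h hX N)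
  exact ⟨S, CfsgLib.Stable.inducedFunctor_le _, fun A hA => CfsgLib.Stable.controls_of_ctrl
    (CfsgLib.Stable.goal_self hV S _ (CfsgLib.Stable.sclosed_self _) fun _ => rfl) A hA⟩

theorem controls_kInfLower (h : SecStable p G) (S : Sylow p G) :
    Cfsg.ControlsStrongFusion p (Cfsg.inducedFunctor Cfsg.kInfLower (S : Subgroup G)) :=
  controls_of_secStable h (isCharPFunctor_kInfLower p) (fun P hc hs => by
    rw [inducedFunctor_kInfLower]; exact (normal_of_stable P hc hs).1) S

theorem controls_kInfUpper (h : SecStable p G) (S : Sylow p G) :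
    Cfsg.ControlsStrongFusion p (Cfsg.inducedFunctor Cfsg.kInfUpper (S : Subgroup G)) :=
  controls_of_secStable h (isCharPFunctor_kInfUpper p) (fun P hc hs => by
    rw [inducedFunctor_kInfUpper]; exact (normal_of_stable P hc hs).2) S

/-- The normal `p`-complement theorem. -/
theorem npc_kInfLower (hodd : p ≠ 2) (S : Sylow p G)
    (hN : Cfsg.HasNormalPComplement p
      ↥(Subgroup.normalizer ((Cfsg.inducedFunctor Cfsg.kInfLower (S : Subgroup G) : Subgroup G) : Set G))) :
    Cfsg.HasNormalPComplement p G := by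
  refine CfsgLib.Stable.npc_of_functor (isCharPFunctor_kInfLower p) S hN fun K R _ hC hQ T hT => ?_
  rw [inducedFunctor_kInfLower]
  refine (normal_of_stable T hC fun N _ => ?_).1
  exact CfsgLib.Stable.normalizerPStable_of_hasSeries hodd
    ((CfsgLib.Stable.hasSeries_of_reduced hQ T hT).of_surjective (QuotientGroup.mk' N)
      (QuotientGroup.mk'_surjective N))

/-- The lower subgroup contains its centralizer in the group. -/
theorem centralizer_kInfLower_le (P : Type u) [Group P] [Finite P] (hP : IsPGroup p P) :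
    Subgroup.centralizer (Cfsg.kInfLower P : Set P) ≤ Cfsg.kInfLower P := by
  obtain ⟨C, hC⟩ := exists_crit (p := p) (⊤ : Subgroup P) (hP.to_subgroup ⊤)
  have hmem : C ∈ lowerIn (⊤ : Subgroup P) (seqOdd ⊤ 0) := by
    refine ⟨le_top, ?_, ?_, fun A _ _ _ _ _ => ?_⟩
    · exact ((Subgroup.commutator_mono le_rfl le_top).trans hC.comm).trans inf_le_right
    · haveI := hC.normal
      rw [Subgroup.normalizer_eq_top]; exact le_top
    · exact (Subgroup.commutator_mono le_rfl le_top).trans hC.comm
  have hle : C ≤ Cfsg.kInfLower P := by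
    rw [← lowerInf_top]
    exact le_trans (le_sSup hmem) (le_iSup (seqEven (⊤ : Subgroup P)) 0)
  exact ((le_inf le_top (Subgroup.centralizer_le hle)).trans hC.cent).trans hle

/-- For a group of class at most two the lower subgroup is everything. -/
theorem kInfLower_eq_top (P : Type u) [Group P]
    (h : ⁅(⊤ : Subgroup P), (⊤ : Subgroup P)⁆ ≤ Subgroup.centralizer ((⊤ : Subgroup P) : Set P)) :
    Cfsg.kInfLower P = ⊤ := by
  rw [← lowerInf_top]
  refine top_le_iff.1 (le_trans ?_ (le_iSup (seqEven (⊤ : Subgroup P)) 0))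
  refine le_sSup ⟨le_rfl, h, ?_, fun A _ _ _ _ _ => ?_⟩
  · rw [Subgroup.normalizer_eq_top]; exact le_top
  · exact le_inf le_top ((Subgroup.commutator_mono le_rfl le_top).trans h)

end CfsgLib.Local.KInf
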