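import Cfsg.Agent.Lib.LocalKInfBase

/-!
# Monotonicity and maximal members of the K-sequence families
-/

set_option autoImplicit false

namespace CfsgLib.Local.KInfSeq

open scoped commutatorElement
open CfsgLib.Local

variable {P : Type*} [Group P]

theorem lower_anti {Q Q' : Subgroup P} (h : Q' ≤ Q) : Cfsg.kLowerStarFamily Q ⊆ Cfsg.kLowerStarFamily Q' :=
  fun _ hB => ⟨hB.1, h.trans hB.2.1, fun A hA hAQ => hB.2.2 A hA (hAQ.trans h)⟩

theorem upper_anti {Q Q' : Subgroup P} (h : Q' ≤ Q) : Cfsg.kUpperStarFamily Q ⊆ Cfsg.kUpperStarFamily Q' :=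
  fun _ hB => ⟨hB.1, (Subgroup.commutator_mono le_rfl h).trans hB.2⟩

theorem seq_step : ∀ n : ℕ, Cfsg.kSeqOdd P (n + 1) ≤ Cfsg.kSeqOdd P n ∧ Cfsg.kSeqEven P n ≤ Cfsg.kSeqEven P (n + 1)
  | 0 => ⟨le_top, sSup_le_sSup (lower_anti (le_top : Cfsg.kSeqOdd P 1 ≤ ⊤))⟩
  | n + 1 => by
    have h : Cfsg.kSeqOdd P (n + 2) ≤ Cfsg.kSeqOdd P (n + 1) := sSup_le_sSup (upper_anti (seq_step n).2)
    exact ⟨h, sSup_le_sSup (lower_anti h)⟩

theorem seqOdd_antitone : Antitone (Cfsg.kSeqOdd P) := antitone_nat_of_succ_le fun n => (seq_step n).1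

theorem seqEven_monotone : Monotone (Cfsg.kSeqEven P) := monotone_nat_of_le_succ fun n => (seq_step n).2

theorem exists_stable [Finite P] :
    ∃ n : ℕ, ∀ m : ℕ, n ≤ m → Cfsg.kSeqEven P m = Cfsg.kInfLower P ∧ Cfsg.kSeqOdd P m = Cfsg.kInfUpper P := by
  classical
  haveI := Fintype.ofFinite (Subgroup P)
  have key : ∀ f : ℕ → Subgroup P, ∃ n : ℕ, ∀ k, ∃ j ≤ n, f j = f k := fun f => by
    refine ⟨Finset.univ.sup fun H => if h : ∃ j, f j = H then h.choose else 0, fun k => ?_⟩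
    have h : ∃ j, f j = f k := ⟨k, rfl⟩
    refine ⟨h.choose, le_trans (le_of_eq ?_) (Finset.le_sup (Finset.mem_univ (f k))), h.choose_spec⟩
    rw [dif_pos h]
  obtain ⟨n₁, h₁⟩ := key (Cfsg.kSeqEven P)
  obtain ⟨n₂, h₂⟩ := key (Cfsg.kSeqOdd P)
  refine ⟨max n₁ n₂, fun m hm => ⟨le_antisymm (le_iSup _ m) (iSup_le fun k => ?_), le_antisymm (le_iInf fun k => ?_) (iInf_le _ m)⟩⟩
  · obtain ⟨j, hj, e⟩ := h₁ k
    rw [← e]
    exact seqEven_monotone (le_trans hj ((le_max_left _ _).trans hm))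
  · obtain ⟨j, hj, e⟩ := h₂ k
    rw [← e]
    exact seqOdd_antitone (le_trans hj ((le_max_right _ _).trans hm))

theorem abelian_mem (A : Subgroup P) [A.Normal] (hA : IsMulCommutative ↥A) (Q : Subgroup P) :
    A ∈ Cfsg.classTwoSubgroups P ∧ A ∈ Cfsg.kLowerStarFamily Q ∧ A ∈ Cfsg.kUpperStarFamily Q := by
  have hle : A ≤ Subgroup.centralizer (A : Set P) := fun a ha => Subgroup.mem_centralizer_iff.2 fun b hb =>
    congrArg Subtype.val (hA.is_comm.comm (⟨b, hb⟩ : A) ⟨a, ha⟩)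
  have h1 : A ∈ Cfsg.classTwoSubgroups P := (Subgroup.commutator_le_left A A).trans hle
  refine ⟨h1, ⟨h1, ?_, fun A' _ _ _ _ _ => ?_⟩, h1, ?_⟩
  · rw [Subgroup.normalizer_eq_top]; exact le_top
  · exact le_inf (Subgroup.commutator_le_left A A') ((Subgroup.commutator_le_left A A').trans hle)
  · exact le_inf (Subgroup.commutator_le_left A Q) ((Subgroup.commutator_le_left A Q).trans hle)

theorem commutator_le_self {B Q : Subgroup P} (h : ⁅B, Q⁆ ≤ B) : Q ≤ Subgroup.normalizer (B : Set P) :=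
  Subgroup.le_normalizer_iff_commutator_le_left.2 h

/-- A subgroup `B` not containing its centralizer has an element `x` of the centralizer outside `B` whose
commutators with a subgroup normalizing `B` lie in the centre of `B`. -/
theorem exists_extension [Group.IsNilpotent P] (B Q : Subgroup P) (hQ : Q ≤ Subgroup.normalizer (B : Set P))
    (hB : ¬ Subgroup.centralizer (B : Set P) ≤ B) :
    ∃ x ∈ Subgroup.centralizer (B : Set P), x ∉ B ∧ ∀ q ∈ Q, ⁅x, q⁆ ∈ B ⊓ Subgroup.centralizer (B : Set P) := by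
  classical
  set W := Subgroup.centralizer (B : Set P) with hW
  have hWQ : ∀ q ∈ Q, ∀ w ∈ W, q * w * q⁻¹ ∈ W := by
    intro q hq w hw
    rw [hW, Subgroup.mem_centralizer_iff] at hw ⊢
    intro b hb
    have hb' : q⁻¹ * b * q⁻¹⁻¹ ∈ (B : Set P) := (Subgroup.mem_normalizer_iff.1 (hQ (Q.inv_mem hq)) b).1 hb
    calc b * (q * w * q⁻¹) = q * ((q⁻¹ * b * q⁻¹⁻¹) * w) * q⁻¹ := by group
      _ = q * (w * (q⁻¹ * b * q⁻¹⁻¹)) * q⁻¹ := by rw [hw _ hb']
      _ = q * w * q⁻¹ * b := by group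
  let bad : ℕ → Prop := fun n => ∀ x ∈ W, x ∈ (⊤ : Subgroup P).lowerCentralSeries n → x ∈ B
  have hex : ∃ n, bad n := ⟨Group.nilpotencyClass P, fun x _ hx => by
    rw [Subgroup.lowerCentralSeries_nilpotencyClass, Subgroup.mem_bot] at hx
    rw [hx]; exact B.one_mem⟩
  have hspec := Nat.find_spec hex
  obtain ⟨n, hn⟩ : ∃ n, Nat.find hex = n + 1 := by
    refine Nat.exists_eq_succ_of_ne_zero fun h0 => hB fun x hx => ?_
    rw [h0] at hspec
    exact hspec x hx (Subgroup.mem_top x)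
  have hnot : ¬ bad n := Nat.find_min hex (by omega)
  simp only [bad, not_forall] at hnot
  obtain ⟨x, hxW, hxn, hxB⟩ := hnot
  rw [hn] at hspec
  refine ⟨x, hxW, hxB, fun q hq => ?_⟩
  have h1 : ⁅x, q⁆ ∈ W := by
    rw [commutatorElement_def, mul_assoc, mul_assoc, ← mul_assoc q]
    exact W.mul_mem hxW (hWQ q hq _ (W.inv_mem hxW))
  exact ⟨hspec _ h1 (Subgroup.commutator_mem_commutator hxn (Subgroup.mem_top q)), h1⟩

variable {B : Subgroup P} {x : P}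

theorem center_le_ext (hx : x ∈ Subgroup.centralizer (B : Set P)) :
    B ⊓ Subgroup.centralizer (B : Set P) ≤
      (B ⊔ Subgroup.zpowers x) ⊓ Subgroup.centralizer ((B ⊔ Subgroup.zpowers x : Subgroup P) : Set P) := by
  intro z hz
  refine ⟨Subgroup.mem_sup_left hz.1, ?_⟩
  have h : B ⊔ Subgroup.zpowers x ≤ Subgroup.centralizer ({z} : Set P) := by
    refine sup_le (fun b hb => ?_) (Subgroup.zpowers_le.2 ?_)
    · exact Subgroup.mem_centralizer_singleton_iff.2 (hz.2 b hb)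
    · exact Subgroup.mem_centralizer_singleton_iff.2 (hx z hz.1).symm
  exact fun y hy => Subgroup.mem_centralizer_singleton_iff.1 (h hy)

theorem ext_classTwo (hB : B ∈ Cfsg.classTwoSubgroups P) (hx : x ∈ Subgroup.centralizer (B : Set P)) :
    B ⊔ Subgroup.zpowers x ∈ Cfsg.classTwoSubgroups P := by
  show ⁅B ⊔ Subgroup.zpowers x, B ⊔ Subgroup.zpowers x⁆ ≤ _
  have hnorm : ∀ {A : Subgroup P}, ∀ a ∈ B ⊔ Subgroup.zpowers x, ∀ y : P, y ∈ A →
      (∀ b ∈ B, b * y = y * b) → x * y = y * x → a * y = y * a := by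
    intro A a ha y _ h1 h2
    have hle : B ⊔ Subgroup.zpowers x ≤ Subgroup.centralizer ({y} : Set P) :=
      sup_le (fun b hb => Subgroup.mem_centralizer_singleton_iff.2 (h1 b hb))
        (Subgroup.zpowers_le.2 (Subgroup.mem_centralizer_singleton_iff.2 h2))
    exact Subgroup.mem_centralizer_singleton_iff.1 (hle ha)
  have hK : ⁅B, B⁆ ≤ Subgroup.centralizer ((B ⊔ Subgroup.zpowers x : Subgroup P) : Set P) := fun k hk => by
    have hkB : k ∈ B := (Subgroup.commutator_le.2 fun a ha b hb =>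
      B.mul_mem (B.mul_mem (B.mul_mem ha hb) (B.inv_mem ha)) (B.inv_mem hb)) hk
    exact fun a ha => hnorm (A := ⊤) a ha k trivial (fun b hb => hB hk b hb) (hx k hkB).symm
  rw [Subgroup.commutator_le]
  intro u hu v hv
  refine hK ?_
  have hmem : ∀ w ∈ B ⊔ Subgroup.zpowers x, ∃ b ∈ B, ∃ i : ℤ, w = b * x ^ i := by
    intro w hw
    rw [← SetLike.mem_coe, Subgroup.coe_mul_of_right_le_normalizer_left (B) (Subgroup.zpowers x)
      ((Subgroup.zpowers_le.2 hx).trans (Subgroup.centralizer_le_normalizer _))] at hw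
    obtain ⟨b, hb, _, ⟨i, rfl⟩, rfl⟩ := hw
    exact ⟨b, hb, i, rfl⟩
  obtain ⟨b, hb, i, rfl⟩ := hmem u hu
  obtain ⟨c, hc, j, rfl⟩ := hmem v hv
  have h1 : Commute (x ^ i) c := (show Commute x c from (hx c hc).symm).zpow_left i
  have h2 : Commute (x ^ j) b := (show Commute x b from (hx b hb).symm).zpow_left j
  have h3 : Commute (x ^ i) (x ^ j) := Commute.zpow_zpow_self x i j
  have e : ⁅b * x ^ i, c * x ^ j⁆ = ⁅b, c⁆ := by
    simp only [commutatorElement_def, mul_inv_rev]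
    calc b * x ^ i * (c * x ^ j) * ((x ^ i)⁻¹ * b⁻¹) * ((x ^ j)⁻¹ * c⁻¹)
        = b * ((x ^ i * c) * x ^ j * (x ^ i)⁻¹) * b⁻¹ * (x ^ j)⁻¹ * c⁻¹ := by group
      _ = b * (c * (x ^ i * x ^ j) * (x ^ i)⁻¹) * b⁻¹ * (x ^ j)⁻¹ * c⁻¹ := by rw [h1.eq]; group
      _ = b * c * (x ^ j * b⁻¹) * (x ^ j)⁻¹ * c⁻¹ := by rw [h3.eq]; group
      _ = b * c * b⁻¹ * c⁻¹ := by rw [(h2.inv_right).eq]; group
  rw [e]
  exact Subgroup.commutator_mem_commutator hb hc

theorem ext_commutator_le {A : Subgroup P} (hBA : ⁅B, A⁆ ≤ B ⊓ Subgroup.centralizer (B : Set P))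
    (hx : x ∈ Subgroup.centralizer (B : Set P)) (hxA : ∀ a ∈ A, ⁅x, a⁆ ∈ B ⊓ Subgroup.centralizer (B : Set P)) :
    ⁅B ⊔ Subgroup.zpowers x, A⁆ ≤
      (B ⊔ Subgroup.zpowers x) ⊓ Subgroup.centralizer ((B ⊔ Subgroup.zpowers x : Subgroup P) : Set P) := by
  refine le_trans ?_ (center_le_ext hx)
  set Z := B ⊓ Subgroup.centralizer (B : Set P)
  rw [Subgroup.commutator_le]
  intro u hu a ha
  let S : Subgroup P :=
    { carrier := {u | (∀ z ∈ Z, u * z = z * u) ∧ ⁅u, a⁆ ∈ Z}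
      one_mem' := ⟨fun z _ => by rw [one_mul, mul_one], by rw [commutatorElement_one_left]; exact Z.one_mem⟩
      mul_mem' := fun {u v} hu hv => by
        refine ⟨fun z hz => by rw [mul_assoc, hv.1 z hz, ← mul_assoc, hu.1 z hz, mul_assoc], ?_⟩
        have e : ⁅u * v, a⁆ = u * ⁅v, a⁆ * u⁻¹ * ⁅u, a⁆ := by simp only [commutatorElement_def]; group
        rw [e, hu.1 _ hv.2, mul_inv_cancel_right]
        exact Z.mul_mem hv.2 hu.2
      inv_mem' := fun {u} hu => by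
        have h1 : ∀ z ∈ Z, u⁻¹ * z = z * u⁻¹ := fun z hz => (Commute.inv_left (show Commute u z from hu.1 z hz)).eq
        refine ⟨h1, ?_⟩
        have e : ⁅u⁻¹, a⁆ = u⁻¹ * ⁅u, a⁆⁻¹ * u := by simp only [commutatorElement_def]; group
        rw [e, h1 _ (Z.inv_mem hu.2), inv_mul_cancel_right]
        exact Z.inv_mem hu.2 }
  have : B ⊔ Subgroup.zpowers x ≤ S := by
    refine sup_le (fun b hb => ⟨fun z hz => hz.2 b hb, hBA (Subgroup.commutator_mem_commutator hb ha)⟩)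
      (Subgroup.zpowers_le.2 ⟨fun z hz => (hx z hz.1).symm, hxA a ha⟩)
  exact (this hu).2

theorem centralizer_le_of_maximal [Group.IsNilpotent P] (B : Subgroup P) (𝒦 : Set (Subgroup P))
    (h𝒦 : 𝒦 = Cfsg.classTwoSubgroups P ∨ (∃ Q, 𝒦 = Cfsg.kLowerStarFamily Q) ∨ ∃ Q, 𝒦 = Cfsg.kUpperStarFamily Q)
    (hB : B ∈ 𝒦) (hmax : ∀ C ∈ 𝒦, B ≤ C → C = B) : Subgroup.centralizer (B : Set P) ≤ B := by
  by_contra hcon
  suffices h : ∃ x, x ∉ B ∧ B ⊔ Subgroup.zpowers x ∈ 𝒦 by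
    obtain ⟨x, hxB, hx⟩ := h
    have := hmax _ hx le_sup_left
    exact hxB (this ▸ (Subgroup.mem_sup_right (Subgroup.mem_zpowers x)))
  rcases h𝒦 with rfl | ⟨Q, rfl⟩ | ⟨Q, rfl⟩
  · obtain ⟨x, hx, hxB⟩ := SetLike.not_le_iff_exists.1 hcon
    exact ⟨x, hxB, ext_classTwo hB hx⟩
  · obtain ⟨x, hx, hxB, hxQ⟩ := exists_extension B Q hB.2.1 hcon
    refine ⟨x, hxB, ext_classTwo hB.1 hx, ?_, fun A hA hAQ hnA hbr hZ => ?_⟩
    · intro q hq
      have hconj : ∀ q ∈ Q, ∀ y ∈ B ⊔ Subgroup.zpowers x, q * y * q⁻¹ ∈ B ⊔ Subgroup.zpowers x := by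
        intro q hq y hy
        have hle : B ⊔ Subgroup.zpowers x ≤ (B ⊔ Subgroup.zpowers x).comap (MulAut.conj q).toMonoidHom := by
          refine sup_le (fun b hb => Subgroup.mem_sup_left ((Subgroup.mem_normalizer_iff.1 (hB.2.1 hq) b).1 hb)) (Subgroup.zpowers_le.2 ?_)
          show q * x * q⁻¹ ∈ B ⊔ Subgroup.zpowers x
          have h := (hxQ q hq).1
          rw [show q * x * q⁻¹ = (x⁻¹ * ⁅x, q⁆)⁻¹ by simp only [commutatorElement_def]; group]
          exact Subgroup.inv_mem _ (Subgroup.mul_mem _ (Subgroup.inv_mem _ (Subgroup.mem_sup_right (Subgroup.mem_zpowers x))) (Subgroup.mem_sup_left h))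
        exact hle hy
      rw [Subgroup.mem_normalizer_iff]
      refine fun y => ⟨hconj q hq y, fun hy => ?_⟩
      have := hconj q⁻¹ (Q.inv_mem hq) _ hy
      simpa [mul_assoc] using this
    · refine ext_commutator_le (hB.2.2 A hA hAQ ((le_sup_left : B ≤ B ⊔ Subgroup.zpowers x).trans hnA) ?_ ?_) hx fun a ha => hxQ a (hAQ ha)
      · rw [eq_bot_iff, ← hbr]
        exact Subgroup.commutator_mono le_sup_left le_rfl
      · rw [eq_bot_iff, ← hZ]
        exact Subgroup.commutator_mono (Subgroup.commutator_mono (center_le_ext hx) le_rfl) le_rfl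
  · obtain ⟨x, hx, hxB, hxQ⟩ := exists_extension B Q (commutator_le_self (hB.2.trans inf_le_left)) hcon
    exact ⟨x, hxB, ext_classTwo hB.1 hx, ext_commutator_le hB.2 hx hxQ⟩

theorem centralizer_sSup_le [Finite P] [Group.IsNilpotent P] (𝒦 : Set (Subgroup P))
    (h𝒦 : 𝒦 = Cfsg.classTwoSubgroups P ∨ (∃ Q, 𝒦 = Cfsg.kLowerStarFamily Q) ∨ ∃ Q, 𝒦 = Cfsg.kUpperStarFamily Q)
    (hne : 𝒦.Nonempty) : Subgroup.centralizer ((sSup 𝒦 : Subgroup P) : Set P) ≤ sSup 𝒦 := by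
  obtain ⟨B, hB, hmax⟩ := (Set.toFinite 𝒦).exists_maximal hne
  have h := centralizer_le_of_maximal B 𝒦 h𝒦 hB fun C hC hle => le_antisymm (hmax hC hle) hle
  exact ((Subgroup.centralizer_le (SetLike.coe_subset_coe.2 (le_sSup hB))).trans h).trans (le_sSup hB)

theorem centralizer_kInf_le [Finite P] [Group.IsNilpotent P] :
    Subgroup.centralizer (Cfsg.kInfLower P : Set P) ≤ Cfsg.kInfLower P ∧
      Subgroup.centralizer (Cfsg.kInfUpper P : Set P) ≤ Cfsg.kInfUpper P := by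
  obtain ⟨n, hn⟩ := exists_stable (P := P)
  have hne : ∀ Q : Subgroup P, (Cfsg.kLowerStarFamily Q).Nonempty ∧ (Cfsg.kUpperStarFamily Q).Nonempty := fun Q => by
    have hab : IsMulCommutative ↥(⊥ : Subgroup P) := ⟨⟨fun a b => Subsingleton.elim _ _⟩⟩
    exact ⟨⟨⊥, (abelian_mem ⊥ hab Q).2.1⟩, ⟨⊥, (abelian_mem ⊥ hab Q).2.2⟩⟩
  constructor
  · rw [← (hn n le_rfl).1]
    exact centralizer_sSup_le _ (Or.inr (Or.inl ⟨_, rfl⟩)) (hne _).1
  · rw [← (hn (n + 1) (Nat.le_succ n)).2]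
    exact centralizer_sSup_le _ (Or.inr (Or.inr ⟨_, rfl⟩)) (hne _).2

theorem inf_of_le (Q : Subgroup P) (hQ : ∀ n : ℕ, Cfsg.kSeqEven P n ≤ Q ∧ Cfsg.kSeqOdd P (n + 1) ≤ Q) :
    KInf.lowerInf Q = Cfsg.kInfLower P ∧ KInf.upperInf Q = Cfsg.kInfUpper P := by
  have h1 : ∀ n, KInf.seqOdd Q n ≤ Cfsg.kSeqOdd P n ∧ Cfsg.kSeqEven P n ≤ KInf.seqEven Q n := by
    intro n
    induction n with
    | zero =>
      exact ⟨le_top, sSup_le fun B hB => le_sSup ⟨(le_sSup hB).trans (hQ 0).1, lower_anti (le_top : KInf.seqOdd Q 0 ≤ ⊤) hB⟩⟩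
    | succ n ih =>
      have h : KInf.seqOdd Q (n + 1) ≤ Cfsg.kSeqOdd P (n + 1) := sSup_le fun B hB => le_sSup (upper_anti ih.2 hB.2)
      exact ⟨h, sSup_le fun B hB => le_sSup ⟨(le_sSup hB).trans (hQ (n + 1)).1, lower_anti h hB⟩⟩
  have h2 : ∀ n, Cfsg.kSeqOdd P (n + 1) ≤ KInf.seqOdd Q n ∧ KInf.seqEven Q n ≤ Cfsg.kSeqEven P (n + 1) := by
    intro n
    induction n with
    | zero => exact ⟨(hQ 0).2, sSup_le fun B hB => le_sSup (lower_anti ((hQ 0).2 : Cfsg.kSeqOdd P 1 ≤ KInf.seqOdd Q 0) hB.2)⟩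
    | succ n ih =>
      have h : Cfsg.kSeqOdd P (n + 2) ≤ KInf.seqOdd Q (n + 1) :=
        sSup_le fun B hB => le_sSup ⟨(le_sSup hB).trans (hQ (n + 1)).2, upper_anti ih.2 hB⟩
      exact ⟨h, sSup_le fun B hB => le_sSup (lower_anti h hB.2)⟩
  exact ⟨le_antisymm (iSup_le fun n => (h2 n).2.trans (le_iSup (Cfsg.kSeqEven P) (n + 1)))
      (iSup_le fun n => (h1 n).2.trans (le_iSup (KInf.seqEven Q) n)),
    le_antisymm (le_iInf fun n => (iInf_le (KInf.seqOdd Q) n).trans (h1 n).1)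
      (le_iInf fun n => (iInf_le (Cfsg.kSeqOdd P) (n + 1)).trans (h2 n).1)⟩

end CfsgLib.Local.KInfSeq
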