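import Cfsg.Agent.Lib.LocalConstrained
import Mathlib.GroupTheory.Nilpotent

/-!
# The `p`-length and the class of a Sylow subgroup
-/

set_option autoImplicit false

universe u

namespace CfsgLib.PLength

open Subgroup

variable {G : Type u} [Group G] [Finite G] {p : ℕ} [hp : Fact p.Prime]

theorem series_odd_le (k : ℕ) :
    (Cfsg.upperPSeries p G (2 * k)).1 ≤ (Cfsg.upperPSeries p G (2 * k + 1)).1 := by
  intro x hx
  rw [Cfsg.upperPSeries, if_pos (even_two_mul k)]
  show QuotientGroup.mk' _ x ∈ Cfsg.pPrimeCore p (G ⧸ (Cfsg.upperPSeries p G (2 * k)).1)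
  rw [QuotientGroup.mk'_apply, (QuotientGroup.eq_one_iff x).mpr hx]
  exact one_mem _

theorem mem_series (hsol : Cfsg.IsPSolvable p G) (S : Sylow p G) :
    ∀ (k : ℕ) (z : (S : Subgroup G)), z ∈ Subgroup.upperCentralSeries (S : Subgroup G) k →
      (z : G) ∈ (Cfsg.upperPSeries p G (2 * k)).1
  | 0, z, hz => by
    rw [Subgroup.upperCentralSeries_zero, mem_bot] at hz
    rw [hz]; exact one_mem _
  | k + 1, z, hz => by
    rw [Subgroup.mem_upperCentralSeries_succ_iff] at hz
    set U := (Cfsg.upperPSeries p G (2 * k + 1)).1 with hU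
    set π := QuotientGroup.mk' U with hπ
    have hV : (Cfsg.upperPSeries p G (2 * (k + 1))).1 =
        (Cfsg.pCore p (G ⧸ U)).comap π := by
      rw [show 2 * (k + 1) = 2 * k + 1 + 1 by ring, Cfsg.upperPSeries,
        if_neg (by rw [Nat.even_add_one]; simp)]
    have hfac := CfsgLib.Constrained.upperPSeries_factor (p := p) hsol k
    rw [show 2 * k + 2 = 2 * (k + 1) by ring, hV,
      map_comap_eq_self_of_surjective (QuotientGroup.mk'_surjective U)] at hfac
    rw [hV]
    refine hfac (mem_centralizer_iff.mpr fun q hq => ?_)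
    obtain ⟨s, hs, rfl⟩ : q ∈ (S : Subgroup G).map π := by
      rw [← Sylow.coe_mapSurjective (QuotientGroup.mk'_surjective U) S]
      exact CfsgLib.Core.pCore_le_sylow _ hq
    have h1 := series_odd_le k (mem_series hsol S k _ (hz ⟨s, hs⟩))
    have h2 : π ((z : G) * s * (z : G)⁻¹ * s⁻¹) = 1 := (QuotientGroup.eq_one_iff _).mpr h1
    rw [map_mul, map_mul, map_mul, map_inv, map_inv, mul_inv_eq_one, mul_inv_eq_iff_eq_mul] at h2
    exact h2.symm

theorem pLengthLE_class (hsol : Cfsg.IsPSolvable p G) (S : Sylow p G) :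
    Cfsg.PLengthLE p (Group.nilpotencyClass ↥(S : Subgroup G)) G := by
  haveI := S.2.isNilpotent
  set c := Group.nilpotencyClass ↥(S : Subgroup G) with hc
  set U := (Cfsg.upperPSeries p G (2 * c)).1 with hU
  have hS : (S : Subgroup G) ≤ U := fun x hx => mem_series hsol S c ⟨x, hx⟩ (by
    rw [hc, Subgroup.upperCentralSeries_nilpotencyClass]; exact mem_top _)
  show (Cfsg.upperPSeries p G (2 * c + 1)).1 = ⊤
  rw [Cfsg.upperPSeries, if_pos (even_two_mul c)]
  have h1 : (Nat.card (G ⧸ U)).Coprime p := by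
    rw [← index_eq_card]
    exact ((hp.out.coprime_iff_not_dvd.mpr fun h => S.not_dvd_index (h.trans (index_dvd_of_le hS)))).symm
  have h2 : (⊤ : Subgroup (G ⧸ U)) ≤ Cfsg.pPrimeCore p (G ⧸ U) :=
    CfsgLib.Core.le_pPrimeCore inferInstance (by rwa [Subgroup.card_top])
  exact eq_top_iff.mpr fun x _ => h2 (mem_top _)

end CfsgLib.PLength
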