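import Cfsg.Agent.Lib.StableComplement
import Cfsg.Agent.Lib.CoreCoprime

/-!
# `p`-stability modulo the `p'`-core
-/

set_option autoImplicit false

universe u

namespace CfsgLib.PStableQuot

open Subgroup

variable {G : Type u} [Group G] [Finite G] {p : ℕ} [hp : Fact p.Prime]

/-- The automizer of a `p`-subgroup does not change modulo a normal `p'`-subgroup. -/
theorem exists_automizer_equiv {G' : Type u} [Group G'] (f : G →* G') (hf : Function.Surjective f)
    (hker : (Nat.card f.ker).Coprime p) {P : Subgroup G} (hP : IsPGroup p P) :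
    ∃ e : (↥(normalizer (P : Set G)) ⧸ (centralizer (P : Set G)).subgroupOf (normalizer (P : Set G))) ≃*
        (↥(normalizer ((P.map f : Subgroup G') : Set G')) ⧸
          (centralizer ((P.map f : Subgroup G') : Set G')).subgroupOf
            (normalizer ((P.map f : Subgroup G') : Set G'))),
      ∀ (a : G) (ha : a ∈ normalizer (P : Set G))
        (ha' : f a ∈ normalizer ((P.map f : Subgroup G') : Set G')),
        e (QuotientGroup.mk ⟨a, ha⟩) = QuotientGroup.mk ⟨f a, ha'⟩ := by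
  set N := normalizer (P : Set G) with hN
  set N' := normalizer ((P.map f : Subgroup G') : Set G') with hN'
  let ι : ↥N →* ↥N' := (f.comp N.subtype).codRestrict N'
    (fun x => le_normalizer_map f ⟨x, x.2, rfl⟩)
  set g := (QuotientGroup.mk' ((centralizer ((P.map f : Subgroup G') : Set G')).subgroupOf N')).comp ι
    with hg
  have hgs : Function.Surjective g := by
    intro q
    obtain ⟨⟨y, hy⟩, rfl⟩ := QuotientGroup.mk'_surjective _ q
    have hy' : y ∈ N.map f := by
      rw [hN, ← CfsgLib.Stable.normalizer_map_eq f hf hker hP]; exact hy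
    obtain ⟨x, hx, rfl⟩ := hy'
    exact ⟨⟨x, hx⟩, rfl⟩
  have hgk : g.ker = (centralizer (P : Set G)).subgroupOf N := by
    ext ⟨x, hx⟩
    rw [MonoidHom.mem_ker, mem_subgroupOf]
    constructor
    · intro h
      have h1 : f x ∈ centralizer ((P.map f : Subgroup G') : Set G') := mem_subgroupOf.mp ((QuotientGroup.eq_one_iff (ι ⟨x, hx⟩)).mp h)
      refine mem_centralizer_iff.mpr fun z hz => ?_
      have h2 : x * z * x⁻¹ = z := CfsgLib.Stable.injOn_of_coprime_ker f hker hP
        ((mem_normalizer_iff.mp hx z).mp hz) hz (by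
          rw [map_mul, map_mul, map_inv, ← mem_centralizer_iff.mp h1 (f z) ⟨z, hz, rfl⟩,
            mul_inv_cancel_right])
      exact (mul_inv_eq_iff_eq_mul.mp h2).symm
    · intro h
      refine (QuotientGroup.eq_one_iff _).mpr (mem_centralizer_iff.mpr ?_)
      rintro _ ⟨z, hz, rfl⟩
      show f z * f x = f x * f z
      rw [← map_mul, ← map_mul, mem_centralizer_iff.mp h z hz]
  refine ⟨(QuotientGroup.quotientMulEquivOfEq hgk.symm).trans
    (QuotientGroup.quotientKerEquivOfSurjective g hgs), fun a ha ha' => rfl⟩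

theorem exists_lift {G' : Type u} [Group G'] (f : G →* G') (hf : Function.Surjective f)
    (N : Subgroup G) {A' : Subgroup G'} (hA : IsPGroup p A') (hle : A' ≤ N.map f) :
    ∃ A : Subgroup G, IsPGroup p A ∧ A ≤ N ∧ A.map f = A' := by
  set M := A'.comap f ⊓ N with hM
  have hMA : M.map f = A' := by
    refine le_antisymm ((map_mono inf_le_left).trans (map_comap_le f A')) fun y hy => ?_
    obtain ⟨x, hx, rfl⟩ := hle hy
    exact ⟨x, mem_inf.mpr ⟨hy, hx⟩, rfl⟩
  obtain ⟨S⟩ := (inferInstance : Nonempty (Sylow p M))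
  refine ⟨(S : Subgroup M).map M.subtype, S.2.map _, (map_subtype_le _).trans inf_le_right, ?_⟩
  have hT := S.mapSurjective (f.subgroupMap_surjective M)
  have htop : ((S.mapSurjective (f.subgroupMap_surjective M) : Sylow p (M.map f)) : Subgroup (M.map f)) = ⊤ := by
    have hp' : IsPGroup p ↥(M.map f) := hMA ▸ hA
    exact ((S.mapSurjective (f.subgroupMap_surjective M)).3 (hp'.to_subgroup ⊤) le_top).symm
  rw [Sylow.coe_mapSurjective] at htop
  rw [Subgroup.map_map]
  refine le_antisymm ?_ fun y hy => ?_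
  · rintro _ ⟨⟨x, hx⟩, -, rfl⟩
    exact (mem_inf.mp hx).1
  · obtain ⟨z, hz, hze⟩ := htop.ge (mem_top (⟨y, hMA.ge hy⟩ : ↥(M.map f)))
    exact ⟨z, hz, congrArg Subtype.val hze⟩

theorem stable_quotient_iff [(Cfsg.pPrimeCore p G).Normal] (hO : Cfsg.pCore p G ≠ ⊥) :
    Cfsg.IsPStable p G ↔ Cfsg.IsPStable p (G ⧸ Cfsg.pPrimeCore p G) := by
  haveI := CfsgLib.Core.normal_pPrimeCore (G := G ⧸ Cfsg.pPrimeCore p G) p
  set O := Cfsg.pPrimeCore p G with hOdef
  set f := QuotientGroup.mk' O with hf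
  have hfs : Function.Surjective f := QuotientGroup.mk'_surjective O
  have hker : (Nat.card f.ker).Coprime p := by
    rw [hf, QuotientGroup.ker_mk']; exact CfsgLib.Core.coprime_card_pPrimeCore p
  have hbot : Cfsg.pPrimeCore p (G ⧸ O) = ⊥ := CfsgLib.Core.pPrimeCore_quotient_pPrimeCore p
  have hPP : Cfsg.pPrimePCore p (G ⧸ O) = Cfsg.pCore p (G ⧸ O) := by
    set e := (QuotientGroup.quotientMulEquivOfEq hbot).trans QuotientGroup.quotientBot with he
    show (Cfsg.pCore p ((G ⧸ O) ⧸ Cfsg.pPrimeCore p (G ⧸ O))).comap (QuotientGroup.mk' _) = _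
    rw [← CfsgLib.Core.map_pCore_of_mulEquiv p e.symm]
    ext x
    rw [mem_comap, mem_map]
    constructor
    · rintro ⟨y, hy, hye⟩
      have : y = x := e.symm.injective (hye.trans rfl)
      rwa [← this]
    · exact fun hx => ⟨x, hx, rfl⟩
  have hOne : Cfsg.pCore p (G ⧸ O) ≠ ⊥ := by
    intro h
    refine hO (le_bot_iff.mp fun x hx => ?_)
    haveI := CfsgLib.Core.normal_pCore (G := G) p
    have h1 : f x ∈ Cfsg.pCore p (G ⧸ O) := CfsgLib.Core.map_pCore_le_of_surjective p f hfs ⟨x, hx, rfl⟩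
    rw [h, mem_bot] at h1
    exact CfsgLib.Stable.injOn_of_coprime_ker f hker (CfsgLib.Core.isPGroup_pCore p) hx (one_mem _)
      (h1.trans (map_one f).symm)
  constructor
  · rintro ⟨hodd, -, h⟩
    refine ⟨hodd, hOne, fun A' P' hA' hP' hnorm hPle hn hq => ?_⟩
    rw [hbot, bot_sup_eq] at hn
    obtain ⟨P, hP, -, rfl⟩ := exists_lift f hfs ⊤ hP'
      (by rw [Subgroup.map_top_of_surjective f hfs]; exact le_top)
    obtain ⟨A, hA, hAN, rfl⟩ := exists_lift f hfs (normalizer (P : Set G)) hA'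
      (by rw [← CfsgLib.Stable.normalizer_map_eq f hfs hker hP, normalizer_eq_top]; exact le_top)
    have hq' : ⁅⁅P, A⁆, A⁆ = ⊥ := by
      have hle : ∀ X ≤ P, ⁅X, A⁆ ≤ P := fun X hX => Subgroup.commutator_le.mpr fun x hx a ha => by
        rw [commutatorElement_def, show x * a * x⁻¹ * a⁻¹ = x * (a * x⁻¹ * a⁻¹) by group]
        exact mul_mem (hX hx) ((mem_normalizer_iff.mp (hAN ha) _).mp (inv_mem (hX hx)))
      rw [eq_bot_iff]
      intro x hx
      refine CfsgLib.Stable.injOn_of_coprime_ker f hker hP (hle _ (hle P le_rfl) hx) (one_mem _) ?_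
      rw [map_one, ← mem_bot, ← hq, ← map_commutator, ← map_commutator]
      exact ⟨x, hx, rfl⟩
    have hPP' : P ≤ Cfsg.pPrimePCore p G := fun x hx => by
      have := hPle ⟨x, hx, rfl⟩
      rw [hPP] at this
      exact this
    have hOP : (O ⊔ P).Normal := by
      have : O ⊔ P = (P.map f).comap f := by
        rw [comap_map_eq, hf, QuotientGroup.ker_mk', sup_comm]
      rw [this]; exact hn.comap f
    have h1 := h A P hA hP (fun a ha x hx => (mem_normalizer_iff.mp (hAN ha) x).mp hx) hPP' hOP hq'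
    obtain ⟨e, he⟩ := exists_automizer_equiv f hfs hker hP
    rintro _ ⟨⟨_, hy⟩, ⟨a, ha, rfl⟩, rfl⟩
    rw [QuotientGroup.mk'_apply, ← he a (hAN ha) hy, ← CfsgLib.Core.map_pCore_of_mulEquiv p e]
    exact ⟨_, h1 ⟨⟨a, hAN ha⟩, ha, rfl⟩, rfl⟩
  · rintro ⟨hodd, -, h⟩
    refine ⟨hodd, hO, fun A P hA hP hnorm hPle hn hq => ?_⟩
    have hn' : (Cfsg.pPrimeCore p (G ⧸ O) ⊔ P.map f).Normal := by
      rw [hbot, bot_sup_eq]
      have := hn.map f hfs
      rwa [Subgroup.map_sup, show (O.map f : Subgroup (G ⧸ O)) = ⊥ from QuotientGroup.map_mk'_self O,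
        bot_sup_eq] at this
    have h1 := h (A.map f) (P.map f) (hA.map f) (hP.map f)
      (by
        rintro _ ⟨a, ha, rfl⟩ _ ⟨x, hx, rfl⟩
        exact ⟨_, hnorm a ha x hx, by simp⟩)
      (by
        rw [hPP]
        rintro _ ⟨x, hx, rfl⟩
        exact hPle hx) hn' (by rw [← map_commutator, ← map_commutator, hq, Subgroup.map_bot])
    obtain ⟨e, he⟩ := exists_automizer_equiv f hfs hker hP
    rintro _ ⟨⟨a, haN⟩, ha, rfl⟩
    have hfa : f a ∈ normalizer ((P.map f : Subgroup (G ⧸ O)) : Set (G ⧸ O)) :=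
      le_normalizer_map f ⟨a, haN, rfl⟩
    have h2 := h1 ⟨⟨f a, hfa⟩, ⟨a, ha, rfl⟩, rfl⟩
    rw [QuotientGroup.mk'_apply, ← he a haN hfa, ← CfsgLib.Core.map_pCore_of_mulEquiv p e] at h2
    obtain ⟨y, hy, hye⟩ := h2
    rwa [QuotientGroup.mk'_apply, ← e.injective hye]

end CfsgLib.PStableQuot
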