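import Cfsg.Agent.Lib.LocalThompsonBasic

/-!
# Thompson's and Timmesfeld's replacement
-/

set_option autoImplicit false

universe u

namespace CfsgLib.LocalThompson

open Subgroup
open scoped commutatorElement

set_option linter.unusedSectionVars false

variable {G : Type u} [Group G] [Finite G] {p : ℕ} [hp : Fact p.Prime]

/-- The commutators of elements of `A` with elements of `S`. -/
def commSet (A : Subgroup G) (S : Set G) : Set G := {g | ∃ a ∈ A, ∃ u ∈ S, ⁅a, u⁆ = g}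

theorem commSet_subset {V A : Subgroup G} (hAV : A ≤ normalizer (V : Set G)) {S : Set G}
    (hS : S ⊆ V) : commSet A S ⊆ V := by
  rintro _ ⟨a, ha, u, hu, rfl⟩
  rw [commutatorElement_def]
  exact mul_mem ((mem_normalizer_iff.mp (hAV ha) u).mp (hS hu)) (inv_mem (hS hu))

theorem single_step (V A : Subgroup G) (hVab : IsMulCommutative V) (hAV : A ≤ normalizer (V : Set G))
    (hab : ⁅A, A⁆ ≤ centralizer (V : Set G)) {u : G} (hu : u ∈ V) :
    Nat.card A * Nat.card ↥(V ⊓ centralizer (A : Set G)) ≤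
      Nat.card ↥(A ⊓ centralizer (commSet A {u})) *
        Nat.card ↥(closure (commSet A {u}) ⊔ (V ⊓ centralizer (A : Set G))) := by
  set CA := V ⊓ centralizer (A : Set G) with hCA
  set B := A ⊓ centralizer (commSet A {u}) with hB
  set X := closure (commSet A {u}) ⊔ CA with hX
  have hcV : ∀ a ∈ A, ⁅a, u⁆ ∈ V := fun a ha =>
    commSet_subset hAV (Set.singleton_subset_iff.mpr hu) ⟨a, ha, u, rfl, rfl⟩
  have hfix : ∀ a ∈ A, ∀ d ∈ CA, a * d * a⁻¹ = d := fun a ha d hd => by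
    rw [mem_centralizer_iff.mp (mem_inf.mp hd).2 a ha, mul_inv_cancel_right]
  have hkey : ∀ c ∈ A, ⁅c, u⁆ ∈ CA → c ∈ B := by
    intro c hc hd
    refine mem_inf.mpr ⟨hc, mem_centralizer_iff.mpr ?_⟩
    rintro _ ⟨x, hx, w, hw, rfl⟩
    rw [Set.mem_singleton_iff] at hw
    subst w
    set d := ⁅c, u⁆ with hdd
    set e := ⁅x, u⁆ with hee
    have h1 : c * u * c⁻¹ = d * u := by rw [hdd, commutatorElement_def, inv_mul_cancel_right]
    have h2 : x * u * x⁻¹ = e * u := by rw [hee, commutatorElement_def, inv_mul_cancel_right]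
    have h3 : c * x * u * (c * x)⁻¹ = x * c * u * (x * c)⁻¹ := by
      have hz := mem_centralizer_iff.mp (hab (commutator_mem_commutator (inv_mem hx) (inv_mem hc))) u hu
      rw [commutatorElement_def, inv_inv, inv_inv] at hz
      calc c * x * u * (c * x)⁻¹ = c * x * (u * (x⁻¹ * c⁻¹ * x * c)) * (x * c)⁻¹ := by group
        _ = c * x * ((x⁻¹ * c⁻¹ * x * c) * u) * (x * c)⁻¹ := by rw [hz]
        _ = _ := by group
    have h4 : (c * e * c⁻¹) * (d * u) = d * (e * u) := by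
      calc (c * e * c⁻¹) * (d * u) = c * (x * u * x⁻¹) * c⁻¹ := by
            rw [← h1, h2]; group
        _ = c * x * u * (c * x)⁻¹ := by group
        _ = x * c * u * (x * c)⁻¹ := h3
        _ = x * (c * u * c⁻¹) * x⁻¹ := by group
        _ = x * (d * u) * x⁻¹ := by rw [h1]
        _ = (x * d * x⁻¹) * (x * u * x⁻¹) := by group
        _ = _ := by rw [hfix x hx d hd, h2]
    have hcomm : d * (e * u) = e * (d * u) := by
      rw [← mul_assoc, ← mul_assoc]
      congr 1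
      exact congrArg Subtype.val (hVab.is_comm.comm (⟨d, (mem_inf.mp hd).1⟩ : V) ⟨e, hcV x hx⟩)
    rw [hcomm, mul_left_inj, mul_inv_eq_iff_eq_mul] at h4
    exact h4.symm
  -- cosets
  let f : ↥A ⧸ B.subgroupOf A → ↥X ⧸ CA.subgroupOf X := fun q =>
    QuotientGroup.mk ⟨⁅(q.out : G), u⁆,
      mem_sup_left (subset_closure ⟨q.out, q.out.2, u, rfl, rfl⟩)⟩
  have hf : Function.Injective f := by
    intro q r h
    have h1 : ⁅(q.out : G), u⁆⁻¹ * ⁅(r.out : G), u⁆ ∈ CA := mem_subgroupOf.mp (QuotientGroup.eq.mp h)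
    rw [← QuotientGroup.out_eq' q, ← QuotientGroup.out_eq' r, QuotientGroup.eq, mem_subgroupOf]
    set a := (q.out : G)
    set b := (r.out : G)
    refine hkey _ (mul_mem (inv_mem q.out.2) r.out.2) ?_
    show ⁅a⁻¹ * b, u⁆ ∈ CA
    have e1 : ⁅a, u⁆⁻¹ * ⁅b, u⁆ = a * ⁅a⁻¹ * b, u⁆ * a⁻¹ := by
      have hc : Commute ⁅a, u⁆⁻¹ ⁅b, u⁆ := congrArg Subtype.val (hVab.is_comm.comm
        (⟨_, inv_mem (hcV a q.out.2)⟩ : V) ⟨_, hcV b r.out.2⟩)
      rw [hc.eq]
      simp only [commutatorElement_def]; group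
    rw [e1] at h1
    have h2 := hfix a⁻¹ (inv_mem q.out.2) _ h1
    rw [show a⁻¹ * (a * ⁅a⁻¹ * b, u⁆ * a⁻¹) * a⁻¹⁻¹ = ⁅a⁻¹ * b, u⁆ by group] at h2
    rw [h2]; exact h1
  have h := Nat.card_le_card_of_injective f hf
  rw [← index_eq_card, ← index_eq_card] at h
  rw [← CfsgLib.Core.card_mul_relIndex (inf_le_left : B ≤ A),
    ← CfsgLib.Core.card_mul_relIndex (le_sup_right : CA ≤ X), mul_assoc]
  refine Nat.mul_le_mul_left _ ?_
  rw [mul_comm]
  exact Nat.mul_le_mul_left _ h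

theorem replacement_eq (V A : Subgroup G) (hVab : IsMulCommutative V)
    (hAV : A ≤ normalizer (V : Set G)) (hab : ⁅A, A⁆ ≤ centralizer (V : Set G))
    (hbest : ∀ B : Subgroup G, B ≤ A → Nat.card B * Nat.card ↥(V ⊓ centralizer (B : Set G)) ≤
      Nat.card A * Nat.card ↥(V ⊓ centralizer (A : Set G)))
    (S : Finset G) (hS : (S : Set G) ⊆ V) :
    V ⊓ centralizer ((A ⊓ centralizer (commSet A S) : Subgroup G) : Set G) =
        closure (commSet A S) ⊔ (V ⊓ centralizer (A : Set G)) ∧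
      Nat.card A * Nat.card ↥(V ⊓ centralizer (A : Set G)) =
        Nat.card ↥(A ⊓ centralizer (commSet A S)) *
          Nat.card ↥(V ⊓ centralizer ((A ⊓ centralizer (commSet A S) : Subgroup G) : Set G)) := by
  classical
  set P := Nat.card A * Nat.card ↥(V ⊓ centralizer (A : Set G)) with hP
  have hle : ∀ T : Set G, T ⊆ V → closure (commSet A T) ⊔ (V ⊓ centralizer (A : Set G)) ≤
      V ⊓ centralizer ((A ⊓ centralizer (commSet A T) : Subgroup G) : Set G) := by
    intro T hT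
    refine sup_le ((closure_le _).mpr fun g hg => mem_inf.mpr ⟨commSet_subset hAV hT hg, ?_⟩)
      (inf_le_inf_left _ (centralizer_le inf_le_left))
    exact mem_centralizer_iff.mpr fun b hb => (mem_centralizer_iff.mp (mem_inf.mp hb).2 g hg).symm
  have hfinish : ∀ T : Set G, T ⊆ V → P ≤ Nat.card ↥(A ⊓ centralizer (commSet A T)) *
      Nat.card ↥(closure (commSet A T) ⊔ (V ⊓ centralizer (A : Set G))) →
      V ⊓ centralizer ((A ⊓ centralizer (commSet A T) : Subgroup G) : Set G) =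
          closure (commSet A T) ⊔ (V ⊓ centralizer (A : Set G)) ∧
        P = Nat.card ↥(A ⊓ centralizer (commSet A T)) *
          Nat.card ↥(V ⊓ centralizer ((A ⊓ centralizer (commSet A T) : Subgroup G) : Set G)) := by
    intro T hT h
    have h1 := hbest _ (inf_le_left : A ⊓ centralizer (commSet A T) ≤ A)
    have h2 := card_le_of_le (hle T hT)
    have h3 := le_of_mul_le_mul_left (h1.trans h) Nat.card_pos
    refine ⟨(CfsgLib.Core.eq_of_le_of_card_le (hle T hT) h3).symm,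
      le_antisymm (h.trans (Nat.mul_le_mul_left _ h2)) h1⟩
  induction S using Finset.induction_on with
  | empty =>
    refine hfinish _ hS ?_
    have e : commSet A ((∅ : Finset G) : Set G) = ∅ := by
      ext g; simp [commSet]
    rw [e, Subgroup.closure_empty, bot_sup_eq]
    have e2 : A ⊓ centralizer (∅ : Set G) = A := inf_eq_left.mpr fun a _ =>
      mem_centralizer_iff.mpr fun g hg => absurd hg (Set.notMem_empty g)
    rw [e2]
  | insert u S _ ih =>
    rw [Finset.coe_insert] at hS ⊢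
    obtain ⟨huV, hSV⟩ := Set.insert_subset_iff.mp hS
    refine hfinish _ hS ?_
    have e : commSet A (insert u (S : Set G)) = commSet A {u} ∪ commSet A S := by
      ext g
      constructor
      · rintro ⟨a, ha, w, hw | hw, h⟩
        · exact Or.inl ⟨a, ha, w, hw, h⟩
        · exact Or.inr ⟨a, ha, w, hw, h⟩
      · rintro (⟨a, ha, w, hw, h⟩ | ⟨a, ha, w, hw, h⟩)
        · exact ⟨a, ha, w, Or.inl hw, h⟩
        · exact ⟨a, ha, w, Or.inr hw, h⟩
    obtain ⟨hC1, hP1⟩ := hfinish {u} (Set.singleton_subset_iff.mpr huV) (single_step V A hVab hAV hab huV)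
    obtain ⟨hC2, hP2⟩ := ih hSV
    set A₁ := A ⊓ centralizer (commSet A {u}) with hA₁
    set A₂ := A ⊓ centralizer (commSet A S) with hA₂
    set X₁ := V ⊓ centralizer (A₁ : Set G) with hX₁
    set X₂ := V ⊓ centralizer (A₂ : Set G) with hX₂
    have eA : A ⊓ centralizer (commSet A {u} ∪ commSet A S) = A₁ ⊓ A₂ := by
      ext g
      simp only [hA₁, hA₂, mem_inf, mem_centralizer_iff, Set.mem_union]
      exact ⟨fun h => ⟨⟨h.1, fun w hw => h.2 w (Or.inl hw)⟩, h.1, fun w hw => h.2 w (Or.inr hw)⟩,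
        fun h => ⟨h.1.1, fun w hw => hw.elim (h.1.2 w) (h.2.2 w)⟩⟩
    have eX : closure (commSet A {u} ∪ commSet A S) ⊔ (V ⊓ centralizer (A : Set G)) = X₁ ⊔ X₂ := by
      rw [hC1, hC2, Subgroup.closure_union, sup_sup_sup_comm, sup_idem]
    rw [e, eA, eX]
    -- the product sets
    let J : Subgroup G := A₁ ⊔ A₂
    have hJ : J ≤ A := sup_le inf_le_left inf_le_left
    have hJC : V ⊓ centralizer (J : Set G) = X₁ ⊓ X₂ := by
      refine le_antisymm (le_inf (inf_le_inf_left _ (centralizer_le (SetLike.coe_subset_coe.mpr le_sup_left)))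
        (inf_le_inf_left _ (centralizer_le (SetLike.coe_subset_coe.mpr le_sup_right)))) fun g hg => ?_
      obtain ⟨h1, h2⟩ := mem_inf.mp hg
      refine mem_inf.mpr ⟨(mem_inf.mp h1).1, mem_centralizer_iff.mpr fun j hj => ?_⟩
      have hle' : J ≤ centralizer ({g} : Set G) := sup_le
        (fun a ha => mem_centralizer_singleton_iff.mpr (mem_centralizer_iff.mp (mem_inf.mp h1).2 a ha))
        (fun a ha => mem_centralizer_singleton_iff.mpr (mem_centralizer_iff.mp (mem_inf.mp h2).2 a ha))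
      exact mem_centralizer_singleton_iff.mp (hle' hj)
    -- `|A₁| |A₂| ≤ |A₁ ⊓ A₂| |A₁ ⊔ A₂|`
    have hAA : Nat.card A₁ * Nat.card A₂ ≤ Nat.card ↥(A₁ ⊓ A₂) * Nat.card J := by
      rw [← CfsgLib.Core.card_mul_relIndex (le_sup_left : A₁ ≤ J),
        ← CfsgLib.Core.card_inf_mul_relIndex A₁ A₂]
      have := relIndex_le_of_le_right (H := A₁) (le_sup_right : A₂ ≤ J) FiniteIndex.index_ne_zero
      calc Nat.card A₁ * (Nat.card ↥(A₁ ⊓ A₂) * A₁.relIndex A₂)
          = Nat.card ↥(A₁ ⊓ A₂) * (Nat.card A₁ * A₁.relIndex A₂) := by ring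
        _ ≤ _ := Nat.mul_le_mul_left _ (Nat.mul_le_mul_left _ this)
    have hX12 : Nat.card ↥(X₁ ⊔ X₂) * Nat.card ↥(X₁ ⊓ X₂) = Nat.card X₁ * Nat.card X₂ :=
      CfsgLib.Core.card_sup_mul_card_inf fun g hg => centralizer_le_normalizer _
        (mem_centralizer_iff.mpr fun h hh => congrArg Subtype.val
          (hVab.is_comm.comm (⟨h, (mem_inf.mp hh).1⟩ : V) ⟨g, (mem_inf.mp hg).1⟩))
    have hbJ := hbest J hJ
    rw [hJC] at hbJ
    have hpos : 0 < Nat.card J * Nat.card ↥(X₁ ⊓ X₂) := Nat.mul_pos Nat.card_pos Nat.card_pos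
    refine le_of_mul_le_mul_right ?_ hpos
    calc P * (Nat.card J * Nat.card ↥(X₁ ⊓ X₂)) ≤ P * P := Nat.mul_le_mul_left _ hbJ
      _ = (Nat.card A₁ * Nat.card A₂) * (Nat.card X₁ * Nat.card X₂) := by
          conv_lhs => rw [hP1]; arg 2; rw [← hP1, hP2]
          ring
      _ ≤ (Nat.card ↥(A₁ ⊓ A₂) * Nat.card J) * (Nat.card ↥(X₁ ⊔ X₂) * Nat.card ↥(X₁ ⊓ X₂)) := by
          rw [hX12]; exact Nat.mul_le_mul_right _ hAA
      _ = _ := by ring

theorem replacement (V A : Subgroup G) (hVab : IsMulCommutative V)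
    (hAV : A ≤ normalizer (V : Set G)) (hab : ⁅A, A⁆ ≤ centralizer (V : Set G))
    (hbest : ∀ B : Subgroup G, B ≤ A → Nat.card B * Nat.card ↥(V ⊓ centralizer (B : Set G)) ≤
      Nat.card A * Nat.card ↥(V ⊓ centralizer (A : Set G)))
    (U : Subgroup G) (hU : U ≤ V) :
    V ⊓ centralizer ((A ⊓ centralizer ((⁅U, A⁆ : Subgroup G) : Set G) : Subgroup G) : Set G) =
        ⁅U, A⁆ ⊔ (V ⊓ centralizer (A : Set G)) ∧
      Nat.card A * Nat.card ↥(V ⊓ centralizer (A : Set G)) =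
        Nat.card ↥(A ⊓ centralizer ((⁅U, A⁆ : Subgroup G) : Set G)) *
          Nat.card ↥(V ⊓ centralizer ((A ⊓ centralizer ((⁅U, A⁆ : Subgroup G) : Set G) : Subgroup G) : Set G)) := by
  have h := replacement_eq V A hVab hAV hab hbest (Set.toFinite (U : Set G)).toFinset
    (by rw [Set.Finite.coe_toFinset]; exact hU)
  rw [Set.Finite.coe_toFinset] at h
  have e : ⁅U, A⁆ = closure (commSet A (U : Set G)) := by
    rw [commutator_comm]; rfl
  rw [e, centralizer_closure]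
  exact h

theorem timmesfeld (V A : Subgroup G) (hV : Cfsg.IsElementaryAbelian p V)
    (hAV : A ≤ normalizer (V : Set G)) (hA : Cfsg.IsBestOffenderOn p V A) (U : Subgroup G)
    (hU : U ≤ V) :
    Cfsg.IsBestOffenderOn p V (A ⊓ centralizer ((⁅U, A⁆ : Subgroup G) : Set G)) ∧
      V ⊓ centralizer ((A ⊓ centralizer ((⁅U, A⁆ : Subgroup G) : Set G) : Subgroup G) : Set G) =
        ⁅U, A⁆ ⊔ (V ⊓ centralizer (A : Set G)) ∧
      (⁅V, A⁆ ≠ ⊥ → ⁅V, A ⊓ centralizer ((⁅U, A⁆ : Subgroup G) : Set G)⁆ ≠ ⊥) := by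
  obtain ⟨hC, hP⟩ := replacement V A hV.1 hAV hA.2.1 hA.1 U hU
  set B := A ⊓ centralizer ((⁅U, A⁆ : Subgroup G) : Set G) with hB
  refine ⟨⟨fun D hD => ?_, (commutator_mono inf_le_left inf_le_left).trans hA.2.1,
    fun a ha => hA.2.2 a (mem_inf.mp ha).1⟩, hC, fun hne hBV => hne ?_⟩
  · rw [← hP]; exact hA.1 D (hD.trans inf_le_left)
  -- `B` centralizes `V`, so `V = ⁅U, A⁆ C_V(A)`
  have hVC : V ⊓ centralizer (B : Set G) = V := inf_eq_left.mpr (commutator_eq_bot_iff_le_centralizer.mp hBV)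
  rw [hVC] at hC
  -- a Sylow subgroup of `A` induces all of `A`
  obtain ⟨P'⟩ : Nonempty (Sylow p A) := inferInstance
  set P := (P' : Subgroup A).map A.subtype with hPd
  have hPA : P ≤ A := map_subtype_le _
  have hcover : ∀ a ∈ A, ∃ b ∈ P, b⁻¹ * a ∈ centralizer (V : Set G) := by
    intro a ha
    set C' := (centralizer (V : Set G)).subgroupOf A
    haveI : C'.Normal := normal_subgroupOf_of_le_normalizer fun g hg => by
      refine mem_normalizer_iff_map_conj_eq.mpr (CfsgLib.Core.eq_of_le_of_card_le ?_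
        (card_map_of_injective (f := (MulAut.conj g).toMonoidHom) (MulAut.conj g).injective).ge)
      rintro _ ⟨c, hc, rfl⟩
      refine mem_centralizer_iff.mpr fun v hv => ?_
      have hv' : g⁻¹ * v * g ∈ V := by
        have := (mem_normalizer_iff.mp (inv_mem (hAV hg)) v).mp hv
        rwa [inv_inv] at this
      show v * (g * c * g⁻¹) = g * c * g⁻¹ * v
      calc v * (g * c * g⁻¹) = g * ((g⁻¹ * v * g) * c) * g⁻¹ := by group
        _ = g * (c * (g⁻¹ * v * g)) * g⁻¹ := by rw [mem_centralizer_iff.mp hc _ hv']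
        _ = _ := by group
    have hq : IsPGroup p (A ⧸ C') := by
      rintro ⟨x⟩
      refine ⟨1, (QuotientGroup.eq_one_iff (x ^ p ^ 1)).mpr ?_⟩
      rw [mem_subgroupOf, pow_one]; exact hA.2.2 x x.2
    have htop : (P'.mapSurjective (QuotientGroup.mk'_surjective C') : Subgroup (A ⧸ C')) = ⊤ :=
      ((P'.mapSurjective (QuotientGroup.mk'_surjective C')).3 (Q := ⊤)
        (hq.to_subgroup ⊤) le_top).symm
    obtain ⟨b, hb, he⟩ : QuotientGroup.mk' C' ⟨a, ha⟩ ∈
        (P'.mapSurjective (QuotientGroup.mk'_surjective C') : Subgroup (A ⧸ C')) := htop ▸ mem_top _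
    exact ⟨b, ⟨b, hb, rfl⟩, (QuotientGroup.eq (s := C')).mp he⟩
  have hcomm : ⁅V, A⁆ ≤ ⁅V, P⁆ := Subgroup.commutator_le.mpr fun v hv a ha => by
    obtain ⟨b, hb, hc⟩ := hcover a ha
    have hz := mem_centralizer_iff.mp hc v⁻¹ (inv_mem hv)
    rw [show ⁅v, a⁆ = ⁅v, b⁆ by
      simp only [commutatorElement_def]
      calc v * a * v⁻¹ * a⁻¹ = v * b * ((b⁻¹ * a) * v⁻¹) * a⁻¹ := by group
        _ = v * b * (v⁻¹ * (b⁻¹ * a)) * a⁻¹ := by rw [hz]
        _ = _ := by group]
    exact commutator_mem_commutator hv hb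
  -- nilpotency of `V P`
  set M := V ⊔ P with hM
  have hMp : IsPGroup p M := (isPGroup_of_pow hV.2).to_sup_of_normal_left' (P'.2.map _) (hPA.trans hAV)
  haveI := hMp.isNilpotent
  obtain ⟨N, hN⟩ := (Subgroup.isNilpotent_iff_lowerCentralSeries M).1 inferInstance
  have hUP : ⁅U, A⁆ ≤ ⁅V, P⁆ := (commutator_mono hU le_rfl).trans hcomm
  have hstep : ∀ k, ⁅V, P⁆ ≤ M.lowerCentralSeries k := by
    intro k
    induction k with
    | zero =>
      exact Subgroup.commutator_le.mpr fun v hv b hb => by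
        rw [commutatorElement_def]
        exact mul_mem (mul_mem (mul_mem (mem_sup_left hv) (mem_sup_right hb)) (inv_mem (mem_sup_left hv)))
          (inv_mem (mem_sup_right hb))
    | succ k ih =>
      refine Subgroup.commutator_le.mpr fun v hv b hb => ?_
      have hv' : v ∈ ⁅U, A⁆ ⊔ (V ⊓ centralizer (A : Set G)) := hC ▸ hv
      have hn : ⁅U, A⁆ ≤ normalizer ((V ⊓ centralizer (A : Set G) : Subgroup G) : Set G) := fun g hg =>
        centralizer_le_normalizer _ (mem_centralizer_iff.mpr fun c hc => (ea_comm hV (mem_inf.mp hc).1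
          (Subgroup.commutator_le.mpr (fun u hu a ha => by
            rw [commutatorElement_def, show u * a * u⁻¹ * a⁻¹ = u * (a * u⁻¹ * a⁻¹) by group]
            exact mul_mem (hU hu) ((mem_normalizer_iff.mp (hAV ha) _).mp (inv_mem (hU hu)))) hg)).eq)
      obtain ⟨w, hw, c, hc, rfl⟩ := (CfsgLib.Core.mem_sup_iff_of_le_normalizer hn).mp hv'
      have hz : b * c⁻¹ = c⁻¹ * b := mem_centralizer_iff.mp (inv_mem (mem_inf.mp hc).2) b (hPA hb)
      rw [show ⁅w * c, b⁆ = ⁅w, b⁆ by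
        simp only [commutatorElement_def, mul_inv_rev]
        calc w * c * b * (c⁻¹ * w⁻¹) * b⁻¹ = w * c * (b * c⁻¹) * w⁻¹ * b⁻¹ := by group
          _ = w * c * (c⁻¹ * b) * w⁻¹ * b⁻¹ := by rw [hz]
          _ = _ := by group, Subgroup.lowerCentralSeries_succ]
      exact commutator_mem_commutator (ih (hUP hw)) (mem_sup_right hb)
  exact le_bot_iff.mp (hcomm.trans (hN ▸ hstep N))

theorem replacement_max (V : Subgroup G) [V.Normal] (hV : Cfsg.IsElementaryAbelian p V)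
    {A : Subgroup G} (hA : A ∈ Cfsg.maxElementaryAbelianSubgroups p G) :
    (⁅V, A⁆ ⊔ (A ⊓ centralizer ((⁅V, A⁆ : Subgroup G) : Set G))) ∈
        Cfsg.maxElementaryAbelianSubgroups p G ∧
      ⁅⁅V, ⁅V, A⁆ ⊔ (A ⊓ centralizer ((⁅V, A⁆ : Subgroup G) : Set G))⁆,
        ⁅V, A⁆ ⊔ (A ⊓ centralizer ((⁅V, A⁆ : Subgroup G) : Set G))⁆ = ⊥ ∧
      (⁅V, A⁆ ≠ ⊥ →
        ⁅V, ⁅V, A⁆ ⊔ (A ⊓ centralizer ((⁅V, A⁆ : Subgroup G) : Set G))⁆ ≠ ⊥) := by
  have hAV : A ≤ normalizer (V : Set G) := le_top.trans (normalizer_eq_top V).ge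
  have hbo := bestOffender_of_max V hV hA
  obtain ⟨hC, hP⟩ := replacement V A hV.1 hAV hbo.2.1 hbo.1 V le_rfl
  obtain ⟨-, -, hne⟩ := timmesfeld V A hV hAV hbo V le_rfl
  set W := ⁅V, A⁆ with hW
  set B := A ⊓ centralizer (W : Set G) with hB
  have hWV : W ≤ V := commutator_le_left V A
  have hWB : ∀ w ∈ W, ∀ b ∈ B, Commute w b := fun w hw b hb =>
    mem_centralizer_iff.mp (mem_inf.mp hb).2 w hw
  have hEA := isEA_sup (isEA_of_le hV hWV) (isEA_of_le hA.1 (inf_le_left : B ≤ A)) hWB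
  set CA := V ⊓ centralizer (A : Set G) with hCA
  have hinf : W ⊓ B = W ⊓ CA := by
    refine le_antisymm (fun g hg => ?_) (fun g hg => ?_)
    · obtain ⟨hgW, hgB⟩ := mem_inf.mp hg
      exact mem_inf.mpr ⟨hgW, mem_inf.mpr ⟨hWV hgW, mem_centralizer_iff.mpr fun a ha =>
        (ea_comm hA.1 ha (mem_inf.mp hgB).1).eq⟩⟩
    · obtain ⟨hgW, hgC⟩ := mem_inf.mp hg
      refine mem_inf.mpr ⟨hgW, mem_inf.mpr ⟨mem_of_max_of_commute hA (hV.2 g (hWV hgW))
        fun a ha => mem_centralizer_iff.mp (mem_inf.mp hgC).2 a ha, ?_⟩⟩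
      exact mem_centralizer_iff.mpr fun w hw => (ea_comm hV (hWV hw) (hWV hgW)).eq
  have e1 := CfsgLib.Core.card_sup_mul_card_inf (A := W) (K := B) fun w hw =>
    centralizer_le_normalizer _ (mem_centralizer_iff.mpr fun b hb => (hWB w hw b hb).symm.eq)
  have e2 := CfsgLib.Core.card_sup_mul_card_inf (A := W) (K := CA) fun w hw =>
    centralizer_le_normalizer _ (mem_centralizer_iff.mpr fun c hc =>
      (ea_comm hV (mem_inf.mp hc).1 (hWV hw)).eq)
  rw [← hC, ← hinf] at e2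
  have hcard : Nat.card ↥(W ⊔ B) = Nat.card A := by
    refine mul_left_cancel₀ (mul_ne_zero (Nat.card_pos (α := ↥(W ⊓ B))).ne'
      (Nat.card_pos (α := ↥(V ⊓ centralizer (B : Set G)))).ne') ?_
    calc Nat.card ↥(W ⊓ B) * Nat.card ↥(V ⊓ centralizer (B : Set G)) * Nat.card ↥(W ⊔ B)
        = (Nat.card ↥(W ⊔ B) * Nat.card ↥(W ⊓ B)) * Nat.card ↥(V ⊓ centralizer (B : Set G)) := by ring
      _ = Nat.card W * (Nat.card B * Nat.card ↥(V ⊓ centralizer (B : Set G))) := by rw [e1]; ring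
      _ = (Nat.card W * Nat.card CA) * Nat.card A := by rw [← hP]; ring
      _ = _ := by rw [← e2]; ring
  refine ⟨⟨hEA, fun D hD => hcard ▸ hA.2 D hD⟩, ?_, fun h he => hne h ?_⟩
  · rw [commutator_eq_bot_iff_le_centralizer]
    refine Subgroup.commutator_le.mpr fun v hv g hg => ?_
    obtain ⟨w, hw, b, hb, rfl⟩ := (CfsgLib.Core.mem_sup_iff_of_le_normalizer (A := W) (K := B)
      fun w hw => centralizer_le_normalizer _
        (mem_centralizer_iff.mpr fun b hb => (hWB w hw b hb).symm.eq)).mp hg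
    have h1 : ⁅v, w * b⁆ ∈ W := by
      have hvw : Commute v w := ea_comm hV hv (hWV hw)
      rw [show ⁅v, w * b⁆ = w * ⁅v, b⁆ * w⁻¹ by
        simp only [commutatorElement_def]
        calc v * (w * b) * v⁻¹ * (w * b)⁻¹ = (v * w) * b * v⁻¹ * b⁻¹ * w⁻¹ := by group
          _ = (w * v) * b * v⁻¹ * b⁻¹ * w⁻¹ := by rw [hvw.eq]
          _ = _ := by group]
      exact mul_mem (mul_mem hw (commutator_mem_commutator hv (mem_inf.mp hb).1)) (inv_mem hw)
    refine mem_centralizer_iff.mpr fun k hk => ?_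
    have hle : W ⊔ B ≤ centralizer ({⁅v, w * b⁆} : Set G) := sup_le
      (fun w' hw' => mem_centralizer_singleton_iff.mpr (ea_comm hV (hWV hw') (hWV h1)).eq)
      (fun b' hb' => mem_centralizer_singleton_iff.mpr (hWB _ h1 b' hb').symm.eq)
    exact mem_centralizer_singleton_iff.mp (hle hk)
  · exact le_bot_iff.mp (he ▸ commutator_mono le_rfl le_sup_right)

end CfsgLib.LocalThompson
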