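import Cfsg.Agent.Lib.LocalCoprimeGen
import Cfsg.Agent.Lib.CoreCoprime
import Cfsg.Agent.Lib.LocalLBalance
import Cfsg.Agent.Lib.LocalPComponent
import Cfsg.Agent.Lib.LocalSolvable
import Cfsg.Agent.Lib.CorePSolvable
import Cfsg.Agent.Lib.LocalKBalanced
import Cfsg.Agent.S1282

/-!
The elementary theory of soluble signalizer functors: balance from soluble centralisers, the
family of signalizers and the transitivity of its maximal `q`-members.
-/

set_option autoImplicit false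
set_option linter.style.haveILetI false

open Subgroup
open scoped commutatorElement Pointwise

namespace CfsgLib.Local.SF

universe u

variable {G : Type u} [Group G] [Finite G] {p : ℕ} [hp : Fact p.Prime]
  {A : Subgroup G} {θ : G → Subgroup G}

omit hp [Finite G] in
/-- `N(R)` normalises `O_{p'}(C(R))`. -/
theorem conj_mem_core {R : Subgroup G} {n : G} (hn : n ∈ normalizer (R : Set G))
    {x : ↥(centralizer (R : Set G))} (hx : x ∈ Cfsg.pPrimeCore p ↥(centralizer (R : Set G))) :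
    n * x * n⁻¹ ∈
      (Cfsg.pPrimeCore p ↥(centralizer (R : Set G))).map (centralizer (R : Set G)).subtype := by
  set C := centralizer (R : Set G) with hC
  have hinv : ∀ m ∈ normalizer (R : Set G), ∀ c ∈ C, m * c * m⁻¹ ∈ C := fun m hm c hc => by
    rw [hC, mem_centralizer_iff] at hc ⊢
    intro r hr
    have h1 := hc _ ((mem_normalizer_iff''.mp hm r).mp hr)
    calc r * (m * c * m⁻¹) = m * ((m⁻¹ * r * m) * c) * m⁻¹ := by group
      _ = m * (c * (m⁻¹ * r * m)) * m⁻¹ := by rw [h1]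
      _ = _ := by group
  let e : ↥C ≃* ↥C :=
    { toFun := fun c => ⟨n * c * n⁻¹, hinv n hn c c.2⟩
      invFun := fun c => ⟨n⁻¹ * c * n, by simpa using hinv n⁻¹ (inv_mem hn) c c.2⟩
      left_inv := fun c => Subtype.ext (by simp [mul_assoc])
      right_inv := fun c => Subtype.ext (by simp [mul_assoc])
      map_mul' := fun c d => Subtype.ext (by simp [mul_assoc]) }
  have h2 := Subgroup.characteristic_iff_map_le.mp
    (CfsgLib.Core.characteristic_pPrimeCore (G := ↥C) p) e (mem_map_of_mem e.toMonoidHom hx)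
  exact ⟨_, h2, rfl⟩

set_option maxHeartbeats 1000000 in
/-- In a soluble group `O_{p'}` of the centraliser of a `p`-subgroup lies in `O_{p'}`. -/
theorem core_centralizer_le (hs : Group.IsSolvable G) {R : Subgroup G} (hR : IsPGroup p ↥R) :
    (Cfsg.pPrimeCore p ↥(centralizer (R : Set G))).map (centralizer (R : Set G)).subtype ≤
      Cfsg.pPrimeCore p G := by
  haveI := hs
  haveI := CfsgLib.Core.normal_pPrimeCore (G := G) p
  set O := Cfsg.pPrimeCore p G with hO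
  set f := QuotientGroup.mk' O with hf
  haveI := CfsgLib.Core.normal_pCore (G := G ⧸ O) p
  set C := centralizer (R : Set G) with hC
  haveI := CfsgLib.Core.normal_pPrimeCore (G := ↥C) p
  rintro _ ⟨x, hx, rfl⟩
  have hx1 : (orderOf (f (x : G))).Coprime p := by
    refine Nat.Coprime.coprime_dvd_left (orderOf_map_dvd f _) ?_
    rw [Subgroup.orderOf_coe]
    refine Nat.Coprime.coprime_dvd_left ?_ (CfsgLib.Core.coprime_card_pPrimeCore (G := ↥C) p)
    rw [← Subgroup.orderOf_mk x hx]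
    exact orderOf_dvd_natCard _
  have hx2 : f (x : G) ∈ centralizer ((R.map f : Subgroup (G ⧸ O)) : Set (G ⧸ O)) := by
    rw [mem_centralizer_iff]
    rintro _ ⟨r, hr, rfl⟩
    rw [← map_mul, ← map_mul, mem_centralizer_iff.mp x.2 r hr]
  have hcore : Cfsg.pPrimeCore p (G ⧸ O) = ⊥ :=
    CfsgLib.Core.pPrimeCore_quotient_pPrimeCore p
  have hP : (Nat.card ↥((Cfsg.pPrimeCore p ↥C).map C.subtype)).Coprime p := by
    rw [Subgroup.card_subtype]
    exact CfsgLib.Core.coprime_card_pPrimeCore (G := ↥C) p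
  have hx3 : ∀ y ∈ Cfsg.pCore p (G ⧸ O), y ∈ normalizer ((R.map f : Subgroup (G ⧸ O)) : Set (G ⧸ O)) →
      f (x : G) * y = y * f (x : G) := by
    intro y hy hyn
    -- `R` is normalised by a lift of `y`, which then normalises the core of `C`
    rw [← CfsgLib.Local.PComp.normalizer_map_mk hR] at hyn
    obtain ⟨n, hn, rfl⟩ := hyn
    have h1 : f (n * x * n⁻¹ * (x : G)⁻¹) ∈
        ((Cfsg.pPrimeCore p ↥C).map C.subtype).map f ⊓ Cfsg.pCore p (G ⧸ O) := by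
      refine ⟨mem_map_of_mem f (mul_mem ?_ (inv_mem (mem_map_of_mem _ hx))), ?_⟩
      · exact conj_mem_core hn hx
      · have h2 := mul_mem hy ((inferInstance : (Cfsg.pCore p (G ⧸ O)).Normal).conj_mem _
          (inv_mem hy) (f (x : G)))
        simp only [SetLike.mem_coe, map_mul, map_inv, mul_assoc] at h2 ⊢
        exact h2
    have h2 : ((Cfsg.pPrimeCore p ↥C).map C.subtype).map f ⊓ Cfsg.pCore p (G ⧸ O) = ⊥ := by
      obtain ⟨k, hk⟩ := IsPGroup.iff_card.mp (CfsgLib.Core.isPGroup_pCore (G := G ⧸ O) p)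
      have h4 := Subgroup.card_map_dvd ((Cfsg.pPrimeCore p ↥C).map C.subtype) f
      have h5 := (Nat.Coprime.coprime_dvd_left h4 hP).pow_right k
      rw [← hk] at h5
      exact CfsgLib.Core.inf_eq_bot_of_coprime h5
    rw [h2, mem_bot] at h1
    have h3 : f n * f (x : G) * (f n)⁻¹ * (f (x : G))⁻¹ = 1 := by
      rw [← map_inv, ← map_inv, ← map_mul, ← map_mul, ← map_mul]; exact h1
    rw [mul_inv_eq_one, mul_inv_eq_iff_eq_mul] at h3
    exact h3.symm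
  have h4 := CfsgLib.Local.LBalance.mem_centralizer_pCore (hR.map f) hx1 hx2 hx3
  have h5 := CfsgLib.Core.centralizer_pCore_le_of_isPSolvable
    (CfsgLib.LocalFF.isPSolvable_of_solvable _ rfl inferInstance) hcore h4
  have h6 : f (x : G) = 1 :=
    CfsgLib.Local.eq_one_of_coprime_pgroup (CfsgLib.Core.isPGroup_pCore p) h5 hx1
  exact (QuotientGroup.eq_one_iff _).mp h6

/-! ### The family of signalizers -/

theorem le_centralizer_self (hA : Cfsg.IsElementaryAbelian p A) {a : G} (ha : a ∈ A) :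
    A ≤ centralizer ({a} : Set G) := fun b hb => by
  haveI := hA.1
  rw [mem_centralizer_singleton_iff]
  exact congrArg Subtype.val (mul_comm' (⟨b, hb⟩ : ↥A) ⟨a, ha⟩)

omit hp [Finite G] in
theorem normalizes_of_conj {U : Subgroup G} (h : ∀ b ∈ A, ∀ u ∈ U, b * u * b⁻¹ ∈ U) :
    A ≤ normalizer (U : Set G) := fun b hb => by
  rw [mem_normalizer_iff]
  refine fun u => ⟨fun hu => h b hb u hu, fun hu => ?_⟩
  simpa [mul_assoc] using h b⁻¹ (inv_mem hb) _ hu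

omit hp [Finite G] in
theorem conj_of_normalizes {U : Subgroup G} (h : A ≤ normalizer (U : Set G)) :
    ∀ b ∈ A, ∀ u ∈ U, b * u * b⁻¹ ∈ U := fun _ hb u hu => (mem_normalizer_iff.mp (h hb) u).mp hu

theorem coprime_zpowers (hA : Cfsg.IsElementaryAbelian p A) {a : G} (ha : a ∈ A) {K : Subgroup G}
    (hK : ¬ p ∣ Nat.card ↥K) : (Nat.card ↥(zpowers a)).Coprime (Nat.card ↥K) :=
  (CfsgLib.Local.CoprimeGen.coprime_of_not_dvd hA hK).coprime_dvd_left
    (card_dvd_of_le (zpowers_le.mpr ha))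

theorem isSolvable_zpowers (a : G) : Group.IsSolvable ↥(zpowers a) := inferInstance

/-- Fixed points of a `p'`-group modulo a normalised subgroup lift. -/
theorem exists_fixed (hA : Cfsg.IsElementaryAbelian p A) {a : G} (ha : a ∈ A) {K N : Subgroup G}
    (hKA : A ≤ normalizer (K : Set G)) (hK : ¬ p ∣ Nat.card ↥K) (hNK : N ≤ K)
    (hKN : K ≤ normalizer (N : Set G)) (hNA : A ≤ normalizer (N : Set G)) {k : G} (hk : k ∈ K)
    (hfix : a * k * a⁻¹ * k⁻¹ ∈ N) :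
    ∃ c ∈ K ⊓ centralizer ({a} : Set G), k⁻¹ * c ∈ N := by
  have hN : ¬ p ∣ Nat.card ↥N := fun h => hK (h.trans (card_dvd_of_le hNK))
  obtain ⟨c, hc, hcN⟩ := CfsgLib.Core.exists_fixed_of_fixed_mod (A := zpowers a)
    ((zpowers_le.mpr ha).trans hKA)
    (CfsgLib.Core.inf_eq_bot_of_coprime (coprime_zpowers hA ha hK)) hNK hKN
    ((zpowers_le.mpr ha).trans hNA) (coprime_zpowers hA ha hN) (Or.inl (isSolvable_zpowers a))
    hk (fun b hb => by
      obtain ⟨i, rfl⟩ := CfsgLib.Core.mem_zpowers_nat hb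
      induction i with
      | zero => simp
      | succ i ih =>
        have h1 := conj_of_normalizes hNA a ha _ (ih (pow_mem (mem_zpowers a) i))
        have h2 := mul_mem h1 hfix
        rw [pow_succ']
        have e : a * a ^ i * k * (a * a ^ i)⁻¹ * k⁻¹ =
            a * (a ^ i * k * (a ^ i)⁻¹ * k⁻¹) * a⁻¹ * (a * k * a⁻¹ * k⁻¹) := by group
        rw [e]; exact h2)
  exact ⟨c, ⟨hc.1, (centralizer_le (by simp) : centralizer ((zpowers a : Subgroup G) : Set G) ≤ _)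
    hc.2⟩, hcN⟩

variable (hA : Cfsg.IsElementaryAbelian p A) (hθ : Cfsg.IsSolvableSignalizerFunctor p A θ)
include hA hθ

theorem theta_mem {a : G} (ha : a ∈ A) (h1 : a ≠ 1) :
    θ a ∈ Cfsg.signalizerFamily p A θ :=
  ⟨hθ.2 a ha h1, hθ.1.2.1 a ha h1, fun b hb u hu => hθ.1.2.2.1 a ha h1 b hb u hu,
    fun b hb hb1 => hθ.1.2.2.2 a ha h1 b hb hb1⟩

omit hA hθ in
theorem sub_mem {U V : Subgroup G} (hU : U ∈ Cfsg.signalizerFamily p A θ) (hVU : V ≤ U)
    (hAV : A ≤ normalizer (V : Set G)) : V ∈ Cfsg.signalizerFamily p A θ := by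
  obtain ⟨hs, hp', -, hc⟩ := hU
  haveI := hs
  exact ⟨Group.isSolvable_of_isSolvable_injective (Subgroup.inclusion_injective hVU),
    fun h => hp' (h.trans (card_dvd_of_le hVU)), conj_of_normalizes hAV,
    fun a ha h1 => (inf_le_inf_right _ hVU).trans (hc a ha h1)⟩

theorem sup_mem {X Y : Subgroup G} (hX : X ∈ Cfsg.signalizerFamily p A θ)
    (hY : Y ∈ Cfsg.signalizerFamily p A θ) (hn : Y ≤ normalizer (X : Set G)) :
    X ⊔ Y ∈ Cfsg.signalizerFamily p A θ := by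
  have hAX := normalizes_of_conj hX.2.2.1
  have hAY := normalizes_of_conj hY.2.2.1
  have hJX : X ⊔ Y ≤ normalizer (X : Set G) := sup_le le_normalizer hn
  haveI := hX.1
  haveI := hY.1
  refine ⟨?_, ?_, conj_of_normalizes (CfsgLib.Core.le_normalizer_sup hAX hAY), fun a ha h1 => ?_⟩
  · haveI : (X.subgroupOf (X ⊔ Y)).Normal :=
      (normal_subgroupOf_iff_le_normalizer le_sup_left).mpr hJX
    haveI : Group.IsSolvable ↥(X.subgroupOf (X ⊔ Y)) :=
      Group.isSolvable_of_isSolvable_injective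
        (f := (subgroupOfEquivOfLe (le_sup_left (a := X) (b := Y))).toMonoidHom)
        (subgroupOfEquivOfLe (le_sup_left (a := X) (b := Y))).injective
    haveI : Group.IsSolvable (↥(X ⊔ Y) ⧸ X.subgroupOf (X ⊔ Y)) := by
      refine Group.isSolvable_of_surjective (f := (QuotientGroup.mk' (X.subgroupOf (X ⊔ Y))).comp
        (Subgroup.inclusion (le_sup_right : Y ≤ X ⊔ Y))) fun q => ?_
      obtain ⟨⟨w, hw⟩, rfl⟩ := QuotientGroup.mk'_surjective _ q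
      rw [sup_comm, CfsgLib.Core.mem_sup_iff_of_le_normalizer' hn] at hw
      obtain ⟨x, hx, y, hy, rfl⟩ := hw
      refine ⟨⟨y, hy⟩, QuotientGroup.eq.mpr ?_⟩
      rw [mem_subgroupOf]
      simpa [mul_assoc] using (mem_normalizer_iff''.mp (hn hy) x).mp hx
    exact (Group.isSolvable_iff_subgroup_quotient (X.subgroupOf (X ⊔ Y))).mpr
      ⟨inferInstance, inferInstance⟩
  · intro hd
    have h1 := CfsgLib.Core.card_sup_mul_card_inf hn
    rw [sup_comm] at h1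
    have h2 : p ∣ Nat.card ↥Y * Nat.card ↥X := h1 ▸ dvd_mul_of_dvd_left hd _
    rcases hp.out.dvd_mul.mp h2 with h | h
    · exact hY.2.1 h
    · exact hX.2.1 h
  · intro w hw
    obtain ⟨hwJ, hwc⟩ := Subgroup.mem_inf.mp hw
    rw [sup_comm, CfsgLib.Core.mem_sup_iff_of_le_normalizer' hn] at hwJ
    obtain ⟨x, hx, y, hy, rfl⟩ := hwJ
    have hfix : a * y * a⁻¹ * y⁻¹ ∈ Y ⊓ X := by
      refine Subgroup.mem_inf.mpr ⟨mul_mem (hY.2.2.1 a ha y hy) (inv_mem hy), ?_⟩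
      have hwa : a * (x * y) * a⁻¹ = x * y := by
        rw [← mem_centralizer_singleton_iff.mp hwc, mul_inv_cancel_right]
      have e : a * y * a⁻¹ * y⁻¹ = (a * x * a⁻¹)⁻¹ * (a * (x * y) * a⁻¹) * y⁻¹ := by group
      rw [e, hwa, mul_assoc, mul_inv_cancel_right]
      exact mul_mem (inv_mem (hX.2.2.1 a ha x hx)) hx
    obtain ⟨c, hc, hcN⟩ := exists_fixed hA ha hAY hY.2.1 inf_le_left
      (le_inf le_normalizer hn |>.trans inf_normalizer_le_normalizer_inf)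
      (CfsgLib.Core.le_normalizer_inf hAY hAX) hy hfix
    obtain ⟨hcY, hcc⟩ := Subgroup.mem_inf.mp hc
    have hcX : x * y * c⁻¹ ∈ X := by
      have := mul_mem hx (inv_mem ((mem_normalizer_iff.mp (hn hy) _).mp hcN.2))
      simpa [mul_assoc] using this
    have hcXc : x * y * c⁻¹ ∈ centralizer ({a} : Set G) := mul_mem hwc (inv_mem hcc)
    have := mul_mem (hX.2.2.2 a ha h1 ⟨hcX, hcXc⟩) (hY.2.2.2 a ha h1 ⟨hcY, hcc⟩)
    simpa using this

omit hA in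
theorem inf_le_theta {a : G} (ha : a ∈ A) (h1 : a ≠ 1) : Cfsg.signalizerInf A θ ≤ θ a :=
  iInf_le_of_le ⟨a, ha, h1⟩ le_rfl

omit hA in
theorem inf_le_centralizer (hne : A ≠ ⊥) :
    Cfsg.signalizerInf A θ ≤ centralizer (A : Set G) := fun c hc => by
  rw [mem_centralizer_iff]
  intro a ha
  by_cases h1 : a = 1
  · simp [h1]
  exact (mem_centralizer_singleton_iff.mp (hθ.1.1 a ha h1 (inf_le_theta hθ ha h1 hc))).symm

theorem conj_family (hne : A ≠ ⊥) {c : G} (hc : c ∈ Cfsg.signalizerInf A θ) {U : Subgroup G}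
    (hU : U ∈ Cfsg.signalizerFamily p A θ) :
    U.map (MulAut.conj c).toMonoidHom ∈ Cfsg.signalizerFamily p A θ := by
  haveI := hU.1
  have hcA := inf_le_centralizer hθ hne hc
  refine ⟨Group.isSolvable_of_surjective
    ((MulAut.conj c).subgroupMap U).surjective (f := ((MulAut.conj c).subgroupMap U).toMonoidHom),
    ?_, ?_, ?_⟩
  · rw [Subgroup.card_map_of_injective (MulAut.conj c).injective]
    exact hU.2.1
  · rintro b hb _ ⟨u, hu, rfl⟩
    refine ⟨b * u * b⁻¹, hU.2.2.1 b hb u hu, ?_⟩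
    have hbc : b * c = c * b := mem_centralizer_iff.mp hcA b hb
    simp only [MulEquiv.coe_toMonoidHom, MulAut.conj_apply]
    calc c * (b * u * b⁻¹) * c⁻¹ = (c * b) * u * (c * b)⁻¹ := by group
      _ = (b * c) * u * (b * c)⁻¹ := by rw [hbc]
      _ = _ := by group
  · intro a ha h1 w hw
    obtain ⟨⟨u, hu, rfl⟩, hwc⟩ := hw
    have hcθ := inf_le_theta hθ ha h1 hc
    have hca := hθ.1.1 a ha h1 hcθ
    have hua : u ∈ centralizer ({a} : Set G) := by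
      have := mul_mem (mul_mem (inv_mem hca) hwc) hca
      simpa [mul_assoc] using this
    simpa using mul_mem (mul_mem hcθ (hU.2.2.2 a ha h1 ⟨hu, hua⟩)) (inv_mem hcθ)

omit hA hθ in
theorem exists_maximal {q : ℕ} {R : Subgroup G} (hR : R ∈ Cfsg.signalizerFamily p A θ)
    (hRq : IsPGroup q ↥R) : ∃ M ∈ Cfsg.signalizerFamily p A θ, IsPGroup q ↥M ∧ R ≤ M ∧
      ∀ V ∈ Cfsg.signalizerFamily p A θ, IsPGroup q ↥V → M ≤ V → V = M := by
  haveI := Fintype.ofFinite (Subgroup G)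
  obtain ⟨M, hRM, hM⟩ := (Set.toFinite {V : Subgroup G |
    V ∈ Cfsg.signalizerFamily p A θ ∧ IsPGroup q ↥V}).exists_le_maximal ⟨hR, hRq⟩
  exact ⟨M, hM.1.1, hM.1.2, hRM, fun V hV hVq hMV => le_antisymm (hM.2 ⟨hV, hVq⟩ hMV) hMV⟩

/-- Transitivity of `θ(A)` on the maximal `q`-signalizers. -/
theorem transitivity (hA3 : p ^ 3 ≤ Nat.card ↥A) {q : ℕ} [hq : Fact q.Prime] (hqp : q ≠ p)
    (h1282 : ∀ Q₁ Q₂ : Subgroup G, IsPGroup q ↥Q₁ → IsPGroup q ↥Q₂ →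
      A ≤ normalizer (Q₁ : Set G) → A ≤ normalizer (Q₂ : Set G) → Q₁ ⊓ Q₂ ≠ Q₁ → Q₁ ⊓ Q₂ ≠ Q₂ →
      ∃ a ∈ A, a ≠ 1 ∧
        ¬ (normalizer ((Q₁ ⊓ Q₂ : Subgroup G) : Set G) ⊓ Q₁ ⊓ centralizer {a} ≤ Q₁ ⊓ Q₂) ∧
        ¬ (normalizer ((Q₁ ⊓ Q₂ : Subgroup G) : Set G) ⊓ Q₂ ⊓ centralizer {a} ≤ Q₁ ⊓ Q₂)) :
    ∀ (n : ℕ) (Q₁ Q₂ : Subgroup G), Nat.card G - Nat.card ↥(Q₁ ⊓ Q₂) = n →
      Q₁ ∈ Cfsg.signalizerFamily p A θ → IsPGroup q ↥Q₁ →
      (∀ R ∈ Cfsg.signalizerFamily p A θ, IsPGroup q ↥R → Q₁ ≤ R → R = Q₁) →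
      Q₂ ∈ Cfsg.signalizerFamily p A θ → IsPGroup q ↥Q₂ →
      (∀ R ∈ Cfsg.signalizerFamily p A θ, IsPGroup q ↥R → Q₂ ≤ R → R = Q₂) →
      ∃ c ∈ Cfsg.signalizerInf A θ, Q₁.map (MulAut.conj c).toMonoidHom = Q₂ := by
  have hne : A ≠ ⊥ := fun h => by
    rw [h, Subgroup.card_bot] at hA3
    exact absurd hA3 (not_le.mpr (Nat.one_lt_pow (by norm_num) hp.out.one_lt))
  intro n
  induction n using Nat.strong_induction_on with
  | _ n ih =>
  intro Q₁ Q₂ hn h₁ hq₁ hmax₁ h₂ hq₂ hmax₂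
  subst hn
  by_cases e₁ : Q₁ ⊓ Q₂ = Q₁
  · refine ⟨1, one_mem _, ?_⟩
    have := hmax₁ Q₂ h₂ hq₂ (inf_eq_left.mp e₁)
    rw [this]; ext x; simp
  by_cases e₂ : Q₁ ⊓ Q₂ = Q₂
  · refine ⟨1, one_mem _, ?_⟩
    have := hmax₂ Q₁ h₁ hq₁ (inf_eq_right.mp e₂)
    rw [← this]; ext x; simp
  have hA₁ := normalizes_of_conj h₁.2.2.1
  have hA₂ := normalizes_of_conj h₂.2.2.1
  obtain ⟨a, ha, ha1, hn₁, hn₂⟩ := h1282 Q₁ Q₂ hq₁ hq₂ hA₁ hA₂ e₁ e₂
  set D := Q₁ ⊓ Q₂ with hD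
  have hAD : A ≤ normalizer (D : Set G) := CfsgLib.Core.le_normalizer_inf hA₁ hA₂
  have hAND : A ≤ normalizer ((normalizer (D : Set G) : Subgroup G) : Set G) :=
    hAD.trans le_normalizer
  have hAC : A ≤ normalizer ((centralizer ({a} : Set G) : Subgroup G) : Set G) :=
    (le_centralizer_self hA ha).trans le_normalizer
  have hAθ := normalizes_of_conj (theta_mem hA hθ ha ha1).2.2.1
  set J := D ⊔ (θ a ⊓ normalizer (D : Set G)) with hJ
  have hJW : J ∈ Cfsg.signalizerFamily p A θ :=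
    sup_mem hA hθ (sub_mem h₁ inf_le_left hAD)
      (sub_mem (theta_mem hA hθ ha ha1) inf_le_left (CfsgLib.Core.le_normalizer_inf hAθ hAND))
      inf_le_right
  have hAJ := normalizes_of_conj hJW.2.2.1
  have hcop := CfsgLib.Local.CoprimeGen.coprime_of_not_dvd hA hJW.2.1
  have grow : ∀ Q : Subgroup G, Q ∈ Cfsg.signalizerFamily p A θ → IsPGroup q ↥Q → D ≤ Q →
      ¬ normalizer (D : Set G) ⊓ Q ⊓ centralizer ({a} : Set G) ≤ D →
      ∃ (U : Subgroup G) (P : Sylow q ↥J), D < U ∧ U ≤ Q ∧ U ≤ (P : Subgroup ↥J).map J.subtype ∧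
        A ≤ normalizer (((P : Subgroup ↥J).map J.subtype : Subgroup G) : Set G) := by
    intro Q hQ hQq hDQ hnot
    set N := normalizer (D : Set G) ⊓ Q ⊓ centralizer ({a} : Set G) with hN
    have hNQ : N ≤ Q := inf_le_left.trans inf_le_right
    have hNθ : N ≤ θ a ⊓ normalizer (D : Set G) :=
      le_inf ((le_inf hNQ inf_le_right).trans (hQ.2.2.2 a ha ha1)) (inf_le_left.trans inf_le_left)
    have hAN : A ≤ normalizer (N : Set G) := CfsgLib.Core.le_normalizer_inf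
      (CfsgLib.Core.le_normalizer_inf hAND (normalizes_of_conj hQ.2.2.1)) hAC
    obtain ⟨P, hP, hPA⟩ := CfsgLib.Core.exists_invariant_sylow_ge (U := D ⊔ N) q hAJ hcop
      (Or.inr hJW.1) (sup_le_sup_left hNθ D) (hQq.to_le (sup_le hDQ hNQ))
      (CfsgLib.Core.le_normalizer_sup hAD hAN)
    exact ⟨D ⊔ N, P, lt_of_le_of_ne le_sup_left (fun h => hnot (sup_eq_left.mp h.symm)),
      sup_le hDQ hNQ, hP, hPA⟩
  obtain ⟨U₁, P₁, hU₁, hU₁Q, hU₁P, hP₁A⟩ := grow Q₁ h₁ hq₁ inf_le_left hn₁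
  obtain ⟨U₂, P₂, hU₂, hU₂Q, hU₂P, hP₂A⟩ := grow Q₂ h₂ hq₂ inf_le_right hn₂
  obtain ⟨c, ⟨hcJ, hcC⟩, hc⟩ := (CfsgLib.Core.exists_invariant_sylow_aux q hAJ hcop
    (Or.inr hJW.1)).2 _ _ (CfsgLib.Core.isHallIn_singleton_iff_exists_sylow.mpr ⟨P₁, rfl⟩) hP₁A
    (CfsgLib.Core.isHallIn_singleton_iff_exists_sylow.mpr ⟨P₂, rfl⟩) hP₂A
  rw [CfsgLib.Core.conj_smul_eq_map] at hc
  have hcθ : c ∈ Cfsg.signalizerInf A θ := by
    refine Subgroup.mem_iInf.mpr fun b => hJW.2.2.2 b b.2.1 b.2.2 ⟨hcJ, ?_⟩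
    exact centralizer_le (by simpa using b.2.1) hcC
  obtain ⟨M, hM, hMq, hPM, hMmax⟩ := exists_maximal (q := q)
    (sub_mem hJW (map_subtype_le _) hP₁A) (P₁.isPGroup'.map _)
  have hM' := conj_family hA hθ hne hcθ hM
  have hM'q : IsPGroup q ↥(M.map (MulAut.conj c).toMonoidHom) := hMq.map _
  have hM'max : ∀ R ∈ Cfsg.signalizerFamily p A θ, IsPGroup q ↥R →
      M.map (MulAut.conj c).toMonoidHom ≤ R → R = M.map (MulAut.conj c).toMonoidHom := by
    intro R hR hRq hle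
    have h1 := hMmax _ (conj_family hA hθ hne (inv_mem hcθ) hR) (hRq.map _) (fun x hx =>
      ⟨c * x * c⁻¹, hle ⟨x, hx, rfl⟩, by simp [mul_assoc]⟩)
    conv_rhs => rw [← h1]
    rw [Subgroup.map_map]
    ext x
    simp [mul_assoc]
  have step : ∀ (Q R U : Subgroup G), Q ∈ Cfsg.signalizerFamily p A θ → IsPGroup q ↥Q →
      (∀ V ∈ Cfsg.signalizerFamily p A θ, IsPGroup q ↥V → Q ≤ V → V = Q) →
      R ∈ Cfsg.signalizerFamily p A θ → IsPGroup q ↥R →
      (∀ V ∈ Cfsg.signalizerFamily p A θ, IsPGroup q ↥V → R ≤ V → V = R) →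
      D < U → U ≤ Q → U ≤ R →
      ∃ c ∈ Cfsg.signalizerInf A θ, Q.map (MulAut.conj c).toMonoidHom = R := by
    intro Q R U hQ hQq hQm hR hRq hRm hDU hUQ hUR
    refine ih _ ?_ Q R rfl hQ hQq hQm hR hRq hRm
    have h1 : Nat.card ↥D < Nat.card ↥(Q ⊓ R) :=
      lt_of_lt_of_le (lt_of_le_of_ne (card_le_of_le hDU.le) fun h =>
        hDU.ne (eq_of_le_of_card_ge hDU.le h.ge)) (card_le_of_le (le_inf hUQ hUR))
    have h2 : Nat.card ↥(Q ⊓ R) ≤ Nat.card G := Subgroup.card_le_card_group _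
    omega
  obtain ⟨d, hd, hd'⟩ := step Q₁ M U₁ h₁ hq₁ hmax₁ hM hMq hMmax hU₁ hU₁Q (hU₁P.trans hPM)
  obtain ⟨e, he, he'⟩ := step (M.map (MulAut.conj c).toMonoidHom) Q₂ U₂ hM' hM'q hM'max h₂ hq₂
    hmax₂ hU₂ (hU₂P.trans (hc ▸ Subgroup.map_mono hPM)) hU₂Q
  refine ⟨e * c * d, mul_mem (mul_mem he hcθ) hd, ?_⟩
  rw [← he', ← hd', Subgroup.map_map, Subgroup.map_map]
  congr 1
  ext x
  simp [mul_assoc]

/-- `θ(B)` is a signalizer. -/
theorem signalizerInf_mem {B : Subgroup G} (hB : B ≤ A) (hB1 : B ≠ ⊥) :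
    Cfsg.signalizerInf B θ ∈ Cfsg.signalizerFamily p A θ := by
  obtain ⟨⟨b, hb⟩, hb1⟩ := Subgroup.ne_bot_iff_exists_ne_one.mp hB1
  have hb1' : b ≠ 1 := fun e => hb1 (Subtype.ext e)
  refine sub_mem (theta_mem hA hθ (hB hb) hb1') (iInf_le_of_le ⟨b, hb, hb1'⟩ le_rfl)
    (normalizes_of_conj fun c hc u hu => Subgroup.mem_iInf.mpr fun d => ?_)
  exact hθ.1.2.2.1 d (hB d.2.1) d.2.2 c hc u (Subgroup.mem_iInf.mp hu d)

theorem exists_sylow_inf (hA3 : p ^ 3 ≤ Nat.card ↥A) {q : ℕ} [hq : Fact q.Prime] (hqp : q ≠ p)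
    {Q : Subgroup G} (hQ : Q ∈ Cfsg.signalizerFamily p A θ) (hQq : IsPGroup q ↥Q)
    (hQm : ∀ R ∈ Cfsg.signalizerFamily p A θ, IsPGroup q ↥R → Q ≤ R → R = Q) {H : Subgroup G}
    (hH : H ∈ Cfsg.signalizerFamily p A θ) :
    ∃ c ∈ Cfsg.signalizerInf A θ, ∃ S : Sylow q ↥H,
      (S : Subgroup ↥H).map H.subtype = Q.map (MulAut.conj c).toMonoidHom ⊓ H := by
  have hAH := normalizes_of_conj hH.2.2.1
  obtain ⟨P, hP⟩ := CfsgLib.Core.exists_invariant_sylow q hAH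
    (CfsgLib.Local.CoprimeGen.coprime_of_not_dvd hA hH.2.1) (Or.inr hH.1)
  obtain ⟨M, hM, hMq, hPM, hMm⟩ := exists_maximal (q := q) (sub_mem hH (map_subtype_le _) hP)
    (P.isPGroup'.map _)
  obtain ⟨c, hc, hc'⟩ := transitivity hA hθ hA3 hqp
    (fun Q₁ Q₂ h₁ h₂ h₃ h₄ h₅ h₆ => Cfsg.Agent.S1282.result p A hA hA3 q hqp Q₁ Q₂ h₁ h₂ h₃ h₄ h₅ h₆)
    _ Q M rfl hQ hQq hQm hM hMq hMm
  refine ⟨c, hc, P, ?_⟩
  rw [hc']
  refine le_antisymm (le_inf hPM (map_subtype_le _)) fun x hx => ?_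
  obtain ⟨hxM, hxH⟩ := Subgroup.mem_inf.mp hx
  have h1 : (M ⊓ H).subgroupOf H = (P : Subgroup ↥H) := by
    refine P.is_maximal' ((hMq.to_le inf_le_left).comap_subtype) fun y hy => ?_
    exact mem_subgroupOf.mpr ⟨hPM (mem_map_of_mem _ hy), y.2⟩
  exact ⟨⟨x, hxH⟩, h1.le (mem_subgroupOf.mpr ⟨hxM, hxH⟩), rfl⟩

theorem exists_sylow_centralizer (hA3 : p ^ 3 ≤ Nat.card ↥A) {q : ℕ} [hq : Fact q.Prime]
    (hqp : q ≠ p) {Q : Subgroup G} (hQ : Q ∈ Cfsg.signalizerFamily p A θ) (hQq : IsPGroup q ↥Q)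
    (hQm : ∀ R ∈ Cfsg.signalizerFamily p A θ, IsPGroup q ↥R → Q ≤ R → R = Q) {B : Subgroup G}
    (hB : B ≤ A) (hB1 : B ≠ ⊥) :
    ∃ S : Sylow q ↥(Cfsg.signalizerInf B θ),
      (S : Subgroup ↥(Cfsg.signalizerInf B θ)).map (Cfsg.signalizerInf B θ).subtype =
        Q ⊓ centralizer (B : Set G) := by
  set H := Cfsg.signalizerInf B θ with hH
  have hHmem := signalizerInf_mem hA hθ hB hB1
  obtain ⟨c, hc, S, hS⟩ := exists_sylow_inf hA hθ hA3 hqp hQ hQq hQm hHmem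
  have hcH : c ∈ H := Subgroup.mem_iInf.mpr fun b =>
    inf_le_theta hθ (hB b.2.1) b.2.2 hc
  refine ⟨(⟨c, hcH⟩ : ↥H)⁻¹ • S, ?_⟩
  rw [Sylow.coe_subgroup_smul]
  ext x
  constructor
  · rintro ⟨y, hy, rfl⟩
    rw [SetLike.mem_coe, CfsgLib.Core.mem_conj_smul, inv_inv] at hy
    have h1 : c * (y : G) * c⁻¹ ∈ (S : Subgroup ↥H).map H.subtype := ⟨_, hy, by simp⟩
    rw [hS] at h1
    obtain ⟨⟨u, hu, hu'⟩, -⟩ := h1
    have hu2 : u = (y : G) := by simpa using hu'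
    refine Subgroup.mem_inf.mpr ⟨by rw [hu2] at hu; exact hu, ?_⟩
    rw [Subgroup.coe_subtype, mem_centralizer_iff]
    intro b hb
    by_cases hb1 : b = 1
    · simp [hb1]
    exact (mem_centralizer_singleton_iff.mp
      (hθ.1.1 b (hB hb) hb1 (Subgroup.mem_iInf.mp y.2 ⟨b, hb, hb1⟩))).symm
  · intro hx
    obtain ⟨hxQ, hxC⟩ := Subgroup.mem_inf.mp hx
    have hxH : x ∈ H := Subgroup.mem_iInf.mpr fun b =>
      hQ.2.2.2 b (hB b.2.1) b.2.2 ⟨hxQ, centralizer_le (by simpa using b.2.1) hxC⟩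
    refine ⟨⟨x, hxH⟩, ?_, rfl⟩
    rw [SetLike.mem_coe, CfsgLib.Core.mem_conj_smul, inv_inv]
    have h1 : c * x * c⁻¹ ∈ (S : Subgroup ↥H).map H.subtype := by
      rw [hS]
      exact Subgroup.mem_inf.mpr ⟨⟨x, hxQ, rfl⟩, mul_mem (mul_mem hcH hxH) (inv_mem hcH)⟩
    obtain ⟨y, hy, hy'⟩ := h1
    have e : y = ⟨c, hcH⟩ * ⟨x, hxH⟩ * ⟨c, hcH⟩⁻¹ := Subtype.ext hy'
    exact e ▸ hy

end CfsgLib.Local.SF
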