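import Cfsg.Agent.Lib.CoreTransfer
import Mathlib

/-!
# Odd order automorphisms of small or dihedral `2`-groups
-/

set_option autoImplicit false

namespace CfsgLib.Local.SmallAut

variable {Q : Type*} [Group Q] [Finite Q]

/-- The fixed subgroup of an automorphism. -/
def fix (φ : MulAut Q) : Subgroup Q := (φ : Q ≃* Q).toMonoidHom.eqLocus (MonoidHom.id Q)

theorem mem_fix {φ : MulAut Q} {x : Q} : x ∈ fix φ ↔ φ x = x := Iff.rfl

/-- An automorphism of prime order moves a multiple of that prime of elements. -/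
theorem dvd_card_sub_fix {q : ℕ} [hq : Fact q.Prime] (φ : MulAut Q) (hφ : orderOf φ = q) :
    (Nat.card Q : ℤ) ≡ Nat.card (fix φ) [ZMOD q] ∧ fix φ ≠ ⊤ := by
  refine ⟨?_, ?_⟩
  · have hp : IsPGroup q (Subgroup.zpowers φ) :=
      IsPGroup.of_card (n := 1) (by rw [Nat.card_zpowers, hφ, pow_one])
    have h := hp.card_modEq_card_fixedPoints Q
    have e : Nat.card (MulAction.fixedPoints (Subgroup.zpowers φ) Q) = Nat.card (fix φ) := by
      refine Nat.card_congr (Equiv.subtypeEquivRight fun x => ?_)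
      constructor
      · intro h
        exact h ⟨φ, Subgroup.mem_zpowers φ⟩
      · intro h m
        have hle : Subgroup.zpowers φ ≤ MulAction.stabilizer (MulAut Q) x :=
          Subgroup.zpowers_le.mpr h
        exact hle m.2
    rw [e] at h
    exact_mod_cast h
  · intro h
    have : φ = 1 := MulEquiv.ext fun x => mem_fix.mp (h ▸ Subgroup.mem_top x)
    rw [this, orderOf_one] at hφ
    exact hq.out.ne_one hφ.symm

theorem sub_fix_dvd {q : ℕ} [Fact q.Prime] (φ : MulAut Q) (hφ : orderOf φ = q) :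
    q ∣ Nat.card Q - Nat.card (fix φ) := by
  have h := (dvd_card_sub_fix φ hφ).1
  rw [Int.natCast_modEq_iff] at h
  exact (Nat.modEq_iff_dvd' (Subgroup.card_le_card_group _)).mp h.symm

/-- An odd prime order automorphism of a group of order dividing `8`. -/
theorem prime_of_card_dvd_eight {q : ℕ} [hq : Fact q.Prime] (hq2 : q ≠ 2) (φ : MulAut Q)
    (hφ : orderOf φ = q) (h8 : Nat.card Q ∣ 8) : q = 3 ∨ q = 7 := by
  have h := sub_fix_dvd φ hφ
  have hne := (dvd_card_sub_fix φ hφ).2
  have hlt : Nat.card (fix φ) < Nat.card Q := lt_of_le_of_ne (Subgroup.card_le_card_group _)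
    fun e => hne (Subgroup.eq_top_of_card_eq _ e)
  have hd : Nat.card (fix φ) ∣ Nat.card Q := Subgroup.card_subgroup_dvd_card _
  have hd8 := hd.trans h8
  have hQ8 : Nat.card Q ≤ 8 := Nat.le_of_dvd (by norm_num) h8
  have hq7 : q ≤ 7 := (Nat.le_of_dvd (by omega) h).trans (by
    have : 0 < Nat.card (fix φ) := Nat.card_pos
    omega)
  have h2 : 2 ≤ q := hq.out.two_le
  generalize Nat.card Q = a at *
  generalize Nat.card (fix φ) = b at *
  interval_cases q
  · exact absurd rfl hq2
  · exact Or.inl rfl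
  · exact absurd hq.out (by norm_num)
  · interval_cases a <;> interval_cases b <;> omega
  · exact absurd hq.out (by norm_num)
  · exact Or.inr rfl

/-- A subgroup of a dihedral `2`-group has no odd prime order automorphism fixing an involution. -/
theorem no_odd_fixing {k : ℕ} (hQ : Nat.card Q = 2 ^ k) {q : ℕ} [hq : Fact q.Prime] (hq2 : q ≠ 2)
    (φ : MulAut Q) (hφ : orderOf φ = q) (D : Subgroup Q) [IsCyclic D] (hDi : D.index ≤ 2)
    (hD : ∀ x ∉ D, x ^ 2 = 1) {t : Q} (ht : t ≠ 1) (htφ : φ t = t) : False := by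
  classical
  have h := sub_fix_dvd φ hφ
  have hne := (dvd_card_sub_fix φ hφ).2
  -- the fixed subgroup has index two
  have hfix : Nat.card Q ≤ 2 * Nat.card (fix φ) := by
    by_cases h4 : Nat.card Q ≤ 4
    · have : 1 < Nat.card (fix φ) := Finite.one_lt_card_iff_nontrivial.mpr
        ⟨⟨⟨t, htφ⟩, 1, fun e => ht (congrArg Subtype.val e)⟩⟩
      omega
    obtain ⟨g, hg⟩ := IsCyclic.exists_generator (α := D)
    have hcD : Nat.card Q ≤ 2 * Nat.card D := by
      rw [← D.index_mul_card]
      exact Nat.mul_le_mul_right _ hDi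
    have hog : orderOf (g : Q) = Nat.card D := by
      rw [Subgroup.orderOf_coe, orderOf_eq_card_of_forall_mem_zpowers hg]
    have hmove : φ (g : Q) ∈ D := by
      by_contra hc
      have h1 : orderOf (φ (g : Q)) ≤ 2 := Nat.le_of_dvd two_pos (orderOf_dvd_of_pow_eq_one (hD _ hc))
      rw [MulEquiv.orderOf_eq, hog] at h1
      omega
    have hinv : ∀ x ∈ D, φ x ∈ D := by
      intro x hx
      obtain ⟨i, hi⟩ := Subgroup.mem_zpowers_iff.mp (hg ⟨x, hx⟩)
      have : (g : Q) ^ i = x := by simpa using congrArg Subtype.val hi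
      rw [← this, map_zpow]
      exact zpow_mem hmove i
    obtain ⟨a, ha⟩ := Subgroup.mem_zpowers_iff.mp (hg ⟨φ (g : Q), hmove⟩)
    have ha' : (g : Q) ^ a = φ (g : Q) := by simpa using congrArg Subtype.val ha
    have hit : ∀ n : ℕ, (φ ^ n) (g : Q) = (g : Q) ^ (a ^ n) := by
      intro n
      induction n with
      | zero => simp
      | succ n ih => rw [pow_succ', MulAut.mul_apply, ih, map_zpow, ← ha', ← zpow_mul, ← pow_succ']
    have hgfix : φ (g : Q) = g := by
      have h1 := hit q
      rw [← hφ, pow_orderOf_eq_one, MulAut.one_apply, hφ] at h1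
      obtain ⟨j, hj⟩ : ∃ j, Nat.card D = 2 ^ j := by
        obtain ⟨j, -, hj⟩ := (Nat.dvd_prime_pow Nat.prime_two).mp (hQ ▸ D.card_subgroup_dvd_card)
        exact ⟨j, hj⟩
      haveI : NeZero (2 ^ j) := ⟨by positivity⟩
      have hz : ((a : ZMod (2 ^ j))) ^ q = 1 := by
        have h2 : (g : Q) ^ (1 : ℤ) = (g : Q) ^ (a ^ q) := by rw [zpow_one]; exact h1
        rw [zpow_eq_zpow_iff_modEq, hog, hj] at h2
        have := (ZMod.intCast_eq_intCast_iff _ _ _).mpr h2.symm
        simpa using this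
      let u : (ZMod (2 ^ j))ˣ := Units.ofPowEqOne _ q hz hq.out.ne_zero
      have h3 : orderOf u ∣ q := orderOf_dvd_of_pow_eq_one (Units.pow_ofPowEqOne hz hq.out.ne_zero)
      have h4 : orderOf u ∣ Nat.totient (2 ^ j) := ZMod.card_units_eq_totient (2 ^ j) ▸ orderOf_dvd_card
      have h5 : orderOf u = 1 := by
        refine Nat.eq_one_of_dvd_coprimes ?_ h3 h4
        rcases j with _ | j
        · simp
        · rw [Nat.totient_prime_pow_succ Nat.prime_two, show (2 : ℕ) - 1 = 1 from rfl, mul_one]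
          exact ((Nat.coprime_primes hq.out Nat.prime_two).mpr hq2).pow_right j
      have h6 : (a : ZMod (2 ^ j)) = ((1 : ℤ) : ZMod (2 ^ j)) := by
        rw [Int.cast_one]
        exact congrArg Units.val (orderOf_eq_one_iff.mp h5)
      rw [← ha']
      conv_rhs => rw [← zpow_one (g : Q)]
      rw [zpow_eq_zpow_iff_modEq, hog, hj]
      exact (ZMod.intCast_eq_intCast_iff _ _ _).mp h6
    have hle : D ≤ fix φ := by
      intro x hx
      obtain ⟨i, hi⟩ := Subgroup.mem_zpowers_iff.mp (hg ⟨x, hx⟩)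
      have : (g : Q) ^ i = x := by simpa using congrArg Subtype.val hi
      rw [mem_fix, ← this, map_zpow, hgfix]
    have := Subgroup.card_le_of_le hle
    omega
  obtain ⟨b, hb, hb'⟩ := (Nat.dvd_prime_pow Nat.prime_two).mp (hQ ▸ (fix φ).card_subgroup_dvd_card)
  have hlt : Nat.card (fix φ) < Nat.card Q := lt_of_le_of_ne (Subgroup.card_le_card_group _)
    fun e => hne (Subgroup.eq_top_of_card_eq _ e)
  rw [hQ, hb'] at h hlt hfix
  rw [← pow_succ'] at hfix
  have h1 := (Nat.pow_lt_pow_iff_right one_lt_two).mp hlt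
  have h2 := (Nat.pow_le_pow_iff_right one_lt_two).mp hfix
  obtain rfl : k = b + 1 := by omega
  rw [pow_succ, mul_two, Nat.add_sub_cancel] at h
  exact hq2 ((Nat.prime_dvd_prime_iff_eq hq.out Nat.prime_two).mp (hq.out.dvd_of_dvd_pow h))

variable {G : Type*} [Group G] [Finite G]

/-- An odd order element moving a subgroup gives an automorphism of odd prime order. -/
theorem exists_prime_aut (R : Subgroup G) {g : G} (hg : g ∈ Subgroup.normalizer (R : Set G))
    (hodd : (orderOf g).Coprime 2) (hne : g ∉ Subgroup.centralizer (R : Set G)) :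
    ∃ (q : ℕ) (φ : MulAut R), q.Prime ∧ q ≠ 2 ∧ orderOf φ = q ∧ q ∣ Nat.card G ∧
      ∀ x : R, g * (x : G) * g⁻¹ = x → φ x = x := by
  set ψ := R.normalizerMonoidHom ⟨g, hg⟩ with hψ
  have hd : orderOf ψ ∣ orderOf g := by
    rw [← Subgroup.orderOf_mk g hg]; exact orderOf_map_dvd _ _
  have h1 : orderOf ψ ≠ 1 := by
    rw [Ne, orderOf_eq_one_iff]
    intro h
    apply hne
    rw [Subgroup.mem_centralizer_iff]
    intro x hx
    have := congrArg Subtype.val (DFunLike.congr_fun h ⟨x, hx⟩)
    exact (mul_inv_eq_iff_eq_mul.mp this).symm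
  obtain ⟨q, hq, hqd⟩ := Nat.exists_prime_and_dvd h1
  have hpos : 0 < orderOf ψ := Nat.pos_of_ne_zero fun h => by
    have := Nat.eq_zero_of_zero_dvd (h ▸ hd); exact (orderOf_pos g).ne' this
  refine ⟨q, ψ ^ (orderOf ψ / q), hq, ?_, ?_, (hqd.trans hd).trans (orderOf_dvd_natCard g), fun x hx => ?_⟩
  · rintro rfl
    exact absurd (Nat.eq_one_of_dvd_coprimes hodd (hqd.trans hd) dvd_rfl) (by norm_num)
  · exact orderOf_pow_orderOf_div hpos.ne' hqd
  · have hfx : ψ x = x := Subtype.ext hx
    have : ∀ n : ℕ, (ψ ^ n) x = x := fun n => by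
      induction n with
      | zero => rfl
      | succ n ih => rw [pow_succ, MulAut.mul_apply, hfx, ih]
    exact this _

end CfsgLib.Local.SmallAut
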