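import Cfsg.Agent.Lib.LocalStableClosure
import Cfsg.Agent.Lib.LocalPStableTwo
import Cfsg.Agent.Lib.StableFunctor

/-!
# Applications of the stable normal closure
-/

set_option autoImplicit false

universe u

namespace CfsgLib.StableClosure

open Subgroup

variable {G : Type u} [Group G] [Finite G] {p : ℕ} [hp : Fact p.Prime]

theorem isCharPFunctor_closure :
    Cfsg.IsCharPFunctor.{u} p (fun Q _ => Cfsg.stableNormalClosure p Q) :=
  ⟨fun _ _ _ hQ _ => closure_ne_bot hQ, fun _ _ _ _ _ _ φ => closure_map_equiv φ⟩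

theorem sup_normalizer (hp5 : 5 ≤ p) (hsep : Cfsg.IsPSolvable p G) (S : Sylow p G) :
    Cfsg.pPrimeCore p G ⊔ normalizer (((Cfsg.stableNormalClosure p ↥(S : Subgroup G)).map
      (S : Subgroup G).subtype) : Set G) = ⊤ := by
  haveI := CfsgLib.Core.normal_pPrimeCore (G := G) p
  set f := QuotientGroup.mk' (Cfsg.pPrimeCore p G) with hf
  have hfs : Function.Surjective f := QuotientGroup.mk'_surjective _
  have hker : (Nat.card f.ker).Coprime p := by
    rw [hf, QuotientGroup.ker_mk']; exact CfsgLib.Core.coprime_card_pPrimeCore p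
  have hsep' := CfsgLib.Core.isPSolvable_of_surjective f hfs hsep
  have hn := closure_normal_of_stable (PStableTwo.isActionPStable (by omega)
    (PStableTwo.not_hasSL_of_isPSolvable hp5 hsep'))
    (CfsgLib.Core.centralizer_pCore_le_of_isPSolvable hsep'
      (CfsgLib.Core.pPrimeCore_quotient_pPrimeCore p)) (S.mapSurjective hfs)
  have hmap := CfsgLib.Stable.map_inducedFunctor (isCharPFunctor_closure (p := p)) S.2 f
    (CfsgLib.Stable.injOn_of_coprime_ker f hker S.2)
  set W := (Cfsg.stableNormalClosure p ↥(S : Subgroup G)).map (S : Subgroup G).subtype with hW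
  haveI hn' : (W.map f).Normal := by
    rw [show W = Cfsg.inducedFunctor (fun Q _ => Cfsg.stableNormalClosure p Q) (S : Subgroup G) from rfl,
      hmap]
    exact hn
  have htop : (normalizer (W : Set G)).map f = ⊤ := by
    rw [← CfsgLib.Stable.normalizer_map_eq f hfs hker (S.2.to_le (map_subtype_le _)),
      normalizer_eq_top]
  refine eq_top_iff.mpr fun g _ => ?_
  obtain ⟨n, hn2, he⟩ : f g ∈ (normalizer (W : Set G)).map f := htop ▸ mem_top _
  have : g * n⁻¹ ∈ Cfsg.pPrimeCore p G := by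
    rw [← QuotientGroup.eq_one_iff]
    show f (g * n⁻¹) = 1
    rw [map_mul, map_inv, he, mul_inv_cancel]
  rw [show g = g * n⁻¹ * n by group]
  exact mul_mem_sup this hn2

theorem abelian_two_of_series (hodd : p ≠ 2) {X : Type u} [Group X] [Finite X]
    (h : CfsgLib.Stable.HasSeries p X) (R : Sylow 2 X) : IsMulCommutative R := by
  obtain ⟨U, N, hU, hN, hUp, hUN, hcomm, -, hpow⟩ := h
  haveI : Fact (Nat.Prime 2) := ⟨Nat.prime_two⟩
  obtain ⟨i, hi⟩ := IsPGroup.iff_card.mp R.2
  have hRN : ∀ x ∈ (R : Subgroup X), x ∈ N := by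
    intro x hx
    obtain ⟨k, hk⟩ := hpow x
    obtain ⟨j, hj⟩ := exists_pow_eq_self_of_coprime (x := x) (n := p ^ k)
      (Nat.Coprime.coprime_dvd_right ((Subgroup.orderOf_dvd_natCard _ hx).trans hi.dvd)
        (((Nat.coprime_primes hp.out Nat.prime_two).mpr hodd).pow k i))
    rw [← hj]; exact pow_mem hk j
  refine ⟨⟨fun x y => Subtype.ext ?_⟩⟩
  have h1 : (x : X) * y * (x : X)⁻¹ * (y : X)⁻¹ ∈ (R : Subgroup X) ⊓ U :=
    mem_inf.mpr ⟨(R : Subgroup X).mul_mem ((R : Subgroup X).mul_mem ((R : Subgroup X).mul_mem x.2 y.2) ((R : Subgroup X).inv_mem x.2)) ((R : Subgroup X).inv_mem y.2),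
      hcomm _ (hRN x x.2) _ (hRN y y.2)⟩
  have hbot : (R : Subgroup X) ⊓ U = ⊥ :=
    IsPGroup.disjoint_of_ne 2 p hodd.symm _ _ R.2 hUp |>.eq_bot
  rw [hbot, mem_bot, mul_inv_eq_one, mul_inv_eq_iff_eq_mul] at h1
  exact h1

theorem npc_of_closure (hodd : p ≠ 2) (S : Sylow p G)
    (hN : Cfsg.HasNormalPComplement p ↥(normalizer (((Cfsg.stableNormalClosure p ↥(S : Subgroup G)).map
      (S : Subgroup G).subtype) : Set G))) : Cfsg.HasNormalPComplement p G := by
  refine CfsgLib.Stable.npc_of_functor isCharPFunctor_closure S hN fun K R _ hC hQ T hT => ?_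
  exact closure_normal_of_stable (PStableTwo.isActionPStable hodd (PStableTwo.not_hasSL_of_abelian hodd
    (abelian_two_of_series hodd (CfsgLib.Stable.hasSeries_of_reduced hQ T hT)))) hC T

end CfsgLib.StableClosure
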