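import Cfsg.Agent.Lib.LocalFactor
import Cfsg.Agent.Lib.LocalReplacement
import Cfsg.Agent.Lib.LocalBase
import Cfsg.Agent.Lib.StableZJ
import Cfsg.Agent.Lib.CoreCoprime2

/-!
# The stable normal closure of `Ω₁(Z(S))`
-/

set_option autoImplicit false

universe u

namespace CfsgLib.StableClosure

open Subgroup
open CfsgLib.LocalFactor
open scoped commutatorElement

set_option linter.unusedSectionVars false

variable {G : Type u} [Group G] [Finite G] {p : ℕ} [hp : Fact p.Prime]

/-- `a` acts quadratically on `V`, element form. -/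
def Quad (a : G) (V : Subgroup G) : Prop := ∀ v ∈ V, Commute a ⁅v, a⁆

theorem quad_iff (a : G) (V : Subgroup G) :
    ⁅⁅V, zpowers a⁆, zpowers a⁆ = ⊥ ↔ Quad a V := by
  constructor
  · intro h v hv
    have h1 : ⁅⁅v, a⁆, a⁆ ∈ ⁅⁅V, zpowers a⁆, zpowers a⁆ := commutator_mem_commutator
      (commutator_mem_commutator hv (mem_zpowers a)) (mem_zpowers a)
    rw [h, mem_bot, commutatorElement_eq_one_iff_mul_comm] at h1
    exact h1.symm
  · intro h
    rw [commutator_eq_bot_iff_le_centralizer]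
    refine Subgroup.commutator_le.mpr fun v hv b hb => ?_
    obtain ⟨i, rfl⟩ := hb
    have hc := h v hv
    have e : ⁅v, a ^ i⁆ = ⁅v, a⁆ ^ i := by
      calc ⁅v, a ^ i⁆ = (v * a * v⁻¹) ^ i * (a ^ i)⁻¹ := by rw [commutatorElement_def, conj_zpow]
        _ = (⁅v, a⁆ * a) ^ i * (a ^ i)⁻¹ := by rw [commutatorElement_def, inv_mul_cancel_right]
        _ = ⁅v, a⁆ ^ i := by rw [hc.symm.mul_zpow, mul_inv_cancel_right]
    show ⁅v, a ^ i⁆ ∈ _
    rw [e]
    refine zpow_mem (mem_centralizer_iff.mpr ?_) i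
    rintro _ ⟨j, rfl⟩
    exact (hc.zpow_left j).eq

theorem quad_map {H : Type u} [Group H] (f : G →* H) (hf : Function.Injective f) (a : G)
    (V : Subgroup G) : Quad (f a) (V.map f) ↔ Quad a V := by
  constructor
  · intro h v hv
    have h1 := h (f v) ⟨v, hv, rfl⟩
    rw [← map_commutatorElement] at h1
    exact hf (by rw [map_mul, map_mul]; exact h1.eq)
  · rintro h _ ⟨v, hv, rfl⟩
    rw [← map_commutatorElement]
    exact (h v hv).map f

theorem quad_conj (V : Subgroup G) [V.Normal] (h : G) {a : G} (ha : Quad a V) :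
    Quad (h * a * h⁻¹) V := fun v hv => by
  have h1 := ha (h⁻¹ * v * h) (by simpa using (inferInstance : V.Normal).conj_mem v hv h⁻¹)
  have h2 := h1.map (MulAut.conj h).toMonoidHom
  rw [map_commutatorElement] at h2
  simp only [MulEquiv.coe_toMonoidHom, MulAut.conj_apply] at h2
  rwa [show h * (h⁻¹ * v * h) * h⁻¹ = v by group] at h2

theorem quad_of_mul (V : Subgroup G) [V.Normal] {s c : G} (hc : c ∈ centralizer (V : Set G))
    (h : Quad (s * c) V) : Quad s V := fun v hv => by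
  have hc' : ∀ w ∈ V, w * c = c * w := fun w hw => mem_centralizer_iff.mp hc w hw
  have e : ⁅v, s * c⁆ = ⁅v, s⁆ := by
    calc ⁅v, s * c⁆ = v * s * (c * v⁻¹) * c⁻¹ * s⁻¹ := by rw [commutatorElement_def]; group
      _ = v * s * (v⁻¹ * c) * c⁻¹ * s⁻¹ := by rw [hc' _ (inv_mem hv)]
      _ = ⁅v, s⁆ := by rw [commutatorElement_def]; group
  have hm : ⁅v, s⁆ ∈ V := by
    rw [commutatorElement_def, show v * s * v⁻¹ * s⁻¹ = v * (s * v⁻¹ * s⁻¹) by group]
    exact mul_mem hv ((inferInstance : V.Normal).conj_mem _ (inv_mem hv) s)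
  have h1 : s * c * ⁅v, s⁆ = ⁅v, s⁆ * (s * c) := by
    have := (h v hv).eq
    rwa [e] at this
  show s * ⁅v, s⁆ = ⁅v, s⁆ * s
  refine mul_right_cancel (b := c) ?_
  rw [mul_assoc, hc' _ hm, ← mul_assoc, h1, mul_assoc]

theorem isPStableOn_iff (V : Subgroup G) [V.Normal] (hst : Cfsg.IsPStableOn p V) (P : Sylow p G)
    {a : G} (ha : Quad a V) (h : G) :
    ∃ s ∈ (P : Subgroup G), ∃ c ∈ centralizer (V : Set G), h * a * h⁻¹ = s * c ∧ Quad s V := by
  have hq := quad_conj V h ha
  have hK := hst _ ((quad_iff _ V).mpr hq)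
  have h1 := CfsgLib.Stable.preimage_pCore_le P (centralizer (V : Set G)) hK
  rw [sup_comm] at h1
  obtain ⟨s, hs, c, hc, e⟩ := Subgroup.mem_sup_of_normal_right.mp h1
  refine ⟨s, hs, c, hc, e.symm, quad_of_mul V hc ?_⟩
  rw [e]; exact hq

variable {S : Type u} [Group S] [Finite S]

/-- The family whose intersection is the stable normal closure. -/
def family (p : ℕ) (S : Type u) [Group S] : Set (Subgroup S) :=
  {W : Subgroup S | Cfsg.omegaOne p (Subgroup.center S) ≤ W ∧
    ∀ (H : Type u) [Group H] (τ : S →* H), Cfsg.IsStableEmbedding p τ → (W.map τ).Normal}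

theorem closure_eq : Cfsg.stableNormalClosure p S = sInf (family p S) := rfl

theorem omegaCT_eq : Cfsg.omegaCenterThompson p S = Zc p (Cfsg.thompsonSubgroup p S) := rfl

theorem omegaCT_mem : Cfsg.omegaCenterThompson p S ∈ family p S := by
  refine ⟨?_, fun H _ τ hτ => ?_⟩
  · rw [← (CfsgLib.LocalThompson.sInf_max_eq_omega (G := S) (p := p)).1]
    exact (closure_le _).mpr fun x hx => mem_sInf.mpr fun A hA =>
      CfsgLib.LocalThompson.mem_of_max_of_commute hA hx.2 fun a _ => mem_center_iff.mp hx.1 a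
  · obtain ⟨hinj, hfin, -, -, hn, -⟩ := hτ
    haveI := hfin
    rw [omegaCT_eq, ← Zc_map τ _ hinj.injOn]
    refine ⟨fun w hw g => ?_⟩
    have e : ((Cfsg.thompsonSubgroup p S).map τ).map (MulAut.conj g).toMonoidHom =
        (Cfsg.thompsonSubgroup p S).map τ := by
      ext y
      constructor
      · rintro ⟨x, hx, rfl⟩; exact hn.conj_mem x hx g
      · intro hy
        exact ⟨g⁻¹ * y * g, by simpa using hn.conj_mem y hy g⁻¹, by
          show g * (g⁻¹ * y * g) * g⁻¹ = y; group⟩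
    have h1 := Zc_map (p := p) (MulAut.conj g).toMonoidHom ((Cfsg.thompsonSubgroup p S).map τ)
      (MulAut.conj g).injective.injOn
    rw [e] at h1
    rw [h1]
    exact ⟨w, hw, rfl⟩

theorem closure_le_omegaCT : Cfsg.stableNormalClosure p S ≤ Cfsg.omegaCenterThompson p S :=
  sInf_le omegaCT_mem

theorem omega_le_closure : Cfsg.omegaOne p (Subgroup.center S) ≤ Cfsg.stableNormalClosure p S :=
  le_sInf fun _ hU => hU.1

theorem closure_map_normal {H : Type u} [Group H] (τ : S →* H) (hτ : Cfsg.IsStableEmbedding p τ) :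
    ((Cfsg.stableNormalClosure p S).map τ).Normal := by
  refine ⟨?_⟩
  rintro _ ⟨w, hw, rfl⟩ g
  obtain ⟨y, -, hy⟩ := (omegaCT_mem.2 H τ hτ).conj_mem _ ⟨w, closure_le_omegaCT hw, rfl⟩ g
  refine ⟨y, mem_sInf.mpr fun U hU => ?_, hy⟩
  obtain ⟨z, hz, he⟩ := (hU.2 H τ hτ).conj_mem _ ⟨w, mem_sInf.mp hw U hU, rfl⟩ g
  rwa [← hτ.1 (he.trans hy.symm)]

theorem closure_isEA : Cfsg.IsElementaryAbelian p (Cfsg.stableNormalClosure p S) := by
  obtain ⟨A, hA⟩ := CfsgLib.LocalThompson.exists_max (G := S) (p := p)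
  refine CfsgLib.LocalThompson.isEA_of_le hA.1 (closure_le_omegaCT.trans ?_)
  rw [← (CfsgLib.LocalThompson.sInf_max_eq_omega (G := S) (p := p)).1]
  exact sInf_le hA

theorem closure_map_equiv {S' : Type u} [Group S'] (η : S ≃* S') :
    (Cfsg.stableNormalClosure p S).map η.toMonoidHom = Cfsg.stableNormalClosure p S' := by
  have key : ∀ {A B : Type u} [Group A] [Group B] [Finite A] (η : A ≃* B),
      Cfsg.stableNormalClosure p B ≤ (Cfsg.stableNormalClosure p A).map η.toMonoidHom := by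
    intro A B _ _ _ η
    refine sInf_le ⟨?_, fun H _ τ hτ => ?_⟩
    · refine (closure_le _).mpr fun x hx => ⟨η.symm x, omega_le_closure (subset_closure ⟨?_, ?_⟩),
        η.apply_symm_apply x⟩
      · exact mem_center_iff.mpr fun a => η.injective (by
          rw [map_mul, map_mul, η.apply_symm_apply]; exact mem_center_iff.mp hx.1 (η a))
      · rw [← map_pow, hx.2, map_one]
    · rw [Subgroup.map_map]
      refine closure_map_normal _ ?_
      obtain ⟨hinj, hfin, ⟨P, hP⟩, hc, hn, hst⟩ := hτ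
      haveI : Finite B := Finite.of_equiv A η.toEquiv
      have hJ := thompson_map_equiv (p := p) η
      refine ⟨hinj.comp η.injective, hfin, ⟨P, ?_⟩, hc, ?_, fun V _ hV => hst V ?_⟩
      · rw [hP, MonoidHom.range_comp, MonoidHom.range_eq_map η.toMonoidHom,
          Subgroup.map_top_of_surjective _ η.surjective, ← MonoidHom.range_eq_map]
      · rw [← Subgroup.map_map, hJ]; exact hn
      · refine hV.trans ?_
        rw [← Subgroup.map_map, omegaCT_eq, omegaCT_eq, ← Zc_map η.toMonoidHom _ η.injective.injOn, hJ]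
  haveI : Finite S' := Finite.of_equiv S η.toEquiv
  refine le_antisymm ?_ (key η)
  refine (map_mono (key η.symm)).trans ?_
  rw [Subgroup.map_map]
  rintro _ ⟨x, hx, rfl⟩
  simpa using hx

theorem closure_characteristic : (Cfsg.stableNormalClosure p S).Characteristic :=
  characteristic_iff_map_eq.mpr fun e => closure_map_equiv e

theorem closure_ne_bot (hS : IsPGroup p S) [Nontrivial S] : Cfsg.stableNormalClosure p S ≠ ⊥ := by
  haveI := hS.center_nontrivial
  obtain ⟨w, hw⟩ : ∃ w : Subgroup.center S, orderOf w = p := by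
    refine exists_prime_orderOf_dvd_card' p ?_
    rcases (hS.to_subgroup (Subgroup.center S)).card_eq_or_dvd with h | h
    · exact absurd h Finite.one_lt_card.ne'
    · exact h
  intro e
  have h1 : (w : S) ∈ Cfsg.stableNormalClosure p S := omega_le_closure (subset_closure
    ⟨w.2, by rw [← hw, ← Subgroup.orderOf_coe, pow_orderOf_eq_one]⟩)
  rw [e, mem_bot] at h1
  rw [← Subgroup.orderOf_coe, h1, orderOf_one] at hw
  exact hp.out.one_lt.ne hw

theorem quad_centralizes {x : S} (hx : Quad x (Cfsg.stableNormalClosure p S)) :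
    ∀ w ∈ Cfsg.stableNormalClosure p S, Commute x w := by
  set W := Cfsg.stableNormalClosure p S with hW
  suffices h : W ⊓ centralizer {y : S | Quad y W} ∈ family p S from fun w hw =>
    mem_centralizer_iff.mp (mem_inf.mp ((sInf_le h : W ≤ _) hw)).2 x hx
  refine ⟨le_inf omega_le_closure ((closure_le _).mpr fun z hz =>
    mem_centralizer_iff.mpr fun y _ => mem_center_iff.mp hz.1 y), fun H _ τ hτ => ?_⟩
  have hWn := closure_map_normal τ hτ
  obtain ⟨hinj, hfin, ⟨P, hP⟩, -, -, hst⟩ := id hτ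
  haveI := hfin
  haveI := hWn
  refine ⟨?_⟩
  rintro _ ⟨u, hu, rfl⟩ h
  obtain ⟨huW, huC⟩ := mem_inf.mp hu
  obtain ⟨w, hw, he⟩ := hWn.conj_mem _ ⟨u, huW, rfl⟩ h
  refine ⟨w, mem_inf.mpr ⟨hw, mem_centralizer_iff.mpr fun y hy => hinj ?_⟩, he⟩
  obtain ⟨s, hs, c, hc, e, hsq⟩ := isPStableOn_iff _
    (hst (W.map τ) (map_mono closure_le_omegaCT)) P ((quad_map τ hinj y W).mpr hy) h⁻¹
  rw [hP] at hs
  obtain ⟨s, rfl⟩ := hs
  have h1 : Commute (τ s) (τ u) :=
    (show Commute s u from mem_centralizer_iff.mp huC s ((quad_map τ hinj s W).mp hsq)).map τ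
  have h2 : Commute (τ s * c) (τ u) :=
    h1.mul_left (mem_centralizer_iff.mp hc (τ u) ⟨u, huW, rfl⟩).symm
  rw [← e] at h2
  rw [map_mul, map_mul, he]
  calc τ y * (h * τ u * h⁻¹) = h * (h⁻¹ * τ y * h⁻¹⁻¹ * τ u) * h⁻¹ := by group
    _ = h * (τ u * (h⁻¹ * τ y * h⁻¹⁻¹)) * h⁻¹ := by rw [h2.eq]
    _ = h * τ u * h⁻¹ * τ y := by group

theorem thompsonOf_inf_eq (U C : Subgroup G) (hJC : Cfsg.thompsonSubgroupOf p U ≤ C) :
    Cfsg.thompsonSubgroupOf p (U ⊓ C) = Cfsg.thompsonSubgroupOf p U := by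
  have hmem : ∀ A : Subgroup G, (A ≤ U ∧ Cfsg.IsElementaryAbelian p A ∧
      ∀ D : Subgroup G, D ≤ U → Cfsg.IsElementaryAbelian p D → Nat.card D ≤ Nat.card A) →
      A ≤ U ⊓ C := fun A hA =>
    le_inf hA.1 (le_trans (by rw [CfsgLib.LocalThompson.thompsonOf_eq]; exact le_sSup hA) hJC)
  obtain ⟨B₀, hB₀⟩ := CfsgLib.LocalThompson.exists_max (G := U) (p := p)
  obtain ⟨hA₁, hA₂, hA₃⟩ := (CfsgLib.LocalThompson.map_max_iff U).mp ⟨B₀, hB₀, rfl⟩
  rw [CfsgLib.LocalThompson.thompsonOf_eq, CfsgLib.LocalThompson.thompsonOf_eq]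
  refine le_antisymm (sSup_le fun A hA => le_sSup ⟨hA.1.trans inf_le_left, hA.2.1, fun D hD hDe =>
    (hA₃ D hD hDe).trans (hA.2.2 _ (hmem _ ⟨hA₁, hA₂, hA₃⟩) hA₂)⟩) (sSup_le fun A hA => ?_)
  exact le_sSup ⟨hmem A hA, hA.2.1, fun D hD hDe => hA.2.2 D (hD.trans inf_le_left) hDe⟩

theorem closure_normal_of_stable (hst : Cfsg.IsActionPStable p G)
    (hc : centralizer (Cfsg.pCore p G : Set G) ≤ Cfsg.pCore p G) (S : Sylow p G) :
    ((Cfsg.stableNormalClosure p ↥(S : Subgroup G)).map (S : Subgroup G).subtype).Normal := by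
  set Q := Cfsg.pCore p G with hQ
  haveI hQn : Q.Normal := CfsgLib.Core.normal_pCore p
  have hQS : Q ≤ (S : Subgroup G) := CfsgLib.Core.pCore_le_sylow S
  set W := (Cfsg.stableNormalClosure p ↥(S : Subgroup G)).map (S : Subgroup G).subtype with hW
  have hWS : W ≤ (S : Subgroup G) := map_subtype_le _
  have hWea : Cfsg.IsElementaryAbelian p W := CfsgLib.LocalThompson.isEA_map _ closure_isEA
  haveI := closure_characteristic (S := ↥(S : Subgroup G)) (p := p)
  have hSW : ∀ s ∈ (S : Subgroup G), ∀ w ∈ W, s * w * s⁻¹ ∈ W := by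
    rintro s hs _ ⟨w, hw, rfl⟩
    exact ⟨⟨s, hs⟩ * w * ⟨s, hs⟩⁻¹, (inferInstance : (Cfsg.stableNormalClosure p
      ↥(S : Subgroup G)).Normal).conj_mem w hw _, rfl⟩
  have hcomm : ∀ s ∈ (S : Subgroup G), ∀ w ∈ W, ⁅w, s⁆ ∈ W := fun s hs w hw => by
    rw [commutatorElement_def, show w * s * w⁻¹ * s⁻¹ = w * (s * w⁻¹ * s⁻¹) by group]
    exact mul_mem hw (hSW s hs _ (inv_mem hw))
  have hcS : ∀ y ∈ (S : Subgroup G), Quad y W → ∀ w ∈ W, Commute y w := by
    intro y hy hq
    have h1 := quad_centralizes (p := p) ((quad_map (S : Subgroup G).subtype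
      (S : Subgroup G).subtype_injective ⟨y, hy⟩ _).mp hq)
    rintro _ ⟨w, hw, rfl⟩
    exact (h1 w hw).map (S : Subgroup G).subtype
  -- `W ≤ O_p(G)`
  have hWQ : W ≤ Q := by
    intro w hw
    haveI : ((frattini ↥Q).map Q.subtype).Normal :=
      CfsgLib.Core.map_subtype_normal_of_characteristic hQn inferInstance
    obtain ⟨D, hD, hKD, ⟨k, hk⟩, hwD⟩ := hst.2.1 w (by
      rw [(quad_iff w Q).mpr fun q hq => ?_]
      · exact bot_le
      refine CfsgLib.LocalThompson.ea_comm hWea hw ?_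
      rw [show ⁅q, w⁆ = ⁅w, q⁆⁻¹ by rw [commutatorElement_inv]]
      exact inv_mem (hcomm q (hQS hq) w hw))
    have hKp : IsPGroup p (Cfsg.sectionKernel Q ((frattini ↥Q).map Q.subtype)) := by
      refine CfsgLib.Local.isPGroup_of_coprime_eq_one fun x hx hcop => ?_
      have hQp : IsPGroup p Q := CfsgLib.Core.isPGroup_pCore p
      have h1 : zpowers x ≤ centralizer (Q : Set G) := by
        refine CfsgLib.Core.le_centralizer_of_trivial_mod_frattini
          (le_top.trans (normalizer_eq_top Q).ge) ?_ ?_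
        · obtain ⟨i, hi⟩ := IsPGroup.iff_card.mp (hQp.to_subgroup (frattini Q))
          rw [Nat.card_zpowers, hi]
          exact hcop.pow_right i
        · intro a ha q hq
          have ha' : a ∈ Cfsg.sectionKernel Q ((frattini ↥Q).map Q.subtype) := zpowers_le.mpr hx ha
          rw [← QuotientGroup.eq_one_iff]
          show QuotientGroup.mk' _ (a * q * a⁻¹ * q⁻¹) = 1
          rw [map_mul, map_mul, map_mul, map_inv, map_inv,
            ← mem_centralizer_iff.mp ha' _ ⟨q, hq, rfl⟩]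
          group
      exact CfsgLib.Local.eq_one_of_coprime_pgroup hQp (hc (h1 (mem_zpowers x))) hcop
    have hDp : IsPGroup p D := by
      obtain ⟨i, hi⟩ := IsPGroup.iff_card.mp hKp
      refine IsPGroup.of_card (n := i + k) ?_
      rw [← CfsgLib.Core.card_mul_relIndex hKD, hi, hk, pow_add]
    exact CfsgLib.Core.le_pCore hD hDp hwD
  set V := closure {x : G | ∃ g : G, ∃ w ∈ W, x = g * w * g⁻¹} with hV
  have hgen : ∀ g : G, ∀ w ∈ W, g * w * g⁻¹ ∈ V := fun g w hw => subset_closure ⟨g, w, hw, rfl⟩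
  have hQc : ∀ g : G, ∀ w ∈ W, g * w * g⁻¹ ∈ Q := fun g w hw => hQn.conj_mem w (hWQ hw) g
  have hVQ : V ≤ Q := (closure_le _).mpr (by rintro _ ⟨g, w, hw, rfl⟩; exact hQc g w hw)
  haveI hVn : V.Normal := ⟨fun v hv x => by
    have : V.map (MulAut.conj x).toMonoidHom ≤ V := by
      rw [hV, MonoidHom.map_closure]
      refine closure_mono ?_
      rintro _ ⟨_, ⟨g, w, hw, rfl⟩, rfl⟩
      exact ⟨x * g, w, hw, by show x * (g * w * g⁻¹) * x⁻¹ = _; group⟩
    exact this ⟨v, hv, rfl⟩⟩
  have hab : ∀ g : G, ∀ w ∈ W, ∀ u ∈ W, Commute (g * w * g⁻¹) u := by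
    intro g w hw
    refine hcS _ (hQS (hQc g w hw)) fun u hu => ?_
    -- the commutator lies in the abelian group `g W g⁻¹`
    have hgu : g⁻¹ * u * g ∈ (S : Subgroup G) := hQS (by simpa using hQc g⁻¹ u hu)
    have e : ⁅u, g * w * g⁻¹⁆ = g * ⁅g⁻¹ * u * g, w⁆ * g⁻¹ := by
      simp only [commutatorElement_def]; group
    have hm : ⁅g⁻¹ * u * g, w⁆ ∈ W := by
      rw [← commutatorElement_inv]; exact inv_mem (hcomm _ hgu w hw)
    rw [e]
    exact (CfsgLib.LocalThompson.ea_comm hWea hw hm).map (MulAut.conj g).toMonoidHom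
  have hVea : Cfsg.IsElementaryAbelian p V := by
    have hc2 : IsMulCommutative V := by
      rw [hV]
      refine isMulCommutative_closure ?_
      rintro _ ⟨g, w, hw, rfl⟩ _ ⟨g', w', hw', rfl⟩
      have h1 := (hab (g'⁻¹ * g) w hw w' hw').map (MulAut.conj g').toMonoidHom
      simp only [MulEquiv.coe_toMonoidHom, MulAut.conj_apply] at h1
      rw [show g' * (g'⁻¹ * g * w * (g'⁻¹ * g)⁻¹) * g'⁻¹ = g * w * g⁻¹ by group] at h1
      exact h1.eq
    refine ⟨hc2, fun x hx => ?_⟩
    induction hx using closure_induction with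
    | mem y hy => obtain ⟨g, w, hw, rfl⟩ := hy; rw [conj_pow, hWea.2 w hw, mul_one, mul_inv_cancel]
    | one => exact one_pow p
    | mul y z hy hz hy' hz' =>
      rw [(show Commute y z from congrArg Subtype.val (hc2.is_comm.comm (⟨y, hy⟩ : V) ⟨z, hz⟩)).mul_pow,
        hy', hz', one_mul]
    | inv y _ hy' => rw [inv_pow, hy', inv_one]
  -- every quadratic element centralizes `V`
  have hquad : ∀ a : G, Quad a V → a ∈ centralizer (V : Set G) := by
    intro a ha
    have hle : V ≤ centralizer ({a} : Set G) := by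
      refine (closure_le _).mpr ?_
      rintro _ ⟨g, w, hw, rfl⟩
      obtain ⟨s, hs, c, hc', e, hsq⟩ := isPStableOn_iff V (hst.1 V hVea) S ha g⁻¹
      have hwV : w ∈ V := by simpa using hgen 1 w hw
      have h1 : Commute (s * c) w := (hcS s hs (fun u hu => hsq u (by simpa using hgen 1 u hu)) w hw).mul_left
        (mem_centralizer_iff.mp hc' w hwV).symm
      rw [← e] at h1
      have h2 := h1.map (MulAut.conj g).toMonoidHom
      simp only [MulEquiv.coe_toMonoidHom, MulAut.conj_apply] at h2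
      rw [show g * (g⁻¹ * a * g⁻¹⁻¹) * g⁻¹ = a by group] at h2
      exact mem_centralizer_singleton_iff.mpr h2.eq.symm
    exact mem_centralizer_iff.mpr fun v hv => mem_centralizer_singleton_iff.mp (hle hv)
  set C := centralizer (V : Set G) with hC
  have hJC : Cfsg.thompsonSubgroupOf p (S : Subgroup G) ≤ C := by
    rw [Cfsg.thompsonSubgroupOf, Cfsg.thompsonSubgroup, sSup_eq_iSup', Subgroup.map_iSup]
    refine iSup_le fun A => ?_
    set V' := V.subgroupOf (S : Subgroup G) with hV'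
    have hV'ea : Cfsg.IsElementaryAbelian p V' :=
      CfsgLib.LocalThompson.isEA_of_map _ (S : Subgroup G).subtype_injective
        (by rw [map_subgroupOf_eq_of_le (hVQ.trans hQS)]; exact hVea)
    obtain ⟨-, hq, hne⟩ := CfsgLib.LocalThompson.replacement_max V' hV'ea A.2
    have h0 : ⁅V', (A : Subgroup ↥(S : Subgroup G))⁆ = ⊥ := by
      by_contra h
      apply hne h
      rw [commutator_eq_bot_iff_le_centralizer]
      intro v hv
      refine mem_centralizer_iff.mpr fun y hy => ?_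
      have h1 : Quad y V' := (quad_iff y V').mp (le_bot_iff.mp (le_of_le_of_eq
        (commutator_mono (commutator_mono le_rfl (zpowers_le.mpr hy)) (zpowers_le.mpr hy)) hq))
      have h2 := (quad_map (S : Subgroup G).subtype (S : Subgroup G).subtype_injective y V').mpr h1
      rw [map_subgroupOf_eq_of_le (hVQ.trans hQS)] at h2
      exact Subtype.ext (mem_centralizer_iff.mp (hquad _ h2) v hv).symm
    rw [commutator_eq_bot_iff_le_centralizer] at h0
    rintro _ ⟨a, ha, rfl⟩
    exact mem_centralizer_iff.mpr fun v hv => (congrArg Subtype.val (mem_centralizer_iff.mp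
      (h0 (show (⟨v, hQS (hVQ hv)⟩ : ↥(S : Subgroup G)) ∈ V' from hv)) a ha)).symm
  -- `W` is normalized by `N(J(S))`
  set N := normalizer (Cfsg.thompsonSubgroupOf p (S : Subgroup G) : Set G) with hN
  have hSN : (S : Subgroup G) ≤ N :=
    le_normalizer.trans (normalizer_le_normalizer_thompsonOf _)
  have hNW : ∀ n ∈ N, ∀ w ∈ W, n * w * n⁻¹ ∈ W := by
    set τ := inclusion hSN with hτ
    have hτs : N.subtype.comp τ = (S : Subgroup G).subtype := rfl
    have hr : τ.range = (S : Subgroup G).subgroupOf N := inclusion_range hSN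
    have hτe : Cfsg.IsStableEmbedding p τ := by
      refine ⟨inclusion_injective hSN, inferInstance, ⟨S.subtype hSN, ?_⟩, ?_, ?_, fun U _ hU => hst.2.2 S U ?_⟩
      · rw [Sylow.coe_subtype, hr]
      · have hle : Q.subgroupOf N ≤ Cfsg.pCore p ↥N := CfsgLib.Core.le_pCore
          inferInstance ((CfsgLib.Core.isPGroup_pCore p).comap_of_injective N.subtype N.subtype_injective)
        intro x hx
        refine hle (mem_subgroupOf.mpr (hc (mem_centralizer_iff.mpr fun q hq => ?_)))
        exact congrArg Subtype.val (mem_centralizer_iff.mp hx ⟨q, hSN (hQS hq)⟩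
          (hle (mem_subgroupOf.mpr hq)))
      · refine ⟨?_⟩
        rintro _ ⟨j, hj, rfl⟩ n
        obtain ⟨i, hi, he⟩ := (mem_normalizer_iff.mp n.2 _).mp (⟨j, hj, rfl⟩ :
          (j : G) ∈ Cfsg.thompsonSubgroupOf p (S : Subgroup G))
        exact ⟨i, hi, Subtype.ext he⟩
      · rw [← hτs, ← Subgroup.map_map]
        exact map_mono hU
    rintro n hn _ ⟨w, hw, rfl⟩
    obtain ⟨y, hy, he⟩ := (closure_map_normal τ hτe).conj_mem _ ⟨w, hw, rfl⟩ ⟨n, hn⟩
    exact ⟨y, hy, congrArg Subtype.val he⟩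
  obtain ⟨R, hR⟩ := CfsgLib.SylowProd.sylow_inf_normal C S
  refine ⟨fun w hw g => ?_⟩
  have hg : g ∈ normalizer ((R : Subgroup C).map C.subtype : Set G) ⊔ C := by
    rw [Sylow.normalizer_sup_eq_top R]; exact mem_top g
  obtain ⟨n, hn, c, hc', rfl⟩ := mem_sup_of_normal_right.mp hg
  rw [hR, map_subgroupOf_eq_of_le inf_le_right] at hn
  have hnN : n ∈ N := by
    rw [hN, ← thompsonOf_inf_eq _ C hJC]
    exact normalizer_le_normalizer_thompsonOf _ hn
  have hcw : c * w = w * c := (mem_centralizer_iff.mp hc' w (by simpa using hgen 1 w hw)).symm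
  have e : n * c * w * (n * c)⁻¹ = n * w * n⁻¹ := by
    calc n * c * w * (n * c)⁻¹ = n * (c * w) * c⁻¹ * n⁻¹ := by group
      _ = _ := by rw [hcw]; group
  rw [e]
  exact hNW n hnN w hw

end CfsgLib.StableClosure
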