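import Mathlib
import Cfsg.Prelude.Def_TwoFusion
import Cfsg.Prelude.Def_LocalEven
import Cfsg.Agent.Lib.LocalWellPlaced
import Cfsg.Agent.Lib.LocalTame
import Cfsg.Agent.Lib.CoreCoprime

/-!
# Strongly closed abelian subgroups control fusion
-/

set_option autoImplicit false
set_option linter.style.haveILetI false

universe u

namespace CfsgLib.Local.StronglyClosed

variable {G : Type u} [Group G] [Finite G] {p : ℕ} [hp : Fact p.Prime]

/-- The automorphisms induced on `U` that fix `D` and act trivially modulo `D`. -/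
def stab (N U D : Subgroup G) (hN : N ≤ Subgroup.normalizer (U : Set G)) : Subgroup G where
  carrier := {h | h ∈ N ∧ (∀ d ∈ D, h * d = d * h) ∧ ∀ u ∈ U, h * u * h⁻¹ * u⁻¹ ∈ D}
  mul_mem' := by
    rintro h k ⟨hh, h1, h2⟩ ⟨hk, k1, k2⟩
    refine ⟨N.mul_mem hh hk, fun d hd => ?_, fun u hu => ?_⟩
    · calc h * k * d = h * (k * d) := mul_assoc _ _ _
        _ = h * d * k := by rw [k1 d hd, mul_assoc]
        _ = d * (h * k) := by rw [h1 d hd, mul_assoc]
    · have e : h * k * u * (h * k)⁻¹ * u⁻¹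
          = h * (k * u * k⁻¹ * u⁻¹) * h⁻¹ * (h * u * h⁻¹ * u⁻¹) := by group
      rw [e]
      refine D.mul_mem ?_ (h2 u hu)
      rw [h1 _ (k2 u hu), mul_inv_cancel_right]
      exact k2 u hu
  one_mem' := ⟨N.one_mem, fun d _ => by simp, fun u _ => by simp⟩
  inv_mem' := by
    rintro h ⟨hh, h1, h2⟩
    refine ⟨N.inv_mem hh, fun d hd => ?_, fun u hu => ?_⟩
    · calc h⁻¹ * d = h⁻¹ * (d * h) * h⁻¹ := by group
        _ = h⁻¹ * (h * d) * h⁻¹ := by rw [h1 d hd]
        _ = d * h⁻¹ := by group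
    · have hu' : h⁻¹ * u * h ∈ U := (Subgroup.mem_normalizer_iff''.1 (hN hh) u).1 hu
      have := D.inv_mem (h2 _ hu')
      have e : h⁻¹ * u * h⁻¹⁻¹ * u⁻¹ = (h * (h⁻¹ * u * h) * h⁻¹ * (h⁻¹ * u * h)⁻¹)⁻¹ := by group
      rw [e]
      exact this

theorem mem_stab {N U D : Subgroup G} {hN : N ≤ Subgroup.normalizer (U : Set G)} {h : G} :
    h ∈ stab N U D hN ↔
      h ∈ N ∧ (∀ d ∈ D, h * d = d * h) ∧ ∀ u ∈ U, h * u * h⁻¹ * u⁻¹ ∈ D := Iff.rfl

/-- An element of order prime to `p` stabilising `1 ≤ D ≤ U` centralises `U`. -/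
theorem comm_of_stab {N U D : Subgroup G} {hN : N ≤ Subgroup.normalizer (U : Set G)}
    (hD : IsPGroup p ↥D) {y : G} (hy : y ∈ stab N U D hN) (hyp : ¬ p ∣ orderOf y) :
    ∀ u ∈ U, y * u = u * y := by
  intro u hu
  obtain ⟨-, h1, h2⟩ := hy
  set e := y * u * y⁻¹ * u⁻¹ with he
  have heD : e ∈ D := h2 u hu
  have hiter : ∀ i : ℕ, y ^ i * u * (y ^ i)⁻¹ = e ^ i * u := by
    intro i
    induction i with
    | zero => simp
    | succ i ih =>
      calc y ^ (i + 1) * u * (y ^ (i + 1))⁻¹ = y * (y ^ i * u * (y ^ i)⁻¹) * y⁻¹ := by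
            rw [pow_succ']; group
        _ = (y * e ^ i) * u * y⁻¹ := by rw [ih]; group
        _ = e ^ i * (y * u * y⁻¹) := by rw [h1 _ (D.pow_mem heD i)]; group
        _ = e ^ i * (e * u) := by rw [he]; group
        _ = e ^ (i + 1) * u := by rw [pow_succ]; group
  have hm := hiter (orderOf y)
  rw [pow_orderOf_eq_one, one_mul, inv_one, mul_one] at hm
  obtain ⟨k, hk⟩ := hD ⟨e, heD⟩
  have hk' : e ^ p ^ k = 1 := by simpa using congrArg Subtype.val hk
  have he1 : e = 1 := by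
    rw [← orderOf_eq_one_iff]
    refine Nat.eq_one_of_dvd_coprimes
      (((Nat.Prime.coprime_iff_not_dvd hp.out).2 hyp).pow_left k) (orderOf_dvd_of_pow_eq_one hk') ?_
    exact orderOf_dvd_of_pow_eq_one (mul_eq_right.1 hm.symm)
  calc y * u = (y * u * y⁻¹ * u⁻¹) * (u * y) := by group
    _ = u * y := by rw [← he, he1, one_mul]

/-- A strongly closed abelian subgroup controls strong fusion. -/
theorem controls (S : Sylow p G) (A : Subgroup G) (hA : IsMulCommutative ↥A)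
    (hsc : Cfsg.IsStronglyClosed A (S : Subgroup G)) (B : Set G) (g : G)
    (hB : B ⊆ (S : Subgroup G)) (hg : rc g B ⊆ ((S : Subgroup G) : Set G)) :
    ∃ x ∈ Subgroup.normalizer (A : Set G), ∀ b ∈ B, g⁻¹ * b * g = x⁻¹ * b * x := by
  have hAS : A ≤ (S : Subgroup G) := hsc.1
  refine fusion_induction S.2
    (fun B g => ∃ x ∈ Subgroup.normalizer (A : Set G), ∀ b ∈ B, g⁻¹ * b * g = x⁻¹ * b * x)
    (fun B C g hBC ⟨x, hx, h⟩ => ⟨x, hx, fun b hb => h b (hBC hb)⟩) ?_ ?_ B g hB hg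
  · rintro B g h ⟨x, hx, h1⟩ ⟨y, hy, h2⟩
    refine ⟨x * y, mul_mem hx hy, fun b hb => ?_⟩
    have := h2 _ ⟨b, hb, rfl⟩
    calc (g * h)⁻¹ * b * (g * h) = h⁻¹ * (g⁻¹ * b * g) * h := by group
      _ = y⁻¹ * (g⁻¹ * b * g) * y := this
      _ = (x * y)⁻¹ * b * (x * y) := by rw [h1 b hb]; group
  intro T hT
  obtain ⟨c, hc1, hc2⟩ := exists_fullyNorm_conj S T hT
  set U := T.map (MulAut.conj c).toMonoidHom with hU
  refine ⟨U, hc1, ⟨c⁻¹, by rw [rc_coe, inv_inv]⟩, hc2, fun hIH m hm => ?_⟩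
  have hcard : Nat.card ↥U = Nat.card ↥T :=
    Subgroup.card_map_of_injective (MulEquiv.injective _)
  have hclosed : ∀ n ∈ Subgroup.normalizer (U : Set G), ∀ a ∈ A, a ∈ U → n * a * n⁻¹ ∈ A :=
    fun n hn a ha haU => hsc.2 a ha n (hc1 ((Subgroup.mem_normalizer_iff.1 hn a).1 haU))
  by_cases hAU : A ≤ U
  · refine ⟨m, ?_, fun u _ => rfl⟩
    rw [Subgroup.mem_normalizer_iff]
    refine fun a => ⟨fun ha => hclosed m hm a ha (hAU ha), fun ha => ?_⟩
    have := hclosed m⁻¹ (inv_mem hm) _ ha (hAU ha)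
    simpa [mul_assoc] using this
  set N := Subgroup.normalizer (U : Set G) with hN
  set D := A ⊓ U with hD
  set K := stab N U D le_rfl with hK
  have hKN : K ≤ N := fun k hk => hk.1
  set N' := (S : Subgroup G) ⊓ N with hN'
  let QS : Sylow p ↥N := ((S.2.to_le inf_le_left).comap_subtype (K := N)).toSylow hc2
  haveI hKn : (K.subgroupOf N).Normal := by
    refine ⟨fun k hk n => ?_⟩
    rw [Subgroup.mem_subgroupOf] at hk ⊢
    obtain ⟨hk1, hk2, hk3⟩ := hk
    refine ⟨(n * k * n⁻¹ : ↥N).2, fun d hd => ?_, fun u hu => ?_⟩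
    · have hd' : (n : G)⁻¹ * d * n ∈ D :=
        ⟨by simpa using hclosed _ (N.inv_mem n.2) d hd.1 hd.2,
          (Subgroup.mem_normalizer_iff''.1 n.2 d).1 hd.2⟩
      calc ((n * k * n⁻¹ : ↥N) : G) * d
          = (n : G) * ((k : G) * ((n : G)⁻¹ * d * n)) * (n : G)⁻¹ := by simp [mul_assoc]
        _ = (n : G) * (((n : G)⁻¹ * d * n) * (k : G)) * (n : G)⁻¹ := by rw [hk2 _ hd']
        _ = d * ((n * k * n⁻¹ : ↥N) : G) := by simp [mul_assoc]
    · have h := hk3 _ ((Subgroup.mem_normalizer_iff''.1 n.2 u).1 hu)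
      have e : ((n * k * n⁻¹ : ↥N) : G) * u * ((n * k * n⁻¹ : ↥N) : G)⁻¹ * u⁻¹
          = (n : G) * ((k : G) * ((n : G)⁻¹ * u * n) * (k : G)⁻¹ * ((n : G)⁻¹ * u * n)⁻¹)
            * (n : G)⁻¹ := by simp [mul_assoc]
      rw [e]
      exact ⟨hclosed _ n.2 _ h.1 h.2, (Subgroup.mem_normalizer_iff.1 n.2 _).1 h.2⟩
  obtain ⟨l, hl, n, hn, hmn⟩ := frattini_decomp QS (K.subgroupOf N) ⟨m, hm⟩
  set Q := K.subgroupOf N ⊓ (QS : Subgroup ↥N) with hQdef
  -- every element of `K` is a product of a centraliser and an element of `Q`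
  set C := (Subgroup.centralizer (U : Set G) ⊓ K).subgroupOf N with hC
  have hQp : IsPGroup p ↥Q := QS.2.to_le inf_le_right
  have hdec : K.subgroupOf N ≤ C ⊔ Q := by
    set K' := K.subgroupOf N
    haveI hCn : (C.subgroupOf K').Normal := by
      refine ⟨fun z hz k => ?_⟩
      rw [Subgroup.mem_subgroupOf, hC, Subgroup.mem_subgroupOf, Subgroup.mem_inf] at hz ⊢
      refine ⟨Subgroup.mem_centralizer_iff.2 fun u hu => ?_, (k * z * k⁻¹).2⟩
      set a : G := ((k : ↥N) : G)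
      set b : G := ((z : ↥N) : G)
      have ha : a ∈ N := (k : ↥N).2
      have h := Subgroup.mem_centralizer_iff.1 hz.1 _ ((Subgroup.mem_normalizer_iff''.1 ha u).1 hu)
      show u * (a * b * a⁻¹) = (a * b * a⁻¹) * u
      calc u * (a * b * a⁻¹) = a * ((a⁻¹ * u * a) * b) * a⁻¹ := by group
        _ = a * (b * (a⁻¹ * u * a)) * a⁻¹ := by rw [h]
        _ = (a * b * a⁻¹) * u := by group
    rw [← Subgroup.relIndex_eq_one]
    have hCK : C ≤ K' := fun z hz => hz.2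
    have hpC : IsPGroup p (↥K' ⧸ C.subgroupOf K') := by
      intro q
      obtain ⟨k, rfl⟩ := QuotientGroup.mk_surjective q
      refine ⟨(orderOf k).factorization p, ?_⟩
      rw [← QuotientGroup.mk_pow, QuotientGroup.eq_one_iff, Subgroup.mem_subgroupOf, hC,
        Subgroup.mem_subgroupOf]
      set y : ↥K' := k ^ p ^ (orderOf k).factorization p
      refine ⟨Subgroup.mem_centralizer_iff.2 fun u hu => ?_, y.2⟩
      refine (comm_of_stab (hN := le_rfl) ((S.2.to_le hAS).to_le inf_le_left) y.2 ?_ u hu).symm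
      show ¬ p ∣ orderOf ((y : ↥N) : G)
      rw [Subgroup.orderOf_coe, Subgroup.orderOf_coe, orderOf_pow,
        Nat.gcd_eq_right (Nat.ordProj_dvd _ _)]
      exact Nat.not_dvd_ordCompl hp.out (orderOf_pos k).ne'
    have h1 : (C ⊔ Q).relIndex K' ∣ C.relIndex K' :=
      Subgroup.relIndex_dvd_of_le_left _ le_sup_left
    have h2 : (C ⊔ Q).relIndex K' ∣ Q.relIndex K' :=
      Subgroup.relIndex_dvd_of_le_left _ le_sup_right
    obtain ⟨j, hj⟩ := hpC.exists_card_eq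
    refine Nat.eq_one_of_dvd_coprimes ?_ (h1.trans (dvd_of_eq hj)) h2
    exact ((Nat.Prime.coprime_iff_not_dvd hp.out).2 (by
      rw [hQdef, inf_comm, Subgroup.inf_relIndex_right]
      exact not_dvd_relIndex_of_normal QS K')).pow_left j
  haveI hCnN : C.Normal := by
    refine ⟨fun z hz k => ?_⟩
    rw [hC, Subgroup.mem_subgroupOf, Subgroup.mem_inf] at hz ⊢
    refine ⟨Subgroup.mem_centralizer_iff.2 fun u hu => ?_,
      hKn.conj_mem z hz.2 k⟩
    set a : G := (k : G)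
    set b : G := (z : G)
    have h := Subgroup.mem_centralizer_iff.1 hz.1 _ ((Subgroup.mem_normalizer_iff''.1 k.2 u).1 hu)
    show u * (a * b * a⁻¹) = (a * b * a⁻¹) * u
    calc u * (a * b * a⁻¹) = a * ((a⁻¹ * u * a) * b) * a⁻¹ := by group
      _ = a * (b * (a⁻¹ * u * a)) * a⁻¹ := by rw [h]
      _ = (a * b * a⁻¹) * u := by group
  obtain ⟨cc, hcc, q, hq, hlq⟩ := Subgroup.mem_sup_of_normal_left.1 (hdec hl)
  -- the bigger subgroup
  set V := (U.subgroupOf N ⊔ Q).map N.subtype with hV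
  haveI hUn : (U.subgroupOf N).Normal := Subgroup.normal_in_normalizer
  have hUQ : U.subgroupOf N ⊔ Q ≤ (QS : Subgroup ↥N) :=
    sup_le (fun u hu => ⟨hc1 hu, u.2⟩) inf_le_right
  have hVS : V ≤ (S : Subgroup G) := fun v hv => by
    obtain ⟨v', hv', rfl⟩ := hv
    exact ((hUQ hv') : ((v' : G)) ∈ N').1
  have hn' : q * n ∈ Subgroup.normalizer (Q : Set ↥N) :=
    mul_mem (Subgroup.le_normalizer hq) hn
  have hUV : U ≤ V := fun u hu =>
    ⟨⟨u, Subgroup.le_normalizer hu⟩, Subgroup.mem_sup_left hu, rfl⟩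
  have hlt : Nat.card ↥T < Nat.card ↥V := by
    rw [← hcard]
    refine card_lt_card_of_lt (lt_of_le_not_ge hUV fun hle => ?_)
    -- an element of `A` normalising `U` outside it
    have hAUp : A ⊔ U ≤ (S : Subgroup G) := sup_le hAS hc1
    have hlt' : U < A ⊔ U := lt_of_le_not_ge le_sup_right fun h => hAU (le_sup_left.trans h)
    obtain ⟨w, hw, hwU⟩ := exists_normalizer_not_mem (S.2.to_le hAUp) hlt'
    have hUA : U ≤ Subgroup.normalizer (A : Set G) := fun u hu => by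
      have key : ∀ v ∈ U, ∀ a ∈ A, v * a * v⁻¹ ∈ A := fun v hv a ha =>
        hsc.2 a ha v ((S : Subgroup G).mul_mem ((S : Subgroup G).mul_mem (hc1 hv) (hAS ha))
          ((S : Subgroup G).inv_mem (hc1 hv)))
      rw [Subgroup.mem_normalizer_iff]
      refine fun a => ⟨fun ha => key u hu a ha, fun ha => ?_⟩
      simpa [mul_assoc] using key u⁻¹ (U.inv_mem hu) _ ha
    obtain ⟨a, ha, u, hu, rfl⟩ :=
      (CfsgLib.Core.mem_sup_iff_of_le_normalizer' hUA).1
        ((sup_comm A U).le (Subgroup.mem_inf.1 hw).1)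
    have haN : a ∈ N := by
      have := N.mul_mem (Subgroup.mem_inf.1 hw).2 (N.inv_mem (Subgroup.le_normalizer hu : u ∈ N))
      simpa using this
    have haK : a ∈ K := by
      refine ⟨haN, fun d hd => congrArg Subtype.val (mul_comm' (⟨a, ha⟩ : ↥A) ⟨d, hd.1⟩),
        fun v hv => ?_⟩
      have hU' : a * v * a⁻¹ * v⁻¹ ∈ U :=
        U.mul_mem ((Subgroup.mem_normalizer_iff.1 haN v).1 hv) (U.inv_mem hv)
      refine ⟨?_, hU'⟩
      have e : a * v * a⁻¹ * v⁻¹ = a * (v * a⁻¹ * v⁻¹) := by group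
      rw [e]
      exact A.mul_mem ha ((Subgroup.mem_normalizer_iff.1 (hUA hv) a⁻¹).1 (A.inv_mem ha))
    have haV : a ∈ V := ⟨⟨a, haN⟩, Subgroup.mem_sup_right
      ⟨Subgroup.mem_subgroupOf.2 haK, ⟨hAS ha, haN⟩⟩, rfl⟩
    exact hwU (U.mul_mem (hle haV) hu)
  have hinv : (q * n) ∈ Subgroup.normalizer ((U.subgroupOf N ⊔ Q : Subgroup ↥N) : Set ↥N) := by
    have hU1 : q * n ∈ Subgroup.normalizer ((U.subgroupOf N : Subgroup ↥N) : Set ↥N) := by
      rw [Subgroup.normalizer_eq_top]; trivial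
    exact CfsgLib.Core.le_normalizer_sup (A := Subgroup.zpowers (q * n))
      (Subgroup.zpowers_le.2 hU1) (Subgroup.zpowers_le.2 hn') (Subgroup.mem_zpowers _)
  have hrc : rc ((q * n : ↥N) : G) (V : Set G) ⊆ ((S : Subgroup G) : Set G) := by
    rintro _ ⟨v, ⟨v', hv', rfl⟩, rfl⟩
    exact hVS ⟨_, (Subgroup.mem_normalizer_iff''.1 hinv v').1 hv', by simp⟩
  obtain ⟨x, hx, hxv⟩ := hIH V _ hlt hVS hrc
  refine ⟨x, hx, fun u hu => ?_⟩
  rw [← hxv u (hUV hu)]
  have hm' : m = (cc : G) * ((q * n : ↥N) : G) := by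
    have := congrArg Subtype.val hmn
    simp only [← hlq, Subgroup.coe_mul] at this
    rw [this, Subgroup.coe_mul, mul_assoc]
  have hcu := Subgroup.mem_centralizer_iff.1 (Subgroup.mem_subgroupOf.1 hcc).1 u hu
  rw [hm']
  calc ((cc : G) * ((q * n : ↥N) : G))⁻¹ * u * ((cc : G) * ((q * n : ↥N) : G))
      = ((q * n : ↥N) : G)⁻¹ * ((cc : G)⁻¹ * (u * (cc : G))) * ((q * n : ↥N) : G) := by group
    _ = _ := by rw [hcu]; group

end CfsgLib.Local.StronglyClosed
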