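import Cfsg.Agent.Lib.LocalThompsonBasic

/-!
# Two subnormal subgroups with irreducible commutator modules
-/

set_option autoImplicit false

universe u

namespace CfsgLib.SubnormalPair

open Subgroup CfsgLib.LocalThompson
open scoped commutatorElement Pointwise IsMulCommutative

set_option linter.unusedSectionVars false

variable {G : Type u} [Group G] [Finite G] {p : ℕ} [hp : Fact p.Prime]

/-- Irreducibility on the commutator module. -/
def Irr (V A : Subgroup G) : Prop :=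
  ∀ U : Subgroup G, U ≤ ⁅V, A⁆ → A ≤ normalizer (U : Set G) → U = ⊥ ∨ U = ⁅V, A⁆

theorem mem_map_conj {x g : G} {L : Subgroup G} :
    g ∈ L.map (MulAut.conj x).toMonoidHom ↔ x⁻¹ * g * x ∈ L := by
  constructor
  · rintro ⟨l, hl, rfl⟩
    simpa [mul_assoc] using hl
  · intro h
    exact ⟨_, h, by simp [mul_assoc]⟩

theorem comm_le_V {V E A : Subgroup G} (hEV : E ≤ normalizer (V : Set G)) (hA : A ≤ E) :
    ⁅V, A⁆ ≤ V :=
  CfsgLib.Core.commutator_le_of_le_normalizer (hA.trans hEV)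

/-- Once one normalizes the module of the other, they centralize each other's modules. -/
theorem module_trivial {V P Q : Subgroup G} (hVn : Q ≤ normalizer (V : Set G))
    (hWV : ⁅V, P⁆ ≤ V) (hQW : Q ≤ normalizer ((⁅V, P⁆ : Subgroup G) : Set G))
    (hQirr : Irr V Q) (h21 : ¬ ⁅V, Q⁆ ≤ ⁅V, P⁆) :
    ⁅V, P⁆ ⊓ ⁅V, Q⁆ = ⊥ ∧ ⁅⁅V, P⁆, Q⁆ = ⊥ := by
  have hd : ⁅V, P⁆ ⊓ ⁅V, Q⁆ = ⊥ := by
    refine (hQirr _ inf_le_right ?_).resolve_right fun e => h21 (e ▸ inf_le_left)
    refine CfsgLib.Core.le_normalizer_iff_forall.mpr fun q hq w hw => mem_inf.mpr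
      ⟨CfsgLib.Core.conj_mem_of_le_normalizer hQW hq (mem_inf.mp hw).1,
        CfsgLib.Core.conj_mem_of_le_normalizer (CfsgLib.Core.le_normalizer_commutator_right V Q) hq
          (mem_inf.mp hw).2⟩
  refine ⟨hd, eq_bot_iff.mpr (hd ▸ le_inf (CfsgLib.Core.commutator_le_of_le_normalizer hQW) ?_)⟩
  exact commutator_mono hWV le_rfl

theorem comm_eq_bot_of_normalizes {V E P Q : Subgroup G} (hV : Cfsg.IsElementaryAbelian p V)
    (hEV : E ≤ normalizer (V : Set G)) (hf : E ⊓ centralizer (V : Set G) = ⊥)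
    (hOp : Cfsg.pCore p E = ⊥) (hP : P ≤ E) (hQ : Q ≤ E) (hsP : (P.subgroupOf E).IsSubnormal)
    (hsQ : (Q.subgroupOf E).IsSubnormal)
    (hQW : Q ≤ normalizer ((⁅V, P⁆ : Subgroup G) : Set G)) (hQirr : Irr V Q)
    (h21 : ¬ ⁅V, Q⁆ ≤ ⁅V, P⁆) : ⁅P, Q⁆ = ⊥ := by
  have h := commutator_le_pCore V E hV hEV hf P Q hP hQ hsP hsQ
    (module_trivial (hQ.trans hEV) (comm_le_V hEV hP) hQW hQirr h21).2
  rwa [hOp, Subgroup.map_bot, le_bot_iff] at h

theorem normalizes_of_comm {V E P Q : Subgroup G} (hEV : E ≤ normalizer (V : Set G)) (hQ : Q ≤ E)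
    (hc : ⁅P, Q⁆ = ⊥) : Q ≤ normalizer ((⁅V, P⁆ : Subgroup G) : Set G) := by
  refine CfsgLib.Core.le_normalizer_iff_forall.mpr fun q hq w hw => ?_
  have h1 := mem_map_of_mem (MulAut.conj q).toMonoidHom hw
  rw [Subgroup.map_commutator] at h1
  refine commutator_mono (mem_normalizer_iff_map_conj_eq.mp (hEV (hQ hq))).le (fun g hg => ?_) h1
  obtain ⟨x, hx, rfl⟩ := hg
  have h2 := commutator_mem_commutator hx hq
  rw [hc, mem_bot, commutatorElement_eq_one_iff_mul_comm] at h2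
  show q * x * q⁻¹ ∈ P
  rw [← h2, mul_inv_cancel_right]
  exact hx

theorem comm_of_incomparable (V : Subgroup G) (hV : Cfsg.IsElementaryAbelian p V) :
    ∀ (n : ℕ) (E P Q : Subgroup G), Nat.card E = n → E ≤ normalizer (V : Set G) →
      E ⊓ centralizer (V : Set G) = ⊥ → Cfsg.pCore p E = ⊥ → P ≤ E → Q ≤ E →
      (P.subgroupOf E).IsSubnormal → (Q.subgroupOf E).IsSubnormal → Irr V P → Irr V Q →
      ¬ ⁅V, P⁆ ≤ ⁅V, Q⁆ → ¬ ⁅V, Q⁆ ≤ ⁅V, P⁆ → 2 < Nat.card P → 2 < Nat.card Q → ⁅P, Q⁆ = ⊥ := by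
  intro n
  induction n using Nat.strong_induction_on with
  | _ n ih =>
  intro E P Q hn hEV hf hOp hP hQ hsP hsQ hiP hiQ h12 h21 hcP hcQ
  by_cases hQW : Q ≤ normalizer ((⁅V, P⁆ : Subgroup G) : Set G)
  · exact comm_eq_bot_of_normalizes hV hEV hf hOp hP hQ hsP hsQ hQW hiQ h21
  by_cases hPW : P ≤ normalizer ((⁅V, Q⁆ : Subgroup G) : Set G)
  · rw [commutator_comm]
    exact comm_eq_bot_of_normalizes hV hEV hf hOp hQ hP hsQ hsP hPW hiP h12
  exfalso
  -- two conjugates of a proper subnormal subgroup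
  have step : ∀ R : Subgroup G, R ≤ E → (R.subgroupOf E).IsSubnormal → Irr V R → 2 < Nat.card R →
      R.subgroupOf E ≠ ⊤ → ∀ z ∈ E, (⁅V, R⁆).map (MulAut.conj z).toMonoidHom ≠ ⁅V, R⁆ →
      ⁅V, R⁆ ⊓ (⁅V, R⁆).map (MulAut.conj z).toMonoidHom = ⊥ ∧
        (⁅V, R⁆).map (MulAut.conj z).toMonoidHom ≤ centralizer (R : Set G) := by
    intro R hR hsR hiR hcR hne z hz hmove
    obtain ⟨K, hK, hRK, hKtop⟩ := hsR.exists_normal_and_le_and_lt_top_of_ne hne
    set N := K.map E.subtype with hN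
    have hNE : N ≤ E := map_subtype_le _
    have hNlt : Nat.card N < n := by
      rw [hN, card_map_of_injective E.subtype_injective, ← hn]
      exact lt_of_le_of_ne (card_le_card_group K) fun e => hKtop.ne (eq_top_of_card_eq K e)
    have hNOp : Cfsg.pCore p N = ⊥ := by
      haveI := hK
      have hK0 : Cfsg.pCore p K = ⊥ := by
        have := CfsgLib.Core.pCore_map_subtype_le (p := p) hK
        rwa [hOp, le_bot_iff, Subgroup.map_eq_bot_iff_of_injective _ K.subtype_injective] at this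
      rw [← CfsgLib.Core.map_pCore_of_mulEquiv p (K.equivMapOfInjective _ E.subtype_injective),
        hK0, Subgroup.map_bot]
    set R' := R.map (MulAut.conj z).toMonoidHom with hR'
    have hR'E : R' ≤ E := fun g hg => by
      have := mul_mem (mul_mem hz (hR (mem_map_conj.mp hg))) (inv_mem hz)
      simpa [mul_assoc] using this
    have hsR' : (R'.subgroupOf E).IsSubnormal := by
      have he : R'.subgroupOf E = MulAut.conj (⟨z, hz⟩ : E) • R.subgroupOf E := by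
        ext g
        rw [CfsgLib.Core.mem_conj_smul, mem_subgroupOf, mem_subgroupOf, hR', mem_map_conj]
        rfl
      rw [he]
      exact CfsgLib.Core.isSubnormal_conj_smul hsR _
    have hRN : R ≤ N := fun g hg => ⟨⟨g, hR hg⟩, hRK hg, rfl⟩
    have hR'N : R' ≤ N := fun g hg => by
      refine ⟨⟨g, hR'E hg⟩, ?_, rfl⟩
      have h1 : (⟨z⁻¹ * g * z, hR (mem_map_conj.mp hg)⟩ : E) ∈ K :=
        hRK (show z⁻¹ * g * z ∈ R from mem_map_conj.mp hg)
      have h2 := hK.conj_mem _ h1 ⟨z, hz⟩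
      have e : (⟨g, hR'E hg⟩ : E) = ⟨z, hz⟩ * ⟨z⁻¹ * g * z, hR (mem_map_conj.mp hg)⟩ * ⟨z, hz⟩⁻¹ :=
        Subtype.ext (show g = z * (z⁻¹ * g * z) * z⁻¹ by group)
      show (⟨g, hR'E hg⟩ : E) ∈ K
      rw [e]
      exact h2
    have hW' : ⁅V, R'⁆ = (⁅V, R⁆).map (MulAut.conj z).toMonoidHom := by
      rw [Subgroup.map_commutator, show V.map (MulAut.conj z).toMonoidHom = V from
        mem_normalizer_iff_map_conj_eq.mp (hEV hz)]
    have hiR' : Irr V R' := by
      intro U hU hUn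
      rw [hW'] at hU ⊢
      have e : (U.map (MulAut.conj z⁻¹).toMonoidHom).map (MulAut.conj z).toMonoidHom = U := by
        ext g; simp [mem_map_conj, mul_assoc]
      rcases hiR (U.map (MulAut.conj z⁻¹).toMonoidHom) (fun g hg => by
          have := mem_map_conj.mp (hU (mem_map_conj.mp hg))
          simpa [mul_assoc] using this)
          (CfsgLib.Core.le_normalizer_iff_forall.mpr fun r hr g hg => mem_map_conj.mpr (by
            have h1 : z * r * z⁻¹ ∈ R' := ⟨r, hr, rfl⟩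
            have := CfsgLib.Core.conj_mem_of_le_normalizer hUn h1 (mem_map_conj.mp hg)
            simpa [mul_assoc] using this)) with h | h
      · left; rw [← e, h, Subgroup.map_bot]
      · right; rw [← e, h]
    have hcW : Nat.card ↥⁅V, R'⁆ = Nat.card ↥⁅V, R⁆ := by
      rw [hW', card_map_of_injective (f := (MulAut.conj z).toMonoidHom) (MulAut.conj z).injective]
    have hinc1 : ¬ ⁅V, R⁆ ≤ ⁅V, R'⁆ := fun h => hmove
      (hW' ▸ (CfsgLib.Core.eq_of_le_of_card_le h hcW.le).symm)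
    have hinc2 : ¬ ⁅V, R'⁆ ≤ ⁅V, R⁆ := fun h => hmove
      (hW' ▸ CfsgLib.Core.eq_of_le_of_card_le h hcW.ge)
    have hc := ih _ hNlt N R R' rfl (hNE.trans hEV)
      (eq_bot_iff.mpr ((inf_le_inf_right _ hNE).trans hf.le)) hNOp hRN hR'N
      (CfsgLib.Core.isSubnormal_subgroupOf_mono hNE hsR)
      (CfsgLib.Core.isSubnormal_subgroupOf_mono hNE hsR') hiR hiR' hinc1 hinc2 hcR (by
        rwa [hR', card_map_of_injective (f := (MulAut.conj z).toMonoidHom) (MulAut.conj z).injective])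
    obtain ⟨hd, -⟩ := module_trivial (hR'E.trans hEV) (comm_le_V hEV hR)
      (normalizes_of_comm hEV hR'E hc) hiR' hinc2
    obtain ⟨-, hcent⟩ := module_trivial (hR.trans hEV) (comm_le_V hEV hR'E)
      (normalizes_of_comm hEV hR (commutator_comm R R' ▸ hc)) hiR hinc1
    rw [hW'] at hd hcent
    exact ⟨hd, commutator_eq_bot_iff_le_centralizer.mp hcent⟩
  have hPtop : P.subgroupOf E ≠ ⊤ := fun e => hQW ((hQ.trans (subgroupOf_eq_top.mp e)).trans
    (CfsgLib.Core.le_normalizer_commutator_right V P))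
  have hQtop : Q.subgroupOf E ≠ ⊤ := fun e => hPW ((hP.trans (subgroupOf_eq_top.mp e)).trans
    (CfsgLib.Core.le_normalizer_commutator_right V Q))
  obtain ⟨y, hy, hymove⟩ : ∃ y ∈ Q, (⁅V, P⁆).map (MulAut.conj y).toMonoidHom ≠ ⁅V, P⁆ := by
    by_contra hcon
    push Not at hcon
    exact hQW fun q hq => mem_normalizer_iff_map_conj_eq.mpr (hcon q hq)
  obtain ⟨e, he, hemove⟩ : ∃ e ∈ P, (⁅V, Q⁆).map (MulAut.conj e).toMonoidHom ≠ ⁅V, Q⁆ := by
    by_contra hcon
    push Not at hcon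
    exact hPW fun q hq => mem_normalizer_iff_map_conj_eq.mpr (hcon q hq)
  have hdQ := (step Q hQ hsQ hiQ hcQ hQtop e (hP he) hemove).1
  have hWQ : ∀ q ∈ Q, ∀ v ∈ V, q * v * q⁻¹ * v⁻¹ ∈ ⁅V, Q⁆ := fun q hq v hv => by
    rw [commutator_comm, ← commutatorElement_def]
    exact commutator_mem_commutator hq hv
  have hPV := comm_le_V hEV hP
  have hQV := comm_le_V hEV hQ
  -- all moving elements act alike
  have hmov : ∀ z ∈ Q, (⁅V, P⁆).map (MulAut.conj z).toMonoidHom ≠ ⁅V, P⁆ →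
      ∀ w ∈ ⁅V, P⁆, z * w * z⁻¹ = y * w * y⁻¹ := by
    intro z hz hzm w hw
    set d := z * w * z⁻¹ * (y * w * y⁻¹)⁻¹ with hd
    have hdW : d ∈ ⁅V, Q⁆ := by
      have := mul_mem (hWQ z hz w (hPV hw)) (inv_mem (hWQ y hy w (hPV hw)))
      convert this using 1
      rw [hd]; group
    have h1 := (step P hP hsP hiP hcP hPtop z (hQ hz) hzm).2 (mem_map_of_mem _ hw)
    have h2 := (step P hP hsP hiP hcP hPtop y (hQ hy) hymove).2 (mem_map_of_mem _ hw)
    have h3 : d ∈ centralizer (P : Set G) := mul_mem h1 (inv_mem h2)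
    have h4 : d ∈ (⁅V, Q⁆).map (MulAut.conj e).toMonoidHom := by
      refine mem_map_conj.mpr ?_
      rw [mul_assoc, ← mem_centralizer_iff.mp h3 e he, inv_mul_cancel_left]
      exact hdW
    have := mem_inf.mpr ⟨hdW, h4⟩
    rw [hdQ, mem_bot, hd, mul_inv_eq_one] at this
    exact this
  have hstab : ∀ z ∈ Q, (⁅V, P⁆).map (MulAut.conj z).toMonoidHom = ⁅V, P⁆ →
      ∀ w ∈ ⁅V, P⁆, z * w * z⁻¹ = w := by
    intro z hz hzf w hw
    have hyz : (⁅V, P⁆).map (MulAut.conj (y * z)).toMonoidHom ≠ ⁅V, P⁆ := by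
      intro h
      refine hymove ?_
      have hz' := mem_normalizer_iff_map_conj_eq.mpr hzf
      have hyz' := mem_normalizer_iff_map_conj_eq.mpr h
      exact mem_normalizer_iff_map_conj_eq.mp
        (by simpa using mul_mem hyz' (inv_mem hz'))
    have h := hmov (y * z) (mul_mem hy hz) hyz w hw
    calc z * w * z⁻¹ = y⁻¹ * (y * z * w * (y * z)⁻¹) * y := by group
      _ = w := by rw [h]; group
  set S := Q ⊓ centralizer ((⁅V, P⁆ : Subgroup G) : Set G) with hS
  have hSy : ∀ s ∈ S, ∀ w ∈ ⁅V, P⁆, s * (y * w * y⁻¹) * s⁻¹ = y * w * y⁻¹ := by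
    intro s hs w hw
    have hsy : (⁅V, P⁆).map (MulAut.conj (s * y)).toMonoidHom ≠ ⁅V, P⁆ := by
      intro h
      refine hymove ?_
      have hs' : s ∈ normalizer ((⁅V, P⁆ : Subgroup G) : Set G) :=
        Subgroup.centralizer_le_normalizer _ (mem_inf.mp hs).2
      exact mem_normalizer_iff_map_conj_eq.mp
        (by simpa using mul_mem (inv_mem hs') (mem_normalizer_iff_map_conj_eq.mpr h))
    have h := hmov (s * y) (mul_mem (mem_inf.mp hs).1 hy) hsy w hw
    calc s * (y * w * y⁻¹) * s⁻¹ = s * y * w * (s * y)⁻¹ := by group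
      _ = _ := h
  have hSn : Q ≤ normalizer (S : Set G) := by
    refine CfsgLib.Core.le_normalizer_iff_forall.mpr fun z hz s hs => mem_inf.mpr
      ⟨mul_mem (mul_mem hz (mem_inf.mp hs).1) (inv_mem hz), mem_centralizer_iff.mpr fun w hw => ?_⟩
    have hfix : s * (z⁻¹ * w * z) * s⁻¹ = z⁻¹ * w * z := by
      by_cases h : (⁅V, P⁆).map (MulAut.conj z⁻¹).toMonoidHom = ⁅V, P⁆
      · have h' := hstab z⁻¹ (inv_mem hz) h w hw
        rw [inv_inv] at h'
        rw [h', ← mem_centralizer_iff.mp (mem_inf.mp hs).2 w hw, mul_inv_cancel_right]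
      · have h' := hmov z⁻¹ (inv_mem hz) h w hw
        rw [inv_inv] at h'
        rw [h']
        exact hSy s hs w hw
    rw [mul_inv_eq_iff_eq_mul] at hfix
    calc w * (z * s * z⁻¹) = z * (z⁻¹ * w * z * s) * z⁻¹ := by group
      _ = _ := by rw [← hfix]; group
  have hSW : ⁅V, Q⁆ ≤ centralizer (S : Set G) := by
    have hd0 : ∃ w ∈ ⁅V, P⁆, y * w * y⁻¹ ≠ w := by
      by_contra hcon
      push Not at hcon
      refine hymove (CfsgLib.Core.eq_of_le_of_card_le ?_ (by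
        rw [card_map_of_injective (f := (MulAut.conj y).toMonoidHom) (MulAut.conj y).injective]))
      rintro _ ⟨w, hw, rfl⟩
      show y * w * y⁻¹ ∈ _
      rw [hcon w hw]; exact hw
    obtain ⟨w, hw, hne⟩ := hd0
    rcases hiQ (⁅V, Q⁆ ⊓ centralizer (S : Set G)) inf_le_left
      (CfsgLib.Core.le_normalizer_iff_forall.mpr fun z hz u hu => mem_inf.mpr
        ⟨CfsgLib.Core.conj_mem_of_le_normalizer (CfsgLib.Core.le_normalizer_commutator_right V Q) hz
          (mem_inf.mp hu).1, mem_centralizer_iff.mpr fun s hs => by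
          have h1 := CfsgLib.Core.conj_mem_of_le_normalizer hSn (inv_mem hz) hs
          rw [inv_inv] at h1
          have h2 := mem_centralizer_iff.mp (mem_inf.mp hu).2 _ h1
          calc s * (z * u * z⁻¹) = z * (z⁻¹ * s * z * u) * z⁻¹ := by group
            _ = _ := by rw [h2]; group⟩) with h | h
    · refine absurd ?_ hne
      have hmem : y * w * y⁻¹ * w⁻¹ ∈ ⁅V, Q⁆ ⊓ centralizer (S : Set G) := mem_inf.mpr
        ⟨hWQ y hy w (hPV hw), mul_mem
          (mem_centralizer_iff.mpr fun s hs => mul_inv_eq_iff_eq_mul.mp (hSy s hs w hw))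
          (inv_mem (mem_centralizer_iff.mpr fun s hs =>
            (mem_centralizer_iff.mp (mem_inf.mp hs).2 w hw).symm))⟩
      rw [h, mem_bot, mul_inv_eq_one] at hmem
      exact hmem
    · exact inf_eq_left.mp h
  have hSp : IsPGroup p S := by
    intro s
    refine ⟨1, Subtype.ext ?_⟩
    show (s : G) ^ p ^ 1 = 1
    rw [pow_one]
    refine mem_bot.mp (hf ▸ mem_inf.mpr
      ⟨pow_mem (hQ (mem_inf.mp s.2).1) p, mem_centralizer_iff.mpr fun v hv => ?_⟩)
    set z := (s : G) * v * (s : G)⁻¹ * v⁻¹ with hz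
    have hzW : z ∈ ⁅V, Q⁆ := hWQ s (mem_inf.mp s.2).1 v hv
    have hcz : Commute (s : G) z := mem_centralizer_iff.mp (hSW hzW) s s.2
    have hk : ∀ k : ℕ, (s : G) ^ k * v * ((s : G) ^ k)⁻¹ = z ^ k * v := by
      intro k
      induction k with
      | zero => simp
      | succ k ihk =>
        calc (s : G) ^ (k + 1) * v * ((s : G) ^ (k + 1))⁻¹
            = (s : G) * ((s : G) ^ k * v * ((s : G) ^ k)⁻¹) * (s : G)⁻¹ := by
              rw [pow_succ']; group
          _ = ((s : G) * z ^ k * (s : G)⁻¹) * ((s : G) * v * (s : G)⁻¹) := by rw [ihk]; group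
          _ = _ := by
              rw [(hcz.pow_right k).eq, mul_inv_cancel_right,
                show (s : G) * v * (s : G)⁻¹ = z * v by rw [hz]; group, ← mul_assoc, ← pow_succ]
    have h := hk p
    rw [hV.2 z (hQV hzW), one_mul, mul_inv_eq_iff_eq_mul] at h
    exact h.symm
  have hS1 : S = ⊥ := by
    have hsS : (S.subgroupOf E).IsSubnormal := CfsgLib.Core.isSubnormal_subgroupOf_trans inf_le_left hQ
      (normal_subgroupOf_of_le_normalizer hSn).isSubnormal hsQ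
    have hle := CfsgLib.Core.le_pCore_of_isSubnormal hsS
      (hSp.of_injective (subgroupOfEquivOfLe (inf_le_left.trans hQ : S ≤ E)).toMonoidHom
        (subgroupOfEquivOfLe (inf_le_left.trans hQ : S ≤ E)).injective)
    rw [hOp, le_bot_iff, subgroupOf_eq_bot] at hle
    exact eq_bot_iff.mpr fun g hg => hle.le_bot (mem_inf.mpr ⟨hg, hQ (mem_inf.mp hg).1⟩)
  have htwo : ∀ q ∈ Q, q = 1 ∨ q = y := by
    intro q hq
    by_cases h : (⁅V, P⁆).map (MulAut.conj q).toMonoidHom = ⁅V, P⁆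
    · left
      refine mem_bot.mp (hS1 ▸ mem_inf.mpr ⟨hq, mem_centralizer_iff.mpr fun w hw => ?_⟩)
      exact (mul_inv_eq_iff_eq_mul.mp (hstab q hq h w hw)).symm
    · right
      refine (inv_mul_eq_one.mp (mem_bot.mp (hS1 ▸ mem_inf.mpr
        ⟨mul_mem (inv_mem hy) hq, mem_centralizer_iff.mpr fun w hw => ?_⟩))).symm
      have h' := hmov q hq h w hw
      symm
      rw [← mul_inv_eq_iff_eq_mul]
      calc y⁻¹ * q * w * (y⁻¹ * q)⁻¹ = y⁻¹ * (q * w * q⁻¹) * y := by group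
        _ = w := by rw [h']; group
  classical
  have hle : Nat.card Q ≤ 2 := by
    have h1 : (Q : Set G) ⊆ {1, y} := fun q hq => htwo q hq
    calc Nat.card Q = (Q : Set G).ncard := rfl
      _ ≤ ({1, y} : Set G).ncard := Set.ncard_le_ncard h1
      _ ≤ 2 := (Set.ncard_insert_le _ _).trans (by rw [Set.ncard_singleton])
  omega

theorem direct_product (V E E₁ E₂ : Subgroup G) (hV : Cfsg.IsElementaryAbelian p V)
    (hEV : E ≤ normalizer (V : Set G)) (hf : E ⊓ centralizer (V : Set G) = ⊥) (hgen : E = E₁ ⊔ E₂)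
    (hs₁ : (E₁.subgroupOf E).IsSubnormal) (hs₂ : (E₂.subgroupOf E).IsSubnormal)
    (hOp : Cfsg.pCore p E = ⊥) (hi₁ : Irr V E₁) (hi₂ : Irr V E₂)
    (h12 : ¬ ⁅V, E₁⁆ ≤ ⁅V, E₂⁆) (h21 : ¬ ⁅V, E₂⁆ ≤ ⁅V, E₁⁆)
    (hc₁ : 2 < Nat.card E₁) (hc₂ : 2 < Nat.card E₂) :
    ⁅E₁, E₂⁆ = ⊥ ∧ E₁ ⊓ E₂ = ⊥ ∧ ⁅V, E₁⁆ ⊓ ⁅V, E₂⁆ = ⊥ ∧ ⁅V, E⁆ = ⁅V, E₁⁆ ⊔ ⁅V, E₂⁆ := by
  have hE₁ : E₁ ≤ E := hgen ▸ le_sup_left
  have hE₂ : E₂ ≤ E := hgen ▸ le_sup_right
  have hc := comm_of_incomparable V hV _ E E₁ E₂ rfl hEV hf hOp hE₁ hE₂ hs₁ hs₂ hi₁ hi₂ h12 h21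
    hc₁ hc₂
  have hn₁ := normalizes_of_comm hEV hE₂ hc
  have hn₂ := normalizes_of_comm hEV hE₁ (commutator_comm E₁ E₂ ▸ hc)
  obtain ⟨hd, hm₁⟩ := module_trivial (hE₂.trans hEV) (comm_le_V hEV hE₁) hn₁ hi₂ h21
  refine ⟨hc, ?_, hd, le_antisymm ?_ (sup_le (commutator_mono le_rfl hE₁) (commutator_mono le_rfl hE₂))⟩
  · rw [eq_bot_iff]
    intro g hg
    refine mem_bot.mpr (mem_bot.mp (hf ▸ mem_inf.mpr
      ⟨hE₁ (mem_inf.mp hg).1, mem_centralizer_iff.mpr fun v hv => ?_⟩))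
    have h := mem_inf.mpr ⟨commutator_mem_commutator hv (mem_inf.mp hg).1,
      commutator_mem_commutator hv (mem_inf.mp hg).2⟩
    rw [hd, mem_bot, commutatorElement_eq_one_iff_mul_comm] at h
    exact h
  · set U := ⁅V, E₁⁆ ⊔ ⁅V, E₂⁆ with hU
    have hUn : E ≤ normalizer (U : Set G) := by
      refine CfsgLib.Core.le_normalizer_iff_forall.mpr fun g hg w hw => ?_
      have hle : U.map (MulAut.conj g).toMonoidHom ≤ U := by
        rw [hU, Subgroup.map_sup]
        have h₁ : E ≤ normalizer ((⁅V, E₁⁆ : Subgroup G) : Set G) :=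
          hgen ▸ sup_le (CfsgLib.Core.le_normalizer_commutator_right _ _) hn₁
        have h₂ : E ≤ normalizer ((⁅V, E₂⁆ : Subgroup G) : Set G) :=
          hgen ▸ sup_le hn₂ (CfsgLib.Core.le_normalizer_commutator_right _ _)
        exact sup_le ((mem_normalizer_iff_map_conj_eq.mp (h₁ hg)).le.trans le_sup_left)
          ((mem_normalizer_iff_map_conj_eq.mp (h₂ hg)).le.trans le_sup_right)
      exact hle (mem_map_of_mem _ hw)
    have hE12 : E₁ ≤ normalizer (E₂ : Set G) :=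
      (commutator_eq_bot_iff_le_centralizer.mp hc).trans (Subgroup.centralizer_le_normalizer _)
    refine Subgroup.commutator_le.mpr fun v hv g hg => ?_
    rw [hgen] at hg
    obtain ⟨a, ha, b, hb, rfl⟩ := (CfsgLib.Core.mem_sup_iff_of_le_normalizer hE12).mp hg
    rw [show ⁅v, a * b⁆ = ⁅v, a⁆ * (a * ⁅v, b⁆ * a⁻¹) by simp only [commutatorElement_def]; group]
    exact mul_mem (mem_sup_left (commutator_mem_commutator hv ha))
      (CfsgLib.Core.conj_mem_of_le_normalizer hUn (hE₁ ha)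
        (mem_sup_right (commutator_mem_commutator hv hb)))

end CfsgLib.SubnormalPair
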