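import Cfsg.Agent.Lib.LocalTransferFailure
import Cfsg.Agent.Lib.StableComplement

/-!
# Local conditions in all sections imply control of transfer
-/

set_option autoImplicit false

universe u

namespace CfsgLib.Local.TransferCtl

open CfsgLib.Stable

variable {G : Type u} [Group G] [Finite G] {p : ℕ} [hp : Fact p.Prime]
  {W : ∀ (Q : Type u) [Group Q], Subgroup Q}

theorem ctl_sections (hW : Cfsg.IsCharPFunctor.{u} p W)
    (h : ∀ (K R : Subgroup G) [hR : (R.subgroupOf K).Normal], Ind p {W} (↥K ⧸ R.subgroupOf K) →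
      ¬ Ctl p {W} (↥K ⧸ R.subgroupOf K) → False) :
    ∀ (n : ℕ) (K R : Subgroup G) [hR : (R.subgroupOf K).Normal], Nat.card (↥K ⧸ R.subgroupOf K) = n →
      Ctl p {W} (↥K ⧸ R.subgroupOf K) := by
  have hall : ∀ V ∈ ({W} : Set (∀ (Q : Type u) [Group Q], Subgroup Q)), Cfsg.IsCharPFunctor.{u} p V :=
    fun V hV => by rw [Set.mem_singleton_iff] at hV; subst hV; exact hW
  intro n
  induction n using Nat.strong_induction_on with
  | _ n ih =>
    intro K R _ hn
    by_contra hfail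
    have hX : IsSec (↥K ⧸ R.subgroupOf K) G :=
      ⟨K, QuotientGroup.mk' _, QuotientGroup.mk'_surjective _⟩
    refine h K R ⟨fun H hH => ?_, fun N _ hN => ?_⟩ hfail
    · obtain ⟨K', R', hR', ⟨e⟩⟩ := (hX.subgroup H).exists_equiv
      refine ctl_equiv hall e (ih _ ?_ K' R' rfl)
      rw [Nat.card_congr e.toEquiv, ← hn]
      exact lt_of_le_of_ne (Nat.card_le_card_of_injective _ H.subtype_injective)
        fun e' => hH ((Subgroup.card_eq_iff_eq_top H).1 e')
    · obtain ⟨K', R', hR', ⟨e⟩⟩ :=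
        (hX.quotient (QuotientGroup.mk' N) (QuotientGroup.mk'_surjective N)).exists_equiv
      refine ctl_equiv hall e (ih _ ?_ K' R' rfl)
      rw [Nat.card_congr e.toEquiv, ← hn, N.card_eq_card_quotient_mul_card_subgroup]
      exact lt_mul_of_one_lt_right Nat.card_pos
        (Finite.one_lt_card_iff_nontrivial.2 ((Subgroup.nontrivial_iff_ne_bot N).2 hN))

theorem controlsTransferIn_of_ctl {X : Type u} [Group X] [Finite X] (h : Ctl p {W} X) :
    Cfsg.ControlsTransferIn p (Cfsg.inducedFunctor (G := X) W) ⊤ := by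
  let S : Sylow p X := default
  refine ⟨S, le_top, S.isPGroup', by rw [Subgroup.relIndex_top_right]; exact S.not_dvd_index, ?_⟩
  rw [top_inf_eq, ← commutator_def]
  exact controlsTransfer_of_ctl h S

/-- The local transfer equation in all constrained sections suffices. -/
theorem controls_of_localEq (hW : Cfsg.IsCharPFunctor.{u} p W)
    (hloc : ∀ (K R : Subgroup G) [hR : (R.subgroupOf K).Normal],
      Subgroup.centralizer ((Cfsg.pCore p (↥K ⧸ R.subgroupOf K) : Subgroup (↥K ⧸ R.subgroupOf K)) : Set (↥K ⧸ R.subgroupOf K)) ≤ Cfsg.pCore p (↥K ⧸ R.subgroupOf K) →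
      ∀ T : Sylow p (↥K ⧸ R.subgroupOf K),
        Cfsg.pCore p (↥K ⧸ R.subgroupOf K) ⊓ commutator (↥K ⧸ R.subgroupOf K) =
          Cfsg.pCore p (↥K ⧸ R.subgroupOf K) ⊓
            ⁅Nm W (T : Subgroup (↥K ⧸ R.subgroupOf K)), Nm W (T : Subgroup (↥K ⧸ R.subgroupOf K))⁆)
    (K R : Subgroup G) [hR : (R.subgroupOf K).Normal] :
    Cfsg.ControlsTransferIn p (Cfsg.inducedFunctor (G := (↥K ⧸ R.subgroupOf K)) W) ⊤ := by
  have hall : ∀ V ∈ ({W} : Set (∀ (Q : Type u) [Group Q], Subgroup Q)), Cfsg.IsCharPFunctor.{u} p V :=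
    fun V hV => by rw [Set.mem_singleton_iff] at hV; subst hV; exact hW
  refine controlsTransferIn_of_ctl (ctl_sections hW (fun K R _ hI hfail => ?_) _ K R rfl)
  let T : Sylow p (↥K ⧸ R.subgroupOf K) := default
  refine not_pCore_inf_le hall hI hfail T ?_
  rw [hloc K R (centralizer_pCore_le hall hI hfail) T]
  exact (inf_le_inf_right _ (CfsgLib.Core.pCore_le_sylow T)).trans
    (le_iSup₂_of_le W (Set.mem_singleton W) le_rfl)

/-- Elements of small degree in all constrained sections suffice. -/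
theorem controls_of_degree (hW : Cfsg.IsCharPFunctor.{u} p W)
    (hloc : ∀ (K R : Subgroup G) [hR : (R.subgroupOf K).Normal],
      Subgroup.centralizer ((Cfsg.pCore p (↥K ⧸ R.subgroupOf K) : Subgroup (↥K ⧸ R.subgroupOf K)) : Set (↥K ⧸ R.subgroupOf K)) ≤ Cfsg.pCore p (↥K ⧸ R.subgroupOf K) →
      ∀ T : Sylow p (↥K ⧸ R.subgroupOf K),
        ¬ (Cfsg.inducedFunctor W (T : Subgroup (↥K ⧸ R.subgroupOf K))).Normal →
        ∃ g : (↥K ⧸ R.subgroupOf K), g ∈ (T : Subgroup (↥K ⧸ R.subgroupOf K)) ∧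
          g ∉ Cfsg.pCore p (↥K ⧸ R.subgroupOf K) ∧
          ∀ U V : Subgroup (↥K ⧸ R.subgroupOf K), Cfsg.IsChiefFactor U V →
            U ≤ Cfsg.pCore p (↥K ⧸ R.subgroupOf K) →
            Cfsg.iterCommutator U (Subgroup.zpowers g) (p - 1) ≤ V)
    (K R : Subgroup G) [hR : (R.subgroupOf K).Normal] :
    Cfsg.ControlsTransferIn p (Cfsg.inducedFunctor (G := (↥K ⧸ R.subgroupOf K)) W) ⊤ := by
  have hall : ∀ V ∈ ({W} : Set (∀ (Q : Type u) [Group Q], Subgroup Q)), Cfsg.IsCharPFunctor.{u} p V :=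
    fun V hV => by rw [Set.mem_singleton_iff] at hV; subst hV; exact hW
  refine controlsTransferIn_of_ctl (ctl_sections hW (fun K R _ hI hfail => ?_) _ K R rfl)
  let T : Sylow p (↥K ⧸ R.subgroupOf K) := default
  have hn : ¬ (Cfsg.inducedFunctor W (T : Subgroup (↥K ⧸ R.subgroupOf K))).Normal := fun h => by
    haveI := h
    refine hfail (ctl_of_one hall T (le_trans ?_ (le_iSup₂_of_le W (Set.mem_singleton W) le_rfl)))
    rw [show Nm W (T : Subgroup (↥K ⧸ R.subgroupOf K)) = ⊤ from Subgroup.normalizer_eq_top_iff.2 h,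
      ← commutator_def]
  obtain ⟨g, hgT, hgO, hg⟩ := hloc K R (centralizer_pCore_le hall hI hfail) T hn
  obtain ⟨U, V, hUV, hUO, hbad⟩ := (failure hall ⟨W, rfl⟩ hI hfail T rfl).2.2 g hgT hgO
  exact hbad (hg U V hUV hUO)

end CfsgLib.Local.TransferCtl
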