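import Cfsg.Prelude.Def_PLocal
import Cfsg.Agent.Lib.CoreCoprime

/-!
# Uniserial actions
-/

set_option autoImplicit false

universe u

namespace CfsgLib.Uniserial

open Subgroup
open scoped commutatorElement

variable {L : Type u} [Group L] [Finite L] {p : ℕ} [hp : Fact p.Prime]

theorem comm_le {X T : Subgroup L} (h : T ≤ normalizer (X : Set L)) : ⁅X, T⁆ ≤ X :=
  Subgroup.commutator_le.mpr fun x hx t ht => by
    rw [commutatorElement_def, show x * t * x⁻¹ * t⁻¹ = x * (t * x⁻¹ * t⁻¹) by group]
    exact mul_mem hx ((mem_normalizer_iff.mp (h ht) _).mp (inv_mem hx))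

theorem card_step {X T : Subgroup L} (hT : IsPGroup p T) (hXT : X ≤ T)
    (hn : T ≤ normalizer (X : Set L)) (hX : X ≠ ⊥) :
    Nat.card ↥⁅X, T⁆ * p ≤ Nat.card X := by
  have hle := comm_le hn
  obtain ⟨i, hi⟩ := IsPGroup.iff_card.mp (hT.to_subgroup (X.subgroupOf T))
  rw [Nat.card_congr (subgroupOfEquivOfLe hXT).toEquiv] at hi
  obtain ⟨j, hji, hj⟩ := (Nat.dvd_prime_pow hp.out).mp (hi ▸ card_dvd_of_le hle)
  rcases hji.eq_or_lt with e | e
  · exfalso
    have heq : ⁅X, T⁆ = X := CfsgLib.Core.eq_of_le_of_card_le hle (by rw [hi, hj, e])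
    have hsub : ∀ m, X ≤ T.lowerCentralSeries m := by
      intro m
      induction m with
      | zero => rw [Subgroup.lowerCentralSeries_zero]; exact hXT
      | succ m ih =>
        rw [Subgroup.lowerCentralSeries_succ]
        exact heq.ge.trans (commutator_mono ih le_rfl)
    obtain ⟨m, hm⟩ := (Subgroup.isNilpotent_iff_lowerCentralSeries T).1 hT.isNilpotent
    exact hX (le_bot_iff.mp (hm ▸ hsub m))
  · rw [hi, hj, ← pow_succ]
    exact Nat.pow_le_pow_right hp.out.pos e

variable (N G : Subgroup L)

theorem iter_invariant (hGN : G ≤ normalizer (N : Set L)) :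
    ∀ i, G ≤ normalizer (Cfsg.iterCommutator N G i : Set L) ∧ Cfsg.iterCommutator N G i ≤ N
  | 0 => ⟨hGN, le_rfl⟩
  | i + 1 => ⟨CfsgLib.Core.le_normalizer_commutator_right _ G,
      (comm_le (iter_invariant hGN i).1).trans (iter_invariant hGN i).2⟩

/-- The series of `N` in the group `N G`. -/
def full : ℕ → Subgroup L
  | 0 => N
  | i + 1 => ⁅full i, N ⊔ G⁆

theorem full_facts (hGN : G ≤ normalizer (N : Set L)) : ∀ i,
    full N G i ≤ N ∧ (N ⊔ G) ≤ normalizer (full N G i : Set L) ∧
      Cfsg.iterCommutator N G i ≤ full N G i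
  | 0 => ⟨le_rfl, sup_le le_normalizer hGN, le_rfl⟩
  | i + 1 => ⟨(comm_le (full_facts hGN i).2.1).trans (full_facts hGN i).1,
      CfsgLib.Core.le_normalizer_commutator_right _ _,
      commutator_mono (full_facts hGN i).2.2 le_sup_right⟩

theorem full_card (hN : IsPGroup p N) (hG : IsPGroup p G) (hGN : G ≤ normalizer (N : Set L))
    (n : ℕ) (hn : Nat.card N = p ^ n) : ∀ i, full N G i ≠ ⊥ → Nat.card (full N G i) * p ^ i ≤ p ^ n
  | 0, _ => by rw [pow_zero, mul_one, ← hn]; exact le_rfl
  | i + 1, h => by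
    have hT : IsPGroup p ↥(N ⊔ G) := by
      rw [sup_comm]; exact hG.to_sup_of_normal_right' hN hGN
    have h0 : full N G i ≠ ⊥ := fun e => h (by rw [full, e, commutator_bot_left])
    obtain ⟨h1, h2, -⟩ := full_facts N G hGN i
    have h3 := card_step hT (h1.trans le_sup_left) h2 h0
    calc Nat.card (full N G (i + 1)) * p ^ (i + 1) = Nat.card ↥⁅full N G i, N ⊔ G⁆ * p * p ^ i := by
          rw [pow_succ']; exact (mul_assoc _ _ _).symm
      _ ≤ Nat.card (full N G i) * p ^ i := Nat.mul_le_mul_right _ h3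
      _ ≤ p ^ n := full_card hN hG hGN n hn i h0

theorem main (hN : IsPGroup p N) (hG : IsPGroup p G) (hGN : G ≤ normalizer (N : Set L))
    (n : ℕ) (hn : Nat.card N = p ^ n) :
    ((∀ H : Subgroup L, H ≤ N → G ≤ normalizer (H : Set L) → H ≠ ⊥ → (⁅H, G⁆).relIndex H = p) ↔
      Cfsg.iterCommutator N G (n - 1) ≠ ⊥ ∨ n = 0) ∧
    ((∀ H : Subgroup L, H ≤ N → G ≤ normalizer (H : Set L) → H ≠ ⊥ → (⁅H, G⁆).relIndex H = p) →
      ∀ H : Subgroup L, H ≤ N → G ≤ normalizer (H : Set L) →
        (∃ i ≤ n, H = Cfsg.iterCommutator N G i) ∧ N ≤ normalizer (H : Set L)) := by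
  set C := Cfsg.iterCommutator N G with hC
  have hinv := iter_invariant N G hGN
  have hfull := full_facts N G hGN
  have hfwd : (∀ H : Subgroup L, H ≤ N → G ≤ normalizer (H : Set L) → H ≠ ⊥ →
      (⁅H, G⁆).relIndex H = p) → ∀ i ≤ n, Nat.card (C i) = p ^ (n - i) := by
    intro h i
    induction i with
    | zero => intro _; rw [Nat.sub_zero, hC, Cfsg.iterCommutator, hn]
    | succ i ih =>
      intro hi
      have h1 := ih (by omega)
      have hne : C i ≠ ⊥ := fun e => by
        rw [e, card_bot] at h1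
        exact (Nat.one_lt_pow (by omega) hp.out.one_lt).ne h1
      have h2 := CfsgLib.Core.card_mul_relIndex (H := ⁅C i, G⁆) (K := C i) (comm_le (hinv i).1)
      rw [h (C i) (hinv i).2 (hinv i).1 hne, h1, show n - i = n - (i + 1) + 1 by omega, pow_succ] at h2
      exact mul_right_cancel₀ hp.out.ne_zero h2
  -- everything follows from the last term being nontrivial
  have hback : (C (n - 1) ≠ ⊥ ∨ n = 0) → ∀ H : Subgroup L, H ≤ N → G ≤ normalizer (H : Set L) →
      ((∃ i ≤ n, H = C i) ∧ N ≤ normalizer (H : Set L)) ∧ (H ≠ ⊥ → (⁅H, G⁆).relIndex H = p) := by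
    intro hor H hHN hGH
    rcases Nat.eq_zero_or_pos n with rfl | hn0
    · have hN0 : N = ⊥ := card_eq_one.mp (by rw [hn, pow_zero])
      have hH0 : H = ⊥ := le_bot_iff.mp (hN0 ▸ hHN)
      refine ⟨⟨⟨0, le_rfl, by rw [hC, Cfsg.iterCommutator, hH0, hN0]⟩, ?_⟩, fun h => absurd hH0 h⟩
      rw [hN0]; exact bot_le
    have hlast : C (n - 1) ≠ ⊥ := hor.resolve_right (by omega)
    have hne : ∀ i, i ≤ n - 1 → C i ≠ ⊥ := by
      intro i hi e
      apply hlast
      have : ∀ j, C (i + j) = ⊥ := by
        intro j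
        induction j with
        | zero => exact e
        | succ j ih => rw [← add_assoc, hC, Cfsg.iterCommutator, ← hC, ih, commutator_bot_left]
      rw [show n - 1 = i + (n - 1 - i) by omega]; exact this _
    have hT : ∀ i, IsPGroup p ↥(C i ⊔ G) := fun i => by
      rw [sup_comm]; exact hG.to_sup_of_normal_right' (hN.to_le (hinv i).2) (hinv i).1
    have hlow : ∀ j, j ≤ n - 1 → p ^ (j + 1) ≤ Nat.card (C (n - 1 - j)) := by
      intro j
      induction j with
      | zero =>
        intro _
        rw [Nat.sub_zero, zero_add, pow_one]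
        rcases (hN.to_le (hinv (n - 1)).2).card_eq_or_dvd with e | e
        · exact absurd (card_eq_one.mp e) hlast
        · exact Nat.le_of_dvd Nat.card_pos e
      | succ j ih =>
        intro hj
        have h1 := ih (by omega)
        have h2 := card_step (hT (n - 1 - (j + 1))) le_sup_left
          (sup_le le_normalizer (hinv _).1) (hne _ (by omega))
        have h3 : C (n - 1 - j) ≤ ⁅C (n - 1 - (j + 1)), C (n - 1 - (j + 1)) ⊔ G⁆ := by
          rw [show n - 1 - j = n - 1 - (j + 1) + 1 by omega, hC, Cfsg.iterCommutator]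
          exact commutator_mono le_rfl le_sup_right
        calc p ^ (j + 1 + 1) = p ^ (j + 1) * p := pow_succ _ _
          _ ≤ Nat.card (C (n - 1 - j)) * p := Nat.mul_le_mul_right _ h1
          _ ≤ Nat.card ↥⁅C (n - 1 - (j + 1)), C (n - 1 - (j + 1)) ⊔ G⁆ * p :=
            Nat.mul_le_mul_right _ (card_le_of_le h3)
          _ ≤ _ := h2
    have heq : ∀ i, i ≤ n - 1 → C i = full N G i ∧ Nat.card (C i) = p ^ (n - i) := by
      intro i hi
      have h1 := hlow (n - 1 - i) (by omega)
      rw [show n - 1 - (n - 1 - i) = i by omega, show n - 1 - i + 1 = n - i by omega] at h1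
      have h2 := (hfull i).2.2
      have hf : full N G i ≠ ⊥ := fun e => hne i hi (le_bot_iff.mp (e ▸ h2))
      have h3 := full_card N G hN hG hGN n hn i hf
      rw [show p ^ n = p ^ (n - i) * p ^ i by rw [← pow_add, Nat.sub_add_cancel (by omega)]] at h3
      have h4 : Nat.card (full N G i) ≤ p ^ (n - i) :=
        Nat.le_of_mul_le_mul_right h3 (pow_pos hp.out.pos i)
      exact ⟨CfsgLib.Core.eq_of_le_of_card_le h2 (h4.trans h1),
        le_antisymm ((card_le_of_le h2).trans h4) h1⟩
    have hCn : C n = ⊥ ∧ full N G n = ⊥ := by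
      have : full N G n = ⊥ := by
        by_contra hf
        have h3 := full_card N G hN hG hGN n hn n hf
        have h4 : 1 < Nat.card (full N G n) := by
          haveI := (nontrivial_iff_ne_bot _).mpr hf
          exact Finite.one_lt_card
        have : p ^ n < Nat.card (full N G n) * p ^ n := lt_mul_left (pow_pos hp.out.pos n) h4
        omega
      exact ⟨le_bot_iff.mp (this ▸ (hfull n).2.2), this⟩
    have hfeq : ∀ i, i ≤ n → C i = full N G i := fun i hi => by
      rcases hi.eq_or_lt with rfl | h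
      · rw [hCn.1, hCn.2]
      · exact (heq i (by omega)).1
    have hcardC : ∀ i, i ≤ n → Nat.card (C i) = p ^ (n - i) := fun i hi => by
      rcases hi.eq_or_lt with rfl | h
      · rw [hCn.1, card_bot, Nat.sub_self, pow_zero]
      · exact (heq i (by omega)).2
    have hNn : ∀ i, i ≤ n → N ≤ normalizer (C i : Set L) := fun i hi => by
      rw [hfeq i hi]; exact le_sup_left.trans (hfull i).2.1
    obtain ⟨i, hi, hHi⟩ : ∃ i, i ≤ n ∧ H = C i := by
      classical
      by_cases hbot : H = ⊥
      · exact ⟨n, le_rfl, hbot.trans hCn.1.symm⟩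
      have hex : ∃ i, ¬ H ≤ C i := ⟨n, fun h => hbot (le_bot_iff.mp (hCn.1 ▸ h))⟩
      obtain ⟨m, hm, hmin⟩ := Nat.findX hex
      have hmn : m ≤ n := by
        by_contra h'
        exact hmin n (by omega) (fun h => hbot (le_bot_iff.mp (hCn.1 ▸ h)))
      rcases Nat.eq_zero_or_pos m with rfl | hm0
      · exact absurd hHN hm
      obtain ⟨i, rfl⟩ := Nat.exists_eq_succ_of_ne_zero hm0.ne'
      have hHi : H ≤ C i := by
        by_contra h'
        exact hmin i (Nat.lt_succ_self i) h'
      refine ⟨i, by omega, le_antisymm hHi ?_⟩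
      have hdesc : ∀ j, i + 1 + j ≤ n → C i ≤ H ⊔ C (i + 1 + j) := by
        intro j
        induction j with
        | zero =>
          intro hj
          rw [add_zero]
          have hle : C (i + 1) ≤ C i := comm_le (hinv i).1
          have hsub : H ⊔ C (i + 1) ≤ C i := sup_le hHi hle
          refine (CfsgLib.Core.eq_of_le_of_card_le hsub ?_).ge
          have hlt : C (i + 1) < H ⊔ C (i + 1) :=
            lt_of_le_of_ne le_sup_right fun e => hm (e.symm ▸ le_sup_left)
          obtain ⟨a, ha⟩ := IsPGroup.iff_card.mp (hN.to_le (hsub.trans (hinv i).2))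
          have h1 : Nat.card (C (i + 1)) < Nat.card ↥(H ⊔ C (i + 1)) :=
            lt_of_le_of_ne (card_le_of_le hlt.le) fun e =>
              hlt.ne (CfsgLib.Core.eq_of_le_of_card_le hlt.le e.ge)
          rw [hcardC _ hj, ha] at h1
          rw [hcardC i (by omega), ha]
          exact Nat.pow_le_pow_right hp.out.pos (by
            have := (Nat.pow_lt_pow_iff_right hp.out.one_lt).mp h1
            omega)
        | succ j ih =>
          intro hj
          have h1 := ih (by omega)
          set T := C (i + 1 + (j + 1)) with hT'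
          have hHT : H ≤ normalizer (T : Set L) := hHN.trans (hNn _ hj)
          have h2 : C (i + 1) ≤ H ⊔ T := by
            rw [hC, Cfsg.iterCommutator, ← hC]
            refine Subgroup.commutator_le.mpr fun z hz g hg => ?_
            obtain ⟨h', hh', k, hk, rfl⟩ :=
              (CfsgLib.Core.mem_sup_iff_of_le_normalizer (hHN.trans (hNn _ (by omega)))).mp (h1 hz)
            have hkg : ⁅k, g⁆ ∈ T := by
              rw [hT', hC, show i + 1 + (j + 1) = i + 1 + j + 1 by omega, Cfsg.iterCommutator]
              exact commutator_mem_commutator hk hg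
            rw [show ⁅h' * k, g⁆ = (h' * ⁅k, g⁆ * h'⁻¹) * ⁅h', g⁆ by
              simp only [commutatorElement_def]; group]
            exact mul_mem (mem_sup_right ((mem_normalizer_iff.mp (hHT hh') _).mp hkg))
              (mem_sup_left (comm_le hGH (commutator_mem_commutator hh' hg)))
          have h0 : C i ≤ H ⊔ C (i + 1) := by
            have : ∀ k, k ≤ j → C (i + 1 + k) ≤ C (i + 1) := by
              intro k
              induction k with
              | zero => exact fun _ => le_rfl
              | succ k ihk => exact fun hk => (comm_le (hinv _).1).trans (ihk (by omega))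
            exact h1.trans (sup_le_sup_left (this j le_rfl) H)
          exact h0.trans (sup_le le_sup_left h2)
      have h := hdesc (n - (i + 1)) (by omega)
      rwa [show i + 1 + (n - (i + 1)) = n by omega, hCn.1, sup_bot_eq] at h
    refine ⟨⟨⟨i, hi, hHi⟩, hHi ▸ hNn i hi⟩, fun hH => ?_⟩
    have hi' : i < n := lt_of_le_of_ne hi fun e => hH (by rw [hHi, e, hCn.1])
    have h2 := CfsgLib.Core.card_mul_relIndex (H := ⁅C i, G⁆) (K := C i) (comm_le (hinv i).1)
    rw [show ⁅C i, G⁆ = C (i + 1) from rfl, hcardC _ hi', hcardC i hi,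
      show n - i = n - (i + 1) + 1 by omega, pow_succ] at h2
    rw [hHi]
    exact mul_left_cancel₀ (pow_ne_zero _ hp.out.ne_zero) h2
  refine ⟨⟨fun h => ?_, fun h H h1 h2 h3 => (hback h H h1 h2).2 h3⟩,
    fun h H h1 h2 => (hback ?_ H h1 h2).1⟩
  all_goals
    rcases Nat.eq_zero_or_pos n with rfl | hn0
    · exact Or.inr rfl
    · refine Or.inl fun e => ?_
      have h1' := hfwd h (n - 1) (Nat.sub_le _ _)
      rw [e, card_bot] at h1'
      exact (Nat.one_lt_pow (by omega) hp.out.one_lt).ne h1'

end CfsgLib.Uniserial
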