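import Mathlib
import Cfsg.Agent.Lib.LocalWreathQuot
import Cfsg.Agent.Lib.CorePGroup

/-!
# Yoshida's argument for elementary abelian quotients
-/

set_option autoImplicit false

namespace CfsgLib.Local.Yoshida

open Subgroup MulAction
open scoped commutatorElement

variable {G : Type*} [Group G] {H : Subgroup G} {A : Type*} [CommGroup A]

/-- The contribution of a coset to the transfer when it is a fixed point. -/
noncomputable def term (φ : H →* A) (m : G) (q : G ⧸ H) : A :=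
  open scoped Classical in if h : q.out⁻¹ * m * q.out ∈ H then φ ⟨_, h⟩ else 1

theorem smul_eq_iff (m g : G) : m • (g : G ⧸ H) = (g : G ⧸ H) ↔ g⁻¹ * m * g ∈ H := by
  rw [show (m • (g : G ⧸ H)) = ((m * g : G) : G ⧸ H) from rfl, eq_comm, QuotientGroup.eq, mul_assoc]

open scoped Classical in
theorem term_mk (φ : H →* A) (m g : G) :
    term φ m (g : G ⧸ H) = if h : g⁻¹ * m * g ∈ H then φ ⟨_, h⟩ else 1 := by
  obtain ⟨⟨k, hk⟩, hkg⟩ := QuotientGroup.mk_out_eq_mul H g
  have e : ((g : G ⧸ H)).out⁻¹ * m * ((g : G ⧸ H)).out = k⁻¹ * (g⁻¹ * m * g) * k := by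
    rw [hkg]; group
  unfold term
  by_cases h : g⁻¹ * m * g ∈ H
  · have h' : ((g : G ⧸ H)).out⁻¹ * m * ((g : G ⧸ H)).out ∈ H := by
      rw [e]; exact mul_mem (mul_mem (inv_mem hk) h) hk
    rw [dif_pos h, dif_pos h', show (⟨_, h'⟩ : H) = ⟨k, hk⟩⁻¹ * ⟨_, h⟩ * ⟨k, hk⟩ from Subtype.ext e,
      map_mul, map_mul, map_inv, mul_comm (φ ⟨k, hk⟩)⁻¹, inv_mul_cancel_right]
  · have h' : ¬ ((g : G ⧸ H)).out⁻¹ * m * ((g : G ⧸ H)).out ∈ H := by
      intro h'
      rw [e] at h'
      refine h ?_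
      have := mul_mem (mul_mem hk h') (inv_mem hk)
      rwa [show k * (k⁻¹ * (g⁻¹ * m * g) * k) * k⁻¹ = g⁻¹ * m * g by group] at this
    rw [dif_neg h, dif_neg h']

variable [Finite G] {p : ℕ} [hp : Fact p.Prime]

open scoped Classical in
/-- The transfer when proper powers contribute nothing. -/
theorem transfer_eq_prod_term [Fintype (G ⧸ H)] (φ : H →* A) (m : G) (hm : ∃ k, orderOf m = p ^ k)
    (hlow : ∀ (g : G) (k : ℕ), p ∣ k → ∀ h : g⁻¹ * m ^ k * g ∈ H, φ ⟨_, h⟩ = 1) :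
    MonoidHom.transfer φ m = ∏ q : G ⧸ H, term φ m q := by
  letI := Fintype.ofFinite (Quotient (orbitRel (zpowers m) (G ⧸ H)))
  rw [MonoidHom.transfer_eq_prod_quotient_orbitRel_zpowers_quot,
    ← Fintype.prod_fiberwise (Quotient.mk (orbitRel (zpowers m) (G ⧸ H))) (term φ m)]
  refine Fintype.prod_congr _ _ fun o => ?_
  set q₀ := o.out with hq₀
  by_cases hfix : m • q₀ = q₀
  · have hd : Function.minimalPeriod (m • ·) q₀ = 1 :=
      Function.minimalPeriod_eq_one_iff_isFixedPt.mpr hfix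
    have hmem : q₀.out⁻¹ * m * q₀.out ∈ H := by
      rw [← smul_eq_iff (H := H)]
      simpa using hfix
    have huniq : ∀ q : G ⧸ H, Quotient.mk (orbitRel (zpowers m) (G ⧸ H)) q = o → q = q₀ := by
      intro q hq
      rw [← Quotient.out_eq o, Quotient.eq] at hq
      obtain ⟨⟨w, hw⟩, hwq⟩ := hq
      obtain ⟨i, rfl⟩ := mem_zpowers_iff.mp hw
      rw [← hwq]
      exact (mem_stabilizer_iff.mp (zpow_mem (mem_stabilizer_iff.mpr hfix) i) : m ^ i • q₀ = q₀)
    rw [Fintype.prod_eq_single (⟨q₀, Quotient.out_eq o⟩ : {q // Quotient.mk _ q = o})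
      (fun q hq => absurd (Subtype.ext (huniq q.1 q.2)) hq)]
    show _ = term φ m q₀
    rw [term, dif_pos hmem]
    refine congrArg φ (Subtype.ext ?_)
    show q₀.out⁻¹ * m ^ Function.minimalPeriod (m • ·) q₀ * q₀.out = _
    simp [hd]
  · rw [Fintype.prod_eq_one]
    · refine hlow _ _ ?_ _
      obtain ⟨k, hk⟩ := hm
      have hd : Function.minimalPeriod (m • ·) q₀ ∣ p ^ k := by
        refine Function.IsPeriodicPt.minimalPeriod_dvd ?_
        show (m • ·)^[p ^ k] q₀ = q₀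
        rw [smul_iterate, ← hk, pow_orderOf_eq_one]
        simp
      obtain ⟨i, -, hi⟩ := (Nat.dvd_prime_pow hp.out).mp hd
      rw [hi]
      refine dvd_pow_self p fun h0 => hfix ?_
      rw [h0, pow_zero] at hi
      exact Function.minimalPeriod_eq_one_iff_isFixedPt.mp hi
    · rintro ⟨q, hq⟩
      rw [term, dif_neg]
      intro h
      refine hfix ?_
      have hq' : m • q = q := by
        have := (smul_eq_iff (H := H) m q.out).mpr h
        rwa [QuotientGroup.out_eq'] at this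
      rw [← Quotient.out_eq o, Quotient.eq] at hq
      obtain ⟨⟨w, hw⟩, hwq⟩ := hq
      obtain ⟨i, rfl⟩ := mem_zpowers_iff.mp hw
      have hwq' : m ^ i • q₀ = q := hwq
      have : q₀ = m ^ (-i) • q := by rw [← hwq', smul_smul, ← zpow_add]; simp
      rw [this, smul_smul, (Commute.self_zpow m (-i)).eq, mul_smul, hq']

set_option maxHeartbeats 1000000 in
/-- If no quotient of `S` is a Sylow subgroup of the symmetric group of degree `p ^ 2`, the elements of `S`
in `G'` are killed by every map from `N_G(S)` to a group of exponent `p`. -/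
theorem map_eq_one (S : Sylow p G)
    (hno : ¬ ∃ (P : Sylow p (Equiv.Perm (Fin (p ^ 2))))
      (f : ↥(S : Subgroup G) →* ↥(P : Subgroup (Equiv.Perm (Fin (p ^ 2))))), Function.Surjective f)
    (N : Subgroup G) (hN : N = normalizer ((S : Subgroup G) : Set G)) (φ : N →* A)
    (hA : ∀ a : A, a ^ p = 1) {u : G} (huS : u ∈ (S : Subgroup G)) (huN : u ∈ N)
    (huG : u ∈ commutator G) :
    φ ⟨u, huN⟩ = 1 := by
  classical
  have hSN : (S : Subgroup G) ≤ N := hN ▸ le_normalizer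
  induction hn : orderOf u using Nat.strong_induction_on generalizing u with
  | _ n ih =>
  subst hn
  have hp_of : ∀ v : G, v ∈ (S : Subgroup G) → ∃ k, orderOf v = p ^ k := by
    intro v hv
    obtain ⟨k, hk⟩ := IsPGroup.iff_orderOf.mp S.2 ⟨v, hv⟩
    exact ⟨k, by rwa [Subgroup.orderOf_mk] at hk⟩
  by_cases hu1 : u = 1
  · subst hu1
    exact map_one φ
  have hNS : ∀ v ∈ N, (∃ k, v ^ p ^ k = 1) → v ∈ (S : Subgroup G) := by
    intro v hv ⟨k, hk⟩
    have hz : IsPGroup p (zpowers v) := by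
      obtain ⟨j, -, hj⟩ := (Nat.dvd_prime_pow hp.out).mp (orderOf_dvd_of_pow_eq_one hk)
      exact IsPGroup.of_card (n := j) (by rw [Nat.card_zpowers, hj])
    have hle : zpowers v ⊔ (S : Subgroup G) = (S : Subgroup G) :=
      S.3 (hz.to_sup_of_normal_right' S.2 (zpowers_le.mpr (hN ▸ hv))) le_sup_right
    exact hle ▸ mem_sup_left (mem_zpowers v)
  -- proper powers of conjugates of `u` are killed
  have hlow : ∀ (g : G) (k : ℕ), p ∣ k → ∀ h : g⁻¹ * u ^ k * g ∈ N, φ ⟨_, h⟩ = 1 := by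
    intro g k hk h
    obtain ⟨j, hj⟩ := hp_of u huS
    have hgS : g⁻¹ * u ^ k * g ∈ (S : Subgroup G) := by
      refine hNS _ h ⟨j, ?_⟩
      rw [show g⁻¹ * u ^ k * g = g⁻¹ * u ^ k * g⁻¹⁻¹ by rw [inv_inv], conj_pow, ← pow_mul, mul_comm,
        pow_mul, ← hj, pow_orderOf_eq_one, one_pow]
      group
    refine ih _ ?_ hgS h ((inferInstance : (commutator G).Normal).conj_mem _
      (pow_mem huG k) g⁻¹ |> fun h => by simpa using h) rfl
    rw [show g⁻¹ * u ^ k * g = MulAut.conj g⁻¹ (u ^ k) by simp, MulEquiv.orderOf_eq]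
    obtain ⟨k, rfl⟩ := hk
    rw [pow_mul]
    refine lt_of_le_of_lt (Nat.le_of_dvd (orderOf_pos _) (orderOf_pow_dvd k)) ?_
    have hj0 : j ≠ 0 := fun h0 => hu1 (orderOf_eq_one_iff.mp (by rw [hj, h0, pow_zero]))
    rw [orderOf_pow, hj, Nat.gcd_eq_right (dvd_pow_self p hj0)]
    exact Nat.div_lt_self (pow_pos hp.out.pos j) hp.out.one_lt
  letI := Fintype.ofFinite (G ⧸ N)
  have htr := transfer_eq_prod_term φ u (hp_of u huS) hlow
  rw [MonoidHom.mem_ker.1 (Abelianization.commutator_subset_ker (MonoidHom.transfer φ) huG)] at htr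
  have hbase : term φ u ((1 : G) : G ⧸ N) = φ ⟨u, hSN huS⟩ := by
    rw [term_mk, dif_pos (by simpa using hSN huS)]
    exact congrArg φ (Subtype.ext (by simp))
  suffices hrest : ∏ q ∈ Finset.univ.erase ((1 : G) : G ⧸ N), term φ u q = 1 by
    rw [← Finset.mul_prod_erase Finset.univ _ (Finset.mem_univ ((1 : G) : G ⧸ N)), hrest, mul_one,
      hbase] at htr
    exact htr.symm
  refine Finset.prod_cancels_of_partition_cancels (orbitRel (S : Subgroup G) (G ⧸ N)) fun q hq => ?_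
  have hqne : q ≠ ((1 : G) : G ⧸ N) := (Finset.mem_erase.mp hq).1
  obtain ⟨g, rfl⟩ := QuotientGroup.mk_surjective q
  set R : Subgroup G := (S : Subgroup G) ⊓ N.comap (MulAut.conj g⁻¹).toMonoidHom with hR
  have hRmem : ∀ v, v ∈ R ↔ v ∈ (S : Subgroup G) ∧ g⁻¹ * v * g ∈ N := fun v => by
    simp [hR]
  have hRlt : R.subgroupOf (S : Subgroup G) ≠ ⊤ := by
    intro htop
    refine hqne ?_
    have hle : ∀ v ∈ (S : Subgroup G), g⁻¹ * v * g ∈ (S : Subgroup G) := by
      intro v hv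
      refine hNS _ ((hRmem v).mp (subgroupOf_eq_top.mp htop hv)).2 ?_
      obtain ⟨k, hk⟩ := hp_of v hv
      refine ⟨k, ?_⟩
      rw [show g⁻¹ * v * g = g⁻¹ * v * g⁻¹⁻¹ by rw [inv_inv], conj_pow, ← hk, pow_orderOf_eq_one]
      group
    have he : (S : Subgroup G).map (MulAut.conj g⁻¹).toMonoidHom = (S : Subgroup G) := by
      refine Subgroup.eq_of_le_of_card_ge ?_ (le_of_eq (card_map_of_injective (MulAut.conj g⁻¹).injective).symm)
      rintro _ ⟨v, hv, rfl⟩
      show g⁻¹ * v * g⁻¹⁻¹ ∈ _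
      rw [inv_inv]
      exact hle v hv
    have hgN : g⁻¹ ∈ N := by
      rw [hN, mem_normalizer_iff]
      intro v
      conv_rhs => rw [← he]
      exact ⟨fun hv => ⟨v, hv, rfl⟩, fun ⟨w, hw, hwv⟩ => (MulAut.conj g⁻¹).injective hwv ▸ hw⟩
    refine QuotientGroup.eq.mpr ?_
    simpa using hgN
  obtain ⟨Mc, hMc, hRM⟩ := (eq_top_or_exists_le_coatom _).resolve_left hRlt
  obtain ⟨hMn, hMi⟩ := CfsgLib.Core.index_of_coatom_pgroup S.2 hMc
  haveI := hMn
  set O := (Finset.univ.erase ((1 : G) : G ⧸ N)).filter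
    (fun b => orbitRel (S : Subgroup G) (G ⧸ N) b (g : G ⧸ N)) with hO
  have hmemO : ∀ b : G ⧸ N, b ∈ O ↔ ∃ s : (S : Subgroup G), ((s * g : G) : G ⧸ N) = b := by
    intro b
    constructor
    · intro hb
      obtain ⟨s, hs⟩ := (Finset.mem_filter.mp hb).2
      exact ⟨s, hs⟩
    · rintro ⟨s, rfl⟩
      refine Finset.mem_filter.mpr ⟨Finset.mem_erase.mpr ⟨fun h => hqne ?_, Finset.mem_univ _⟩, s, rfl⟩
      have h1 : g⁻¹ * (s : G)⁻¹ ∈ N := by simpa using QuotientGroup.eq.mp h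
      refine QuotientGroup.eq.mpr ?_
      simpa using mul_mem h1 (hSN s.2)
  show ∏ b ∈ O, term φ u b = 1
  by_cases huM : (⟨u, huS⟩ : (S : Subgroup G)) ∈ Mc
  swap
  · refine Finset.prod_eq_one fun b hb => ?_
    obtain ⟨s, rfl⟩ := (hmemO b).mp hb
    rw [term_mk, dif_neg]
    intro h
    have hR' : s⁻¹ * ⟨u, huS⟩ * s ∈ R.subgroupOf (S : Subgroup G) := by
      refine mem_subgroupOf.mpr ((hRmem _).mpr ⟨(s⁻¹ * ⟨u, huS⟩ * s).2, ?_⟩)
      simpa [mul_assoc] using h
    exact huM (by simpa [mul_assoc] using hMn.conj_mem _ (hRM hR') s)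
  obtain ⟨y, hy⟩ : ∃ y : (S : Subgroup G), y ∉ Mc := by
    by_contra h
    push Not at h
    exact hMc.1 (eq_top_iff.mpr fun v _ => h v)
  -- the orbit as `p` orbits of the maximal subgroup
  set R' : Subgroup Mc := (R.subgroupOf (S : Subgroup G)).subgroupOf Mc with hR'
  letI := Fintype.ofFinite (Mc ⧸ R')
  have hR'mem : ∀ t : Mc, t ∈ R' ↔ g⁻¹ * ((t : (S : Subgroup G)) : G) * g ∈ N := fun t => by
    rw [hR', mem_subgroupOf, mem_subgroupOf, hRmem]
    exact and_iff_right (t : (S : Subgroup G)).2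
  let μ : R' →* A := φ.comp
    ((((MulAut.conj g⁻¹).toMonoidHom.comp (((S : Subgroup G).subtype.comp Mc.subtype).comp R'.subtype))).codRestrict N
      fun t => by
        show g⁻¹ * _ * g⁻¹⁻¹ ∈ N
        rw [inv_inv]
        exact (hR'mem t.1).mp t.2)
  let ui : ℕ → Mc := fun i => ⟨(y ^ i)⁻¹ * ⟨u, huS⟩ * y ^ i, by simpa using hMn.conj_mem _ huM (y ^ i)⁻¹⟩
  let pt : Fin p × (Mc ⧸ R') → G ⧸ N := fun w =>
    ((((y ^ (w.1 : ℕ) * (w.2.out : (S : Subgroup G))) : (S : Subgroup G)) : G) * g : G)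
  have hpt : ∀ (i : Fin p) (t : Mc), pt (i, (t : Mc ⧸ R')) =
      ((((y ^ (i : ℕ) * (t : (S : Subgroup G))) : (S : Subgroup G)) : G) * g : G) := by
    intro i t
    obtain ⟨⟨r, hr⟩, hrt⟩ := QuotientGroup.mk_out_eq_mul R' t
    refine QuotientGroup.eq.mpr ?_
    simp only [hrt, Subgroup.coe_mul, SubmonoidClass.coe_pow]
    have := inv_mem ((hR'mem r).mp hr)
    simpa [mul_assoc] using this
  have hinj : Function.Injective pt := by
    rintro ⟨i, t⟩ ⟨j, t'⟩ h
    obtain ⟨t, rfl⟩ := QuotientGroup.mk_surjective t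
    obtain ⟨t', rfl⟩ := QuotientGroup.mk_surjective t'
    rw [hpt, hpt, QuotientGroup.eq] at h
    set w : (S : Subgroup G) := (y ^ (i : ℕ) * t)⁻¹ * (y ^ (j : ℕ) * t') with hw
    have hwR : w ∈ R.subgroupOf (S : Subgroup G) := mem_subgroupOf.mpr
      ((hRmem _).mpr ⟨w.2, by simpa [hw, mul_assoc] using h⟩)
    have hij : i = j := by
      have h1 : (QuotientGroup.mk' Mc y) ^ (i : ℕ) = (QuotientGroup.mk' Mc y) ^ (j : ℕ) := by
        have := (QuotientGroup.eq_one_iff w).mpr (hRM hwR)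
        rw [← QuotientGroup.mk'_apply, hw, map_mul, map_inv, map_mul, map_mul, map_pow, map_pow,
          show QuotientGroup.mk' Mc (t : (S : Subgroup G)) = 1 from (QuotientGroup.eq_one_iff _).mpr t.2,
          show QuotientGroup.mk' Mc (t' : (S : Subgroup G)) = 1 from (QuotientGroup.eq_one_iff _).mpr t'.2,
          mul_one, mul_one, inv_mul_eq_one] at this
        exact this
      have ho : orderOf (QuotientGroup.mk' Mc y) = p := orderOf_eq_prime
        (by rw [← map_pow, QuotientGroup.mk'_apply, QuotientGroup.eq_one_iff]; have := Mc.pow_index_mem y; rwa [hMi] at this)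
        (fun h' => hy ((QuotientGroup.eq_one_iff y).mp h'))
      exact Fin.ext (pow_injOn_Iio_orderOf (by rw [ho]; exact i.2) (by rw [ho]; exact j.2) h1)
    subst hij
    refine Prod.ext rfl (QuotientGroup.eq.mpr ?_)
    refine (hR'mem _).mpr ?_
    simpa [mul_assoc] using h
  have hOeq : O = Finset.univ.image pt := by
    ext b
    rw [hmemO, Finset.mem_image]
    constructor
    · rintro ⟨s, rfl⟩
      have htopq : zpowers (QuotientGroup.mk' Mc y) = ⊤ := zpowers_eq_top_of_prime_card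
        (p := p) (by rw [← Subgroup.index_eq_card]; exact hMi) (fun h' => hy ((QuotientGroup.eq_one_iff y).mp h'))
      obtain ⟨i, hi⟩ := (Submonoid.mem_powers_iff _ _).mp
        ((isOfFinOrder_of_finite _).mem_powers_iff_mem_zpowers.mpr (htopq.ge (mem_top (QuotientGroup.mk' Mc s))))
      have hyp : QuotientGroup.mk' Mc y ^ p = 1 := by
        rw [← map_pow, QuotientGroup.mk'_apply, QuotientGroup.eq_one_iff]
        have := Mc.pow_index_mem y
        rwa [hMi] at this
      rw [pow_eq_pow_mod i hyp, ← map_pow] at hi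
      refine ⟨(⟨i % p, Nat.mod_lt _ hp.out.pos⟩, ((⟨(y ^ (i % p))⁻¹ * s, QuotientGroup.eq.mp hi⟩ : Mc) : Mc ⧸ R')),
        Finset.mem_univ _, ?_⟩
      rw [hpt]
      simp
    · rintro ⟨⟨i, t⟩, -, rfl⟩
      exact ⟨y ^ (i : ℕ) * t.out, rfl⟩
  rw [hOeq, Finset.prod_image fun a _ b _ h => hinj h, Fintype.prod_prod_type]
  have hterm : ∀ (i : Fin p) (t : Mc ⧸ R'), term φ u (pt (i, t)) = term μ (ui i) t := by
    intro i t
    obtain ⟨t, rfl⟩ := QuotientGroup.mk_surjective t
    rw [hpt, term_mk, term_mk]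
    have e : g⁻¹ * (((t⁻¹ * ui i * t : Mc) : (S : Subgroup G)) : G) * g =
        (((y ^ (i : ℕ) * (t : (S : Subgroup G))) : (S : Subgroup G)) * g : G)⁻¹ * u *
          (((y ^ (i : ℕ) * (t : (S : Subgroup G))) : (S : Subgroup G)) * g) := by
      simp only [ui, Subgroup.coe_mul, Subgroup.coe_inv, SubmonoidClass.coe_pow]
      group
    have hiff := hR'mem (t⁻¹ * ui i * t)
    rw [e] at hiff
    by_cases h : (((y ^ (i : ℕ) * (t : (S : Subgroup G))) : (S : Subgroup G)) * g : G)⁻¹ * u *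
          (((y ^ (i : ℕ) * (t : (S : Subgroup G))) : (S : Subgroup G)) * g) ∈ N
    · rw [dif_pos h, dif_pos (hiff.mpr h)]
      refine congrArg φ (Subtype.ext (e.symm.trans ?_))
      simp
    · rw [dif_neg h, dif_neg fun h' => h (hiff.mp h')]
  simp only [hterm]
  have hMp : IsPGroup p Mc := S.2.to_subgroup Mc
  have hμlow : ∀ (i : ℕ) (t : Mc) (k : ℕ), p ∣ k → ∀ h : t⁻¹ * (ui i) ^ k * t ∈ R', μ ⟨_, h⟩ = 1 := by
    intro i t k hk h
    have e : (((y ^ i * (t : (S : Subgroup G))) : (S : Subgroup G)) * g : G)⁻¹ * u ^ k *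
        (((y ^ i * (t : (S : Subgroup G))) : (S : Subgroup G)) * g) =
        g⁻¹ * (((t⁻¹ * ui i ^ k * t : Mc) : (S : Subgroup G)) : G) * g := by
      have e2 : (((ui i ^ k : Mc) : (S : Subgroup G)) : G) = ((y : G) ^ i)⁻¹ * u ^ k * (y : G) ^ i := by
        simp only [SubmonoidClass.coe_pow, ui, Subgroup.coe_mul, Subgroup.coe_inv]
        rw [show ((y : G) ^ i)⁻¹ * u * (y : G) ^ i = ((y : G) ^ i)⁻¹ * u * (((y : G) ^ i)⁻¹)⁻¹ by rw [inv_inv],
          conj_pow, inv_inv]
      simp only [Subgroup.coe_mul, Subgroup.coe_inv, SubmonoidClass.coe_pow] at e2 ⊢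
      rw [e2]
      group
    have hh := hlow _ k hk (e ▸ (hR'mem _).mp h)
    refine (congrArg φ (Subtype.ext ?_)).trans hh
    refine Eq.trans ?_ e.symm
    simp
  have hprod : ∀ i : Fin p, ∏ t : Mc ⧸ R', term μ (ui i) t = MonoidHom.transfer μ (ui i) := fun i =>
    (transfer_eq_prod_term μ (ui i) (IsPGroup.iff_orderOf.mp hMp (ui i)) (hμlow i)).symm
  simp only [hprod]
  set ψ := MonoidHom.transfer μ with hψ
  have hψΦ : frattini Mc ≤ ψ.ker := CfsgLib.Core.frattini_le_of_elementary (p := p)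
    (Abelianization.commutator_subset_ker _) fun t => by rw [MonoidHom.mem_ker, map_pow, hA]
  have hconv : ∀ m : ℕ, ∏ i : Fin m, ψ (ui i) = ψ (((List.range m).map ui).prod) := by
    intro m
    induction m with
    | zero => simp
    | succ m ihm =>
      rw [Fin.prod_univ_castSucc, List.range_succ, List.map_append, List.prod_append, map_mul]
      simp only [Fin.val_castSucc, Fin.val_last, List.map_cons, List.map_nil, List.prod_cons,
        List.prod_nil, mul_one]
      rw [ihm]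
  rw [hconv]
  refine MonoidHom.mem_ker.mp (hψΦ ?_)
  -- otherwise a wreath product quotient appears
  by_contra hΦ
  haveI hKn : ((frattini Mc).map Mc.subtype).Normal := ConjAct.normal_of_characteristic_of_normal
  set K := (frattini Mc).map Mc.subtype with hK
  set q := QuotientGroup.mk' K with hq
  have hKM : K ≤ Mc := map_subtype_le _
  haveI : (Mc.map q).Normal := hMn.map q (QuotientGroup.mk'_surjective K)
  have hel : Cfsg.IsElementaryAbelian p (Mc.map q) := by
    refine ⟨⟨⟨?_⟩⟩, ?_⟩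
    · rintro ⟨_, a, ha, rfl⟩ ⟨_, b, hb, rfl⟩
      refine Subtype.ext ?_
      show q a * q b = q b * q a
      rw [← commutatorElement_eq_one_iff_mul_comm, ← map_commutatorElement]
      refine (QuotientGroup.eq_one_iff _).mpr ?_
      refine ⟨⁅(⟨a, ha⟩ : Mc), (⟨b, hb⟩ : Mc)⁆, ?_, rfl⟩
      exact CfsgLib.Core.pgroup_commutator_le_frattini hMp
        (commutator_mem_commutator (mem_top _) (mem_top _))
    · rintro _ ⟨a, ha, rfl⟩
      rw [← map_pow]
      refine (QuotientGroup.eq_one_iff _).mpr ?_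
      exact ⟨(⟨a, ha⟩ : Mc) ^ p, CfsgLib.Core.pgroup_pow_mem_frattini hMp _, rfl⟩
  obtain ⟨P, f, hf⟩ := CfsgLib.Local.WreathQuot.exists_wreath_quotient (S.2.to_quotient K) (Mc.map q) hel
    (by rw [index_map_eq _ (QuotientGroup.mk'_surjective K) (by rw [QuotientGroup.ker_mk']; exact hKM)]; exact hMi)
    (x := q ⟨u, huS⟩) (y := q y) (mem_map_of_mem q huM) (fun h => hΦ (by
      have e : ((List.range p).map fun i => (q y ^ i)⁻¹ * q ⟨u, huS⟩ * q y ^ i).prod =
          q ((((List.range p).map ui).prod : Mc) : (S : Subgroup G)) := by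
        rw [← Mc.subtype_apply, map_list_prod, map_list_prod, List.map_map, List.map_map]
        congr 2
      rw [e] at h
      obtain ⟨w, hw, hwe⟩ := (QuotientGroup.eq_one_iff _).mp h
      exact (Subtype.ext hwe : w = _) ▸ hw))
  exact hno ⟨P, f.comp q, hf.comp (QuotientGroup.mk'_surjective K)⟩

end CfsgLib.Local.Yoshida
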