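import Cfsg.Agent.Lib.TwoFusionTate
import Cfsg.Agent.Lib.FusionGroup
import Cfsg.Agent.Lib.FusionTransferControl
import Cfsg.Agent.Lib.LocalYoshidaCore
import Cfsg.Agent.Lib.CorePiClosed

/-!
# Yoshida's theorem on control of transfer
-/

set_option autoImplicit false

universe u

namespace CfsgLib.Local.Yoshida

open Subgroup Cfsg CfsgLib.Fusion
open scoped commutatorElement

variable {G : Type u} [Group G] [Finite G] {p : ℕ} [hp : Fact p.Prime]

/-- The fusion induced on `S` by a subgroup `N`. -/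
def relFusion (S N : Subgroup G) (hSN : S ≤ N) : Cfsg.FusionSystem S where
  Hom P := {φ | P ≤ S ∧ (∀ x : P, φ x ∈ S) ∧ ∃ g ∈ N, ∀ x : P, φ x = g * (x : G) * g⁻¹}
  le_of_mem h := ⟨h.1, h.2.1⟩
  injective_of_mem := by
    rintro P φ ⟨-, -, g, -, hg⟩ a b hab
    have h : g * (a : G) * g⁻¹ = g * (b : G) * g⁻¹ := ((hg a).symm.trans hab).trans (hg b)
    exact Subtype.ext (mul_left_cancel (mul_right_cancel h))
  conj_mem := by
    intro P g hP hg
    refine ⟨hP, fun x => ?_, g, hSN hg, fun x => ?_⟩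
    · show g * (x : G) * g⁻¹ ∈ S
      exact S.mul_mem (S.mul_mem hg (hP x.2)) (S.inv_mem hg)
    · rfl
  comp_mem := by
    rintro P Q φ ψ ⟨hP, hφS, g, hgN, hg⟩ ⟨-, hψS, k, hkN, hk⟩ h
    refine ⟨hP, fun x => hψS _, k * g, N.mul_mem hkN hgN, fun x => ?_⟩
    show ψ (φ.codRestrict Q h x) = k * g * (x : G) * (k * g)⁻¹
    rw [hk]
    show k * φ x * k⁻¹ = _
    rw [hg, mul_inv_rev]
    simp only [mul_assoc]
  inv_mem := by
    rintro P φ ⟨hP, hφS, g, hgN, hg⟩
    refine ⟨conjHom φ.range g⁻¹, ⟨?_, ?_, g⁻¹, N.inv_mem hgN, fun y => rfl⟩, ?_⟩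
    · rintro _ ⟨x, rfl⟩
      exact hφS x
    · rintro ⟨_, x, rfl⟩
      show g⁻¹ * φ x * g⁻¹⁻¹ ∈ S
      rw [hg, inv_inv]
      simpa only [mul_assoc, inv_mul_cancel, mul_one, inv_mul_cancel_left] using hP x.2
    · intro x
      show g⁻¹ * φ x * g⁻¹⁻¹ = x
      rw [hg, inv_inv]
      simp only [mul_assoc, inv_mul_cancel, mul_one, inv_mul_cancel_left]

theorem relFusion_map_iff {S N : Subgroup G} (hSN : S ≤ N) {P : Subgroup G} {f : G → G} :
    Map (relFusion S N hSN) P f ↔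
      P ≤ S ∧ (∀ x ∈ P, f x ∈ S) ∧ ∃ g ∈ N, ∀ x ∈ P, f x = g * x * g⁻¹ := by
  constructor
  · rintro ⟨φ, ⟨hP, hφ, g, hgN, hg⟩, he⟩
    exact ⟨hP, fun x hx => by rw [← he ⟨x, hx⟩]; exact hφ _, g, hgN,
      fun x hx => by rw [← he ⟨x, hx⟩]; exact hg _⟩
  · rintro ⟨hP, hf, g, hgN, hg⟩
    refine ⟨(MulAut.conj g).toMonoidHom.comp P.subtype, ⟨hP, fun x => ?_, g, hgN, fun x => rfl⟩, fun x => ?_⟩
    · show g * (x : G) * g⁻¹ ∈ S
      rw [← hg x x.2]; exact hf x x.2
    · exact (hg x x.2).symm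

theorem relFusion_saturated (S : Sylow p G) (N : Subgroup G) (hSN : (S : Subgroup G) ≤ N) :
    (relFusion (S : Subgroup G) N hSN).IsSaturated p := by
  refine realized_saturated (ι := Subgroup.inclusion hSN) ?_ (S.subtype hSN) ?_
  · refine ⟨Subgroup.inclusion_injective hSN, fun P hP φ hφ => ?_⟩
    constructor
    · rintro ⟨-, -, g, hgN, hg⟩
      exact ⟨⟨g, hgN⟩, fun x => Subtype.ext (hg x)⟩
    · rintro ⟨g, hg⟩
      exact ⟨hP, hφ, g, g.2, fun x => congrArg Subtype.val (hg x)⟩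
  · ext x
    constructor
    · intro hx
      exact ⟨⟨x, hx⟩, rfl⟩
    · rintro ⟨y, rfl⟩
      exact y.2

theorem relFusion_focal (S : Sylow p G) (N : Subgroup G) (hSN : (S : Subgroup G) ≤ N) :
    (relFusion (S : Subgroup G) N hSN).focalSubgroup = (S : Subgroup G) ⊓ ⁅N, N⁆ := by
  refine le_antisymm ((closure_le _).mpr ?_) ?_
  · rintro y ⟨P, φ, x, ⟨hP, hφS, g, hgN, hg⟩, rfl⟩
    refine ⟨(S : Subgroup G).mul_mem ((S : Subgroup G).inv_mem (hP x.2)) (hφS x), ?_⟩
    rw [hg, show (x : G)⁻¹ * (g * (x : G) * g⁻¹) = ⁅(x : G)⁻¹, g⁆ by rw [commutatorElement_def]; group]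
    exact commutator_mem_commutator (inv_mem (hSN (hP x.2))) hgN
  · rw [← Subgroup.map_subtype_commutator]
    refine CfsgLib.Fusion.inf_commutator_le_of_conj S hSN fun g hg x hx hgx => ?_
    refine mem_focalSubgroup ((relFusion_map_iff hSN).mpr
      ⟨(zpowers_le.mpr hx : zpowers x ≤ (S : Subgroup G)), fun r hr => ?_, g, hg, fun r _ => rfl⟩)
      (mem_zpowers x)
    obtain ⟨i, rfl⟩ := mem_zpowers_iff.mp hr
    rw [← conj_zpow]
    exact zpow_mem hgx i

/-- Elements of `S` in the elementary kernel of `N` lie in `Φ(S)(S ∩ N')`. -/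
theorem mem_of_elementary_kernel (S : Sylow p G) (N : Subgroup G) (hSN : (S : Subgroup G) ≤ N)
    [hSn : ((S : Subgroup G).subgroupOf N).Normal] {u : G} (huS : u ∈ (S : Subgroup G))
    (huW : (⟨u, hSN huS⟩ : N) ∈ commutator N ⊔ closure (Set.range fun x : N => x ^ p)) :
    u ∈ (frattini (S : Subgroup G)).map (S : Subgroup G).subtype ⊔ ((S : Subgroup G) ⊓ ⁅N, N⁆) := by
  obtain ⟨m, hm⟩ : ∃ m, m = (S : Subgroup G).relIndex N := ⟨_, rfl⟩
  have hmem : ∀ v : N, (v : G) ^ m ∈ (S : Subgroup G) := fun v => by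
    rw [hm]
    exact mem_subgroupOf.mp (((S : Subgroup G).subgroupOf N).pow_index_mem v)
  obtain ⟨T, hT⟩ : ∃ T, T = (frattini (S : Subgroup G)).map (S : Subgroup G).subtype ⊔
      ((S : Subgroup G) ⊓ ⁅N, N⁆) := ⟨_, rfl⟩
  rw [← hT]
  have hTS : T ≤ (S : Subgroup G) := hT ▸ sup_le (map_subtype_le _) inf_le_left
  have hJT : ∀ v : G, v ∈ ⁅N, N⁆ → v ∈ (S : Subgroup G) → v ∈ T := fun v hv hvS =>
    hT ▸ mem_sup_right ⟨hvS, hv⟩
  have hab : ∀ a b : N, Abelianization.of a = Abelianization.of b → ((a : G)⁻¹ * b) ∈ ⁅N, N⁆ :=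
    fun a b h => by
      have h1 : a⁻¹ * b ∈ commutator N := by
        rw [← Abelianization.ker_of, MonoidHom.mem_ker, map_mul, map_inv, h, inv_mul_cancel]
      rw [← Subgroup.map_subtype_commutator]
      exact ⟨_, h1, rfl⟩
  let good : Subgroup N :=
    { carrier := {v | (v : G) ^ m ∈ T}
      one_mem' := by
        show ((1 : N) : G) ^ m ∈ T
        rw [OneMemClass.coe_one, one_pow]; exact one_mem _
      mul_mem' := fun {a b} ha hb => by
        show ((a * b : N) : G) ^ m ∈ T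
        have h := hab (a ^ m * b ^ m) ((a * b) ^ m) (by rw [map_mul, map_pow, map_pow, map_pow, map_mul, mul_pow])
        rw [coe_mul, SubmonoidClass.coe_pow, SubmonoidClass.coe_pow, SubmonoidClass.coe_pow, coe_mul] at h
        have hS : ((a : G) ^ m * (b : G) ^ m)⁻¹ * ((a : G) * b) ^ m ∈ (S : Subgroup G) :=
          (S : Subgroup G).mul_mem ((S : Subgroup G).inv_mem (hTS (T.mul_mem ha hb)))
            (by rw [← coe_mul]; exact hmem (a * b))
        rw [coe_mul]
        have := T.mul_mem (T.mul_mem ha hb) (hJT _ h hS)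
        rwa [mul_inv_cancel_left] at this
      inv_mem' := fun {a} ha => by
        show ((a⁻¹ : N) : G) ^ m ∈ T
        rw [coe_inv, inv_pow]
        exact T.inv_mem ha }
  have hle : commutator N ⊔ closure (Set.range fun x : N => x ^ p) ≤ good := by
    refine sup_le (fun v hv => ?_) ((closure_le _).mpr ?_)
    · refine hJT _ ?_ (hmem v)
      refine Subgroup.pow_mem _ ?_ m
      rw [← Subgroup.map_subtype_commutator]
      exact ⟨v, hv, rfl⟩
    · rintro _ ⟨v, rfl⟩
      show ((v ^ p : N) : G) ^ m ∈ T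
      rw [SubmonoidClass.coe_pow, ← pow_mul, mul_comm, pow_mul, hT]
      exact mem_sup_left ⟨⟨_, hmem v⟩ ^ p, CfsgLib.Core.pgroup_pow_mem_frattini S.2 _, rfl⟩
  refine CfsgLib.Core.PiClosed.mem_of_pow_coprime (hle huW : u ^ m ∈ T) ?_
  obtain ⟨k, hk⟩ := IsPGroup.iff_orderOf.mp S.2 ⟨u, huS⟩
  rw [Subgroup.orderOf_mk] at hk
  rw [hk, hm]
  refine Nat.Coprime.pow_right k (hp.out.coprime_iff_not_dvd.mpr ?_).symm
  exact fun h => S.not_dvd_index (h.trans (relIndex_dvd_index_of_le hSN))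

/-- Elements of `S` in `G'` lie in the elementary kernel of the normaliser. -/
theorem mem_elementary_kernel (S : Sylow p G)
    (hno : ¬ ∃ (P : Sylow p (Equiv.Perm (Fin (p ^ 2))))
      (f : ↥(S : Subgroup G) →* ↥(P : Subgroup (Equiv.Perm (Fin (p ^ 2))))), Function.Surjective f)
    (N : Subgroup G) (hN : N = normalizer ((S : Subgroup G) : Set G)) {u : G}
    (huS : u ∈ (S : Subgroup G)) (huN : u ∈ N) (huG : u ∈ commutator G) :
    (⟨u, huN⟩ : N) ∈ commutator N ⊔ closure (Set.range fun x : N => x ^ p) := by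
  obtain ⟨W, hW⟩ : ∃ W, W = commutator N ⊔ closure (Set.range fun x : N => x ^ p) := ⟨_, rfl⟩
  rw [← hW]
  haveI : W.Normal := CfsgLib.Core.normal_of_commutator_le (hW ▸ le_sup_left)
  letI : CommGroup (N ⧸ W) :=
    { (inferInstance : Group (N ⧸ W)) with
      mul_comm := by
        intro a b
        obtain ⟨a, rfl⟩ := QuotientGroup.mk'_surjective W a
        obtain ⟨b, rfl⟩ := QuotientGroup.mk'_surjective W b
        rw [← commutatorElement_eq_one_iff_mul_comm, ← map_commutatorElement]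
        refine (QuotientGroup.eq_one_iff _).mpr (hW ▸ mem_sup_left ?_)
        rw [_root_.commutator_def]
        exact commutator_mem_commutator (mem_top _) (mem_top _) }
  have hexp : ∀ a : N ⧸ W, a ^ p = 1 := by
    intro a
    obtain ⟨a, rfl⟩ := QuotientGroup.mk'_surjective W a
    rw [← map_pow]
    exact (QuotientGroup.eq_one_iff _).mpr (hW ▸ mem_sup_right (subset_closure ⟨a, rfl⟩))
  exact (QuotientGroup.eq_one_iff _).mp (map_eq_one S hno N hN (QuotientGroup.mk' W) hexp huS huN huG)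

/-- Yoshida: without a wreath product quotient, the normaliser of a Sylow subgroup controls transfer. -/
theorem controls (S : Sylow p G)
    (hno : ¬ ∃ (P : Sylow p (Equiv.Perm (Fin (p ^ 2))))
      (f : ↥(S : Subgroup G) →* ↥(P : Subgroup (Equiv.Perm (Fin (p ^ 2))))), Function.Surjective f) :
    (S : Subgroup G) ⊓ commutator G = (S : Subgroup G) ⊓
      ⁅normalizer ((S : Subgroup G) : Set G), normalizer ((S : Subgroup G) : Set G)⁆ := by
  obtain ⟨N, hN⟩ : ∃ N, N = normalizer ((S : Subgroup G) : Set G) := ⟨_, rfl⟩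
  rw [← hN]
  have hSN : (S : Subgroup G) ≤ N := hN ▸ le_normalizer
  have hEf := relFusion_focal S N hSN
  have hFf : (relFusion (S : Subgroup G) ⊤ le_top).focalSubgroup =
      (S : Subgroup G) ⊓ commutator G := by
    rw [relFusion_focal S ⊤ le_top, _root_.commutator_def]
  rw [← hEf, ← hFf]
  have hsub : (relFusion (S : Subgroup G) N hSN).IsSubsystemOf (relFusion (S : Subgroup G) ⊤ le_top) :=
    fun P φ ⟨h1, h2, g, _, hg⟩ => ⟨h1, h2, g, mem_top g, hg⟩
  refine ((CfsgLib.TwoFusion.Tate.tate_iff S.2 (relFusion_saturated S ⊤ le_top)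
    (relFusion_saturated S N hSN) hsub).1).mp ?_
  rw [hEf, hFf]
  refine le_antisymm (sup_le le_sup_left ?_)
    (sup_le_sup_left (inf_le_inf_left _ (by rw [_root_.commutator_def]; exact commutator_mono le_top le_top)) _)
  intro u hu
  haveI : ((S : Subgroup G).subgroupOf N).Normal := by subst hN; exact normal_in_normalizer
  exact mem_of_elementary_kernel S N hSN hu.1 (mem_elementary_kernel S hno N hN hu.1 (hSN hu.1) hu.2)

end CfsgLib.Local.Yoshida
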