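import Cfsg.Agent.Lib.RootSLTwo
import Cfsg.Prelude.Def_LocalEven

/-!
# A Sylow subgroup on the natural `SL₂` module, in coordinates
-/

set_option autoImplicit false

universe u v

namespace CfsgLib.NaturalSLTwo

open Subgroup Matrix

variable {G : Type u} [Group G] [Finite G] {p : ℕ} [Fact p.Prime] {F : Type v} [Field F] [Fintype F]

theorem coords (n : ℕ) (hn : 0 < n) (hF : Fintype.card F = p ^ n) (V L : Subgroup G)
    (hnat : Cfsg.IsNaturalSL2Module F V L) (hf : L ⊓ centralizer (V : Set G) = ⊥) (S : Sylow p L) :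
    ∃ (φ : V → F × F) (τ : F → G), Function.Bijective φ ∧
      (∀ v w : V, φ (v * w) = φ v + φ w) ∧
      (∀ a, τ a ∈ (S : Subgroup L).map L.subtype) ∧
      (∀ t ∈ (S : Subgroup L).map L.subtype, ∃ a, t = τ a) ∧ τ 0 = 1 ∧
      ∀ (a : F) (v : V), ∃ w : V, (w : G) = τ a * v * (τ a)⁻¹ ∧
        φ w = ((φ v).1 + a * (φ v).2, (φ v).2) := by
  classical
  obtain ⟨hLV, ρ, ψ, hsur, hker, hact⟩ := hnat
  have hinj : Function.Injective ρ := by
    rw [← MonoidHom.ker_eq_bot_iff, hker, eq_bot_iff]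
    intro x hx
    have : (x : G) ∈ (⊥ : Subgroup G) := hf ▸ ⟨x.2, hx⟩
    exact mem_bot.2 (Subtype.ext (mem_bot.1 this))
  -- a fixed vector of `S`
  letI : MulAction S (Fin 2 → F) :=
    { smul := fun s x => (ρ (s : L)).1 *ᵥ x
      one_smul := fun x => show (ρ ((1 : S) : L)).1 *ᵥ x = x by simp
      mul_smul := fun s t x => show (ρ ((s * t : S) : L)).1 *ᵥ x = (ρ (s : L)).1 *ᵥ ((ρ (t : L)).1 *ᵥ x) by
        rw [Subgroup.coe_mul, map_mul, Matrix.SpecialLinearGroup.coe_mul, Matrix.mulVec_mulVec] }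
  have hcard : p ∣ Nat.card (Fin 2 → F) := by
    rw [Nat.card_fun, Nat.card_eq_fintype_card, hF, Nat.card_eq_fintype_card, Fintype.card_fin, ← pow_mul]
    exact dvd_pow_self p (by omega)
  obtain ⟨u, hu, hu0⟩ := S.isPGroup'.exists_fixed_point_of_prime_dvd_card_of_fixed_point _ hcard
    (show (0 : Fin 2 → F) ∈ MulAction.fixedPoints S (Fin 2 → F) from fun s => Matrix.mulVec_zero _)
  -- complete `u` to a basis of determinant one
  obtain ⟨g, hg⟩ : ∃ g : Matrix.SpecialLinearGroup (Fin 2) F, g.1 *ᵥ ![1, 0] = u := by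
    by_cases h0 : u 0 = 0
    · have h1 : u 1 ≠ 0 := fun h1 => hu0 (by funext i; fin_cases i <;> simp [h0, h1])
      refine ⟨⟨!![u 0, -(u 1)⁻¹; u 1, 0], by simp [Matrix.det_fin_two, h1]⟩, ?_⟩
      funext i; fin_cases i <;> simp [Matrix.mulVec, dotProduct]
    · refine ⟨⟨!![u 0, 0; u 1, (u 0)⁻¹], by simp [Matrix.det_fin_two, h0]⟩, ?_⟩
      funext i; fin_cases i <;> simp [Matrix.mulVec, dotProduct]
  set ρ' : L →* Matrix.SpecialLinearGroup (Fin 2) F := (MulAut.conj g⁻¹).toMonoidHom.comp ρ with hρ'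
  have hsur' : Function.Surjective ρ' := (MulAut.conj g⁻¹).surjective.comp hsur
  have hinj' : Function.Injective ρ' := (MulAut.conj g⁻¹).injective.comp hinj
  have hfix : ∀ s ∈ (S : Subgroup L), ∃ a : F, ρ' s = Cfsg.Agent.RootSLTwo.up a := by
    intro s hs
    have he : (ρ' s).1 *ᵥ ![1, 0] = ![1, 0] := by
      have e1 : (ρ s).1 *ᵥ u = u := hu ⟨s, hs⟩
      have e2 : ρ' s = g⁻¹ * ρ s * g := by simp [hρ', MulAut.conj_apply]
      rw [e2, Matrix.SpecialLinearGroup.coe_mul, Matrix.SpecialLinearGroup.coe_mul,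
        ← Matrix.mulVec_mulVec, hg, ← Matrix.mulVec_mulVec, e1, ← hg, Matrix.mulVec_mulVec,
        ← Matrix.SpecialLinearGroup.coe_mul, inv_mul_cancel, Matrix.SpecialLinearGroup.coe_one,
        Matrix.one_mulVec]
    have h00 := congrFun he 0
    have h10 := congrFun he 1
    simp [Matrix.mulVec, dotProduct] at h00 h10
    have hd := (ρ' s).2
    rw [Matrix.det_fin_two, h00, h10, one_mul, mul_zero, sub_zero] at hd
    refine ⟨(ρ' s).1 0 1, ?_⟩
    ext i j
    rw [Cfsg.Agent.RootSLTwo.val_up]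
    fin_cases i <;> fin_cases j <;> simp [h00, h10, hd]
  choose σ hσ using fun a : F => hsur' (Cfsg.Agent.RootSLTwo.up a)
  let U : Subgroup L :=
    { carrier := Set.range σ
      one_mem' := ⟨0, hinj' (by rw [hσ, map_one, Cfsg.Agent.RootSLTwo.up_zero])⟩
      mul_mem' := by
        rintro _ _ ⟨a, rfl⟩ ⟨b, rfl⟩
        exact ⟨a + b, hinj' (by rw [map_mul, hσ, hσ, hσ, Cfsg.Agent.RootSLTwo.up_mul])⟩
      inv_mem' := by
        rintro _ ⟨a, rfl⟩
        exact ⟨-a, hinj' (by rw [map_inv, hσ, hσ, Cfsg.Agent.RootSLTwo.up_inv])⟩ }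
  have hSU : (S : Subgroup L) ≤ U := fun s hs => by
    obtain ⟨a, ha⟩ := hfix s hs
    exact ⟨a, hinj' ((hσ a).trans ha.symm)⟩
  have hUp : IsPGroup p U := by
    refine IsPGroup.of_card (n := n) ?_
    rw [← hF, ← Nat.card_eq_fintype_card]
    refine (Nat.card_congr (Equiv.ofInjective σ fun a b h => ?_)).symm
    have := congrArg (fun x => (ρ' x).1 0 1) h
    simpa [hσ, Cfsg.Agent.RootSLTwo.val_up] using this
  have hUS : U = (S : Subgroup L) := S.is_maximal' hUp hSU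
  refine ⟨fun v => (((g⁻¹).1 *ᵥ ψ (Additive.ofMul v)) 0, ((g⁻¹).1 *ᵥ ψ (Additive.ofMul v)) 1),
    fun a => (σ a : G), ⟨fun v w h => ?_, fun x => ?_⟩, fun v w => ?_, fun a => ?_, ?_, ?_, fun a v => ?_⟩
  · have h' : (g⁻¹).1 *ᵥ ψ (Additive.ofMul v) = (g⁻¹).1 *ᵥ ψ (Additive.ofMul w) := by
      funext i; fin_cases i
      · exact congrArg Prod.fst h
      · exact congrArg Prod.snd h
    have h'' := congrArg (fun y => g.1 *ᵥ y) h'
    simp only [Matrix.mulVec_mulVec, ← Matrix.SpecialLinearGroup.coe_mul, mul_inv_cancel,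
      Matrix.SpecialLinearGroup.coe_one, Matrix.one_mulVec] at h''
    exact Additive.ofMul.injective (ψ.injective h'')
  · refine ⟨(ψ.symm (g.1 *ᵥ ![x.1, x.2])).toMul, ?_⟩
    simp only [ofMul_toMul, AddEquiv.apply_symm_apply, Matrix.mulVec_mulVec,
      ← Matrix.SpecialLinearGroup.coe_mul, inv_mul_cancel, Matrix.SpecialLinearGroup.coe_one,
      Matrix.one_mulVec]
    rfl
  · simp only [ofMul_mul, map_add, Matrix.mulVec_add, Pi.add_apply, Prod.mk_add_mk]
  · exact ⟨σ a, hUS ▸ ⟨a, rfl⟩, rfl⟩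
  · rintro _ ⟨s, hs, rfl⟩
    obtain ⟨a, rfl⟩ := hSU hs
    exact ⟨a, rfl⟩
  · have : σ 0 = 1 := hinj' (by rw [hσ, map_one, Cfsg.Agent.RootSLTwo.up_zero])
    simp [this]
  · obtain ⟨w, hw, hψ⟩ := hact (σ a) v
    refine ⟨w, hw, ?_⟩
    have e : ρ (σ a) = g * Cfsg.Agent.RootSLTwo.up a * g⁻¹ := by
      rw [← hσ a]; simp [hρ', MulAut.conj_apply, mul_assoc]
    simp only [hψ, Matrix.mulVec_mulVec, e, ← Matrix.SpecialLinearGroup.coe_mul, ← mul_assoc,
      inv_mul_cancel, one_mul]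
    simp only [Matrix.SpecialLinearGroup.coe_mul, ← Matrix.mulVec_mulVec,
      Cfsg.Agent.RootSLTwo.val_up]
    ext <;> simp [Matrix.mulVec, dotProduct, Fin.sum_univ_two]

end CfsgLib.NaturalSLTwo
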