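import Cfsg.Prelude.Def_OddOrderLocal
import Cfsg.Agent.Lib.CoreFitting
import Cfsg.Agent.Lib.CharCN3

/-!
# Elementary consequences of the data of a subgroup of type P
-/

set_option autoImplicit false

namespace CfsgLib.OddTypeP

open scoped commutatorElement

variable {G : Type*} [Group G] [Finite G]

/-- The join of two normal subgroups of order prime to their index has the same property. -/
theorem hall_sup {X : Type*} [Group X] [Finite X] {A B : Subgroup X} [A.Normal] [B.Normal]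
    (hA : (Nat.card A).Coprime A.index) (hB : (Nat.card B).Coprime B.index) :
    (Nat.card ↥(A ⊔ B)).Coprime (A ⊔ B).index := by
  refine Nat.coprime_of_dvd fun p hp h1 h2 => ?_
  have hd : Nat.card ↥(A ⊔ B) ∣ Nat.card A * Nat.card B := by
    refine ⟨Nat.card ↥(A ⊓ B), ?_⟩
    exact (CfsgLib.Core.card_sup_mul_card_inf (A := A) (K := B) (by rw [Subgroup.normalizer_eq_top]; exact le_top)).symm
  rcases (Nat.Prime.dvd_mul hp).mp (h1.trans hd) with h | h
  · exact hp.one_lt.ne' (Nat.eq_one_of_dvd_coprimes hA h (h2.trans (Subgroup.index_dvd_of_le le_sup_left)))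
  · exact hp.one_lt.ne' (Nat.eq_one_of_dvd_coprimes hB h (h2.trans (Subgroup.index_dvd_of_le le_sup_right)))

/-- `M_F` has order prime to its index in `M`. -/
theorem fittingHall_coprime (M : Type*) [Group M] [Finite M] :
    (Nat.card (Cfsg.fittingHall M)).Coprime (Cfsg.fittingHall M).index := by
  classical
  haveI : Fintype (Subgroup M) := Fintype.ofFinite _
  set S := {N : Subgroup M | N.Normal ∧ Group.IsNilpotent N ∧ (Nat.card N).Coprime N.index}
  have h : Cfsg.fittingHall M = S.toFinset.sup id := by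
    rw [Finset.sup_id_eq_sSup, Set.coe_toFinset]; rfl
  suffices h2 : (S.toFinset.sup id).Normal ∧
      (Nat.card ↥(S.toFinset.sup id)).Coprime (S.toFinset.sup id).index by
    rw [h]; exact h2.2
  refine Finset.sup_induction (p := fun N : Subgroup M => N.Normal ∧ (Nat.card N).Coprime N.index)
    ⟨inferInstance, by simp⟩ (fun A hA B hB => ?_) (fun N hN => ?_)
  · haveI := hA.1
    haveI := hB.1
    exact ⟨inferInstance, hall_sup hA.2 hB.2⟩
  · rw [Set.mem_toFinset] at hN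
    exact ⟨hN.1, hN.2.2⟩

theorem fittingHallOf_le (M : Subgroup G) : Cfsg.fittingHallOf M ≤ M := Subgroup.map_subtype_le _

theorem fittingOf_isNilpotent (M : Subgroup G) : Group.IsNilpotent (Cfsg.fittingOf M) :=
  Group.nilpotent_of_mulEquiv (_h := CfsgLib.Core.isNilpotent_fittingSubgroup)
    ((Cfsg.fittingSubgroup M).equivMapOfInjective _ (Subgroup.subtype_injective M))

variable {M W₁ U W₂ : Subgroup G}

theorem commutator_le (M : Subgroup G) : ⁅M, M⁆ ≤ M := Subgroup.commutator_le_self M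

theorem coprime_orderOf (hP : Cfsg.IsTypePWith M W₁ U W₂) {u h : G} (hu : u ∈ U)
    (hh : h ∈ Cfsg.fittingHallOf M) : (orderOf h).Coprime (orderOf u) := by
  have huM : u ∈ M := commutator_le M (hP.U_compl.2.1 hu)
  obtain ⟨h', hh', rfl⟩ := hh
  have hd : orderOf u ∣ (Cfsg.fittingHall M).index := by
    refine dvd_trans ?_ (orderOf_dvd_natCard ((⟨u, huM⟩ : M) : M ⧸ Cfsg.fittingHall M))
    refine orderOf_dvd_of_pow_eq_one ?_
    have h2 := pow_orderOf_eq_one ((⟨u, huM⟩ : M) : M ⧸ Cfsg.fittingHall M)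
    rw [← QuotientGroup.mk_pow, QuotientGroup.eq_one_iff] at h2
    have h3 : u ^ orderOf ((⟨u, huM⟩ : M) : M ⧸ Cfsg.fittingHall M) ∈ Cfsg.fittingHallOf M ⊓ U :=
      ⟨⟨_, h2, by simp⟩, pow_mem hu _⟩
    rw [hP.U_compl.2.2.1] at h3
    exact Subgroup.mem_bot.mp h3
  have e : orderOf (M.subtype h') = orderOf h' :=
    orderOf_injective M.subtype (Subgroup.subtype_injective M) h'
  rw [e]
  exact ((fittingHall_coprime M).coprime_dvd_left (Subgroup.orderOf_dvd_natCard _ hh')).coprime_dvd_right hd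

theorem fitting_inf_le (hP : Cfsg.IsTypePWith M W₁ U W₂) :
    Cfsg.fittingOf M ⊓ U ≤ Subgroup.centralizer (Cfsg.fittingHallOf M : Set G) := by
  intro u hu
  rw [Subgroup.mem_centralizer_iff]
  intro h hh
  exact CfsgLib.CN.commute_of_mem_nilpotent (fittingOf_isNilpotent M)
    ((le_sup_left.trans hP.fitting_eq.le) hh) hu.1 (coprime_orderOf hP hu.2 hh)

theorem fitting_eq_sup (hP : Cfsg.IsTypePWith M W₁ U W₂) :
    Cfsg.fittingOf M = Cfsg.fittingHallOf M ⊔
      (U ⊓ Subgroup.centralizer (Cfsg.fittingHallOf M : Set G)) := by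
  refine le_antisymm (fun m hm => ?_) (sup_le (le_sup_left.trans hP.fitting_eq.le) ?_)
  · obtain ⟨h, hh, u, hu, rfl⟩ := hP.U_compl.2.2.2 m (hP.fitting_le hm)
    refine Subgroup.mul_mem_sup hh ⟨hu, fitting_inf_le hP ⟨?_, hu⟩⟩
    have := mul_mem (inv_mem ((le_sup_left.trans hP.fitting_eq.le) hh)) hm
    simpa using this
  · refine le_trans ?_ (le_sup_right.trans hP.fitting_eq.le)
    exact le_inf (inf_le_left.trans (hP.U_compl.2.1.trans (commutator_le M))) inf_le_right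

theorem derived_U_le (hP : Cfsg.IsTypePWith M W₁ U W₂) :
    ⁅U, U⁆ ≤ Subgroup.centralizer (Cfsg.fittingHallOf M : Set G) := by
  refine le_trans (le_inf ?_ (Subgroup.commutator_le_self U)) (fitting_inf_le hP)
  exact ((Subgroup.commutator_mono hP.U_compl.2.1 hP.U_compl.2.1).trans hP.derived_two_le).trans
    hP.fitting_eq.le

theorem not_U_le (hP : Cfsg.IsTypePWith M W₁ U W₂) (hU : U ≠ ⊥) :
    ¬ U ≤ Subgroup.centralizer (Cfsg.fittingHallOf M : Set G) := by
  intro hle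
  apply hU
  have hF : ⁅M, M⁆ = Cfsg.fittingOf M := by
    refine le_antisymm (fun m hm => ?_) hP.fitting_le
    obtain ⟨h, hh, u, hu, rfl⟩ := hP.U_compl.2.2.2 m hm
    rw [fitting_eq_sup hP]
    exact Subgroup.mul_mem_sup hh ⟨hu, hle hu⟩
  obtain ⟨hc1, hc2, hc3, hc4⟩ := hP.W₁_compl
  let W : Subgroup M := W₁.subgroupOf M
  have hmap : (commutator M).map M.subtype = ⁅M, M⁆ := Subgroup.map_subtype_commutator M
  have hcompl : Subgroup.IsComplement' (commutator M) W := by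
    refine Subgroup.isComplement'_of_disjoint_and_mul_eq_univ ?_ ?_
    · rw [disjoint_iff, eq_bot_iff]
      rintro x ⟨hx1, hx2⟩
      have h3 : (x : G) ∈ (⁅M, M⁆ ⊓ W₁ : Subgroup G) := ⟨hmap ▸ ⟨x, hx1, rfl⟩, hx2⟩
      rw [hc3] at h3
      exact Subgroup.mem_bot.mpr (Subtype.ext (Subgroup.mem_bot.mp h3))
    · refine Set.eq_univ_of_forall fun x => ?_
      obtain ⟨a, ha, b, hb, hab⟩ := hc4 x x.2
      rw [← hmap] at ha
      obtain ⟨a', ha', rfl⟩ := ha
      exact ⟨a', ha', ⟨b, hc2 hb⟩, hb, Subtype.ext hab.symm⟩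
  have hcop : (Nat.card (commutator M)).Coprime (commutator M).index := by
    have h := hP.W₁_hall
    rw [show W₁.relIndex M = W.index from rfl, hcompl.index_eq_card] at h
    rw [hcompl.symm.index_eq_card, Nat.card_congr (Subgroup.subgroupOfEquivOfLe hc2).toEquiv]
    exact h.symm
  have hnil : Group.IsNilpotent (commutator M) := by
    haveI : Group.IsNilpotent ↥((commutator M).map M.subtype) := by
      rw [hmap, hF]; exact fittingOf_isNilpotent M
    exact Group.nilpotent_of_mulEquiv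
      ((commutator M).equivMapOfInjective _ (Subgroup.subtype_injective M)).symm
  have hle2 : ⁅M, M⁆ ≤ Cfsg.fittingHallOf M := by
    rw [← hmap]
    exact Subgroup.map_mono (le_sSup ⟨inferInstance, hnil, hcop⟩)
  rw [eq_bot_iff, ← hP.U_compl.2.2.1]
  exact le_inf (hP.U_compl.2.1.trans hle2) le_rfl

theorem W₂_unique {S : Subgroup G} {W₂' : Subgroup G} (hW : Cfsg.IsSelfNormalizingCyclic W₁ W₂)
    (hW₂S : W₂ ≤ S) (hP : Cfsg.IsTypePWith S W₁ U W₂') : W₂' = W₂ := by
  obtain ⟨x, hx, hx1⟩ := W₁.bot_or_exists_ne_one.resolve_left hP.W₁_ne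
  obtain ⟨h1, h2, h3, h4, h5, h6⟩ := hW
  obtain ⟨g1, g2, g3, g4, g5, g6⟩ := hP.selfNormalizing
  have coprimeOf : ∀ W : Subgroup G, IsCyclic ↥(W₁ ⊔ W) → W₁ ⊓ W = ⊥ →
      (Nat.card W₁).Coprime (Nat.card W) := by
    intro W hc hd
    refine Nat.coprime_of_dvd fun p hp ha hb => ?_
    haveI : Fact p.Prime := ⟨hp⟩
    obtain ⟨a, ha⟩ := exists_prime_orderOf_dvd_card' p ha
    obtain ⟨b, hb⟩ := exists_prime_orderOf_dvd_card' p hb
    have haV : (a : G) ∈ W₁ ⊔ W := Subgroup.mem_sup_left a.2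
    have hbV : (b : G) ∈ W₁ ⊔ W := Subgroup.mem_sup_right b.2
    have e : Subgroup.zpowers (⟨a, haV⟩ : ↥(W₁ ⊔ W)) = Subgroup.zpowers ⟨b, hbV⟩ := by
      haveI := hc
      letI : CommGroup ↥(W₁ ⊔ W) := IsCyclic.commGroup
      have oa : orderOf (⟨a, haV⟩ : ↥(W₁ ⊔ W)) = p := by rw [Subgroup.orderOf_mk, Subgroup.orderOf_coe, ha]
      have ob : orderOf (⟨b, hbV⟩ : ↥(W₁ ⊔ W)) = p := by rw [Subgroup.orderOf_mk, Subgroup.orderOf_coe, hb]
      set K := (powMonoidHom p : ↥(W₁ ⊔ W) →* ↥(W₁ ⊔ W)).ker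
      have hK : Nat.card K ≤ p := by
        rw [IsCyclic.card_powMonoidHom_ker]
        exact Nat.le_of_dvd hp.pos (Nat.gcd_dvd_right _ _)
      have key : ∀ v : ↥(W₁ ⊔ W), orderOf v = p → Subgroup.zpowers v = K := fun v hv =>
        Subgroup.eq_of_le_of_card_ge (Subgroup.zpowers_le.mpr (by
          show v ^ p = 1
          rw [← hv]; exact pow_orderOf_eq_one v)) (by rw [Nat.card_zpowers, hv]; exact hK)
      rw [key _ oa, key _ ob]
    obtain ⟨k, hk⟩ : (⟨a, haV⟩ : ↥(W₁ ⊔ W)) ∈ Subgroup.zpowers ⟨b, hbV⟩ := e ▸ Subgroup.mem_zpowers _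
    have hk' : (b : G) ^ k = a := congrArg Subtype.val hk
    have h7 : (a : G) ∈ W₁ ⊓ W := ⟨a.2, hk' ▸ zpow_mem b.2 k⟩
    rw [hd, Subgroup.mem_bot] at h7
    rw [← Subgroup.orderOf_coe, h7, orderOf_one] at ha
    exact hp.one_lt.ne ha
  have hc2 := coprimeOf W₂ h5 h3
  have hc2' := coprimeOf W₂' g5 g3
  have memOf : ∀ W : Subgroup G, (∀ a ∈ W₁, ∀ b ∈ W, a * b = b * a) →
      (Nat.card W₁).Coprime (Nat.card W) → ∀ w ∈ W₁ ⊔ W, (orderOf w).Coprime (Nat.card W₁) → w ∈ W := by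
    intro W hcomm hcop w hw hwc
    have hn : W₁ ≤ Subgroup.normalizer (W : Set G) := fun a ha => by
      rw [Subgroup.mem_normalizer_iff]
      intro z
      constructor <;> intro hz
      · rwa [hcomm a ha z hz, mul_inv_cancel_right]
      · have := hcomm a ha _ hz
        rw [mul_assoc _ a⁻¹ a, inv_mul_cancel, mul_one] at this
        rwa [← mul_left_cancel this]
    rw [← SetLike.mem_coe, Subgroup.coe_mul_of_left_le_normalizer_right _ _ hn] at hw
    obtain ⟨a, ha, b, hb, rfl⟩ := hw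
    have hab : Commute a b := hcomm a ha b hb
    have hp : (a * b) ^ Nat.card W ∈ W₁ := by
      rw [hab.mul_pow, show b ^ Nat.card W = 1 from orderOf_dvd_iff_pow_eq_one.mp
        (Subgroup.orderOf_dvd_natCard W hb), mul_one]
      exact pow_mem ha _
    have h8 : orderOf ((a * b) ^ Nat.card W) = 1 :=
      Nat.eq_one_of_dvd_coprimes hwc (orderOf_pow_dvd _) (Subgroup.orderOf_dvd_natCard W₁ hp)
    rw [orderOf_eq_one_iff, hab.mul_pow, show b ^ Nat.card W = 1 from orderOf_dvd_iff_pow_eq_one.mp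
      (Subgroup.orderOf_dvd_natCard W hb), mul_one] at h8
    have h9 : a = 1 := orderOf_eq_one_iff.mp (Nat.eq_one_of_dvd_coprimes hcop
      (Subgroup.orderOf_dvd_natCard W₁ ha) (orderOf_dvd_of_pow_eq_one h8))
    simpa [h9] using hb
  haveI := hP.W₁_cyclic
  have hle : W₂ ≤ W₂' := by
    intro w hw
    have hwx : x * w = w * x := h4 x hx w hw
    obtain ⟨a, ha, b, hb, rfl⟩ := hP.W₁_compl.2.2.2 w (hW₂S hw)
    have hxb : x * b = b * x := congrArg Subtype.val ((IsCyclic.commutative (α := W₁)).is_comm.comm ⟨x, hx⟩ ⟨b, hb⟩)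
    have hxa : x * a = a * x := mul_right_cancel (b := b) (by rw [mul_assoc, hwx, mul_assoc, ← hxb, ← mul_assoc])
    have haW : a ∈ W₂' := hP.W₂_centralizer x hx hx1 ▸
      ⟨ha, Subgroup.mem_centralizer_singleton_iff.mpr hxa.symm⟩
    refine memOf W₂' g4 hc2' _ (mul_mem (Subgroup.mem_sup_right haW) (Subgroup.mem_sup_left hb)) ?_
    exact hc2.symm.coprime_dvd_left (Subgroup.orderOf_dvd_natCard W₂ hw)
  refine le_antisymm (fun w hw => ?_) hle
  haveI := g5
  have hcw : ∀ v ∈ W₁ ⊔ W₂, w * v = v * w := by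
    intro v hv
    have hv' : v ∈ W₁ ⊔ W₂' := sup_le_sup le_rfl hle hv
    exact congrArg Subtype.val ((IsCyclic.commutative (α := ↥(W₁ ⊔ W₂'))).is_comm.comm
      ⟨w, Subgroup.mem_sup_right hw⟩ ⟨v, hv'⟩)
  obtain ⟨y, hy, hy1⟩ := W₂.bot_or_exists_ne_one.resolve_left h2
  let X : Set G := {x * y}
  have hX : X ⊆ (↑(W₁ ⊔ W₂) : Set G) \ (↑W₁ ∪ ↑W₂) := by
    rintro z (rfl : z = x * y)
    refine ⟨Subgroup.mul_mem_sup hx hy, ?_⟩
    rintro (h | h)
    · refine hy1 (Subgroup.mem_bot.mp (h3 ▸ ⟨?_, hy⟩))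
      have := mul_mem (inv_mem hx) h
      simpa using this
    · refine hx1 (Subgroup.mem_bot.mp (h3 ▸ ⟨hx, ?_⟩))
      have := mul_mem h (inv_mem hy)
      simpa using this
  refine memOf W₂ h4 hc2 w ?_ (hc2'.symm.coprime_dvd_left (Subgroup.orderOf_dvd_natCard W₂' hw))
  rw [← h6 X hX ⟨x * y, rfl⟩, Subgroup.mem_set_normalizer_iff]
  intro z
  have he : w * (x * y) * w⁻¹ = x * y := by
    rw [hcw _ (Subgroup.mul_mem_sup hx hy), mul_inv_cancel_right]
  simp only [X, Set.mem_singleton_iff]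
  constructor
  · rintro rfl; exact he
  · intro hz
    have : w * z * w⁻¹ = w * (x * y) * w⁻¹ := hz.trans he.symm
    simpa using this

end CfsgLib.OddTypeP
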