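import Cfsg.Prelude.Def_OddOrderLocal
import Cfsg.Agent.Lib.OddTypePBasic
import Cfsg.Agent.Lib.CharCN3
import Cfsg.Agent.Lib.CoreFpf
import Cfsg.Agent.Lib.CoreFpfComplement
import Cfsg.Agent.Lib.CoreFrobenius
import Cfsg.Agent.Lib.CorePGroup
import Cfsg.Agent.Lib.CoreFitting
import Mathlib.GroupTheory.SpecificGroups.ZGroup
import Mathlib.GroupTheory.FixedPointFree

/-!
# CN-groups with a normal Sylow subgroup
-/

set_option autoImplicit false

universe u

namespace CfsgLib.CNNormal

variable {G : Type u} [Group G] [Finite G]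

theorem nilpotent_of_le {A B : Subgroup G} (h : A ≤ B) (hB : Group.IsNilpotent B) : Group.IsNilpotent A :=
  haveI := hB
  (Group.isNilpotent_congr (Subgroup.subgroupOfEquivOfLe h)).1 inferInstance

theorem comm_of_coprime (hCN : Cfsg.IsCNGroup G) {g x y : G} (hg : g ≠ 1) (hx : x * g = g * x)
    (hy : y * g = g * y) (hco : (orderOf x).Coprime (orderOf y)) : x * y = y * x := by
  haveI := hCN g hg
  have hm : ∀ w : G, w * g = g * w → w ∈ Subgroup.centralizer ({g} : Set G) := fun w hw => by
    rw [Subgroup.mem_centralizer_iff]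
    rintro _ rfl
    exact hw.symm
  exact congrArg Subtype.val (CfsgLib.CN.commute_of_coprime_orderOf
    (⟨x, hm x hx⟩ : Subgroup.centralizer ({g} : Set G)) ⟨y, hm y hy⟩
    (by rwa [← Subgroup.orderOf_coe, ← Subgroup.orderOf_coe]))

theorem central_in {N S : Subgroup G} (hS : Group.IsNilpotent S) (hNS : N ≤ S)
    (hn : S ≤ Subgroup.normalizer (N : Set G)) (hN : N ≠ ⊥) :
    ∃ z ∈ N, z ≠ 1 ∧ ∀ s ∈ S, s * z = z * s := by
  haveI := hS
  haveI : (N.subgroupOf S).Normal := (Subgroup.normal_subgroupOf_iff_le_normalizer hNS).2 hn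
  have h0 : N.subgroupOf S ≠ ⊥ := fun e => hN (by
    rw [← Subgroup.map_subgroupOf_eq_of_le hNS, e, Subgroup.map_bot])
  obtain ⟨⟨z, hz⟩, hz1⟩ := Subgroup.ne_bot_iff_exists_ne_one.1 (CfsgLib.Core.nilpotent_inf_center_ne_bot h0)
  exact ⟨(z : G), hz.1, fun e => hz1 (Subtype.ext (Subtype.ext e)),
    fun s hs => congrArg Subtype.val (Subgroup.mem_center_iff.1 hz.2 ⟨s, hs⟩)⟩

/-- Elements outside the Hall Fitting subgroup act freely on it. -/
theorem free (hCN : Cfsg.IsCNGroup G) {F : Subgroup G} [F.Normal] (hFn : Group.IsNilpotent F)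
    (hmax : ∀ (q : ℕ) [Fact q.Prime] (S : Sylow q G), (S : Subgroup G).Normal → (S : Subgroup G) ≤ F)
    {e : G} {q : ℕ} [hq : Fact q.Prime] (he : orderOf e = q) (hqF : (Nat.card F).Coprime q)
    {h : G} (hh : h ∈ F) (hh1 : h ≠ 1) (hc : e * h = h * e) : False := by
  have hco : ∀ {k : G}, k ∈ F → ∀ {s : G}, (∃ n : ℕ, orderOf s = q ^ n) → (orderOf s).Coprime (orderOf k) := by
    rintro k hk s ⟨n, hn⟩
    rw [hn]
    exact ((hqF.symm).pow_left n).coprime_dvd_right (Subgroup.orderOf_dvd_natCard _ hk)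
  have hFne : F ≠ ⊥ := fun e0 => hh1 (Subgroup.mem_bot.1 (e0 ▸ hh))
  obtain ⟨z, hz, hz1, hzc⟩ := central_in hFn le_rfl Subgroup.le_normalizer hFne
  have hez : e * z = z * e := comm_of_coprime hCN hh1 hc ((hzc h hh).symm) (hco hz ⟨1, by rw [pow_one, he]⟩)
  have heF : e ∈ Subgroup.centralizer (F : Set G) := by
    rw [Subgroup.mem_centralizer_iff]
    intro k hk
    exact (comm_of_coprime hCN hz1 hez (hzc k hk) (hco hk ⟨1, by rw [pow_one, he]⟩)).symm
  set C := Subgroup.centralizer (F : Set G) with hC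
  haveI hCn : Group.IsNilpotent C := nilpotent_of_le (Subgroup.centralizer_le (by simpa using hz)) (hCN z hz1)
  obtain ⟨Qc⟩ := (inferInstance : Nonempty (Sylow q C))
  haveI hQcn : (Qc : Subgroup C).Normal := inferInstance
  haveI hchar : (Qc : Subgroup C).Characteristic := Qc.characteristic_of_normal hQcn
  haveI : ((Qc : Subgroup C).map C.subtype).Normal := inferInstance
  set Q := (Qc : Subgroup C).map C.subtype with hQ
  have hQp : IsPGroup q Q := Qc.2.map _
  have hmemQ : ∀ S : Subgroup G, IsPGroup q S → S ≤ C → S ≤ Q := by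
    intro S hS hSC
    obtain ⟨R, hR⟩ := (hS.comap_of_injective C.subtype C.subtype_injective).exists_le_sylow
    haveI := Sylow.unique_of_normal Qc hQcn
    rw [Subsingleton.elim R Qc] at hR
    rw [← Subgroup.map_subgroupOf_eq_of_le hSC]
    exact Subgroup.map_mono hR
  have heQ : e ∈ Q := hmemQ (Subgroup.zpowers e) (IsPGroup.of_card (n := 1) (by
    rw [Nat.card_zpowers, he, pow_one])) (Subgroup.zpowers_le.2 heF) (Subgroup.mem_zpowers e)
  have he1 : e ≠ 1 := fun e0 => hq.out.ne_one (by rw [← he, e0, orderOf_one])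
  obtain ⟨S, hS⟩ := hQp.exists_le_sylow
  haveI : Group.IsNilpotent (S : Subgroup G) := S.2.isNilpotent
  obtain ⟨w, hw, hw1, hwc⟩ := central_in (S := (S : Subgroup G)) inferInstance hS
    (by rw [Subgroup.normalizer_eq_top]; exact le_top)
    (fun e0 => he1 (Subgroup.mem_bot.1 (e0 ▸ heQ)))
  have hSC : (S : Subgroup G) ≤ C := by
    intro s hs
    rw [hC, Subgroup.mem_centralizer_iff]
    intro k hk
    have hwk : k * w = w * k := Subgroup.mem_centralizer_iff.1 (Subgroup.map_subtype_le _ hw) k hk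
    obtain ⟨n, hn⟩ := (IsPGroup.iff_orderOf.1 S.2) ⟨s, hs⟩
    exact (comm_of_coprime hCN hw1 (hwc s hs) hwk (hco hk ⟨n, by rw [← hn, ← Subgroup.orderOf_coe]⟩)).symm
  have hSn : (S : Subgroup G).Normal := by
    rw [le_antisymm (hmemQ _ S.2 hSC) hS]; infer_instance
  have heF' : e ∈ F := hmax q S hSn (hS heQ)
  exact hq.out.ne_one (Nat.Coprime.eq_one_of_dvd hqF.symm (he ▸ Subgroup.orderOf_dvd_natCard _ heF'))

/-- A free complement in a CN-group is nilpotent. -/
theorem nilpotent_free (hCN : Cfsg.IsCNGroup G) {K E : Subgroup G} [K.Normal] (hK : K ≠ ⊥)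
    (hfree : ∀ e ∈ E, e ≠ 1 → ∀ k ∈ K, e * k = k * e → k = 1) : Group.IsNilpotent E := by
  classical
  rcases subsingleton_or_nontrivial E with hE | hE
  · infer_instance
  have hEK : E ≤ Subgroup.normalizer (K : Set G) := by rw [Subgroup.normalizer_eq_top]; exact le_top
  suffices h : ∃ v : G, v ≠ 1 ∧ ∀ x ∈ E, x * v = v * x by
    obtain ⟨v, hv, hx⟩ := h
    refine nilpotent_of_le (B := Subgroup.centralizer ({v} : Set G)) (fun x hxE => ?_) (hCN v hv)
    rw [Subgroup.mem_centralizer_iff]
    rintro _ rfl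
    exact (hx x hxE).symm
  by_cases h2 : 2 ∣ Nat.card E
  · haveI : Fact (Nat.Prime 2) := ⟨Nat.prime_two⟩
    have hinv : ∀ t ∈ E, orderOf t = 2 → ∀ k : K, t * (k : G) * t⁻¹ = (k : G)⁻¹ := by
      intro t ht ho k
      have ht1 : t ≠ 1 := fun e => by rw [e, orderOf_one] at ho; omega
      have htt : t * t = 1 := by rw [← pow_two, ← ho, pow_orderOf_eq_one]
      let φ : K →* K := (MulAut.conjNormal t : MulAut K).toMonoidHom
      have hf : MonoidHom.FixedPointFree φ := fun v hv => by
        refine Subtype.ext (hfree t ht ht1 v v.2 ?_)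
        have e := congrArg Subtype.val hv
        simp [φ] at e
        calc t * (v : G) = t * v * t⁻¹ * t := by group
          _ = v * t := by rw [e]
      have hφ : Function.Involutive φ := fun v => Subtype.ext (by
        show t * (t * (v : G) * t⁻¹) * t⁻¹ = v
        rw [show t * (t * (v : G) * t⁻¹) * t⁻¹ = (t * t) * v * (t * t)⁻¹ by group, htt]
        simp)
      have h := congrArg Subtype.val (congrFun (hf.coe_eq_inv_of_involutive hφ) k)
      exact h
    obtain ⟨⟨t, ht⟩, ho⟩ := exists_prime_orderOf_dvd_card' 2 h2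
    rw [← Subgroup.orderOf_coe] at ho
    refine ⟨t, fun e => by simp [e] at ho, fun x hx => ?_⟩
    have ho' : orderOf (x * t * x⁻¹) = 2 :=
      (orderOf_injective (MulAut.conj x).toMonoidHom (MulAut.conj x).injective t).trans ho
    have hm : x * t * x⁻¹ ∈ E := mul_mem (mul_mem hx ht) (inv_mem hx)
    obtain ⟨k, hk0⟩ := Subgroup.ne_bot_iff_exists_ne_one.1 hK
    have hk : (k : G) ∈ K := k.2
    have hk1 : (k : G) ≠ 1 := fun e => hk0 (Subtype.ext e)
    set s := x * t * x⁻¹ with hs
    by_contra hne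
    refine hk1 (hfree (s⁻¹ * t) (mul_mem (inv_mem hm) ht) (fun e => hne ?_) k hk ?_)
    · rw [inv_mul_eq_one] at e
      calc x * t = s * x := by rw [hs]; group
        _ = t * x := by rw [e]
    · have e1 := hinv t ht ho k
      have e2 := hinv s hm ho' k
      calc s⁻¹ * t * k = s⁻¹ * (t * k * t⁻¹) * t := by group
        _ = s⁻¹ * (s * k * s⁻¹) * t := by rw [e1, e2]
        _ = k * (s⁻¹ * t) := by group
  · haveI hZ : IsZGroup E := ⟨fun p hp P => by
      haveI := Fact.mk hp
      have hP' : IsPGroup p ((P : Subgroup E).map E.subtype) := P.2.map _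
      rcases CfsgLib.Core.cyclic_or_quaternion_of_fpf hP' ((Subgroup.map_subtype_le _).trans hEK) hK
        (fun a ha => hfree a (Subgroup.map_subtype_le _ ha)) with hc | ⟨rfl, n, ⟨iso⟩⟩
      · haveI := hc
        exact isCyclic_of_surjective ((P : Subgroup E).equivMapOfInjective E.subtype E.subtype_injective).symm
          (MulEquiv.surjective _)
      · exfalso
        refine h2 (dvd_trans ?_ (Subgroup.card_subgroup_dvd_card (P : Subgroup E)))
        rw [Nat.card_congr ((P : Subgroup E).equivMapOfInjective E.subtype E.subtype_injective).toEquiv,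
          Nat.card_congr iso.toEquiv, Nat.card_eq_fintype_card, QuaternionGroup.card]
        exact ⟨2 * 2 ^ n, by ring⟩⟩
    obtain ⟨q, hq', hO⟩ := CfsgLib.Core.exists_pCore_ne_bot (G := E)
    haveI hq : Fact q.Prime := ⟨hq'⟩
    haveI hOn := CfsgLib.Core.normal_pCore (G := E) q
    set O := Cfsg.pCore q E with hOdef
    have hOp : IsPGroup q O := CfsgLib.Core.isPGroup_pCore q
    haveI : IsCyclic O := by
      obtain ⟨P⟩ := (inferInstance : Nonempty (Sylow q E))
      haveI := hZ.isZGroup q hq.out P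
      exact isCyclic_of_injective (Subgroup.inclusion (CfsgLib.Core.pCore_le_sylow P)) (Subgroup.inclusion_injective _)
    have hqO : q ∣ Nat.card O := by
      obtain ⟨n, hn⟩ := hOp.exists_card_eq
      rcases n with _ | n
      · exact absurd (Subgroup.card_eq_one.1 (hn.trans (pow_zero q))) hO
      · exact hn ▸ dvd_pow_self q n.succ_ne_zero
    obtain ⟨v, hv⟩ := exists_prime_orderOf_dvd_card' q hqO
    have hu : ∀ w : O, orderOf w = q → v ∈ Subgroup.zpowers w := by
      intro w hw
      haveI := Fintype.ofFinite O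
      have h1 : Finset.univ.filter (fun a : O => a ^ q = 1) =
          ((Subgroup.zpowers w : Set O)).toFinset := by
        symm
        refine Finset.eq_of_subset_of_card_le ?_ ?_
        · intro a ha
          rw [Set.mem_toFinset] at ha
          obtain ⟨i, rfl⟩ := ha
          rw [Finset.mem_filter]
          refine ⟨Finset.mem_univ _, ?_⟩
          show (w ^ i) ^ q = 1
          rw [← zpow_natCast, ← zpow_mul, mul_comm, zpow_mul, zpow_natCast, ← hw, pow_orderOf_eq_one,
            one_zpow]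
        · refine (IsCyclic.card_pow_eq_one_le hq.out.pos).trans ?_
          rw [Set.toFinset_card, ← Nat.card_eq_fintype_card]
          exact (Nat.card_zpowers w ▸ hw.ge : q ≤ Nat.card (Subgroup.zpowers w))
      have h2 : v ∈ Finset.univ.filter (fun a : O => a ^ q = 1) :=
        Finset.mem_filter.2 ⟨Finset.mem_univ _, hv ▸ pow_orderOf_eq_one v⟩
      rw [h1, Set.mem_toFinset] at h2
      exact h2
    have hvq : orderOf ((v : E) : G) = q := by rw [Subgroup.orderOf_coe, Subgroup.orderOf_coe, hv]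
    refine ⟨((v : E) : G), fun e => hq.out.ne_one (by rw [← hvq, e, orderOf_one]), ?_⟩
    suffices htop : Subgroup.centralizer ({(v : E)} : Set E) = ⊤ by
      intro x hx
      have h : (⟨x, hx⟩ : E) ∈ Subgroup.centralizer ({(v : E)} : Set E) := htop ▸ Subgroup.mem_top _
      exact congrArg Subtype.val (Subgroup.mem_centralizer_iff.1 h _ rfl).symm
    rw [← Subgroup.index_eq_one]
    by_contra hne
    obtain ⟨r, hr, hrd⟩ := Nat.exists_prime_and_dvd hne
    haveI := Fact.mk hr
    obtain ⟨R⟩ := (inferInstance : Nonempty (Sylow r E))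
    refine R.not_dvd_index (hrd.trans (Subgroup.index_dvd_of_le ?_))
    intro y hy
    rw [Subgroup.mem_centralizer_iff]
    rintro _ rfl
    rcases eq_or_ne r q with rfl | hrq
    · haveI := hZ.isZGroup r hr R
      letI := IsCyclic.commGroup (α := (R : Subgroup E))
      exact congrArg Subtype.val (mul_comm (⟨(v : E), CfsgLib.Core.pCore_le_sylow R v.2⟩ : (R : Subgroup E)) ⟨y, hy⟩)
    haveI := hZ.isZGroup r hr R
    letI := IsCyclic.commGroup (α := (R : Subgroup E))
    have hrR : r ∣ Nat.card (R : Subgroup E) := R.dvd_card_of_dvd_card (hrd.trans (Subgroup.index_dvd_card _))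
    obtain ⟨x, hx⟩ := exists_prime_orderOf_dvd_card' r hrR
    obtain ⟨u, hu1, hu2⟩ : ∃ u : O, u ≠ 1 ∧ ((u : E) : G) * ((x : E) : G) = ((x : E) : G) * ((u : E) : G) := by
      by_contra hcon
      push Not at hcon
      refine hK (CfsgLib.Core.eq_bot_of_fpf (Q := O.map E.subtype) (b := ((x : E) : G)) hr
        (by rw [Subgroup.orderOf_coe, Subgroup.orderOf_coe, hx]) (hOp.map _)
        (fun e => hO ((Subgroup.map_eq_bot_iff_of_injective _ E.subtype_injective).1 e))
        ?_ (le_trans (sup_le (Subgroup.map_subtype_le _) (Subgroup.zpowers_le.2 (x : E).2)) hEK) ?_ ?_)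
      · exact Subgroup.le_normalizer_map E.subtype ⟨(x : E), by
          rw [Subgroup.normalizer_eq_top]; exact Subgroup.mem_top _, rfl⟩
      · rintro _ ⟨u, hu, rfl⟩ e
        by_contra hu1
        exact hcon ⟨u, hu⟩ (fun e' => hu1 (by rw [show u = 1 from congrArg Subtype.val e']; simp)) e
      · intro g hg
        exact hfree g (sup_le (Subgroup.map_subtype_le _) (Subgroup.zpowers_le.2 (x : E).2) hg)
    have hcy : ((y : E) : G) * ((u : E) : G) = ((u : E) : G) * ((y : E) : G) := by
      have hx1 : ((x : E) : G) ≠ 1 := fun e => hr.ne_one (by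
        rw [← hx, ← Subgroup.orderOf_coe, ← Subgroup.orderOf_coe, e, orderOf_one])
      refine comm_of_coprime hCN hx1 ?_ hu2 ?_
      · exact congrArg (fun w : (R : Subgroup E) => ((w : E) : G)) (mul_comm (⟨y, hy⟩ : (R : Subgroup E)) x)
      · obtain ⟨m, hm⟩ := (IsPGroup.iff_orderOf.1 R.2) ⟨y, hy⟩
        obtain ⟨n, hn⟩ := (IsPGroup.iff_orderOf.1 hOp) u
        rw [Subgroup.orderOf_coe, Subgroup.orderOf_coe u.1, Subgroup.orderOf_coe, hn,
          ← Subgroup.orderOf_mk y hy, hm]
        exact Nat.Coprime.pow m n ((Nat.coprime_primes hr hq.out).2 hrq)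
    have hcy' : Commute y (u : E) := Subtype.ext hcy
    obtain ⟨n, hn⟩ := (IsPGroup.iff_orderOf.1 hOp) u
    rcases n with _ | n
    · exact absurd (orderOf_eq_one_iff.1 (hn.trans (pow_zero q))) hu1
    have hw : orderOf (u ^ q ^ n) = q := by
      rw [orderOf_pow' u (pow_ne_zero _ hq.out.ne_zero), hn, pow_succ,
        Nat.gcd_mul_right_left, Nat.mul_div_cancel_left _ (pow_pos hq.out.pos n)]
    obtain ⟨i, hi⟩ := hu _ hw
    have e : (v : E) = ((u : E) ^ q ^ n) ^ i := by rw [← hi]; simp
    rw [e]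
    exact (((hcy'.pow_right _).zpow_right i)).symm

end CfsgLib.CNNormal
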