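import Cfsg.Agent.S0100
import Cfsg.Agent.Lib.CoreBasic
import Cfsg.Prelude.Def_Transfer
import Cfsg.Prelude.Def_CaseTheorems
import Cfsg.Agent.Lib.CorePGroup

/-!
# Self-centralizing normal abelian subgroups of rank three
-/

set_option autoImplicit false

universe u

namespace CfsgLib.SCNThree

theorem main {R : Type u} [Group R] [Finite R] {p : ℕ} [hp : Fact p.Prime] (hp2 : p ≠ 2) (hR : IsPGroup p R)
    (hr : ¬ Cfsg.PRankLE p 2 R) (E : Subgroup R) [E.Normal] (hE : Cfsg.IsElementaryAbelian p E)
    (hE2 : Nat.card E = p ^ 2) :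
    ∃ A : Subgroup R, E ≤ A ∧ A.Normal ∧ Subgroup.centralizer (A : Set R) = A ∧ ¬ Cfsg.PRankLE p 2 A := by
  classical
  obtain ⟨B, hBn, hBc, hBp, hB3⟩ : ∃ B : Subgroup R, B.Normal ∧ IsMulCommutative B ∧
      (∀ a ∈ B, a ^ p = 1) ∧ Nat.card B = p ^ 3 := by
    by_contra h
    push Not at h
    exact hr fun X hX hXe => Cfsg.Agent.S0100.result hp2 hR (fun A h1 h2 h3 => h A h1 h2 h3) X hX hXe
  haveI := hBn
  set C := Subgroup.centralizer (E : Set R) with hC
  haveI : (B ⊓ C).Normal := Subgroup.normal_inf_normal B C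
  set W := E ⊔ (B ⊓ C) with hW
  haveI hWn : W.Normal := Subgroup.sup_normal E (B ⊓ C)
  have hWcl : W = Subgroup.closure ((E : Set R) ∪ (B ⊓ C : Subgroup R)) := by
    rw [Subgroup.closure_union, Subgroup.closure_eq, Subgroup.closure_eq]
  haveI hWc : IsMulCommutative W := by
    rw [hWcl]
    refine Subgroup.isMulCommutative_closure ?_
    rintro x (hx | hx) y (hy | hy)
    · exact congrArg Subtype.val (hE.1.is_comm.comm (⟨x, hx⟩ : E) ⟨y, hy⟩)
    · exact Subgroup.mem_centralizer_iff.1 (Subgroup.mem_inf.1 hy).2 x hx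
    · exact (Subgroup.mem_centralizer_iff.1 (Subgroup.mem_inf.1 hx).2 y hy).symm
    · exact congrArg Subtype.val (hBc.is_comm.comm (⟨x, (Subgroup.mem_inf.1 hx).1⟩ : B) ⟨y, (Subgroup.mem_inf.1 hy).1⟩)
  have hWe : ∀ a ∈ W, a ^ p = 1 := by
    intro a ha
    obtain ⟨x, hx, y, hy, rfl⟩ := Subgroup.mem_sup_of_normal_right.1 ha
    have hxy : Commute x y := Subgroup.mem_centralizer_iff.1 (Subgroup.mem_inf.1 hy).2 x hx
    rw [hxy.mul_pow, hE.2 x hx, hBp y (Subgroup.mem_inf.1 hy).1, one_mul]
  have hW3 : ¬ Nat.card W ≤ p ^ 2 := by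
    intro hle
    have hEW : E = W := CfsgLib.Core.eq_of_le_of_card_le le_sup_left (by rw [hE2]; exact hle)
    have hBC : B ⊓ C ≤ E := le_sup_right.trans hEW.ge
    -- the centralizer of `E` has index at most `p` on `B`
    have hidx : C.relIndex B ≤ p := by
      obtain ⟨k, hk⟩ := IsPGroup.iff_card.1 (hR.to_quotient C)
      have hd : C.relIndex B ∣ C.index := C.relIndex_dvd_index_of_normal B
      rw [Subgroup.index_eq_card, hk] at hd
      obtain ⟨j, -, hj⟩ := (Nat.dvd_prime_pow hp.out).1 hd
      rw [hj]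
      by_contra hgt
      have hj2 : 2 ≤ j := by
        by_contra h
        exact hgt (le_trans (Nat.pow_le_pow_right hp.out.pos (show j ≤ 1 by omega)) (pow_one p).le)
      have h1 := CfsgLib.Core.card_inf_mul_relIndex C B
      rw [hj, hB3] at h1
      have hBC' : Nat.card ↥(C ⊓ B) ≤ p := by
        by_contra h
        have : p ^ 3 < Nat.card ↥(C ⊓ B) * p ^ j := by
          calc p ^ 3 = p * p ^ 2 := by ring
            _ < Nat.card ↥(C ⊓ B) * p ^ 2 := Nat.mul_lt_mul_of_pos_right (not_le.1 h) (pow_pos hp.out.pos 2)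
            _ ≤ _ := Nat.mul_le_mul_left _ (Nat.pow_le_pow_right hp.out.pos hj2)
        omega
      -- `B` meets `E` nontrivially
      have hEB : E ⊓ B ≠ ⊥ := by
        intro h0
        have hcent : B ≤ C := fun b hb => Subgroup.mem_centralizer_iff.2 fun e he =>
          Subgroup.commute_of_normal_of_disjoint _ _ inferInstance inferInstance (disjoint_iff.2 h0) e b he hb
        rw [inf_eq_right.2 hcent, hB3] at hBC'
        have : p ^ 1 < p ^ 3 := Nat.pow_lt_pow_right hp.out.one_lt (by norm_num)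
        rw [pow_one] at this
        omega
      haveI : (E ⊓ B).Normal := Subgroup.normal_inf_normal E B
      have hcard : Nat.card ↥(E ⊓ B) = p := by
        have h2 : Nat.card ↥(E ⊓ B) ≤ p := le_trans (Subgroup.card_le_of_le (le_inf (inf_le_left.trans (by
          intro e he
          rw [hC, Subgroup.mem_centralizer_iff]
          exact fun f hf => congrArg Subtype.val (hE.1.is_comm.comm (⟨f, hf⟩ : E) ⟨e, he⟩))) inf_le_right)) hBC'
        obtain ⟨i, hi⟩ := IsPGroup.iff_card.1 (hR.to_subgroup (E ⊓ B))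
        rw [hi] at h2 ⊢
        have h3 : i ≠ 0 := fun h => hEB (Subgroup.card_eq_one.1 (by rw [hi, h, pow_zero]))
        have h4 : i ≤ 1 := (Nat.pow_le_pow_iff_right hp.out.one_lt).1 (by rwa [pow_one])
        rw [show i = 1 by omega, pow_one]
      -- so the image of `B` in the automorphisms of `E` is of order at most `p`
      obtain ⟨e, he, hee⟩ : ∃ e ∈ E, e ∉ E ⊓ B := by
        by_contra h
        push Not at h
        have h5 := Subgroup.card_le_of_le (show E ≤ E ⊓ B from h)
        rw [hE2, hcard] at h5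
        have := Nat.pow_lt_pow_right hp.out.one_lt (show 1 < 2 by norm_num)
        rw [pow_one] at this
        omega
      let f : B ⧸ C.subgroupOf B → ↥(E ⊓ B) := fun q => ⟨((q.out : B) : R) * e * ((q.out : B) : R)⁻¹ * e⁻¹,
        Subgroup.mem_inf.2 ⟨mul_mem ((inferInstance : E.Normal).conj_mem e he _) (inv_mem he), by
          have := mul_mem (q.out : B).2 ((inferInstance : B.Normal).conj_mem _ (inv_mem (q.out : B).2) e)
          simpa [mul_assoc] using this⟩⟩
      have hf : Function.Injective f := by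
        intro q r h
        have h' := mul_right_cancel (congrArg Subtype.val h)
        rw [← QuotientGroup.out_eq' q, ← QuotientGroup.out_eq' r, QuotientGroup.eq, Subgroup.mem_subgroupOf]
        show _ ∈ Subgroup.centralizer (E : Set R)
        rw [Subgroup.mem_centralizer_iff]
        intro x hx
        set d := ((q.out⁻¹ * r.out : B) : R) with hd'
        have hde : d * e = e * d := by
          rw [hd', Subgroup.coe_mul, Subgroup.coe_inv]
          calc ((q.out : B) : R)⁻¹ * (r.out : B) * e
              = ((q.out : B) : R)⁻¹ * (((r.out : B) : R) * e * ((r.out : B) : R)⁻¹) * (r.out : B) := by group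
            _ = ((q.out : B) : R)⁻¹ * (((q.out : B) : R) * e * ((q.out : B) : R)⁻¹) * (r.out : B) := by rw [h']
            _ = _ := by group
        have hdB : ∀ z ∈ B, d * z = z * d := fun z hz =>
          congrArg Subtype.val (hBc.is_comm.comm (q.out⁻¹ * r.out : B) ⟨z, hz⟩)
        have hle : E ≤ Subgroup.centralizer ({d} : Set R) := by
          have hlt : E ⊓ B < E ⊓ Subgroup.centralizer ({d} : Set R) := by
            refine lt_of_le_not_ge (le_inf inf_le_left fun z hz =>
              Subgroup.mem_centralizer_singleton_iff.2 (hdB z (Subgroup.mem_inf.1 hz).2).symm) fun h => hee ?_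
            exact h (Subgroup.mem_inf.2 ⟨he, Subgroup.mem_centralizer_singleton_iff.2 hde.symm⟩)
          obtain ⟨i, hi⟩ := IsPGroup.iff_card.1 (hR.to_subgroup (E ⊓ Subgroup.centralizer ({d} : Set R)))
          have h6 : Nat.card ↥(E ⊓ B) < Nat.card ↥(E ⊓ Subgroup.centralizer ({d} : Set R)) :=
            lt_of_le_of_ne (Subgroup.card_le_of_le hlt.le) fun e' => hlt.ne (CfsgLib.Core.eq_of_le_of_card_le hlt.le e'.ge)
          rw [hcard, hi] at h6
          have h7 : 2 ≤ i := by
            by_contra hlt'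
            have : i ≤ 1 := by omega
            exact absurd h6 (not_lt.2 ((Nat.pow_le_pow_right hp.out.pos this).trans (pow_one p).le))
          have h8 : E ⊓ Subgroup.centralizer ({d} : Set R) = E := CfsgLib.Core.eq_of_le_of_card_le inf_le_left (by
            rw [hE2, hi]; exact Nat.pow_le_pow_right hp.out.pos h7)
          exact h8.ge.trans inf_le_right
        exact Subgroup.mem_centralizer_singleton_iff.1 (hle hx)
      have h9 : C.relIndex B ≤ p := (Nat.card_le_card_of_injective f hf).trans hcard.le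
      rw [hj] at h9
      exact hgt h9
    have h1 := CfsgLib.Core.card_inf_mul_relIndex C B
    rw [hB3] at h1
    have hge : p ^ 2 ≤ Nat.card ↥(C ⊓ B) := by
      have : p ^ 2 * p ≤ Nat.card ↥(C ⊓ B) * p := by
        calc p ^ 2 * p = Nat.card ↥(C ⊓ B) * C.relIndex B := by rw [h1]; ring
          _ ≤ _ := Nat.mul_le_mul_left _ hidx
      exact Nat.le_of_mul_le_mul_right this hp.out.pos
    have hEq : B ⊓ C = E := CfsgLib.Core.eq_of_le_of_card_le hBC (by rw [hE2, inf_comm]; exact hge)
    have hBC2 : B ≤ C := fun b hb => Subgroup.mem_centralizer_iff.2 fun e he =>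
      congrArg Subtype.val (hBc.is_comm.comm (⟨e, (Subgroup.mem_inf.1 (hEq.ge he)).1⟩ : B) ⟨b, hb⟩)
    rw [inf_eq_left.2 hBC2] at hEq
    have := hB3.symm.trans (hEq ▸ hE2)
    exact absurd (Nat.pow_right_injective hp.out.two_le this) (by norm_num)
  -- enlarge to a maximal normal abelian subgroup
  obtain ⟨A, ⟨hWA, hAn, hAc⟩, hmax⟩ := Set.exists_max_image
    {A : Subgroup R | W ≤ A ∧ A.Normal ∧ IsMulCommutative A} (fun A => Nat.card A) (Set.toFinite _)
    ⟨W, le_rfl, hWn, hWc⟩
  haveI := hAn
  haveI := hAc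
  refine ⟨A, le_sup_left.trans hWA, hAn, ?_, ?_⟩
  · have hAC : A ≤ Subgroup.centralizer (A : Set R) := fun a ha => Subgroup.mem_centralizer_iff.2 fun b hb =>
      congrArg Subtype.val (hAc.is_comm.comm (⟨b, hb⟩ : A) ⟨a, ha⟩)
    refine le_antisymm ?_ hAC
    by_contra hnot
    set D := Subgroup.centralizer (A : Set R) with hD
    haveI := hR.isNilpotent
    set π := QuotientGroup.mk' A
    haveI : (D.map π).Normal := Subgroup.Normal.map inferInstance π (QuotientGroup.mk'_surjective A)
    have hne : D.map π ≠ ⊥ := by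
      intro h0
      exact hnot fun d hd => (QuotientGroup.eq_one_iff d).1 (Subgroup.mem_bot.1 (h0 ▸ ⟨d, hd, rfl⟩))
    obtain ⟨⟨v, hv⟩, hv1⟩ := Subgroup.ne_bot_iff_exists_ne_one.1
      (CfsgLib.Core.nilpotent_inf_center_ne_bot (N := D.map π) hne)
    obtain ⟨⟨d, hd, rfl⟩, hdc⟩ := Subgroup.mem_inf.1 hv
    set A' := Subgroup.closure ((A : Set R) ∪ {d}) with hA'
    have hA'n : A'.Normal := by
      refine ⟨fun x hx g => ?_⟩
      have hle : A' ≤ (Subgroup.zpowers (π d)).comap π := by
        rw [hA', Subgroup.closure_le]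
        rintro z (hz | hz)
        · show π z ∈ Subgroup.zpowers (π d)
          rw [show π z = 1 from (QuotientGroup.eq_one_iff z).2 hz]; exact one_mem _
        · rw [hz]; exact Subgroup.mem_zpowers _
      obtain ⟨i, hi⟩ := Subgroup.mem_zpowers_iff.1 (hle hx)
      have hgx : π (g * x * g⁻¹) = π x := by
        rw [map_mul, map_mul, map_inv, ← hi, Subgroup.mem_center_iff.1 (zpow_mem hdc i) (π g), mul_inv_cancel_right]
      have h2 : x⁻¹ * (g * x * g⁻¹) ∈ A := QuotientGroup.eq.1 hgx.symm
      have := mul_mem hx (Subgroup.subset_closure (Or.inl h2) : x⁻¹ * (g * x * g⁻¹) ∈ A')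
      simpa [mul_assoc] using this
    have hA'c : IsMulCommutative A' := by
      refine Subgroup.isMulCommutative_closure ?_
      rintro x (hx | hx) y (hy | hy)
      · exact congrArg Subtype.val (hAc.is_comm.comm (⟨x, hx⟩ : A) ⟨y, hy⟩)
      · rw [hy]; exact Subgroup.mem_centralizer_iff.1 hd x hx
      · rw [hx]; exact (Subgroup.mem_centralizer_iff.1 hd y hy).symm
      · rw [hx, hy]
    have hAA' : A ≤ A' := fun a ha => Subgroup.subset_closure (Or.inl ha)
    have h3 := CfsgLib.Core.eq_of_le_of_card_le hAA' (hmax A' ⟨hWA.trans hAA', hA'n, hA'c⟩)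
    have hdA : d ∈ A := h3.ge (Subgroup.subset_closure (Or.inr rfl))
    exact hv1 (Subtype.ext ((QuotientGroup.eq_one_iff d).2 hdA))
  · intro h
    apply hW3
    have h1 := h (W.subgroupOf A) ⟨⟨fun x y => Subtype.ext (Subtype.ext (by
      show ((x : A) : R) * ((y : A) : R) = ((y : A) : R) * ((x : A) : R)
      exact congrArg Subtype.val (hWc.is_comm.comm (⟨((x : A) : R), x.2⟩ : W) ⟨((y : A) : R), y.2⟩)))⟩⟩
      (fun a ha => Subtype.ext (hWe _ ha))
    rwa [Nat.card_congr (Subgroup.subgroupOfEquivOfLe hWA).toEquiv] at h1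

end CfsgLib.SCNThree
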