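import Cfsg.Agent.Lib.LocalPStableTwo
import Cfsg.Agent.Lib.StableControlApps
import Cfsg.Agent.Lib.LocalSolvable

/-!
# Stability in groups of odd order
-/

set_option autoImplicit false

universe u

namespace CfsgLib.OddStable

variable {G : Type u} [Group G] [Finite G] {p : ℕ} [hp : Fact p.Prime]

theorem not_hasSL (hodd : Odd (Nat.card G)) (hp2 : p ≠ 2) : ¬ CfsgLib.PStableTwo.HasSL p G := by
  refine CfsgLib.PStableTwo.not_hasSL_of_abelian hp2 fun T => ?_
  haveI : Fact (Nat.Prime 2) := ⟨Nat.prime_two⟩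
  obtain ⟨j, hj⟩ := T.isPGroup'.exists_card_eq
  have hd : Nat.card T ∣ Nat.card G := Subgroup.card_subgroup_dvd_card (T : Subgroup G)
  rcases j with _ | j
  · haveI := (Nat.card_eq_one_iff_unique.mp (hj.trans (pow_zero 2))).1
    exact ⟨⟨fun a b => Subsingleton.elim _ _⟩⟩
  · exact absurd ((dvd_pow_self 2 j.succ_ne_zero).trans (hj ▸ hd)) hodd.not_two_dvd_nat

theorem quad_mem (hodd : Odd (Nat.card G)) (hp2 : p ≠ 2) {V : Subgroup G} [V.Normal] (hV : IsPGroup p V)
    {a : G} (hq : ⁅⁅V, Subgroup.zpowers a⁆, Subgroup.zpowers a⁆ = ⊥) :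
    (QuotientGroup.mk a : G ⧸ Subgroup.centralizer (V : Set G)) ∈
      Cfsg.pCore p (G ⧸ Subgroup.centralizer (V : Set G)) := by
  by_contra h
  exact not_hasSL hodd hp2 (CfsgLib.PStableTwo.hasSL_of_unstable hp2 hV hq h)

theorem stab (hodd : Odd (Nat.card G)) (hp2 : p ≠ 2) : CfsgLib.Stable.Stab p G :=
  fun _ _ hV _ _ hq => quad_mem hodd hp2 hV hq

theorem sylow_bot_of_two (hodd : Odd (Nat.card G)) (hp2 : p = 2) (S : Sylow p G) : (S : Subgroup G) = ⊥ := by
  obtain ⟨j, hj⟩ := S.isPGroup'.exists_card_eq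
  rcases j with _ | j
  · exact Subgroup.card_eq_one.mp (hj.trans (pow_zero p))
  · have h : p ∣ Nat.card G := (dvd_pow_self p j.succ_ne_zero).trans (hj ▸ Subgroup.card_subgroup_dvd_card (S : Subgroup G))
    exact absurd (hp2 ▸ h) hodd.not_two_dvd_nat

theorem odd_quotient (hodd : Odd (Nat.card G)) (N : Subgroup G) [N.Normal] : Odd (Nat.card (G ⧸ N)) :=
  hodd.of_dvd_nat (Subgroup.card_quotient_dvd_card N)

theorem centralizer_quotient_core [Group.IsSolvable G] [hn : (Cfsg.pPrimeCore p G).Normal] :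
    Subgroup.centralizer (Cfsg.pCore p (G ⧸ Cfsg.pPrimeCore p G) : Set (G ⧸ Cfsg.pPrimeCore p G)) ≤
      Cfsg.pCore p (G ⧸ Cfsg.pPrimeCore p G) :=
  CfsgLib.Core.centralizer_pCore_le_of_isPSolvable (CfsgLib.LocalFF.isPSolvable_of_solvable _ rfl inferInstance)
    (CfsgLib.Core.pPrimeCore_quotient_pPrimeCore p)

end CfsgLib.OddStable
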