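import Cfsg.Prelude.Def_Perm
import Mathlib.GroupTheory.GroupAction.MultipleTransitivity
import Mathlib.LinearAlgebra.FiniteDimensional.Lemmas
import Mathlib.Tactic.LinearCombination

/-!
# The permutation module of the alternating group
-/

set_option autoImplicit false
set_option linter.unusedSectionVars false
set_option linter.style.haveILetI false

namespace CfsgLib.AltModule

open MulAction Equiv

universe u v

variable {α : Type u} [Fintype α] [DecidableEq α] {K : Type v} [Field K]

/-- The difference of two basis functions. -/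
def diffVec (K : Type v) [Field K] (p q : α) : α → K := Pi.single p 1 - Pi.single q 1

theorem subrep_cases (hα : 5 ≤ Fintype.card α)
    (W : Subrepresentation (Cfsg.permRep K (alternatingGroup α) α)) :
    W.toSubmodule = ⊥ ∨ W = Cfsg.permConstants K (alternatingGroup α) α ∨
      W = Cfsg.permSumZero K (alternatingGroup α) α ∨ W.toSubmodule = ⊤ := by
  classical
  by_cases hconst : ∀ f ∈ W.toSubmodule, ∀ x y, f x = f y
  · -- only constant functions
    by_cases hbot : W.toSubmodule = ⊥
    · exact .inl hbot
    refine .inr (.inl (Subrepresentation.toSubmodule_injective (le_antisymm (fun f hf => ?_) ?_)))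
    · obtain ⟨x⟩ : Nonempty α := Fintype.card_pos_iff.mp (by omega)
      exact Submodule.mem_span_singleton.mpr ⟨f x, funext fun y => by
        show f x • (1 : K) = f y
        rw [smul_eq_mul, mul_one, hconst f hf x y]⟩
    · obtain ⟨f, hf, hf0⟩ := W.toSubmodule.exists_mem_ne_zero_of_ne_bot hbot
      obtain ⟨x, hx⟩ := Function.ne_iff.mp hf0
      rw [show (Cfsg.permConstants K (alternatingGroup α) α).toSubmodule =
        Submodule.span K {fun _ => 1} from rfl, Submodule.span_singleton_le_iff_mem]
      have := W.toSubmodule.smul_mem (f x)⁻¹ hf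
      convert this using 1
      funext y
      show (1 : K) = (f x)⁻¹ • f y
      rw [smul_eq_mul, hconst f hf y x, inv_mul_cancel₀ hx]
  push Not at hconst
  obtain ⟨f, hf, x, y, hxy⟩ := hconst
  have hne : x ≠ y := fun e => hxy (e ▸ rfl)
  obtain ⟨z, hz, w, hw, u, hu, hzw, hzu, hwu⟩ :
      ∃ z ∈ ({x, y} : Finset α)ᶜ, ∃ w ∈ ({x, y} : Finset α)ᶜ, ∃ u ∈ ({x, y} : Finset α)ᶜ,
        z ≠ w ∧ z ≠ u ∧ w ≠ u := by
    have h : 2 < ({x, y} : Finset α)ᶜ.card := by
      rw [Finset.card_compl, Finset.card_pair hne]; omega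
    obtain ⟨z, w, u, hz, hw, hu, h1, h2, h3⟩ := Finset.two_lt_card_iff.mp h
    exact ⟨z, hz, w, hw, u, hu, h1, h2, h3⟩
  simp only [Finset.mem_compl, Finset.mem_insert, Finset.mem_singleton, not_or] at hz hw hu
  have hact : ∀ (g : alternatingGroup α) (h : α → K), h ∈ W.toSubmodule →
      (fun a => h ((g : Perm α)⁻¹ a)) ∈ W.toSubmodule := fun g h hh =>
    W.apply_mem_toSubmodule g hh
  have hdd : ∀ {a b c d : α}, a ≠ b → c ≠ d →
      swap a b * swap c d ∈ alternatingGroup α := fun h1 h2 => by
    rw [Equiv.Perm.mem_alternatingGroup, map_mul, Perm.sign_swap h1, Perm.sign_swap h2]; rfl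
  -- one difference of basis functions
  let ρ := Cfsg.permRep K (alternatingGroup α) α
  have hsgl : ∀ (g : alternatingGroup α) (a : α),
      ρ g (Pi.single a 1) = (Pi.single ((g : Perm α) a) 1 : α → K) := by
    intro g a
    funext c
    show (Pi.single a 1 : α → K) ((g : Perm α)⁻¹ c) = _
    rw [Pi.single_apply, Pi.single_apply]
    simp only [Perm.inv_eq_iff_eq]
  obtain ⟨p, q, hpq, hmem⟩ : ∃ p q : α, p ≠ q ∧ diffVec K p q ∈ W.toSubmodule := by
    have hv : (f x - f y) • diffVec K x y + (f z - f w) • diffVec K z w ∈ W.toSubmodule := by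
      have h := W.toSubmodule.sub_mem hf (hact ⟨_, hdd hne hzw⟩ f hf)
      convert h using 1
      funext a
      simp only [diffVec, Pi.add_apply, Pi.smul_apply, Pi.sub_apply, smul_eq_mul,
        mul_inv_rev, swap_inv, Perm.mul_apply]
      by_cases hax : a = x
      · subst hax
        rw [swap_apply_left, swap_apply_of_ne_of_ne (Ne.symm hz.2) (Ne.symm hw.2)]
        simp [Ne.symm hz.1, Ne.symm hw.1, hne]
      by_cases hay : a = y
      · subst hay
        rw [swap_apply_right, swap_apply_of_ne_of_ne (Ne.symm hz.1) (Ne.symm hw.1)]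
        simp [Ne.symm hz.2, Ne.symm hw.2, hax]
      rw [swap_apply_of_ne_of_ne hax hay]
      by_cases haz : a = z
      · subst haz
        rw [swap_apply_left]
        simp [hzw, hax, hay]
      by_cases haw : a = w
      · subst haw
        rw [swap_apply_right]
        simp [haz, hax, hay]
      rw [swap_apply_of_ne_of_ne haz haw]
      simp [haz, haw, hax, hay]
    by_cases hb : f z - f w = 0
    · refine ⟨x, y, hne, ?_⟩
      rw [hb, zero_smul, add_zero] at hv
      have := W.toSubmodule.smul_mem (f x - f y)⁻¹ hv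
      rwa [smul_smul, inv_mul_cancel₀ (sub_ne_zero.mpr hxy), one_smul] at this
    -- cancel the first part with a three-cycle outside `x`, `y`
    let σ : alternatingGroup α := ⟨swap z u * swap z w, hdd hzu hzw⟩
    have σx : (σ : Perm α) x = x := by
      simp [σ, swap_apply_of_ne_of_ne (Ne.symm hz.1) (Ne.symm hw.1), swap_apply_of_ne_of_ne (Ne.symm hz.1) (Ne.symm hu.1)]
    have σy : (σ : Perm α) y = y := by
      simp [σ, swap_apply_of_ne_of_ne (Ne.symm hz.2) (Ne.symm hw.2), swap_apply_of_ne_of_ne (Ne.symm hz.2) (Ne.symm hu.2)]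
    have σz : (σ : Perm α) z = w := by
      simp [σ, swap_apply_of_ne_of_ne (Ne.symm hzw) hwu]
    have σw : (σ : Perm α) w = u := by simp [σ]
    have h2 : (Pi.single z 1 - (2 : K) • Pi.single w 1 + Pi.single u 1 : α → K) ∈ W.toSubmodule := by
      have h := W.toSubmodule.smul_mem (f z - f w)⁻¹
        (W.toSubmodule.sub_mem hv (W.apply_mem_toSubmodule σ hv))
      convert h using 1
      show _ = (f z - f w)⁻¹ • (_ - ρ σ _)
      simp only [diffVec, map_add, map_sub, map_smul, hsgl, σx, σy, σz, σw]
      rw [add_sub_add_left_eq_sub, ← smul_sub, smul_smul, inv_mul_cancel₀ hb, one_smul, two_smul]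
      abel
    by_cases h20 : (2 : K) = 0
    · refine ⟨z, u, hzu, ?_⟩
      rw [h20, zero_smul, sub_zero] at h2
      convert h2 using 1
      rw [diffVec, sub_eq_add_neg]
      congr 1
      funext a
      show -((Pi.single u 1 : α → K) a) = _
      linear_combination (-((Pi.single u 1 : α → K) a)) * h20
    · refine ⟨x, w, Ne.symm hw.1, ?_⟩
      let τ : alternatingGroup α := ⟨swap z u * swap x w, hdd hzu (Ne.symm hw.1)⟩
      have τz : (τ : Perm α) z = u := by simp [τ, swap_apply_of_ne_of_ne hz.1 hzw]
      have τu : (τ : Perm α) u = z := by simp [τ, swap_apply_of_ne_of_ne hu.1 (Ne.symm hwu)]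
      have τw : (τ : Perm α) w = x := by
        simp [τ, swap_apply_of_ne_of_ne (Ne.symm hz.1) (Ne.symm hu.1)]
      have h := W.toSubmodule.smul_mem (2 : K)⁻¹
        (W.toSubmodule.sub_mem h2 (W.apply_mem_toSubmodule τ h2))
      convert h using 1
      show _ = (2 : K)⁻¹ • (_ - ρ τ _)
      simp only [diffVec, map_add, map_sub, map_smul, hsgl, τz, τu, τw]
      rw [show (Pi.single z 1 - (2 : K) • Pi.single w 1 + Pi.single u 1 -
          (Pi.single u 1 - (2 : K) • Pi.single x 1 + Pi.single z 1) : α → K) =
        (2 : K) • (Pi.single x 1 - Pi.single w 1) by module]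
      rw [smul_smul, inv_mul_cancel₀ h20, one_smul]
  haveI htr : IsMultiplyPretransitive (alternatingGroup α) α 2 := by
    haveI := alternatingGroup.isMultiplyPretransitive α
    exact isMultiplyPretransitive_of_le (n := Nat.card α - 2)
      (by rw [Nat.card_eq_fintype_card]; omega) (Nat.sub_le _ _)
  have hall : ∀ a b, a ≠ b → diffVec K a b ∈ W.toSubmodule := by
    intro a b hab
    obtain ⟨g, hga, hgb⟩ := is_two_pretransitive_iff.mp htr hpq hab
    have h := hact g _ hmem
    convert h using 1
    funext c
    have ea : (g : Perm α)⁻¹ c = p ↔ c = a := by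
      rw [Perm.inv_eq_iff_eq, show (g : Perm α) p = a from hga]
    have eb : (g : Perm α)⁻¹ c = q ↔ c = b := by
      rw [Perm.inv_eq_iff_eq, show (g : Perm α) q = b from hgb]
    simp only [diffVec, Pi.sub_apply, Pi.single_apply, ea, eb]
  have hle : (Cfsg.permSumZero K (alternatingGroup α) α).toSubmodule ≤ W.toSubmodule := by
    intro h hh
    have h0 : ∑ a, h a = 0 := hh
    have e : h = ∑ a ∈ Finset.univ.erase p, h a • diffVec K a p := by
      funext c
      simp only [Finset.sum_apply, Pi.smul_apply, diffVec, Pi.sub_apply, smul_eq_mul,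
        Pi.single_apply, mul_sub, Finset.sum_sub_distrib, mul_ite, mul_one, mul_zero,
        Finset.sum_ite_eq, Finset.mem_erase, Finset.mem_univ, and_true]
      by_cases hc : c = p
      · subst hc
        simp only [ne_eq, not_true, if_false, if_true]
        rw [← Finset.add_sum_erase _ _ (Finset.mem_univ c)] at h0
        linear_combination h0
      · simp [hc]
    rw [e]
    exact Submodule.sum_mem _ fun a ha =>
      Submodule.smul_mem _ _ (hall a p (Finset.ne_of_mem_erase ha))
  by_cases htop : W.toSubmodule ≤ (Cfsg.permSumZero K (alternatingGroup α) α).toSubmodule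
  · exact .inr (.inr (.inl (Subrepresentation.toSubmodule_injective (le_antisymm htop hle))))
  refine .inr (.inr (.inr (Submodule.eq_top_iff'.mpr fun h => ?_)))
  obtain ⟨v, hv, hv0⟩ := SetLike.not_le_iff_exists.mp htop
  have hv0' : ∑ a, v a ≠ 0 := hv0
  have hd : h - ((∑ a, h a) / (∑ a, v a)) • v ∈ W.toSubmodule := hle (by
    show ∑ a, (h a - ((∑ b, h b) / (∑ b, v b)) • v a) = 0
    simp only [smul_eq_mul, Finset.sum_sub_distrib, ← Finset.mul_sum]
    field_simp
    ring)
  have := W.toSubmodule.add_mem hd (W.toSubmodule.smul_mem ((∑ a, h a) / (∑ a, v a)) hv)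
  rwa [sub_add_cancel] at this

end CfsgLib.AltModule
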