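import Cfsg.Agent.Lib.PermJordanCycle
import Cfsg.Agent.Lib.CharBurnside
import Mathlib

/-!
# Non-solvable groups of degree seven
-/

set_option autoImplicit false
set_option linter.style.haveILetI false
set_option linter.unusedSectionVars false

namespace CfsgLib.DegreeSeven

open MulAction Equiv

universe u

theorem comm_of_cyclic {K : Type u} [Group K] [IsCyclic K] (a b : K) : a * b = b * a := by
  obtain ⟨g, hg⟩ := IsCyclic.exists_zpow_surjective (G := K)
  obtain ⟨i, rfl⟩ := hg a
  obtain ⟨j, rfl⟩ := hg b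
  exact (Commute.refl g).zpow_zpow i j

theorem solvable_of_card_le_six {K : Type u} [Group K] [Finite K] (h : Nat.card K ≤ 6) :
    Group.IsSolvable K := by
  have hb := fun (p q a b : ℕ) (hp : p.Prime) (hq : q.Prime) (e : Nat.card K = p ^ a * q ^ b) =>
    CfsgLib.Char.burnside_pq hp hq _ K a b e rfl
  have h0 : 0 < Nat.card K := Nat.card_pos
  interval_cases hk : Nat.card K
  · exact hb 2 3 0 0 Nat.prime_two Nat.prime_three rfl
  · exact hb 2 3 1 0 Nat.prime_two Nat.prime_three rfl
  · exact hb 2 3 0 1 Nat.prime_two Nat.prime_three rfl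
  · exact hb 2 3 2 0 Nat.prime_two Nat.prime_three rfl
  · exact hb 2 5 0 1 Nat.prime_two (by norm_num) rfl
  · exact hb 2 3 1 1 Nat.prime_two Nat.prime_three rfl

variable {α : Type u} [Fintype α] [DecidableEq α] {G : Subgroup (Equiv.Perm α)}

/-- A subgroup whose order contains the full power of a prime dividing `7!` meets the class of
every element of that prime power order. -/
theorem exists_conj_mem (hα : Fintype.card α = 7) {p k : ℕ} [Fact p.Prime]
    (hk : (Fintype.card α).factorial.factorization p = k) (hdvd : p ^ k ∣ Nat.card G)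
    {c : Equiv.Perm α} {j : ℕ} (hc : c ^ p ^ j = 1) :
    ∃ g : Equiv.Perm α, g * c * g⁻¹ ∈ G := by
  obtain ⟨P, hP⟩ := Sylow.exists_subgroup_card_pow_prime p hdvd
  have hcard : Nat.card (Equiv.Perm α) = (Fintype.card α).factorial := by
    rw [Nat.card_eq_fintype_card, Fintype.card_perm]
  have hQc : Nat.card (P.map G.subtype) = p ^ (Nat.card (Equiv.Perm α)).factorization p := by
    rw [Subgroup.card_map_of_injective G.subtype_injective, hP, hcard, hk]
  let Q : Sylow p (Equiv.Perm α) := Sylow.ofCard _ hQc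
  have hcp : IsPGroup p (Subgroup.zpowers c) := by
    obtain ⟨i, -, hi⟩ := (Nat.dvd_prime_pow (Fact.out : p.Prime)).mp (orderOf_dvd_of_pow_eq_one hc)
    exact IsPGroup.of_card (n := i) (by rw [Nat.card_zpowers, hi])
  obtain ⟨R, hR⟩ := hcp.exists_le_sylow
  obtain ⟨g, hg⟩ := MulAction.exists_smul_eq (Equiv.Perm α) R Q
  refine ⟨g, Subgroup.map_subtype_le P ?_⟩
  show g * c * g⁻¹ ∈ (Q : Subgroup (Equiv.Perm α))
  rw [← hg, Sylow.coe_subgroup_smul]
  exact Subgroup.smul_mem_pointwise_smul _ (MulAut.conj g) _ (hR (Subgroup.mem_zpowers c))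

variable [IsPretransitive G α]

theorem preprimitive (hα : Fintype.card α = 7) : IsPreprimitive G α :=
  IsPreprimitive.of_prime_card (by rw [Nat.card_eq_fintype_card, hα]; norm_num)

theorem not_nine_dvd (hα : Fintype.card α = 7) (hA : ¬ alternatingGroup α ≤ G) :
    ¬ 3 ^ 2 ∣ Nat.card G := by
  intro h
  haveI : Fact (Nat.Prime 3) := ⟨Nat.prime_three⟩
  obtain ⟨a, b, d, hab, had, hbd⟩ := Fintype.two_lt_card_iff.mp (show 2 < Fintype.card α by omega)
  have h3 : (swap a b * swap a d).IsThreeCycle := Equiv.Perm.isThreeCycle_swap_mul_swap_same hab had hbd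
  obtain ⟨g, hg⟩ := exists_conj_mem hα (p := 3) (k := 2) (by rw [hα]; decide +kernel) h (j := 1)
    (by
      have := pow_orderOf_eq_one (swap a b * swap a d)
      rw [h3.orderOf] at this
      simpa using this)
  refine hA (Equiv.Perm.alternatingGroup_le_of_isPreprimitive_of_isThreeCycle_mem (preprimitive hα) ?_ hg)
  rw [Equiv.Perm.IsThreeCycle, Equiv.Perm.cycleType_conj]
  exact h3

theorem not_sixteen_dvd (hα : Fintype.card α = 7) (hA : ¬ alternatingGroup α ≤ G) :
    ¬ 2 ^ 4 ∣ Nat.card G := by
  intro h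
  haveI : Fact (Nat.Prime 2) := ⟨Nat.prime_two⟩
  obtain ⟨a, b, hab⟩ := Fintype.exists_pair_of_one_lt_card (show 1 < Fintype.card α by omega)
  obtain ⟨g, hg⟩ := exists_conj_mem hα (p := 2) (k := 4) (by rw [hα]; decide +kernel) h (j := 1)
    (c := swap a b) (by rw [pow_one, sq, Equiv.swap_mul_self])
  refine hA ((Equiv.Perm.subgroup_eq_top_of_isPreprimitive_of_isSwap_mem (preprimitive hα) _ ?_ hg) ▸
    le_top)
  refine ⟨g a, g b, g.injective.ne hab, ?_⟩
  rw [← Equiv.swap_apply_apply g a b]

/-- The Sylow 7-subgroup: self-centralising, normaliser of order dividing 42, not self-normalising. -/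
theorem sylow_facts (hα : Fintype.card α = 7) [Fact (Nat.Prime 7)] (hG : ¬ Group.IsSolvable G)
    (P : Sylow 7 G) : Nat.card P = 7 ∧
      (Nat.card (Subgroup.normalizer ((P : Subgroup G) : Set G)) = 7 * 2 ∨
        Nat.card (Subgroup.normalizer ((P : Subgroup G) : Set G)) = 7 * 3 ∨
        Nat.card (Subgroup.normalizer ((P : Subgroup G) : Set G)) = 7 * 6) := by
  have hdvd : Nat.card G ∣ (7 : ℕ).factorial := by
    rw [← hα, ← Fintype.card_perm, ← Nat.card_eq_fintype_card]
    exact Subgroup.card_subgroup_dvd_card G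
  haveI : Nonempty α := Fintype.card_pos_iff.mp (by omega)
  obtain ⟨a⟩ := ‹Nonempty α›
  have h7 : 7 ∣ Nat.card G := by
    rw [← Subgroup.index_mul_card (stabilizer G a), index_stabilizer_of_transitive,
      Nat.card_eq_fintype_card (α := α), hα]
    exact Dvd.intro _ rfl
  have hP : Nat.card P = 7 := by
    obtain ⟨k, hk⟩ := P.isPGroup'.exists_card_eq
    have h1 : 7 ^ k ∣ (7 : ℕ).factorial := hk ▸ (Subgroup.card_subgroup_dvd_card _).trans hdvd
    have h2 : 7 ∣ Nat.card P := P.dvd_card_of_dvd_card h7
    rw [hk] at h2 ⊢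
    have hk2 : k < 2 := by
      by_contra hc
      have : 7 ^ 2 ∣ (7 : ℕ).factorial := (pow_dvd_pow 7 (not_lt.mp hc)).trans h1
      revert this; decide
    interval_cases k
    · norm_num at h2
    · norm_num
  refine ⟨hP, ?_⟩
  -- a seven-cycle in `P`
  obtain ⟨⟨g, hgP⟩, hg⟩ := exists_prime_orderOf_dvd_card' (G := P) 7 (by rw [hP])
  rw [Subgroup.orderOf_mk] at hg
  have hgo : orderOf (g : Equiv.Perm α) = 7 := by rw [Subgroup.orderOf_coe, hg]
  have hgc : (g : Equiv.Perm α).IsCycle :=
    Equiv.Perm.isCycle_of_prime_order'' (by rw [hα]; norm_num) (by rw [hgo, hα])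
  have hsupp : (g : Equiv.Perm α).support = Finset.univ := by
    rw [← Finset.card_eq_iff_eq_univ, ← hgc.orderOf, hgo, hα]
  have hPg : (P : Subgroup G) = Subgroup.zpowers g :=
    (Subgroup.eq_of_le_of_card_ge (Subgroup.zpowers_le.mpr hgP) (by rw [Nat.card_zpowers, hg, hP])).symm
  have hC : Subgroup.centralizer ((P : Subgroup G) : Set G) = P := by
    refine le_antisymm (fun c hc => ?_) ?_
    · have hcg : Commute (c : Equiv.Perm α) (g : Equiv.Perm α) :=
        congrArg Subtype.val (Subgroup.mem_centralizer_iff.mp hc g hgP).symm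
      obtain ⟨i, hi⟩ := CfsgLib.Perm.eq_pow_on_support_of_commute hgc hcg
      rw [hPg]
      refine ⟨i, Subtype.ext (Equiv.ext fun x => ?_)⟩
      push_cast
      exact (hi x (hsupp ▸ Finset.mem_univ x)).symm
    · intro c hc
      rw [Subgroup.mem_centralizer_iff]
      intro d hd
      rw [hPg] at hc hd
      obtain ⟨i, rfl⟩ := hc
      obtain ⟨j, rfl⟩ := hd
      exact (Commute.refl g).zpow_zpow j i
  haveI : IsCyclic P := isCyclic_of_prime_card hP
  set N := Subgroup.normalizer ((P : Subgroup G) : Set G) with hN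
  have hle : (P : Subgroup G) ≤ N := Subgroup.le_normalizer
  have hker : ((P : Subgroup G).normalizerMonoidHom).ker = (P : Subgroup G).subgroupOf N := by
    rw [Subgroup.normalizerMonoidHom_ker, hC]
  have hd : ((P : Subgroup G).subgroupOf N).index ∣ 6 := by
    rw [← hker, Subgroup.index_ker]
    refine (Subgroup.card_subgroup_dvd_card _).trans ?_
    rw [Nat.card_congr (IsCyclic.mulAutMulEquiv (P : Subgroup G)).toEquiv, hP, Nat.card_eq_fintype_card,
      ZMod.card_units]
  have hNc : Nat.card N = 7 * ((P : Subgroup G).subgroupOf N).index := by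
    rw [← Subgroup.index_mul_card ((P : Subgroup G).subgroupOf N),
      Nat.card_congr (Subgroup.subgroupOfEquivOfLe hle).toEquiv, hP, mul_comm]
  -- not self-normalising
  have hne : ((P : Subgroup G).subgroupOf N).index ≠ 1 := by
    intro h1
    apply hG
    have hNP : N = P := le_antisymm (Subgroup.subgroupOf_eq_top.mp (Subgroup.index_eq_one.mp h1)) hle
    have hb : N ≤ Subgroup.centralizer ((P : Subgroup G) : Set G) := by rw [hNP, hC]
    set M := (MonoidHom.transferSylow P hb).ker with hM
    have hcompl := MonoidHom.ker_transferSylow_isComplement' P hb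
    have hMc : ¬ 7 ∣ Nat.card M := MonoidHom.not_dvd_card_ker_transferSylow P hb
    by_cases hMb : M = ⊥
    · have hGP := hcompl.card_mul
      rw [← hM, hMb, Subgroup.card_bot, one_mul, hP] at hGP
      haveI : IsCyclic G := isCyclic_of_prime_card hGP.symm
      exact Group.isSolvable_of_comm fun a b => comm_of_cyclic a b
    · haveI := preprimitive (G := G) hα
      exfalso
      apply hMc
      have hpre : IsPretransitive M α := IsQuasiPreprimitive.isPretransitive_of_normal fun hfix => hMb (by
        rw [eq_bot_iff]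
        intro m hm
        rw [Subgroup.mem_bot]
        refine Subtype.ext (Equiv.ext fun x => ?_)
        have : x ∈ fixedPoints M α := by rw [hfix]; trivial
        exact this ⟨m, hm⟩)
      rw [← Subgroup.index_mul_card (stabilizer M a), index_stabilizer_of_transitive,
        Nat.card_eq_fintype_card (α := α), hα]
      exact Dvd.intro _ rfl
  rw [hNc]
  have := Nat.le_of_dvd (by norm_num) hd
  have h6 : ((P : Subgroup G).subgroupOf N).index ∈ Nat.divisors 6 := Nat.mem_divisors.mpr ⟨hd, by norm_num⟩
  have : Nat.divisors 6 = {1, 2, 3, 6} := by decide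
  rw [this] at h6
  simp only [Finset.mem_insert, Finset.mem_singleton] at h6
  rcases h6 with e | e | e | e
  · exact absurd e hne
  all_goals simp [e]

/-- The order and simplicity. -/
theorem card_and_simple (hα : Fintype.card α = 7) (hG : ¬ Group.IsSolvable G)
    (hA : ¬ alternatingGroup α ≤ G) : Nat.card G = 168 ∧ IsSimpleGroup G := by
  haveI : Fact (Nat.Prime 7) := ⟨by norm_num⟩
  haveI : Fact (Nat.Prime 2) := ⟨Nat.prime_two⟩
  let P : Sylow 7 G := default
  obtain ⟨hP, hN⟩ := sylow_facts hα hG P
  have hdvd : Nat.card G ∣ 5040 := by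
    rw [show (5040 : ℕ) = (Fintype.card α).factorial by rw [hα]; rfl, ← Fintype.card_perm,
      ← Nat.card_eq_fintype_card]
    exact Subgroup.card_subgroup_dvd_card G
  have h9 := not_nine_dvd hα hA
  have h16 := not_sixteen_dvd hα hA
  have hmod := card_sylow_modEq_one 7 G
  rw [Sylow.card_eq_index_normalizer P] at hmod
  set n := (Subgroup.normalizer ((P : Subgroup G) : Set G)).index with hn
  have hGn : Nat.card G = n * Nat.card (Subgroup.normalizer ((P : Subgroup G) : Set G)) :=
    (Subgroup.index_mul_card _).symm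
  have hmod' : n % 7 = 1 := hmod
  -- the possible orders
  have hn120 : n ∈ ({1, 8, 15, 120} : Finset ℕ) := by
    have h1 : n ∣ 5040 := (Dvd.intro _ hGn.symm).trans hdvd
    have h2 : ¬ 3 ^ 2 ∣ n := fun h => h9 (h.trans (Dvd.intro _ hGn.symm))
    have h3 : ¬ 2 ^ 4 ∣ n := fun h => h16 (h.trans (Dvd.intro _ hGn.symm))
    have h4 : n ∈ (Nat.divisors 5040).filter
        (fun k => k % 7 = 1 ∧ ¬ 3 ^ 2 ∣ k ∧ ¬ 2 ^ 4 ∣ k) :=
      Finset.mem_filter.mpr ⟨Nat.mem_divisors.mpr ⟨h1, by norm_num⟩, hmod', h2, h3⟩
    have h5 : (Nat.divisors 5040).filter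
        (fun k => k % 7 = 1 ∧ ¬ 3 ^ 2 ∣ k ∧ ¬ 2 ^ 4 ∣ k) ⊆ {1, 8, 15, 120} := by decide +kernel
    exact h5 h4
  have hsolv_normal : n = 1 → False := fun h1 => hG (by
    have htop := Subgroup.index_eq_one.mp h1
    haveI : (P : Subgroup G).Normal := Subgroup.normalizer_eq_top_iff.mp htop
    have hc : Nat.card (G ⧸ (P : Subgroup G)) ≤ 6 := by
      have h := Subgroup.card_eq_card_quotient_mul_card_subgroup (P : Subgroup G)
      rw [hGn, h1, one_mul, hP] at h
      rcases hN with e | e | e <;> omega
    haveI : Group.IsSolvable (P : Subgroup G) := by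
      haveI : IsCyclic P := isCyclic_of_prime_card hP
      exact Group.isSolvable_of_comm fun a b => comm_of_cyclic a b
    haveI : Group.IsSolvable (G ⧸ (P : Subgroup G)) := solvable_of_card_le_six hc
    exact Group.isSolvable_of_ker_le_range (f := (P : Subgroup G).subtype)
      (g := QuotientGroup.mk' (P : Subgroup G))
      (by rw [QuotientGroup.ker_mk', Subgroup.range_subtype]))
  have hZ : Nat.card G = 210 → False := fun h => hG (by
    haveI : IsZGroup G := IsZGroup.of_squarefree (by rw [h]; decide +kernel)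
    infer_instance)
  have hcard : Nat.card G = 168 := by
    simp only [Finset.mem_insert, Finset.mem_singleton] at hn120
    rcases hn120 with e | e | e | e <;> rcases hN with e' | e' | e' <;> rw [e, e'] at hGn
    all_goals first
      | exact absurd e hsolv_normal
      | exact absurd hGn hZ
      | exact hGn
      | (exfalso; rw [hGn] at h9; exact h9 (by decide))
      | (exfalso; rw [hGn] at h16; exact h16 (by decide))
      | (exfalso; rw [hGn] at hdvd; norm_num at hdvd)
  refine ⟨hcard, ?_⟩
  -- simplicity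
  haveI : Nontrivial G := by
    rw [← Finite.one_lt_card_iff_nontrivial, hcard]; norm_num
  refine ⟨fun M hM => ?_⟩
  by_contra hcon
  push Not at hcon
  obtain ⟨hMb, hMt⟩ := hcon
  haveI := hM
  haveI := preprimitive (G := G) hα
  haveI : Nonempty α := Fintype.card_pos_iff.mp (by omega)
  obtain ⟨a⟩ := ‹Nonempty α›
  have hpre : IsPretransitive M α := IsQuasiPreprimitive.isPretransitive_of_normal fun hfix => hMb (by
    rw [eq_bot_iff]
    intro m hm
    rw [Subgroup.mem_bot]
    refine Subtype.ext (Equiv.ext fun x => ?_)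
    have : x ∈ fixedPoints M α := by rw [hfix]; trivial
    exact this ⟨m, hm⟩)
  have h7M : 7 ∣ Nat.card M := by
    rw [← Subgroup.index_mul_card (stabilizer M a), index_stabilizer_of_transitive,
      Nat.card_eq_fintype_card (α := α), hα]
    exact Dvd.intro _ rfl
  -- `M` contains every Sylow 7-subgroup
  let Q : Sylow 7 M := default
  have hQ : Nat.card ((Q : Subgroup M).map M.subtype) = 7 := by
    rw [Subgroup.card_map_of_injective M.subtype_injective]
    obtain ⟨k, hk⟩ := Q.isPGroup'.exists_card_eq
    have h1 : 7 ∣ Nat.card Q := Q.dvd_card_of_dvd_card h7M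
    have h2 : Nat.card Q ∣ 168 := hcard ▸ (Subgroup.card_subgroup_dvd_card _).trans
      (Subgroup.card_subgroup_dvd_card M)
    rw [hk] at h1 h2 ⊢
    have hk2 : k < 2 := by
      by_contra hc
      exact absurd ((pow_dvd_pow 7 (not_lt.mp hc)).trans h2) (by norm_num)
    interval_cases k
    · norm_num at h1
    · norm_num
  have hsyl : ∀ R : Sylow 7 G, (R : Subgroup G) ≤ M := fun R => by
    let Q' : Sylow 7 G := Sylow.ofCard _ (show Nat.card ((Q : Subgroup M).map M.subtype) =
      7 ^ (Nat.card G).factorization 7 by rw [hQ, hcard]; decide +kernel)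
    obtain ⟨g, hg⟩ := MulAction.exists_smul_eq G Q' R
    rw [← hg, Sylow.coe_subgroup_smul]
    intro x hx
    rw [Subgroup.mem_pointwise_smul_iff_inv_smul_mem] at hx
    have hxM : (MulAut.conj g)⁻¹ • x ∈ M := Subgroup.map_subtype_le _ hx
    have := hM.conj_mem _ hxM g
    simpa [MulAut.smul_def, mul_assoc] using this
  have hNeq : (Subgroup.normalizer ((P : Subgroup G) : Set G)).index = 8 := by
    simp only [Finset.mem_insert, Finset.mem_singleton] at hn120
    rcases hN with e' | e' | e' <;> rw [e', hcard] at hGn <;> omega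
  have hnsyl : Nat.card (Sylow 7 M) = 8 := by
    rw [← hNeq]
    refine Eq.trans ?_ (Sylow.card_eq_index_normalizer P)
    refine Nat.card_congr (Equiv.ofBijective (fun R : Sylow 7 M => (Sylow.ofCard
      ((R : Subgroup M).map M.subtype) (by
        rw [Subgroup.card_map_of_injective M.subtype_injective, hcard, Sylow.card_eq_multiplicity]
        rw [show (Nat.card M).factorization 7 = (168 : ℕ).factorization 7 from ?_]
        obtain ⟨t, ht⟩ := h7M
        have htd : ¬ 7 ∣ t := fun ⟨s, hs⟩ => by
          have := Subgroup.card_subgroup_dvd_card M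
          rw [hcard, ht, hs, ← mul_assoc] at this
          exact absurd ((Dvd.intro _ rfl).trans this) (by norm_num)
        rw [ht, Nat.factorization_mul (by norm_num) (fun e => htd (by rw [e]; exact dvd_zero 7)), Finsupp.add_apply,
          Nat.Prime.factorization_self (by norm_num), Nat.factorization_eq_zero_of_not_dvd htd]
        decide +kernel) : Sylow 7 G)) ⟨fun R R' e => ?_, fun R => ?_⟩)
    · have h := congrArg (fun X : Sylow 7 G => (X : Subgroup G)) e
      simp only [Sylow.coe_ofCard] at h
      exact Sylow.ext (Subgroup.map_injective M.subtype_injective h)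
    · refine ⟨R.subtype (hsyl R), Sylow.ext ?_⟩
      rw [Sylow.coe_ofCard, Sylow.coe_subtype, Subgroup.map_subgroupOf_eq_of_le (hsyl R)]
  let QM : Sylow 7 M := default
  have h8 : 8 ∣ Nat.card M := by
    rw [← hnsyl, Sylow.card_eq_index_normalizer QM]
    exact Subgroup.index_dvd_card _
  have h56 : 56 ∣ Nat.card M := (by norm_num : Nat.Coprime 7 8).mul_dvd_of_dvd_of_dvd h7M h8
  have hMc : Nat.card M = 56 := by
    obtain ⟨t, ht⟩ := h56
    have h1 := Subgroup.card_subgroup_dvd_card M
    rw [hcard, ht] at h1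
    have h2 : t ∣ 3 := Nat.dvd_of_mul_dvd_mul_left (by norm_num : 0 < 56) h1
    rcases (Nat.dvd_prime Nat.prime_three).mp h2 with rfl | rfl
    · simpa using ht
    · exact absurd (Subgroup.eq_top_of_le_card M (by omega)) hMt
  haveI : Group.IsSolvable M := CfsgLib.Char.burnside_pq Nat.prime_two (q := 7) (by norm_num) _ _
    3 1 hMc (by norm_num)
  haveI : Group.IsSolvable (G ⧸ M) := by
    have h := Subgroup.card_eq_card_quotient_mul_card_subgroup M
    rw [hcard, hMc] at h
    exact CfsgLib.Char.burnside_pq Nat.prime_two Nat.prime_three 3 _ 0 1 (by omega) (by norm_num)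
  exact hG (Group.isSolvable_of_ker_le_range (f := M.subtype) (g := QuotientGroup.mk' M)
    (by rw [QuotientGroup.ker_mk', Subgroup.range_subtype]))

end CfsgLib.DegreeSeven
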