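import Mathlib.Algebra.IsPrimePow
import Mathlib.Data.Nat.Factorization.Basic
import Mathlib.Algebra.Ring.GeomSum
import Mathlib.Data.ZMod.Basic
import Mathlib.Data.Nat.Totient
import Mathlib.FieldTheory.Finite.Basic
import Mathlib.NumberTheory.Multiplicity
import Mathlib.GroupTheory.OrderOfElement

/-!
# Dickson pairs
-/

set_option autoImplicit false

namespace CfsgLib.Perm

theorem pow_prime_modEq_one {s j x : ℕ} (hs : s.Prime) (hj : 1 ≤ j) (hx : x ≡ 1 [MOD s ^ j]) :
    x ^ s ≡ 1 [MOD s ^ (j + 1)] := by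
  haveI : Fact s.Prime := ⟨hs⟩
  have h1 : ((s : ℤ) ^ j) ∣ (x : ℤ) - 1 := by
    have := Nat.modEq_iff_dvd.mp hx.symm
    push_cast at this
    exact this
  have h2 : (s : ℤ) ∣ ∑ i ∈ Finset.range s, (x : ℤ) ^ i := by
    rw [← ZMod.intCast_zmod_eq_zero_iff_dvd]
    have e : ((x : ℤ) : ZMod s) = 1 := by
      have h := (ZMod.intCast_zmod_eq_zero_iff_dvd _ s).mpr ((dvd_pow_self _ (by omega : j ≠ 0)).trans h1)
      push_cast at h ⊢
      exact sub_eq_zero.mp h
    push_cast at e ⊢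
    simp [e]
  refine (Nat.modEq_iff_dvd.mpr ?_).symm
  push_cast
  rw [← geom_sum_mul, pow_succ, mul_comm ((s : ℤ) ^ j)]
  exact mul_dvd_mul h2 h1

theorem pow_prime_pow_modEq_one {s j x : ℕ} (hs : s.Prime) (hj : 1 ≤ j) (hx : x ≡ 1 [MOD s ^ j]) :
    ∀ b : ℕ, x ^ s ^ b ≡ 1 [MOD s ^ (j + b)]
  | 0 => by simpa using hx
  | b + 1 => by
    rw [pow_succ, pow_mul, ← add_assoc]
    exact pow_prime_modEq_one hs (by omega) (pow_prime_pow_modEq_one hs hj hx b)

theorem dvd_div_prime {o n r : ℕ} (hn : n ≠ 0) (hr : r.Prime) (hrn : r ∣ n) (ho : o ∣ n)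
    (h : ¬ r ^ n.factorization r ∣ o) : o ∣ n / r := by
  obtain ⟨c, hc⟩ := ho
  by_cases hrc : r ∣ c
  · obtain ⟨c', rfl⟩ := hrc
    refine ⟨c', ?_⟩
    rw [hc, mul_left_comm, Nat.mul_div_cancel_left _ hr.pos]
  · exfalso
    apply h
    have h1 : r ^ n.factorization r ∣ o * c := hc ▸ Nat.ordProj_dvd n r
    exact (Nat.Coprime.pow_left _ (hr.coprime_iff_not_dvd.mpr hrc)).dvd_of_dvd_mul_right h1

variable {q n : ℕ}

/-- Reducing the exponent of `q` by a prime factor of `n`. -/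
theorem modEq_one_div_prime (hq : 2 ≤ q) (hn : 1 < n) {r : ℕ} (hr : r.Prime) (hrn : r ∣ n)
    (h : q ^ n ≡ 1 [MOD n * (q - 1)])
    (H : ∀ s k : ℕ, s.Prime → 1 ≤ k → s ^ k ∣ n * (q - 1) →
      ∃ t : ℕ, q ^ t ≡ 1 [MOD s ^ k] ∧ (t ∣ n / r ∨ ¬ r ^ n.factorization r ∣ t)) :
    q ^ (n / r) ≡ 1 [MOD n * (q - 1)] := by
  have hone : 1 ≤ q ^ (n / r) := Nat.one_le_pow _ _ (by omega)
  refine ((Nat.modEq_iff_dvd' hone).mpr ?_).symm
  rw [Nat.dvd_iff_prime_pow_dvd_dvd]
  intro s k hs hk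
  rcases Nat.eq_zero_or_pos k with rfl | hk1
  · simp
  refine (Nat.modEq_iff_dvd' hone).mp (Nat.ModEq.symm ?_)
  obtain ⟨t, ht, hcase⟩ := H s k hs hk1 hk
  have hn' : q ^ n ≡ 1 [MOD s ^ k] := h.of_dvd hk
  rw [← ZMod.natCast_eq_natCast_iff] at hn' ht ⊢
  push_cast at hn' ht ⊢
  rw [← orderOf_dvd_iff_pow_eq_one] at hn' ht ⊢
  rcases hcase with hc | hc
  · exact ht.trans hc
  · exact dvd_div_prime (by omega) hr hrn hn' fun hd => hc (hd.trans ht)

theorem dickson_pair (hq : IsPrimePow q) (hn : 1 < n) :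
    ((∀ r : ℕ, r.Prime → r ∣ n → r ∣ q - 1) ∧ (4 ∣ n → 4 ∣ q - 1)) ↔
      (q ^ n ≡ 1 [MOD n * (q - 1)] ∧
        ∀ i : ℕ, 0 < i → i < n → ¬ q ^ i ≡ 1 [MOD n * (q - 1)]) := by
  have hq2 : 2 ≤ q := hq.one_lt
  have hm : n * (q - 1) ≠ 0 := Nat.mul_ne_zero (by omega) (by omega)
  have hlift : ∀ s : ℕ, s.Prime → s ∣ q - 1 → ∀ b : ℕ,
      q ^ s ^ b ≡ 1 [MOD s ^ ((q - 1).factorization s + b)] := by
    intro s hs hsq b
    refine pow_prime_pow_modEq_one hs (hs.factorization_pos_of_dvd (by omega) hsq) ?_ b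
    exact ((Nat.modEq_iff_dvd' (by omega : 1 ≤ q)).mpr (Nat.ordProj_dvd _ _)).symm
  have hk_le : ∀ s k : ℕ, s.Prime → s ^ k ∣ n * (q - 1) →
      k ≤ n.factorization s + (q - 1).factorization s := by
    intro s k hs hk
    have h := (hs.pow_dvd_iff_le_factorization hm).mp hk
    rwa [Nat.factorization_mul (by omega) (by omega), Finsupp.add_apply] at h
  have hpow : ∀ s k : ℕ, s.Prime → 1 ≤ k → s ^ k ∣ n * (q - 1) → s ∣ q - 1 →
      q ^ s ^ n.factorization s ≡ 1 [MOD s ^ k] := fun s k hs _ hk hsq =>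
    (hlift s hs hsq _).of_dvd (pow_dvd_pow _ (by have := hk_le s k hs hk; omega))
  constructor
  · rintro ⟨h1, h4⟩
    have hfirst : q ^ n ≡ 1 [MOD n * (q - 1)] := by
      have hone : 1 ≤ q ^ n := Nat.one_le_pow _ _ (by omega)
      refine ((Nat.modEq_iff_dvd' hone).mpr ?_).symm
      rw [Nat.dvd_iff_prime_pow_dvd_dvd]
      intro s k hs hk
      rcases Nat.eq_zero_or_pos k with rfl | hk1
      · simp
      have hsq : s ∣ q - 1 := ((hs.dvd_mul).mp ((dvd_pow_self s (by omega)).trans hk)).elim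
        (h1 s hs) id
      obtain ⟨c, hc⟩ := Nat.ordProj_dvd n s
      refine (Nat.modEq_iff_dvd' hone).mp (Nat.ModEq.symm ?_)
      have hh := (hpow s k hs hk1 hk hsq).pow c
      rwa [← pow_mul, ← hc, one_pow] at hh
    refine ⟨hfirst, fun i hi hin hmod => ?_⟩
    set d := Nat.gcd i n
    have hdn : d ∣ n := Nat.gcd_dvd_right i n
    have hdlt : d < n := lt_of_le_of_lt (Nat.le_of_dvd hi (Nat.gcd_dvd_left i n)) hin
    have hd : n * (q - 1) ∣ q ^ d - 1 := by
      rw [← Nat.pow_sub_one_gcd_pow_sub_one]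
      exact Nat.dvd_gcd ((Nat.modEq_iff_dvd' (Nat.one_le_pow _ _ (by omega))).mp hmod.symm)
        ((Nat.modEq_iff_dvd' (Nat.one_le_pow _ _ (by omega))).mp hfirst.symm)
    obtain ⟨c, hc⟩ := hdn
    obtain ⟨r, hr, hrc⟩ := Nat.exists_prime_and_dvd (n := c) (fun e => by rw [e, mul_one] at hc; omega)
    have hrn : r ∣ n := hc ▸ hrc.mul_left d
    have hdr : d ∣ n / r := by
      obtain ⟨c', rfl⟩ := hrc
      exact ⟨c', by rw [hc, mul_left_comm, Nat.mul_div_cancel_left _ hr.pos]⟩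
    have hbig : r ^ (n.factorization r + (q - 1).factorization r) ∣ q ^ (n / r) - 1 := by
      refine Nat.dvd_trans ?_ (hd.trans (Nat.pow_sub_one_dvd_pow_sub_one q hdr))
      rw [pow_add]
      exact Nat.mul_dvd_mul (Nat.ordProj_dvd _ _) (Nat.ordProj_dvd _ _)
    haveI : Fact r.Prime := ⟨hr⟩
    have hj0 : n / r ≠ 0 := (Nat.div_pos (Nat.le_of_dvd (by omega) hrn) hr.pos).ne'
    have hne : q ^ (n / r) - 1 ≠ 0 := Nat.sub_ne_zero_of_lt (Nat.one_lt_pow hj0 (by omega))
    rw [padicValNat_dvd_iff_le hne] at hbig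
    have hrq : r ∣ q - 1 := h1 r hr hrn
    have hrq' : ¬ r ∣ q := fun h => hr.ne_one (Nat.dvd_one.mp (by
      have := Nat.dvd_sub h hrq
      rwa [Nat.sub_sub_self (by omega)] at this))
    rw [Nat.factorization_def _ hr, Nat.factorization_def _ hr] at hbig
    have hnv : 1 ≤ padicValNat r n := one_le_padicValNat_of_dvd (by omega) hrn
    have hdiv : padicValNat r (n / r) = padicValNat r n - 1 := padicValNat.div hrn
    rcases hr.eq_two_or_odd' with rfl | hodd
    · rcases Nat.even_or_odd (n / 2) with he | ho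
      · have h4n : 4 ∣ n := by
          obtain ⟨t, ht⟩ := he
          exact ⟨t, by omega⟩
        have hq4 := h4 h4n
        have hval := padicValNat.pow_two_sub_pow (x := q) (y := 1) (by omega) hrq hrq' hj0 he
        rw [one_pow] at hval
        have hq1 : padicValNat 2 (q + 1) = 1 := by
          rw [show q + 1 = 2 * ((q + 1) / 2) by omega, padicValNat.mul (by norm_num) (by omega),
            padicValNat.self (by norm_num), padicValNat.eq_zero_of_not_dvd (by omega)]
        omega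
      · have hgs : ¬ (2 : ℕ) ∣ ∑ i ∈ Finset.range (n / 2), q ^ i := by
          rw [← ZMod.natCast_eq_zero_iff]
          push_cast
          have e : (q : ZMod 2) = 1 := by
            have h := (ZMod.natCast_eq_natCast_iff q 1 2).mpr
              ((Nat.modEq_iff_dvd' (by omega)).mpr hrq).symm
            simpa using h
          simp only [e, one_pow, Finset.sum_const, Finset.card_range, nsmul_eq_mul, mul_one]
          rw [ho.natCast_zmod_two]
          decide
        have hsplit : q ^ (n / 2) - 1 = (∑ i ∈ Finset.range (n / 2), q ^ i) * (q - 1) := by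
          have := geom_sum_mul_of_one_le (x := q) (by omega : 1 ≤ q) (n / 2)
          omega
        rw [hsplit, padicValNat.mul (fun e => hgs (by rw [e]; exact dvd_zero _)) (by omega),
          padicValNat.eq_zero_of_not_dvd hgs] at hbig
        omega
    · have hval := padicValNat.pow_sub_pow (p := r) hodd (x := q) (y := 1) (by omega) hrq hrq' hj0
      rw [one_pow] at hval
      omega
  · rintro ⟨hfirst, hmin⟩
    have hnot : ∀ r : ℕ, r.Prime → r ∣ n → ¬ q ^ (n / r) ≡ 1 [MOD n * (q - 1)] := fun r hr hrn =>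
      hmin _ (Nat.div_pos (Nat.le_of_dvd (by omega) hrn) hr.pos)
        (Nat.div_lt_self (by omega) hr.one_lt)
    have hall : ∀ r : ℕ, r.Prime → r ∣ n → r ∣ q - 1 := by
      by_contra hc
      push Not at hc
      obtain ⟨r0, hr0, hr0n, hr0q⟩ := hc
      have hne : (n.primeFactors.filter fun r => ¬ r ∣ q - 1).Nonempty :=
        ⟨r0, Finset.mem_filter.mpr ⟨Nat.mem_primeFactors.mpr ⟨hr0, hr0n, by omega⟩, hr0q⟩⟩
      obtain ⟨r, hrmem, hrmax⟩ := Finset.exists_max_image _ id hne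
      obtain ⟨hrf, hrq⟩ := Finset.mem_filter.mp hrmem
      obtain ⟨hr, hrn, -⟩ := Nat.mem_primeFactors.mp hrf
      have hv : n.factorization r ≠ 0 := (hr.factorization_pos_of_dvd (by omega) hrn).ne'
      refine hnot r hr hrn (modEq_one_div_prime hq2 hn hr hrn hfirst fun s k hs hk1 hk => ?_)
      by_cases hsq : s ∣ q - 1
      · refine ⟨_, hpow s k hs hk1 hk hsq, .inr fun hd => hrq ?_⟩
        rwa [(Nat.prime_dvd_prime_iff_eq hr hs).mp (hr.dvd_of_dvd_pow ((dvd_pow_self r hv).trans hd))]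
      · have hsn : s ∣ n := (hs.dvd_mul.mp ((dvd_pow_self s (by omega)).trans hk)).resolve_right hsq
        have hsr : s ≤ r := hrmax s (Finset.mem_filter.mpr
          ⟨Nat.mem_primeFactors.mpr ⟨hs, hsn, by omega⟩, hsq⟩)
        have hks := hk_le s k hs hk
        rw [Nat.factorization_eq_zero_of_not_dvd hsq, add_zero] at hks
        have hcop : Nat.Coprime q (s ^ k) := by
          refine Nat.Coprime.pow_right _ (Nat.Coprime.symm (hs.coprime_iff_not_dvd.mpr fun hd => ?_))
          have h := hfirst.of_dvd ((dvd_pow_self s (by omega : k ≠ 0)).trans hk)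
          have h0 : q ^ n ≡ 0 [MOD s] := Nat.modEq_zero_iff_dvd.mpr (hd.trans (dvd_pow_self q (by omega)))
          exact hs.ne_one (Nat.dvd_one.mp (Nat.modEq_zero_iff_dvd.mp (h.symm.trans h0)))
        refine ⟨_, Nat.ModEq.pow_totient hcop, .inr fun hd => ?_⟩
        rw [Nat.totient_prime_pow hs (by omega)] at hd
        rcases hsr.lt_or_eq with hlt | rfl
        · rcases hr.dvd_mul.mp ((dvd_pow_self r hv).trans hd) with h | h
          · exact absurd ((Nat.prime_dvd_prime_iff_eq hr hs).mp (hr.dvd_of_dvd_pow h)) hlt.ne'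
          · exact absurd (Nat.le_of_dvd (by have := hs.two_le; omega) h) (by omega)
        · have hd' := ((hs.coprime_iff_not_dvd.mpr fun h =>
            absurd (Nat.le_of_dvd (by have := hs.two_le; omega) h)
              (by have := hs.two_le; omega)).pow_left _).dvd_of_dvd_mul_right hd
          rw [Nat.pow_dvd_pow_iff_le_right hs.one_lt] at hd'
          omega
    refine ⟨hall, fun h4n => ?_⟩
    by_contra h4q
    have h2n : 2 ∣ n := dvd_trans ⟨2, rfl⟩ h4n
    have h2q := hall 2 Nat.prime_two h2n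
    have hv2 : 2 ≤ n.factorization 2 :=
      (Nat.prime_two.pow_dvd_iff_le_factorization (by omega)).mp (by simpa using h4n)
    have ha1 : (q - 1).factorization 2 = 1 := by
      have h1 := Nat.prime_two.factorization_pos_of_dvd (by omega : q - 1 ≠ 0) h2q
      by_contra hne
      exact h4q ((pow_dvd_pow 2 (show 2 ≤ (q - 1).factorization 2 by omega)).trans
        (Nat.ordProj_dvd _ _))
    refine hnot 2 Nat.prime_two h2n
      (modEq_one_div_prime hq2 hn Nat.prime_two h2n hfirst fun s k hs hk1 hk => ?_)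
    by_cases hs2 : s = 2
    · subst hs2
      have hks := hk_le 2 k hs hk
      rw [ha1] at hks
      have h8 : q ^ 2 ≡ 1 [MOD 2 ^ 3] := by
        have hodd : q % 2 = 1 := by omega
        have h : q % 8 = 1 ∨ q % 8 = 3 ∨ q % 8 = 5 ∨ q % 8 = 7 := by omega
        rw [Nat.ModEq, Nat.pow_mod, show (2 : ℕ) ^ 3 = 8 from rfl]
        rcases h with h | h | h | h <;> rw [h] <;> rfl
      obtain ⟨j, hj⟩ := Nat.exists_eq_add_of_le hv2
      refine ⟨2 * 2 ^ j, ?_, .inl ?_⟩
      · rw [pow_mul]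
        exact (pow_prime_pow_modEq_one Nat.prime_two (by omega) h8 j).of_dvd (pow_dvd_pow _ (by omega))
      · refine Nat.dvd_div_of_mul_dvd ?_
        have h := Nat.ordProj_dvd n 2
        rwa [hj, pow_add, show (2 : ℕ) ^ 2 = 2 * 2 from rfl, mul_assoc] at h
    · have hsq : s ∣ q - 1 := (hs.dvd_mul.mp ((dvd_pow_self s (by omega)).trans hk)).elim
        (hall s hs) id
      refine ⟨_, hpow s k hs hk1 hk hsq, .inr fun hd => hs2 ?_⟩
      exact ((Nat.prime_dvd_prime_iff_eq Nat.prime_two hs).mp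
        (Nat.prime_two.dvd_of_dvd_pow ((dvd_pow_self 2 (by omega : n.factorization 2 ≠ 0)).trans hd))).symm

end CfsgLib.Perm
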