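import Mathlib.LinearAlgebra.Matrix.GeneralLinearGroup.Defs
import Mathlib.LinearAlgebra.Matrix.Notation
import Mathlib.Data.ZMod.Basic
import Mathlib.Algebra.Field.ZMod
import Mathlib.LinearAlgebra.Matrix.Determinant.Basic
import Mathlib.LinearAlgebra.Matrix.ToLinearEquiv
import Mathlib.GroupTheory.OrderOfElement
import Mathlib.Tactic.FinCases
import Mathlib.Tactic.Ring
import Mathlib.Tactic.LinearCombination
import Mathlib.Tactic.IntervalCases
import Mathlib.Tactic.NormNum.Prime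

/-!
# The exceptional sharply doubly transitive groups of degree 25, 121 and 3481
-/

set_option autoImplicit false
set_option linter.style.haveILetI false

namespace CfsgLib.Perm

/-- Entries of a two by two matrix, row by row. -/
abbrev Quad := ℕ × ℕ × ℕ × ℕ

/-- Matrix product on entries, reduced modulo `p`. -/
def quadMul (p : ℕ) : Quad → Quad → Quad
  | (a, b, c, d), (e, f, g, h) =>
    ((a * e + b * g) % p, (a * f + b * h) % p, (c * e + d * g) % p, (c * f + d * h) % p)

/-- The matrix with the given entries. -/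
def quadMat (p : ℕ) : Quad → Matrix (Fin 2) (Fin 2) (ZMod p)
  | (a, b, c, d) => !![(a : ZMod p), b; c, d]

/-- Every entry is obtained from a later one by a generator, the last entry being the identity. -/
def derivable (p : ℕ) (gens : List Quad) : List Quad → Bool
  | [] => false
  | [x] => x == (1, 0, 0, 1)
  | x :: y :: rest => ((y :: rest).any fun z => gens.any fun g => quadMul p g z == x) &&
      derivable p gens (y :: rest)

/-- All checks on a table of group elements. -/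
def okTable (p : ℕ) (gens L : List Quad) : Bool :=
  derivable p gens L && L.Nodup &&
    L.all (fun x => gens.all fun g => L.contains (quadMul p g x)) &&
    L.all (fun x => decide (x.1 < p ∧ x.2.1 < p ∧ x.2.2.1 < p ∧ x.2.2.2 < p) &&
      ((x.1 * x.2.2.2 + (p - 1) * (x.2.1 * x.2.2.1)) % p == 1) &&
      (x == (1, 0, 0, 1) || (x.1 + x.2.2.2) % p != 2))

theorem quadMat_mul (p : ℕ) (s t : Quad) : quadMat p (quadMul p s t) = quadMat p s * quadMat p t := by
  obtain ⟨a, b, c, d⟩ := s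
  obtain ⟨e, f, g, h⟩ := t
  simp [quadMat, quadMul, Matrix.mul_fin_two]

theorem quadMat_one (p : ℕ) : quadMat p (1, 0, 0, 1) = 1 := by
  ext i j
  fin_cases i <;> fin_cases j <;> simp [quadMat]

theorem quadMat_injOn {p : ℕ} {s t : Quad} (hs : s.1 < p ∧ s.2.1 < p ∧ s.2.2.1 < p ∧ s.2.2.2 < p)
    (ht : t.1 < p ∧ t.2.1 < p ∧ t.2.2.1 < p ∧ t.2.2.2 < p) (h : quadMat p s = quadMat p t) :
    s = t := by
  obtain ⟨a, b, c, d⟩ := s
  obtain ⟨e, f, g, k⟩ := t
  have key : ∀ x y : ℕ, x < p → y < p → (x : ZMod p) = y → x = y := fun x y hx hy e => by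
    have := congrArg ZMod.val e
    rwa [ZMod.val_natCast, ZMod.val_natCast, Nat.mod_eq_of_lt hx, Nat.mod_eq_of_lt hy] at this
  have h00 := congrFun (congrFun h 0) 0
  have h01 := congrFun (congrFun h 0) 1
  have h10 := congrFun (congrFun h 1) 0
  have h11 := congrFun (congrFun h 1) 1
  simp [quadMat] at h00 h01 h10 h11
  obtain ⟨(h1 : a < p), (h2 : b < p), (h3 : c < p), (h4 : d < p)⟩ := hs
  obtain ⟨(k1 : e < p), (k2 : f < p), (k3 : g < p), (k4 : k < p)⟩ := ht
  rw [key _ _ h1 k1 h00, key _ _ h2 k2 h01, key _ _ h3 k3 h10, key _ _ h4 k4 h11]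

variable {p : ℕ} [Fact p.Prime]

/-- The closure of the generators consists of the tabulated matrices and fixes no non-zero vector. -/
theorem table_group (hp3 : 2 < p) (gens L : List Quad) (hok : okTable p gens L = true)
    (S : Set (Matrix.GeneralLinearGroup (Fin 2) (ZMod p)))
    (hS : ∀ m : Matrix (Fin 2) (Fin 2) (ZMod p),
      (∃ g ∈ S, (g : Matrix (Fin 2) (Fin 2) (ZMod p)) = m) ↔ ∃ q ∈ gens, quadMat p q = m) :
    Nat.card (Subgroup.closure S) = L.length ∧
      ∀ h ∈ Subgroup.closure S, ∀ v : Fin 2 → ZMod p, v ≠ 0 →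
        Matrix.mulVec (h : Matrix (Fin 2) (Fin 2) (ZMod p)) v = v → h = 1 := by
  simp only [okTable, Bool.and_eq_true, List.all_eq_true, decide_eq_true_eq, beq_iff_eq,
    Bool.or_eq_true, bne_iff_ne, List.contains_iff_mem, ne_eq] at hok
  obtain ⟨⟨⟨hder, hnd⟩, hclosed⟩, hprop⟩ := hok
  have hmem : ∀ x ∈ L, ∃ g ∈ Subgroup.closure S, (g : Matrix (Fin 2) (Fin 2) (ZMod p)) = quadMat p x := by
    clear hclosed hprop hnd
    induction L with
    | nil => simp
    | cons x rest ih =>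
      intro z hz
      rcases rest with _ | ⟨y, rest⟩
      · rw [List.mem_singleton] at hz
        simp only [derivable, beq_iff_eq] at hder
        exact ⟨1, one_mem _, by rw [hz, hder, quadMat_one]; rfl⟩
      · simp only [derivable, Bool.and_eq_true, List.any_eq_true, beq_iff_eq] at hder
        obtain ⟨⟨w, hw, q, hq, he⟩, hrest⟩ := hder
        rcases List.mem_cons.mp hz with rfl | hz
        · obtain ⟨g, hg, hgw⟩ := ih hrest w hw
          obtain ⟨s, hs, hsq⟩ := (hS _).mpr ⟨q, hq, rfl⟩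
          exact ⟨s * g, mul_mem (Subgroup.subset_closure hs) hg, by
            rw [Units.val_mul, hsq, hgw, ← quadMat_mul, he]⟩
        · exact ih hrest z hz
  choose g hg hgx using hmem
  let f : {x // x ∈ L} → Subgroup.closure S := fun x => ⟨g x x.2, hg x x.2⟩
  have hf : Function.Injective f := fun x y e => by
    have e' : quadMat p x = quadMat p y := by
      rw [← hgx x x.2, ← hgx y y.2]
      exact congrArg (fun h : Subgroup.closure S => ((h : Matrix.GeneralLinearGroup (Fin 2) (ZMod p)) : Matrix (Fin 2) (Fin 2) (ZMod p))) e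
    exact Subtype.ext (quadMat_injOn (hprop x x.2).1.1 (hprop y y.2).1.1 e')
  have hone : (1, 0, 0, 1) ∈ L := by
    clear hnd hclosed hprop f hf
    clear hg hgx g
    induction L with
    | nil => simp [derivable] at hder
    | cons x rest ih =>
      rcases rest with _ | ⟨y, rest⟩
      · simp only [derivable, beq_iff_eq] at hder
        exact List.mem_singleton.mpr hder.symm
      · simp only [derivable, Bool.and_eq_true] at hder
        exact List.mem_cons_of_mem _ (ih hder.2)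
  let T : Set (Matrix.GeneralLinearGroup (Fin 2) (ZMod p)) := {h | ∃ x ∈ L, (h : Matrix (Fin 2) (Fin 2) (ZMod p)) = quadMat p x}
  have hTfin : T.Finite := Set.toFinite T
  have hT : ∀ h ∈ Subgroup.closure S, ∀ t ∈ T, h * t ∈ T := by
    intro h hh
    induction hh using Subgroup.closure_induction with
    | mem s hs =>
      rintro t ⟨x, hx, ht⟩
      obtain ⟨q, hq, hqs⟩ := (hS _).mp ⟨s, hs, rfl⟩
      exact ⟨_, hclosed x hx q hq, by rw [Units.val_mul, ← hqs, ht, quadMat_mul]⟩
    | one => exact fun t ht => by rwa [one_mul]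
    | mul a b _ _ ha hb => exact fun t ht => by rw [mul_assoc]; exact ha _ (hb t ht)
    | inv a _ ha =>
      intro t ht
      haveI := hTfin.to_subtype
      obtain ⟨⟨u, hu⟩, e0⟩ := (Finite.injective_iff_surjective
        (f := fun t : T => (⟨a * t.1, ha t t.2⟩ : T))).mp
        (fun t t' e => Subtype.ext (mul_left_cancel (congrArg Subtype.val e))) ⟨t, ht⟩
      have e : a * u = t := congrArg Subtype.val e0
      rwa [← e, inv_mul_cancel_left]
  have hin : ∀ h ∈ Subgroup.closure S, ∃ x ∈ L, (h : Matrix (Fin 2) (Fin 2) (ZMod p)) = quadMat p x :=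
    fun h hh => by simpa [T] using hT h hh 1 ⟨_, hone, (quadMat_one p).symm⟩
  have hbij : Function.Bijective f := ⟨hf, fun h => by
    obtain ⟨x, hx, e⟩ := hin h h.2
    exact ⟨⟨x, hx⟩, Subtype.ext (Units.ext ((hgx x hx).trans e.symm))⟩⟩
  refine ⟨?_, fun h hh v hv hfix => ?_⟩
  · rw [← Nat.card_eq_of_bijective f hbij, ← List.toFinset_card_of_nodup hnd,
      ← Nat.card_eq_finsetCard]
    exact Nat.card_congr (Equiv.subtypeEquivRight fun x => (List.mem_toFinset).symm)
  · obtain ⟨⟨a, b, c, d⟩, hx, e⟩ := hin h hh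
    obtain ⟨⟨_, hdet⟩, hne⟩ := hprop _ hx
    rcases hne with hone' | htr
    · refine Units.ext ?_
      rw [e, hone', quadMat_one]
      rfl
    · exfalso
      have h0 : ((h : Matrix (Fin 2) (Fin 2) (ZMod p)) - 1).det = 0 :=
        Matrix.exists_mulVec_eq_zero_iff.mp ⟨v, hv, by rw [Matrix.sub_mulVec, hfix, Matrix.one_mulVec, sub_self]⟩
      have hp : 1 ≤ p := (Fact.out : p.Prime).one_le
      have hdet' : ((a * d + (p - 1) * (b * c) : ℕ) : ZMod p) = ((1 : ℕ) : ZMod p) := by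
        rw [← ZMod.natCast_mod, hdet]
      push_cast [Nat.cast_sub hp, ZMod.natCast_self] at hdet'
      rw [e, Matrix.det_fin_two] at h0
      simp [quadMat] at h0
      have hh2 : ((a + d : ℕ) : ZMod p) = ((2 : ℕ) : ZMod p) := by
        push_cast
        linear_combination hdet' - h0
      apply htr
      have h2 := (ZMod.natCast_eq_natCast_iff' _ _ _).mp hh2
      rwa [Nat.mod_eq_of_lt hp3] at h2

/-- A fixed-point-free group of order `p² - 1` is regular on non-zero vectors. -/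
theorem regular_of_free (H : Subgroup (Matrix.GeneralLinearGroup (Fin 2) (ZMod p)))
    (hcard : p ^ 2 - 1 ≤ Nat.card H)
    (hfree : ∀ h ∈ H, ∀ v : Fin 2 → ZMod p, v ≠ 0 →
      Matrix.mulVec (h : Matrix (Fin 2) (Fin 2) (ZMod p)) v = v → h = 1) :
    Nat.card H = p ^ 2 - 1 ∧ ∀ v w : Fin 2 → ZMod p, v ≠ 0 → w ≠ 0 →
      ∃! h : H, Matrix.mulVec ((h : Matrix.GeneralLinearGroup (Fin 2) (ZMod p)) :
        Matrix (Fin 2) (Fin 2) (ZMod p)) v = w := by
  have key : ∀ v : Fin 2 → ZMod p, v ≠ 0 → Nat.card H = p ^ 2 - 1 ∧ ∀ w, w ≠ 0 →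
      ∃! h : H, Matrix.mulVec ((h : Matrix.GeneralLinearGroup (Fin 2) (ZMod p)) : Matrix (Fin 2) (Fin 2) (ZMod p)) v = w := by
    intro v hv
    let f : H → {w : Fin 2 → ZMod p // w ≠ 0} := fun h =>
      ⟨Matrix.mulVec ((h : Matrix.GeneralLinearGroup (Fin 2) (ZMod p)) : Matrix (Fin 2) (Fin 2) (ZMod p)) v, fun e => hv (by
        have := congrArg (Matrix.mulVec (((h⁻¹ : H) : (Matrix.GeneralLinearGroup (Fin 2) (ZMod p))) : Matrix (Fin 2) (Fin 2) (ZMod p))) e
        rw [Matrix.mulVec_mulVec, Matrix.mulVec_zero, ← Units.val_mul, ← Subgroup.coe_mul,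
          inv_mul_cancel] at this
        simpa using this)⟩
    have hf : Function.Injective f := fun a b e => by
      have e' : Matrix.mulVec ((a : (Matrix.GeneralLinearGroup (Fin 2) (ZMod p))) : Matrix (Fin 2) (Fin 2) (ZMod p)) v =
        Matrix.mulVec ((b : (Matrix.GeneralLinearGroup (Fin 2) (ZMod p))) : Matrix (Fin 2) (Fin 2) (ZMod p)) v := congrArg Subtype.val e
      have h1 := hfree _ (b⁻¹ * a : H).2 v hv (by
        rw [Subgroup.coe_mul, Units.val_mul, ← Matrix.mulVec_mulVec, e', Matrix.mulVec_mulVec,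
          ← Units.val_mul, ← Subgroup.coe_mul, inv_mul_cancel]
        simp)
      have h2 : b⁻¹ * a = 1 := Subtype.ext h1
      rw [inv_mul_eq_one] at h2
      exact h2.symm
    have hc : Nat.card {w : Fin 2 → ZMod p // w ≠ 0} = p ^ 2 - 1 := by
      rw [Nat.card_eq_fintype_card, Fintype.card_subtype_compl, Fintype.card_subtype_eq,
        Fintype.card_fun, Fintype.card_fin, ZMod.card]
    have hle := Nat.card_le_card_of_injective f hf
    have hb := hf.bijective_of_nat_card_le (by omega)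
    refine ⟨(Nat.card_eq_of_bijective f hb).trans hc, fun w hw => ?_⟩
    obtain ⟨h, hh⟩ := hb.2 ⟨w, hw⟩
    exact ⟨h, congrArg Subtype.val hh, fun y hy => hf ((Subtype.ext hy).trans hh.symm)⟩
  refine ⟨(key (fun _ => 1) fun e => one_ne_zero (congrFun e 0)).1, fun v w hv hw => (key v hv).2 w hw⟩

/-- The elements, last discovered first, of the group of degree 25. -/
def elems25 : List Quad := [
  (4,1,2,2), (4,4,3,2), (2,3,4,4), (2,2,1,4), (1,1,2,3), (3,4,3,1), (3,2,1,1), (1,3,4,3),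
  (1,4,3,3), (3,1,2,1), (4,3,4,2), (0,1,4,0), (3,0,0,2), (3,3,4,1), (4,2,1,2), (2,4,3,4),
  (0,3,3,0), (2,1,2,4), (0,2,2,0), (4,0,0,4), (1,2,1,3), (0,4,1,0), (2,0,0,3), (1,0,0,1)]

/-- The generators of the group of degree 25. -/
def gens25 : List Quad := [
  (2,0,0,3), (0,4,1,0), (1,2,1,3)]

theorem ok25 : okTable 5 gens25 elems25 = true := by decide +kernel

/-- The elements, last discovered first, of the group of degree 121. -/
def elems121 : List Quad := [
  (4,4,4,7), (4,7,7,7), (8,2,6,3), (4,6,10,7), (7,4,4,4), (9,8,8,6), (10,7,7,5), (7,8,8,3),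
  (2,2,2,8), (5,4,4,10), (7,7,7,4), (6,3,3,9), (3,9,5,8), (7,5,1,4), (8,6,2,3), (4,10,6,7),
  (3,7,8,8), (9,2,3,2), (8,3,4,3), (2,8,9,9), (2,3,3,5), (6,7,7,1), (3,10,0,4), (5,8,8,2),
  (1,4,4,6), (4,3,3,8), (9,9,9,3), (1,3,7,0), (8,8,8,4), (3,2,2,9), (0,4,8,1), (6,2,1,6),
  (4,1,0,3), (2,6,5,10), (3,5,9,8), (7,1,5,4), (8,4,3,3), (2,9,8,9), (8,1,0,7), (3,8,7,8),
  (9,3,2,2), (7,0,10,8), (9,6,5,1), (10,4,8,0), (5,2,1,5), (1,6,5,9), (0,3,7,10), (5,10,9,5),
  (10,8,4,0), (3,3,3,7), (8,9,9,2), (0,7,3,10), (5,9,10,5), (7,10,0,8), (9,5,6,1), (5,1,2,5),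
  (8,0,1,7), (1,5,6,9), (0,9,6,4), (10,1,9,1), (5,6,3,6), (4,5,2,0), (4,0,1,3), (2,5,6,10),
  (1,7,3,0), (6,9,10,6), (10,5,6,2), (0,8,4,1), (6,1,2,6), (2,0,7,6), (10,10,10,9), (5,5,5,3),
  (6,4,0,2), (9,1,1,10), (3,6,6,5), (2,7,0,6), (6,10,9,6), (3,0,10,4), (10,6,5,2), (0,2,5,7),
  (1,10,2,10), (6,5,8,5), (7,6,9,0), (10,9,1,1), (5,3,6,6), (4,2,5,0), (2,1,4,8), (0,6,9,4),
  (9,0,4,5), (1,1,1,2), (6,6,6,8), (5,7,0,9), (2,10,10,1), (8,5,5,6), (9,4,0,5), (10,2,3,4),
  (5,0,7,9), (4,8,9,10), (8,10,7,2), (1,2,10,10), (6,8,5,5), (7,9,6,0), (9,10,7,3), (0,5,2,7),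
  (3,4,1,9), (1,8,9,7), (7,2,3,1), (1,9,8,7), (6,0,4,2), (7,3,2,1), (3,1,4,9), (9,7,10,3),
  (0,1,10,0), (8,7,10,2), (10,3,2,4), (4,9,8,10), (10,0,0,10), (2,4,1,8), (0,10,1,0), (1,0,0,1)]

/-- The generators of the group of degree 121. -/
def gens121 : List Quad := [
  (0,10,1,0), (2,4,1,8)]

theorem ok121 : okTable 11 gens121 elems121 = true := by decide +kernel

/-- The elements, last discovered first, of the group of degree 3481. -/
def elems3481 : List Quad := [
  (3,7,7,56), (7,56,56,52), (41,14,40,18), (34,17,43,25), (52,3,3,7), (45,41,41,40), (43,25,25,42), (53,21,21,5),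
  (48,40,40,10), (42,34,34,43), (56,52,52,3), (40,18,18,45), (18,45,19,41), (25,42,16,34), (41,40,14,18), (34,43,17,25),
  (38,53,54,21), (19,48,49,40), (21,5,6,38), (40,10,11,19), (14,18,18,19), (17,25,25,16), (38,30,31,54), (19,41,41,14),
  (16,34,34,17), (6,38,38,54), (11,19,19,49), (29,38,5,31), (54,21,21,6), (49,40,40,11), (31,54,21,29), (32,25,24,28),
  (54,29,28,38), (25,28,27,35), (18,19,45,41), (25,16,42,34), (21,6,5,38), (40,11,10,19), (21,29,28,5), (38,54,53,21),
  (19,49,48,40), (5,31,30,21), (34,32,31,24), (30,54,21,28), (31,25,24,27), (24,28,27,34), (28,38,5,30), (27,35,34,31),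
  (30,21,54,28), (5,38,38,53), (10,19,19,48), (28,5,38,30), (27,34,35,31), (5,30,31,21), (34,31,32,24), (31,24,25,27),
  (21,28,29,5), (24,27,28,34), (39,14,48,46), (4,36,11,55), (58,55,30,1), (46,11,45,39), (54,28,29,38), (25,27,28,35),
  (29,5,38,31), (28,34,35,32), (35,31,32,25), (31,21,54,29), (32,24,25,28), (45,39,13,48), (23,4,4,11), (4,58,58,30),
  (48,46,20,45), (11,55,55,23), (30,1,1,4), (45,13,39,48), (28,35,34,32), (38,31,30,54), (35,32,31,25), (20,45,11,13),
  (55,23,48,4), (1,4,29,58), (13,48,14,20), (4,11,36,55), (58,30,55,1), (46,45,11,39), (9,49,15,49), (39,48,14,46),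
  (14,20,46,11), (36,55,55,48), (55,1,1,29), (11,13,39,14), (48,4,4,36), (29,58,58,55), (14,46,20,11), (10,9,10,15),
  (11,39,13,14), (15,49,50,10), (49,10,44,9), (55,48,23,4), (1,29,4,58), (13,14,48,20), (50,10,44,10), (20,11,45,13),
  (10,15,49,50), (49,49,50,44), (44,9,10,49), (49,50,49,44), (48,20,46,45), (44,10,9,49), (10,49,15,50), (50,44,10,10),
  (0,1,58,0), (49,44,10,9), (10,10,9,15), (15,50,49,10), (58,0,0,58), (9,15,49,49), (0,58,1,0), (1,0,0,1)]

/-- The generators of the group of degree 3481. -/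
def gens3481 : List Quad := [
  (0,58,1,0), (9,15,49,49)]

theorem ok3481 : okTable 59 gens3481 elems3481 = true := by decide +kernel

theorem four_pow_29 : (4 : ZMod 59) ^ 29 = 1 := by decide +kernel

theorem four_ne_one : (4 : ZMod 59) ≠ 1 := by decide

theorem scalar_four : (!![4, 0; 0, 4] : Matrix (Fin 2) (Fin 2) (ZMod 59)) = (4 : ZMod 59) • 1 := by
  ext i j
  fin_cases i <;> fin_cases j <;> simp

theorem exceptional25 (A B C : Matrix.GeneralLinearGroup (Fin 2) (ZMod 5))
    (hA : (A : Matrix (Fin 2) (Fin 2) (ZMod 5)) = !![2, 0; 0, -2])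
    (hB : (B : Matrix (Fin 2) (Fin 2) (ZMod 5)) = !![0, -1; 1, 0])
    (hC : (C : Matrix (Fin 2) (Fin 2) (ZMod 5)) = !![1, 2; 1, -2]) :
    Nat.card (Subgroup.closure ({A, B, C} : Set (Matrix.GeneralLinearGroup (Fin 2) (ZMod 5)))) = 24 ∧
      ∀ v w : Fin 2 → ZMod 5, v ≠ 0 → w ≠ 0 → ∃! h : Subgroup.closure
        ({A, B, C} : Set (Matrix.GeneralLinearGroup (Fin 2) (ZMod 5))),
        Matrix.mulVec ((h : Matrix.GeneralLinearGroup (Fin 2) (ZMod 5)) :
          Matrix (Fin 2) (Fin 2) (ZMod 5)) v = w := by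
  haveI : Fact (Nat.Prime 5) := ⟨by norm_num⟩
  have hA' : (A : Matrix (Fin 2) (Fin 2) (ZMod 5)) = quadMat 5 (2, 0, 0, 3) := by
    rw [hA]; decide
  have hB' : (B : Matrix (Fin 2) (Fin 2) (ZMod 5)) = quadMat 5 (0, 4, 1, 0) := by
    rw [hB]; decide
  have hC' : (C : Matrix (Fin 2) (Fin 2) (ZMod 5)) = quadMat 5 (1, 2, 1, 3) := by
    rw [hC]; decide
  obtain ⟨hc, hfree⟩ := table_group (by norm_num) gens25 elems25 ok25 {A, B, C} fun m => by
    simp [gens25, hA', hB', hC']
  have h24 : elems25.length = 24 := by decide +kernel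
  rw [h24] at hc
  exact ⟨hc, (regular_of_free _ (by rw [hc]; norm_num) hfree).2⟩

theorem exceptional121 (A B : Matrix.GeneralLinearGroup (Fin 2) (ZMod 11))
    (hA : (A : Matrix (Fin 2) (Fin 2) (ZMod 11)) = !![0, -1; 1, 0])
    (hB : (B : Matrix (Fin 2) (Fin 2) (ZMod 11)) = !![2, 4; 1, -3]) :
    Nat.card (Subgroup.closure ({A, B} : Set (Matrix.GeneralLinearGroup (Fin 2) (ZMod 11)))) = 120 ∧
      ∀ v w : Fin 2 → ZMod 11, v ≠ 0 → w ≠ 0 → ∃! h : Subgroup.closure
        ({A, B} : Set (Matrix.GeneralLinearGroup (Fin 2) (ZMod 11))),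
        Matrix.mulVec ((h : Matrix.GeneralLinearGroup (Fin 2) (ZMod 11)) :
          Matrix (Fin 2) (Fin 2) (ZMod 11)) v = w := by
  haveI : Fact (Nat.Prime 11) := ⟨by norm_num⟩
  have hA' : (A : Matrix (Fin 2) (Fin 2) (ZMod 11)) = quadMat 11 (0, 10, 1, 0) := by
    rw [hA]; decide
  have hB' : (B : Matrix (Fin 2) (Fin 2) (ZMod 11)) = quadMat 11 (2, 4, 1, 8) := by
    rw [hB]; decide
  obtain ⟨hc, hfree⟩ := table_group (by norm_num) gens121 elems121 ok121 {A, B} fun m => by
    simp [gens121, hA', hB']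
  have h120 : elems121.length = 120 := by decide +kernel
  rw [h120] at hc
  exact ⟨hc, (regular_of_free _ (by rw [hc]; norm_num) hfree).2⟩

theorem exceptional3481 (A B C : Matrix.GeneralLinearGroup (Fin 2) (ZMod 59))
    (hA : (A : Matrix (Fin 2) (Fin 2) (ZMod 59)) = !![0, -1; 1, 0])
    (hB : (B : Matrix (Fin 2) (Fin 2) (ZMod 59)) = !![9, 15; -10, -10])
    (hC : (C : Matrix (Fin 2) (Fin 2) (ZMod 59)) = !![4, 0; 0, 4]) :
    Nat.card (Subgroup.closure ({A, B, C} : Set (Matrix.GeneralLinearGroup (Fin 2) (ZMod 59)))) = 3480 ∧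
      ∀ v w : Fin 2 → ZMod 59, v ≠ 0 → w ≠ 0 → ∃! h : Subgroup.closure
        ({A, B, C} : Set (Matrix.GeneralLinearGroup (Fin 2) (ZMod 59))),
        Matrix.mulVec ((h : Matrix.GeneralLinearGroup (Fin 2) (ZMod 59)) :
          Matrix (Fin 2) (Fin 2) (ZMod 59)) v = w := by
  haveI : Fact (Nat.Prime 59) := ⟨by norm_num⟩
  have hA' : (A : Matrix (Fin 2) (Fin 2) (ZMod 59)) = quadMat 59 (0, 58, 1, 0) := by
    rw [hA]; decide
  have hB' : (B : Matrix (Fin 2) (Fin 2) (ZMod 59)) = quadMat 59 (9, 15, 49, 49) := by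
    rw [hB]; decide
  obtain ⟨hc, hfree⟩ := table_group (by norm_num) gens3481 elems3481 ok3481 {A, B} fun m => by
    simp [gens3481, hA', hB']
  have h120 : elems3481.length = 120 := by decide +kernel
  rw [h120] at hc
  set U := Subgroup.closure ({A, B} : Set (Matrix.GeneralLinearGroup (Fin 2) (ZMod 59)))
  set H := Subgroup.closure ({A, B, C} : Set (Matrix.GeneralLinearGroup (Fin 2) (ZMod 59)))
  have hCpow : ∀ n : ℕ, ((C ^ n : Matrix.GeneralLinearGroup (Fin 2) (ZMod 59)) :
      Matrix (Fin 2) (Fin 2) (ZMod 59)) = ((4 : ZMod 59) ^ n) • 1 := by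
    intro n
    rw [Units.val_pow_eq_pow_val, hC, scalar_four, smul_pow, one_pow]
  have hord : orderOf C = 29 := by
    haveI : Fact (Nat.Prime 29) := ⟨by norm_num⟩
    refine orderOf_eq_prime (Units.ext ?_) fun e => ?_
    · rw [hCpow, four_pow_29, one_smul]; rfl
    · have h := congrArg (fun g : Matrix.GeneralLinearGroup (Fin 2) (ZMod 59) =>
        (g : Matrix (Fin 2) (Fin 2) (ZMod 59)) 0 0) e
      rw [hC] at h
      exact four_ne_one (by simpa using h)
  have hcomm : ∀ g : Matrix.GeneralLinearGroup (Fin 2) (ZMod 59), g * C = C * g := fun g => by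
    refine Units.ext ?_
    have h1 := hCpow 1
    rw [pow_one, pow_one] at h1
    rw [Units.val_mul, Units.val_mul, h1, mul_smul_comm, mul_one, smul_mul_assoc, one_mul]
  have hprod : ∀ h ∈ H, ∃ u ∈ U, ∃ n : ℕ, h = u * C ^ n := by
    intro h hh
    induction hh using Subgroup.closure_induction with
    | mem s hs =>
      rcases hs with rfl | rfl | rfl
      · exact ⟨s, Subgroup.subset_closure (.inl rfl), 0, by simp⟩
      · exact ⟨s, Subgroup.subset_closure (.inr rfl), 0, by simp⟩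
      · exact ⟨1, one_mem _, 1, by simp⟩
    | one => exact ⟨1, one_mem _, 0, by simp⟩
    | mul a b _ _ ha hb =>
      obtain ⟨u, hu, n, rfl⟩ := ha
      obtain ⟨u', hu', n', rfl⟩ := hb
      refine ⟨u * u', mul_mem hu hu', n + n', ?_⟩
      have e : C ^ n * u' = u' * C ^ n := ((show Commute u' C from hcomm u').pow_right n).symm
      rw [pow_add, mul_assoc, ← mul_assoc (C ^ n), e, mul_assoc u', mul_assoc]
    | inv a _ ha =>
      obtain ⟨u, hu, n, rfl⟩ := ha
      refine ⟨u⁻¹, inv_mem hu, 28 * n, ?_⟩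
      have e : (C ^ n)⁻¹ = C ^ (28 * n) := by
        rw [inv_eq_iff_mul_eq_one, ← pow_add, show n + 28 * n = 29 * n by ring, pow_mul,
          ← hord, pow_orderOf_eq_one, one_pow]
      rw [mul_inv_rev, e]
      exact ((show Commute u⁻¹ C from hcomm u⁻¹).pow_right _).symm
  have hfree' : ∀ h ∈ H, ∀ v : Fin 2 → ZMod 59, v ≠ 0 →
      Matrix.mulVec (h : Matrix (Fin 2) (Fin 2) (ZMod 59)) v = v → h = 1 := by
    intro h hh v hv hfix
    obtain ⟨u, hu, n, rfl⟩ := hprod h hh
    rw [Units.val_mul, hCpow, mul_smul_comm, mul_one, Matrix.smul_mulVec] at hfix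
    set c : ZMod 59 := 4 ^ n with hcdef
    have hiter : ∀ k : ℕ, c ^ k • Matrix.mulVec ((u ^ k : Matrix.GeneralLinearGroup (Fin 2) (ZMod 59)) :
        Matrix (Fin 2) (Fin 2) (ZMod 59)) v = v := by
      intro k
      induction k with
      | zero => simp
      | succ k ih =>
        rw [pow_succ u, Units.val_mul, ← Matrix.mulVec_mulVec, pow_succ c, mul_smul,
          ← Matrix.mulVec_smul, hfix, ih]
    have hu120 : u ^ 120 = 1 := by
      have := Subgroup.pow_mem U hu 1
      rw [← hc]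
      exact congrArg Subtype.val (pow_card_eq_one' (x := (⟨u, hu⟩ : U)))
    have h120' := hiter 120
    rw [hu120] at h120'
    simp only [Units.val_one, Matrix.one_mulVec] at h120'
    have hc120 : c ^ 120 = 1 := by
      have : (c ^ 120 - 1) • v = 0 := by rw [sub_smul, one_smul, h120', sub_self]
      rcases smul_eq_zero.mp this with e | e
      · exact sub_eq_zero.mp e
      · exact absurd e hv
    have hc29 : c ^ 29 = 1 := by
      rw [hcdef, ← pow_mul, mul_comm, pow_mul, four_pow_29, one_pow]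
    have hc1 : c = 1 := by
      have e : c ^ (29 * 29) = c ^ (120 * 7) * c := by rw [← pow_succ]
      rw [pow_mul, hc29, one_pow, pow_mul, hc120, one_pow, one_mul] at e
      exact e.symm
    rw [hc1, one_smul] at hfix
    have hCn : C ^ n = 1 := Units.ext (by rw [hCpow, ← hcdef, hc1, one_smul]; rfl)
    rw [hfree u hu v hv hfix, hCn, one_mul]
  have hge : 3480 ∣ Nat.card H := by
    have h1 : 120 ∣ Nat.card H := hc ▸ Subgroup.card_dvd_of_le (Subgroup.closure_mono (by
      intro x hx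
      rcases hx with rfl | rfl <;> simp))
    have h2 : 29 ∣ Nat.card H := by
      have := Subgroup.orderOf_dvd_natCard H (Subgroup.subset_closure
        (show C ∈ ({A, B, C} : Set (Matrix.GeneralLinearGroup (Fin 2) (ZMod 59))) by simp))
      rwa [hord] at this
    exact Nat.Coprime.mul_dvd_of_dvd_of_dvd (by norm_num : Nat.Coprime 120 29) h1 h2
  obtain ⟨h1, h2⟩ := regular_of_free H (by
    have := Nat.le_of_dvd Nat.card_pos hge
    norm_num
    omega) hfree'
  exact ⟨by rw [h1]; norm_num, h2⟩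

end CfsgLib.Perm
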