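import Cfsg.Agent.Lib.PermFpfIcosa
import Cfsg.Agent.Lib.TransferQuatSection
import Mathlib.GroupTheory.SpecificGroups.Alternating
import Mathlib.GroupTheory.SpecificGroups.Dihedral
import Mathlib.GroupTheory.SpecificGroups.Quaternion

/-!
# Five blocks in `SL(2, 5)` and four blocks in the quaternion group of order eight
-/

set_option autoImplicit false
set_option maxRecDepth 20000

namespace CfsgLib.FpfQuat

open Icosa

/-- Two elements of order four in a common quaternion subgroup. -/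
def sameBlock (x y : S5) : Prop :=
  y ^ 4 = 1 ∧ y ^ 2 ≠ 1 ∧ (x * y = y * x ∨ x * y * x = y)

instance (x y : S5) : Decidable (sameBlock x y) := by unfold sameBlock; infer_instance

/-- The block of an element. -/
def block (x : S5) : Finset S5 := Finset.univ.filter fun y => sameBlock x y

/-- The five blocks. -/
def blocks : Finset (Finset S5) :=
  (Finset.univ.filter fun x : S5 => x ^ 4 = 1 ∧ x ^ 2 ≠ 1).image block

theorem card_blocks : blocks.card = 5 := by decide +kernel

/-- Representatives of the five blocks. -/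
def rep (a b : S5) (i : Fin 5) : S5 := (a * b) ^ (i : ℕ) * ((a * b) ^ 2 * a) * ((a * b) ^ (i : ℕ))⁻¹

theorem rep_mem : ∀ i : Fin 5, rep genG genY i ^ 4 = 1 ∧ rep genG genY i ^ 2 ≠ 1 := by decide +kernel

theorem rep_central : ∀ x : S5, (∀ i : Fin 5, sameBlock (rep genG genY i) (x * rep genG genY i * x⁻¹)) →
    x * genG = genG * x ∧ x * genY = genY * x := by
  decide +kernel

/-- The four diagonals of the quaternion group. -/
def diag (x y : QuaternionGroup 2) : Finset (Finset (QuaternionGroup 2)) :=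
  {{x, y, x * y}, {x⁻¹, y⁻¹, (x * y)⁻¹}}

/-- The set of diagonals. -/
def diags : Finset (Finset (Finset (QuaternionGroup 2))) :=
  (Finset.univ.filter fun q : QuaternionGroup 2 × QuaternionGroup 2 =>
    q.1 * q.1 ≠ 1 ∧ q.2 * q.2 ≠ 1 ∧ q.1 ≠ q.2 ∧ q.1 ≠ q.2⁻¹).image fun q => diag q.1 q.2

theorem card_diags : diags.card = 4 := by decide +kernel

theorem diag_faithful : ∀ u v : QuaternionGroup 2, u * u ≠ 1 → v * v ≠ 1 → v ≠ u → v ≠ u⁻¹ →
    diag u v = diag (.a 1) (.xa 0) → diag u⁻¹ v = diag (.a 1)⁻¹ (.xa 0) →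
    diag u v⁻¹ = diag (.a 1) (.xa 0)⁻¹ → diag u⁻¹ v⁻¹ = diag (.a 1)⁻¹ (.xa 0)⁻¹ →
    u = .a 1 ∧ v = .xa 0 := by decide +kernel

theorem quat_center : (Finset.univ.filter fun x : QuaternionGroup 2 =>
    x * .a 1 = .a 1 * x ∧ x * .xa 0 = .xa 0 * x).card = 2 := by decide +kernel

theorem quat_square_central : ∀ x y : QuaternionGroup 2, x * x * y = y * (x * x) := by decide +kernel

/-- Two commuting involutions among the products of conjugates. -/
def FourInNormal (W : Type) [Group W] : Prop :=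
  ∀ x : W, x ≠ 1 → ∃ u : W, x * (u * x⁻¹ * u⁻¹) ≠ 1 ∧ (x * (u * x⁻¹ * u⁻¹)) ^ 2 = 1 ∧
    ∃ v : W, v * (x * (u * x⁻¹ * u⁻¹)) * v⁻¹ ≠ x * (u * x⁻¹ * u⁻¹) ∧
      Commute (v * (x * (u * x⁻¹ * u⁻¹)) * v⁻¹) (x * (u * x⁻¹ * u⁻¹))

theorem four_A4 : FourInNormal (alternatingGroup (Fin 4)) := by
  unfold FourInNormal Commute SemiconjBy; decide +kernel

theorem four_S4 : FourInNormal (Equiv.Perm (Fin 4)) := by
  unfold FourInNormal Commute SemiconjBy; decide +kernel

theorem four_S5 : FourInNormal (Equiv.Perm (Fin 5)) := by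
  unfold FourInNormal Commute SemiconjBy; decide +kernel

end CfsgLib.FpfQuat
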