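import Cfsg.Agent.Lib.PermFpfStructure
import Cfsg.Agent.Lib.PermFpfBlocks
import Cfsg.Agent.Lib.CoreLayer
import Cfsg.Agent.Lib.CoreBasic
import Mathlib.GroupTheory.SpecificGroups.KleinFour

/-!
# The quotient of a fixed-point-free group by its largest normal Z-subgroup
-/

set_option autoImplicit false
set_option linter.unusedSectionVars false
set_option linter.style.haveILetI false

namespace CfsgLib.FpfQuat

universe u v w

open Icosa

/-- The possible quotients. -/
def GoodQuot {G : Type u} [Group G] (N : Subgroup G) : Prop :=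
  N = ⊤ ∨
    (∃ f : G →* DihedralGroup 2, Function.Surjective f ∧ f.ker = N) ∨
    (∃ f : G →* alternatingGroup (Fin 4), Function.Surjective f ∧ f.ker = N) ∨
    (∃ f : G →* Equiv.Perm (Fin 4), Function.Surjective f ∧ f.ker = N) ∨
    (∃ f : G →* alternatingGroup (Fin 5), Function.Surjective f ∧ f.ker = N) ∨
    (∃ f : G →* Equiv.Perm (Fin 5), Function.Surjective f ∧ f.ker = N)

section Finite

/-- A homomorphism into the permutations of a finite set of invariant objects. -/
def setPerm {M : Type u} [Group M] {T : Type v} [DecidableEq T] (B : Finset T) (f : M → T → T)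
    (h1 : ∀ t, f 1 t = t) (hm : ∀ a b t, f (a * b) t = f a (f b t)) (hB : ∀ a, ∀ t ∈ B, f a t ∈ B) :
    M →* Equiv.Perm B where
  toFun a :=
    { toFun := fun t => ⟨f a t, hB a t t.2⟩
      invFun := fun t => ⟨f a⁻¹ t, hB a⁻¹ t t.2⟩
      left_inv := fun t => Subtype.ext (by
        show f a⁻¹ (f a t) = t
        rw [← hm, inv_mul_cancel, h1])
      right_inv := fun t => Subtype.ext (by
        show f a (f a⁻¹ t) = t
        rw [← hm, mul_inv_cancel, h1]) }
  map_one' := Equiv.ext fun t => Subtype.ext (h1 t)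
  map_mul' a b := Equiv.ext fun t => Subtype.ext (hm a b t)

theorem sameBlock_aut (σ : MulAut S5) {x y : S5} : sameBlock (σ x) (σ y) ↔ sameBlock x y := by
  simp only [sameBlock, ← map_pow, ← map_mul, ne_eq, map_eq_one_iff _ σ.injective, σ.injective.eq_iff]

theorem block_aut (σ : MulAut S5) (x : S5) : (block x).image σ = block (σ x) := by
  ext y
  simp only [block, Finset.mem_image, Finset.mem_filter, Finset.mem_univ, true_and]
  constructor
  · rintro ⟨w, hw, rfl⟩
    exact (sameBlock_aut σ).mpr hw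
  · intro h
    refine ⟨σ.symm y, ?_, σ.apply_symm_apply y⟩
    rw [← sameBlock_aut σ, σ.apply_symm_apply]
    exact h

/-- The action on the five blocks. -/
def blockHom : MulAut S5 →* Equiv.Perm blocks :=
  setPerm blocks (fun σ s => s.image σ)
    (fun t => by simp)
    (fun a b t => by rw [Finset.image_image]; rfl)
    (fun σ t ht => by
      obtain ⟨x, hx, rfl⟩ := Finset.mem_image.mp ht
      rw [block_aut]
      refine Finset.mem_image.mpr ⟨σ x, Finset.mem_filter.mpr ⟨Finset.mem_univ _, ?_⟩, rfl⟩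
      obtain ⟨h1, h2⟩ := (Finset.mem_filter.mp hx).2
      simpa only [← map_pow, ne_eq, map_eq_one_iff _ σ.injective] using And.intro h1 h2)

theorem blockHom_ker_conj {s : S5} (h : blockHom (MulAut.conj s) = 1) : s ∈ Subgroup.center S5 := by
  have h1 : ∀ i : Fin 5, sameBlock (rep genG genY i) (s * rep genG genY i * s⁻¹) := by
    intro i
    obtain ⟨h4, h2⟩ := rep_mem i
    have hmem : block (rep genG genY i) ∈ blocks :=
      Finset.mem_image.mpr ⟨_, Finset.mem_filter.mpr ⟨Finset.mem_univ _, h4, h2⟩, rfl⟩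
    have e : (block (rep genG genY i)).image (MulAut.conj s) = block (rep genG genY i) :=
      congrArg Subtype.val (Equiv.Perm.ext_iff.mp h ⟨_, hmem⟩)
    have hin : MulAut.conj s (rep genG genY i) ∈ (block (rep genG genY i)).image (MulAut.conj s) :=
      Finset.mem_image_of_mem _ (Finset.mem_filter.mpr ⟨Finset.mem_univ _, h4, h2, Or.inl rfl⟩)
    rw [e] at hin
    exact (Finset.mem_filter.mp hin).2
  obtain ⟨hg, hy⟩ := rep_central s h1
  rw [Subgroup.mem_center_iff]
  intro w
  have hle : Subgroup.closure ({genG, genY} : Set S5) ≤ Subgroup.centralizer {s} := by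
    rw [Subgroup.closure_le]
    rintro a (rfl | rfl) <;> rw [SetLike.mem_coe, Subgroup.mem_centralizer_singleton_iff]
    · exact hg.symm
    · exact hy.symm
  rw [closure_gens] at hle
  exact Subgroup.mem_centralizer_singleton_iff.mp (hle (Subgroup.mem_top w))

theorem center_sq {s : S5} (h : s ∈ Subgroup.center S5) : s ^ 2 = 1 := by
  have h2 : orderOf (⟨s, h⟩ : Subgroup.center S5) ∣ 2 := by
    have hd := orderOf_dvd_natCard (⟨s, h⟩ : Subgroup.center S5)
    have hle := card_center_le
    have hpos : 0 < Nat.card (Subgroup.center S5) := Nat.card_pos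
    rcases (by omega : Nat.card (Subgroup.center S5) = 1 ∨ Nat.card (Subgroup.center S5) = 2) with e | e <;>
      rw [e] at hd
    · exact hd.trans (one_dvd 2)
    · exact hd
  exact congrArg Subtype.val (orderOf_dvd_iff_pow_eq_one.mp h2)

/-- The action on the blocks is faithful. -/
theorem blockHom_injective : Function.Injective blockHom := by
  rw [injective_iff_map_eq_one]
  intro σ hσ
  have hc : ∀ s : S5, σ s * s⁻¹ ∈ Subgroup.center S5 := by
    intro s
    refine blockHom_ker_conj ?_
    have e : MulAut.conj (σ s) = σ * MulAut.conj s * σ⁻¹ := MulEquiv.ext fun w => by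
      simp only [MulAut.mul_apply, MulAut.conj_apply, map_mul, map_inv]
      rw [MulAut.apply_inv_self]
    rw [map_mul, map_inv, map_mul, e, map_mul, map_mul, hσ, map_inv, hσ, one_mul, inv_one, mul_one,
      map_inv, mul_inv_cancel]
  have h3 : ∀ g : S5, g ^ 3 = 1 → σ g = g := by
    intro g hg
    have h1 : (σ g * g⁻¹) ^ 2 = 1 := center_sq (hc g)
    have hcomm : Commute (σ g) g⁻¹ := by
      have h := Subgroup.mem_center_iff.mp (hc g) g
      show σ g * g⁻¹ = g⁻¹ * σ g
      calc σ g * g⁻¹ = g⁻¹ * (g * (σ g * g⁻¹)) := by group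
        _ = g⁻¹ * (σ g * g⁻¹ * g) := by rw [h]
        _ = g⁻¹ * σ g := by group
    have h2 : (σ g * g⁻¹) ^ 3 = 1 := by
      rw [hcomm.mul_pow, inv_pow, hg, ← map_pow, hg, map_one, one_mul, inv_one]
    rw [pow_succ, h1, one_mul] at h2
    exact mul_inv_eq_one.mp h2
  have he : σ.toMonoidHom = MonoidHom.id S5 := by
    refine MonoidHom.eq_of_eqOn_dense closure_gens ?_
    rintro x (rfl | rfl)
    · exact h3 _ gens_mem.1.1
    · exact h3 _ gens_mem.2.1.1
  exact MulEquiv.ext fun x => DFunLike.congr_fun he x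

/-- Automorphisms act on the diagonals. -/
def diagHom : MulAut (QuaternionGroup 2) →* Equiv.Perm diags :=
  setPerm diags (fun σ d => d.image fun s => s.image σ)
    (fun t => by simp)
    (fun a b t => by rw [Finset.image_image]; refine Finset.image_congr fun s _ => ?_
                     show _ = Finset.image _ (Finset.image _ s)
                     rw [Finset.image_image]; rfl)
    (fun σ t ht => by
      obtain ⟨⟨x, y⟩, hxy, rfl⟩ := Finset.mem_image.mp ht
      obtain ⟨h1, h2, h3, h4⟩ := (Finset.mem_filter.mp hxy).2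
      refine Finset.mem_image.mpr ⟨(σ x, σ y), Finset.mem_filter.mpr ⟨Finset.mem_univ _, ?_⟩, ?_⟩
      · simp only [ne_eq, ← map_mul, ← map_inv, map_eq_one_iff _ σ.injective, σ.injective.eq_iff]
        exact ⟨h1, h2, h3, h4⟩
      · simp [diag, Finset.image_insert, map_mul])

theorem diagHom_injective : Function.Injective diagHom := by
  rw [injective_iff_map_eq_one]
  intro σ hσ
  have hA : ∀ x y : QuaternionGroup 2, x * x ≠ 1 → y * y ≠ 1 → x ≠ y → x ≠ y⁻¹ →
      diag (σ x) (σ y) = diag x y := by
    intro x y h1 h2 h3 h4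
    have hmem : diag x y ∈ diags :=
      Finset.mem_image.mpr ⟨(x, y), Finset.mem_filter.mpr ⟨Finset.mem_univ _, h1, h2, h3, h4⟩, rfl⟩
    have e : (diag x y).image (fun s => s.image σ) = diag x y :=
      congrArg Subtype.val (Equiv.Perm.ext_iff.mp hσ ⟨_, hmem⟩)
    conv_rhs => rw [← e]
    simp [diag, Finset.image_insert, map_mul]
  have hu : ∀ x : QuaternionGroup 2, x * x ≠ 1 → σ x * σ x ≠ 1 := fun x hx => by
    rw [← map_mul, ne_eq, map_eq_one_iff _ σ.injective]; exact hx
  obtain ⟨ha, hb⟩ := diag_faithful (σ (.a 1)) (σ (.xa 0)) (hu _ (by decide)) (hu _ (by decide))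
    (fun e => absurd (σ.injective e) (by decide))
    (fun e => absurd (σ.injective (e.trans (map_inv σ _).symm)) (by decide))
    (hA _ _ (by decide) (by decide) (by decide) (by decide))
    (by rw [← map_inv]; exact hA _ _ (by decide) (by decide) (by decide) (by decide))
    (by rw [← map_inv]; exact hA _ _ (by decide) (by decide) (by decide) (by decide))
    (by rw [← map_inv, ← map_inv]; exact hA _ _ (by decide) (by decide) (by decide) (by decide))
  exact MulEquiv.ext fun x => DFunLike.congr_fun
    (CfsgLib.TwoFusion.quat_generated σ.toMonoidHom (MonoidHom.id _) ha hb) x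

/-- The four-group quotient of a generalized quaternion group. -/
def quatDihedral (k : ℕ) (hk : (2 : ℕ) ∣ k) : QuaternionGroup k →* DihedralGroup 2 where
  toFun
    | .a i => .r (ZMod.castHom (hk.mul_left 2) (ZMod 2) i)
    | .xa i => .sr (ZMod.castHom (hk.mul_left 2) (ZMod 2) i)
  map_one' := by
    show DihedralGroup.r (ZMod.castHom (hk.mul_left 2) (ZMod 2) 0) = DihedralGroup.r 0
    rw [map_zero]
  map_mul' := by
    have hk0 : ((k : ℕ) : ZMod 2) = 0 := (ZMod.natCast_eq_zero_iff k 2).mpr hk
    rintro (i | i) (j | j)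
    · simp [DihedralGroup.r_mul_r]
    · simp [DihedralGroup.r_mul_sr]
    · simp [DihedralGroup.sr_mul_r]
    · simp [DihedralGroup.sr_mul_sr, hk0]

theorem quatDihedral_surjective (k : ℕ) (hk : (2 : ℕ) ∣ k) : Function.Surjective (quatDihedral k hk) := by
  rintro (i | i) <;> obtain ⟨j, rfl⟩ := ZMod.castHom_surjective (hk.mul_left 2) i
  · exact ⟨.a j, rfl⟩
  · exact ⟨.xa j, rfl⟩

theorem isCyclic_quatDihedral_ker (k : ℕ) [NeZero k] (hk : (2 : ℕ) ∣ k) :
    IsCyclic (quatDihedral k hk).ker := by
  refine Subgroup.isCyclic_of_le (H' := Subgroup.zpowers (QuaternionGroup.a 1 : QuaternionGroup k)) ?_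
  rintro (i | i) h
  · exact Subgroup.mem_zpowers_iff.mpr ⟨i.val, by rw [zpow_natCast, QuaternionGroup.a_one_pow, ZMod.natCast_zmod_val]⟩
  · exact absurd (MonoidHom.mem_ker.mp h) (by intro e; change DihedralGroup.sr _ = DihedralGroup.r 0 at e; cases e)

theorem klein_of_card_four {W : Type u} [Group W] (hc : Nat.card W = 4) (hsq : ∀ x : W, x ^ 2 = 1) :
    Nonempty (W ≃* DihedralGroup 2) := by
  haveI : Finite W := Nat.finite_of_card_ne_zero (by omega)
  haveI : Nontrivial W := Finite.one_lt_card_iff_nontrivial.mp (by omega)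
  haveI : Fact (Nat.Prime 2) := ⟨Nat.prime_two⟩
  haveI : IsKleinFour W := ⟨hc, (Monoid.exponent_eq_prime_iff Nat.prime_two).mpr fun x hx => orderOf_eq_prime (hsq x) hx⟩
  obtain ⟨e₀⟩ : Nonempty (W ≃ DihedralGroup 2) :=
    Finite.card_eq.mp (hc.trans IsKleinFour.card_four.symm)
  exact ⟨IsKleinFour.mulEquiv (e₀.trans (Equiv.swap (e₀ 1) 1)) (by simp)⟩

end Finite

section Uniqueness

variable {G : Type u} [Group G] [Finite G]

theorem no_four_of_zgroup {W : Type v} [Group W] [Finite W] [IsZGroup W] {a b : W} (ha : a ≠ 1)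
    (ha2 : a ^ 2 = 1) (hb : b ≠ 1) (hb2 : b ^ 2 = 1) (hab : Commute a b) : a = b := by
  classical
  haveI : Fact (Nat.Prime 2) := ⟨Nat.prime_two⟩
  haveI := Fintype.ofFinite W
  let V : Subgroup W := Subgroup.closure ({a, b} : Set W)
  have hcomm : ∀ x ∈ V, ∀ y ∈ V, x * y = y * x := by
    haveI : IsMulCommutative (Subgroup.closure ({a, b} : Set W)) :=
      Subgroup.isMulCommutative_closure (by
        rintro x (rfl | rfl) y (rfl | rfl) <;> first | rfl | exact hab.eq | exact hab.eq.symm)
    intro x hx y hy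
    exact congrArg Subtype.val (mul_comm' (⟨x, hx⟩ : Subgroup.closure ({a, b} : Set W)) ⟨y, hy⟩)
  have hexp : ∀ x ∈ V, x ^ 2 = 1 := by
    intro x hx
    induction hx using Subgroup.closure_induction with
    | mem x h => rcases h with rfl | rfl <;> assumption
    | one => exact one_pow 2
    | mul x y hx1 hy1 ihx ihy => rw [Commute.mul_pow (hcomm x hx1 y hy1), ihx, ihy, one_mul]
    | inv x hx1 ihx => rw [inv_pow, ihx, inv_one]
  have hV : IsPGroup 2 V := fun x => ⟨1, Subtype.ext (by
    show (x : W) ^ 2 ^ 1 = 1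
    rw [pow_one]
    exact hexp x x.2)⟩
  haveI := hV.isCyclic_of_isZGroup
  obtain ⟨g, hg⟩ := IsCyclic.exists_generator (α := V)
  have ho : orderOf g ∣ 2 := orderOf_dvd_of_pow_eq_one (Subtype.ext (hexp g g.2))
  have hval : ∀ x : V, x ≠ 1 → x = g := by
    intro x hx
    obtain ⟨n, hn⟩ := mem_powers_iff_mem_zpowers.mpr (hg x)
    simp only [← pow_mod_orderOf g n] at hn
    have h2 := Nat.le_of_dvd (by norm_num) ho
    have h3 : n % orderOf g < orderOf g := Nat.mod_lt _ (orderOf_pos g)
    rcases (by omega : n % orderOf g = 0 ∨ n % orderOf g = 1) with e | e <;> rw [e] at hn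
    · exact absurd (by rw [← hn, pow_zero]) hx
    · rw [← hn, pow_one]
  have h1 := hval ⟨a, Subgroup.subset_closure (Or.inl rfl)⟩ (fun e => ha (congrArg Subtype.val e))
  have h2 := hval ⟨b, Subgroup.subset_closure (Or.inr rfl)⟩ (fun e => hb (congrArg Subtype.val e))
  exact congrArg Subtype.val (h1.trans h2.symm)

theorem bot_of_fourInNormal {W : Type} [Group W] [Finite W] (h4 : FourInNormal W) {K : Subgroup W}
    (hK : K.Normal) (hZ : IsZGroup K) : K = ⊥ := by
  by_contra hne
  obtain ⟨x, hx, hx1⟩ := (Subgroup.bot_or_exists_ne_one K).resolve_left hne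
  obtain ⟨u, ha1, ha2, v, hne', hcomm⟩ := h4 x hx1
  set a := x * (u * x⁻¹ * u⁻¹)
  have haK : a ∈ K := K.mul_mem hx (hK.conj_mem _ (K.inv_mem hx) u)
  have hbK : v * a * v⁻¹ ∈ K := hK.conj_mem _ haK v
  have e := no_four_of_zgroup (W := K) (a := ⟨v * a * v⁻¹, hbK⟩) (b := ⟨a, haK⟩)
    (fun e => ha1 (conj_eq_one_iff.mp (congrArg Subtype.val e)))
    (Subtype.ext (by show (v * a * v⁻¹) ^ 2 = 1; rw [conj_pow, ha2]; group))
    (fun e => ha1 (congrArg Subtype.val e)) (Subtype.ext ha2) (Subtype.ext hcomm.eq)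
  exact hne' (congrArg Subtype.val e)

theorem isZGroup_map {N : Subgroup G} (hN : IsZGroup N) {W : Type v} [Group W] [Finite W] (f : G →* W) :
    IsZGroup (N.map f) := by
  haveI := hN
  exact IsZGroup.of_surjective (f := f.subgroupMap N) (f.subgroupMap_surjective N)

theorem not_isZGroup_A5 : ¬ IsZGroup (alternatingGroup (Fin 5)) := fun h => by
  haveI := h
  let a : alternatingGroup (Fin 5) := ⟨Equiv.swap 0 1 * Equiv.swap 2 3, Equiv.Perm.mem_alternatingGroup.mpr (by decide +kernel)⟩
  let b : alternatingGroup (Fin 5) := ⟨Equiv.swap 0 2 * Equiv.swap 1 3, Equiv.Perm.mem_alternatingGroup.mpr (by decide +kernel)⟩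
  exact absurd (no_four_of_zgroup (a := a) (b := b) (by decide +kernel) (by decide +kernel)
    (by decide +kernel) (by decide +kernel) (show a * b = b * a by decide +kernel)) (by decide +kernel)

/-- A normal Z-subgroup of one of the four large quotients is trivial. -/
theorem bot_of_large {W : Type} [Group W] [Finite W]
    (hW : FourInNormal W ∨ (IsSimpleGroup W ∧ ¬ IsZGroup W)) {K : Subgroup W} (hK : K.Normal)
    (hZ : IsZGroup K) : K = ⊥ := by
  rcases hW with h | ⟨hs, hn⟩
  · exact bot_of_fourInNormal h hK hZ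
  · rcases hK.eq_bot_or_eq_top with h | h
    · exact h
    · subst h
      haveI := hZ
      exact absurd (IsZGroup.of_injective (f := (Subgroup.topEquiv (G := W)).symm.toMonoidHom)
        (Subgroup.topEquiv (G := W)).symm.injective) hn

end Uniqueness

end CfsgLib.FpfQuat
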