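import Cfsg.Agent.Lib.PermFpfComplement

/-!
# Existence and uniqueness of the normal Z-subgroup with a small quotient
-/

set_option autoImplicit false
set_option linter.unusedSectionVars false
set_option linter.style.haveILetI false

namespace CfsgLib.FpfQuat

universe u v w

variable {G : Type u} [Group G] [Finite G]

/-- From a homomorphism into permutations of four or five letters. -/
theorem good_of_perm {n : ℕ} (hn : n = 4 ∨ n = 5) {X : Type w} [Fintype X] [DecidableEq X]
    (hX : Fintype.card X = n) (ψ : G →* Equiv.Perm X) (hidx : ψ.range.index = 1 ∨ ψ.range.index = 2) :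
    GoodQuot ψ.ker := by
  classical
  obtain ⟨e⟩ : Nonempty (X ≃ Fin n) := ⟨Fintype.equivFinOfCardEq hX⟩
  let f : G →* Equiv.Perm (Fin n) := e.permCongrHom.toMonoidHom.comp ψ
  have hker : f.ker = ψ.ker := MonoidHom.ker_comp_of_injective ψ e.permCongrHom.toMonoidHom e.permCongrHom.injective
  have hfidx : f.range.index = ψ.range.index := by
    rw [MonoidHom.range_comp]
    exact Subgroup.index_map_equiv ψ.range e.permCongrHom
  haveI : Nontrivial (Fin n) := Fin.nontrivial_iff_two_le.mpr (by omega)
  rcases hidx with h | h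
  · have hs : Function.Surjective f := MonoidHom.range_eq_top.mp (Subgroup.index_eq_one.mp (hfidx.trans h))
    rcases hn with rfl | rfl
    · exact Or.inr (Or.inr (Or.inr (Or.inl ⟨f, hs, hker⟩)))
    · exact Or.inr (Or.inr (Or.inr (Or.inr (Or.inr ⟨f, hs, hker⟩))))
  · have hA : f.range = alternatingGroup (Fin n) := Equiv.Perm.eq_alternatingGroup_of_index_eq_two (hfidx.trans h)
    let f' : G →* alternatingGroup (Fin n) := f.codRestrict _ fun g => hA ▸ ⟨g, rfl⟩
    have hs : Function.Surjective f' := by
      rintro ⟨x, hx⟩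
      obtain ⟨g, hg⟩ := hA.symm.le hx
      exact ⟨g, Subtype.ext hg⟩
    have hker' : f'.ker = ψ.ker := (MonoidHom.ker_codRestrict f _ _).trans hker
    rcases hn with rfl | rfl
    · exact Or.inr (Or.inr (Or.inl ⟨f', hs, hker'⟩))
    · exact Or.inr (Or.inr (Or.inr (Or.inr (Or.inl ⟨f', hs, hker'⟩))))

variable {A : Type v} [Ring A] [Algebra ℚ A]

section Existence

open Icosa in
theorem exists_good_nonsolvable [Nontrivial A] (R : FpfRep G A) (hns : ¬ Group.IsSolvable G) :
    ∃ N : Subgroup G, N.Normal ∧ IsZGroup N ∧ GoodQuot N := by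
  classical
  obtain ⟨g, y, hg, hy, h20⟩ := R.exists_pair_of_not_solvable hns
  obtain ⟨H, hHn, ⟨e⟩, hidx, hZ, hsq, hD, hno4⟩ := icosa_structure R hg hy h20
  haveI := hHn
  let Φ : G →* MulAut S5 := (MulAut.congr e).toMonoidHom.comp (MulAut.conjNormal : G →* MulAut H)
  let ψ : G →* Equiv.Perm blocks := blockHom.comp Φ
  have hΦ : Φ.ker = Subgroup.centralizer (H : Set G) := by
    ext k
    rw [MonoidHom.mem_ker, Subgroup.mem_centralizer_iff]
    constructor
    · intro hk w hw
      have h0 : (MulAut.congr e) (MulAut.conjNormal k : MulAut H) = 1 := hk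
      rw [map_eq_one_iff _ (MulAut.congr e).injective] at h0
      have h1 := congrArg Subtype.val (DFunLike.congr_fun h0 (⟨w, hw⟩ : H))
      rw [MulAut.conjNormal_apply] at h1
      change k * w * k⁻¹ = w at h1
      exact (mul_inv_eq_iff_eq_mul.mp h1).symm
    · intro hk
      show (MulAut.congr e) (MulAut.conjNormal k : MulAut H) = 1
      rw [map_eq_one_iff _ (MulAut.congr e).injective]
      exact MulEquiv.ext fun w => Subtype.ext (by
        show k * (w : G) * k⁻¹ = w
        rw [← hk w w.2, mul_inv_cancel_right])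
  have hψ : ψ.ker = Subgroup.centralizer (H : Set G) :=
    (MonoidHom.ker_comp_of_injective Φ blockHom blockHom_injective).trans hΦ
  refine ⟨ψ.ker, inferInstance, by rw [hψ]; exact hZ, ?_⟩
  let χ : S5 →* Equiv.Perm blocks := ψ.comp (H.subtype.comp e.symm.toMonoidHom)
  have hker : χ.ker ≤ Subgroup.center S5 := by
    intro s hs
    rw [Subgroup.mem_center_iff]
    intro t
    have h1 : (e.symm s : G) ∈ ψ.ker := hs
    rw [hψ] at h1
    have h2 : ((e.symm t : H) : G) * (e.symm s : H) = (e.symm s : H) * (e.symm t : H) :=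
      Subgroup.mem_centralizer_iff.mp h1 _ (e.symm t).2
    refine e.symm.injective (Subtype.ext ?_)
    rw [map_mul, map_mul]
    exact h2
  have hrange : χ.range ≤ ψ.range := by
    rintro _ ⟨s, rfl⟩
    exact ⟨(e.symm s : G), rfl⟩
  have h1 : Nat.card χ.ker * χ.ker.index = 120 := by rw [Subgroup.card_mul_index, card_S5]
  rw [Subgroup.index_ker] at h1
  have h2 : Nat.card χ.ker ≤ 2 :=
    (Nat.card_le_card_of_injective _ (Subgroup.inclusion_injective hker)).trans card_center_le
  have h3 : Nat.card χ.range ≤ Nat.card ψ.range :=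
    Nat.card_le_card_of_injective _ (Subgroup.inclusion_injective hrange)
  have h4 : Nat.card ψ.range * ψ.range.index = 120 := by
    rw [Subgroup.card_mul_index, Nat.card_eq_fintype_card, Fintype.card_perm, Fintype.card_coe, card_blocks]
    rfl
  refine good_of_perm (Or.inr rfl) (by rw [Fintype.card_coe, card_blocks]) ψ ?_
  have h5 : 60 ≤ Nat.card ψ.range := by
    refine le_trans ?_ h3
    nlinarith
  have h6 : 0 < ψ.range.index := Nat.pos_of_ne_zero Subgroup.index_ne_zero_of_finite
  have h7 : ψ.range.index * 60 ≤ 120 := by nlinarith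
  omega

theorem center_quat_card : Nat.card (Subgroup.center (QuaternionGroup 2)) ≤ 2 := by
  classical
  refine le_trans ?_ quat_center.le
  rw [← Nat.card_eq_finsetCard]
  exact Nat.card_le_card_of_injective (fun x => ⟨(x : QuaternionGroup 2), Finset.mem_filter.mpr
    ⟨Finset.mem_univ _, ((Subgroup.mem_center_iff.mp x.2) (.a 1)).symm,
      ((Subgroup.mem_center_iff.mp x.2) (.xa 0)).symm⟩⟩)
    fun a b h => Subtype.ext (Subtype.mk.inj h :)

/-- A normal subgroup mapping into a cyclic 2-group with kernel of odd order. -/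
theorem isZGroup_of_image [Nontrivial A] (R : FpfRep G A) (N : Subgroup G) {W : Type w} [Group W]
    (μ : N →* W) (C : Subgroup W) [IsCyclic C] (hC : ∀ x, μ x ∈ C)
    (hker : ∀ x : N, μ x = 1 → ¬ 2 ∣ orderOf x) : IsZGroup N := by
  haveI : Fact (Nat.Prime 2) := ⟨Nat.prime_two⟩
  refine (R.restrict N).isZGroup_of_two fun P => ?_
  refine isCyclic_of_injective ((μ.codRestrict C hC).comp (P : Subgroup N).subtype) ?_
  rw [injective_iff_map_eq_one]
  intro x hx
  have h1 : μ (x : N) = 1 := congrArg Subtype.val hx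
  have h2 := hker _ h1
  obtain ⟨k, hk⟩ := IsPGroup.iff_orderOf.mp P.2 x
  rw [← Subgroup.orderOf_coe] at hk
  rw [hk] at h2
  rcases Nat.eq_zero_or_pos k with e | e
  · subst e
    exact orderOf_eq_one_iff.mp (by rw [← Subgroup.orderOf_coe, hk, pow_zero])
  · exact absurd (dvd_pow_self 2 e.ne') h2

/-- An odd element normalising a large quaternion or cyclic 2-group centralises it. -/
theorem odd_centralizes_cyclic {D : Type u} [Group D] [Finite D] [IsCyclic D] (hD : IsPGroup 2 D)
    (σ : MulAut D) (hodd : Odd (orderOf σ)) : σ = 1 := by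
  haveI : Fact (Nat.Prime 2) := ⟨Nat.prime_two⟩
  obtain ⟨k, hk⟩ := IsPGroup.iff_card.mp hD
  have hd : orderOf σ ∣ Nat.card (MulAut D) := orderOf_dvd_natCard σ
  rw [IsCyclic.card_mulAut, hk] at hd
  rcases Nat.eq_zero_or_pos k with e | e
  · subst e
    rw [pow_zero, Nat.totient_one, Nat.dvd_one] at hd
    exact orderOf_eq_one_iff.mp hd
  · rw [Nat.totient_prime_pow Nat.prime_two e, show 2 - 1 = 1 from rfl, mul_one] at hd
    obtain ⟨j, -, hj⟩ := (Nat.dvd_prime_pow Nat.prime_two).mp hd
    rw [hj] at hodd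
    rcases Nat.eq_zero_or_pos j with e' | e'
    · exact orderOf_eq_one_iff.mp (by rw [hj, e', pow_zero])
    · exact absurd hodd (Nat.not_odd_iff_even.mpr ((Nat.even_pow' e'.ne').mpr even_two))

theorem odd_centralizes_quat {n : ℕ} (hn : 2 ≤ n) (σ : MulAut (QuaternionGroup (2 ^ n)))
    (hodd : Odd (orderOf σ)) : σ = 1 := by
  classical
  haveI : Fact (Nat.Prime 2) := ⟨Nat.prime_two⟩
  haveI : NeZero (2 ^ n) := ⟨pow_ne_zero _ two_ne_zero⟩
  have h8 : 8 ≤ 2 * 2 ^ n := by
    have : 2 ^ 2 ≤ 2 ^ n := Nat.pow_le_pow_right two_pos hn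
    omega
  set T : Subgroup (QuaternionGroup (2 ^ n)) := Subgroup.zpowers (QuaternionGroup.a 1) with hT
  have hTa : ∀ i, (QuaternionGroup.a i : QuaternionGroup (2 ^ n)) ∈ T := fun i =>
    Subgroup.mem_zpowers_iff.mpr ⟨i.val, by rw [zpow_natCast, QuaternionGroup.a_one_pow, ZMod.natCast_zmod_val]⟩
  have hTchar : ∀ τ : MulAut (QuaternionGroup (2 ^ n)), ∀ x ∈ T, τ x ∈ T := by
    intro τ x hx
    obtain ⟨k, rfl⟩ := Subgroup.mem_zpowers_iff.mp hx
    rw [map_zpow]
    refine T.zpow_mem ?_ k
    rcases hq : τ (QuaternionGroup.a 1) with i | i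
    · exact hTa i
    · exfalso
      have h1 := MulEquiv.orderOf_eq τ (QuaternionGroup.a 1)
      rw [hq, QuaternionGroup.orderOf_xa, QuaternionGroup.orderOf_a_one] at h1
      omega
  let ρ : MulAut (QuaternionGroup (2 ^ n)) →* MulAut T :=
    { toFun := fun τ =>
        { toFun := fun x => ⟨τ x, hTchar τ x x.2⟩
          invFun := fun x => ⟨τ⁻¹ x, hTchar τ⁻¹ x x.2⟩
          left_inv := fun x => Subtype.ext (MulAut.inv_apply_self _ τ _)
          right_inv := fun x => Subtype.ext (MulAut.apply_inv_self _ τ _)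
          map_mul' := fun x y => Subtype.ext (map_mul τ _ _) }
      map_one' := rfl
      map_mul' := fun a b => rfl }
  have hTp : IsPGroup 2 T := by
    refine IsPGroup.of_card (n := n + 1) ?_
    rw [Nat.card_zpowers, QuaternionGroup.orderOf_a_one, pow_succ']
  have hρ : ρ σ = 1 := odd_centralizes_cyclic hTp (ρ σ)
    (hodd.of_dvd_nat (orderOf_map_dvd ρ σ))
  have hfix : ∀ i, σ (QuaternionGroup.a i) = QuaternionGroup.a i := fun i =>
    congrArg Subtype.val (DFunLike.congr_fun hρ ⟨_, hTa i⟩)
  have hxa : ∀ j : ZMod (2 * 2 ^ n),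
      (QuaternionGroup.xa j : QuaternionGroup (2 ^ n)) = .xa 0 * .a j := fun j => by
    rw [QuaternionGroup.xa_mul_a, zero_add]
  obtain ⟨i, hi⟩ : ∃ i, σ (QuaternionGroup.xa 0) = QuaternionGroup.xa i := by
    rcases hq : σ (QuaternionGroup.xa 0) with i | i
    · exact absurd (σ.injective (hq.trans (hfix i).symm)) (fun e => by cases e)
    · exact ⟨i, rfl⟩
  have hit : ∀ k : ℕ, (σ ^ k) (QuaternionGroup.xa 0) = QuaternionGroup.xa (k • i) := by
    intro k
    induction k with
    | zero => rw [pow_zero, zero_smul]; rfl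
    | succ k ih =>
      rw [pow_succ', MulAut.mul_apply, ih, hxa, map_mul, hi, hfix, QuaternionGroup.xa_mul_a, succ_nsmul']
  have h0 := hit (orderOf σ)
  rw [pow_orderOf_eq_one] at h0
  have h1 : orderOf σ • i = 0 := (QuaternionGroup.xa.inj h0).symm
  rw [nsmul_eq_mul] at h1
  have hu : IsUnit ((orderOf σ : ℕ) : ZMod (2 * 2 ^ n)) := by
    rw [ZMod.isUnit_iff_coprime, ← pow_succ']
    exact Nat.Coprime.pow_right _ (Nat.coprime_two_right.mpr hodd)
  have hi0 : i = 0 := hu.mul_right_eq_zero.mp h1
  refine MulEquiv.ext fun x => ?_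
  rcases x with j | j
  · exact hfix j
  · rw [hxa, map_mul, hi, hi0, hfix]; rfl

theorem exists_good_solvable [Nontrivial A] (R : FpfRep G A) [Group.IsSolvable G] {P : Sylow 2 G}
    (hPc : ¬ IsCyclic (P : Subgroup G)) :
    ∃ N : Subgroup G, N.Normal ∧ IsZGroup N ∧ GoodQuot N := by
  classical
  haveI : Fact (Nat.Prime 2) := ⟨Nat.prime_two⟩
  obtain ⟨-, n, ⟨eP⟩⟩ := (R.cyclic_or_quaternion P.2).resolve_left hPc
  haveI : NeZero (2 ^ n) := ⟨pow_ne_zero _ two_ne_zero⟩
  have hn1 : 1 ≤ n := by
    by_contra hn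
    obtain rfl : n = 0 := by omega
    haveI : IsCyclic (QuaternionGroup (2 ^ 0)) := isCyclic_of_orderOf_eq_card (QuaternionGroup.xa 0)
      (by rw [QuaternionGroup.orderOf_xa, Nat.card_eq_fintype_card, QuaternionGroup.card]; rfl)
    exact hPc (isCyclic_of_injective eP.toMonoidHom eP.injective)
  set O := Cfsg.pPrimeCore 2 G with hO
  haveI : O.Normal := CfsgLib.Core.normal_pPrimeCore 2
  set π := QuotientGroup.mk' O with hπ
  have hO2 : ¬ 2 ∣ Nat.card O := fun h => by
    have := CfsgLib.Core.coprime_card_pPrimeCore (G := G) 2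
    exact Nat.Prime.not_coprime_iff_dvd.mpr ⟨2, Nat.prime_two, h, dvd_rfl⟩ this
  have hπinj : ∀ (k : ℕ) (x : G), π x = 1 → orderOf x = 2 ^ k → x = 1 := by
    intro k x hx hk
    rcases Nat.eq_zero_or_pos k with e | e
    · exact orderOf_eq_one_iff.mp (by rw [hk, e, pow_zero])
    · exfalso
      refine hO2 (dvd_trans ?_ (Subgroup.orderOf_dvd_natCard O ((QuotientGroup.eq_one_iff x).mp hx)))
      rw [hk]
      exact dvd_pow_self 2 e.ne'
  have hoddker : ∀ (N : Subgroup G) (x : N), π (x : G) = 1 → ¬ 2 ∣ orderOf x := fun N x hx h =>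
    hO2 ((Subgroup.orderOf_coe x ▸ h).trans (Subgroup.orderOf_dvd_natCard O ((QuotientGroup.eq_one_iff _).mp hx)))
  have hPi : Function.Injective (π.comp (P : Subgroup G).subtype) := by
    rw [injective_iff_map_eq_one]
    intro x hx
    obtain ⟨k, hk⟩ := IsPGroup.iff_orderOf.mp P.2 x
    exact Subtype.ext (hπinj k x hx (by rw [Subgroup.orderOf_coe, hk]))
  let PQ : Sylow 2 (G ⧸ O) := P.mapSurjective (QuotientGroup.mk'_surjective O)
  set D := Cfsg.pCore 2 (G ⧸ O) with hDdef
  haveI : D.Normal := CfsgLib.Core.normal_pCore 2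
  have hDp : IsPGroup 2 D := CfsgLib.Core.isPGroup_pCore 2
  have hDle : D ≤ (P : Subgroup G).map π := by
    obtain ⟨S, hS⟩ := hDp.exists_le_sylow
    obtain ⟨c, hc⟩ := MulAction.exists_smul_eq (G ⧸ O) S PQ
    intro x hx
    have h1 : x ∈ ((c • S : Sylow 2 (G ⧸ O)) : Subgroup (G ⧸ O)) := by
      rw [Sylow.coe_subgroup_smul]
      refine Subgroup.mem_pointwise_smul_iff_inv_smul_mem.mpr (hS ?_)
      rw [← map_inv, MulAut.smul_def, MulAut.conj_apply, inv_inv]
      simpa [mul_assoc] using (inferInstance : D.Normal).conj_mem x hx c⁻¹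
    rw [hc] at h1
    exact h1
  let D' : Subgroup G := (P : Subgroup G) ⊓ D.comap π
  let μ : D' →* D := (π.comp D'.subtype).codRestrict D fun x => x.2.2
  have hμ : Function.Bijective μ := by
    refine ⟨?_, fun d => ?_⟩
    · rw [injective_iff_map_eq_one]
      intro x hx
      exact Subtype.ext (congrArg Subtype.val (hPi (a₁ := ⟨x, x.2.1⟩) (a₂ := 1)
        ((congrArg Subtype.val hx).trans (map_one _).symm)) :)
    · obtain ⟨x, hx, e⟩ := hDle d.2
      exact ⟨⟨x, hx, (show π x ∈ D from e ▸ d.2)⟩, Subtype.ext e⟩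
  let eD : D' ≃* D := MulEquiv.ofBijective μ hμ
  have hD'p : IsPGroup 2 D' := P.2.to_le inf_le_left
  haveI : Group.IsSolvable (G ⧸ O) := solvable_of_surjective (f := π) (QuotientGroup.mk'_surjective O)
  have hHH : Subgroup.centralizer (D : Set (G ⧸ O)) ≤ D :=
    CfsgLib.Core.centralizer_pCore_le (CfsgLib.Core.pPrimeCore_quotient_pPrimeCore 2)
  -- either D is quaternion of order eight or the quotient is a 2-group
  by_cases hQ8 : Nonempty (D ≃* QuaternionGroup 2)
  · obtain ⟨e8⟩ := hQ8
    let Φ : G →* MulAut (QuaternionGroup 2) :=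
      ((MulAut.congr e8).toMonoidHom.comp (MulAut.conjNormal : (G ⧸ O) →* MulAut D)).comp π
    let ψ : G →* Equiv.Perm diags := diagHom.comp Φ
    have hmemC : ∀ x : G, ψ x = 1 → π x ∈ (Subgroup.center D).map D.subtype := by
      intro x hx
      have h1 : (MulAut.congr e8) (MulAut.conjNormal (π x) : MulAut D) = 1 :=
        diagHom_injective (hx.trans (map_one diagHom).symm)
      rw [map_eq_one_iff _ (MulAut.congr e8).injective] at h1
      have h2 : π x ∈ Subgroup.centralizer (D : Set (G ⧸ O)) := by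
        rw [Subgroup.mem_centralizer_iff]
        intro d hd
        have h3 := congrArg Subtype.val (DFunLike.congr_fun h1 (⟨d, hd⟩ : D))
        rw [MulAut.conjNormal_apply] at h3
        change π x * d * (π x)⁻¹ = d at h3
        exact (mul_inv_eq_iff_eq_mul.mp h3).symm
      refine ⟨⟨π x, hHH h2⟩, Subgroup.mem_center_iff.mpr fun d => Subtype.ext ?_, rfl⟩
      exact Subgroup.mem_centralizer_iff.mp h2 d d.2
    have hcc : Nat.card ((Subgroup.center D).map D.subtype) ≤ 2 := by
      rw [Subgroup.card_map_of_injective D.subtype_injective,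
        Nat.card_congr (Subgroup.centerCongr e8).toEquiv]
      exact center_quat_card
    haveI : IsCyclic ((Subgroup.center D).map D.subtype) := by
      have hpos : 0 < Nat.card ((Subgroup.center D).map D.subtype) := Nat.card_pos
      rcases (by omega : Nat.card ((Subgroup.center D).map D.subtype) = 1 ∨
        Nat.card ((Subgroup.center D).map D.subtype) = 2) with h | h
      · haveI := (Nat.card_eq_one_iff_unique.mp h).1
        infer_instance
      · exact isCyclic_of_prime_card (p := 2) h
    refine ⟨ψ.ker, inferInstance, isZGroup_of_image R ψ.ker (π.comp ψ.ker.subtype)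
      ((Subgroup.center D).map D.subtype) (fun x => hmemC x x.2) (fun x hx => hoddker _ x hx), ?_⟩
    -- the inner automorphisms
    let χ : QuaternionGroup 2 →* Equiv.Perm diags := diagHom.comp MulAut.conj
    have hcardχ : 4 ≤ Nat.card χ.range := by
      have hker : χ.ker ≤ Subgroup.center (QuaternionGroup 2) := by
        intro s hs
        have h1 : MulAut.conj s = 1 := diagHom_injective (hs.trans (map_one diagHom).symm)
        rw [Subgroup.mem_center_iff]
        intro t
        have h2 : s * t * s⁻¹ = t := DFunLike.congr_fun h1 t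
        exact (mul_inv_eq_iff_eq_mul.mp h2).symm
      have h1 := Subgroup.card_mul_index χ.ker
      rw [Subgroup.index_ker, Nat.card_eq_fintype_card (α := QuaternionGroup 2), QuaternionGroup.card] at h1
      have h2 : Nat.card χ.ker ≤ 2 :=
        (Nat.card_le_card_of_injective _ (Subgroup.inclusion_injective hker)).trans center_quat_card
      nlinarith
    have hle : χ.range ≤ ψ.range := by
      rintro _ ⟨s, rfl⟩
      obtain ⟨x, hx⟩ := QuotientGroup.mk'_surjective O ((e8.symm s : D) : G ⧸ O)
      refine ⟨x, ?_⟩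
      show diagHom _ = diagHom _
      congr 1
      refine MulEquiv.ext fun t => ?_
      show e8 (MulAut.conjNormal (π x) (e8.symm t)) = s * t * s⁻¹
      apply e8.symm.injective
      refine Subtype.ext ?_
      rw [MulEquiv.symm_apply_apply, map_mul, map_mul, map_inv, MulAut.conjNormal_apply, hx]
      rfl
    have h4 : Nat.card ψ.range * ψ.range.index = 24 := by
      rw [Subgroup.card_mul_index, Nat.card_eq_fintype_card, Fintype.card_perm, Fintype.card_coe, card_diags]
      rfl
    have hdvd : Nat.card χ.range ∣ Nat.card ψ.range := Subgroup.card_dvd_of_le hle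
    have hχ4 : Nat.card χ.range = 4 := by
      have h1 : Nat.card χ.range ∣ 8 := by
        have := Subgroup.card_range_dvd χ
        rwa [Nat.card_eq_fintype_card (α := QuaternionGroup 2), QuaternionGroup.card] at this
      have h2 : Nat.card χ.range ∣ 24 := hdvd.trans ⟨_, h4.symm⟩
      have h3 : Nat.card χ.range ≠ 8 := by
        intro h
        have hk := Subgroup.card_mul_index χ.ker
        rw [Subgroup.index_ker, h, Nat.card_eq_fintype_card (α := QuaternionGroup 2), QuaternionGroup.card] at hk
        have h1 : Nat.card χ.ker = 1 := by omega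
        have h5 : (QuaternionGroup.a 2 : QuaternionGroup 2) ∈ χ.ker := by
          show diagHom (MulAut.conj _) = 1
          rw [show MulAut.conj (QuaternionGroup.a 2 : QuaternionGroup 2) = 1 from MulEquiv.ext fun t => by
            show QuaternionGroup.a 2 * t * (QuaternionGroup.a 2)⁻¹ = t
            rw [show (QuaternionGroup.a 2 : QuaternionGroup 2) = .a 1 * .a 1 from rfl, quat_square_central, mul_inv_cancel_right],
            map_one]
        rw [Subgroup.eq_bot_of_card_eq _ h1, Subgroup.mem_bot] at h5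
        exact absurd h5 (by decide)
      have := (Nat.dvd_prime_pow Nat.prime_two (m := 3)).mp h1
      obtain ⟨k, hk, hk'⟩ := this
      interval_cases k <;> omega
    have h6 : 0 < ψ.range.index := Nat.pos_of_ne_zero Subgroup.index_ne_zero_of_finite
    by_cases hbig : ψ.range.index ≤ 2
    · exact good_of_perm (Or.inl rfl) (by rw [Fintype.card_coe, card_diags]) ψ (by omega)
    -- the image is the four-group
    have hr4 : Nat.card ψ.range = 4 := by
      rcases (by
        have h7 : Nat.card ψ.range * 3 ≤ 24 := by nlinarith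
        have h8 : 4 ∣ Nat.card ψ.range := hχ4 ▸ hdvd
        have h9 : 0 < Nat.card ψ.range := Nat.card_pos
        omega : Nat.card ψ.range = 4 ∨ Nat.card ψ.range = 8) with h | h
      · exact h
      exfalso
      -- the quotient would be a 2-group
      have hQ2 : IsPGroup 2 (G ⧸ O) := by
        intro q
        obtain ⟨x, rfl⟩ := QuotientGroup.mk'_surjective O q
        have h1 : ψ (x ^ 8) = 1 := by
          rw [map_pow]
          exact congrArg Subtype.val (show (⟨ψ x, ⟨x, rfl⟩⟩ : ψ.range) ^ 8 = 1 by rw [← h]; exact pow_card_eq_one')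
        obtain ⟨d, hd, hd'⟩ := hmemC _ h1
        obtain ⟨k, hk⟩ := hDp d
        refine ⟨3 + k, ?_⟩
        rw [pow_add, pow_mul, show (2 : ℕ) ^ 3 = 8 from rfl, ← map_pow, ← hd', ← map_pow, hk, map_one]
      have hDtop : D = ⊤ := top_le_iff.mp (CfsgLib.Core.le_pCore inferInstance (hQ2.to_subgroup ⊤))
      have hle2 : ψ.range ≤ χ.range := by
        rintro _ ⟨x, rfl⟩
        refine ⟨e8 ⟨π x, hDtop ▸ Subgroup.mem_top _⟩, ?_⟩
        show diagHom _ = diagHom _
        congr 1
        refine MulEquiv.ext fun t => ?_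
        apply e8.symm.injective
        refine Subtype.ext ?_
        show _ = ((e8.symm (e8 (MulAut.conjNormal (π x) (e8.symm t))) : D) : G ⧸ O)
        rw [MulEquiv.symm_apply_apply, MulAut.conjNormal_apply, MulAut.conj_apply, map_mul, map_mul,
          map_inv, MulEquiv.symm_apply_apply]
        rfl
      have := Nat.card_le_card_of_injective _ (Subgroup.inclusion_injective hle2)
      omega
    have heq : χ.range = ψ.range := Subgroup.eq_of_le_of_card_ge hle (by omega)
    obtain ⟨eK⟩ := klein_of_card_four hr4 fun z => by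
      obtain ⟨z, hz⟩ := z
      rw [← heq] at hz
      obtain ⟨s, rfl⟩ := hz
      refine Subtype.ext ?_
      show χ s ^ 2 = 1
      rw [← map_pow, sq]
      show diagHom (MulAut.conj (s * s)) = 1
      rw [show MulAut.conj (s * s) = 1 from MulEquiv.ext fun t => by
        show s * s * t * (s * s)⁻¹ = t
        rw [quat_square_central, mul_inv_cancel_right], map_one]
    refine Or.inr (Or.inl ⟨eK.toMonoidHom.comp ψ.rangeRestrict, eK.surjective.comp ψ.rangeRestrict_surjective, ?_⟩)
    rw [MonoidHom.ker_comp_of_injective _ _ eK.injective, MonoidHom.ker_rangeRestrict]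
  -- the quotient is a 2-group
  have hodd : ∀ q : G ⧸ O, Odd (orderOf q) → q = 1 := by
    intro q hq
    have hqC : q ∈ Subgroup.centralizer (D : Set (G ⧸ O)) := by
      have hσ : ∀ {T : Type u} [Group T] (e : D ≃* T),
          (∀ σ : MulAut T, Odd (orderOf σ) → σ = 1) → (MulAut.conjNormal q : MulAut D) = 1 := by
        intro T _ e h
        have h1 := h ((MulAut.congr e) (MulAut.conjNormal q : MulAut D))
          (hq.of_dvd_nat ((orderOf_map_dvd (MulAut.congr e).toMonoidHom _).trans
            (orderOf_map_dvd (MulAut.conjNormal : (G ⧸ O) →* MulAut D) q)))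
        rwa [map_eq_one_iff _ (MulAut.congr e).injective] at h1
      have h1 : (MulAut.conjNormal q : MulAut D) = 1 := by
        rcases R.cyclic_or_quaternion hD'p with hc | ⟨-, m, ⟨em⟩⟩
        · haveI := hc
          exact hσ eD.symm fun σ h => odd_centralizes_cyclic hD'p σ h
        · rcases Nat.lt_or_ge m 2 with hm | hm
          · interval_cases m
            · haveI : IsCyclic (QuaternionGroup (2 ^ 0)) := isCyclic_of_orderOf_eq_card (QuaternionGroup.xa 0)
                (by rw [QuaternionGroup.orderOf_xa, Nat.card_eq_fintype_card, QuaternionGroup.card]; rfl)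
              haveI : IsCyclic D' := isCyclic_of_injective em.toMonoidHom em.injective
              exact hσ eD.symm fun σ h => odd_centralizes_cyclic hD'p σ h
            · exact absurd ⟨eD.symm.trans em⟩ hQ8
          · let up : QuaternionGroup (2 ^ m) ≃* ULift.{u} (QuaternionGroup (2 ^ m)) := MulEquiv.ulift.symm
            refine hσ ((eD.symm.trans em).trans up) fun σ h => ?_
            have h2 := odd_centralizes_quat hm ((MulAut.congr up.symm) σ)
              (h.of_dvd_nat (orderOf_map_dvd (MulAut.congr up.symm).toMonoidHom σ))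
            rwa [map_eq_one_iff _ (MulAut.congr up.symm).injective] at h2
      rw [Subgroup.mem_centralizer_iff]
      intro d hd
      have h3 := congrArg Subtype.val (DFunLike.congr_fun h1 (⟨d, hd⟩ : D))
      rw [MulAut.conjNormal_apply] at h3
      change q * d * q⁻¹ = d at h3
      exact (mul_inv_eq_iff_eq_mul.mp h3).symm
    obtain ⟨k, hk⟩ := IsPGroup.iff_orderOf.mp hDp ⟨q, hHH hqC⟩
    rw [← Subgroup.orderOf_coe] at hk
    change orderOf q = 2 ^ k at hk
    rw [hk] at hq
    rcases Nat.eq_zero_or_pos k with e | e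
    · exact orderOf_eq_one_iff.mp (by rw [hk, e, pow_zero])
    · exact absurd hq (Nat.not_odd_iff_even.mpr ((Nat.even_pow' e.ne').mpr even_two))
  have hQ2 : IsPGroup 2 (G ⧸ O) := by
    intro q
    refine ⟨(orderOf q).factorization 2, hodd _ ?_⟩
    have hpos : orderOf q ≠ 0 := (orderOf_pos q).ne'
    rw [orderOf_pow' _ (pow_ne_zero _ two_ne_zero), Nat.gcd_eq_right (Nat.ordProj_dvd _ _)]
    exact Nat.not_even_iff_odd.mp fun h => Nat.not_dvd_ordCompl Nat.prime_two hpos (even_iff_two_dvd.mp h)
  have hsurj : Function.Surjective (π.comp (P : Subgroup G).subtype) := by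
    intro q
    have htop : ((⊤ : Subgroup (G ⧸ O))) = (PQ : Subgroup (G ⧸ O)) := PQ.3 (hQ2.to_subgroup ⊤) le_top
    obtain ⟨x, hx, e⟩ := (htop ▸ Subgroup.mem_top q : q ∈ (PQ : Subgroup (G ⧸ O)))
    exact ⟨⟨x, hx⟩, e⟩
  let eQ : (G ⧸ O) ≃* QuaternionGroup (2 ^ n) :=
    (MulEquiv.ofBijective _ ⟨hPi, hsurj⟩).symm.trans eP
  have hk : (2 : ℕ) ∣ 2 ^ n := dvd_pow_self 2 (by omega)
  let f : G →* DihedralGroup 2 := (quatDihedral (2 ^ n) hk).comp (eQ.toMonoidHom.comp π)
  haveI := isCyclic_quatDihedral_ker (2 ^ n) hk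
  refine ⟨f.ker, inferInstance, isZGroup_of_image R f.ker ((eQ.toMonoidHom.comp π).comp f.ker.subtype)
    (quatDihedral (2 ^ n) hk).ker (fun x => x.2) (fun x hx => hoddker _ x (eQ.injective (hx.trans (map_one eQ).symm))),
    Or.inr (Or.inl ⟨f, ?_, rfl⟩)⟩
  exact (quatDihedral_surjective _ hk).comp (eQ.surjective.comp (QuotientGroup.mk'_surjective O))

theorem exists_good [Nontrivial A] (R : FpfRep G A) :
    ∃ N : Subgroup G, N.Normal ∧ IsZGroup N ∧ GoodQuot N := by
  classical
  haveI : Fact (Nat.Prime 2) := ⟨Nat.prime_two⟩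
  by_cases hns : Group.IsSolvable G
  · haveI := hns
    obtain ⟨P⟩ := (inferInstance : Nonempty (Sylow 2 G))
    by_cases hPc : IsCyclic (P : Subgroup G)
    · haveI := R.isZGroup_of_two fun Q => isCyclic_of_surjective (P.equiv Q) (P.equiv Q).surjective
      exact ⟨⊤, inferInstance, inferInstance, Or.inl rfl⟩
    · exact exists_good_solvable R hPc
  · exact exists_good_nonsolvable R hns

end Existence

section Uniqueness

theorem quat_image_small {k : ℕ} [NeZero k] {W : Type w} [Group W] (f : QuaternionGroup k →* W)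
    (hsq : ∀ x, f x ^ 2 = 1) : Nat.card f.range ≤ 4 := by
  classical
  set a := f (QuaternionGroup.a 1)
  set b := f (QuaternionGroup.xa 0)
  have hsub : (f.range : Set W) ⊆ ({1, a, b, b * a} : Finset W) := by
    rintro _ ⟨x, rfl⟩
    have hpow : ∀ i : ZMod (2 * k), f (.a i) = 1 ∨ f (.a i) = a := by
      intro i
      rw [← ZMod.natCast_zmod_val i, ← QuaternionGroup.a_one_pow, map_pow]
      have h2 : a ^ 2 = 1 := hsq _
      rw [← Nat.mod_add_div i.val 2, pow_add, pow_mul, h2, one_pow, mul_one]
      rcases Nat.mod_two_eq_zero_or_one i.val with e | e <;> rw [e]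
      · exact Or.inl (pow_zero _)
      · exact Or.inr (pow_one _)
    simp only [Finset.coe_insert, Finset.coe_singleton, Set.mem_insert_iff, Set.mem_singleton_iff]
    rcases x with i | i
    · rcases hpow i with e | e <;> rw [e] <;> simp
    · rw [show (QuaternionGroup.xa i : QuaternionGroup k) = .xa 0 * .a i by
        rw [QuaternionGroup.xa_mul_a, zero_add], map_mul]
      rcases hpow i with e | e <;> rw [e] <;> simp [b]
  have := Set.ncard_le_ncard hsub (Finset.finite_toSet _)
  rw [Set.ncard_coe_finset, ← Nat.card_coe_set_eq] at this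
  exact this.trans Finset.card_le_four

theorem card_image_elementary [Nontrivial A] (R : FpfRep G A) {W : Type w} [Group W] [Finite W]
    (F : G →* W) (hW2 : IsPGroup 2 W) (hsq : ∀ x : W, x ^ 2 = 1) : Nat.card F.range ≤ 4 := by
  classical
  haveI : Fact (Nat.Prime 2) := ⟨Nat.prime_two⟩
  obtain ⟨P⟩ := (inferInstance : Nonempty (Sylow 2 G))
  have htop : (⊤ : Subgroup F.range) = ((P.mapSurjective F.rangeRestrict_surjective : Sylow 2 F.range) : Subgroup F.range) :=
    (P.mapSurjective F.rangeRestrict_surjective).3 ((hW2.to_subgroup F.range).to_subgroup ⊤) le_top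
  have hle : F.range ≤ (F.comp (P : Subgroup G).subtype).range := by
    intro w hw
    obtain ⟨x, hx, e⟩ := (htop ▸ Subgroup.mem_top (⟨w, hw⟩ : F.range) :
      (⟨w, hw⟩ : F.range) ∈ ((P.mapSurjective F.rangeRestrict_surjective : Sylow 2 F.range) : Subgroup F.range))
    exact ⟨⟨x, hx⟩, congrArg Subtype.val e⟩
  refine (Nat.card_le_card_of_injective _ (Subgroup.inclusion_injective hle)).trans ?_
  rcases R.cyclic_or_quaternion P.2 with hc | ⟨-, n, ⟨eP⟩⟩
  · haveI := hc
    haveI : IsCyclic (F.comp (P : Subgroup G).subtype).range :=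
      isCyclic_of_surjective _ (F.comp (P : Subgroup G).subtype).rangeRestrict_surjective
    obtain ⟨g, hg⟩ := IsCyclic.exists_ofOrder_eq_natCard (α := (F.comp (P : Subgroup G).subtype).range)
    have h2 : orderOf g ≤ 2 := Nat.le_of_dvd two_pos (orderOf_dvd_of_pow_eq_one (Subtype.ext (hsq _)))
    omega
  · haveI : NeZero (2 ^ n) := ⟨pow_ne_zero _ two_ne_zero⟩
    have e : ((F.comp (P : Subgroup G).subtype).comp eP.symm.toMonoidHom).range = (F.comp (P : Subgroup G).subtype).range := by
      rw [MonoidHom.range_comp, MonoidHom.range_eq_top.mpr eP.symm.surjective, ← MonoidHom.range_eq_map]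
    rw [← e]
    exact quat_image_small _ fun x => hsq _

theorem not_isZGroup_dihedral : ¬ IsZGroup (DihedralGroup 2) := fun h => by
  haveI := h
  exact absurd (no_four_of_zgroup (a := (DihedralGroup.r 1 : DihedralGroup 2)) (b := DihedralGroup.sr 0)
    (by decide) (by decide) (by decide) (by decide) (show _ * _ = _ * _ by decide)) (by decide)

/-- The four large quotients. -/
def Large (W : Type) [Group W] : Prop := FourInNormal W ∨ (IsSimpleGroup W ∧ ¬ IsZGroup W)

theorem le_of_large [Nontrivial A] {W : Type} [Group W] [Finite W] (hW : Large W) {f : G →* W}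
    (hf : Function.Surjective f) {N : Subgroup G} (hN : N.Normal) (hNZ : IsZGroup N) : N ≤ f.ker := by
  have h := bot_of_large hW (hN.map f hf) (isZGroup_map hNZ f)
  exact (Subgroup.map_eq_bot_iff N).mp h

theorem large_facts : Large (alternatingGroup (Fin 4)) ∧ Large (Equiv.Perm (Fin 4)) ∧
    Large (alternatingGroup (Fin 5)) ∧ Large (Equiv.Perm (Fin 5)) :=
  ⟨Or.inl four_A4, Or.inl four_S4, Or.inr ⟨alternatingGroup.isSimpleGroup_five, not_isZGroup_A5⟩, Or.inl four_S5⟩

/-- The three shapes. -/
theorem good_cases {N : Subgroup G} (hNg : GoodQuot N) :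
    N = ⊤ ∨ (∃ f : G →* DihedralGroup 2, Function.Surjective f ∧ f.ker = N) ∨
      (4 < N.index ∧ ∃ (W : Type) (_ : Group W) (_ : Finite W), Large W ∧ ∃ f : G →* W, Function.Surjective f ∧ f.ker = N) := by
  have hidx : ∀ {W : Type} [Group W] [Fintype W] {f : G →* W}, Function.Surjective f → 4 < Fintype.card W →
      4 < f.ker.index := fun {W} _ _ {f} hf hc => by
    rwa [Subgroup.index_ker, MonoidHom.range_eq_top.mpr hf, Subgroup.card_top, Nat.card_eq_fintype_card]
  obtain ⟨hA4, hS4, hA5, hS5⟩ := large_facts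
  rcases hNg with h | h | ⟨f, hf, h⟩ | ⟨f, hf, h⟩ | ⟨f, hf, h⟩ | ⟨f, hf, h⟩
  · exact Or.inl h
  · exact Or.inr (Or.inl h)
  all_goals
    refine Or.inr (Or.inr ⟨h ▸ hidx hf (by decide +kernel), _, inferInstance, inferInstance, ?_, f, hf, h⟩)
  · exact hA4
  · exact hS4
  · exact hA5
  · exact hS5

theorem good_unique [Nontrivial A] (R : FpfRep G A) {N N' : Subgroup G} (hN : N.Normal) (hN' : N'.Normal)
    (hNZ : IsZGroup N) (hNZ' : IsZGroup N') (hg : GoodQuot N) (hg' : GoodQuot N') : N = N' := by
  classical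
  -- when the whole group is a Z-group
  have htop : ∀ {N : Subgroup G}, N.Normal → GoodQuot N → IsZGroup (⊤ : Subgroup G) → N = ⊤ := by
    intro N hN hg hZ
    rcases good_cases hg with h | ⟨f, hf, -⟩ | ⟨-, W, _, _, hW, f, hf, rfl⟩
    · exact h
    · exfalso
      haveI := hZ
      haveI : IsZGroup G := IsZGroup.of_injective (f := (Subgroup.topEquiv (G := G)).symm.toMonoidHom)
        (Subgroup.topEquiv (G := G)).symm.injective
      exact not_isZGroup_dihedral (IsZGroup.of_surjective hf)
    · exact top_le_iff.mp (le_of_large (A := A) hW hf inferInstance hZ)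
  rcases good_cases hg with rfl | ⟨f, hf, rfl⟩ | ⟨hc, W, _, _, hW, f, hf, rfl⟩
  · exact (htop hN' hg' hNZ).symm
  · rcases good_cases hg' with rfl | ⟨f', hf', rfl⟩ | ⟨hc', W', _, _, hW', f', hf', rfl⟩
    · exact htop hN hg hNZ'
    · have hsq : ∀ x : DihedralGroup 2 × DihedralGroup 2, x ^ 2 = 1 := fun x =>
        Prod.ext ((show ∀ y : DihedralGroup 2, y ^ 2 = 1 by decide) x.1)
          ((show ∀ y : DihedralGroup 2, y ^ 2 = 1 by decide) x.2)
      have hle := card_image_elementary R (f.prod f') (fun x => ⟨1, by rw [pow_one]; exact hsq x⟩) hsq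
      have h1 : (f.prod f').ker = f.ker ⊓ f'.ker := MonoidHom.ker_prod f f'
      have h2 : (f.ker ⊓ f'.ker).index ≤ 4 := by rw [← h1, Subgroup.index_ker]; exact hle
      have h3 : f.ker.index = 4 := by
        rw [Subgroup.index_ker, MonoidHom.range_eq_top.mpr hf, Subgroup.card_top, DihedralGroup.nat_card]
      have h4 : f'.ker.index = 4 := by
        rw [Subgroup.index_ker, MonoidHom.range_eq_top.mpr hf', Subgroup.card_top, DihedralGroup.nat_card]
      have key : ∀ K : Subgroup G, f.ker ⊓ f'.ker ≤ K → K.index = 4 → f.ker ⊓ f'.ker = K := by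
        intro K hK hi
        refine Subgroup.eq_of_le_of_card_ge hK ?_
        have e1 := Subgroup.card_mul_index (f.ker ⊓ f'.ker)
        have e2 := Subgroup.card_mul_index K
        rw [hi] at e2
        nlinarith
      exact (key _ inf_le_left h3).symm.trans (key _ inf_le_right h4)
    · exfalso
      have h := Nat.le_of_dvd (Nat.pos_of_ne_zero Subgroup.index_ne_zero_of_finite)
        (Subgroup.index_dvd_of_le (le_of_large (A := A) hW' hf' hN hNZ))
      rw [Subgroup.index_ker f, MonoidHom.range_eq_top.mpr hf, Subgroup.card_top, DihedralGroup.nat_card] at h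
      omega
  · have hle := le_of_large (A := A) hW hf hN' hNZ'
    rcases good_cases hg' with rfl | ⟨f', hf', rfl⟩ | ⟨hc', W', _, _, hW', f', hf', rfl⟩
    · exact top_le_iff.mp hle
    · exfalso
      have h := Nat.le_of_dvd (Nat.pos_of_ne_zero Subgroup.index_ne_zero_of_finite)
        (Subgroup.index_dvd_of_le hle)
      rw [Subgroup.index_ker f', MonoidHom.range_eq_top.mpr hf', Subgroup.card_top, DihedralGroup.nat_card] at h
      omega
    · exact le_antisymm (le_of_large (A := A) hW' hf' hN hNZ) hle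

end Uniqueness

end CfsgLib.FpfQuat
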