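import Mathlib.FieldTheory.Fixed
import Mathlib.RingTheory.IntegralDomain
import Mathlib.Algebra.Field.ZMod
import Mathlib.Algebra.Algebra.Equiv
import Mathlib.LinearAlgebra.Dimension.Finrank
import Mathlib.LinearAlgebra.FiniteDimensional.Lemmas
import Mathlib.FieldTheory.Finiteness
import Mathlib.GroupTheory.SpecificGroups.Cyclic
import Mathlib.Algebra.Module.ZMod
import Mathlib.RingTheory.LittleWedderburn

/-!
# Linear groups regular on the non-zero vectors: maximal normal abelian subgroups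
-/

set_option autoImplicit false
set_option linter.unusedSectionVars false
set_option linter.style.haveILetI false

namespace CfsgLib.LinearRegular

universe u

variable {p : ℕ} [Fact p.Prime] {V : Type u} [AddCommGroup V] [Module (ZMod p) V] [Finite V]
  (H : Subgroup (V ≃ₗ[ZMod p] V))

/-- The endomorphism of an element of the group. -/
def toEnd (h : H) : Module.End (ZMod p) V := (h : V ≃ₗ[ZMod p] V).toLinearMap

theorem toEnd_apply (h : H) (v : V) : toEnd H h v = (h : V ≃ₗ[ZMod p] V) v := rfl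

theorem toEnd_mul (g h : H) : toEnd H (g * h) = toEnd H g * toEnd H h := rfl

theorem toEnd_one : toEnd H 1 = 1 := rfl

variable (A : Subgroup H)

/-- The algebra generated by a subgroup. -/
def envAlg : Subalgebra (ZMod p) (Module.End (ZMod p) V) :=
  Algebra.adjoin (ZMod p) (toEnd H '' (A : Set H))

theorem toEnd_mem {a : H} (ha : a ∈ A) : toEnd H a ∈ envAlg H A :=
  Algebra.subset_adjoin ⟨a, ha, rfl⟩

/-- Invariance under a subgroup. -/
def Inv (W : Submodule (ZMod p) V) : Prop :=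
  ∀ a ∈ A, ∀ v ∈ W, ((a : H) : V ≃ₗ[ZMod p] V) v ∈ W

theorem inv_env {W : Submodule (ZMod p) V} (hW : Inv H A W) {r : Module.End (ZMod p) V}
    (hr : r ∈ envAlg H A) : ∀ v ∈ W, r v ∈ W := by
  induction hr using Algebra.adjoin_induction with
  | mem x hx => obtain ⟨a, ha, rfl⟩ := hx; exact hW a ha
  | algebraMap c => intro v hv; exact W.smul_mem c hv
  | add x y _ _ hx hy => intro v hv; exact W.add_mem (hx v hv) (hy v hv)
  | mul x y _ _ hx hy => intro v hv; exact hx _ (hy v hv)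

theorem env_comm (hAc : IsMulCommutative A) {r s : Module.End (ZMod p) V} (hr : r ∈ envAlg H A)
    (hs : s ∈ envAlg H A) : r * s = s * r := by
  have key : ∀ a ∈ A, ∀ r ∈ envAlg H A, r * toEnd H a = toEnd H a * r := by
    intro a ha r hr
    induction hr using Algebra.adjoin_induction with
    | mem x hx =>
      obtain ⟨b, hb, rfl⟩ := hx
      rw [← toEnd_mul, ← toEnd_mul]
      exact congrArg (toEnd H) (congrArg Subtype.val (hAc.is_comm.comm (⟨b, hb⟩ : A) ⟨a, ha⟩))
    | algebraMap c => exact Algebra.commutes c _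
    | add x y _ _ hx hy => rw [add_mul, mul_add, hx, hy]
    | mul x y _ _ hx hy => rw [mul_assoc, hy, ← mul_assoc, hx, mul_assoc]
  induction hs using Algebra.adjoin_induction with
  | mem x hx => obtain ⟨a, ha, rfl⟩ := hx; exact key a ha r hr
  | algebraMap c => exact (Algebra.commutes c r).symm
  | add x y _ _ hx hy => rw [add_mul, mul_add, hx, hy]
  | mul x y _ _ hx hy => rw [← mul_assoc, hx, mul_assoc, hy, ← mul_assoc]

/-- The orbit of a vector under the algebra. -/
def cyc (v : V) : Submodule (ZMod p) V :=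
  (envAlg H A).toSubmodule.map (LinearMap.applyₗ v)

theorem mem_cyc {v w : V} : w ∈ cyc H A v ↔ ∃ r ∈ envAlg H A, r v = w := Iff.rfl

theorem cyc_inv (v : V) : Inv H A (cyc H A v) := by
  intro a ha w hw
  obtain ⟨r, hr, rfl⟩ := (mem_cyc H A).mp hw
  exact (mem_cyc H A).mpr ⟨toEnd H a * r, mul_mem (toEnd_mem H A ha) hr, rfl⟩

theorem self_mem_cyc (v : V) : v ∈ cyc H A v :=
  (mem_cyc H A).mpr ⟨1, one_mem _, rfl⟩

variable (hreg : ∀ v w : V, v ≠ 0 → w ≠ 0 → ∃! h : H, (h : V ≃ₗ[ZMod p] V) v = w)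

include hreg

theorem card_eq_pred [Nontrivial V] : Nat.card H = Nat.card V - 1 := by
  classical
  haveI : Fintype V := Fintype.ofFinite V
  obtain ⟨v, hv⟩ := exists_ne (0 : V)
  rw [Nat.card_eq_of_bijective (fun h : H => (⟨(h : V ≃ₗ[ZMod p] V) v,
      fun e => hv ((h : V ≃ₗ[ZMod p] V).map_eq_zero_iff.mp e)⟩ : {w : V // w ≠ 0}))
    ⟨fun g h e => (hreg v _ hv ((h : V ≃ₗ[ZMod p] V).map_ne_zero_iff.mpr hv)).unique
        (congrArg Subtype.val e) rfl,
      fun ⟨w, hw⟩ => ⟨(hreg v w hv hw).choose, Subtype.ext (hreg v w hv hw).choose_spec.1⟩⟩,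
    Nat.card_eq_fintype_card, Fintype.card_subtype_compl, Fintype.card_subtype_eq,
    Nat.card_eq_fintype_card]

theorem eq_one_of_fix {h : H} {v : V} (hv : v ≠ 0) (e : (h : V ≃ₗ[ZMod p] V) v = v) : h = 1 :=
  (hreg v v hv hv).unique e rfl

/-- The cyclic submodules of a normal subgroup are minimal. -/
theorem cyc_eq_of_mem [hAn : A.Normal] (W : Submodule (ZMod p) V) (hW : W ≠ ⊥) (hWi : Inv H A W)
    (hmin : ∀ W' : Submodule (ZMod p) V, W' ≤ W → Inv H A W' → W' = ⊥ ∨ W' = W) :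
    ∀ v : V, v ≠ 0 → ∀ x ∈ cyc H A v, x ≠ 0 → cyc H A x = cyc H A v := by
  obtain ⟨w, hw, hw0⟩ := W.exists_mem_ne_zero_of_ne_bot hW
  intro v hv x hx hx0
  obtain ⟨h, hh, -⟩ := hreg w v hw0 hv
  let W₁ := W.map (toEnd H h)
  have hi : Inv H A W₁ := by
    intro a ha y hy
    obtain ⟨z, hz, rfl⟩ := Submodule.mem_map.mp hy
    refine Submodule.mem_map.mpr ⟨((h⁻¹ * a * h : H) : V ≃ₗ[ZMod p] V) z,
      hWi _ (by simpa using hAn.conj_mem a ha h⁻¹) z hz, ?_⟩
    show (((h * (h⁻¹ * a * h) : H)) : V ≃ₗ[ZMod p] V) z = ((a * h : H) : V ≃ₗ[ZMod p] V) z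
    rw [show h * (h⁻¹ * a * h) = a * h by group]
  have hmin1 : ∀ W' : Submodule (ZMod p) V, W' ≤ W₁ → Inv H A W' → W' ≠ ⊥ → W' = W₁ := by
    intro W' hle hi' hne
    have hi'' : Inv H A (W'.map (toEnd H h⁻¹)) := by
      intro a ha y hy
      obtain ⟨z, hz, rfl⟩ := Submodule.mem_map.mp hy
      refine Submodule.mem_map.mpr ⟨((h * a * h⁻¹ : H) : V ≃ₗ[ZMod p] V) z,
        hi' _ (hAn.conj_mem a ha h) z hz, ?_⟩
      show (((h⁻¹ * (h * a * h⁻¹) : H)) : V ≃ₗ[ZMod p] V) z = ((a * h⁻¹ : H) : V ≃ₗ[ZMod p] V) z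
      rw [show h⁻¹ * (h * a * h⁻¹) = a * h⁻¹ by group]
    have hcomp : ∀ y, toEnd H h (toEnd H h⁻¹ y) = y := fun y => by
      show ((h * h⁻¹ : H) : V ≃ₗ[ZMod p] V) y = y
      rw [mul_inv_cancel]; rfl
    have hcomp' : ∀ y, toEnd H h⁻¹ (toEnd H h y) = y := fun y => by
      show ((h⁻¹ * h : H) : V ≃ₗ[ZMod p] V) y = y
      rw [inv_mul_cancel]; rfl
    rcases hmin _ (fun y hy => by
        obtain ⟨z, hz, rfl⟩ := Submodule.mem_map.mp hy
        obtain ⟨z', hz', rfl⟩ := Submodule.mem_map.mp (hle hz)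
        rw [hcomp']; exact hz') hi'' with e | e
    · exfalso
      obtain ⟨z, hz, hz0⟩ := W'.exists_mem_ne_zero_of_ne_bot hne
      have : toEnd H h⁻¹ z ∈ W'.map (toEnd H h⁻¹) := Submodule.mem_map_of_mem hz
      rw [e, Submodule.mem_bot] at this
      exact hz0 (by rw [← hcomp z, this, map_zero])
    · refine le_antisymm hle fun y hy => ?_
      obtain ⟨z, hz, rfl⟩ := Submodule.mem_map.mp hy
      rw [← e] at hz
      obtain ⟨z', hz', rfl⟩ := Submodule.mem_map.mp hz
      rw [hcomp]; exact hz'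
  have hsub : ∀ y ∈ W₁, cyc H A y ≤ W₁ := fun y hy z hz => by
    obtain ⟨r, hr, rfl⟩ := (mem_cyc H A).mp hz
    exact inv_env H A hi hr y hy
  have hvW : v ∈ W₁ := Submodule.mem_map.mpr ⟨w, hw, hh⟩
  have hv1 := hmin1 _ (hsub v hvW) (cyc_inv H A v)
    (fun e => hv ((Submodule.eq_bot_iff _).mp e v (self_mem_cyc H A v)))
  rw [hv1] at hx ⊢
  exact hmin1 _ (hsub x hx) (cyc_inv H A x)
    (fun e => hx0 ((Submodule.eq_bot_iff _).mp e x (self_mem_cyc H A x)))

/-- A reducible normal subgroup is abelian. -/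
theorem comm_of_reducible [hAn : A.Normal] [Nontrivial V]
    (hred : ∃ W : Submodule (ZMod p) V, W ≠ ⊥ ∧ W ≠ ⊤ ∧ Inv H A W) : IsMulCommutative A := by
  classical
  haveI : Module.Finite (ZMod p) V := Module.Finite.of_finite
  obtain ⟨W₀, hW₀, hW₀t, hW₀i⟩ := hred
  have hex : ∃ d, ∃ W : Submodule (ZMod p) V, W ≤ W₀ ∧ W ≠ ⊥ ∧ Inv H A W ∧
      Module.finrank (ZMod p) W = d := ⟨_, W₀, le_rfl, hW₀, hW₀i, rfl⟩
  obtain ⟨W, hWle, hW, hWi, hWd⟩ := Nat.find_spec hex
  have hmin : ∀ W' : Submodule (ZMod p) V, W' ≤ W → Inv H A W' → W' = ⊥ ∨ W' = W := by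
    intro W' hle hi
    by_contra hc
    push Not at hc
    have hlt := Submodule.finrank_lt_finrank_of_lt (lt_of_le_of_ne hle hc.2)
    exact Nat.find_min hex (hWd ▸ hlt) ⟨W', hle.trans hWle, hc.1, hi, rfl⟩
  have hWt : W ≠ ⊤ := fun e => hW₀t (top_le_iff.mp (e ▸ hWle))
  have hcyc := cyc_eq_of_mem H A hreg W hW hWi hmin
  obtain ⟨w, hw, hw0⟩ := W.exists_mem_ne_zero_of_ne_bot hW
  have hne : ∀ v : V, cyc H A v ≠ ⊤ := by
    intro v htop
    rcases eq_or_ne v 0 with rfl | hv
    · obtain ⟨r, -, hr⟩ := (mem_cyc H A).mp (htop ▸ Submodule.mem_top : w ∈ cyc H A (0 : V))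
      exact hw0 (by rw [← hr, map_zero])
    · obtain ⟨u, hu⟩ : ∃ u, u ∉ W := not_forall.mp fun h => hWt (Submodule.eq_top_iff'.mpr h)
      have hsub : cyc H A w ≤ W := fun y hy => by
        obtain ⟨r, hr, rfl⟩ := (mem_cyc H A).mp hy
        exact inv_env H A hWi hr w hw
      have e : cyc H A w = ⊤ := by
        rw [hcyc v hv w (htop ▸ Submodule.mem_top) hw0, htop]
      exact hu (hsub (e ▸ Submodule.mem_top))
  have hzero : ∀ r ∈ envAlg H A, ∀ v : V, v ≠ 0 → r v = 0 → ∀ u, u ∉ cyc H A v → r u = 0 := by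
    intro r hr v hv hrv u hu
    by_contra hru
    have hu0 : u ≠ 0 := fun e => hru (by rw [e, map_zero])
    have hvu : v + u ≠ 0 := fun e => hru (by
      rw [eq_neg_of_add_eq_zero_right e, map_neg, hrv, neg_zero])
    have hmem : r u ∈ cyc H A (v + u) := (mem_cyc H A).mpr ⟨r, hr, by rw [map_add, hrv, zero_add]⟩
    have e1 : cyc H A (v + u) = cyc H A u :=
      (hcyc (v + u) hvu _ hmem hru).symm.trans (hcyc u hu0 _ ((mem_cyc H A).mpr ⟨r, hr, rfl⟩) hru)
    have hvmem : v ∈ cyc H A u := by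
      have h := Submodule.sub_mem _ (e1 ▸ self_mem_cyc H A (v + u)) (self_mem_cyc H A u)
      rwa [add_sub_cancel_right] at h
    exact hu (by rw [hcyc u hu0 v hvmem hv]; exact self_mem_cyc H A u)
  have hdom : ∀ r ∈ envAlg H A, ∀ v : V, v ≠ 0 → r v = 0 → r = 0 := by
    intro r hr v hv hrv
    refine LinearMap.ext fun u => ?_
    rw [LinearMap.zero_apply]
    by_cases hu : u ∈ cyc H A v
    · rcases eq_or_ne u 0 with rfl | hu0
      · exact map_zero r
      obtain ⟨u', hu'⟩ : ∃ u', u' ∉ cyc H A v :=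
        not_forall.mp fun h => hne v (Submodule.eq_top_iff'.mpr h)
      have hu'0 : u' ≠ 0 := fun e => hu' (e ▸ Submodule.zero_mem _)
      refine hzero r hr u' hu'0 (hzero r hr v hv hrv u' hu') u fun hmem => hu' ?_
      rw [← hcyc v hv u hu hu0, hcyc u' hu'0 u hmem hu0]
      exact self_mem_cyc H A u'
    · exact hzero r hr v hv hrv u hu
  haveI : Finite (Module.End (ZMod p) V) :=
    Finite.of_injective (fun f => (f : V → V)) DFunLike.coe_injective
  set R := envAlg H A
  haveI : Finite R := Subtype.finite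
  haveI : NoZeroDivisors R := ⟨fun {r s} h => by
    by_contra hc
    push Not at hc
    obtain ⟨v, hv⟩ : ∃ v, (s : Module.End (ZMod p) V) v ≠ 0 := by
      by_contra hz
      push Not at hz
      exact hc.2 (Subtype.ext (LinearMap.ext hz))
    exact hc.1 (Subtype.ext (hdom _ r.2 _ hv (by
      rw [← Module.End.mul_apply]
      exact LinearMap.congr_fun (congrArg Subtype.val h) v)))⟩
  haveI : Nontrivial R := ⟨⟨0, 1, fun e =>
    hw0 (LinearMap.congr_fun (congrArg Subtype.val e) w).symm⟩⟩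
  haveI : IsDomain R := NoZeroDivisors.to_isDomain R
  have hcomm := (Finite.isDomain_to_isField R).mul_comm
  refine ⟨⟨fun a b => Subtype.ext (Subtype.ext (LinearEquiv.toLinearMap_injective ?_))⟩⟩
  exact congrArg Subtype.val (hcomm ⟨toEnd H a, toEnd_mem H A a.2⟩ ⟨toEnd H b, toEnd_mem H A b.2⟩)

omit hreg in
/-- The centraliser of an irreducible subgroup is abelian. -/
theorem centralizer_comm [Nontrivial V]
    (hirr : ∀ W : Submodule (ZMod p) V, Inv H A W → W = ⊥ ∨ W = ⊤) :
    IsMulCommutative (Subgroup.centralizer (A : Set H)) := by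
  classical
  set D := Subalgebra.centralizer (ZMod p) (toEnd H '' (A : Set H))
  haveI : Finite (Module.End (ZMod p) V) :=
    Finite.of_injective (fun f => (f : V → V)) DFunLike.coe_injective
  haveI : Finite D := Subtype.finite
  haveI : NoZeroDivisors D := ⟨fun {r s} h => by
    by_contra hc
    push Not at hc
    have hi : Inv H A (LinearMap.ker (r : Module.End (ZMod p) V)) := fun a ha v hv => by
      rw [LinearMap.mem_ker] at hv ⊢
      have e := LinearMap.congr_fun (Subalgebra.mem_centralizer_iff (ZMod p) |>.mp r.2 _ ⟨a, ha, rfl⟩) v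
      rw [Module.End.mul_apply, Module.End.mul_apply, hv, map_zero] at e
      exact e.symm
    rcases hirr _ hi with hk | hk
    · refine hc.2 (Subtype.ext (LinearMap.ext fun v => ?_))
      exact LinearMap.ker_eq_bot.mp hk ((LinearMap.congr_fun (congrArg Subtype.val h) v).trans
        (map_zero (r : Module.End (ZMod p) V)).symm)
    · exact hc.1 (Subtype.ext (LinearMap.ker_eq_top.mp hk))⟩
  haveI : Nontrivial D := ⟨⟨0, 1, fun e => by
    obtain ⟨v, hv⟩ := exists_ne (0 : V)
    exact hv (LinearMap.congr_fun (congrArg Subtype.val e) v).symm⟩⟩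
  haveI : IsDomain D := NoZeroDivisors.to_isDomain D
  have hcomm := (Finite.isDomain_to_isField D).mul_comm
  have hmem : ∀ b ∈ Subgroup.centralizer (A : Set H), toEnd H b ∈ D := by
    intro b hb
    rw [Subalgebra.mem_centralizer_iff]
    rintro _ ⟨a, ha, rfl⟩
    rw [← toEnd_mul, ← toEnd_mul, Subgroup.mem_centralizer_iff.mp hb a ha]
  refine ⟨⟨fun a b => Subtype.ext (Subtype.ext (LinearEquiv.toLinearMap_injective ?_))⟩⟩
  exact congrArg Subtype.val (hcomm ⟨_, hmem a a.2⟩ ⟨_, hmem b b.2⟩)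

/-- Structure of the algebra of a normal abelian subgroup. -/
theorem structure_abelian [hAn : A.Normal] (hAc : IsMulCommutative A) [Nontrivial V]
    (hred : ∃ W : Submodule (ZMod p) V, W ≠ ⊥ ∧ W ≠ ⊤ ∧ Inv H A W) :
    ∃ W : Submodule (ZMod p) V, W ≠ ⊥ ∧ W ≠ ⊤ ∧ Inv H A W ∧
      (∀ W' : Submodule (ZMod p) V, W' ≤ W → Inv H A W' → W' = ⊥ ∨ W' = W) ∧
      (∀ r ∈ envAlg H A, ∀ v : V, v ≠ 0 → r v = 0 → r = 0) ∧
      Module.finrank (ZMod p) (envAlg H A) = Module.finrank (ZMod p) W ∧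
      2 * Module.finrank (ZMod p) W ≤ Module.finrank (ZMod p) V := by
  classical
  haveI : Module.Finite (ZMod p) V := Module.Finite.of_finite
  obtain ⟨W₀, hW₀, hW₀t, hW₀i⟩ := hred
  have hex : ∃ d, ∃ W : Submodule (ZMod p) V, W ≤ W₀ ∧ W ≠ ⊥ ∧ Inv H A W ∧
      Module.finrank (ZMod p) W = d := ⟨_, W₀, le_rfl, hW₀, hW₀i, rfl⟩
  obtain ⟨W, hWle, hW, hWi, hWd⟩ := Nat.find_spec hex
  have hmin : ∀ W' : Submodule (ZMod p) V, W' ≤ W → Inv H A W' → W' = ⊥ ∨ W' = W := by
    intro W' hle hi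
    by_contra hc
    push Not at hc
    have hlt := Submodule.finrank_lt_finrank_of_lt (lt_of_le_of_ne hle hc.2)
    exact Nat.find_min hex (hWd ▸ hlt) ⟨W', hle.trans hWle, hc.1, hi, rfl⟩
  have hWt : W ≠ ⊤ := fun e => hW₀t (top_le_iff.mp (e ▸ hWle))
  -- every cyclic submodule is a translate of `W`
  have hcyc : ∀ v : V, v ≠ 0 → ∀ x ∈ cyc H A v, x ≠ 0 → cyc H A x = cyc H A v := by
    exact cyc_eq_of_mem H A hreg W hW hWi hmin
  have hdom : ∀ r ∈ envAlg H A, ∀ v : V, v ≠ 0 → r v = 0 → r = 0 := by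
    intro r hr v hv hrv
    refine LinearMap.ext fun u => ?_
    rw [LinearMap.zero_apply]
    by_contra hru
    have hvu : v + u ≠ 0 := fun e => hru (by
      rw [eq_neg_of_add_eq_zero_right e, map_neg, hrv, neg_zero])
    have hmem : r u ∈ cyc H A (v + u) :=
      (mem_cyc H A).mpr ⟨r, hr, by rw [map_add, hrv, zero_add]⟩
    have hu : u ≠ 0 := fun e => hru (by rw [e, map_zero])
    have e1 : cyc H A (v + u) = cyc H A u :=
      (hcyc (v + u) hvu _ hmem hru).symm.trans (hcyc u hu _ ((mem_cyc H A).mpr ⟨r, hr, rfl⟩) hru)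
    have hvmem : v ∈ cyc H A u := by
      have h := Submodule.sub_mem _ (e1 ▸ self_mem_cyc H A (v + u)) (self_mem_cyc H A u)
      rwa [add_sub_cancel_right] at h
    have humem : u ∈ cyc H A v := by rw [hcyc u hu v hvmem hv]; exact self_mem_cyc H A u
    obtain ⟨q, hq, hqu⟩ := (mem_cyc H A).mp humem
    apply hru
    rw [← hqu, ← Module.End.mul_apply, env_comm H A hAc hr hq, Module.End.mul_apply, hrv, map_zero]
  obtain ⟨w, hw, hw0⟩ := W.exists_mem_ne_zero_of_ne_bot hW
  have hfin : ∀ v : V, v ≠ 0 →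
      Module.finrank (ZMod p) (cyc H A v) = Module.finrank (ZMod p) (envAlg H A) := by
    intro v hv
    have hinj : Function.Injective
        ((LinearMap.applyₗ v).domRestrict (envAlg H A).toSubmodule) := by
      intro r s e
      have e' : (r : Module.End (ZMod p) V) v = (s : Module.End (ZMod p) V) v := e
      refine Subtype.ext (sub_eq_zero.mp (hdom _ (sub_mem r.2 s.2) v hv ?_))
      rw [LinearMap.sub_apply, e', sub_self]
    have h := LinearMap.finrank_range_of_inj hinj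
    rw [LinearMap.range_domRestrict] at h
    exact h
  have hWc : cyc H A w = W := by
    refine (hmin _ (fun y hy => ?_) (cyc_inv H A w)).resolve_left
      fun e => hw0 ((Submodule.eq_bot_iff _).mp e w (self_mem_cyc H A w))
    obtain ⟨r, hr, rfl⟩ := (mem_cyc H A).mp hy
    exact inv_env H A hWi hr w hw
  refine ⟨W, hW, hWt, hWi, hmin, hdom, by rw [← hWc, hfin w hw0], ?_⟩
  obtain ⟨u, hu⟩ : ∃ u, u ∉ W := not_forall.mp fun h => hWt (Submodule.eq_top_iff'.mpr h)
  have hu0 : u ≠ 0 := fun e => hu (e ▸ W.zero_mem)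
  have hdisj : W ⊓ cyc H A u = ⊥ := by
    by_contra hne
    obtain ⟨x, hx, hx0⟩ := (W ⊓ cyc H A u).exists_mem_ne_zero_of_ne_bot hne
    refine hu ?_
    have : u ∈ cyc H A x := by rw [hcyc u hu0 x hx.2 hx0]; exact self_mem_cyc H A u
    obtain ⟨r, hr, hru⟩ := (mem_cyc H A).mp this
    exact hru ▸ inv_env H A hWi hr x hx.1
  have h := Submodule.finrank_sup_add_finrank_inf_eq W (cyc H A u)
  rw [hdisj, finrank_bot, hfin u hu0, ← hfin w hw0, hWc] at h
  have := Submodule.finrank_le (W ⊔ cyc H A u)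
  omega

theorem abelian_facts [hAn : A.Normal] (hAc : IsMulCommutative A) [Nontrivial V]
    (hred : ∃ W : Submodule (ZMod p) V, W ≠ ⊥ ∧ W ≠ ⊤ ∧ Inv H A W) :
    ∃ W : Submodule (ZMod p) V, W ≠ ⊥ ∧ W ≠ ⊤ ∧ Inv H A W ∧
      (∀ W' : Submodule (ZMod p) V, W' ≤ W → Inv H A W' → W' = ⊥ ∨ W' = W) ∧
      Nat.card A ∣ p ^ Module.finrank (ZMod p) W - 1 ∧
      Subgroup.centralizer (A : Set H) ≠ A := by
  classical
  haveI : Module.Finite (ZMod p) V := Module.Finite.of_finite
  obtain ⟨W, h1, h2, h3, h4, hdom, hfr, hdim⟩ := structure_abelian H A hreg hAc hred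
  set R := envAlg H A
  haveI : Finite (Module.End (ZMod p) V) := Finite.of_injective (fun f => (f : V → V)) DFunLike.coe_injective
  haveI : Finite R := Subtype.finite
  haveI : Fintype R := Fintype.ofFinite R
  letI : CommRing R :=
    { (inferInstance : Ring R) with mul_comm := fun r s => Subtype.ext (env_comm H A hAc r.2 s.2) }
  haveI : NoZeroDivisors R := ⟨fun {r s} h => by
    by_contra hc
    push Not at hc
    obtain ⟨v, hv⟩ : ∃ v, (s : Module.End (ZMod p) V) v ≠ 0 := by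
      by_contra hz
      push Not at hz
      exact hc.2 (Subtype.ext (LinearMap.ext hz))
    exact hc.1 (Subtype.ext (hdom _ r.2 _ hv (by
      rw [← Module.End.mul_apply]
      exact LinearMap.congr_fun (congrArg Subtype.val h) v)))⟩
  haveI : Nontrivial R := ⟨⟨0, 1, fun e => by
    obtain ⟨v, hv⟩ := exists_ne (0 : V)
    exact hv (LinearMap.congr_fun (congrArg Subtype.val e) v).symm⟩⟩
  haveI : IsDomain R := NoZeroDivisors.to_isDomain R
  letI : Field R := (Finite.isField_of_domain R).toField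
  let ι : A →* R :=
    { toFun := fun a => ⟨toEnd H a, toEnd_mem H A a.2⟩
      map_one' := rfl
      map_mul' := fun _ _ => rfl }
  have hι : Function.Injective ι := fun a b e => by
    refine Subtype.ext (Subtype.ext (LinearEquiv.toLinearMap_injective ?_))
    exact congrArg Subtype.val e
  have hcardR : Nat.card R = p ^ Module.finrank (ZMod p) W := by
    rw [Module.natCard_eq_pow_finrank (K := ZMod p) (V := R), Nat.card_zmod, hfr]
  have hdvd : Nat.card A ∣ p ^ Module.finrank (ZMod p) W - 1 := by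
    rw [← hcardR, ← Nat.card_units]
    exact Subgroup.card_dvd_of_injective ι.toHomUnits fun a b e => hι (congrArg Units.val e)
  refine ⟨W, h1, h2, h3, h4, hdvd, fun hC => ?_⟩
  -- conjugation gives automorphisms of the field
  let ψ : H → (R →ₐ[ZMod p] R) := fun h =>
    AlgHom.codRestrict (((h : V ≃ₗ[ZMod p] V).conjAlgEquiv (ZMod p)).toAlgHom.comp R.val) R fun r => by
      obtain ⟨r, hr⟩ := r
      show (h : V ≃ₗ[ZMod p] V).conjAlgEquiv (ZMod p) r ∈ R
      induction hr using Algebra.adjoin_induction with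
      | mem x hx =>
        obtain ⟨a, ha, rfl⟩ := hx
        have e : (h : V ≃ₗ[ZMod p] V).conjAlgEquiv (ZMod p) (toEnd H a) = toEnd H (h * a * h⁻¹) :=
          LinearMap.ext fun v => rfl
        rw [e]
        exact toEnd_mem H A (hAn.conj_mem a ha h)
      | algebraMap c => rw [AlgEquiv.commutes]; exact algebraMap_mem _ c
      | add x y _ _ hx hy => rw [map_add]; exact add_mem hx hy
      | mul x y _ _ hx hy => rw [map_mul]; exact mul_mem hx hy
  haveI : Module.Finite (ZMod p) R := Module.Finite.of_finite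
  have hinj : Function.Injective fun q : H ⧸ A => ψ q.out := by
    intro q q' e
    rw [← Quotient.out_eq q, ← Quotient.out_eq q']
    refine QuotientGroup.eq.mpr ((SetLike.ext_iff.mp hC _).mp ?_)
    refine Subgroup.mem_centralizer_iff.mpr fun a ha => ?_
    have e1 : toEnd H (q.out * a * q.out⁻¹) = toEnd H (q'.out * a * q'.out⁻¹) :=
      congrArg Subtype.val (DFunLike.congr_fun e (⟨toEnd H a, toEnd_mem H A ha⟩ : R))
    have e2 : q.out * a * q.out⁻¹ = q'.out * a * q'.out⁻¹ :=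
      Subtype.ext (LinearEquiv.toLinearMap_injective e1)
    calc a * (q.out⁻¹ * q'.out) = q.out⁻¹ * (q.out * a * q.out⁻¹) * q'.out := by group
      _ = q.out⁻¹ * q'.out * a := by rw [e2]; group
  have hidx : A.index ≤ Module.finrank (ZMod p) W := by
    rw [← hfr, Subgroup.index_eq_card]
    refine le_trans (Nat.card_le_card_of_injective _ hinj) ?_
    haveI : FiniteDimensional (ZMod p) R := Module.Finite.of_finite
    have hc := AlgHom.card_le (F := ZMod p) (K := R)
    rw [← Nat.card_eq_fintype_card] at hc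
    exact hc
  set k := Module.finrank (ZMod p) W
  have hp2 := (Fact.out : p.Prime).two_le
  have hk1 : 1 ≤ k := Nat.one_le_iff_ne_zero.mpr fun e => h1 (Submodule.finrank_eq_zero.mp e)
  have hA : Nat.card A ≤ p ^ k - 1 :=
    Nat.le_of_dvd (Nat.sub_pos_of_lt (Nat.one_lt_pow (by omega) (by omega))) hdvd
  have hH : p ^ (2 * k) - 1 ≤ Nat.card H := by
    rw [card_eq_pred H hreg, Module.natCard_eq_pow_finrank (K := ZMod p) (V := V), Nat.card_zmod]
    exact Nat.sub_le_sub_right (Nat.pow_le_pow_right (by omega) hdim) 1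
  rw [← Subgroup.card_mul_index A] at hH
  have hub : Nat.card A * A.index ≤ (p ^ k - 1) * k := Nat.mul_le_mul hA hidx
  have hfac : p ^ (2 * k) - 1 = (p ^ k - 1) * (p ^ k + 1) := by
    rw [show 2 * k = k + k by omega, pow_add, Nat.sub_mul, Nat.mul_add, one_mul, mul_one]
    omega
  have hkp : k < p ^ k + 1 := Nat.lt_succ_of_lt (Nat.lt_pow_self (by omega))
  have hpos : 0 < p ^ k - 1 := Nat.sub_pos_of_lt (Nat.one_lt_pow (by omega) (by omega))
  have := Nat.mul_lt_mul_of_pos_left hkp hpos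
  omega

omit hreg in
theorem isCyclic_abelian (hAc : IsMulCommutative A) [Nontrivial V]
    (hfree : ∀ a ∈ A, ∀ v : V, v ≠ 0 → ((a : H) : V ≃ₗ[ZMod p] V) v = v → a = 1) : IsCyclic A := by
  classical
  haveI : Module.Finite (ZMod p) V := Module.Finite.of_finite
  have hex : ∃ d, ∃ W : Submodule (ZMod p) V, W ≠ ⊥ ∧ Inv H A W ∧
      Module.finrank (ZMod p) W = d := ⟨_, ⊤, top_ne_bot, fun _ _ _ _ => Submodule.mem_top, rfl⟩
  obtain ⟨W, hW, hWi, hWd⟩ := Nat.find_spec hex
  have hmin : ∀ x ∈ W, x ≠ 0 → cyc H A x = W := by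
    intro x hx hx0
    have hle : cyc H A x ≤ W := fun y hy => by
      obtain ⟨r, hr, rfl⟩ := (mem_cyc H A).mp hy
      exact inv_env H A hWi hr x hx
    refine Submodule.eq_of_le_of_finrank_le hle ?_
    rw [hWd]
    exact Nat.find_min' hex ⟨_, fun e => hx0 ((Submodule.eq_bot_iff _).mp e x (self_mem_cyc H A x)),
      cyc_inv H A x, rfl⟩
  obtain ⟨w, hw, hw0⟩ := W.exists_mem_ne_zero_of_ne_bot hW
  -- the algebra acting on the minimal submodule
  let I : Submodule (ZMod p) (Module.End (ZMod p) V) := (envAlg H A).toSubmodule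
  let S : Subalgebra (ZMod p) (Module.End (ZMod p) W) :=
    { carrier := {f | ∃ r ∈ envAlg H A, ∀ x : W, ((f x : W) : V) = r x}
      mul_mem' := fun {f g} ⟨r, hr, e⟩ ⟨s, hs, e'⟩ =>
        ⟨r * s, mul_mem hr hs, fun x => by rw [Module.End.mul_apply, e, e']; rfl⟩
      one_mem' := ⟨1, one_mem _, fun x => rfl⟩
      add_mem' := fun {f g} ⟨r, hr, e⟩ ⟨s, hs, e'⟩ =>
        ⟨r + s, add_mem hr hs, fun x => by rw [LinearMap.add_apply, Submodule.coe_add, e, e']; rfl⟩
      zero_mem' := ⟨0, zero_mem _, fun x => rfl⟩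
      algebraMap_mem' := fun c => ⟨algebraMap _ _ c, algebraMap_mem _ c, fun x => rfl⟩ }
  letI : CommRing S :=
    { (inferInstance : Ring S) with
      mul_comm := fun f g => by
        obtain ⟨f, r, hr, e⟩ := f
        obtain ⟨g, s, hs, e'⟩ := g
        refine Subtype.ext (LinearMap.ext fun x => Subtype.ext ?_)
        show ((f (g x) : W) : V) = ((g (f x) : W) : V)
        rw [e, e', e', e, ← Module.End.mul_apply, env_comm H A hAc hr hs, Module.End.mul_apply] }
  haveI : NoZeroDivisors S := ⟨fun {f g} h => by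
    by_contra hc
    push Not at hc
    obtain ⟨f, r, hr, e⟩ := f
    obtain ⟨g, s, hs, e'⟩ := g
    obtain ⟨x, hx⟩ : ∃ x, g x ≠ 0 := by
      by_contra hz
      push Not at hz
      exact hc.2 (Subtype.ext (LinearMap.ext hz))
    have hfy : f (g x) = 0 := LinearMap.congr_fun (congrArg Subtype.val h) x
    refine hc.1 (Subtype.ext (LinearMap.ext fun y => Subtype.ext ?_))
    obtain ⟨q, hq, hqy⟩ := (mem_cyc H A).mp
      ((hmin _ (g x).2 fun e0 => hx (Subtype.ext e0)).symm ▸ y.2 : (y : V) ∈ cyc H A (g x : V))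
    show ((f y : W) : V) = 0
    rw [e, ← hqy, ← Module.End.mul_apply, env_comm H A hAc hr hq, Module.End.mul_apply, ← e, hfy]
    exact map_zero q⟩
  haveI : Nontrivial S := ⟨⟨0, 1, fun e => by
    exact hw0 (congrArg Subtype.val (LinearMap.congr_fun (congrArg Subtype.val e) ⟨w, hw⟩)).symm⟩⟩
  haveI : IsDomain S := NoZeroDivisors.to_isDomain S
  haveI : Finite (V ≃ₗ[ZMod p] V) := Finite.of_injective (fun f => (f : V → V)) DFunLike.coe_injective
  let res : A → S := fun a =>
    ⟨(toEnd H a).restrict (fun x hx => hWi a a.2 x hx), toEnd H a, toEnd_mem H A a.2, fun x => rfl⟩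
  let f : A →* S := ⟨⟨res, rfl⟩, fun a b => rfl⟩
  refine isCyclic_of_subgroup_isDomain f fun a b e => ?_
  have e' : ((a : H) : V ≃ₗ[ZMod p] V) w = ((b : H) : V ≃ₗ[ZMod p] V) w :=
    congrArg Subtype.val (LinearMap.congr_fun (congrArg Subtype.val e) ⟨w, hw⟩)
  have := hfree ((b : H)⁻¹ * a) (A.mul_mem (A.inv_mem b.2) a.2) w hw0 (by
    show ((b : H) : V ≃ₗ[ZMod p] V).symm (((a : H) : V ≃ₗ[ZMod p] V) w) = w
    rw [LinearEquiv.symm_apply_eq, e'])
  exact Subtype.ext (inv_mul_eq_one.mp this).symm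

end CfsgLib.LinearRegular
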