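import Cfsg.Agent.Lib.PermFpfStructure
import Cfsg.Agent.Lib.LocalZsigmondy
import Cfsg.Agent.Lib.PermLinearRegular
import Mathlib.GroupTheory.NoncommCoprod
import Mathlib.LinearAlgebra.FiniteDimensional.Basic

/-!
# Non-solvable linear groups regular on non-zero vectors
-/

set_option autoImplicit false
set_option linter.unusedSectionVars false
set_option linter.style.haveILetI false

namespace CfsgLib.FpfQuat

universe u

open Icosa

/-- Maps commuting with a cyclic endomorphism commute with one another. -/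
theorem comm_of_cyclic {K : Type*} [CommRing K] {V : Type*} [AddCommGroup V] [Module K V]
    (x T T' : Module.End K V) {v : V}
    (hspan : Submodule.span K (Set.range fun i : ℕ => (x ^ i) v) = ⊤)
    (hT : Commute x T) (hT' : Commute x T') : T * T' = T' * T := by
  have key : ∀ u ∈ Submodule.span K (Set.range fun i : ℕ => (x ^ i) v),
      ∃ r : Module.End K V, Commute r T ∧ Commute r x ∧ r v = u := by
    intro u hu
    induction hu using Submodule.span_induction with
    | mem u hu =>
      obtain ⟨i, rfl⟩ := hu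
      exact ⟨x ^ i, hT.pow_left i, (Commute.refl x).pow_left i, rfl⟩
    | zero => exact ⟨0, Commute.zero_left T, Commute.zero_left x, rfl⟩
    | add a b _ _ ha hb =>
      obtain ⟨r, hr1, hr2, hr3⟩ := ha
      obtain ⟨s, hs1, hs2, hs3⟩ := hb
      exact ⟨r + s, hr1.add_left hs1, hr2.add_left hs2, by rw [LinearMap.add_apply, hr3, hs3]⟩
    | smul c a _ ha =>
      obtain ⟨r, hr1, hr2, hr3⟩ := ha
      exact ⟨c • r, hr1.smul_left c, hr2.smul_left c, by rw [LinearMap.smul_apply, hr3]⟩
  obtain ⟨r, hr1, hr2, hr3⟩ := key (T' v) (by rw [hspan]; trivial)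
  have e : r = T' := by
    refine LinearMap.ext_on_range hspan fun i => ?_
    rw [← Module.End.mul_apply, ← Module.End.mul_apply, (hr2.pow_right i).eq,
      (hT'.symm.pow_right i).eq, Module.End.mul_apply, Module.End.mul_apply, hr3]
  rw [← e]
  exact hr1.symm.eq

theorem not_comm_S5 : ∃ a b : S5, a * b ≠ b * a :=
  ⟨genG, genY, by decide +kernel⟩

theorem two_arith : ∀ p : Fin 240, ∀ e : Fin 3, 0 < e.val → p.val.Prime →
    (p.val * p.val - 1) % (120 * e.val) = 0 →
    (p.val - 1) % ((p.val * p.val - 1) / (120 * e.val)) = 0 →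
    ((p.val * p.val - 1) / (120 * e.val)).gcd 30 = 1 →
    e.val = 1 ∧ (p.val = 11 ∨ p.val = 29 ∨ p.val = 59) := by
  decide +kernel

theorem exists_primitive {p n : ℕ} (hp : p.Prime) (hp7 : 7 ≤ p) (hn : 3 ≤ n)
    (h25 : ¬ 25 ∣ p ^ n - 1) :
    ∃ r : ℕ, r.Prime ∧ r ∣ p ^ n - 1 ∧ (∀ k, 0 < k → k < n → ¬ r ∣ p ^ k - 1) ∧
      r ≠ 2 ∧ r ≠ 3 ∧ r ≠ 5 := by
  have hpowd : ∀ a b : ℕ, a ∣ b → p ^ a - 1 ∣ p ^ b - 1 := fun a b h => Nat.pow_sub_one_dvd_pow_sub_one p h
  by_cases hn4 : n = 4
  · subst hn4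
    have hodd : p % 2 = 1 := Nat.odd_iff.mp (hp.odd_of_ne_two (by omega))
    set w := (p ^ 2 + 1) / 2 with hw
    have hw2 : p ^ 2 + 1 = 2 * w := by
      have : p ^ 2 % 2 = 1 := by rw [Nat.pow_mod, hodd]
      omega
    have hfac : p ^ 4 - 1 = (p ^ 2 - 1) * (2 * w) := by
      rw [← hw2, mul_comm, ← Nat.sq_sub_sq, one_pow, ← pow_mul]
    have hwodd : ¬ 2 ∣ w := by
      have : p % 4 = 1 ∨ p % 4 = 3 := by omega
      have h4 : p ^ 2 % 4 = 1 := by rcases this with h | h <;> rw [Nat.pow_mod, h]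
      omega
    by_contra hno
    push Not at hno
    obtain ⟨k, hk⟩ : ∃ k, w = 5 ^ k := by
      refine ⟨_, Nat.eq_prime_pow_of_unique_prime_dvd (p := 5) (by omega) ?_⟩
      intro d hd hdw
      by_contra hd5
      have hd2 : d ≠ 2 := fun e => hwodd (e ▸ hdw)
      have hd4 : d ∣ p ^ 4 - 1 := by rw [hfac]; exact (hdw.mul_left 2).mul_left _
      have hno2 : ¬ d ∣ p ^ 2 - 1 := by
        intro h
        have h1 : d ∣ p ^ 2 + 1 := hw2 ▸ hdw.mul_left 2
        have h2 := Nat.dvd_sub h1 h
        rw [show p ^ 2 + 1 - (p ^ 2 - 1) = 2 by have := Nat.one_le_pow 2 p hp.pos; omega] at h2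
        exact hd2 ((Nat.prime_dvd_prime_iff_eq hd Nat.prime_two).mp h2)
      have hno1 : ¬ d ∣ p - 1 := fun h => hno2 (h.trans (by simpa using hpowd 1 2 (one_dvd 2)))
      have hno3 : ¬ d ∣ p ^ 3 - 1 := by
        intro h
        refine hno1 ?_
        have h1 : d ∣ p * (p ^ 3 - 1) := h.mul_left p
        have h2 := Nat.dvd_sub hd4 h1
        rwa [show p ^ 4 - 1 - p * (p ^ 3 - 1) = p - 1 by
          rw [Nat.mul_sub, mul_one, show p * p ^ 3 = p ^ 4 by ring]
          have : p ≤ p ^ 4 := Nat.le_self_pow (by norm_num) p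
          omega] at h2
      have hprim : ∀ k, 0 < k → k < 4 → ¬ d ∣ p ^ k - 1 := by
        intro k h1 h2
        interval_cases k
        · rwa [pow_one]
        · exact hno2
        · exact hno3
      refine hd5 (hno d hd hd4 hprim hd2 ?_)
      intro e
      subst e
      refine hno2 ?_
      have : p % 3 = 1 ∨ p % 3 = 2 := by
        have : ¬ 3 ∣ p := fun h => by
          have := (Nat.prime_dvd_prime_iff_eq Nat.prime_three hp).mp h
          omega
        omega
      have h3 : p ^ 2 % 3 = 1 := by rcases this with h | h <;> rw [Nat.pow_mod, h]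
      omega
    rcases Nat.lt_or_ge k 2 with hk2 | hk2
    · have : w ≤ 5 := by
        interval_cases k <;> omega
      have : 49 ≤ p ^ 2 := by nlinarith
      omega
    · refine h25 ?_
      rw [hfac, hk]
      exact (Dvd.dvd.mul_left (show 25 ∣ 5 ^ k from (show 25 = 5 ^ 2 by norm_num) ▸ pow_dvd_pow 5 hk2) 2).mul_left _
  obtain ⟨r, hr, hrd, hprim⟩ := CfsgLib.Local.zsigmondy p n hp.one_lt (by omega) (fun h => by omega) (fun h => by omega)
  haveI := Fact.mk hr
  have hrp : ¬ r ∣ p := fun h => by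
    have h1 : r ∣ p ^ n := h.trans (dvd_pow_self p (by omega))
    have h2 := Nat.dvd_sub h1 hrd
    rw [show p ^ n - (p ^ n - 1) = 1 by have := Nat.one_le_pow n p hp.pos; omega] at h2
    exact hr.not_dvd_one h2
  have hferm : r ∣ p ^ (r - 1) - 1 := by
    have h1 : ((p : ZMod r)) ^ (r - 1) = 1 := ZMod.pow_card_sub_one_eq_one (fun e => hrp ((ZMod.natCast_eq_zero_iff p r).mp e))
    rw [← ZMod.natCast_eq_zero_iff, Nat.cast_sub (Nat.one_le_pow _ _ hp.pos), Nat.cast_pow, h1, Nat.cast_one, sub_self]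
  have hrn : n ≤ r - 1 := by
    by_contra h
    exact hprim (r - 1) (by have := hr.two_le; omega) (by omega) hferm
  refine ⟨r, hr, hrd, hprim, by omega, by omega, ?_⟩
  intro e
  subst e
  have hn3 : n = 3 := by omega
  subst hn3
  refine hprim 1 one_pos (by norm_num) ?_
  have h2 := Nat.dvd_sub hferm (hrd.mul_left p)
  rwa [show p ^ (5 - 1) - 1 - p * (p ^ 3 - 1) = p ^ 1 - 1 by
    rw [show 5 - 1 = 4 from rfl, Nat.mul_sub, mul_one, show p * p ^ 3 = p ^ 4 by ring, pow_one]
    have : p ≤ p ^ 4 := Nat.le_self_pow (by norm_num) p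
    omega] at h2

variable {p : ℕ} [Fact p.Prime] {V : Type u} [AddCommGroup V] [Module (ZMod p) V] [Finite V]

open CfsgLib.LinearRegular in
/-- The non-solvable linear groups regular on non-zero vectors. -/
theorem regular_nonsolvable (H : Subgroup (V ≃ₗ[ZMod p] V))
    (hreg : ∀ v w : V, v ≠ 0 → w ≠ 0 → ∃! h : H, (h : V ≃ₗ[ZMod p] V) v = w)
    (hsolv : ¬ Group.IsSolvable H) :
    ∃ m : ℕ, ((Nat.card V = 121 ∧ m = 1) ∨ (Nat.card V = 841 ∧ m = 7) ∨ (Nat.card V = 3481 ∧ m = 29)) ∧
      Nonempty (H ≃* S5 × Multiplicative (ZMod m)) := by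
  classical
  haveI : Finite (V ≃ₗ[ZMod p] V) :=
    Finite.of_injective (fun e : V ≃ₗ[ZMod p] V => (e : V → V)) DFunLike.coe_injective
  haveI : Nontrivial V := by
    by_contra h
    rw [not_nontrivial_iff_subsingleton] at h
    refine hsolv ?_
    haveI : Subsingleton H := ⟨fun a b => Subtype.ext (LinearEquiv.ext fun x => Subsingleton.elim _ _)⟩
    infer_instance
  obtain ⟨A, iR, iA, hA, ⟨R⟩⟩ := exists_fpfRep_linear H.subtype fun g hg x hx => by
    by_contra hx0
    exact hg (eq_one_of_fix H hreg hx0 hx)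
  obtain ⟨S, M, hN, hidx, hdisj, hcomm, ⟨e⟩, hMZ, hcop⟩ := nonsolvable_structure R hsolv
  obtain ⟨a, b, hab⟩ := not_comm_S5
  set T : S5 → Module.End (ZMod p) V := fun s => toEnd H ((e.symm s : S) : H) with hT
  have hTne : T a * T b ≠ T b * T a := by
    intro h
    refine hab (e.symm.injective (Subtype.ext ?_))
    refine Subtype.ext (LinearEquiv.ext fun x => ?_)
    simp only [map_mul]
    exact LinearMap.congr_fun h x
  -- cardinalities
  let f : S × M →* H := MonoidHom.noncommCoprod S.subtype M.subtype fun s x => hcomm s s.2 x x.2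
  have hfinj : Function.Injective f := by
    rw [injective_iff_map_eq_one]
    rintro ⟨s, x⟩ h
    have h1 : (s : H) * x = 1 := h
    have h2 : (s : H) ∈ S ⊓ M := ⟨s.2, by rw [eq_inv_of_mul_eq_one_left h1]; exact M.inv_mem x.2⟩
    rw [hdisj, Subgroup.mem_bot] at h2
    rw [h2, one_mul] at h1
    exact Prod.ext (Subtype.ext h2) (Subtype.ext h1)
  have hfr : f.range = S ⊔ M := by
    refine (MonoidHom.noncommCoprod_range S.subtype M.subtype _).trans ?_
    rw [Subgroup.range_subtype, Subgroup.range_subtype]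
  have hcardN : Nat.card (S ⊔ M : Subgroup H) = 120 * Nat.card M := by
    rw [← hfr, ← Nat.card_congr (MonoidHom.ofInjective hfinj).toEquiv, Nat.card_prod,
      Nat.card_congr e.toEquiv, card_S5]
  have hcardH : Nat.card H = 120 * Nat.card M * (S ⊔ M).index := by
    rw [← hcardN, Subgroup.card_mul_index]
  set n := Module.finrank (ZMod p) V with hn
  have hcardV : Nat.card V = p ^ n := by rw [hn, Module.natCard_eq_pow_finrank (K := ZMod p), Nat.card_zmod]
  have hpred := card_eq_pred H hreg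
  rw [hcardH, hcardV] at hpred
  have hp : p.Prime := Fact.out
  have hn1 : 1 ≤ n := Module.finrank_pos
  have hsub : 1 ≤ p ^ n := Nat.one_le_pow _ _ hp.pos
  have hp7 : 7 ≤ p := by
    have h2 : ∀ q ∈ [2, 3, 5], p ≠ q := by
      intro q hq he
      subst he
      have h1 : p ∣ p ^ n - 1 := hpred ▸ ((Dvd.dvd.mul_right (Dvd.dvd.mul_right (by
        simp at hq; rcases hq with rfl | rfl | rfl <;> norm_num) _) _))
      have h3 := Nat.dvd_sub (dvd_pow_self p (Nat.one_le_iff_ne_zero.mp hn1)) h1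
      rw [show p ^ n - (p ^ n - 1) = 1 by omega] at h3
      exact hp.not_dvd_one h3
    have := h2 2 (by simp)
    have := h2 3 (by simp)
    have := h2 5 (by simp)
    have h4 : p ≠ 4 := fun e => by rw [e] at hp; norm_num at hp
    have h6 : p ≠ 6 := fun e => by rw [e] at hp; norm_num at hp
    have := hp.two_le
    omega
  have hcommM : ∀ x ∈ M, ∀ s : S5, Commute (toEnd H x) (T s) := fun x hx s => by
    show toEnd H x * toEnd H _ = toEnd H _ * toEnd H x
    rw [← toEnd_mul, ← toEnd_mul, hcomm _ (e.symm s).2 x hx]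
  have hcyc : ∀ x ∈ M, ∀ v : V,
      Submodule.span (ZMod p) (Set.range fun i : ℕ => (toEnd H x ^ i) v) = ⊤ → False := fun x hx v hv =>
    hTne (comm_of_cyclic _ _ _ hv (hcommM x hx a) (hcommM x hx b))
  -- dimension two
  have hn2 : n = 2 := by
    by_contra hne
    rcases (by omega : n = 1 ∨ 3 ≤ n) with h1 | h3
    · obtain ⟨v, hv⟩ := exists_ne (0 : V)
      refine hcyc 1 M.one_mem v (eq_top_iff.mpr fun w _ => ?_)
      obtain ⟨c, rfl⟩ := exists_smul_eq_of_finrank_eq_one (h1 ▸ hn.symm) hv w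
      exact Submodule.smul_mem _ _ (Submodule.subset_span ⟨0, by dsimp only; rw [pow_zero]; rfl⟩)
    have h25 : ¬ 25 ∣ p ^ n - 1 := by
      rw [← hpred]
      intro h
      have h5 : Nat.Coprime 25 (Nat.card M) := by
        have := (hcop.coprime_dvd_right (show 5 ∣ 30 by norm_num)).symm.pow_left 2
        simpa using this
      rcases hidx with hi | hi <;> rw [hi] at h
      · rw [mul_one] at h
        exact absurd (h5.dvd_of_dvd_mul_right h) (by norm_num)
      · rw [show 120 * Nat.card M * 2 = 240 * Nat.card M by ring] at h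
        exact absurd (h5.dvd_of_dvd_mul_right h) (by norm_num)
    obtain ⟨r, hr, hrd, hprim, h2, h3', h5⟩ := exists_primitive hp hp7 h3 h25
    haveI := Fact.mk hr
    have hrM : r ∣ Nat.card M := by
      rw [← hpred] at hrd
      rcases (Nat.Prime.dvd_mul hr).mp hrd with h | h
      · rcases (Nat.Prime.dvd_mul hr).mp h with h' | h'
        · exfalso
          have hle := Nat.le_of_dvd (by norm_num) h'
          interval_cases r <;> first | omega | (norm_num at hr) | (norm_num at h')
        · exact h'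
      · rcases hidx with hi | hi <;> rw [hi] at h
        · exact absurd h hr.not_dvd_one
        · exact absurd ((Nat.prime_dvd_prime_iff_eq hr Nat.prime_two).mp h) h2
    obtain ⟨⟨x, hxM⟩, hx⟩ := exists_prime_orderOf_dvd_card' (G := M) r hrM
    replace hx : orderOf x = r := (Subgroup.orderOf_coe ⟨x, hxM⟩).trans hx
    obtain ⟨v, hv⟩ := exists_ne (0 : V)
    refine hcyc x hxM v ?_
    set W := Submodule.span (ZMod p) (Set.range fun i : ℕ => (toEnd H x ^ i) v) with hW
    have hWx : ∀ w ∈ W, (x : V ≃ₗ[ZMod p] V) w ∈ W := by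
      intro w hw
      induction hw using Submodule.span_induction with
      | mem w hw =>
        obtain ⟨i, rfl⟩ := hw
        refine Submodule.subset_span ⟨i + 1, ?_⟩
        show (toEnd H x ^ (i + 1)) v = _
        rw [pow_succ']
        rfl
      | zero => rw [map_zero]; exact W.zero_mem
      | add a b _ _ ha hb => rw [map_add]; exact W.add_mem ha hb
      | smul c a _ ha => rw [map_smul]; exact W.smul_mem c ha
    have hvW : v ∈ W := Submodule.subset_span ⟨0, by dsimp only; rw [pow_zero]; rfl⟩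
    have hWpow : ∀ (g : Subgroup.zpowers x) (w : V), w ∈ W → ((g : H) : V ≃ₗ[ZMod p] V) w ∈ W := by
      rintro ⟨g, hg⟩ w hw
      obtain ⟨i, rfl⟩ := mem_powers_iff_mem_zpowers.mpr hg
      revert w
      show ∀ w ∈ W, ((x ^ i : H) : V ≃ₗ[ZMod p] V) w ∈ W
      clear hg
      induction i with
      | zero =>
        intro w hw
        simp only [pow_zero, OneMemClass.coe_one]
        exact hw
      | succ i ih =>
        intro w hw
        simp only [pow_succ, Subgroup.coe_mul]
        exact ih _ (hWx w hw)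
    letI : MulAction (Subgroup.zpowers x) W :=
      { smul := fun g w => ⟨_, hWpow g w w.2⟩
        one_smul := fun w => Subtype.ext rfl
        mul_smul := fun g k w => Subtype.ext rfl }
    have hP : IsPGroup r (Subgroup.zpowers x) :=
      IsPGroup.of_card (n := 1) (by rw [Nat.card_zpowers, hx, pow_one])
    have hmod := hP.card_modEq_card_fixedPoints W
    have hfix : MulAction.fixedPoints (Subgroup.zpowers x) W = {0} := by
      refine Set.eq_singleton_iff_unique_mem.mpr ⟨fun g => Subtype.ext (map_zero ((g : H) : V ≃ₗ[ZMod p] V)),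
        fun w hw => ?_⟩
      by_contra hw0
      have h1 : (x : V ≃ₗ[ZMod p] V) (w : V) = w := congrArg Subtype.val (hw ⟨x, Subgroup.mem_zpowers x⟩)
      rw [eq_one_of_fix H hreg (fun e => hw0 (Subtype.ext e)) h1, orderOf_one] at hx
      exact hr.ne_one hx.symm
    rw [hfix, Nat.card_coe_set_eq, Set.ncard_singleton, Module.natCard_eq_pow_finrank (K := ZMod p),
      Nat.card_zmod] at hmod
    have hd : r ∣ p ^ Module.finrank (ZMod p) W - 1 :=
      (Nat.modEq_iff_dvd' (Nat.one_le_pow _ _ hp.pos)).mp hmod.symm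
    have hpos : 0 < Module.finrank (ZMod p) W := by
      haveI : Nontrivial W := ⟨⟨⟨v, hvW⟩, 0, fun e => hv (congrArg Subtype.val e)⟩⟩
      exact Module.finrank_pos
    have hle : Module.finrank (ZMod p) W ≤ n := Submodule.finrank_le W
    refine Submodule.eq_top_of_finrank_eq (le_antisymm hle (not_lt.mp fun hlt => hprim _ hpos hlt hd))
  -- scalars
  have hscal : ∀ x : M, ∃ c : ZMod p, ∀ v : V, ((x : H) : V ≃ₗ[ZMod p] V) v = c • v := by
    intro x
    have heig : ∀ v : V, ∃ c : ZMod p, c • v = ((x : H) : V ≃ₗ[ZMod p] V) v := by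
      intro v
      by_cases hv : v = 0
      · exact ⟨0, by rw [hv, map_zero, zero_smul]⟩
      by_contra hnot
      push Not at hnot
      refine hcyc x x.2 v (eq_top_iff.mpr ?_)
      have hli : LinearIndependent (ZMod p) ![v, ((x : H) : V ≃ₗ[ZMod p] V) v] :=
        (LinearIndependent.pair_iff' hv).mpr hnot
      have hsp := hli.span_eq_top_of_card_eq_finrank (by rw [Fintype.card_fin, ← hn, hn2])
      rw [← hsp]
      refine Submodule.span_mono ?_
      rintro w ⟨i, rfl⟩
      fin_cases i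
      · exact ⟨0, by dsimp only; rw [pow_zero]; rfl⟩
      · exact ⟨1, by dsimp only; rw [pow_one]; rfl⟩
    obtain ⟨v₀, hv₀⟩ := exists_ne (0 : V)
    obtain ⟨c, hc⟩ := heig v₀
    refine ⟨c, fun v => ?_⟩
    by_cases hvs : ∃ t : ZMod p, t • v₀ = v
    · obtain ⟨t, rfl⟩ := hvs
      rw [map_smul, ← hc, smul_smul, smul_smul, mul_comm]
    push Not at hvs
    obtain ⟨a₁, ha₁⟩ := heig v
    obtain ⟨d, hd⟩ := heig (v₀ + v)
    rw [map_add, ← hc, ← ha₁, smul_add] at hd
    have hli : LinearIndependent (ZMod p) ![v₀, v] := (LinearIndependent.pair_iff' hv₀).mpr hvs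
    have h0 : (d - c) • v₀ + (d - a₁) • v = 0 := by
      rw [sub_smul, sub_smul, ← sub_eq_zero.mpr hd]
      abel
    obtain ⟨h1, h2⟩ := LinearIndependent.pair_iff.mp hli _ _ h0
    rw [sub_eq_zero] at h1 h2
    rw [← ha₁, ← h2, h1]
  choose χ hχ using hscal
  obtain ⟨v₀, hv₀⟩ := exists_ne (0 : V)
  have hχ1 : ∀ t t' : ZMod p, t • v₀ = t' • v₀ → t = t' := fun t t' h => smul_left_injective _ hv₀ h
  let ψ : M →* ZMod p :=
    { toFun := χ
      map_one' := hχ1 _ _ (by rw [← hχ 1 v₀, one_smul]; rfl)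
      map_mul' := fun x y => hχ1 _ _ (by
        rw [← hχ (x * y) v₀, mul_smul, ← hχ y v₀, ← hχ x]
        rfl) }
  have hψ : Function.Injective ψ := fun x y h => Subtype.ext (Subtype.ext (LinearEquiv.ext fun v => by
    rw [hχ x v, hχ y v, show χ x = χ y from h]))
  have hψu : Function.Injective ψ.toHomUnits := fun x y h => hψ (congrArg Units.val h)
  have hdvd : Nat.card M ∣ p - 1 := by
    have := Subgroup.card_dvd_of_injective ψ.toHomUnits hψu
    rwa [Nat.card_units, Nat.card_zmod] at this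
  haveI : IsCyclic M := isCyclic_of_injective ψ.toHomUnits hψu
  rw [hn2] at hpred
  set m := Nat.card M with hm
  have hm0 : 0 < m := Nat.card_pos
  obtain ⟨c, hc⟩ := hdvd
  obtain ⟨ε, hε, hεi⟩ : ∃ ε, (ε = 1 ∨ ε = 2) ∧ (S ⊔ M).index = ε := ⟨_, hidx, rfl⟩
  rw [hεi] at hpred
  have hlt : p < 240 := by
    have h1 : p ^ 2 - 1 = (p + 1) * (p - 1) := by
      simpa using Nat.sq_sub_sq p 1
    rw [h1, hc] at hpred
    have h2 : 120 * ε = (p + 1) * c := Nat.eq_of_mul_eq_mul_left hm0 (by linarith)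
    have hc0 : 0 < c := by
      rcases Nat.eq_zero_or_pos c with h | h
      · subst h; rw [mul_zero] at hc; omega
      · exact h
    have h3 : p + 1 ≤ (p + 1) * c := Nat.le_mul_of_pos_right _ hc0
    rcases hε with rfl | rfl <;> omega
  have hdiv : (p * p - 1) / (120 * ε) = m := by
    rw [← pow_two, ← hpred, show 120 * m * ε = 120 * ε * m by ring]
    exact Nat.mul_div_cancel_left _ (by rcases hε with rfl | rfl <;> norm_num)
  have hA := two_arith ⟨p, hlt⟩ ⟨ε, by rcases hε with rfl | rfl <;> norm_num⟩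
    (by rcases hε with rfl | rfl <;> norm_num) hp
    (by show (p * p - 1) % (120 * ε) = 0
        rw [← pow_two, ← hpred, show 120 * m * ε = 120 * ε * m by ring, Nat.mul_mod_right])
    (by show (p - 1) % ((p * p - 1) / (120 * ε)) = 0
        rw [hdiv, hc, Nat.mul_mod_right])
    (by show ((p * p - 1) / (120 * ε)).gcd 30 = 1
        rw [hdiv]; exact hcop)
  obtain ⟨hε1, hcases⟩ := hA
  simp only at hε1 hcases
  subst hε1
  refine ⟨m, ?_, ⟨?_⟩⟩
  · rw [hcardV, hn2]
    rcases hcases with rfl | rfl | rfl <;> norm_num at hpred ⊢ <;> omega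
  · have htop : f.range = ⊤ := by rw [hfr]; exact Subgroup.index_eq_one.mp hεi
    exact ((MonoidHom.ofInjective hfinj).trans ((MulEquiv.subgroupCongr htop).trans Subgroup.topEquiv)).symm.trans
      (MulEquiv.prodCongr e (mulEquivOfCyclicCardEq (by
        rw [← hm, Nat.card_congr Multiplicative.toAdd, Nat.card_zmod])))

end CfsgLib.FpfQuat
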