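import Mathlib.GroupTheory.GroupAction.FixingSubgroup
import Mathlib.GroupTheory.GroupAction.Quotient
import Mathlib.GroupTheory.Sylow
import Mathlib.GroupTheory.Perm.Support
import Mathlib.Algebra.Group.Action.Pointwise.Finset
import Mathlib.GroupTheory.GroupAction.SubMulAction.Combination

/-!
# Generously transitive groups
-/

set_option autoImplicit false
set_option linter.unusedSectionVars false
set_option linter.style.haveILetI false

namespace CfsgLib.Generous

open MulAction Pointwise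

universe u

variable {α : Type u} [Fintype α] [DecidableEq α] (G : Subgroup (Equiv.Perm α))

theorem mem_fix_iff (s : Finset α) (g : G) :
    g ∈ fixingSubgroup G (s : Set α) ↔ ∀ x ∈ s, g • x = x :=
  mem_fixingSubgroup_iff G

theorem exists_carry {k : ℕ}
    (hgen : ∀ s : Finset α, s.card = k + 1 → ∀ σ : Equiv.Perm ↥s, ∃ g ∈ G, ∀ x : ↥s, g (x : α) = σ x)
    (Γ : Finset α) (hΓ : Γ.card = k) :
    ∀ Δ : Finset α, Δ.card = k → ∃ g : G, g • Γ = Δ := by
  intro Δ
  induction hn : (Δ \ Γ).card generalizing Δ with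
  | zero =>
    intro hΔ
    refine ⟨1, (one_smul _ _).trans (Finset.eq_of_subset_of_card_le ?_ (by omega)).symm⟩
    exact Finset.sdiff_eq_empty_iff_subset.mp (Finset.card_eq_zero.mp hn)
  | succ n ih =>
    intro hΔ
    obtain ⟨d, hd⟩ := Finset.card_pos.mp (show 0 < (Δ \ Γ).card by omega)
    obtain ⟨hdΔ, hdΓ⟩ := Finset.mem_sdiff.mp hd
    obtain ⟨c, hc⟩ : (Γ \ Δ).Nonempty := by
      by_contra h
      rw [Finset.not_nonempty_iff_eq_empty, Finset.sdiff_eq_empty_iff_subset] at h
      exact hdΓ ((Finset.eq_of_subset_of_card_le h (by omega)).symm ▸ hdΔ)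
    obtain ⟨hcΓ, hcΔ⟩ := Finset.mem_sdiff.mp hc
    obtain ⟨g₀, hg₀⟩ := ih (insert c (Δ.erase d)) (by
      rw [Finset.insert_sdiff_of_mem _ hcΓ, Finset.erase_sdiff_comm, Finset.card_erase_of_mem hd, hn]
      omega) (by
      rw [Finset.card_insert_of_notMem (fun h => hcΔ (Finset.mem_of_mem_erase h)),
        Finset.card_erase_of_mem hdΔ, hΔ]
      have : 0 < k := hΔ ▸ Finset.card_pos.mpr ⟨d, hdΔ⟩
      omega)
    obtain ⟨h, hh, hhs⟩ := hgen (insert c Δ) (by rw [Finset.card_insert_of_notMem hcΔ, hΔ])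
      (Equiv.swap ⟨c, Finset.mem_insert_self c Δ⟩ ⟨d, Finset.mem_insert_of_mem hdΔ⟩)
    refine ⟨⟨h, hh⟩ * g₀, ?_⟩
    rw [mul_smul, hg₀]
    refine Finset.eq_of_subset_of_card_le (fun z hz => ?_) ?_
    · obtain ⟨w, hw, rfl⟩ := Finset.mem_smul_finset.mp hz
      show h w ∈ Δ
      rcases Finset.mem_insert.mp hw with rfl | hw
      · have := hhs ⟨w, Finset.mem_insert_self w Δ⟩
        rw [Equiv.swap_apply_left] at this
        rw [this]; exact hdΔ
      · obtain ⟨hwd, hwΔ⟩ := Finset.mem_erase.mp hw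
        have := hhs ⟨w, Finset.mem_insert_of_mem hwΔ⟩
        rw [Equiv.swap_apply_of_ne_of_ne (fun e => hcΔ (by
          have e' : w = c := congrArg Subtype.val e
          rwa [← e'])) (fun e => hwd (congrArg Subtype.val e))] at this
        rw [this]; exact hwΔ
    · rw [Finset.card_smul_finset, Finset.card_insert_of_notMem (fun h' => hcΔ (Finset.mem_of_mem_erase h')),
        Finset.card_erase_add_one hdΔ]

theorem prime_orbit_bound {k : ℕ} (hk : k < Fintype.card α)
    (hgen : ∀ s : Finset α, s.card = k + 1 → ∀ σ : Equiv.Perm ↥s, ∃ g ∈ G, ∀ x : ↥s, g (x : α) = σ x)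
    {p : ℕ} (hp : p.Prime) (hpk : p ≤ k) (Γ : Finset α) (hΓ : Γ.card = k) (f : Fin p → α)
    (hf : ∀ i, f i ∉ Γ)
    (hdist : ∀ i j, i ≠ j → f j ∉ orbit (fixingSubgroup G (Γ : Set α)) (f i)) :
    ∃ i, p ∣ Nat.card (orbit (fixingSubgroup G (Γ : Set α)) (f i)) := by
  classical
  haveI := Fact.mk hp
  by_contra hc
  push Not at hc
  let L : Subgroup G := stabilizer G Γ
  -- orbits outside are invariant under the setwise stabiliser
  have hinv : ∀ (g : G), g • Γ = Γ → ∀ x ∉ Γ, g • x ∈ orbit (fixingSubgroup G (Γ : Set α)) x := by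
    intro g hg x hx
    have hgΓ : ∀ y, y ∈ Γ → g • y ∈ Γ := fun y hy => by
      rw [← hg]; exact Finset.smul_mem_smul_finset hy
    let φ : ↥(insert x Γ) → ↥(insert x Γ) := fun y =>
      if h : (y : α) ∈ Γ then ⟨g • (y : α), Finset.mem_insert_of_mem (hgΓ _ h)⟩ else y
    have hinj : Function.Injective φ := by
      intro y z e
      simp only [φ] at e
      split_ifs at e with h1 h2 h2
      · exact Subtype.ext (smul_left_cancel g (congrArg Subtype.val e :))
      · exact absurd ((congrArg Subtype.val e :) ▸ hgΓ _ h1) h2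
      · exact absurd ((congrArg Subtype.val e :) ▸ hgΓ _ h2) h1
      · exact e
    obtain ⟨h, hh, hhs⟩ := hgen (insert x Γ) (by rw [Finset.card_insert_of_notMem hx, hΓ])
      (Equiv.ofBijective φ hinj.bijective_of_finite)
    have hhx : h x = x := by
      have := hhs ⟨x, Finset.mem_insert_self x Γ⟩
      rw [Equiv.ofBijective_apply] at this
      simp only [φ] at this
      rwa [dif_neg hx] at this
    refine ⟨⟨g * (⟨h, hh⟩ : G)⁻¹, (mem_fix_iff G Γ _).mpr fun y hy => ?_⟩, ?_⟩
    · obtain ⟨z, hz, hzy⟩ := Finset.mem_smul_finset.mp (hg.symm ▸ hy : y ∈ g • Γ)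
      have hhz : h z = y := by
        have := hhs ⟨z, Finset.mem_insert_of_mem hz⟩
        rw [Equiv.ofBijective_apply] at this
        simp only [φ] at this
        rw [dif_pos hz] at this
        exact this.trans hzy
      rw [mul_smul, show (⟨h, hh⟩ : G)⁻¹ • y = z by rw [inv_smul_eq_iff]; exact hhz.symm, hzy]
    · show (g * (⟨h, hh⟩ : G)⁻¹) • x = g • x
      rw [mul_smul, show (⟨h, hh⟩ : G)⁻¹ • x = x by rw [inv_smul_eq_iff]; exact hhx.symm]
  -- an element inducing a cycle of length `p` inside `Γ`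
  obtain ⟨C, hCΓ, hCp⟩ := Finset.exists_subset_card_eq (show p ≤ Γ.card by omega)
  let e : ↥C ≃ Fin p := C.equivFinOfCardEq hCp
  obtain ⟨x₀, hx₀⟩ : ∃ x₀, x₀ ∉ Γ := ⟨_, hf ⟨0, hp.pos⟩⟩
  obtain ⟨n, hn⟩ : ∃ n, p = n + 1 := ⟨p - 1, by have := hp.pos; omega⟩
  subst hn
  let ψ : ↥(insert x₀ Γ) → ↥(insert x₀ Γ) := fun y =>
    if h : (y : α) ∈ C then ⟨(e.symm (e ⟨y, h⟩ + 1) : α),
      Finset.mem_insert_of_mem (hCΓ (e.symm _).2)⟩ else y
  have hψinj : Function.Injective ψ := by
    intro y z h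
    simp only [ψ] at h
    split_ifs at h with h1 h2 h2
    · have h' : e.symm (e ⟨y, h1⟩ + 1) = e.symm (e ⟨z, h2⟩ + 1) :=
        Subtype.ext (congrArg Subtype.val h :)
      exact Subtype.ext (congrArg Subtype.val (e.injective (add_right_cancel (e.symm.injective h'))) :)
    · exact absurd ((congrArg Subtype.val h :) ▸ (e.symm (e ⟨y, h1⟩ + 1)).2) h2
    · exact absurd ((congrArg Subtype.val h :).symm ▸ (e.symm (e ⟨z, h2⟩ + 1)).2) h1
    · exact h
  obtain ⟨g, hg, hgs⟩ := hgen (insert x₀ Γ) (by rw [Finset.card_insert_of_notMem hx₀, hΓ])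
    (Equiv.ofBijective ψ hψinj.bijective_of_finite)
  have hgC : ∀ (y : α) (hy : y ∈ C), g y = e.symm (e ⟨y, hy⟩ + 1) := fun y hy => by
    have := hgs ⟨y, Finset.mem_insert_of_mem (hCΓ hy)⟩
    rw [Equiv.ofBijective_apply] at this
    simp only [ψ] at this
    rwa [dif_pos hy] at this
  have hgout : ∀ y ∈ Γ, y ∉ C → g y = y := fun y hy hyC => by
    have := hgs ⟨y, Finset.mem_insert_of_mem hy⟩
    rw [Equiv.ofBijective_apply] at this
    simp only [ψ] at this
    rwa [dif_neg hyC] at this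
  set g' : G := ⟨g, hg⟩
  have hgL : g' ∈ L := by
    rw [mem_stabilizer_iff]
    refine Finset.eq_of_subset_of_card_le (fun z hz => ?_) (by rw [Finset.card_smul_finset])
    obtain ⟨y, hy, rfl⟩ := Finset.mem_smul_finset.mp hz
    show g y ∈ Γ
    by_cases hyC : y ∈ C
    · rw [hgC y hyC]; exact hCΓ (e.symm _).2
    · rw [hgout y hy hyC]; exact hy
  have hpowC : ∀ (m : ℕ) (y : α) (hy : y ∈ C),
      (g' ^ m) • y = (e.symm (e ⟨y, hy⟩ + Fin.ofNat (n + 1) m) : α) := by
    intro m
    induction m with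
    | zero => intro y hy; simp
    | succ m ih =>
      intro y hy
      rw [pow_succ', mul_smul, ih y hy]
      show g _ = _
      rw [hgC _ (e.symm _).2]
      simp only [Subtype.coe_eta, Equiv.apply_symm_apply]
      congr 2
      rw [add_assoc]
      congr 1
      exact Fin.ext (by simp [Fin.val_add, Fin.ofNat, Nat.add_mod])
  have hpowout : ∀ (m : ℕ), ∀ y ∈ Γ, y ∉ C → (g' ^ m) • y = y := by
    intro m y hy hyC
    induction m with
    | zero => rw [pow_zero, one_smul]
    | succ m ih => rw [pow_succ', mul_smul, ih]; exact hgout y hy hyC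
  obtain ⟨a, m, hm, hgord⟩ := Nat.exists_eq_pow_mul_and_not_dvd
    (orderOf_pos g').ne' (n + 1) hp.ne_one
  set x : G := g' ^ m
  obtain ⟨y₀, hy₀⟩ := Finset.card_pos.mp (show 0 < C.card by omega)
  have hxmove : x • y₀ ≠ y₀ := by
    rw [hpowC m y₀ hy₀]
    intro h
    have h' : e.symm (e ⟨y₀, hy₀⟩ + Fin.ofNat (n + 1) m) = e.symm (e ⟨y₀, hy₀⟩) :=
      Subtype.ext (by rw [Equiv.symm_apply_apply]; exact h)
    have h2 := add_eq_left.mp (e.symm.injective h')
    exact hm (Nat.dvd_of_mod_eq_zero (congrArg Fin.val h2))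
  have hxP : IsPGroup (n + 1) (Subgroup.zpowers (⟨x, L.pow_mem hgL m⟩ : L)) := by
    refine IsPGroup.of_card_dvd_pow (n := a) ?_
    rw [Nat.card_zpowers, Subgroup.orderOf_mk, orderOf_dvd_iff_pow_eq_one, ← pow_mul, mul_comm,
      ← hgord, pow_orderOf_eq_one]
  obtain ⟨P, hP⟩ := hxP.exists_le_sylow
  have hxmem : (⟨x, L.pow_mem hgL m⟩ : L) ∈ (P : Subgroup L) := hP (Subgroup.mem_zpowers _)
  -- fixed points of `P` in the orbits
  have hfix : ∀ i, ∃ z ∈ orbit (fixingSubgroup G (Γ : Set α)) (f i),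
      ∀ h ∈ (P : Subgroup L), h • z = z := by
    intro i
    let Y : SubMulAction L α :=
      { carrier := orbit (fixingSubgroup G (Γ : Set α)) (f i)
        smul_mem' := fun h z hz => by
          have hzΓ : z ∉ Γ := by
            obtain ⟨k', rfl⟩ := hz
            intro hmem
            refine hf i ?_
            have := (mem_fix_iff G Γ k').mp k'.2 _ hmem
            rw [← smul_left_cancel (k' : G) this]
            exact hmem
          have := hinv h h.2 z hzΓ
          rwa [orbit_eq_iff.mpr hz] at this }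
    have h := P.isPGroup'.card_modEq_card_fixedPoints Y
    have hpos : 0 < Nat.card (fixedPoints (P : Subgroup L) Y) := by
      rcases Nat.eq_zero_or_pos (Nat.card (fixedPoints (P : Subgroup L) Y)) with e0 | e0
      · rw [e0] at h
        exact absurd (Nat.modEq_zero_iff_dvd.mp h) (hc i)
      · exact e0
    obtain ⟨⟨⟨z, hz⟩, hzf⟩⟩ := (Nat.card_pos_iff.mp hpos).1
    exact ⟨z, hz, fun k' hk' => congrArg Subtype.val (hzf ⟨k', hk'⟩)⟩
  choose z hz hzfix using hfix
  have hzinj : Function.Injective z := fun i j h => by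
    by_contra hne
    refine hdist i j hne ?_
    rw [← orbit_eq_iff.mpr (hz i), h, orbit_eq_iff.mpr (hz j)]
    exact mem_orbit_self _
  have hzΓ : ∀ i, z i ∉ Γ := fun i hmem => by
    obtain ⟨k', hk'⟩ := hz i
    refine hf i ?_
    have h := (mem_fix_iff G Γ k').mp k'.2 _ hmem
    have h' : (k' : G) • f i = z i := hk'
    rw [smul_left_cancel (k' : G) (h'.trans h.symm)]
    exact hmem
  -- the new set of size `k` fixed by `x`
  let Δ : Finset α := (Γ \ C) ∪ Finset.univ.image z
  have hΔ : Δ.card = k := by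
    rw [Finset.card_union_of_disjoint (Finset.disjoint_left.mpr fun y hy hy' => by
      obtain ⟨i, -, rfl⟩ := Finset.mem_image.mp hy'
      exact hzΓ i (Finset.mem_sdiff.mp hy).1), Finset.card_sdiff_of_subset hCΓ,
      Finset.card_image_of_injective _ hzinj, Finset.card_univ, Fintype.card_fin, hCp, hΓ]
    omega
  obtain ⟨g₁, hg₁⟩ := exists_carry G hgen Γ hΓ Δ hΔ
  -- compare `p`-parts
  let KΓ : Subgroup G := fixingSubgroup G (Γ : Set α)
  let KΔ : Subgroup G := fixingSubgroup G (Δ : Set α)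
  have hcardK : Nat.card KΔ = Nat.card KΓ := by
    refine (Nat.card_congr ((MulAut.conj g₁).toEquiv.subtypeEquiv fun h => ?_)).symm
    show h ∈ KΓ ↔ g₁ * h * g₁⁻¹ ∈ KΔ
    rw [mem_fix_iff, mem_fix_iff]
    constructor
    · intro hh y hy
      obtain ⟨w, hw, rfl⟩ := Finset.mem_smul_finset.mp (hg₁.symm ▸ hy : y ∈ g₁ • Γ)
      rw [mul_smul, mul_smul, inv_smul_smul, hh w hw]
    · intro hh w hw
      have := hh (g₁ • w) (hg₁ ▸ Finset.smul_mem_smul_finset hw)
      rw [mul_smul, mul_smul, inv_smul_smul] at this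
      exact smul_left_cancel g₁ this
  let Q : Subgroup L := (P : Subgroup L) ⊓ KΓ.subgroupOf L
  let R : Subgroup L := (P : Subgroup L) ⊓ KΔ.subgroupOf L
  have hKL : KΓ ≤ L := fun h hh => by
    rw [mem_stabilizer_iff]
    refine Finset.eq_of_subset_of_card_le (fun w hw => ?_) (by rw [Finset.card_smul_finset])
    obtain ⟨y, hy, rfl⟩ := Finset.mem_smul_finset.mp hw
    rw [(mem_fix_iff G Γ h).mp hh y hy]; exact hy
  haveI hKn : (KΓ.subgroupOf L).Normal := ⟨fun h hh k' => by
    rw [Subgroup.mem_subgroupOf] at hh ⊢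
    refine (mem_fix_iff G Γ _).mpr fun y hy => ?_
    obtain ⟨w, hw, rfl⟩ := Finset.mem_smul_finset.mp
      ((mem_stabilizer_iff.mp k'.2).symm ▸ hy : y ∈ (k' : G) • Γ)
    show ((k' : G) * (h : G) * (k' : G)⁻¹) • (k' : G) • w = (k' : G) • w
    rw [mul_smul, mul_smul, inv_smul_smul, (mem_fix_iff G Γ _).mp hh w hw]⟩
  have hQR : Q < R := by
    refine lt_of_le_of_ne (fun h hh => ⟨hh.1, (mem_fix_iff G Δ _).mpr fun y hy => ?_⟩) fun h => ?_
    · rcases Finset.mem_union.mp hy with hy | hy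
      · exact (mem_fix_iff G Γ _).mp hh.2 y (Finset.mem_sdiff.mp hy).1
      · obtain ⟨i, -, rfl⟩ := Finset.mem_image.mp hy
        exact hzfix i h hh.1
    · have hxR : (⟨x, L.pow_mem hgL m⟩ : L) ∈ R := ⟨hxmem, (mem_fix_iff G Δ _).mpr fun y hy => by
        rcases Finset.mem_union.mp hy with hy | hy
        · exact hpowout m y (Finset.mem_sdiff.mp hy).1 (Finset.mem_sdiff.mp hy).2
        · obtain ⟨i, -, rfl⟩ := Finset.mem_image.mp hy
          exact hzfix i _ hxmem⟩
      rw [← h] at hxR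
      exact hxmove ((mem_fix_iff G Γ _).mp hxR.2 y₀ (hCΓ hy₀))
  have hQcard : (n + 1) ^ (Nat.card KΓ).factorization (n + 1) ∣ Nat.card Q := by
    have hrel : ¬ (n + 1) ∣ Q.relIndex (KΓ.subgroupOf L) := by
      intro hd
      have e1 : Nat.card Q * Q.relIndex (KΓ.subgroupOf L) = Nat.card (KΓ.subgroupOf L) := by
        rw [← Subgroup.card_mul_index (Q.subgroupOf (KΓ.subgroupOf L)),
          Nat.card_congr (Subgroup.subgroupOfEquivOfLe (inf_le_right : Q ≤ KΓ.subgroupOf L)).toEquiv]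
        rfl
      have e2 : Nat.card Q * Q.relIndex (P : Subgroup L) = Nat.card (P : Subgroup L) := by
        rw [← Subgroup.card_mul_index (Q.subgroupOf (P : Subgroup L)),
          Nat.card_congr (Subgroup.subgroupOfEquivOfLe (inf_le_left : Q ≤ (P : Subgroup L))).toEquiv]
        rfl
      have e3 : Q.relIndex (P : Subgroup L) ∣ (KΓ.subgroupOf L).index := by
        rw [show Q = (P : Subgroup L) ⊓ KΓ.subgroupOf L from rfl, Subgroup.inf_relIndex_left]
        exact Subgroup.relIndex_dvd_index_of_normal _ _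
      obtain ⟨s, hs⟩ := e3
      have e4 := Subgroup.card_mul_index (KΓ.subgroupOf L)
      rw [← Subgroup.card_mul_index (P : Subgroup L), ← e1, ← e2, hs] at e4
      have e5 : Q.relIndex (KΓ.subgroupOf L) * s = (P : Subgroup L).index := by
        have hpos : 0 < Nat.card Q * Q.relIndex (P : Subgroup L) := by rw [e2]; exact Nat.card_pos
        refine Nat.eq_of_mul_eq_mul_left hpos ?_
        rw [← e4]; ring
      exact P.not_dvd_index (hd.trans (Dvd.intro s e5))
    have hmul := Subgroup.card_mul_index (Q.subgroupOf (KΓ.subgroupOf L))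
    rw [Nat.card_congr (Subgroup.subgroupOfEquivOfLe (inf_le_right : Q ≤ KΓ.subgroupOf L)).toEquiv,
      Nat.card_congr (Subgroup.subgroupOfEquivOfLe hKL).toEquiv] at hmul
    have h0 := Nat.ordProj_dvd (Nat.card KΓ) (n + 1)
    conv_rhs at h0 => rw [← hmul]
    refine Nat.Coprime.dvd_of_dvd_mul_right ?_ h0
    exact (hp.coprime_iff_not_dvd.mpr hrel).pow_left _
  have hR : Nat.card R ∣ Nat.card KΔ :=
    Subgroup.card_dvd_of_injective
      ((L.subtype.comp R.subtype).codRestrict KΔ fun h => h.2.2)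
      fun a b hab => Subtype.ext (Subtype.ext (congrArg Subtype.val hab :))
  obtain ⟨c, hcR⟩ := (IsPGroup.to_le P.isPGroup' inf_le_left).exists_card_eq (G := R)
  rw [hcardK] at hR
  have hlt : Nat.card Q < Nat.card R := by
    exact (Nat.card_coe_set_eq _).symm ▸ (Nat.card_coe_set_eq (R : Set L)).symm ▸
      Set.ncard_lt_ncard (SetLike.coe_ssubset_coe.mpr hQR) (Set.toFinite _)
  rw [hcR] at hR hlt
  have hle := (hp.pow_dvd_iff_le_factorization Nat.card_pos.ne').mp hR
  have := (Nat.le_of_dvd Nat.card_pos hQcard).trans_lt hlt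
  exact absurd this (not_lt.mpr (Nat.pow_le_pow_right hp.pos hle))

end CfsgLib.Generous
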