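import Cfsg.Agent.Lib.PermBasic
import Mathlib.GroupTheory.GroupAction.MultipleTransitivity

/-!
# Double transitivity from the heart in prime-power degree
-/

set_option autoImplicit false
set_option linter.unusedSectionVars false
set_option linter.style.haveILetI false

namespace CfsgLib.HeartTrans

open MulAction

universe u v w

variable {G : Type u} [Group G] [Finite G] {K : Type w} [Field K] {p f : ℕ} [Fact p.Prime]
  [CharP K p] {Ω : Type v} [Fintype Ω] [MulAction G Ω] [IsPretransitive G Ω]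

theorem le_sumZero (hcard : Fintype.card Ω = p ^ f) (W : Subrepresentation (Cfsg.permRep K G Ω))
    (hW : W.toSubmodule ≠ ⊤) : W.toSubmodule ≤ (Cfsg.permSumZero K G Ω).toSubmodule := by
  classical
  let A : Subrepresentation (Cfsg.permRep K G Ω) :=
    { toSubmodule :=
        { carrier := {h | ∀ v ∈ W.toSubmodule, ∑ x, v x * h x = 0}
          add_mem' := fun {h h'} e e' v hv => by
            simp only [Pi.add_apply, mul_add, Finset.sum_add_distrib, e v hv, e' v hv, add_zero]
          zero_mem' := fun v _ => by simp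
          smul_mem' := fun c h e v hv => by
            simp only [Pi.smul_apply, smul_eq_mul, mul_left_comm _ c, ← Finset.mul_sum, e v hv,
              mul_zero] }
      apply_mem_toSubmodule := fun g h e v hv => by
        have := e _ (W.apply_mem_toSubmodule g⁻¹ hv)
        rw [← this]
        refine Fintype.sum_equiv (MulAction.toPerm g⁻¹) _ _ fun x => ?_
        show v x * h (g⁻¹ • x) = v (g⁻¹⁻¹ • g⁻¹ • x) * h (g⁻¹ • x)
        rw [inv_inv, smul_inv_smul] }
  have hA : A.toSubmodule ≠ ⊥ := by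
    obtain ⟨φ, hφ, hker⟩ := Submodule.exists_le_ker_of_lt_top W.toSubmodule (lt_top_iff_ne_top.mpr hW)
    have e : ∀ v : Ω → K, φ v = ∑ x, v x * φ (Pi.single x 1) := fun v => by
      conv_lhs => rw [pi_eq_sum_univ' v]
      simp [map_sum, map_smul]
    intro hb
    apply hφ
    ext x
    have hmem : (fun y => φ (Pi.single y 1)) ∈ A.toSubmodule := fun v hv => by
      rw [← e]; exact LinearMap.mem_ker.mp (hker hv)
    rw [hb, Submodule.mem_bot] at hmem
    show φ (Pi.single x 1) = 0
    exact congrFun hmem x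
  intro v hv
  have h1 : (fun _ => (1 : K)) ∈ A.toSubmodule :=
    CfsgLib.Perm.constants_le hcard A hA (Submodule.mem_span_singleton_self _)
  show ∑ x, v x = 0
  simpa using h1 v hv

theorem two_transitive (hf : 1 ≤ f) (hcard : Fintype.card Ω = p ^ f)
    (h : ∀ W W' : Subrepresentation (Cfsg.permRep K G Ω),
      (Cfsg.permConstants K G Ω).toSubmodule ≤ W.toSubmodule → W.toSubmodule < W'.toSubmodule →
      W'.toSubmodule ≤ (Cfsg.permSumZero K G Ω).toSubmodule →
        ∃ g : G, ∃ v ∈ W'.toSubmodule, Cfsg.permRep K G Ω g v - v ∉ W.toSubmodule) :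
    IsMultiplyPretransitive G Ω 2 := by
  classical
  rw [is_two_pretransitive_iff]
  intro a b a' b' hab hab'
  let O : Ω → Ω → K := fun x y => if ∃ g : G, g • a = x ∧ g • b = y then 1 else 0
  have hO : ∀ (g : G) x y, O (g • x) (g • y) = O x y := fun g x y => by
    simp only [O]
    refine if_congr ⟨fun ⟨h', h1, h2⟩ => ⟨g⁻¹ * h', by rw [mul_smul, h1, inv_smul_smul],
      by rw [mul_smul, h2, inv_smul_smul]⟩,
      fun ⟨h', h1, h2⟩ => ⟨g * h', by rw [mul_smul, h1], by rw [mul_smul, h2]⟩⟩ rfl rfl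
  let k : K := ∑ y, O a y
  let N : (Ω → K) →ₗ[K] (Ω → K) :=
    { toFun := fun v x => (∑ y, O x y * v y) - k * v x
      map_add' := fun v v' => funext fun x => by
        simp [mul_add, Finset.sum_add_distrib]; ring
      map_smul' := fun c v => funext fun x => by
        simp [Finset.mul_sum, mul_sub, mul_left_comm] }
  have hrow : ∀ x, ∑ y, O x y = k := fun x => by
    obtain ⟨g, rfl⟩ := exists_smul_eq G a x
    exact (Fintype.sum_equiv (MulAction.toPerm g) _ _ fun y => (hO g a y).symm).symm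
  have hNg : ∀ (g : G) v, N (Cfsg.permRep K G Ω g v) = Cfsg.permRep K G Ω g (N v) := by
    intro g v
    funext x
    show (∑ y, O x y * v (g⁻¹ • y)) - k * v (g⁻¹ • x) = (∑ y, O (g⁻¹ • x) y * v y) - k * v (g⁻¹ • x)
    congr 1
    refine Fintype.sum_equiv (MulAction.toPerm g⁻¹) _ _ fun y => ?_
    show O x y * v (g⁻¹ • y) = O (g⁻¹ • x) (g⁻¹ • y) * v (g⁻¹ • y)
    rw [hO]
  have hN1 : N (fun _ => 1) = 0 := funext fun x => by
    show (∑ y, O x y * 1) - k * 1 = 0
    simp only [mul_one, hrow, sub_self]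
  let R : Subrepresentation (Cfsg.permRep K G Ω) :=
    ⟨LinearMap.range N, fun g v => by rintro ⟨w, rfl⟩; exact ⟨_, hNg g w⟩⟩
  let S : Subrepresentation (Cfsg.permRep K G Ω) :=
    ⟨(Cfsg.permSumZero K G Ω).toSubmodule.map N, fun g v => by
      rintro ⟨w, hw, rfl⟩
      exact ⟨_, (Cfsg.permSumZero K G Ω).apply_mem_toSubmodule g hw, hNg g w⟩⟩
  let Z : Subrepresentation (Cfsg.permRep K G Ω) :=
    ⟨LinearMap.ker N, fun g v hv => by
      rw [LinearMap.mem_ker] at hv ⊢
      rw [hNg, hv, map_zero]⟩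
  -- every image is constant
  have hcon : R.toSubmodule ≤ (Cfsg.permConstants K G Ω).toSubmodule := by
    by_contra hR
    have hSR : S.toSubmodule ≤ R.toSubmodule := LinearMap.map_le_range
    have hsingle : (Pi.single a (1 : K) : Ω → K) ∉ (Cfsg.permSumZero K G Ω).toSubmodule := fun e =>
      one_ne_zero (show (1 : K) = 0 by
        have e' : ∑ x, (Pi.single a (1 : K) : Ω → K) x = 0 := e
        simpa using e')
    have hsplit : ∀ v : Ω → K,
        v - (∑ x, v x) • Pi.single a 1 ∈ (Cfsg.permSumZero K G Ω).toSubmodule := fun v => by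
      show ∑ x, (v x - (∑ y, v y) • (Pi.single a (1 : K) : Ω → K) x) = 0
      simp [Finset.sum_sub_distrib, ← Finset.mul_sum]
    have hne : R.toSubmodule ≠ ⊥ := fun e => hR (e ▸ bot_le)
    have hlt : S.toSubmodule < R.toSubmodule := by
      refine lt_of_le_of_ne hSR fun e => ?_
      obtain ⟨s, hs, hse⟩ : N (Pi.single a 1) ∈ S.toSubmodule := e ▸ ⟨_, rfl⟩
      have hZ : Z.toSubmodule = ⊤ := by
        by_contra hZ
        have hm : Pi.single a 1 - s ∈ Z.toSubmodule :=
          LinearMap.mem_ker.mpr (by rw [map_sub, hse, sub_self])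
        refine hsingle ?_
        have := Submodule.add_mem _ (le_sumZero hcard Z hZ hm) hs
        rwa [sub_add_cancel] at this
      refine hne (eq_bot_iff.mpr ?_)
      rintro _ ⟨v, rfl⟩
      have hv : v ∈ Z.toSubmodule := hZ ▸ Submodule.mem_top
      rw [Submodule.mem_bot]
      exact hv
    have hcS : (Cfsg.permConstants K G Ω).toSubmodule ≤ S.toSubmodule := by
      refine CfsgLib.Perm.constants_le hcard S fun e => hR ?_
      obtain ⟨v₁, hv₁, hmem⟩ : ∃ v₁ : Ω → K, v₁ ≠ 0 ∧ v₁ ∈ R.toSubmodule :=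
        let ⟨v, hv, hv0⟩ := (Submodule.ne_bot_iff _).mp hne
        ⟨v, hv0, hv⟩
      have hle : R.toSubmodule ≤ Submodule.span K {N (Pi.single a 1)} := by
        rintro _ ⟨v, rfl⟩
        refine Submodule.mem_span_singleton.mpr ⟨∑ x, v x, ?_⟩
        have h0 : N (v - (∑ x, v x) • Pi.single a 1) ∈ S.toSubmodule := ⟨_, hsplit v, rfl⟩
        rw [e, Submodule.mem_bot, map_sub, map_smul, sub_eq_zero] at h0
        exact h0.symm
      have hc1 := CfsgLib.Perm.constants_le hcard R hne
      obtain ⟨t, ht⟩ := Submodule.mem_span_singleton.mp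
        (hle (hc1 (Submodule.mem_span_singleton_self (fun _ : Ω => (1 : K)))))
      have ht0 : t ≠ 0 := fun e0 => by
        rw [e0, zero_smul] at ht
        exact one_ne_zero (congrFun ht a).symm
      intro w hw
      obtain ⟨s, hs⟩ := Submodule.mem_span_singleton.mp (hle hw)
      refine Submodule.mem_span_singleton.mpr ⟨s * t⁻¹, ?_⟩
      rw [← ht, smul_smul, inv_mul_cancel_right₀ ht0, hs]
    have htop : R.toSubmodule ≤ (Cfsg.permSumZero K G Ω).toSubmodule := by
      refine le_sumZero hcard R fun e => ?_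
      have hsurj : Function.Surjective N := LinearMap.range_eq_top.mp e
      have := (LinearMap.injective_iff_surjective.mpr hsurj) (hN1.trans (map_zero N).symm)
      exact one_ne_zero (congrFun this a)
    obtain ⟨g, v, ⟨w, rfl⟩, hg⟩ := h S R hcS hlt htop
    refine hg ⟨Cfsg.permRep K G Ω g w - w, ?_, by rw [map_sub, hNg]⟩
    show ∑ x, (w (g⁻¹ • x) - w x) = 0
    rw [Finset.sum_sub_distrib, sub_eq_zero]
    exact Fintype.sum_equiv (MulAction.toPerm g⁻¹) _ _ fun x => rfl
  have hkey : ∀ x y : Ω, x ≠ y → O x y = -k := by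
    intro x y hxy
    obtain ⟨t, ht⟩ := Submodule.mem_span_singleton.mp (hcon ⟨Pi.single y 1, rfl⟩)
    have e : N (Pi.single y 1) x = N (Pi.single y 1) y := by rw [← ht]; rfl
    change (∑ z, O x z * (Pi.single y (1 : K) : Ω → K) z) - k * (Pi.single y (1 : K) : Ω → K) x =
      (∑ z, O y z * (Pi.single y (1 : K) : Ω → K) z) - k * (Pi.single y (1 : K) : Ω → K) y at e
    have hOyy : O y y = 0 := if_neg fun ⟨g, h1, h2⟩ => hab (smul_left_cancel g (h1.trans h2.symm))
    simpa [Pi.single_apply, hxy, hOyy] using e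
  by_contra hnot
  have e1 := hkey a b hab
  have e2 := hkey a' b' hab'
  have e3 : O a b = 1 := if_pos ⟨1, one_smul _ _, one_smul _ _⟩
  have e4 : O a' b' = 0 := if_neg hnot
  rw [e3] at e1; rw [e4, ← e1] at e2
  exact zero_ne_one e2

end CfsgLib.HeartTrans
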