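import Mathlib.GroupTheory.GroupAction.SubMulAction.Combination
import Mathlib.Combinatorics.Enumerative.DoubleCounting
import Mathlib.Data.Nat.Choose.Lucas
import Mathlib.Algebra.IsPrimePow

/-!
# Homogeneity descends
-/

set_option autoImplicit false
set_option linter.unusedSectionVars false
set_option linter.style.haveILetI false

namespace CfsgLib.Homog

open MulAction Pointwise

universe u

theorem choose_coprime {k p a : ℕ} [hp : Fact p.Prime] (hk : p ^ a ∣ k) :
    ¬ p ∣ (k + p ^ a - 1).choose k := by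
  intro h
  have hl := Choose.choose_modEq_choose_mul_prod_range_choose (p := p) (n := k + p ^ a - 1) (k := k) a
  obtain ⟨c, rfl⟩ := hk
  have hpa : 0 < p ^ a := pow_pos hp.out.pos a
  have hdiv : (p ^ a * c + p ^ a - 1) / p ^ a = c := by
    rw [Nat.add_sub_assoc hpa, Nat.mul_add_div hpa, Nat.div_eq_of_lt (by omega), add_zero]
  rw [hdiv, Nat.mul_div_cancel_left _ hpa, Nat.choose_self, Finset.prod_eq_one fun i hi => ?_] at hl
  · have h' : ((p : ℤ)) ∣ ((p ^ a * c + p ^ a - 1).choose (p ^ a * c) : ℤ) := by exact_mod_cast h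
    have h1 := (Int.ModEq.dvd_iff hl).mp h'
    norm_num at h1
    exact hp.out.not_dvd_one (by exact_mod_cast h1)
  · have hd : p ^ i * p ∣ p ^ a * c := by
      rw [← pow_succ]; exact (pow_dvd_pow p (Finset.mem_range.mp hi)).mul_right c
    obtain ⟨e, he⟩ := hd
    rw [he, mul_assoc, Nat.mul_div_cancel_left _ (pow_pos hp.out.pos i), Nat.mul_mod_right,
      Nat.choose_zero_right]

variable {α : Type u} [Fintype α] [DecidableEq α]

theorem homogeneous_pred (G : Subgroup (Equiv.Perm α)) {k : ℕ} (hk : 2 ≤ k)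
    (hG : IsPretransitive G (Set.powersetCard α k))
    (hq : ∀ q : ℕ, IsPrimePow q → q ∣ k → k + q - 1 ≤ Fintype.card α) :
    IsPretransitive G (Set.powersetCard α (k - 1)) := by
  classical
  have hn : k ≤ Fintype.card α := by
    obtain ⟨p, hp, hpk⟩ := Nat.exists_prime_and_dvd (show k ≠ 1 by omega)
    have := hq p hp.isPrimePow hpk
    have := hp.one_le
    omega
  rw [isPretransitive_iff]
  rintro ⟨T₀, hT₀⟩ ⟨T₁, hT₁⟩
  rw [Set.powersetCard.mem_iff] at hT₀ hT₁
  let O : Finset (Finset α) := Finset.univ.filter fun T => ∃ g : G, g • T₀ = T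
  have hO : ∀ T, T ∈ O ↔ ∃ g : G, g • T₀ = T := fun T => by simp [O]
  have hOcard : ∀ T ∈ O, T.card = k - 1 := fun T hT => by
    obtain ⟨g, rfl⟩ := (hO T).mp hT
    rw [Finset.card_smul_finset, hT₀]
  have hOinv : ∀ (g : G) T, g • T ∈ O ↔ T ∈ O := fun g T => by
    rw [hO, hO]
    exact ⟨fun ⟨g', h⟩ => ⟨g⁻¹ * g', by rw [mul_smul, h, inv_smul_smul]⟩,
      fun ⟨g', h⟩ => ⟨g * g', by rw [mul_smul, h]⟩⟩
  let lam : Finset α → ℕ := fun S => (O.filter fun T => T ⊆ S).card
  have hlinv : ∀ (g : G) S, lam (g • S) = lam S := fun g S => by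
    refine (Finset.card_equiv (MulAction.toPerm g) fun T => ?_).symm
    simp only [Finset.mem_filter]
    show _ ↔ g • T ∈ O ∧ g • T ⊆ g • S
    rw [hOinv, Finset.smul_finset_subset_smul_finset_iff]
  have hconst : ∀ S S' : Finset α, S.card = k → S'.card = k → lam S = lam S' := fun S S' h h' => by
    obtain ⟨g, hg⟩ := hG.exists_smul_eq (⟨S, h⟩ : Set.powersetCard α k) ⟨S', h'⟩
    have e : g • S = S' := congrArg Subtype.val hg
    rw [← e, hlinv]
  obtain ⟨S₀, hS₀, hS₀c⟩ : ∃ S₀, T₀ ⊆ S₀ ∧ S₀.card = k := by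
    obtain ⟨S, h1, -, h2⟩ := Finset.exists_subsuperset_card_eq (Finset.subset_univ T₀)
      (show T₀.card ≤ k by omega) (by rw [Finset.card_univ]; exact hn)
    exact ⟨S, h1, h2⟩
  have hdvd : ∀ p a : ℕ, p.Prime → p ^ a ∣ k → p ^ a ∣ lam S₀ := by
    intro p a hp hpa
    rcases Nat.eq_zero_or_pos a with rfl | ha
    · rw [pow_zero]; exact one_dvd _
    haveI := Fact.mk hp
    have hU := hq (p ^ a) (hp.isPrimePow.pow ha.ne') hpa
    obtain ⟨U, -, -, hUc⟩ := Finset.exists_subsuperset_card_eq (Finset.subset_univ (∅ : Finset α))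
      (show (∅ : Finset α).card ≤ k + p ^ a - 1 by simp) (by rw [Finset.card_univ]; exact hU)
    have h := Finset.card_mul_eq_card_mul (fun (S : Finset α) (T : Finset α) => T ⊆ S)
      (s := U.powersetCard k) (t := O.filter fun T => T ⊆ U) (m := lam S₀) (n := p ^ a) ?_ ?_
    · rw [Finset.card_powersetCard, hUc, mul_comm] at h
      refine (Nat.Coprime.dvd_of_dvd_mul_right ?_ ⟨_, h.trans (mul_comm _ _)⟩)
      exact ((Nat.Prime.coprime_iff_not_dvd hp).mpr (choose_coprime hpa)).pow_left a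
    · intro S hS
      obtain ⟨hSU, hSc⟩ := Finset.mem_powersetCard.mp hS
      rw [hconst S₀ S hS₀c hSc]
      refine congrArg Finset.card (Finset.ext fun T => ?_)
      simp only [Finset.mem_bipartiteAbove, Finset.mem_filter]
      exact ⟨fun h => ⟨h.1.1, h.2⟩, fun h => ⟨⟨h.1, h.2.trans hSU⟩, h.2⟩⟩
    · intro T hT
      obtain ⟨hTO, hTU⟩ := Finset.mem_filter.mp hT
      have hpa1 : 1 ≤ p ^ a := pow_pos hp.pos a
      rw [show p ^ a = (U \ T).card by
        rw [Finset.card_sdiff_of_subset hTU, hUc, hOcard T hTO]; omega]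
      symm
      refine Finset.card_bij (fun x _ => insert x T) (fun x hx => ?_) (fun x hx y hy e => ?_)
        fun S hS => ?_
      · obtain ⟨hxU, hxT⟩ := Finset.mem_sdiff.mp hx
        simp only [Finset.mem_bipartiteBelow, Finset.mem_powersetCard]
        exact ⟨⟨Finset.insert_subset hxU hTU,
          by rw [Finset.card_insert_of_notMem hxT, hOcard T hTO]; omega⟩, Finset.subset_insert _ _⟩
      · have : x ∈ insert y T := e ▸ Finset.mem_insert_self x T
        exact (Finset.mem_insert.mp this).resolve_right (Finset.mem_sdiff.mp hx).2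
      · simp only [Finset.mem_bipartiteBelow, Finset.mem_powersetCard] at hS
        obtain ⟨⟨hSU, hSc⟩, hTS⟩ := hS
        obtain ⟨x, hx⟩ := Finset.card_eq_one.mp (show (S \ T).card = 1 by
          rw [Finset.card_sdiff_of_subset hTS, hSc, hOcard T hTO]; omega)
        have hxm : x ∈ S \ T := by rw [hx]; exact Finset.mem_singleton_self x
        obtain ⟨hxS, hxT⟩ := Finset.mem_sdiff.mp hxm
        exact ⟨x, Finset.mem_sdiff.mpr ⟨hSU hxS, hxT⟩,
          Finset.eq_of_subset_of_card_le (Finset.insert_subset hxS hTS)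
            (by rw [Finset.card_insert_of_notMem hxT, hSc, hOcard T hTO]; omega)⟩
  have hlpos : 0 < lam S₀ :=
    Finset.card_pos.mpr ⟨T₀, Finset.mem_filter.mpr ⟨(hO T₀).mpr ⟨1, one_smul _ _⟩, hS₀⟩⟩
  have hkl : k ∣ lam S₀ :=
    (Nat.dvd_iff_prime_pow_dvd_dvd (lam S₀) k).mpr fun p a hp hpa => hdvd p a hp hpa
  obtain ⟨S₁, hS₁, hS₁c⟩ : ∃ S₁, T₁ ⊆ S₁ ∧ S₁.card = k := by
    obtain ⟨S, h1, -, h2⟩ := Finset.exists_subsuperset_card_eq (Finset.subset_univ T₁)
      (show T₁.card ≤ k by omega) (by rw [Finset.card_univ]; exact hn)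
    exact ⟨S, h1, h2⟩
  have hfull : (O.filter fun T => T ⊆ S₁) = S₁.powersetCard (k - 1) := by
    refine Finset.eq_of_subset_of_card_le (fun T hT => ?_) ?_
    · obtain ⟨h1, h2⟩ := Finset.mem_filter.mp hT
      exact Finset.mem_powersetCard.mpr ⟨h2, hOcard T h1⟩
    · rw [Finset.card_powersetCard, hS₁c, Nat.choose_symm_of_eq_add (show k = k - 1 + 1 by omega),
        Nat.choose_one_right]
      show k ≤ lam S₁
      rw [hconst S₁ S₀ hS₁c hS₀c]
      exact Nat.le_of_dvd hlpos hkl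
  have : T₁ ∈ O.filter fun T => T ⊆ S₁ := by
    rw [hfull]; exact Finset.mem_powersetCard.mpr ⟨hS₁, hT₁⟩
  obtain ⟨g, hg⟩ := (hO T₁).mp (Finset.mem_filter.mp this).1
  exact ⟨g, Subtype.ext hg⟩

end CfsgLib.Homog
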