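import Cfsg.Agent.Lib.PermPrim
import Cfsg.Agent.Lib.PermNearField
import Cfsg.Agent.Lib.PermThreeTrans
import Cfsg.Agent.Lib.PermTrans
import Mathlib.GroupTheory.GroupAction.MultiplePrimitivity
import Mathlib.GroupTheory.Sylow

/-!
# Normal subgroups of multiply transitive groups
-/

set_option autoImplicit false
set_option linter.unusedSectionVars false
set_option linter.style.haveILetI false

namespace CfsgLib.Jordan

open MulAction CfsgLib.Perm

universe u v

section Basic

variable {G : Type u} [Group G] {X : Type v} [MulAction G X]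

theorem faithful_stabilizer [FaithfulSMul G X] (a : X) :
    FaithfulSMul (stabilizer G a) (SubMulAction.ofStabilizer G a) := ⟨fun {g g'} h => by
  refine Subtype.ext (eq_of_smul_eq_smul fun x : X => ?_)
  by_cases hx : x = a
  · rw [hx]; exact g.2.trans g'.2.symm
  · exact congrArg Subtype.val (h ⟨x, hx⟩)⟩

theorem card_ofStabilizer [Fintype X] (a : X) :
    Nat.card (SubMulAction.ofStabilizer G a) = Fintype.card X - 1 := by
  classical
  rw [Nat.card_congr (Equiv.subtypeEquivRight (p := fun x => x ∈ SubMulAction.ofStabilizer G a)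
    (q := fun x => x ≠ a) fun x => Iff.rfl), Nat.card_eq_fintype_card,
    Fintype.card_subtype_compl, Fintype.card_subtype_eq]

theorem normal_pretransitive [FaithfulSMul G X] (hp : IsPreprimitive G X) (N : Subgroup G)
    [N.Normal] (hN : N ≠ ⊥) : IsPretransitive N X := by
  refine IsQuasiPreprimitive.isPretransitive_of_normal fun h => hN ?_
  rw [Subgroup.eq_bot_iff_forall]
  intro g hg
  refine eq_of_smul_eq_smul fun x : X => ?_
  rw [one_smul]
  exact (h.symm ▸ Set.mem_univ x : x ∈ fixedPoints N X) ⟨g, hg⟩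

theorem lift_transitive (N : Subgroup G) [IsPretransitive N X] (a : X) {k : ℕ}
    (h : IsMultiplyPretransitive (N.subgroupOf (stabilizer G a))
      (SubMulAction.ofStabilizer G a) k) :
    IsMultiplyPretransitive N X (k + 1) := by
  rw [SubMulAction.ofStabilizer.isMultiplyPretransitive (a := a), IsMultiplyPretransitive,
    isPretransitive_iff]
  intro u v
  let w : (Fin k ↪ SubMulAction.ofStabilizer N a) → (Fin k ↪ SubMulAction.ofStabilizer G a) :=
    fun u => ⟨fun i => ⟨(u i : X), (u i).2⟩, fun i j e => u.injective (Subtype.ext (congrArg Subtype.val e :))⟩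
  obtain ⟨g, hg⟩ := h.exists_smul_eq (w u) (w v)
  refine ⟨⟨⟨((g : stabilizer G a) : G), g.2⟩, (g : stabilizer G a).2⟩, DFunLike.ext _ _ fun i => ?_⟩
  exact Subtype.ext (congrArg Subtype.val (DFunLike.congr_fun hg i) :)

theorem subgroupOf_ne_bot (N : Subgroup G) [IsPretransitive N X]
    (hnr : ∃ a : X, ∃ g ∈ N, g ≠ 1 ∧ g • a = a) (a : X) :
    N.subgroupOf (stabilizer G a) ≠ ⊥ := by
  obtain ⟨b, g, hg, hg1, hgb⟩ := hnr
  obtain ⟨h, hh⟩ := exists_smul_eq N b a
  rw [Ne, Subgroup.eq_bot_iff_forall]
  intro hall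
  have hmem : (h : G) * g * (h : G)⁻¹ ∈ stabilizer G a := by
    rw [mem_stabilizer_iff, ← hh]
    show ((h : G) * g * (h : G)⁻¹) • (h : G) • b = (h : G) • b
    rw [mul_smul, mul_smul, inv_smul_smul, hgb]
  have := congrArg Subtype.val (hall ⟨_, hmem⟩ (N.mul_mem (N.mul_mem h.2 hg) (N.inv_mem h.2)))
  exact hg1 (conj_eq_one_iff.mp this)

theorem card_le_three_of_elementary [Fintype X] [Finite G] [FaithfulSMul G X] (N : Subgroup G)
    [IsPretransitive N X] (a : X) (h2 : IsMultiplyPretransitive N X 2)
    (hfree : ∀ g ∈ N, g • a = a → ∀ x, x ≠ a → g • x = x → g = 1)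
    (hexp : ∀ g ∈ N, g • a = a → g * g = 1) : Fintype.card X ≤ 3 := by
  classical
  by_contra hn
  have hsharp : ∀ (g : N) (x y : X), x ≠ y → g • x = x → g • y = y → g = 1 := by
    intro g x y hxy hx hy
    obtain ⟨h, hh⟩ := exists_smul_eq N x a
    have h1 : h * g * h⁻¹ = 1 := Subtype.ext (hfree (h * g * h⁻¹ : N) (Subtype.mem _)
      (show (h * g * h⁻¹) • a = a by rw [← hh, mul_smul, mul_smul, inv_smul_smul, hx]) (h • y)
      (fun e => hxy (smul_left_cancel h (hh.trans e.symm)))
      (show (h * g * h⁻¹) • h • y = h • y by rw [mul_smul, mul_smul, inv_smul_smul, hy]))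
    exact conj_eq_one_iff.mp h1
  obtain ⟨p, K, -, hKn, hKc, -, hKt, hKs, -, -, -⟩ := sharp_structure (G := N)
    (fun {_ _ _ _} e e' => is_two_pretransitive_iff.mp h2 e e') hsharp
    (by rw [Nat.card_eq_fintype_card]; omega)
  obtain ⟨b, hb⟩ := Fintype.exists_ne_of_one_lt_card (show 1 < Fintype.card X by omega) a
  have hinv : ∀ u : N, u • a = a → u ≠ 1 → ∀ k ∈ K, u * k * u⁻¹ = k⁻¹ := by
    intro u hu hu1 k hk
    have hu2 : u * u = 1 := Subtype.ext (hexp u u.2 hu)
    have hui : u⁻¹ = u := inv_eq_of_mul_eq_one_left hu2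
    have hck : u * k * u⁻¹ ∈ K := hKn.conj_mem k hk u
    set z := k * (u * k * u⁻¹) with hz
    have hcz : u * z = z * u := by
      rw [hz, hKc k hk _ hck, hui]
      calc u * (u * k * u * k) = (u * u) * k * u * k := by group
        _ = k * u * k := by rw [hu2]; group
        _ = k * u * k * (u * u) := by rw [hu2, mul_one]
        _ = k * (u * k * u) * u := by group
        _ = (u * k * u) * k * u := by rw [hKc k hk _ (by rw [hui] at hck; exact hck)]
    have hza : z • a = a := by
      by_contra hne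
      exact hu1 (hsharp u a (z • a) (Ne.symm hne) hu (by rw [← mul_smul, hcz, mul_smul, hu]))
    have hz1 : (⟨z, K.mul_mem hk hck⟩ : K) = 1 := by
      rw [← Subgroup.mem_bot, ← hKs a]
      exact hza
    exact eq_inv_of_mul_eq_one_right (congrArg Subtype.val hz1)
  have huniq : ∀ u v : N, u • a = a → v • a = a → u ≠ 1 → v ≠ 1 → u = v := by
    intro u v hu hv hu1 hv1
    have hfix : u * v = 1 := by
      refine Subtype.ext (eq_of_smul_eq_smul fun x : X => ?_)
      obtain ⟨⟨k, hk⟩, rfl⟩ := hKt.exists_smul_eq a x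
      show (u * v) • k • a = (1 : N) • k • a
      have hc : (u * v) * k = k * (u * v) := by
        have e1 := hinv v hv hv1 k hk
        have e2 := hinv u hu hu1 k⁻¹ (K.inv_mem hk)
        rw [inv_inv] at e2
        calc u * v * k = u * (v * k * v⁻¹) * v := by group
          _ = u * k⁻¹ * v := by rw [e1]
          _ = (u * k⁻¹ * u⁻¹) * (u * v) := by group
          _ = k * (u * v) := by rw [e2]
      rw [one_smul, ← mul_smul, hc, mul_smul, mul_smul u, hv, hu]
    rw [eq_inv_of_mul_eq_one_left hfix]
    exact inv_eq_of_mul_eq_one_left (Subtype.ext (hexp v v.2 hv))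
  obtain ⟨c, hc⟩ : ∃ c, c ∉ ({a, b} : Finset X) := by
    by_contra hc
    push Not at hc
    have := Finset.card_le_card (fun x _ => hc x : (Finset.univ : Finset X) ⊆ {a, b})
    rw [Finset.card_univ, Finset.card_pair (Ne.symm hb)] at this
    omega
  simp only [Finset.mem_insert, Finset.mem_singleton, not_or] at hc
  obtain ⟨d, hd⟩ : ∃ d, d ∉ ({a, b, c} : Finset X) := by
    by_contra hd
    push Not at hd
    have h' := Finset.card_le_card (fun x _ => hd x : (Finset.univ : Finset X) ⊆ {a, b, c})
    rw [Finset.card_univ] at h'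
    have := Finset.card_le_three (a := a) (b := b) (c := c)
    omega
  simp only [Finset.mem_insert, Finset.mem_singleton, not_or] at hd
  obtain ⟨u, hu, hub⟩ := is_two_pretransitive_iff.mp h2 (Ne.symm hb) (Ne.symm hc.1)
  obtain ⟨v, hv, hvb⟩ := is_two_pretransitive_iff.mp h2 (Ne.symm hb) (Ne.symm hd.1)
  have e := huniq u v hu hv (fun e => hc.2 (by rw [← hub, e, one_smul]))
    (fun e => hd.2.1 (by rw [← hvb, e, one_smul]))
  exact hd.2.2 (by rw [← hvb, ← e, hub])

theorem card_eq_factorial_of_three [Fintype X] [FaithfulSMul G X]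
    (h3 : IsMultiplyPretransitive G X 3) (hn3 : 3 ≤ Fintype.card X) (hn4 : Fintype.card X ≤ 4) :
    Nat.card G = (Fintype.card X).factorial := by
  classical
  rw [← Nat.card_eq_fintype_card, ← Nat.card_perm]
  refine Nat.card_eq_of_bijective (MulAction.toPerm : G → Equiv.Perm X)
    ⟨MulAction.toPerm_injective, fun σ => ?_⟩
  obtain ⟨u⟩ : Nonempty (Fin 3 ↪ X) :=
    Function.Embedding.nonempty_of_card_le (by rw [Fintype.card_fin]; omega)
  obtain ⟨g, hg⟩ := h3.exists_smul_eq u (u.trans σ.toEmbedding)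
  refine ⟨g, Equiv.ext fun x => ?_⟩
  show g • x = σ x
  have hU : ∀ i, g • u i = σ (u i) := fun i => DFunLike.congr_fun hg i
  by_cases hx : x ∈ Finset.univ.map u
  · obtain ⟨i, -, rfl⟩ := Finset.mem_map.mp hx
    exact hU i
  · have hle : ((Finset.univ.map (u.trans σ.toEmbedding))ᶜ).card ≤ 1 := by
      rw [Finset.card_compl, Finset.card_map, Finset.card_univ, Fintype.card_fin]; omega
    refine Finset.card_le_one.mp hle _ ?_ _ ?_
    · simp only [Finset.mem_compl, Finset.mem_map, Finset.mem_univ, true_and, not_exists]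
      intro i e
      change σ (u i) = g • x at e
      rw [← hU] at e
      exact hx (smul_left_cancel g e ▸ Finset.mem_map_of_mem u (Finset.mem_univ i))
    · simp only [Finset.mem_compl, Finset.mem_map, Finset.mem_univ, true_and, not_exists]
      intro i e
      exact hx (σ.injective (e : σ (u i) = σ x) ▸ Finset.mem_map_of_mem u (Finset.mem_univ i))

end Basic

/-- A non-regular normal subgroup of a `k`-primitive group is `k`-transitive, apart from small
symmetric groups. -/
theorem primitive_normal (k : ℕ) : ∀ (G : Type u) [Group G] [Finite G] (X : Type v) [Fintype X]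
    [MulAction G X] [FaithfulSMul G X], 1 ≤ k → k ≤ Fintype.card X →
    IsMultiplyPreprimitive G X k → ∀ (H : Subgroup G) [H.Normal],
    (∃ a : X, ∃ g ∈ H, g ≠ 1 ∧ g • a = a) →
    IsMultiplyPretransitive H X k ∨
      (3 ≤ k ∧ Fintype.card X ≤ k + 1 ∧ Nat.card G = (Fintype.card X).factorial) := by
  induction k with
  | zero => intro G _ _ X _ _ _ h; omega
  | succ k ih =>
    intro G _ _ X _ _ _ _ hkn hG H _ hnr
    have hprim : IsPreprimitive G X := by
      rw [← is_one_preprimitive_iff]
      exact isMultiplyPreprimitive_of_le G X hG (by omega)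
        (by rw [ENat.card_eq_coe_fintype_card]; exact_mod_cast hkn)
    have hne : H ≠ ⊥ := by
      obtain ⟨-, g, hg, hg1, -⟩ := hnr
      exact fun e => hg1 (Subgroup.mem_bot.mp (e ▸ hg))
    haveI := normal_pretransitive hprim H hne
    rcases Nat.eq_zero_or_pos k with rfl | hk
    · left
      exact is_one_pretransitive_iff.mpr inferInstance
    haveI := hprim.toIsPretransitive
    obtain ⟨a, -⟩ := id hnr
    haveI := faithful_stabilizer (G := G) a
    haveI := hG
    haveI hGa : IsMultiplyPreprimitive (stabilizer G a) (SubMulAction.ofStabilizer G a) k :=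
      isMultiplyPreprimitive_ofStabilizer G X
    haveI : Fintype (SubMulAction.ofStabilizer G a) := Fintype.ofFinite _
    have hcard : Fintype.card (SubMulAction.ofStabilizer G a) = Fintype.card X - 1 := by
      rw [← Nat.card_eq_fintype_card, card_ofStabilizer]
    have hne' : H.subgroupOf (stabilizer G a) ≠ ⊥ := subgroupOf_ne_bot H hnr a
    by_cases hnr' : ∃ b : SubMulAction.ofStabilizer G a,
        ∃ g ∈ H.subgroupOf (stabilizer G a), g ≠ 1 ∧ g • b = b
    · rcases ih (stabilizer G a) (SubMulAction.ofStabilizer G a) hk (by omega) hGa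
        (H.subgroupOf (stabilizer G a)) hnr' with h | ⟨h1, h2, h3⟩
      · exact .inl (lift_transitive H a h)
      · refine .inr ⟨by omega, by omega, ?_⟩
        rw [← Subgroup.card_mul_index (stabilizer G a), index_stabilizer_of_transitive G a, h3,
          hcard, Nat.card_eq_fintype_card, mul_comm, Nat.mul_factorial_pred (by omega)]
    have hprimY : IsPreprimitive (stabilizer G a) (SubMulAction.ofStabilizer G a) := by
      rw [← is_one_preprimitive_iff]
      exact isMultiplyPreprimitive_of_le _ _ hGa hk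
        (by rw [ENat.card_eq_coe_fintype_card]; exact_mod_cast (by omega : k ≤ _))
    haveI htY := normal_pretransitive hprimY _ hne'
    have h2t : IsMultiplyPretransitive H X 2 :=
      lift_transitive H a (is_one_pretransitive_iff.mpr htY)
    rcases (show k = 1 ∨ 2 ≤ k by omega) with rfl | hk2
    · exact .inl h2t
    refine .inr ⟨by omega, ?_, ?_⟩ <;>
    · have hreg : ∀ x : SubMulAction.ofStabilizer G a,
          stabilizer (H.subgroupOf (stabilizer G a)) x = ⊥ := fun x => by
        rw [Subgroup.eq_bot_iff_forall]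
        intro g hg
        by_contra hg1
        exact hnr' ⟨x, g, g.2, fun e => hg1 (Subtype.ext e), hg⟩
      have h2p : IsMultiplyPreprimitive (stabilizer G a) (SubMulAction.ofStabilizer G a) 2 :=
        isMultiplyPreprimitive_of_le _ _ hGa hk2
          (by rw [ENat.card_eq_coe_fintype_card]; exact_mod_cast (by omega : k ≤ _))
      have hle : Fintype.card X ≤ 4 := by
        rcases regular_normal_two_primitive (by omega) h2p (H.subgroupOf (stabilizer G a)) htY hreg
          with h | ⟨-, hexp, -⟩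
        · omega
        · refine (card_le_three_of_elementary H a h2t (fun g hg hga x hx hgx => ?_)
            (fun g hg hga => ?_)).trans (by norm_num)
          · have hm : (⟨⟨g, hga⟩, hg⟩ : H.subgroupOf (stabilizer G a)) ∈
                stabilizer (H.subgroupOf (stabilizer G a))
                  (⟨x, hx⟩ : SubMulAction.ofStabilizer G a) := Subtype.ext hgx
            rw [hreg] at hm
            exact congrArg (fun e : H.subgroupOf (stabilizer G a) => ((e : stabilizer G a) : G)) hm
          · have := hexp ⟨g, hga⟩ hg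
            rw [sq] at this
            exact congrArg Subtype.val this
      first
        | omega
        | exact card_eq_factorial_of_three (isMultiplyPretransitive_of_le (n := k + 1)
            (by omega) (by rw [Nat.card_eq_fintype_card]; omega)) (by omega) hle

variable {G : Type u} [Group G] [Finite G] {X : Type v} [Fintype X] [MulAction G X]
  [FaithfulSMul G X]

theorem jordan {k : ℕ} (hk : 1 < k) (hdeg : k < Fintype.card X)
    (hG : IsMultiplyPretransitive G X k) (N : Subgroup G) [N.Normal] (hN : N ≠ ⊥) :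
    IsMultiplyPretransitive N X (k - 1) ∨
      (k = 3 ∧ IsMulCommutative N ∧ (∀ n ∈ N, n ^ 2 = 1) ∧ Even (Fintype.card X)) := by
  haveI : IsMultiplyPretransitive G X (k - 1).succ := by
    rwa [show (k - 1).succ = k by omega]
  have hP : IsMultiplyPreprimitive G X (k - 1) :=
    isMultiplyPreprimitive_of_isMultiplyPretransitive_succ G X
      (by rw [ENat.card_eq_coe_fintype_card]; exact_mod_cast (by omega : (k - 1).succ ≤ _))
  have hprim : IsPreprimitive G X := by
    rw [← is_one_preprimitive_iff]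
    exact isMultiplyPreprimitive_of_le G X hP (by omega)
      (by rw [ENat.card_eq_coe_fintype_card]; exact_mod_cast (by omega : k - 1 ≤ _))
  haveI htr := normal_pretransitive hprim N hN
  by_cases hnr : ∃ a : X, ∃ g ∈ N, g ≠ 1 ∧ g • a = a
  · left
    exact (primitive_normal (k - 1) G X (by omega) (by omega) hP N hnr).resolve_right
      fun h => by omega
  rcases (show k = 2 ∨ 3 ≤ k by omega) with rfl | hk3
  · exact .inl (is_one_pretransitive_iff.mpr htr)
  right
  have hreg : ∀ x : X, stabilizer N x = ⊥ := fun x => by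
    rw [Subgroup.eq_bot_iff_forall]
    intro g hg
    by_contra hg1
    exact hnr ⟨x, g, g.2, fun e => hg1 (Subtype.ext e), hg⟩
  rcases (show k = 3 ∨ 4 ≤ k by omega) with rfl | hk4
  · rcases regular_normal_two_primitive (by omega) hP N htr hreg with h | ⟨hc, he, m, hm⟩
    · omega
    · refine ⟨rfl, hc, he, ?_⟩
      rw [hm, Nat.even_pow]
      refine ⟨even_two, fun h0 => ?_⟩
      rw [h0] at hm
      omega
  · have h3 : IsMultiplyPreprimitive G X 3 :=
      isMultiplyPreprimitive_of_le G X hP (by omega)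
        (by rw [ENat.card_eq_coe_fintype_card]; exact_mod_cast (by omega : k - 1 ≤ _))
    rcases regular_normal_three_primitive (by omega) h3 N htr hreg with h | h <;> omega

theorem wagner (hodd : Odd (Fintype.card X)) (h5 : 5 ≤ Fintype.card X)
    (hG : IsMultiplyPretransitive G X 3) (N : Subgroup G) [N.Normal] (hN : N ≠ ⊥) :
    IsMultiplyPretransitive N X 3 := by
  classical
  haveI : Fact (Nat.Prime 2) := ⟨Nat.prime_two⟩
  have h2 : IsMultiplyPretransitive N X 2 :=
    (jordan (by norm_num) (by omega) hG N hN).resolve_right fun h =>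
      Nat.not_even_iff_odd.mpr hodd h.2.2.2
  obtain ⟨a, b, hab⟩ := Fintype.exists_pair_of_one_lt_card (show 1 < Fintype.card X by omega)
  let A : Subgroup N := stabilizer N a ⊓ stabilizer N b
  let B : Subgroup N :=
    { carrier := {g | (g • a = a ∧ g • b = b) ∨ (g • a = b ∧ g • b = a)}
      one_mem' := .inl ⟨one_smul _ _, one_smul _ _⟩
      mul_mem' := by
        rintro g h (⟨g1, g2⟩ | ⟨g1, g2⟩) (⟨h1, h2⟩ | ⟨h1, h2⟩) <;>
          simp only [Set.mem_ofPred_eq, mul_smul, h1, h2, g1, g2, and_self, true_or, or_true]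
      inv_mem' := by
        rintro g (⟨g1, g2⟩ | ⟨g1, g2⟩)
        · exact .inl ⟨inv_smul_eq_iff.mpr g1.symm, inv_smul_eq_iff.mpr g2.symm⟩
        · exact .inr ⟨inv_smul_eq_iff.mpr g2.symm, inv_smul_eq_iff.mpr g1.symm⟩ }
  obtain ⟨s₀, hs1, hs2⟩ := is_two_pretransitive_iff.mp h2 hab hab.symm
  have hswap : ∀ g ∈ B, g ∉ A → g • a = b ∧ g • b = a := fun g hg hgA => by
    rcases hg with h | h
    · exact absurd (show g ∈ A from h) hgA
    · exact h
  have hAB : A ≤ B := fun g hg => .inl hg
  have hcardB : Nat.card B = 2 * Nat.card A := by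
    have hidx : (A.subgroupOf B).index = 2 := by
      refine Subgroup.index_eq_two_iff.mpr ⟨⟨s₀, .inr ⟨hs1, hs2⟩⟩, fun g => ?_⟩
      have hs0 : s₀ • a ≠ a := by rw [hs1]; exact hab.symm
      rcases (g.2 : (g.1 • a = a ∧ g.1 • b = b) ∨ (g.1 • a = b ∧ g.1 • b = a)) with h | h
      · refine .inr ⟨show g.1 ∈ A from h, fun hc => hs0 ?_⟩
        have h' : (g.1 * s₀) • a = a := hc.1
        rw [mul_smul, hs1, h.2] at h'
        exact absurd h'.symm hab
      · refine .inl ⟨show g.1 * s₀ ∈ A from ⟨?_, ?_⟩, fun hc => hab.symm ?_⟩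
        · show (g.1 * s₀) • a = a
          rw [mul_smul, hs1, h.2]
        · show (g.1 * s₀) • b = b
          rw [mul_smul, hs2, h.1]
        · exact h.1.symm.trans (show g.1 • a = a from hc.1)
    have := Subgroup.card_mul_index (A.subgroupOf B)
    rw [hidx, Nat.card_congr (Subgroup.subgroupOfEquivOfLe hAB).toEquiv] at this
    omega
  -- a two-group inside the pair stabiliser never fixes a pair of points
  let S : Sylow 2 B := default
  have hSnot : ¬ Nat.card (S : Subgroup B) ∣ Nat.card A := by
    intro hd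
    rw [S.card_eq_multiplicity, hcardB, Nat.factorization_mul (by norm_num) Nat.card_pos.ne',
      Finsupp.add_apply, Nat.prime_two.factorization_self] at hd
    have := (Nat.prime_two.pow_dvd_iff_le_factorization Nat.card_pos.ne').mp hd
    omega
  have hnofix : ∀ x y : X, x ≠ y → ¬ ∀ g ∈ (S : Subgroup B), g • x = x ∧ g • y = y := by
    intro x y hxy hfix
    obtain ⟨g, g1, g2⟩ := is_two_pretransitive_iff.mp h2 hxy hab
    apply hSnot
    refine Subgroup.card_dvd_of_injective
      ((((MulAut.conj g).toMonoidHom.comp (B.subtype.comp (S : Subgroup B).subtype))).codRestrict A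
        fun h => ?_) (fun h h' e => ?_)
    · obtain ⟨hx, hy⟩ := hfix h.1 h.2
      change (h.1 : N) • x = x at hx
      change (h.1 : N) • y = y at hy
      constructor
      · show (g * (h.1 : N) * g⁻¹) • a = a
        rw [← g1, mul_smul, mul_smul, inv_smul_smul, hx]
      · show (g * (h.1 : N) * g⁻¹) • b = b
        rw [← g2, mul_smul, mul_smul, inv_smul_smul, hy]
    · exact Subtype.ext (Subtype.ext ((MulAut.conj g).injective (congrArg Subtype.val e)))
  -- an interchanging element of `S`
  obtain ⟨t, htS, htA⟩ : ∃ t ∈ (S : Subgroup B), (t : N) ∉ A := by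
    by_contra hc
    push Not at hc
    exact hnofix a b hab fun g hg => hc g hg
  obtain ⟨hta, htb⟩ := hswap t t.2 htA
  have hPfix : ∀ (Y : SubMulAction B X), Odd (Nat.card Y) →
      ∃ c ∈ Y, ∀ g ∈ (S : Subgroup B), g • c = c := by
    intro Y hY
    have h := S.isPGroup'.card_modEq_card_fixedPoints Y
    rw [Nat.odd_iff] at hY
    rw [Nat.ModEq, hY] at h
    have hpos : 0 < Nat.card (fixedPoints (S : Subgroup B) Y) := by
      rcases Nat.eq_zero_or_pos (Nat.card (fixedPoints (S : Subgroup B) Y)) with e | e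
      · rw [e] at h; simp at h
      · exact e
    obtain ⟨⟨⟨c, hc⟩, hfix⟩⟩ := (Nat.card_pos_iff.mp hpos).1
    exact ⟨c, hc, fun g hg => congrArg Subtype.val (hfix ⟨g, hg⟩)⟩
  obtain ⟨c, -, hc⟩ := hPfix ⊤ (by
    rwa [Nat.card_congr (Equiv.subtypeUnivEquiv fun x => (show x ∈ (⊤ : SubMulAction B X) from trivial)),
      Nat.card_eq_fintype_card])
  have hca : c ≠ a := fun e => hab (by
    have h' := hc t htS
    rw [e] at h'
    exact (h' : (t : N) • a = a).symm.trans hta)
  have hcb : c ≠ b := fun e => hab (by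
    have h' := hc t htS
    rw [e] at h'
    exact htb.symm.trans (h' : (t : N) • b = b))
  -- orbits of the two-point stabiliser
  have hgab : ∀ z w, z ≠ a → z ≠ b → w ≠ a → w ≠ b →
      ∃ g : G, g • a = a ∧ g • b = b ∧ g • z = w := by
    intro z w h1 h2' h3 h4
    have inj : ∀ u, u ≠ a → u ≠ b → Function.Injective ![a, b, u] := fun u e1 e2 i j e => by
      fin_cases i <;> fin_cases j <;> simp_all [Ne.symm e1, Ne.symm e2, Ne.symm hab]
    obtain ⟨g, hg⟩ := hG.exists_smul_eq (⟨_, inj z h1 h2'⟩ : Fin 3 ↪ X) ⟨_, inj w h3 h4⟩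
    exact ⟨g, DFunLike.congr_fun hg 0, DFunLike.congr_fun hg 1, DFunLike.congr_fun hg 2⟩
  have hinvt : ∀ d, d ≠ a → d ≠ b → (t : N)⁻¹ • d ∈ orbit A d := by
    intro d hda hdb
    obtain ⟨g, ga, gb, gc⟩ := hgab c d hca hcb hda hdb
    have hn : g * ((t : N) : G) * g⁻¹ ∈ N := Subgroup.Normal.conj_mem ‹_› _ (t : N).2 g
    have hm : (t : N)⁻¹ * ⟨_, hn⟩ ∈ A := by
      constructor
      · show ((t : N)⁻¹ * ⟨_, hn⟩) • a = a
        rw [mul_smul, inv_smul_eq_iff, hta]
        show (g * ((t : N) : G) * g⁻¹) • a = b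
        rw [mul_smul, mul_smul, inv_smul_eq_iff.mpr ga.symm,
          show ((t : N) : G) • a = b from hta, gb]
      · show ((t : N)⁻¹ * ⟨_, hn⟩) • b = b
        rw [mul_smul, inv_smul_eq_iff, htb]
        show (g * ((t : N) : G) * g⁻¹) • b = a
        rw [mul_smul, mul_smul, inv_smul_eq_iff.mpr gb.symm,
          show ((t : N) : G) • b = a from htb, ga]
    refine ⟨⟨_, hm⟩, ?_⟩
    show ((t : N)⁻¹ * ⟨_, hn⟩) • d = _
    rw [mul_smul]
    congr 1
    show (g * ((t : N) : G) * g⁻¹) • d = d
    rw [mul_smul, mul_smul, inv_smul_eq_iff.mpr gc.symm,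
      show ((t : N) : G) • c = c from hc t htS, gc]
  have hlen : ∀ d, d ≠ a → d ≠ b → Nat.card (orbit A d) = Nat.card (orbit A c) := by
    intro d hda hdb
    obtain ⟨g, ga, gb, gc⟩ := hgab c d hca hcb hda hdb
    have hmap : ∀ h : G, h • a = a → h • b = b → ∀ z x : X, x ∈ orbit A z → h • x ∈ orbit A (h • z) := by
      rintro h ha hb z _ ⟨⟨k, hk⟩, rfl⟩
      have hn : h * (k : G) * h⁻¹ ∈ N := Subgroup.Normal.conj_mem ‹_› _ k.2 h
      have hk' : (⟨_, hn⟩ : N) ∈ A := by
        constructor
        · show (h * (k : G) * h⁻¹) • a = a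
          rw [mul_smul, mul_smul, inv_smul_eq_iff.mpr ha.symm, show (k : G) • a = a from hk.1, ha]
        · show (h * (k : G) * h⁻¹) • b = b
          rw [mul_smul, mul_smul, inv_smul_eq_iff.mpr hb.symm, show (k : G) • b = b from hk.2, hb]
      refine ⟨⟨_, hk'⟩, ?_⟩
      show (h * (k : G) * h⁻¹) • h • z = h • (k : G) • z
      rw [mul_smul, mul_smul, inv_smul_smul]
    refine (Nat.card_congr ((MulAction.toPerm g).subtypeEquiv fun x => ?_)).symm
    show x ∈ orbit A c ↔ g • x ∈ orbit A d
    constructor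
    · intro hx; rw [← gc]; exact hmap g ga gb c x hx
    · intro hx
      have := hmap g⁻¹ (inv_smul_eq_iff.mpr ga.symm) (inv_smul_eq_iff.mpr gb.symm) d _ hx
      rwa [inv_smul_smul, inv_smul_eq_iff.mpr gc.symm] at this
  have hloddc : Odd (Nat.card (orbit A c)) := by
    let Y : SubMulAction A X :=
      { carrier := {x | x ≠ a ∧ x ≠ b}
        smul_mem' := fun g x hx =>
          ⟨fun e => hx.1 (smul_left_cancel (g : N) (e.trans g.2.1.symm)),
            fun e => hx.2 (smul_left_cancel (g : N) (e.trans g.2.2.symm))⟩ }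
    have hY : Nat.card Y = Fintype.card X - 2 := by
      rw [Nat.card_congr (Equiv.subtypeEquivRight (p := fun x => x ∈ Y)
        (q := fun x => x ∈ ({a, b} : Finset X)ᶜ) fun x => by
          rw [Finset.mem_compl, Finset.mem_insert, Finset.mem_singleton, not_or]; exact Iff.rfl),
        Nat.card_eq_fintype_card, Fintype.card_coe, Finset.card_compl, Finset.card_pair hab]
    have hdvd : Nat.card (orbit A c) ∣ Nat.card Y :=
      dvd_card_of_orbits (H := A) fun y => dvd_of_eq (by
        rw [← hlen y.1 y.2.1 y.2.2]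
        exact Nat.card_congr ((Equiv.setCongr (SubMulAction.val_image_orbit y).symm).trans
          (Equiv.Set.image Subtype.val (orbit A y) Subtype.val_injective).symm))
    rw [hY] at hdvd
    refine Odd.of_dvd_nat ?_ hdvd
    rw [Nat.odd_iff] at hodd ⊢
    omega
  -- transitivity of the two-point stabiliser
  have hAtr : ∀ d, d ≠ a → d ≠ b → d ∈ orbit A c := by
    intro d hda hdb
    have hinv : ∀ g ∈ B, ∀ x ∈ orbit A d, g • x ∈ orbit A d := by
      intro g hg x hx
      have hxab : x ≠ a ∧ x ≠ b := by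
        obtain ⟨k, rfl⟩ := hx
        exact ⟨fun e => hda (smul_left_cancel (k : N) (e.trans k.2.1.symm)),
          fun e => hdb (smul_left_cancel (k : N) (e.trans k.2.2.symm))⟩
      rw [← orbit_eq_iff.mpr hx]
      by_cases hgA : g ∈ A
      · exact mem_orbit x (⟨g, hgA⟩ : A)
      · obtain ⟨ga, gb⟩ := hswap g hg hgA
        have hm : g * (t : N) ∈ A := by
          constructor
          · show (g * (t : N)) • a = a; rw [mul_smul, hta, gb]
          · show (g * (t : N)) • b = b; rw [mul_smul, htb, ga]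
        obtain ⟨k, hk⟩ := hinvt x hxab.1 hxab.2
        refine ⟨(⟨_, hm⟩ : A) * k, ?_⟩
        show ((g * (t : N)) * (k : N)) • x = g • x
        rw [mul_smul, show (k : N) • x = (t : N)⁻¹ • x from hk, mul_smul, smul_inv_smul]
    let Y : SubMulAction B X :=
      { carrier := orbit A d, smul_mem' := fun g x hx => hinv g g.2 x hx }
    obtain ⟨e, he, hfix⟩ := hPfix Y (by
      show Odd (Nat.card (orbit A d)); rw [hlen d hda hdb]; exact hloddc)
    by_contra hd
    have hec : c ≠ e := fun h' => hd (by
      rw [h', orbit_eq_iff.mpr (he : e ∈ orbit A d)]; exact mem_orbit_self d)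
    exact hnofix c e hec fun g hg => ⟨hc g hg, hfix g hg⟩
  refine CfsgLib.ThreeTrans.three_of_stab h2 hab fun z w h1 h2' h3 h4 => ?_
  obtain ⟨g₁, e1⟩ := hAtr z h1 h2'
  obtain ⟨g₂, e2⟩ := hAtr w h3 h4
  refine ⟨((g₂ * g₁⁻¹ : A) : N), (g₂ * g₁⁻¹ : A).2.1, (g₂ * g₁⁻¹ : A).2.2, ?_⟩
  show (g₂ * g₁⁻¹ : A) • z = w
  rw [mul_smul, ← e1]
  show g₂ • g₁⁻¹ • g₁ • c = w
  rw [inv_smul_smul]
  exact e2

end CfsgLib.Jordan
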