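import Mathlib

namespace Cfsg.Agent.PermJordanThree

open MulAction

variable {G Ω : Type*} [Group G] [MulAction G Ω]

/-- A Jordan set: pointwise fixer of the complement is transitive on the set. -/
def IsJSet (G : Type*) [Group G] [MulAction G Ω] (D : Set Ω) : Prop :=
  ∀ x ∈ D, ∀ y ∈ D, ∃ g : G, (∀ z ∉ D, g • z = z) ∧ g • x = y

theorem IsJSet.translate {D : Set Ω} (h : IsJSet G D) (q : G) :
    IsJSet G ((fun z => q⁻¹ • z) ⁻¹' D) := by
  intro x hx y hy
  obtain ⟨g, hg, hgx⟩ := h _ hx _ hy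
  refine ⟨q * g * q⁻¹, fun z hz => ?_, ?_⟩
  · rw [mul_smul, mul_smul, hg _ hz, smul_inv_smul]
  · rw [mul_smul, mul_smul, hgx, smul_inv_smul]

theorem IsJSet.union {A B : Set Ω} (hA : IsJSet G A) (hB : IsJSet G B) {z : Ω}
    (hzA : z ∈ A) (hzB : z ∈ B) : IsJSet G (A ∪ B) := by
  have key : ∀ x ∈ A ∪ B, ∃ g : G, (∀ w ∉ A ∪ B, g • w = w) ∧ g • x = z := by
    rintro x (hx | hx)
    · obtain ⟨g, hg, hgx⟩ := hA x hx z hzA
      exact ⟨g, fun w hw => hg w (fun h => hw (Or.inl h)), hgx⟩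
    · obtain ⟨g, hg, hgx⟩ := hB x hx z hzB
      exact ⟨g, fun w hw => hg w (fun h => hw (Or.inr h)), hgx⟩
  intro x hx y hy
  obtain ⟨g, hg, hgx⟩ := key x hx
  obtain ⟨h, hh, hhy⟩ := key y hy
  refine ⟨h⁻¹ * g, fun w hw => ?_, ?_⟩
  · rw [mul_smul, hg w hw, inv_smul_eq_iff, hh w hw]
  · rw [mul_smul, hgx, inv_smul_eq_iff, hhy]

theorem ncard_translate (Γ : Set Ω) (q : G) :
    ((fun z => q⁻¹ • z) ⁻¹' Γ).ncard = Γ.ncard := by
  refine Set.ncard_preimage_of_injective_subset_range (MulAction.injective q⁻¹) ?_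
  intro x _
  exact ⟨q • x, inv_smul_smul q x⟩

theorem three_pretransitive [Finite G] [Finite Ω]
    (hprim : IsPreprimitive G Ω) (Γ : Set Ω) (h1 : 1 < Γ.ncard)
    (h2 : 2 * Γ.ncard ≤ Nat.card Ω) (htr : IsJSet G Γ) :
    IsMultiplyPretransitive G Ω 3 := by
  classical
  have hc : Γᶜ.ncard = Nat.card Ω - Γ.ncard := by
    have := Set.ncard_add_ncard_compl Γ
    omega
  -- two-transitivity, by Jordan
  have h2t : IsMultiplyPretransitive G Ω 2 := by
    refine hprim.is_two_pretransitive (s := Γᶜ) (n := Γᶜ.ncard - 1) (by omega) (by omega) ?_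
    constructor
    rintro ⟨x, hx⟩ ⟨y, hy⟩
    rw [SubMulAction.mem_ofFixingSubgroup_iff] at hx hy
    obtain ⟨g, hg, hgx⟩ := htr x (not_not.1 hx) y (not_not.1 hy)
    exact ⟨⟨g, by rw [mem_fixingSubgroup_iff]; exact fun z hz => hg z hz⟩, Subtype.ext hgx⟩
  rw [is_two_pretransitive_iff] at h2t
  -- a maximal Jordan set with at least two points outside
  let S : Finset (Set Ω) := by
    haveI : Fintype (Set Ω) := Fintype.ofFinite _
    exact Finset.univ.filter fun D => IsJSet G D ∧ 1 < D.ncard ∧ D.ncard + 2 ≤ Nat.card Ω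
  have hS : S.Nonempty := ⟨Γ, by simp [S, htr, h1]; omega⟩
  obtain ⟨D, hDS, hDmax⟩ := S.exists_max_image Set.ncard hS
  simp only [S, Finset.mem_filter, Finset.mem_univ, true_and] at hDS hDmax
  obtain ⟨hD, hD1, hD2⟩ := hDS
  have hDc : D.ncard + Dᶜ.ncard = Nat.card Ω := Set.ncard_add_ncard_compl D
  have hsize : Dᶜ.ncard = 2 := by
    by_contra hne
    have hδ : 3 ≤ Dᶜ.ncard := by omega
    -- every translate meeting both sides contains all but at most one outside point
    have hkey : ∀ q : G, ∀ d ∈ D, q⁻¹ • d ∈ Γ → ∀ x ∉ D, q⁻¹ • x ∈ Γ →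
        ∀ y ∉ D, q⁻¹ • y ∉ Γ → ∀ y' ∉ D, q⁻¹ • y' ∉ Γ → y = y' := by
      intro q d hd hdq x hx hxq y hy hyq y' hy' hyq'
      by_contra hyy
      have hU : IsJSet G (D ∪ (fun z => q⁻¹ • z) ⁻¹' Γ) := hD.union (htr.translate q) hd hdq
      have hlt : D.ncard < (D ∪ (fun z => q⁻¹ • z) ⁻¹' Γ).ncard :=
        Set.ncard_lt_ncard ⟨Set.subset_union_left, fun h => hx (h (Or.inr hxq))⟩
      have hle : ({y, y'} : Set Ω) ⊆ (D ∪ (fun z => q⁻¹ • z) ⁻¹' Γ)ᶜ := by
        rintro z (rfl | rfl)
        · simp [hy, hyq]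
        · simp [hy', hyq']
      have h2le : 2 ≤ (D ∪ (fun z => q⁻¹ • z) ⁻¹' Γ)ᶜ.ncard := by
        rw [← Set.ncard_pair hyy]
        exact Set.ncard_le_ncard hle
      have hadd := Set.ncard_add_ncard_compl (D ∪ (fun z => q⁻¹ • z) ⁻¹' Γ)
      have := hDmax _ ⟨hU, by omega, by omega⟩
      omega
    -- hence few points outside
    have hδk : Dᶜ.ncard ≤ Γ.ncard := by
      obtain ⟨d, hd⟩ : D.Nonempty := Set.nonempty_of_ncard_ne_zero (by omega)
      obtain ⟨x, hx⟩ : Dᶜ.Nonempty := Set.nonempty_of_ncard_ne_zero (by omega)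
      obtain ⟨u, hu, v, hv, huv⟩ := (Set.one_lt_ncard).1 h1
      obtain ⟨q, hqu, hqv⟩ := h2t (a := u) (b := v) (c := d) (d := x) huv
        (fun h => hx (h ▸ hd))
      have hdq : q⁻¹ • d ∈ Γ := by rw [← hqu, inv_smul_smul]; exact hu
      have hxq : q⁻¹ • x ∈ Γ := by rw [← hqv, inv_smul_smul]; exact hv
      rw [← ncard_translate Γ q]
      have hsub : (Dᶜ \ ((fun z => q⁻¹ • z) ⁻¹' Γ)).ncard ≤ 1 := by
        rw [Set.ncard_le_one]
        intro y hy y' hy'
        exact hkey q d hd hdq x hx hxq y hy.1 hy.2 y' hy'.1 hy'.2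
      have h3 := Set.ncard_inter_add_ncard_diff_eq_ncard Dᶜ ((fun z => q⁻¹ • z) ⁻¹' Γ)
      have h4 : (Dᶜ ∩ (fun z => q⁻¹ • z) ⁻¹' Γ).ncard < ((fun z => q⁻¹ • z) ⁻¹' Γ).ncard :=
        Set.ncard_lt_ncard ⟨Set.inter_subset_right, fun h => (h hdq).1 hd⟩
      omega
    obtain ⟨x, hx⟩ : Dᶜ.Nonempty := Set.nonempty_of_ncard_ne_zero (by omega)
    haveI : Fintype G := Fintype.ofFinite G
    haveI : Fintype Ω := Fintype.ofFinite Ω
    let A : Ω → Finset G := fun y =>
      Finset.univ.filter fun q => q⁻¹ • x ∈ Γ ∧ q⁻¹ • y ∉ Γ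
    let R : Finset G := Finset.univ.filter fun q => q⁻¹ • x ∈ Γ
    -- disjointness
    have hdisj : ∀ y ∈ Dᶜ.toFinset.erase x, ∀ y' ∈ Dᶜ.toFinset.erase x, y ≠ y' →
        Disjoint (A y) (A y') := by
      intro y hy y' hy' hne'
      rw [Finset.disjoint_left]
      intro q hq hq'
      simp only [A, Finset.mem_filter, Finset.mem_univ, true_and] at hq hq'
      simp only [Finset.mem_erase, Set.mem_toFinset] at hy hy'
      -- the translate has a point in D
      obtain ⟨d, hd, hdq⟩ : ∃ d ∈ D, q⁻¹ • d ∈ Γ := by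
        by_contra hno
        push_neg at hno
        have hsub : (fun z => q⁻¹ • z) ⁻¹' Γ ⊂ Dᶜ :=
          ⟨fun z hz hzD => hno z hzD hz, fun h => hq.2 (h hy.2)⟩
        have := Set.ncard_lt_ncard hsub
        rw [ncard_translate] at this
        omega
      exact hne' (hkey q d hd hdq x hx hq.1 y hy.2 hq.2 y' hy'.2 hq'.2)
    -- constant cardinality
    have hconst : ∀ y y', y ≠ x → y' ≠ x → (A y).card = (A y').card := by
      intro y y' hy hy'
      obtain ⟨t, ht, ht'⟩ := h2t (a := x) (b := y) (c := x) (d := y') hy.symm hy'.symm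
      refine Finset.card_bij (fun q _ => t * q) ?_ ?_ ?_
      · intro q hq
        simp only [A, Finset.mem_filter, Finset.mem_univ, true_and] at hq ⊢
        rw [mul_inv_rev, mul_smul, mul_smul, inv_smul_eq_iff.2 ht.symm,
          inv_smul_eq_iff.2 ht'.symm]
        exact hq
      · intro q _ q' _ h
        exact mul_left_cancel h
      · intro q hq
        refine ⟨t⁻¹ * q, ?_, by group⟩
        simp only [A, Finset.mem_filter, Finset.mem_univ, true_and] at hq ⊢
        rw [mul_inv_rev, inv_inv, mul_smul, mul_smul, ht, ht']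
        exact hq
    -- double count
    have hcount : ∑ y ∈ Finset.univ.erase x, (A y).card =
        R.card * (Nat.card Ω - Γ.ncard) := by
      have : ∑ y ∈ Finset.univ.erase x, (A y).card =
          ∑ q ∈ R, ((fun z => q⁻¹ • z) ⁻¹' Γ)ᶜ.toFinset.card := by
        simp only [Finset.card_eq_sum_ones]
        rw [Finset.sum_comm' (t' := R)
          (s' := fun q => ((fun z => q⁻¹ • z) ⁻¹' Γ)ᶜ.toFinset)]
        intro y q
        simp only [A, R, Finset.mem_erase, Finset.mem_univ, Finset.mem_filter, true_and,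
          and_true, Set.mem_toFinset, Set.mem_compl_iff, Set.mem_preimage]
        constructor
        · rintro ⟨_, h, h'⟩; exact ⟨h', h⟩
        · rintro ⟨h, h'⟩
          exact ⟨fun hyx => h (hyx ▸ h'), h', h⟩
      rw [this, Finset.sum_congr rfl (g := fun _ => Nat.card Ω - Γ.ncard), Finset.sum_const,
        smul_eq_mul]
      intro q _
      rw [← Set.ncard_eq_toFinset_card', Set.ncard_compl, ncard_translate]
    obtain ⟨y₀, hy₀⟩ : (Dᶜ.toFinset.erase x).Nonempty := by
      rw [← Finset.card_pos, Finset.card_erase_of_mem (by simpa using hx),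
        ← Set.ncard_eq_toFinset_card']
      omega
    have hy₀x : y₀ ≠ x := (Finset.mem_erase.1 hy₀).1
    have hsum : ∑ y ∈ Finset.univ.erase x, (A y).card = (Nat.card Ω - 1) * (A y₀).card := by
      rw [Finset.sum_congr rfl (g := fun _ => (A y₀).card)
        (fun y hy => hconst y y₀ (Finset.mem_erase.1 hy).1 hy₀x), Finset.sum_const, smul_eq_mul,
        Finset.card_erase_of_mem (Finset.mem_univ x), Finset.card_univ, Nat.card_eq_fintype_card]
    have hle : (Dᶜ.ncard - 1) * (A y₀).card ≤ R.card := by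
      have hb : ((Dᶜ.toFinset.erase x).biUnion A).card ≤ R.card := by
        refine Finset.card_le_card fun q hq => ?_
        simp only [Finset.mem_biUnion, A, R, Finset.mem_filter, Finset.mem_univ, true_and] at hq ⊢
        obtain ⟨_, _, hq, _⟩ := hq
        exact hq
      rw [Finset.card_biUnion hdisj, Finset.sum_congr rfl (g := fun _ => (A y₀).card)
        (fun y hy => hconst y y₀ (Finset.mem_erase.1 hy).1 hy₀x), Finset.sum_const, smul_eq_mul,
        Finset.card_erase_of_mem (by simpa using hx), ← Set.ncard_eq_toFinset_card'] at hb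
      exact hb
    have hR : 0 < R.card := by
      obtain ⟨u, hu⟩ : Γ.Nonempty := Set.nonempty_of_ncard_ne_zero (by omega)
      haveI := hprim.toIsPretransitive
      obtain ⟨q, hq⟩ := exists_smul_eq G u x
      refine Finset.card_pos.2 ⟨q, ?_⟩
      simp only [R, Finset.mem_filter, Finset.mem_univ, true_and]
      rw [← hq, inv_smul_smul]
      exact hu
    have heq : (Nat.card Ω - 1) * (A y₀).card = R.card * (Nat.card Ω - Γ.ncard) :=
      hsum.symm.trans hcount
    have h5 : 2 * (A y₀).card ≤ R.card :=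
      le_trans (Nat.mul_le_mul_right _ (by omega)) hle
    have h6 : Nat.card Ω ≤ 2 * (Nat.card Ω - Γ.ncard) := by omega
    have h7 : R.card * Nat.card Ω ≤ 2 * ((Nat.card Ω - 1) * (A y₀).card) := by
      rw [heq]; calc R.card * Nat.card Ω ≤ R.card * (2 * (Nat.card Ω - Γ.ncard)) :=
            Nat.mul_le_mul_left _ h6
        _ = _ := by ring
    have h8 : 2 * ((Nat.card Ω - 1) * (A y₀).card) ≤ (Nat.card Ω - 1) * R.card := by
      calc _ = (Nat.card Ω - 1) * (2 * (A y₀).card) := by ring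
        _ ≤ _ := Nat.mul_le_mul_left _ h5
    have h9 : (Nat.card Ω - 1) * R.card < Nat.card Ω * R.card :=
      Nat.mul_lt_mul_of_pos_right (by omega) hR
    linarith
  -- three-transitivity
  obtain ⟨a, b, hab, hDab⟩ := Set.ncard_eq_two.1 hsize
  constructor
  intro e f
  obtain ⟨g, hg0, hg1⟩ := h2t (a := e 0) (b := e 1) (c := a) (d := b)
    (e.injective.ne (by decide)) hab
  obtain ⟨q, hq0, hq1⟩ := h2t (a := f 0) (b := f 1) (c := a) (d := b)
    (f.injective.ne (by decide)) hab
  have mem : ∀ z, z ≠ a → z ≠ b → z ∈ D := by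
    intro z ha hb
    by_contra hz
    have : z ∈ Dᶜ := hz
    rw [hDab] at this
    rcases this with h | h
    · exact ha h
    · exact hb h
  have hge : g • e 2 ∈ D := mem _
    (by rw [← hg0]; exact fun h => absurd (e.injective (MulAction.injective g h)) (by decide))
    (by rw [← hg1]; exact fun h => absurd (e.injective (MulAction.injective g h)) (by decide))
  have hqf : q • f 2 ∈ D := mem _
    (by rw [← hq0]; exact fun h => absurd (f.injective (MulAction.injective q h)) (by decide))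
    (by rw [← hq1]; exact fun h => absurd (f.injective (MulAction.injective q h)) (by decide))
  obtain ⟨h, hh, hhx⟩ := hD _ hge _ hqf
  have haD : a ∉ D := by
    show a ∈ Dᶜ
    rw [hDab]; exact Or.inl rfl
  have hbD : b ∉ D := by
    show b ∈ Dᶜ
    rw [hDab]; exact Or.inr rfl
  refine ⟨q⁻¹ * h * g, ?_⟩
  ext i
  simp only [Function.Embedding.smul_apply, mul_smul, inv_smul_eq_iff]
  fin_cases i
  · simp [hg0, hq0, hh a haD]
  · simp [hg1, hq1, hh b hbD]
  · simpa using hhx

end Cfsg.Agent.PermJordanThree
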