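import Cfsg.Agent.Lib.PermTrans
import Mathlib.GroupTheory.GroupAction.Primitive
import Mathlib.GroupTheory.Subgroup.Centralizer
import Mathlib.GroupTheory.GroupAction.ConjAct
import Mathlib.Algebra.Polynomial.Eval.Defs
import Mathlib.Algebra.Polynomial.Monomial
import Mathlib.Algebra.Polynomial.Degree.Lemmas
import Mathlib.Algebra.Field.ZMod
import Mathlib.LinearAlgebra.Dimension.Constructions
import Mathlib.Data.ZMod.Basic
import Mathlib.RingTheory.ZMod.UnitsCyclic
import Mathlib.Algebra.Module.ZMod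
import Mathlib.Tactic.NormNum.Prime
import Mathlib.Tactic.IntervalCases
import Mathlib.Tactic.FinCases

/-!
# Primitive groups: regular normal subgroups, Blichfeldt's divisibility, degree thirteen
-/

set_option autoImplicit false
set_option linter.unusedSectionVars false
set_option linter.style.haveILetI false

namespace CfsgLib.Perm

open MulAction Pointwise

universe u v

theorem stabilizer_inf_maximal_invariant {α : Type u} (H : Subgroup (Equiv.Perm α))
    [IsPreprimitive H α] (N : Subgroup H) [N.Normal] (hN : N ≠ ⊥) (a : α) (X : Subgroup H)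
    (hX : X ≤ N) (hKX : stabilizer H a ⊓ N ≤ X)
    (hinv : stabilizer H a ≤ Subgroup.normalizer (X : Set H)) :
    X = stabilizer H a ⊓ N ∨ X = N := by
  haveI : Nontrivial α := by
    by_contra hc
    rw [not_nontrivial_iff_subsingleton] at hc
    exact hN (Subsingleton.elim _ _)
  by_cases hXK : X ≤ stabilizer H a
  · exact .inl (le_antisymm (le_inf hXK hX) hKX)
  right
  have hco : IsCoatom (stabilizer H a) :=
    (isCoatom_stabilizer_iff_preprimitive H a).mpr inferInstance
  have htop : X ⊔ stabilizer H a = ⊤ := hco.2 _ (right_lt_sup.mpr hXK)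
  refine le_antisymm hX fun n hn => ?_
  have hmem : n ∈ ((X ⊔ stabilizer H a : Subgroup H) : Set H) := htop ▸ Subgroup.mem_top n
  rw [Subgroup.coe_mul_of_right_le_normalizer_left _ _ hinv] at hmem
  obtain ⟨x, hx, k, hk, rfl⟩ := hmem
  have hkN : k ∈ N := by
    have := N.mul_mem (N.inv_mem (hX hx)) hn
    rwa [inv_mul_cancel_left] at this
  exact X.mul_mem hx (hKX ⟨hk, hkN⟩)

section Blichfeldt

variable {α : Type u} [Fintype α] [DecidableEq α] (G : Subgroup (Equiv.Perm α))

theorem card_dvd_sum_fixed_pow [Fintype G] (j : ℕ) :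
    (Nat.card G : ℤ) ∣ ∑ g : G, (Nat.card (fixedBy α g) : ℤ) ^ j := by
  classical
  haveI : Fintype (orbitRel.Quotient G (Fin j → α)) := Fintype.ofFinite _
  have h := sum_card_fixedBy_eq_card_orbits_mul_card_group G (Fin j → α)
  have e : ∀ g : G, Fintype.card (fixedBy (Fin j → α) g) = Nat.card (fixedBy α g) ^ j := by
    intro g
    rw [← Nat.card_eq_fintype_card]
    have e1 : fixedBy (Fin j → α) g ≃ (Fin j → fixedBy α g) :=
      { toFun := fun f i => ⟨f.1 i, congrFun f.2 i⟩
        invFun := fun f => ⟨fun i => (f i).1, funext fun i => (f i).2⟩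
        left_inv := fun f => rfl
        right_inv := fun f => rfl }
    rw [Nat.card_congr e1, Nat.card_fun, Nat.card_fin]
  simp only [e] at h
  refine ⟨(Fintype.card (orbitRel.Quotient G (Fin j → α)) : ℤ), ?_⟩
  rw [Nat.card_eq_fintype_card, ← Nat.cast_mul, mul_comm, ← h, Nat.cast_sum]
  simp only [Nat.cast_pow]

open Polynomial in
theorem blichfeldt (L : Finset ℕ) (hL : ∀ g ∈ G, g ≠ 1 → Nat.card (fixedBy α g) ∈ L) :
    Nat.card G ∣ ∏ l ∈ L, (Fintype.card α - l) := by
  classical
  by_cases hbig : ∃ l ∈ L, Fintype.card α ≤ l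
  · obtain ⟨l, hl, hle⟩ := hbig
    rw [Finset.prod_eq_zero hl (Nat.sub_eq_zero_of_le hle)]
    exact dvd_zero _
  push Not at hbig
  haveI : Fintype G := Fintype.ofFinite _
  let P : ℤ[X] := ∏ l ∈ L, (X - C (l : ℤ))
  have hdvd : (Nat.card G : ℤ) ∣ ∑ g : G, P.eval (Nat.card (fixedBy α g) : ℤ) := by
    generalize P = Q
    simp only [eval_eq_sum_range]
    rw [Finset.sum_comm]
    refine Finset.dvd_sum fun i _ => ?_
    rw [← Finset.mul_sum]
    exact (card_dvd_sum_fixed_pow G i).mul_left _
  have hsum : ∑ g : G, P.eval (Nat.card (fixedBy α g) : ℤ) =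
      ∏ l ∈ L, ((Fintype.card α : ℤ) - l) := by
    rw [Fintype.sum_eq_single 1]
    · simp only [P, eval_prod, eval_sub, eval_X, eval_C]
      refine Finset.prod_congr rfl fun l _ => ?_
      rw [fixedBy_one_eq_univ, Nat.card_coe_set_eq, Set.ncard_univ, Nat.card_eq_fintype_card]
    · intro g hg
      have h := hL (g : Equiv.Perm α) g.2 (fun e => hg (Subtype.ext e))
      simp only [P, eval_prod, eval_sub, eval_X, eval_C]
      exact Finset.prod_eq_zero h (sub_eq_zero.mpr rfl)
  rw [hsum] at hdvd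
  refine Int.natCast_dvd_natCast.mp (hdvd.trans (dvd_of_eq ?_))
  rw [Nat.cast_prod]
  exact Finset.prod_congr rfl fun l hl => (Nat.cast_sub (hbig l hl).le).symm

end Blichfeldt

theorem affine_primitive_iff {p : ℕ} [Fact p.Prime] {V : Type u} [AddCommGroup V] [Module (ZMod p) V]
    [Nontrivial V] (G₀ : Subgroup (V ≃ₗ[ZMod p] V)) (G : Subgroup (Equiv.Perm V))
    (hG : ∀ σ : Equiv.Perm V, σ ∈ G ↔ ∃ g ∈ G₀, ∃ b : V, ∀ x : V, σ x = (g : V ≃ₗ[ZMod p] V) x + b) :
    IsPreprimitive G V ↔
      ∀ W : Submodule (ZMod p) V, (∀ g ∈ G₀, ∀ v ∈ W, (g : V ≃ₗ[ZMod p] V) v ∈ W) → W = ⊥ ∨ W = ⊤ := by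
  have htr : ∀ b : V, Equiv.addRight b ∈ G := fun b =>
    (hG _).mpr ⟨1, one_mem _, b, fun x => rfl⟩
  constructor
  · intro hP W hW
    have hB : IsBlock G (W : Set V) := by
      rw [isBlock_iff_smul_eq_of_mem]
      intro σ x hx hσx
      obtain ⟨g, hg, b, hb⟩ := (hG _).mp σ.2
      have e : (σ : Equiv.Perm V) x = g x + b := hb x
      have hbW : b ∈ W := by
        have := W.sub_mem (show (σ : Equiv.Perm V) x ∈ W from hσx) (hW g hg x hx)
        rwa [e, add_sub_cancel_left] at this
      have hsub : σ • (W : Set V) ⊆ W := by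
        rintro _ ⟨y, hy, rfl⟩
        show (σ : Equiv.Perm V) y ∈ W
        rw [hb y]
        exact W.add_mem (hW g hg y hy) hbW
      refine hsub.antisymm fun y hy => ?_
      refine ⟨g.symm (y - b), hW g⁻¹ (inv_mem hg) _ (W.sub_mem hy hbW), ?_⟩
      show (σ : Equiv.Perm V) (g.symm (y - b)) = y
      rw [hb, LinearEquiv.apply_symm_apply, sub_add_cancel]
    rcases IsPreprimitive.isTrivialBlock_of_isBlock hB with hs | hu
    · left
      rw [Submodule.eq_bot_iff]
      exact fun x hx => hs hx W.zero_mem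
    · exact .inr (SetLike.coe_injective (hu.trans Submodule.top_coe.symm))
  · intro hirr
    haveI : IsPretransitive G V := ⟨fun x y => ⟨⟨_, htr (-x + y)⟩, by
      show x + (-x + y) = y
      rw [add_neg_cancel_left]⟩⟩
    refine IsPreprimitive.of_isTrivialBlock_base (0 : V) fun {B} h0 hB => ?_
    have hadd : ∀ b ∈ B, ∀ x ∈ B, x + b ∈ B := by
      intro b hb x hx
      have e : (⟨_, htr b⟩ : G) • B = B := hB.smul_eq_of_mem h0 (by
        show (0 : V) + b ∈ B
        rwa [zero_add])
      exact e ▸ (Set.smul_mem_smul_set hx : (⟨_, htr b⟩ : G) • x ∈ (⟨_, htr b⟩ : G) • B)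
    have hneg : ∀ b ∈ B, -b ∈ B := by
      intro b hb
      have e : (⟨_, htr (-b)⟩ : G) • B = B := hB.smul_eq_of_mem hb (by
        show b + -b ∈ B
        rwa [add_neg_cancel])
      have := e ▸ (Set.smul_mem_smul_set h0 : (⟨_, htr (-b)⟩ : G) • (0 : V) ∈ (⟨_, htr (-b)⟩ : G) • B)
      change (0 : V) + -b ∈ B at this
      rwa [zero_add] at this
    let A : AddSubgroup V :=
      { carrier := B, zero_mem' := h0, add_mem' := fun {x y} hx hy => hadd y hy x hx,
        neg_mem' := fun {x} hx => hneg x hx }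
    let W : Submodule (ZMod p) V := AddSubgroup.toZModSubmodule p A
    have hW : ∀ g ∈ G₀, ∀ v ∈ W, (g : V ≃ₗ[ZMod p] V) v ∈ W := by
      intro g hg v hv
      have hm : (g.toEquiv : Equiv.Perm V) ∈ G := (hG _).mpr ⟨g, hg, 0, fun x => (add_zero _).symm⟩
      have e : (⟨_, hm⟩ : G) • B = B := hB.smul_eq_of_mem h0 (by
        show g (0 : V) ∈ B
        rwa [map_zero])
      have h2 : (⟨_, hm⟩ : G) • v ∈ (⟨_, hm⟩ : G) • B := Set.smul_mem_smul_set hv
      rw [e] at h2
      exact h2
    rcases hirr W hW with e | e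
    · left
      intro x hx y hy
      have hx' : x ∈ W := hx
      have hy' : y ∈ W := hy
      rw [e, Submodule.mem_bot] at hx' hy'
      rw [hx', hy']
    · right
      refine Set.eq_univ_of_forall fun x => ?_
      have : x ∈ W := e ▸ Submodule.mem_top
      exact this

section RegularNormal

variable {G : Type u} [Group G] {X : Type v} [MulAction G X]

theorem blocks_in_regular (N : Subgroup G) [N.Normal] (htrans : IsPretransitive N X)
    (hreg : ∀ x : X, stabilizer N x = ⊥) (x : X) :
    (∀ n m : N, n • x = m • x → n = m) ∧ ∀ g : G, g • x = x → ∀ n : N,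
      g • n • x = (⟨g * n * g⁻¹, Subgroup.Normal.conj_mem ‹_› _ n.2 g⟩ : N) • x := by
  refine ⟨fun n m e => ?_, fun g hg n => ?_⟩
  · have : m⁻¹ * n ∈ stabilizer N x := by rw [mem_stabilizer_iff, mul_smul, inv_smul_eq_iff]; exact e
    rw [hreg, Subgroup.mem_bot, inv_mul_eq_one] at this
    exact this.symm
  · show g • (n : G) • x = (g * (n : G) * g⁻¹) • x
    rw [mul_smul, mul_smul, show g⁻¹ • x = x by rw [inv_smul_eq_iff, hg]]

theorem pairs_block [Fintype X] {x : X} (S : Set X) (hxS : x ∈ S) (N : Subgroup G) [N.Normal]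
    (htrans : IsPretransitive N X) (hreg : ∀ x : X, stabilizer N x = ⊥)
    (hprim : IsPreprimitive (fixingSubgroup G S) (SubMulAction.ofFixingSubgroup G S))
    (τ : N → N) (hτ : ∀ n, τ (τ n) = n)
    (hcompat : ∀ g ∈ fixingSubgroup G S, ∀ n : N,
      g • τ n • x = τ ⟨g * n * g⁻¹, Subgroup.Normal.conj_mem ‹_› _ n.2 g⟩ • x)
    (hS : ∀ n : N, n • x ∉ S → τ n • x ∉ S) (n : N) (hn : n • x ∉ S) (hne : τ n ≠ n) :
    Fintype.card X = S.ncard + 2 := by
  obtain ⟨hinj, hconj⟩ := blocks_in_regular N htrans hreg x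
  let B : Set (SubMulAction.ofFixingSubgroup G S) := {⟨n • x, hn⟩, ⟨τ n • x, hS n hn⟩}
  have hB : IsBlock (fixingSubgroup G S) B := by
    rw [isBlock_iff_smul_eq_of_mem]
    intro g y hy hgy
    have hgx : (g : G) • x = x := (mem_fixingSubgroup_iff G).mp g.2 x hxS
    set m : N := ⟨(g : G) * n * (g : G)⁻¹, Subgroup.Normal.conj_mem ‹_› _ n.2 g⟩
    have h1 : (g • (⟨n • x, hn⟩ : SubMulAction.ofFixingSubgroup G S) :
        SubMulAction.ofFixingSubgroup G S).1 = m • x := hconj g hgx n
    have h2 : (g • (⟨τ n • x, hS n hn⟩ : SubMulAction.ofFixingSubgroup G S) :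
        SubMulAction.ofFixingSubgroup G S).1 = τ m • x := hcompat g g.2 n
    have hm : m = n ∨ m = τ n := by
      rcases hy with rfl | rfl <;> rcases hgy with e | e
      · exact .inl (hinj _ _ (h1.symm.trans (congrArg Subtype.val e)))
      · exact .inr (hinj _ _ (h1.symm.trans (congrArg Subtype.val e)))
      · exact .inr (by rw [← hinj _ _ (h2.symm.trans (congrArg Subtype.val e)), hτ])
      · left
        have := hinj _ _ (h2.symm.trans (congrArg Subtype.val e))
        rw [← hτ m, this, hτ]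
    have e1 : (g • (⟨n • x, hn⟩ : SubMulAction.ofFixingSubgroup G S)) ∈ B ∧
        (g • (⟨τ n • x, hS n hn⟩ : SubMulAction.ofFixingSubgroup G S)) ∈ B := by
      rcases hm with e | e <;> rw [e] at h1 h2
      · exact ⟨.inl (Subtype.ext h1), .inr (Subtype.ext h2)⟩
      · exact ⟨.inr (Subtype.ext h1), .inl (Subtype.ext (by rw [h2, hτ]))⟩
    refine Set.eq_of_subset_of_ncard_le ?_ (le_of_eq ?_) (Set.toFinite _)
    · rintro _ ⟨z, hz, rfl⟩
      rcases hz with rfl | rfl
      · exact e1.1
      · exact e1.2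
    · exact (Set.ncard_image_of_injective B (MulAction.injective g)).symm
  rcases IsPreprimitive.isTrivialBlock_of_isBlock hB with hs | hu
  · exact absurd (hinj _ _ (congrArg Subtype.val (hs (.inl rfl) (.inr rfl)))).symm hne
  · have hc : (Sᶜ : Set X) = {n • x, τ n • x} := by
      ext y
      constructor
      · intro hy
        have : (⟨y, hy⟩ : SubMulAction.ofFixingSubgroup G S) ∈ B := hu ▸ Set.mem_univ _
        rcases this with e | e
        · exact .inl (congrArg Subtype.val e)
        · exact .inr (congrArg Subtype.val e)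
      · rintro (rfl | rfl)
        exacts [hn, hS n hn]
    have := Set.ncard_add_ncard_compl S
    rw [hc, Set.ncard_pair (fun e => hne (hinj _ _ e).symm), Nat.card_eq_fintype_card] at this
    omega

theorem regular_normal_two_primitive [Fintype X] (hX : 2 ≤ Fintype.card X)
    (h2 : IsMultiplyPreprimitive G X 2) (N : Subgroup G) [N.Normal]
    (htrans : IsPretransitive N X) (hreg : ∀ x : X, stabilizer N x = ⊥) :
    Fintype.card X = 3 ∨ (IsMulCommutative N ∧ (∀ n ∈ N, n ^ 2 = 1) ∧
      ∃ m : ℕ, Fintype.card X = 2 ^ m) := by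
  obtain ⟨x⟩ : Nonempty X := Fintype.card_pos_iff.mp (by omega)
  obtain ⟨hinj, hconj⟩ := blocks_in_regular N htrans hreg x
  have hprim : IsPreprimitive (fixingSubgroup G ({x} : Set X))
      (SubMulAction.ofFixingSubgroup G ({x} : Set X)) :=
    IsMultiplyPreprimitive.isPreprimitive_ofFixingSubgroup G 2 (by rw [Set.encard_singleton]; rfl)
  by_cases hall : ∀ n : N, n⁻¹ = n
  · right
    have hsq : ∀ n : N, n * n = 1 := fun n => by
      nth_rewrite 1 [← hall n]
      exact inv_mul_cancel n
    refine ⟨⟨⟨fun a b => ?_⟩⟩, fun n hn => ?_, ?_⟩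
    · calc a * b = (a * b)⁻¹ := (hall _).symm
        _ = b⁻¹ * a⁻¹ := mul_inv_rev a b
        _ = b * a := by rw [hall, hall]
    · rw [pow_two]
      exact congrArg Subtype.val (hsq ⟨n, hn⟩)
    · have hbij : Function.Bijective fun n : N => n • x :=
        ⟨fun a b e => hinj a b e, fun y => exists_smul_eq N x y⟩
      haveI : Finite N := Finite.of_injective _ hbij.1
      have hp : IsPGroup 2 N := fun n => ⟨1, by rw [pow_one, pow_two, hsq]⟩
      haveI : Fact (Nat.Prime 2) := ⟨Nat.prime_two⟩
      obtain ⟨m, hm⟩ := hp.exists_card_eq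
      exact ⟨m, by rw [← Nat.card_eq_fintype_card, ← Nat.card_eq_of_bijective _ hbij, hm]⟩
  · left
    push Not at hall
    obtain ⟨n, hn⟩ := hall
    have hx : ∀ m : N, m • x ∉ ({x} : Set X) ↔ m ≠ 1 := fun m =>
      ⟨fun h e => h (by rw [e, one_smul]; rfl), fun h e => h (hinj m 1 (by rw [one_smul]; exact e))⟩
    have := pairs_block (x := x) ({x} : Set X) rfl N htrans hreg hprim (fun m => m⁻¹)
      (fun m => inv_inv m) (fun g hg m => by
        rw [hconj g ((mem_fixingSubgroup_iff G).mp hg x rfl)]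
        congr 1
        exact Subtype.ext (by simp [mul_assoc]))
      (fun m hm => (hx _).mpr (inv_ne_one.mpr ((hx m).mp hm))) n
      ((hx n).mpr fun e => hn (by rw [e, inv_one])) hn
    rw [Set.ncard_singleton] at this
    omega

theorem regular_normal_three_primitive [Fintype X] (hX : 3 ≤ Fintype.card X)
    (h3 : IsMultiplyPreprimitive G X 3) (N : Subgroup G) [N.Normal]
    (htrans : IsPretransitive N X) (hreg : ∀ x : X, stabilizer N x = ⊥) :
    Fintype.card X = 3 ∨ Fintype.card X = 4 := by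
  by_cases h4 : Fintype.card X = 4
  · exact .inr h4
  left
  by_contra h3'
  obtain ⟨x⟩ : Nonempty X := Fintype.card_pos_iff.mp (by omega)
  obtain ⟨hinj, hconj⟩ := blocks_in_regular N htrans hreg x
  have hbij : Function.Bijective fun n : N => n • x :=
    ⟨fun a b e => hinj a b e, fun y => exists_smul_eq N x y⟩
  have hx : ∀ m : N, m • x ∉ ({x} : Set X) ↔ m ≠ 1 := fun m =>
    ⟨fun h e => h (by rw [e, one_smul]; rfl), fun h e => h (hinj m 1 (by rw [one_smul]; exact e))⟩
  obtain ⟨y, hy⟩ := Fintype.exists_ne_of_one_lt_card (by omega : 1 < Fintype.card X) x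
  obtain ⟨n, rfl⟩ := hbij.2 y
  have h2t : IsMultiplyPretransitive G X 2 :=
    isMultiplyPretransitive_of_le (n := 3) (by omega) (by rw [Nat.card_eq_fintype_card]; omega)
  -- all elements of `N` are involutions
  have hall : ∀ m : N, m⁻¹ = m := by
    by_contra hc
    push Not at hc
    obtain ⟨m, hm⟩ := hc
    have hm2 : m⁻¹ • x ≠ m • x := fun e => hm (hinj _ _ e)
    have hm1 : m • x ≠ x := fun e => (hx m).mp (show m • x ∉ ({x} : Set X) from
      (hx m).mpr fun e' => hm (by rw [e', inv_one])) (hinj m 1 (by rw [one_smul]; exact e))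
    obtain ⟨z, hz⟩ : ∃ z : X, z ∉ ({x, m • x, m⁻¹ • x} : Set X) := by
      by_contra hc
      push Not at hc
      have := Set.ncard_le_ncard (s := (Set.univ : Set X)) (t := {x, m • x, m⁻¹ • x})
        (fun z _ => hc z) (Set.toFinite _)
      rw [Set.ncard_univ, Nat.card_eq_fintype_card] at this
      have h' := (Set.ncard_insert_le x {m • x, m⁻¹ • x}).trans
        (Nat.add_le_add_right (Set.ncard_insert_le (m • x) {m⁻¹ • x}) 1)
      rw [Set.ncard_singleton] at h'
      omega
    have h3t : IsMultiplyPretransitive G X 3 := inferInstance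
    simp only [Set.mem_insert_iff, Set.mem_singleton_iff, not_or] at hz
    let u : Fin 3 ↪ X := ⟨![x, m • x, m⁻¹ • x], by
      intro i j h
      have hm3 : m⁻¹ • x ≠ x := fun e => hm (by
        have := hinj m⁻¹ 1 (by rw [one_smul]; exact e)
        rw [inv_eq_one] at this
        rw [this, inv_one])
      fin_cases i <;> fin_cases j <;>
        simp_all [Ne.symm hm1, Ne.symm hm2, Ne.symm hm3]⟩
    let v : Fin 3 ↪ X := ⟨![x, m • x, z], by
      intro i j h
      fin_cases i <;> fin_cases j <;>
        simp_all [Ne.symm hm1, Ne.symm hz.1, Ne.symm hz.2.1]⟩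
    obtain ⟨g, hg⟩ := exists_smul_eq G u v
    have g0 : g • x = x := DFunLike.congr_fun hg 0
    have g1 : g • m • x = m • x := DFunLike.congr_fun hg 1
    have g2 : g • m⁻¹ • x = z := DFunLike.congr_fun hg 2
    rw [hconj g g0] at g1 g2
    have e := hinj _ _ g1
    apply hz.2.2
    rw [← g2]
    congr 1
    refine Subtype.ext ?_
    simpa [mul_assoc] using congrArg (fun k : N => (k : G)⁻¹) e
  have hn1 : n ≠ 1 := fun e => hy (by rw [e]; exact one_smul N x)
  have hnn : n * n = 1 := by
    nth_rewrite 1 [← hall n]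
    exact inv_mul_cancel n
  have hprim : IsPreprimitive (fixingSubgroup G ({x, n • x} : Set X))
      (SubMulAction.ofFixingSubgroup G ({x, n • x} : Set X)) :=
    IsMultiplyPreprimitive.isPreprimitive_ofFixingSubgroup G 3
      (by rw [Set.encard_pair (Ne.symm hy)]; rfl)
  have hmem : ∀ m : N, m • x ∉ ({x, n • x} : Set X) ↔ m ≠ 1 ∧ m ≠ n := fun m => by
    constructor
    · exact fun h => ⟨fun e => h (.inl (by rw [e]; exact one_smul N x)),
        fun e => h (.inr (by rw [e]; rfl))⟩
    · rintro ⟨h1, h2⟩ (e | e)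
      · exact h1 (hinj _ 1 (by rw [one_smul]; exact e))
      · exact h2 (hinj _ _ e)
  obtain ⟨z, hz⟩ : ∃ z : X, z ∉ ({x, n • x} : Set X) := by
    by_contra hc
    push Not at hc
    have := Set.ncard_le_ncard (s := (Set.univ : Set X)) (t := {x, n • x}) (fun z _ => hc z)
      (Set.toFinite _)
    rw [Set.ncard_univ, Nat.card_eq_fintype_card, Set.ncard_pair (Ne.symm hy)] at this
    omega
  obtain ⟨m, rfl⟩ := hbij.2 z
  have := pairs_block (x := x) ({x, n • x} : Set X) (.inl rfl) N htrans hreg hprim (fun k => k * n)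
    (fun k => by rw [mul_assoc, hnn, mul_one]) (fun g hg k => by
      have g0 := (mem_fixingSubgroup_iff G).mp hg x (.inl rfl)
      have g1 : g • n • x = n • x := (mem_fixingSubgroup_iff G).mp hg _ (.inr rfl)
      rw [hconj g g0] at g1 ⊢
      congr 1
      have e := congrArg Subtype.val (hinj _ _ g1)
      refine Subtype.ext ?_
      show g * ((k : G) * n) * g⁻¹ = g * k * g⁻¹ * n
      conv_rhs => rw [← e]
      simp [mul_assoc])
    (fun k hk => by
      obtain ⟨h1, h2⟩ := (hmem k).mp hk
      refine (hmem _).mpr ⟨fun e => h2 ?_, fun e => h1 (mul_eq_right.mp e)⟩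
      rw [eq_inv_of_mul_eq_one_left e, hall])
    m hz (fun e => hn1 (mul_eq_left.mp e))
  rw [Set.ncard_pair (Ne.symm hy)] at this
  omega

end RegularNormal

theorem card_ne_degree_thirteen {α : Type u} [Fintype α] [DecidableEq α] (hα : Fintype.card α = 13)
    (G : Subgroup (Equiv.Perm α)) [IsPretransitive G α] :
    Nat.card G ≠ 13 * 12 * 11 * 10 * 9 * 8 := by
  intro hG
  haveI : Fact (Nat.Prime 13) := ⟨by norm_num⟩
  haveI : Nonempty α := Fintype.card_pos_iff.mp (by omega)
  obtain ⟨a⟩ := ‹Nonempty α›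
  set P : Sylow 13 G := default
  have hPcard : Nat.card (P : Subgroup G) = 13 := by
    obtain ⟨k, hk⟩ := P.isPGroup'.exists_card_eq
    have h1 : 13 ^ 1 ∣ Nat.card (P : Subgroup G) :=
      P.pow_dvd_card_of_pow_dvd_card (by rw [hG]; norm_num)
    have h2 : 13 ^ k ∣ Nat.card G := hk ▸ Subgroup.card_subgroup_dvd_card _
    rcases Nat.lt_or_ge k 2 with hk2 | hk2
    · interval_cases k
      · rw [hk] at h1; norm_num at h1
      · rw [hk, pow_one]
    · exfalso
      have h3 := (pow_dvd_pow 13 hk2).trans h2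
      rw [hG] at h3
      norm_num at h3
  -- `P` is regular
  haveI : IsCyclic (P : Subgroup G) := isCyclic_of_prime_card hPcard
  have hPtrans : IsPretransitive (P : Subgroup G) α := by
    obtain ⟨g, hg⟩ := IsCyclic.exists_generator (α := (P : Subgroup G))
    have hg1 : ((g : G) : Equiv.Perm α) ≠ 1 := fun e => by
      have e' : g = 1 := Subtype.ext (Subtype.ext e)
      have h1 : Nat.card (P : Subgroup G) = 1 := Nat.card_eq_one_iff_unique.mpr
        ⟨⟨fun x y => by
          obtain ⟨i, rfl⟩ := Subgroup.mem_zpowers_iff.mp (hg x)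
          obtain ⟨j, rfl⟩ := Subgroup.mem_zpowers_iff.mp (hg y)
          rw [e', one_zpow, one_zpow]⟩, ⟨1⟩⟩
      omega
    obtain ⟨b, hb⟩ : ∃ b : α, g • b ≠ b := by
      by_contra hc
      push Not at hc
      exact hg1 (Equiv.ext hc)
    have horb : Nat.card (orbit (P : Subgroup G) b) = 13 := by
      have h := Nat.card_congr (orbitProdStabilizerEquivGroup (P : Subgroup G) b)
      rw [Nat.card_prod, hPcard] at h
      rcases (Nat.dvd_prime (by norm_num)).mp ⟨_, h.symm⟩ with h1 | h1
      · obtain ⟨hs, -⟩ := Nat.card_eq_one_iff_unique.mp h1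
        exact absurd (congrArg Subtype.val
          (hs.elim ⟨g • b, mem_orbit b g⟩ ⟨b, mem_orbit_self b⟩)) hb
      · exact h1
    have hu : orbit (P : Subgroup G) b = Set.univ := Set.eq_of_subset_of_ncard_le (Set.subset_univ _)
      (by rw [Set.ncard_univ, ← Nat.card_coe_set_eq, horb, Nat.card_eq_fintype_card, hα])
        (Set.toFinite _)
    exact ⟨fun x y => by
      have hx : x ∈ orbit (P : Subgroup G) b := hu ▸ Set.mem_univ x
      have hy : y ∈ orbit (P : Subgroup G) b := hu ▸ Set.mem_univ y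
      obtain ⟨p1, rfl⟩ := hx
      obtain ⟨p2, rfl⟩ := hy
      exact ⟨p2 * p1⁻¹, by rw [mul_smul, inv_smul_smul]⟩⟩
  -- centraliser of `P` has order 13
  set C := Subgroup.centralizer ((P : Subgroup G) : Set G)
  have hCle : Nat.card C ≤ 13 := by
    refine le_of_le_of_eq (Nat.card_le_card_of_injective (fun c : C => (c : G) • a) fun c d e => ?_)
      (by rw [Nat.card_eq_fintype_card, hα])
    refine Subtype.ext (Subtype.ext (Equiv.ext fun b => ?_))
    obtain ⟨q, rfl⟩ := hPtrans.exists_smul_eq a b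
    show (c : G) • (q : G) • a = (d : G) • (q : G) • a
    rw [smul_smul, smul_smul, ← Subgroup.mem_centralizer_iff.mp c.2 q q.2,
      ← Subgroup.mem_centralizer_iff.mp d.2 q q.2, mul_smul, mul_smul]
    exact congrArg _ e
  have hPC : (P : Subgroup G) ≤ C := fun x hx => Subgroup.mem_centralizer_iff.mpr fun y hy => by
    letI : CommGroup (P : Subgroup G) := IsCyclic.commGroup
    exact congrArg Subtype.val (mul_comm (⟨y, hy⟩ : (P : Subgroup G)) ⟨x, hx⟩)
  have hC : Nat.card C = 13 := le_antisymm hCle (hPcard ▸ Subgroup.card_le_of_le hPC)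
  set N := Subgroup.normalizer ((P : Subgroup G) : Set G)
  have hdiv : Nat.card N ∣ 13 * 12 := by
    have hle : C ≤ N := Subgroup.centralizer_le_normalizer _
    have h1 : (Subgroup.normalizerMonoidHom (P : Subgroup G)).ker = C.subgroupOf N :=
      Subgroup.normalizerMonoidHom_ker _
    have h2 := Subgroup.card_mul_index ((Subgroup.normalizerMonoidHom (P : Subgroup G)).ker)
    rw [Subgroup.index_ker, h1, Nat.card_congr (Subgroup.subgroupOfEquivOfLe hle).toEquiv, hC] at h2
    rw [← h2]
    refine Nat.mul_dvd_mul_left 13 ((Subgroup.card_subgroup_dvd_card _).trans (dvd_of_eq ?_))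
    rw [Nat.card_congr (IsCyclic.mulAutMulEquiv (P : Subgroup G)).toEquiv, hPcard,
      Nat.card_eq_fintype_card, ZMod.card_units]
  have hn := P.card_eq_index_normalizer
  have hmod := card_sylow_modEq_one 13 G
  rw [hn] at hmod
  have hmul := Subgroup.card_mul_index N
  rw [hG] at hmul
  have h13 : 13 ∣ Nat.card N := hPcard ▸ Subgroup.card_dvd_of_le Subgroup.le_normalizer
  obtain ⟨d, hd⟩ := h13
  rw [hd] at hdiv hmul
  have hd12 : d ∣ 12 := Nat.dvd_of_mul_dvd_mul_left (by norm_num) hdiv
  have hi : d * N.index = 95040 :=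
    Nat.eq_of_mul_eq_mul_left (show 0 < 13 by norm_num) (by rw [← mul_assoc, hmul])
  have hdle : d ≤ 12 := Nat.le_of_dvd (by norm_num) hd12
  have hm : d % 13 = 95040 % 13 := by
    have hmod' : N.index % 13 = 1 := by
      have := hmod
      unfold Nat.ModEq at this
      norm_num at this
      exact this
    rw [← hi, Nat.mul_mod, hmod']
    simp [Nat.mod_mod]
  interval_cases d <;> omega

/-- Jordan: a doubly transitive pointwise stabiliser in a primitive group. -/
theorem jordan_two_transitive_fixing {α : Type u} [Fintype α] [DecidableEq α]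
    (G : Subgroup (Equiv.Perm α)) (hG : IsPreprimitive G α) (s : Set α) {m : ℕ} (hsm : s.ncard = m)
    (hm : m + 2 ≤ Fintype.card α)
    (h2 : IsMultiplyPretransitive (fixingSubgroup G s) (SubMulAction.ofFixingSubgroup G s) 2) :
    IsMultiplyPretransitive G α (m + 2) := by
  have hmt : IsMultiplyPretransitive G α m := by
    rcases m with _ | n
    · exact is_zero_pretransitive
    · haveI : IsMultiplyPreprimitive G α (n + 2) :=
        hG.isMultiplyPreprimitive hsm (by rw [Nat.card_eq_fintype_card]; omega)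
          (isPreprimitive_of_is_two_pretransitive h2)
      exact isMultiplyPretransitive_of_le (n := n + 2) (by omega)
        (by rw [Nat.card_eq_fintype_card]; omega)
  let e : Fin m ↪ α := (((finCongr (hsm.symm.trans (Nat.card_coe_set_eq s).symm)).trans
    (Finite.equivFin s).symm).toEmbedding).trans (Function.Embedding.subtype _)
  have hes : Set.range e = s := by
    ext x
    constructor
    · rintro ⟨i, rfl⟩
      exact Subtype.prop _
    · intro hx
      refine ⟨(finCongr (hsm.symm.trans (Nat.card_coe_set_eq s).symm)).symm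
        (Finite.equivFin s ⟨x, hx⟩), ?_⟩
      show ((Finite.equivFin s).symm ((finCongr _) ((finCongr _).symm _)) : α) = x
      rw [Equiv.apply_symm_apply, Equiv.symm_apply_apply]
  have key : ∀ u : Fin (m + 2) ↪ α, ∃ g : G, (∀ i : Fin m, g • u (i.castAdd 2) = e i) ∧
      g • u (Fin.natAdd m 0) ∉ s ∧ g • u (Fin.natAdd m 1) ∉ s := by
    intro u
    obtain ⟨g, hg⟩ := exists_smul_eq G ((Fin.castAddEmb 2).trans u) e
    have hnot : ∀ j : Fin 2, g • u (Fin.natAdd m j) ∉ s := by
      intro j hj
      rw [← hes] at hj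
      obtain ⟨i, hi⟩ := hj
      rw [← DFunLike.congr_fun hg i] at hi
      have h' := congrArg Fin.val (u.injective (smul_left_cancel g hi))
      have hlt := i.isLt
      simp at h'
      omega
    exact ⟨g, fun i => DFunLike.congr_fun hg i, hnot 0, hnot 1⟩
  rw [IsMultiplyPretransitive, isPretransitive_iff]
  intro u v
  obtain ⟨g, hg, hg0, hg1⟩ := key u
  obtain ⟨g', hg', hg0', hg1'⟩ := key v
  have hne : ∀ w : Fin (m + 2) ↪ α, w (Fin.natAdd m 0) ≠ w (Fin.natAdd m 1) := fun w h => by
    have := congrArg Fin.val (w.injective h)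
    simp at this
  have H2 : ∀ a b c d : SubMulAction.ofFixingSubgroup G s, a ≠ b → c ≠ d →
      ∃ h : fixingSubgroup G s, h • a = c ∧ h • b = d :=
    fun a b c d hab hcd => is_two_pretransitive_iff.mp h2 hab hcd
  obtain ⟨h, h0, h1⟩ := H2
    (⟨_, hg0⟩ : SubMulAction.ofFixingSubgroup G s)
    (⟨_, hg1⟩ : SubMulAction.ofFixingSubgroup G s)
    (⟨_, hg0'⟩ : SubMulAction.ofFixingSubgroup G s)
    (⟨_, hg1'⟩ : SubMulAction.ofFixingSubgroup G s)
    (fun h => hne u (smul_left_cancel g (congrArg Subtype.val h)))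
    (fun h => hne v (smul_left_cancel g' (congrArg Subtype.val h)))
  have h0' : (h : G) • g • u (Fin.natAdd m 0) = g' • v (Fin.natAdd m 0) := congrArg Subtype.val h0
  have h1' : (h : G) • g • u (Fin.natAdd m 1) = g' • v (Fin.natAdd m 1) := congrArg Subtype.val h1
  refine ⟨g'⁻¹ * (h : G) * g, DFunLike.ext _ _ fun i => ?_⟩
  show (g'⁻¹ * (h : G) * g) • u i = v i
  rw [mul_smul, mul_smul, inv_smul_eq_iff]
  induction i using Fin.addCases with
  | left j =>
    rw [hg j, hg' j]
    exact (mem_fixingSubgroup_iff G).mp h.2 _ (hes ▸ Set.mem_range_self j)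
  | right j =>
    fin_cases j
    · exact h0'
    · exact h1'

end CfsgLib.Perm
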