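import Cfsg.Agent.Lib.PermPrimeDeg
import Cfsg.Agent.Lib.PermThreeTrans

/-!
# Prime degree with a Sylow normaliser of even order
-/

set_option autoImplicit false
set_option linter.unusedSectionVars false
set_option linter.style.haveILetI false

namespace CfsgLib.PrimeEven

open MulAction Pointwise CfsgLib.PrimeDeg

universe u

variable {α : Type u} [Fintype α] [DecidableEq α] {p : ℕ} [hp : Fact p.Prime]
  (G : Subgroup (Equiv.Perm α)) [IsPretransitive G α]

theorem exists_neg_coord (hα : Fintype.card α = p) (hp3 : 3 < p) (P : Sylow p G)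
    (heven : Even (Nat.card (Subgroup.normalizer ((P : Subgroup G) : Set G)))) :
    ∃ (e : ZMod p ≃ α) (c s : G), (∀ j, c • e j = e (j + 1)) ∧ (∀ j, s • e j = e (-j)) ∧
      orderOf s = 2 := by
  obtain ⟨c₀, hc₀⟩ := exists_orderOf G hα
  have hdG : p ∣ Nat.card G := by
    have := orderOf_dvd_natCard (c₀ : G)
    rwa [← Subgroup.orderOf_coe, hc₀] at this
  have hP : Nat.card (P : Subgroup G) = p := by
    obtain ⟨k, hk⟩ := IsPGroup.iff_card.mp P.isPGroup'
    have h1 : p ∣ Nat.card (P : Subgroup G) := P.dvd_card_of_dvd_card hdG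
    have h2 : Nat.card (P : Subgroup G) ∣ p.factorial := by
      refine (Subgroup.card_subgroup_dvd_card _).trans ((Subgroup.card_subgroup_dvd_card G).trans ?_)
      rw [Nat.card_perm, Nat.card_eq_fintype_card, hα]
    rw [hk] at h1 h2 ⊢
    rcases Nat.lt_or_ge k 2 with h | h
    · interval_cases k
      · rw [pow_zero] at h1
        exact absurd (Nat.dvd_one.mp h1) hp.out.ne_one
      · rw [pow_one]
    · exfalso
      have h3 : p * p ∣ p * (p - 1).factorial := by
        rw [Nat.mul_factorial_pred hp.out.ne_zero, ← sq]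
        exact (pow_dvd_pow p h).trans h2
      have h4 := (hp.out.dvd_factorial).mp ((mul_dvd_mul_iff_left hp.out.ne_zero).mp h3)
      omega
  obtain ⟨⟨c, hcP⟩, hc⟩ := exists_prime_orderOf_dvd_card' (G := (P : Subgroup G)) p (by rw [hP])
  rw [Subgroup.orderOf_mk] at hc
  have hzP : Subgroup.zpowers c = P := Subgroup.eq_of_le_of_card_ge
    (Subgroup.zpowers_le.mpr hcP) (by rw [hP, Nat.card_zpowers, hc])
  obtain ⟨⟨s, hsN⟩, hs⟩ := exists_prime_orderOf_dvd_card'
    (G := Subgroup.normalizer ((P : Subgroup G) : Set G)) 2 (even_iff_two_dvd.mp heven)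
  rw [Subgroup.orderOf_mk] at hs
  obtain ⟨x⟩ : Nonempty α := Fintype.card_pos_iff.mp (by rw [hα]; exact hp.out.pos)
  obtain ⟨e, -, he⟩ := exists_coord hα (c : Equiv.Perm α) (by rw [Subgroup.orderOf_coe, hc]) x
  have he' : ∀ j, c • e j = e (j + 1) := he
  have hpown : ∀ (n : ℕ) j, (c ^ n) • e j = e (j + n) := by
    intro n
    induction n with
    | zero => intro j; simp
    | succ n ih => intro j; rw [pow_succ', mul_smul, ih, he', Nat.cast_succ, add_assoc]
  obtain ⟨i, hi⟩ : ∃ i : ℕ, s * c * s⁻¹ = c ^ i := by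
    have hmem : s * c * s⁻¹ ∈ (P : Subgroup G) := (Subgroup.mem_normalizer_iff.mp hsN c).mp hcP
    rw [← hzP, ← mem_powers_iff_mem_zpowers] at hmem
    exact ⟨_, hmem.choose_spec.symm⟩
  let f : ZMod p → ZMod p := fun j => e.symm (s • e j)
  have hfs : ∀ j, s • e j = e (f j) := fun j => (e.apply_symm_apply _).symm
  have hstep : ∀ j, f (j + 1) = f j + i := by
    intro j
    refine e.injective ?_
    rw [← hfs, ← hpown i, ← hfs, ← hi, mul_smul, mul_smul, inv_smul_smul, he']
  have hlin : ∀ j, f j = i * j + f 0 := by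
    intro j
    obtain ⟨n, rfl⟩ := ZMod.natCast_zmod_surjective j
    induction n with
    | zero => simp
    | succ n ih => rw [Nat.cast_succ, hstep, ih]; ring
  have hss : ∀ j, f (f j) = j := fun j => e.injective (by
    rw [← hfs, ← hfs, ← mul_smul, ← sq, ← hs, pow_orderOf_eq_one, one_smul])
  have hii : (i : ZMod p) * i = 1 := by
    have h0 := hss 0
    have h1 := hss 1
    rw [hlin 0] at h0; rw [hlin 1] at h1
    simp only [mul_zero, mul_one, zero_add] at h0 h1
    rw [hlin] at h0 h1
    linear_combination h1 - h0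
  have h2ne : (2 : ZMod p) ≠ 0 := by
    intro h
    have : (p : ℕ) ∣ 2 := (ZMod.natCast_eq_zero_iff 2 p).mp (by exact_mod_cast h)
    have := Nat.le_of_dvd (by norm_num) this
    omega
  rcases mul_self_eq_one_iff.mp hii with hi1 | hi1
  · exfalso
    have hb : f 0 = 0 := by
      have h0 := hss 0
      rw [hlin (f 0), hi1] at h0
      exact (mul_eq_zero.mp (show (2 : ZMod p) * f 0 = 0 by linear_combination h0)).resolve_left h2ne
    have : s = 1 := eq_of_smul_eq_smul fun y : α => by
      obtain ⟨j, rfl⟩ := e.surjective y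
      rw [hfs, hlin, hi1, hb, one_mul, add_zero, one_smul]
    rw [this, orderOf_one] at hs
    omega
  · have hh : f 0 / 2 + f 0 / 2 = f 0 := by field_simp; ring
    refine ⟨(Equiv.addRight (f 0 / 2)).trans e, c, s, fun j => ?_, fun j => ?_, hs⟩
    · show c • e (j + f 0 / 2) = e (j + 1 + f 0 / 2)
      rw [he', add_right_comm]
    · show s • e (j + f 0 / 2) = e (-j + f 0 / 2)
      rw [hfs, hlin, hi1]
      congr 1
      linear_combination -hh

theorem three_transitive (hα : Fintype.card α = p) (hG : ¬ Group.IsSolvable G) (P : Sylow p G)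
    (heven : Even (Nat.card (Subgroup.normalizer ((P : Subgroup G) : Set G)))) :
    IsMultiplyPretransitive G α 3 := by
  classical
  have hp3 : 3 < p := not_le.mp fun h => hG (solvable_of_small G hα h)
  have h2 : IsMultiplyPretransitive G α 2 := (burnside G hα).resolve_left hG
  obtain ⟨e, c, s, he, hs, hs2⟩ := exists_neg_coord G hα hp3 P heven
  refine CfsgLib.ThreeTrans.three_transitive (K := ZMod p) (p := p) h2 (fun a => ?_) fun F hF => ?_
  · obtain ⟨g, rfl⟩ := exists_smul_eq G (e 0) a
    have hmem : g * s * g⁻¹ ∈ stabilizer G (g • e 0) := by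
      rw [mem_stabilizer_iff, mul_smul, mul_smul, inv_smul_smul, hs, neg_zero]
    have ho : orderOf (⟨_, hmem⟩ : stabilizer G (g • e 0)) = 2 := by
      rw [Subgroup.orderOf_mk, ← MulAut.conj_apply, MulEquiv.orderOf_eq, hs2]
    exact even_iff_two_dvd.mpr (ho ▸ orderOf_dvd_natCard _)
  -- the kernel is the heart or nothing
  let W : Subrepresentation (Cfsg.permRep (ZMod p) G α) :=
    ⟨(LinearMap.ker F.toLinearMap).map (Cfsg.permSumZero (ZMod p) G α).toSubmodule.subtype,
      fun g v hv => by
        obtain ⟨w, hw, rfl⟩ := Submodule.mem_map.mp hv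
        refine Submodule.mem_map.mpr ⟨(Cfsg.permSumZero (ZMod p) G α).toRepresentation g w, ?_, rfl⟩
        rw [LinearMap.mem_ker] at hw ⊢
        have h := LinearMap.congr_fun (F.isIntertwining' g) w
        rw [LinearMap.comp_apply, LinearMap.comp_apply, hw, map_zero] at h
        exact h⟩
  have hsum0 : ∀ w : α → ZMod p, w ∈ (Cfsg.permConstants (ZMod p) G α).toSubmodule →
      w ∈ (Cfsg.permSumZero (ZMod p) G α).toSubmodule := by
    intro w hw
    obtain ⟨t, rfl⟩ := Submodule.mem_span_singleton.mp hw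
    show ∑ x, (t • fun _ : α => (1 : ZMod p)) x = 0
    simp [hα]
  -- the linear function
  let v₁ : α → ZMod p := fun x => e.symm x
  have hv₁ : v₁ ∈ (Cfsg.permSumZero (ZMod p) G α).toSubmodule := by
    show ∑ x, e.symm x = 0
    rw [Fintype.sum_equiv e.symm (fun x => e.symm x) (fun j => j) fun _ => rfl]
    have h := FiniteField.sum_pow_lt_card_sub_one (K := ZMod p) 1 (by rw [ZMod.card]; omega)
    simpa using h
  let v : (Cfsg.permSumZero (ZMod p) G α).toSubmodule := ⟨v₁, hv₁⟩
  have hequiv : ∀ (g : G) (w : (Cfsg.permSumZero (ZMod p) G α).toSubmodule) Q,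
      F ((Cfsg.permSumZero (ZMod p) G α).toRepresentation g w) Q = F w (g⁻¹ • Q) := fun g w Q =>
    congrFun (LinearMap.congr_fun (F.isIntertwining' g) w) Q
  have hpown : ∀ (n : ℕ) j, (c ^ n) • e j = e (j + n) := by
    intro n
    induction n with
    | zero => intro j; simp
    | succ n ih => intro j; rw [pow_succ', mul_smul, ih, he, Nat.cast_succ, add_assoc]
  have htrans : ∀ (n : ℕ) Q, F v ((c ^ n)⁻¹ • Q) = F v Q := by
    intro n Q
    rw [← hequiv]
    have hd : ((Cfsg.permSumZero (ZMod p) G α).toRepresentation (c ^ n) v : α → ZMod p) - v₁ ∈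
        (Cfsg.permConstants (ZMod p) G α).toSubmodule := by
      refine Submodule.mem_span_singleton.mpr ⟨-(n : ZMod p), funext fun x => ?_⟩
      obtain ⟨j, rfl⟩ := e.surjective x
      show -(n : ZMod p) • (1 : ZMod p) = e.symm ((c ^ n)⁻¹ • e j) - e.symm (e j)
      rw [inv_smul_eq_iff.mpr (show e j = (c ^ n) • e (j - n) by rw [hpown, sub_add_cancel])]
      simp
    have := hF ((Cfsg.permSumZero (ZMod p) G α).toRepresentation (c ^ n) v - v) hd
    rw [map_sub, sub_eq_zero] at this
    rw [this]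
  have hanti : ∀ Q, F v (s⁻¹ • Q) = -F v Q := by
    intro Q
    rw [← hequiv, show (Cfsg.permSumZero (ZMod p) G α).toRepresentation s v = -v from
      Subtype.ext (funext fun x => ?_), map_neg]
    · rfl
    · obtain ⟨j, rfl⟩ := e.surjective x
      show e.symm (s⁻¹ • e j) = -e.symm (e j)
      rw [inv_smul_eq_iff.mpr (show e j = s • e (-j) by rw [hs, neg_neg])]
      simp
  have hFv : F v = 0 := by
    funext Q
    obtain ⟨x, y, hxy, hQ⟩ := Finset.card_eq_two.mp Q.2.out
    obtain ⟨i, rfl⟩ := e.surjective x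
    obtain ⟨j, rfl⟩ := e.surjective y
    obtain ⟨n, hn⟩ := ZMod.natCast_zmod_surjective (i + j)
    have hQ2 : s⁻¹ • Q = (c ^ n)⁻¹ • Q := by
      refine Subtype.ext ?_
      show s⁻¹ • (Q : Finset α) = (c ^ n)⁻¹ • (Q : Finset α)
      rw [hQ]
      simp only [Finset.smul_finset_insert, Finset.smul_finset_singleton]
      rw [inv_smul_eq_iff.mpr (show e i = s • e (-i) by rw [hs, neg_neg]),
        inv_smul_eq_iff.mpr (show e j = s • e (-j) by rw [hs, neg_neg]),
        inv_smul_eq_iff.mpr (show e i = (c ^ n) • e (-j) by rw [hpown, hn]; congr 1; ring),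
        inv_smul_eq_iff.mpr (show e j = (c ^ n) • e (-i) by rw [hpown, hn]; congr 1; ring),
        Finset.pair_comm]
    have h := hanti Q
    rw [hQ2, htrans] at h
    have h2' : (2 : ZMod p) ≠ 0 := by
      intro h'
      have : (p : ℕ) ∣ 2 := (ZMod.natCast_eq_zero_iff 2 p).mp (by exact_mod_cast h')
      have := Nat.le_of_dvd (by norm_num) this
      omega
    exact (mul_eq_zero.mp (show (2 : ZMod p) * F v Q = 0 by linear_combination h)).resolve_left h2'
  have hvW : v₁ ∈ W.toSubmodule := Submodule.mem_map.mpr ⟨v, LinearMap.mem_ker.mpr hFv, rfl⟩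
  rcases heart_irreducible G hα hG W (fun w hw => Submodule.mem_map.mpr
      ⟨⟨w, hsum0 w hw⟩, LinearMap.mem_ker.mpr (hF _ hw), rfl⟩)
      (fun w hw => by obtain ⟨w', -, rfl⟩ := Submodule.mem_map.mp hw; exact w'.2) with hW | hW
  · exfalso
    rw [hW] at hvW
    obtain ⟨t, ht⟩ := Submodule.mem_span_singleton.mp hvW
    have h0 := congrFun ht (e 0)
    have h1 := congrFun ht (e 1)
    simp [v₁] at h0 h1
    exact zero_ne_one (h0.symm.trans h1)
  · refine Representation.IntertwiningMap.ext (LinearMap.ext fun w => ?_)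
    have hw : (w : α → ZMod p) ∈ W.toSubmodule := by rw [hW]; exact w.2
    obtain ⟨w', hw', hww⟩ := Submodule.mem_map.mp hw
    rw [← Subtype.ext hww]
    exact LinearMap.mem_ker.mp hw'

end CfsgLib.PrimeEven
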