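import Cfsg.Agent.Lib.PermPrimeEven
import Mathlib.Algebra.CharP.Two

/-!
# Subgroups of prime index in groups of prime degree
-/

set_option autoImplicit false
set_option linter.unusedSectionVars false
set_option linter.style.haveILetI false

namespace CfsgLib.PrimeIndex

open MulAction CfsgLib.PrimeDeg

universe u

variable {α : Type u} [Fintype α] [DecidableEq α] {p : ℕ} [hp : Fact p.Prime]
  (G : Subgroup (Equiv.Perm α)) [IsPretransitive G α]

theorem sq_not_dvd (hα : Fintype.card α = p) : ¬ p * p ∣ Nat.card G := by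
  intro h
  have h2 : p * p ∣ p.factorial := by
    refine h.trans ((Subgroup.card_subgroup_dvd_card G).trans ?_)
    rw [Nat.card_perm, Nat.card_eq_fintype_card, hα]
  rw [← Nat.mul_factorial_pred hp.out.ne_zero, mul_dvd_mul_iff_left hp.out.ne_zero,
    hp.out.dvd_factorial] at h2
  have := hp.out.one_le
  omega

theorem not_dvd_card (hα : Fintype.card α = p) (H : Subgroup G) (hH : H.index = p) :
    ¬ p ∣ Nat.card H := fun h => sq_not_dvd G hα (by
  rw [← Subgroup.card_mul_index H, hH]
  exact Nat.mul_dvd_mul_right h p)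

theorem affine_of_solvable (hα : Fintype.card α = p) (hG : Group.IsSolvable G) :
    ∃ e : ZMod p ≃ α, ∀ g : G, ∃ a b : ZMod p, a ≠ 0 ∧ ∀ j, g • e j = e (a * j + b) := by
  classical
  obtain ⟨x⟩ : Nonempty α := Fintype.card_pos_iff.mp (by rw [hα]; exact hp.out.pos)
  have hprim : IsPreprimitive G α := IsPreprimitive.of_prime_card (by
    rw [Nat.card_eq_fintype_card, hα]; exact hp.out)
  have hne : (⊤ : Subgroup G) ≠ ⊥ := fun h => by
    obtain ⟨c, hc⟩ := exists_orderOf G hα
    have : c = 1 := Subgroup.mem_bot.mp (h ▸ Subgroup.mem_top c)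
    rw [this, Subgroup.coe_one, orderOf_one] at hc
    exact hp.out.ne_one hc.symm
  haveI := hG
  obtain ⟨n, hn⟩ := (isSolvable_def G).mp hG
  obtain ⟨m, hm1, hm2⟩ : ∃ m, derivedSeries G m ≠ ⊥ ∧ derivedSeries G (m + 1) = ⊥ := by
    by_contra hc
    push Not at hc
    have : ∀ i, derivedSeries G i ≠ ⊥ := fun i => by
      induction i with
      | zero => rwa [derivedSeries_zero]
      | succ i ih => exact hc i ih
    exact this n hn
  set A := derivedSeries G m
  haveI : IsQuasiPreprimitive G α := inferInstance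
  haveI hAt : IsPretransitive A α := by
    refine IsQuasiPreprimitive.isPretransitive_of_normal fun h => hm1 ?_
    rw [Subgroup.eq_bot_iff_forall]
    intro g hg
    refine eq_of_smul_eq_smul fun y : α => ?_
    rw [one_smul]
    exact (h.symm ▸ Set.mem_univ y : y ∈ fixedPoints A α) ⟨g, hg⟩
  have hcomm : ∀ g ∈ A, ∀ h ∈ A, g * h = h * g := fun g hg h hh =>
    commutatorElement_eq_one_iff_mul_comm.mp
      (Subgroup.mem_bot.mp (hm2 ▸ Subgroup.commutator_mem_commutator hg hh))
  have hbij : Function.Bijective fun g : A => g • x := by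
    refine ⟨fun g h e => ?_, fun y => exists_smul_eq A x y⟩
    refine Subtype.ext (eq_of_smul_eq_smul fun y : α => ?_)
    obtain ⟨k, rfl⟩ := exists_smul_eq A x y
    show (g : G) • (k : G) • x = (h : G) • (k : G) • x
    rw [← mul_smul, hcomm g g.2 k k.2, mul_smul, ← mul_smul (h : G), hcomm h h.2 k k.2, mul_smul]
    exact congrArg _ e
  have hA : Nat.card A = p := by
    rw [Nat.card_eq_of_bijective _ hbij, Nat.card_eq_fintype_card, hα]
  obtain ⟨⟨c, hcA⟩, hc⟩ := exists_prime_orderOf_dvd_card' (G := A) p (by rw [hA])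
  rw [Subgroup.orderOf_mk] at hc
  have hzA : Subgroup.zpowers c = A := Subgroup.eq_of_le_of_card_ge
    (Subgroup.zpowers_le.mpr hcA) (by rw [hA, Nat.card_zpowers, hc])
  obtain ⟨e, -, he⟩ := exists_coord hα (c : Equiv.Perm α) (by rw [Subgroup.orderOf_coe, hc]) x
  have he' : ∀ j, c • e j = e (j + 1) := he
  have hpown : ∀ (n : ℕ) j, (c ^ n) • e j = e (j + n) := by
    intro n
    induction n with
    | zero => intro j; simp
    | succ n ih => intro j; rw [pow_succ', mul_smul, ih, he', Nat.cast_succ, add_assoc]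
  refine ⟨e, fun g => ?_⟩
  obtain ⟨i, hi⟩ : ∃ i : ℕ, g * c * g⁻¹ = c ^ i := by
    have hmem : g * c * g⁻¹ ∈ A := (inferInstance : A.Normal).conj_mem c hcA g
    rw [← hzA, ← mem_powers_iff_mem_zpowers] at hmem
    exact ⟨_, hmem.choose_spec.symm⟩
  let f : ZMod p → ZMod p := fun j => e.symm (g • e j)
  have hfs : ∀ j, g • e j = e (f j) := fun j => (e.apply_symm_apply _).symm
  have hstep : ∀ j, f (j + 1) = f j + i := by
    intro j
    refine e.injective ?_
    rw [← hfs, ← hpown i, ← hfs, ← hi, mul_smul, mul_smul, inv_smul_smul, he']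
  have hlin : ∀ j, f j = i * j + f 0 := by
    intro j
    obtain ⟨n, rfl⟩ := ZMod.natCast_zmod_surjective j
    induction n with
    | zero => simp
    | succ n ih => rw [Nat.cast_succ, hstep, ih]; ring
  refine ⟨i, f 0, fun h0 => ?_, fun j => by rw [hfs, hlin]⟩
  have h1 := hlin 1
  rw [h0, zero_mul, zero_add] at h1
  exact zero_ne_one (e.injective (smul_left_cancel g ((hfs 1).trans (by rw [h1, ← hfs 0]))).symm)

theorem eq_stabilizer_of_le (hα : Fintype.card α = p) (H : Subgroup G) (hH : H.index = p) (x : α)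
    (h : ∀ g ∈ H, g • x = x) : H = stabilizer G x := by
  have hle : H ≤ stabilizer G x := h
  refine Subgroup.eq_of_le_of_card_ge hle (le_of_eq ?_)
  have h1 := Subgroup.card_mul_index H
  have h2 := Subgroup.card_mul_index (stabilizer G x)
  rw [index_stabilizer_of_transitive, show Nat.card α = p by rw [Nat.card_eq_fintype_card, hα]] at h2
  rw [hH] at h1
  exact Nat.eq_of_mul_eq_mul_right hp.out.pos (h2.trans h1.symm)

theorem solvable_case (hα : Fintype.card α = p) (hG : Group.IsSolvable G) (H : Subgroup G)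
    (hH : H.index = p) (hne : H ≠ ⊥) : ∃ x : α, H = stabilizer G x := by
  obtain ⟨e, he⟩ := affine_of_solvable G hα hG
  choose a b ha hab using he
  have htr : ∀ g ∈ H, a g = 1 → g = 1 := by
    intro g hg h1
    by_contra hg1
    have hb : b g ≠ 0 := fun h0 => hg1 (eq_of_smul_eq_smul fun y : α => by
      obtain ⟨j, rfl⟩ := e.surjective y
      rw [hab, h1, h0, one_mul, add_zero, one_smul])
    have hn : ∀ (n : ℕ) j, (g ^ n) • e j = e (j + n * b g) := by
      intro n
      induction n with
      | zero => intro j; simp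
      | succ n ih =>
        intro j
        rw [pow_succ', mul_smul, ih, hab, h1, one_mul, Nat.cast_succ, add_mul, one_mul, add_assoc]
    have hord : orderOf (⟨g, hg⟩ : H) = p := by
      refine orderOf_eq_prime (Subtype.ext (eq_of_smul_eq_smul fun y : α => ?_))
        fun h => hg1 (congrArg Subtype.val h)
      obtain ⟨j, rfl⟩ := e.surjective y
      show (g ^ p) • e j = (1 : G) • e j
      rw [hn, ZMod.natCast_self, zero_mul, add_zero, one_smul]
    exact not_dvd_card G hα H hH (hord ▸ orderOf_dvd_natCard _)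
  obtain ⟨⟨h, hh⟩, hh1⟩ := (Subgroup.nontrivial_iff_ne_bot H).mpr hne |>.exists_pair_ne.elim
    fun x hx => hx.elim fun y hxy => (by
      by_cases hx1 : x = 1
      · exact ⟨y, fun e => hxy (hx1.trans e.symm)⟩
      · exact ⟨x, hx1⟩ : ∃ z : H, z ≠ 1)
  have hah : a h ≠ 1 := fun e' => hh1 (Subtype.ext (htr h hh e'))
  set j₀ : ZMod p := b h / (1 - a h)
  have hfix : a h * j₀ + b h = j₀ := by
    have : (1 : ZMod p) - a h ≠ 0 := sub_ne_zero.mpr (Ne.symm hah)
    simp only [j₀]
    field_simp
    ring
  refine ⟨e j₀, eq_stabilizer_of_le G hα H hH _ fun g hg => ?_⟩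
  -- commutators are translations
  have hmul : ∀ (g₁ g₂ : G) j, (g₁ * g₂) • e j = e (a g₁ * (a g₂ * j + b g₂) + b g₁) := fun g₁ g₂ j => by
    rw [mul_smul, hab g₂, hab g₁]
  have ha_mul : ∀ g₁ g₂ : G, a (g₁ * g₂) = a g₁ * a g₂ := by
    intro g₁ g₂
    have e0 := e.injective ((hab (g₁ * g₂) 0).symm.trans (hmul g₁ g₂ 0))
    have e1 := e.injective ((hab (g₁ * g₂) 1).symm.trans (hmul g₁ g₂ 1))
    simp only [mul_zero, zero_add, mul_one] at e0 e1
    linear_combination e1 - e0
  have hainv : ∀ g₁ : G, a g₁⁻¹ * a g₁ = 1 := fun g₁ => by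
    have h1 : a (1 : G) = 1 := mul_left_cancel₀ (ha 1) (by rw [← ha_mul, one_mul, mul_one])
    rw [← ha_mul, inv_mul_cancel, h1]
  have hc : h * g * h⁻¹ * g⁻¹ = 1 := htr _ (H.mul_mem (H.mul_mem (H.mul_mem hh hg) (H.inv_mem hh))
    (H.inv_mem hg)) (by
      rw [ha_mul, ha_mul, ha_mul]
      linear_combination (a g⁻¹ * a g) * hainv h + hainv g)
  have hcm : h * g = g * h := by
    rw [mul_inv_eq_one, mul_inv_eq_iff_eq_mul] at hc; exact hc
  have hh0 : h • e j₀ = e j₀ := by rw [hab, hfix]
  have h3 : h • g • e j₀ = g • e j₀ := by rw [← mul_smul, hcm, mul_smul, hh0]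
  rw [hab g, hab h] at h3
  rw [hab g]
  congr 1
  have e3 := e.injective h3
  have : (a g * j₀ + b g - j₀) * (1 - a h) = 0 := by linear_combination hfix - e3
  rcases mul_eq_zero.mp this with h' | h'
  · exact sub_eq_zero.mp h'
  · exact absurd (sub_eq_zero.mp h').symm hah

theorem index_eq_stabilizer (hα : Fintype.card α = p) (P : Sylow p G)
    (heven : Even (Nat.card (Subgroup.normalizer ((P : Subgroup G) : Set G)))) (H : Subgroup G)
    (hH : H.index = p) : ∃ x : α, H = stabilizer G x := by
  classical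
  obtain ⟨x₀⟩ : Nonempty α := Fintype.card_pos_iff.mp (by rw [hα]; exact hp.out.pos)
  by_cases hne : H = ⊥
  · exact ⟨x₀, eq_stabilizer_of_le G hα H hH x₀ fun g hg => by
      rw [hne, Subgroup.mem_bot] at hg
      rw [hg, one_smul]⟩
  by_cases hG : Group.IsSolvable G
  · exact solvable_case G hα hG H hH hne
  have hp3 : 3 < p := not_le.mp fun h => hG (solvable_of_small G hα h)
  have h2 : IsMultiplyPretransitive G α 2 := (burnside G hα).resolve_left hG
  obtain ⟨e, c, s, he, hs, -⟩ := CfsgLib.PrimeEven.exists_neg_coord G hα hp3 P heven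
  -- an orbit of `H`
  let D : Finset α := Finset.univ.filter fun y => y ∈ orbit H x₀
  have hDmem : ∀ y, y ∈ D ↔ y ∈ orbit H x₀ := fun y => by simp [D]
  have hDne : D ≠ Finset.univ := by
    intro h
    have hall : orbit H x₀ = Set.univ := Set.eq_univ_of_forall fun y => (hDmem y).mp (h ▸ Finset.mem_univ y)
    have hd := Nat.card_congr (orbitProdStabilizerEquivGroup H x₀)
    rw [Nat.card_prod, hall, Nat.card_congr (Equiv.Set.univ α), Nat.card_eq_fintype_card, hα] at hd
    exact not_dvd_card G hα H hH ⟨_, hd.symm⟩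
  let st : G → Finset α := fun g => D.image (g • ·)
  have hst : ∀ g y, g • y ∈ st g ↔ y ∈ D := fun g y => by
    simp only [st, Finset.mem_image]
    exact ⟨fun ⟨z, hz, hzy⟩ => smul_left_cancel g hzy ▸ hz, fun h => ⟨y, h, rfl⟩⟩
  have hstH : ∀ g, st g = D → g ∈ H := by
    let M : Subgroup G :=
      { carrier := {g | st g = D}
        one_mem' := by simp [st]
        mul_mem' := fun {g g'} (hg : st g = D) (hg' : st g' = D) => by
          show D.image ((g * g') • ·) = D
          conv_rhs => rw [← hg]; simp only [st]; rw [← hg']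
          simp only [st, Finset.image_image]
          exact Finset.image_congr fun y _ => mul_smul g g' y
        inv_mem' := fun {g} (hg : st g = D) => by
          show D.image (g⁻¹ • ·) = D
          conv_lhs => rw [← hg]; simp only [st, Finset.image_image]
          rw [show ((g⁻¹ • ·) ∘ (g • ·) : α → α) = id from funext fun y => inv_smul_smul g y,
            Finset.image_id] }
    have hHM : H ≤ M := fun g hg => by
      refine Finset.eq_of_subset_of_card_le (fun y hy => ?_)
        (by rw [Finset.card_image_of_injective _ (MulAction.injective g)])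
      obtain ⟨z, hz, rfl⟩ := Finset.mem_image.mp hy
      rw [hDmem] at hz ⊢
      obtain ⟨k, rfl⟩ := hz
      exact ⟨⟨g, hg⟩ * k, mul_smul _ k x₀⟩
    have hMtop : M ≠ ⊤ := fun h => hDne (Finset.eq_univ_of_forall fun y => by
      obtain ⟨g, rfl⟩ := exists_smul_eq G x₀ y
      have : st g = D := show g ∈ M from h ▸ Subgroup.mem_top g
      rw [← this, hst, hDmem]
      exact mem_orbit_self x₀)
    have hMH : M = H := by
      have hd := Subgroup.relIndex_mul_index hHM
      rw [hH] at hd
      rcases (Nat.dvd_prime hp.out).mp (Dvd.intro _ hd) with h | h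
      · exact (le_antisymm hHM (Subgroup.relIndex_eq_one.mp h)).symm
      · exfalso
        rw [h] at hd
        exact hMtop (Subgroup.index_eq_one.mp
          (Nat.eq_of_mul_eq_mul_left hp.out.pos (hd.trans (mul_one p).symm)))
    exact fun g hg => hMH ▸ (show g ∈ M from hg)
  have hpown : ∀ (n : ℕ) j, (c ^ n) • e j = e (j + n) := by
    intro n
    induction n with
    | zero => intro j; simp
    | succ n ih => intro j; rw [pow_succ', mul_smul, ih, he, Nat.cast_succ, add_assoc]
  have hc : ∀ u : ZMod p, (c ^ u.val) • e 0 = e u := fun u => by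
    rw [hpown, zero_add, ZMod.natCast_zmod_val]
  have htrans : ∀ (u j : ZMod p), (c ^ u.val) • e j = e (j + u) := fun u j => by
    rw [hpown, ZMod.natCast_zmod_val]
  -- every image of the orbit is a translate
  have himg : ∀ g : G, ∃ u : ZMod p, st g = st (c ^ u.val) := by
    intro g
    have hinj : Function.Injective fun u : ZMod p => (QuotientGroup.mk (c ^ u.val) : G ⧸ H) := by
      intro u v huv
      rw [QuotientGroup.eq] at huv
      by_contra hne'
      have hord : orderOf ((c ^ u.val)⁻¹ * c ^ v.val) = p := by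
        refine orderOf_eq_prime (eq_of_smul_eq_smul fun y : α => ?_) fun h => hne' ?_
        · obtain ⟨j, rfl⟩ := e.surjective y
          have hn : ∀ n : ℕ, ((c ^ u.val)⁻¹ * c ^ v.val) ^ n • e j = e (j + n * (v - u)) := by
            intro n
            induction n with
            | zero => simp
            | succ n ih =>
              rw [pow_succ', mul_smul, ih, mul_smul, htrans, inv_smul_eq_iff, htrans]
              congr 1; push_cast; ring
          rw [hn, ZMod.natCast_self, zero_mul, add_zero, one_smul]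
        · rw [inv_mul_eq_one] at h
          rw [← e.injective.eq_iff, ← hc u, ← hc v, h]
      have h' := orderOf_dvd_natCard (⟨_, huv⟩ : H)
      rw [Subgroup.orderOf_mk, hord] at h'
      exact not_dvd_card G hα H hH h'
    obtain ⟨u, hu⟩ := (hinj.bijective_of_nat_card_le (by
      rw [← Subgroup.index_eq_card, hH, Nat.card_zmod])).2 (QuotientGroup.mk g)
    refine ⟨u, ?_⟩
    have hu' : (c ^ u.val)⁻¹ * g ∈ H := QuotientGroup.eq.mp hu
    have hfix : st ((c ^ u.val)⁻¹ * g) = D :=
      Finset.eq_of_subset_of_card_le (fun y hy => by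
        obtain ⟨z, hz, rfl⟩ := Finset.mem_image.mp hy
        rw [hDmem] at hz ⊢
        obtain ⟨k, rfl⟩ := hz
        exact ⟨⟨_, hu'⟩ * k, mul_smul _ k x₀⟩)
        (by rw [Finset.card_image_of_injective _ (MulAction.injective _)])
    conv_rhs => simp only [st]; rw [← hfix]
    simp only [st, Finset.image_image]
    refine Finset.image_congr fun y _ => ?_
    show g • y = c ^ u.val • ((c ^ u.val)⁻¹ * g) • y
    rw [← mul_smul, mul_inv_cancel_left]
  -- a translate invariant under negation
  obtain ⟨u₀, hu₀⟩ := himg s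
  let w : ZMod p := u₀ / 2
  have h2ne : (2 : ZMod p) ≠ 0 := by
    intro h
    have : (p : ℕ) ∣ 2 := (ZMod.natCast_eq_zero_iff 2 p).mp (by exact_mod_cast h)
    have := Nat.le_of_dvd (by norm_num) this
    omega
  have hw : w + w = u₀ := by simp only [w]; field_simp; ring
  let E : Finset (ZMod p) := Finset.univ.filter fun j => e (j - w) ∈ D
  have hEmem : ∀ j, j ∈ E ↔ e (j - w) ∈ D := fun j => by simp [E]
  have hmem : ∀ u j, e j ∈ st (c ^ u.val) ↔ e (j - u) ∈ D := fun u j => by
    rw [← hst (c ^ u.val), htrans, sub_add_cancel]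
  have hneg : ∀ j, j ∈ E → -j ∈ E := by
    intro j hj
    rw [hEmem] at hj ⊢
    have h := (hst s _).mpr hj
    rw [hs, hu₀, hmem] at h
    rwa [show -j - w = -(j - w) - u₀ by linear_combination -hw]
  have hstinj : ∀ u v : ZMod p, st (c ^ u.val) = st (c ^ v.val) → u = v := by
    intro u v huv
    have hfix : st ((c ^ u.val)⁻¹ * c ^ v.val) = D := by
      ext y
      constructor
      · intro hy
        obtain ⟨z, hz, rfl⟩ := Finset.mem_image.mp hy
        have h' := (hst (c ^ v.val) z).mpr hz
        rw [← huv] at h'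
        rwa [show c ^ v.val • z = c ^ u.val • ((c ^ u.val)⁻¹ * c ^ v.val) • z by
          rw [← mul_smul, mul_inv_cancel_left], hst] at h'
      · intro hy
        have h' := (hst (c ^ u.val) y).mpr hy
        rw [huv] at h'
        obtain ⟨z, hz, hzy⟩ := Finset.mem_image.mp h'
        refine Finset.mem_image.mpr ⟨z, hz, ?_⟩
        show ((c ^ u.val)⁻¹ * c ^ v.val) • z = y
        rw [mul_smul, inv_smul_eq_iff]
        exact hzy
    by_contra hne'
    have hord : orderOf ((c ^ u.val)⁻¹ * c ^ v.val) = p := by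
      refine orderOf_eq_prime (eq_of_smul_eq_smul fun y : α => ?_) fun h => hne' ?_
      · obtain ⟨j, rfl⟩ := e.surjective y
        have hn : ∀ n : ℕ, ((c ^ u.val)⁻¹ * c ^ v.val) ^ n • e j = e (j + n * (v - u)) := by
          intro n
          induction n with
          | zero => simp
          | succ n ih =>
            rw [pow_succ', mul_smul, ih, mul_smul, htrans, inv_smul_eq_iff, htrans]
            congr 1; push_cast; ring
        rw [hn, ZMod.natCast_self, zero_mul, add_zero, one_smul]
      · rw [inv_mul_eq_one] at h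
        rw [← e.injective.eq_iff, ← hc u, ← hc v, h]
    have h' := orderOf_dvd_natCard (⟨_, hstH _ hfix⟩ : H)
    rw [Subgroup.orderOf_mk, hord] at h'
    exact not_dvd_card G hα H hH h'
  -- the number of representations of a difference is constant
  let N : ZMod p → ℕ := fun d => (E.filter fun i => i + d ∈ E).card
  let T : α → α → ℕ := fun y z =>
    (Finset.univ.filter fun u : ZMod p => y ∈ st (c ^ u.val) ∧ z ∈ st (c ^ u.val)).card
  have hTN : ∀ d, T (e 0) (e d) = N d := by
    intro d
    refine Finset.card_equiv ((Equiv.neg (ZMod p)).trans (Equiv.addRight w)) fun u => ?_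
    simp only [Finset.mem_filter, Finset.mem_univ, true_and, hmem, hEmem, Equiv.trans_apply,
      Equiv.neg_apply, Equiv.coe_addRight]
    rw [show (0 : ZMod p) - u = -u + w - w by ring, show d - u = -u + w + d - w by ring]
  have hTinv : ∀ (g : G) y z, T (g • y) (g • z) = T y z := by
    intro g y z
    choose σ hσ using fun u : ZMod p => himg (g * c ^ u.val)
    have hgst : ∀ (u : ZMod p) y, g • y ∈ st (g * c ^ u.val) ↔ y ∈ st (c ^ u.val) := fun u y => by
      constructor
      · intro h
        obtain ⟨q, hq, hqy⟩ := Finset.mem_image.mp h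
        exact Finset.mem_image.mpr ⟨q, hq, smul_left_cancel g ((mul_smul g _ q).symm.trans hqy)⟩
      · intro h
        obtain ⟨q, hq, hqy⟩ := Finset.mem_image.mp h
        exact Finset.mem_image.mpr ⟨q, hq, (mul_smul g _ q).trans (congrArg (g • ·) hqy)⟩
    have hσinj : Function.Injective σ := fun u v e' => hstinj u v (Finset.ext fun y => by
      rw [← hgst u y, ← hgst v y, hσ u, hσ v, e'])
    refine (Finset.card_equiv (Equiv.ofBijective σ hσinj.bijective_of_finite) fun u => ?_).symm
    simp only [Finset.mem_filter, Finset.mem_univ, true_and, Equiv.ofBijective_apply]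
    rw [← hσ u, hgst, hgst]
  have hN : ∀ d, d ≠ 0 → N d = N 1 := by
    intro d hd
    obtain ⟨g, g0, g1⟩ := is_two_pretransitive_iff.mp h2
      (e.injective.ne (zero_ne_one (α := ZMod p))) (e.injective.ne (Ne.symm hd))
    rw [← hTN, ← hTN, ← hTinv g (e 0) (e 1), g0, g1]
  -- parity
  have hpar : ∀ d, d ≠ 0 → (N d : ZMod 2) = if -d / 2 ∈ E then 1 else 0 := by
    intro d hd
    have hhalf : -d / 2 + d = -(-d / 2) := by field_simp; ring
    have hz : ∑ i ∈ (E.filter fun i => i + d ∈ E).erase (-d / 2), (1 : ZMod 2) = 0 := by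
      refine Finset.sum_involution (fun i _ => -(i + d)) (fun i _ => CharTwo.add_self_eq_zero 1)
        (fun i hi _ => ?_) (fun i hi => ?_) (fun i _ => by ring)
      · intro h
        exact Finset.ne_of_mem_erase hi (by field_simp; linear_combination -h)
      · simp only [Finset.mem_erase, Finset.mem_filter] at hi ⊢
        refine ⟨fun h => hi.1 ?_, hneg _ hi.2.2, ?_⟩
        · field_simp at h ⊢; linear_combination -h
        · rw [show -(i + d) + d = -i by ring]; exact hneg _ hi.2.1
    rw [Finset.sum_const, nsmul_eq_mul, mul_one] at hz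
    by_cases hm : -d / 2 ∈ E
    · rw [if_pos hm]
      have hm' : -d / 2 ∈ E.filter fun i => i + d ∈ E :=
        Finset.mem_filter.mpr ⟨hm, by rw [hhalf]; exact hneg _ hm⟩
      show ((E.filter fun i => i + d ∈ E).card : ZMod 2) = 1
      rw [← Finset.card_erase_add_one hm', Nat.cast_add, hz, zero_add, Nat.cast_one]
    · rw [if_neg hm]
      rwa [Finset.erase_eq_of_notMem fun h => hm (Finset.mem_filter.mp h).1] at hz
  have hconst : ∀ i, i ≠ 0 → (i ∈ E ↔ -1 / 2 ∈ E) := by
    intro i hi
    have hd : -2 * i ≠ 0 := mul_ne_zero (neg_ne_zero.mpr h2ne) hi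
    have h := hpar _ hd
    rw [hN _ hd, hpar 1 one_ne_zero, show -(-2 * i) / 2 = i by field_simp] at h
    split_ifs at h with h1 h3 h3
    · exact ⟨fun _ => h1, fun _ => h3⟩
    · exact absurd h one_ne_zero
    · exact absurd h zero_ne_one
    · exact ⟨fun h' => absurd h' h3, fun h' => absurd h' h1⟩
  refine ⟨e (-w), eq_stabilizer_of_le G hα H hH _ fun g hg => ?_⟩
  have hDg : ∀ y, g • y ∈ D ↔ y ∈ D := fun y => by
    rw [hDmem, hDmem]
    constructor
    · intro h
      obtain ⟨k, hk⟩ := h
      refine ⟨(⟨g, hg⟩ : H)⁻¹ * k, ?_⟩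
      show ((g⁻¹ * (k : G)) • x₀ : α) = y
      rw [mul_smul, inv_smul_eq_iff]
      exact hk
    · rintro ⟨k, rfl⟩
      exact ⟨⟨g, hg⟩ * k, mul_smul _ k x₀⟩
  have hj : ∀ j, j ≠ -w → (e j ∈ D ↔ -1 / 2 ∈ E) := fun j hj => by
    rw [← hconst (j + w) (fun h => hj (eq_neg_of_add_eq_zero_left h)), hEmem, add_sub_cancel_right]
  obtain ⟨j, hgj⟩ := e.surjective (g • e (-w))
  by_contra hne'
  have hjw : j ≠ -w := fun h => hne' (by rw [← hgj, h])
  have h1 : e j ∈ D ↔ e (-w) ∈ D := by rw [hgj]; exact hDg _
  by_cases hh : -1 / 2 ∈ E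
  · apply hDne
    refine Finset.eq_univ_of_forall fun y => ?_
    obtain ⟨i, rfl⟩ := e.surjective y
    by_cases hi : i = -w
    · rw [hi]; exact h1.mp ((hj j hjw).mpr hh)
    · exact (hj i hi).mpr hh
  · have hx : x₀ ∈ D := (hDmem x₀).mpr (mem_orbit_self x₀)
    obtain ⟨i, rfl⟩ := e.surjective x₀
    by_cases hi : i = -w
    · rw [hi] at hx
      exact hh ((hj j hjw).mp (h1.mpr hx))
    · exact hh ((hj i hi).mp hx)

end CfsgLib.PrimeIndex
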