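import Cfsg.Agent.Lib.PermFpfComplement2
import Mathlib.GroupTheory.SchurZassenhaus
import Mathlib.GroupTheory.SpecificGroups.Cyclic
import Mathlib.GroupTheory.Perm.Sign

/-!
# Normal subgroups of index two in solvable groups with a fixed-point-free representation
-/

set_option autoImplicit false
set_option linter.unusedSectionVars false
set_option linter.style.haveILetI false

namespace CfsgLib.FpfQuat

universe u v w

variable {G : Type u} [Group G] [Finite G]

/-- A normal subgroup of index two. -/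
def HasIndexTwo (G : Type u) [Group G] : Prop := ∃ N : Subgroup G, N.Normal ∧ N.index = 2

theorem hasIndexTwo_of_hom {W : Type w} [Group W] (f : G →* W) (hf : Function.Surjective f)
    (h : HasIndexTwo W) : HasIndexTwo G := by
  obtain ⟨N, hN, hi⟩ := h
  haveI := hN
  exact ⟨N.comap f, inferInstance, by rw [Subgroup.index_comap_of_surjective N hf, hi]⟩

theorem hasIndexTwo_cyclic {W : Type w} [Group W] [Finite W] [IsCyclic W] (h : 2 ∣ Nat.card W) :
    HasIndexTwo W := by
  letI : CommGroup W := IsCyclic.commGroup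
  exact ⟨(powMonoidHom 2 : W →* W).range, inferInstance,
    by rw [IsCyclic.index_powMonoidHom_range, Nat.gcd_eq_right h]⟩

theorem hasIndexTwo_of_cyclic_image {W : Type w} [Group W] [Finite W] [IsCyclic W] (f : G →* W)
    (h : 2 ∣ Nat.card f.range) : HasIndexTwo G :=
  hasIndexTwo_of_hom f.rangeRestrict f.rangeRestrict_surjective (hasIndexTwo_cyclic h)

theorem hasIndexTwo_dihedral : HasIndexTwo (DihedralGroup 2) := by
  let f : DihedralGroup 2 →* Multiplicative (ZMod 2) := MonoidHom.mk'
    (fun | .r i => Multiplicative.ofAdd i | .sr i => Multiplicative.ofAdd i) (by decide)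
  refine ⟨f.ker, inferInstance, ?_⟩
  have hf : Function.Surjective f := fun x => ⟨.r x.toAdd, rfl⟩
  rw [Subgroup.index_ker, MonoidHom.range_eq_top.mpr hf, Subgroup.card_top,
    Nat.card_congr Multiplicative.toAdd, Nat.card_zmod]

theorem hasIndexTwo_perm {X : Type w} [Fintype X] [DecidableEq X] [Nontrivial X] :
    HasIndexTwo (Equiv.Perm X) :=
  ⟨alternatingGroup X, inferInstance, alternatingGroup.index_eq_two⟩

variable {A : Type v} [Ring A] [Algebra ℚ A]

theorem card_pow_two_of_isPGroup {W : Type w} [Group W] [Finite W] (hW : IsPGroup 2 W) {x : W} (hx : x ≠ 1) :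
    2 ∣ Nat.card W := by
  haveI : Fact (Nat.Prime 2) := ⟨Nat.prime_two⟩
  obtain ⟨k, hk⟩ := IsPGroup.iff_card.mp hW
  rcases Nat.eq_zero_or_pos k with e | e
  · subst e
    haveI := (Nat.card_eq_one_iff_unique.mp (hk.trans (pow_zero 2))).1
    exact absurd (Subsingleton.elim x 1) hx
  · exact hk ▸ dvd_pow_self 2 e.ne'

theorem hasIndexTwo_of_zgroup [IsZGroup G] (h2 : 2 ∣ Nat.card G) : HasIndexTwo G := by
  classical
  haveI : Fact (Nat.Prime 2) := ⟨Nat.prime_two⟩
  obtain ⟨M, P, hM, hsup⟩ : ∃ (M : Subgroup G) (P : Sylow 2 G), M.Normal ∧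
      ∃ f : G →* (P : Subgroup G), Function.Surjective f := by
    let P : Sylow 2 G := default
    have hmin : (Nat.card G).minFac = 2 :=
      le_antisymm (Nat.minFac_le_of_dvd le_rfl h2)
        (Nat.minFac_prime (fun e => by rw [e] at h2; omega)).two_le
    have hP := IsCyclic.normalizer_le_centralizer (P := P) hmin (IsZGroup.isZGroup 2 Nat.prime_two P)
    refine ⟨⊥, P, inferInstance, MonoidHom.transferSylow P hP, ?_⟩
    intro y
    obtain ⟨x, hx⟩ := ((P.2.powEquiv' P.not_dvd_index).surjective y)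
    refine ⟨x, ?_⟩
    rw [← hx]
    exact congrFun (MonoidHom.transferSylow_domRestrict_eq_pow P hP) x
  obtain ⟨f, hf⟩ := hsup
  haveI : IsCyclic (P : Subgroup G) := IsZGroup.isZGroup 2 Nat.prime_two P
  exact hasIndexTwo_of_hom f hf (hasIndexTwo_cyclic (P.dvd_card_of_dvd_card h2))

theorem four_elt_commutes {n : ℕ} [NeZero (2 ^ n)] (hn : 1 ≤ n) (z : QuaternionGroup (2 ^ n))
    (hz : ∀ w, w * z = z * w) : z ^ 2 = 1 := by
  rcases z with i | i
  · have h := hz (.xa 0)
    rw [QuaternionGroup.xa_mul_a, QuaternionGroup.a_mul_xa] at h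
    have h' := QuaternionGroup.xa.inj h
    rw [zero_add, zero_sub] at h'
    rw [sq, QuaternionGroup.a_mul_a]
    show QuaternionGroup.a (i + i) = QuaternionGroup.a 0
    rw [show i + i = 0 by linear_combination h']
  · exfalso
    have h := hz (.a 1)
    rw [QuaternionGroup.a_mul_xa, QuaternionGroup.xa_mul_a] at h
    have h' := QuaternionGroup.xa.inj h
    have h2 : (2 : ZMod (2 * 2 ^ n)) = 0 := by linear_combination -h'
    have h3 : ((2 : ℕ) : ZMod (2 * 2 ^ n)) = 0 := by exact_mod_cast h2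
    rw [ZMod.natCast_eq_zero_iff] at h3
    have h4 := Nat.le_of_dvd two_pos h3
    have : 2 ^ 1 ≤ 2 ^ n := Nat.pow_le_pow_right two_pos hn
    omega

/-- A normal Z-subgroup whose 2-part has order four forces index two. -/
theorem hasIndexTwo_of_four [Nontrivial A] (R : FpfRep G A)
    (hP : ∀ P : Sylow 2 G, ¬ IsCyclic (P : Subgroup G))
    {N : Subgroup G} (hN : N.Normal) (hNZ : IsZGroup N) {m : ℕ} (hm : ¬ 2 ∣ m) (hc : Nat.card N = 4 * m) :
    HasIndexTwo G := by
  classical
  haveI : Fact (Nat.Prime 2) := ⟨Nat.prime_two⟩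
  haveI := hN
  haveI := hNZ
  let S : Sylow 2 N := default
  have h2N : 2 ∣ Nat.card N := ⟨2 * m, by rw [hc]; ring⟩
  have hmin : (Nat.card N).minFac = 2 :=
    le_antisymm (Nat.minFac_le_of_dvd le_rfl h2N)
      (Nat.minFac_prime (fun e => by rw [e] at h2N; omega)).two_le
  have hS := IsCyclic.normalizer_le_centralizer (P := S) hmin (IsZGroup.isZGroup 2 Nat.prime_two S)
  set τ := MonoidHom.transferSylow S hS
  set K := τ.ker
  have hKodd : ¬ 2 ∣ Nat.card K := MonoidHom.not_dvd_card_ker_transferSylow S hS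
  have hcS : Nat.card S = 4 := by
    have h1 : Nat.card S = 2 ^ (Nat.card N).factorization 2 := S.card_eq_multiplicity
    rw [hc, Nat.factorization_mul (by norm_num) (fun e => hm (by rw [e]; exact dvd_zero 2)), Finsupp.add_apply,
      Nat.factorization_eq_zero_of_not_dvd hm, show (4 : ℕ) = 2 ^ 2 from rfl,
      Nat.prime_two.factorization_pow, Finsupp.single_eq_same] at h1
    exact h1
  have hKidx : K.index = 4 := by
    exact (MonoidHom.ker_transferSylow_isComplement' S hS).symm.index_eq_card.trans hcS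
  have hinv : ∀ (g : G) (x : N), x ∈ K → MulAut.conjNormal g x ∈ K := by
    intro g x hx
    have h1 : orderOf (MulAut.conjNormal g x : N) = orderOf x := MulEquiv.orderOf_eq (MulAut.conjNormal g : MulAut N) x
    have h2 : ¬ 2 ∣ orderOf x := fun h => hKodd (h.trans (Subgroup.orderOf_dvd_natCard K hx))
    rw [MonoidHom.mem_ker]
    obtain ⟨k, hk⟩ := IsPGroup.iff_orderOf.mp S.2 (τ (MulAut.conjNormal g x))
    rcases Nat.eq_zero_or_pos k with e | e
    · exact orderOf_eq_one_iff.mp (by rw [hk, e, pow_zero])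
    · exfalso
      exact h2 (h1 ▸ (dvd_pow_self 2 e.ne').trans (hk ▸ orderOf_map_dvd τ _))
  have hmap : ∀ g : G, K.map (MulAut.conjNormal g : MulAut N).toMonoidHom = K := fun g => by
    refine le_antisymm ?_ fun x hx => ?_
    · rintro _ ⟨x, hx, rfl⟩
      exact hinv g x hx
    · exact ⟨(MulAut.conjNormal g⁻¹ : MulAut N) x, hinv g⁻¹ x hx, Subtype.ext (by
        show g * (g⁻¹ * (x : G) * g⁻¹⁻¹) * g⁻¹ = x
        group)⟩
  let θ : G →* MulAut (N ⧸ K) :=
    { toFun := fun g => QuotientGroup.congr K K (MulAut.conjNormal g) (hmap g)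
      map_one' := MulEquiv.ext fun q => by
        obtain ⟨x, rfl⟩ := QuotientGroup.mk'_surjective K q
        show QuotientGroup.mk' K (MulAut.conjNormal (1 : G) x) = QuotientGroup.mk' K x
        rw [map_one]
        rfl
      map_mul' := fun a b => MulEquiv.ext fun q => by
        obtain ⟨x, rfl⟩ := QuotientGroup.mk'_surjective K q
        show QuotientGroup.mk' K (MulAut.conjNormal (a * b) x) =
          QuotientGroup.mk' K (MulAut.conjNormal a (MulAut.conjNormal b x))
        rw [map_mul]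
        rfl }
  haveI : IsCyclic (N ⧸ K) := by
    haveI : IsCyclic (S : Subgroup N) := IsZGroup.isZGroup 2 Nat.prime_two S
    exact isCyclic_of_surjective (QuotientGroup.quotientKerEquivRange τ).symm.toMonoidHom
      (QuotientGroup.quotientKerEquivRange τ).symm.surjective
  have hA2 : Nat.card (MulAut (N ⧸ K)) = 2 := by
    rw [IsCyclic.card_mulAut, ← Subgroup.index_eq_card, hKidx]
    decide
  haveI : IsCyclic (MulAut (N ⧸ K)) := isCyclic_of_prime_card hA2
  by_cases hne : ∃ g, θ g ≠ 1
  · obtain ⟨g, hg⟩ := hne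
    refine hasIndexTwo_of_cyclic_image θ (card_pow_two_of_isPGroup ?_ (x := ⟨θ g, g, rfl⟩)
      (fun e => hg (congrArg Subtype.val e)))
    exact (IsPGroup.of_card (n := 1) (hA2.trans (pow_one 2).symm)).to_subgroup θ.range
  exfalso
  push Not at hne
  -- an element of order four in the centre of a Sylow subgroup
  haveI : IsCyclic (S : Subgroup N) := IsZGroup.isZGroup 2 Nat.prime_two S
  obtain ⟨t, ht⟩ := IsCyclic.exists_ofOrder_eq_natCard (α := (S : Subgroup N))
  have ht4 : orderOf ((t : N) : G) = 4 := by rw [Subgroup.orderOf_coe, Subgroup.orderOf_coe, ht]; exact hcS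
  obtain ⟨P, hPt⟩ := (IsPGroup.of_card (G := Subgroup.zpowers ((t : N) : G)) (p := 2) (n := 2)
    (by rw [Nat.card_zpowers, ht4]; rfl)).exists_le_sylow
  obtain ⟨-, n, ⟨eP⟩⟩ := (R.cyclic_or_quaternion P.2).resolve_left (hP P)
  haveI : NeZero (2 ^ n) := ⟨pow_ne_zero _ two_ne_zero⟩
  have hn1 : 1 ≤ n := by
    by_contra hn
    obtain rfl : n = 0 := by omega
    haveI : IsCyclic (QuaternionGroup (2 ^ 0)) := isCyclic_of_orderOf_eq_card (QuaternionGroup.xa 0)
      (by rw [QuaternionGroup.orderOf_xa, Nat.card_eq_fintype_card, QuaternionGroup.card]; rfl)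
    exact hP P (isCyclic_of_injective eP.toMonoidHom eP.injective)
  have htP : ((t : N) : G) ∈ (P : Subgroup G) := hPt (Subgroup.mem_zpowers _)
  have hcomm : ∀ w : (P : Subgroup G), (w : G) * (t : N) = ((t : N) : G) * w := by
    intro w
    have h1 : QuotientGroup.mk' K (MulAut.conjNormal (w : G) (t : N)) = QuotientGroup.mk' K (t : N) :=
      DFunLike.congr_fun (hne (w : G)) (QuotientGroup.mk' K (t : N))
    set c : N := (t : N)⁻¹ * MulAut.conjNormal (w : G) (t : N) with hc'
    have hcK : c ∈ K := by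
      rw [hc', ← QuotientGroup.eq]
      exact h1.symm
    have hcP : (c : G) ∈ (P : Subgroup G) := by
      show ((t : N) : G)⁻¹ * ((w : G) * (t : N) * (w : G)⁻¹) ∈ _
      exact Subgroup.mul_mem _ (Subgroup.inv_mem _ htP) (Subgroup.mul_mem _ (Subgroup.mul_mem _ w.2 htP) (Subgroup.inv_mem _ w.2))
    obtain ⟨k, hk⟩ := IsPGroup.iff_orderOf.mp P.2 ⟨(c : G), hcP⟩
    rw [← Subgroup.orderOf_coe] at hk
    change orderOf (c : G) = 2 ^ k at hk
    have hc1 : (c : G) = 1 := by
      rcases Nat.eq_zero_or_pos k with e | e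
      · exact orderOf_eq_one_iff.mp (by rw [hk, e, pow_zero])
      · exfalso
        refine hKodd ((dvd_pow_self 2 e.ne').trans ?_)
        rw [← hk, Subgroup.orderOf_coe]
        exact Subgroup.orderOf_dvd_natCard K hcK
    have h3 : ((t : N) : G)⁻¹ * ((w : G) * (t : N) * (w : G)⁻¹) = 1 := hc1
    rw [inv_mul_eq_one] at h3
    exact (mul_inv_eq_iff_eq_mul.mp h3.symm)
  have hsq := four_elt_commutes hn1 (eP ⟨_, htP⟩) fun w => by
    apply eP.symm.injective
    rw [map_mul, map_mul, MulEquiv.symm_apply_apply]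
    exact Subtype.ext (hcomm (eP.symm w))
  rw [← map_pow] at hsq
  have h4 : ((t : N) : G) ^ 2 = 1 := congrArg Subtype.val (eP.injective (hsq.trans (map_one eP).symm))
  have := Nat.le_of_dvd two_pos (orderOf_dvd_of_pow_eq_one h4)
  omega

set_option synthInstance.maxSize 2048 in
set_option maxRecDepth 8000 in
theorem sl23_cycle : ∀ u v : QuaternionGroup 2,
    (∀ x y, CfsgLib.ZStar.qMap u v (x * y) = CfsgLib.ZStar.qMap u v x * CfsgLib.ZStar.qMap u v y) →
    (∀ x, CfsgLib.ZStar.qMap u v (CfsgLib.ZStar.qMap u v (CfsgLib.ZStar.qMap u v x)) = x) →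
    (u = .a 1 ∧ v = .xa 0) ∨
    ∃ i : QuaternionGroup 2, i * i ≠ 1 ∧
      CfsgLib.ZStar.qMap u v i * CfsgLib.ZStar.qMap u v i ≠ 1 ∧ CfsgLib.ZStar.qMap u v i ≠ i ∧
      CfsgLib.ZStar.qMap u v i ≠ i⁻¹ ∧
      (CfsgLib.ZStar.qMap u v (CfsgLib.ZStar.qMap u v i) = i * CfsgLib.ZStar.qMap u v i ∨
        i * CfsgLib.ZStar.qMap u v (CfsgLib.ZStar.qMap u v i) = CfsgLib.ZStar.qMap u v i) := by
  decide +kernel

/-- A group of order 24 without a subgroup of index two. -/
theorem sl23_of_no_index_two (hc : Nat.card G = 24)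
    (hP : ∀ P : Sylow 2 G, Nonempty ((P : Subgroup G) ≃* QuaternionGroup 2)) (hno : ¬ HasIndexTwo G) :
    Nonempty (G ≃* Matrix.SpecialLinearGroup (Fin 2) (ZMod 3)) := by
  classical
  haveI : Fact (Nat.Prime 2) := ⟨Nat.prime_two⟩
  haveI : Fact (Nat.Prime 3) := ⟨Nat.prime_three⟩
  let P : Sylow 2 G := default
  obtain ⟨eP⟩ := hP P
  have hPc : Nat.card P = 8 := by
    rw [Nat.card_congr eP.toEquiv, Nat.card_eq_fintype_card, QuaternionGroup.card]
  have hPidx : (P : Subgroup G).index = 3 := by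
    have h := Subgroup.card_mul_index (P : Subgroup G)
    rw [hPc, hc] at h
    omega
  have hPn : (P : Subgroup G).Normal := by
    have h1 := P.card_dvd_index
    rw [hPidx] at h1
    rcases (Nat.dvd_prime Nat.prime_three).mp h1 with h | h
    · rw [Sylow.card_eq_index_normalizer P, Subgroup.index_eq_one] at h
      exact Subgroup.normalizer_eq_top_iff.mp h
    · exfalso
      haveI := Fintype.ofFinite (Sylow 2 G)
      let f : G →* Equiv.Perm (Sylow 2 G) := MulAction.toPermHom G (Sylow 2 G)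
      have hX : Nat.card (Equiv.Perm (Sylow 2 G)) = 6 := by
        rw [Nat.card_eq_fintype_card, Fintype.card_perm, ← Nat.card_eq_fintype_card, h]; rfl
      haveI : Nontrivial (Sylow 2 G) := Finite.one_lt_card_iff_nontrivial.mp (by omega)
      have hfix : ∀ g : G, f g = 1 → g ∈ Subgroup.normalizer ((P : Subgroup G) : Set G) := fun g hg =>
        Sylow.smul_eq_iff_mem_normalizer.mp (Equiv.Perm.ext_iff.mp hg P)
      have hmi := Subgroup.card_mul_index f.ker
      rw [hc, Subgroup.index_ker] at hmi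
      have hd : Nat.card f.range ∣ 6 := hX ▸ Subgroup.card_subgroup_dvd_card _
      have hle : f.ker ≤ Subgroup.normalizer ((P : Subgroup G) : Set G) := fun g hg => hfix g hg
      have hN : (Subgroup.normalizer ((P : Subgroup G) : Set G)).index = 3 := (Sylow.card_eq_index_normalizer P).symm.trans h
      have hd2 : 3 ∣ f.ker.index := hN ▸ Subgroup.index_dvd_of_le hle
      rw [Subgroup.index_ker] at hd2
      have hpos : Nat.card f.range ≤ 6 := Nat.le_of_dvd (by norm_num) hd
      have hpos' : 0 < Nat.card f.range := Nat.card_pos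
      rcases (by omega : Nat.card f.range = 3 ∨ Nat.card f.range = 6) with e | e
      · -- the kernel would be a normal Sylow subgroup
        rw [e] at hmi
        have hk : Nat.card f.ker = 8 := by omega
        obtain ⟨Q, hQ⟩ := (IsPGroup.of_card (p := 2) (n := 3) hk).exists_le_sylow
        have hQe : f.ker = (Q : Subgroup G) := Subgroup.eq_of_le_of_card_ge hQ (by
          rw [hk, Nat.card_congr (Q.equiv P).toEquiv, hPc])
        haveI : (Q : Subgroup G).Normal := hQe ▸ (inferInstance : f.ker.Normal)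
        have h' : (Subgroup.normalizer ((Q : Subgroup G) : Set G)).index = 3 := (Sylow.card_eq_index_normalizer Q).symm.trans h
        rw [Subgroup.normalizer_eq_top_iff.mpr ‹(Q : Subgroup G).Normal›, Subgroup.index_top] at h'
        exact absurd h' (by norm_num)
      · exact hno (hasIndexTwo_of_hom f (MonoidHom.range_eq_top.mp
          (Subgroup.eq_top_of_card_eq _ (e.trans hX.symm))) hasIndexTwo_perm)
  haveI := hPn
  obtain ⟨y, hy⟩ := exists_prime_orderOf_dvd_card' (G := G) 3 (by rw [hc]; norm_num)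
  let σ : MulAut (QuaternionGroup 2) := (MulAut.congr eP) (MulAut.conjNormal y)
  have hσ : ∀ q : QuaternionGroup 2, ((eP.symm (σ q) : (P : Subgroup G)) : G) = y * (eP.symm q : G) * y⁻¹ := fun q => by
    show ((eP.symm (eP (MulAut.conjNormal y (eP.symm q))) : (P : Subgroup G)) : G) = _
    rw [MulEquiv.symm_apply_apply, MulAut.conjNormal_apply]
  have hσ3 : σ ^ 3 = 1 := by
    rw [← map_pow, ← map_pow, ← hy, pow_orderOf_eq_one, map_one, map_one]
  have hσq : ⇑σ = CfsgLib.ZStar.qMap (σ (.a 1)) (σ (.xa 0)) := by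
    funext q
    rcases q with i | i
    · show σ (.a i) = σ (.a 1) ^ i.val
      rw [← map_pow, QuaternionGroup.a_one_pow, ZMod.natCast_zmod_val]
    · show σ (.xa i) = σ (.xa 0) * σ (.a 1) ^ i.val
      rw [← map_pow, QuaternionGroup.a_one_pow, ZMod.natCast_zmod_val, ← map_mul, QuaternionGroup.xa_mul_a, zero_add]
  have hcube : ∀ x, σ (σ (σ x)) = x := fun x => DFunLike.congr_fun hσ3 x
  have hcases := sl23_cycle (σ (.a 1)) (σ (.xa 0))
    (fun x z => by rw [← congrFun hσq, ← congrFun hσq, ← congrFun hσq]; exact map_mul σ x z)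
    (fun x => by rw [← congrFun hσq, ← congrFun hσq, ← congrFun hσq]; exact hcube x)
  rw [← hσq] at hcases
  rcases hcases with ⟨ha, hb⟩ | ⟨i, hi, hj, hji, hji', hk⟩
  · -- a direct factor of order three
    exfalso
    have hid : ∀ q, σ q = q := fun q => DFunLike.congr_fun
      (CfsgLib.TwoFusion.quat_generated σ.toMonoidHom (MonoidHom.id _) ha hb) q
    have hcomm : ∀ p : (P : Subgroup G), y * (p : G) = p * y := by
      intro p
      have h := hσ (eP p)
      rw [hid, MulEquiv.symm_apply_apply] at h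
      calc y * (p : G) = y * p * y⁻¹ * y := by group
        _ = p * y := by rw [← h]
    let f : ↥(P : Subgroup G) × ↥(Subgroup.zpowers y) →* G :=
      MonoidHom.noncommCoprod (P : Subgroup G).subtype (Subgroup.zpowers y).subtype fun p z => by
        obtain ⟨z, hz⟩ := z
        obtain ⟨n, rfl⟩ := Subgroup.mem_zpowers_iff.mp hz
        exact (Commute.zpow_left (show Commute y (p : G) from hcomm p) n).symm
    have hfb : Function.Bijective f := by
      refine (Nat.bijective_iff_injective_and_card f).mpr ⟨?_, ?_⟩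
      · rw [injective_iff_map_eq_one]
        rintro ⟨p, z⟩ h
        have h1 : (p : G) * z = 1 := h
        have hz : (z : G) ∈ (P : Subgroup G) := by
          rw [eq_inv_of_mul_eq_one_right h1]; exact Subgroup.inv_mem _ p.2
        have hd1 : orderOf (z : G) ∣ 8 := hPc ▸ Subgroup.orderOf_dvd_natCard _ hz
        have hd2 : orderOf (z : G) ∣ 3 := by
          have := Subgroup.orderOf_dvd_natCard (Subgroup.zpowers y) z.2
          rwa [Nat.card_zpowers, hy] at this
        have hz1 : (z : G) = 1 := orderOf_eq_one_iff.mp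
          (Nat.dvd_one.mp (by simpa using Nat.dvd_gcd hd1 hd2))
        rw [hz1, mul_one] at h1
        exact Prod.ext (Subtype.ext h1) (Subtype.ext hz1)
      · rw [Nat.card_prod, hPc, Nat.card_zpowers, hy, hc]
    let e := (MulEquiv.ofBijective f hfb).symm
    let π := (MonoidHom.fst ↥(P : Subgroup G) ↥(Subgroup.zpowers y)).comp e.toMonoidHom
    have hπ : Function.Surjective π := fun x => ⟨f (x, 1), congrArg Prod.fst ((MulEquiv.ofBijective f hfb).symm_apply_apply (x, 1))⟩
    refine hno (hasIndexTwo_of_hom (eP.toMonoidHom.comp π) (eP.surjective.comp hπ)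
      (hasIndexTwo_of_hom (quatDihedral 2 dvd_rfl) (quatDihedral_surjective 2 dvd_rfl) hasIndexTwo_dihedral))
  -- choose the order-three element
  obtain ⟨z, w, hz3, hzP, hw1, hw2, hw3, hzi, hzw⟩ :
      ∃ (z : G) (w : QuaternionGroup 2), z ^ 3 = 1 ∧ z ∉ (P : Subgroup G) ∧ w * w ≠ 1 ∧ w ≠ i ∧ w ≠ i⁻¹ ∧
        z * (eP.symm i : G) * z⁻¹ = (eP.symm w : G) ∧ z * (eP.symm w : G) * z⁻¹ = (eP.symm (i * w) : G) := by
    have hy3 : y ^ 3 = 1 := hy ▸ pow_orderOf_eq_one y
    have hyP : y ∉ (P : Subgroup G) := fun h => by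
      have := hPc ▸ Subgroup.orderOf_dvd_natCard _ h
      rw [hy] at this
      norm_num at this
    rcases hk with hk | hk
    · exact ⟨y, σ i, hy3, hyP, hj, hji, hji', (hσ i).symm, by rw [← hk]; exact (hσ (σ i)).symm⟩
    · have hy2 : y⁻¹ = y ^ 2 := inv_eq_of_mul_eq_one_right (by rw [← pow_succ', hy3])
      have hinv : ∀ q, (eP.symm (σ (σ q)) : G) = y⁻¹ * (eP.symm q : G) * y⁻¹⁻¹ := fun q => by
        rw [hσ, hσ]
        calc y * (y * (eP.symm q : G) * y⁻¹) * y⁻¹ = y ^ 2 * (eP.symm q : G) * (y ^ 2)⁻¹ := by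
              rw [pow_two, mul_inv_rev]; simp only [mul_assoc]
          _ = _ := by rw [← hy2]
      refine ⟨y⁻¹, σ (σ i), by rw [inv_pow, hy3, inv_one], fun h => hyP (by simpa using Subgroup.inv_mem _ h),
        ?_, ?_, ?_, (hinv i).symm, ?_⟩
      · rw [← map_mul, ← map_mul, ne_eq, map_eq_one_iff _ σ.injective, map_eq_one_iff _ σ.injective]; exact hi
      · intro e
        have := congrArg σ e
        rw [hcube] at this
        exact hji this.symm
      · intro e
        have := congrArg σ e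
        rw [hcube, map_inv] at this
        exact hji' (inv_eq_iff_eq_inv.mp this.symm)
      · rw [hk, ← hinv, hcube]
  let q0 : QuaternionGroup 2 →* QuaternionGroup 2 :=
    MonoidHom.mk' _ (CfsgLib.QuatSection.q8_pair_hom i w hi hw1 hw2 hw3)
  let ψ : QuaternionGroup 2 →* G := ((P : Subgroup G).subtype.comp eP.symm.toMonoidHom).comp q0
  have hψi : Function.Injective ψ := ((Subgroup.subtype_injective _).comp eP.symm.injective).comp
    (fun a b h => CfsgLib.QuatSection.q8_pair_inj i w hi hw1 hw2 hw3 a b h)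
  have e1 : q0 (.a 1) = i := by
    show i ^ (1 : ZMod (2 * 2)).val = i
    exact pow_one i
  have e2 : q0 (.xa 0) = w := by
    show w * i ^ (0 : ZMod (2 * 2)).val = w
    rw [ZMod.val_zero, pow_zero, mul_one]
  obtain ⟨F, hF, -, -⟩ := CfsgLib.QuatSection.exists_lift ψ hψi z hz3
    (fun ⟨q, hq⟩ => hzP (hq ▸ (eP.symm (q0 q)).2))
    (by
      show z * (eP.symm (q0 (.a 1)) : G) * z⁻¹ = (eP.symm (q0 (.xa 0)) : G)
      rw [e1, e2, hzi])
    (by
      show z * (eP.symm (q0 (.xa 0)) : G) * z⁻¹ = (eP.symm (q0 (.a 1 * .xa 0)) : G)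
      rw [map_mul, e1, e2, hzw])
  obtain ⟨eS⟩ := CfsgLib.QuatSection.nonempty_sl
  refine ⟨(MulEquiv.ofBijective F ((Nat.bijective_iff_injective_and_card F).mpr ⟨hF, ?_⟩)).symm.trans eS⟩
  rw [hc, SemidirectProduct.card, Nat.card_eq_fintype_card, QuaternionGroup.card,
    Nat.card_eq_fintype_card (α := Multiplicative (ZMod 3))]
  rfl

theorem solvable_shape [Nontrivial A] (R : FpfRep G A) [Group.IsSolvable G] (h2 : 2 ∣ Nat.card G)
    (hno : ¬ HasIndexTwo G) :
    (∀ P : Sylow 2 G, ¬ IsCyclic (P : Subgroup G)) ∧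
      ∃ (N : Subgroup G) (f : G →* alternatingGroup (Fin 4)), N.Normal ∧ IsZGroup N ∧
        Function.Surjective f ∧ f.ker = N ∧ Nat.card G = 12 * Nat.card N := by
  classical
  haveI : Fact (Nat.Prime 2) := ⟨Nat.prime_two⟩
  refine ⟨fun P hP => ?_, ?_⟩
  · haveI := R.isZGroup_of_two fun Q => isCyclic_of_surjective (P.equiv Q) (P.equiv Q).surjective
    exact hno (hasIndexTwo_of_zgroup h2)
  obtain ⟨N, hN, hNZ, hNg⟩ := exists_good R
  rcases hNg with h | ⟨f, hf, h⟩ | ⟨f, hf, h⟩ | ⟨f, hf, h⟩ | ⟨f, hf, h⟩ | ⟨f, hf, h⟩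
  · subst h
    haveI := hNZ
    haveI : IsZGroup G := IsZGroup.of_injective (f := (Subgroup.topEquiv (G := G)).symm.toMonoidHom)
      (Subgroup.topEquiv (G := G)).symm.injective
    exact absurd (hasIndexTwo_of_zgroup h2) hno
  · exact absurd (hasIndexTwo_of_hom f hf hasIndexTwo_dihedral) hno
  · refine ⟨N, f, hN, hNZ, hf, h, ?_⟩
    have h1 := Subgroup.card_mul_index f.ker
    rw [Subgroup.index_ker, MonoidHom.range_eq_top.mpr hf, Subgroup.card_top,
      show Nat.card (alternatingGroup (Fin 4)) = 12 by rw [Nat.card_eq_fintype_card]; decide +kernel, h] at h1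
    omega
  · exact absurd (hasIndexTwo_of_hom f hf hasIndexTwo_perm) hno
  · haveI : Group.IsSolvable (alternatingGroup (Fin 5)) := solvable_of_surjective (f := f) hf
    have hcomm := IsSimpleGroup.comm_iff_isSolvable.mpr ‹Group.IsSolvable (alternatingGroup (Fin 5))›
    exact absurd (hcomm ⟨Equiv.swap 0 1 * Equiv.swap 2 3, Equiv.Perm.mem_alternatingGroup.mpr (by decide +kernel)⟩
        ⟨Equiv.swap 0 1 * Equiv.swap 1 2, Equiv.Perm.mem_alternatingGroup.mpr (by decide +kernel)⟩)
      (by decide +kernel)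
  · exact absurd (hasIndexTwo_of_hom f hf hasIndexTwo_perm) hno

/-- The exceptional orders. -/
theorem exceptional_orders [Nontrivial A] (R : FpfRep G A) [Group.IsSolvable G]
    (hc : Nat.card G = 24 ∨ Nat.card G = 48 ∨ Nat.card G = 120 ∨ Nat.card G = 528) :
    HasIndexTwo G ∨ (Nat.card G = 24 ∧ Nonempty (G ≃* Matrix.SpecialLinearGroup (Fin 2) (ZMod 3))) ∨
      (Nat.card G = 120 ∧
        Nonempty (G ≃* Matrix.SpecialLinearGroup (Fin 2) (ZMod 3) × Multiplicative (ZMod 5))) := by
  classical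
  haveI : Fact (Nat.Prime 2) := ⟨Nat.prime_two⟩
  refine or_iff_not_imp_left.mpr fun hno => ?_
  obtain ⟨hP, N, f, hN, hNZ, hf, hfN, hcN⟩ := solvable_shape R (by rcases hc with h | h | h | h <;> rw [h] <;> norm_num) hno
  have hfour : ∀ m, ¬ 2 ∣ m → Nat.card N ≠ 4 * m := fun m hm h => hno (hasIndexTwo_of_four R hP hN hNZ hm h)
  -- the Sylow subgroups
  have hsyl : ∀ {K : Type u} [Group K] [Finite K], Nat.card K = 24 → (∀ P : Sylow 2 K, ¬ IsCyclic (P : Subgroup K)) →
      FpfRep K A → ∀ P : Sylow 2 K, Nonempty ((P : Subgroup K) ≃* QuaternionGroup 2) := by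
    intro K _ _ hK hKP RK P
    obtain ⟨-, n, ⟨eP⟩⟩ := (RK.cyclic_or_quaternion P.2).resolve_left (hKP P)
    have h1 : Nat.card P = 2 ^ (Nat.card K).factorization 2 := P.card_eq_multiplicity
    rw [hK, show (24 : ℕ) = 2 ^ 3 * 3 from rfl, Nat.factorization_mul (by norm_num) (by norm_num),
      Finsupp.add_apply, Nat.prime_two.factorization_pow, Finsupp.single_eq_same,
      Nat.factorization_eq_zero_of_not_dvd (by norm_num), Nat.card_congr eP.toEquiv,
      Nat.card_eq_fintype_card, QuaternionGroup.card] at h1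
    have hn : n = 1 := by
      refine Nat.pow_right_injective le_rfl (show 2 ^ n = 2 ^ 1 by omega)
    subst hn
    exact ⟨eP⟩
  rcases hc with h | h | h | h
  · exact Or.inl ⟨h, sl23_of_no_index_two h (hsyl h hP R) hno⟩
  · exact absurd (show Nat.card N = 4 * 1 by omega) (hfour 1 (by norm_num))
  swap
  · exact absurd (show Nat.card N = 4 * 11 by omega) (hfour 11 (by norm_num))
  refine Or.inr ⟨h, ?_⟩
  haveI : Fact (Nat.Prime 5) := ⟨by norm_num⟩
  haveI := hN
  have hN10 : Nat.card N = 10 := by omega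
  let F : Sylow 5 N := default
  have hF5 : Nat.card F = 5 := by
    have h1 : Nat.card F = 5 ^ (Nat.card N).factorization 5 := F.card_eq_multiplicity
    rw [hN10, show (10 : ℕ) = 5 ^ 1 * 2 from rfl, Nat.factorization_mul (by norm_num) (by norm_num),
      Finsupp.add_apply, (by norm_num : Nat.Prime 5).factorization_pow, Finsupp.single_eq_same,
      Nat.factorization_eq_zero_of_not_dvd (by norm_num)] at h1
    exact h1
  have hFn : (F : Subgroup N).Normal := by
    refine Subgroup.normal_of_index_eq_two ?_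
    have h1 := Subgroup.card_mul_index (F : Subgroup N)
    rw [hF5, hN10] at h1
    omega
  haveI := hFn
  haveI := Sylow.characteristic_of_normal F hFn
  set M := (F : Subgroup N).map N.subtype with hM
  haveI : M.Normal := ConjAct.normal_of_characteristic_of_normal
  have hMc : Nat.card M = 5 := by rw [hM, Subgroup.card_map_of_injective N.subtype_injective]; exact hF5
  haveI : IsCyclic M := isCyclic_of_prime_card hMc
  -- it is central
  have hcen : ∀ (g : G) (x : M), g * (x : G) * g⁻¹ = x := by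
    intro g x
    by_contra hne
    let θ : G →* MulAut M := MulAut.conjNormal
    have hA4 : Nat.card (MulAut M) = 4 := by rw [IsCyclic.card_mulAut, hMc]; decide
    haveI : IsCyclic (ZMod (Nat.card M))ˣ := by
      rw [hMc]; infer_instance
    haveI : IsCyclic (MulAut M) :=
      isCyclic_of_surjective (IsCyclic.mulAutMulEquiv M).symm.toMonoidHom (IsCyclic.mulAutMulEquiv M).symm.surjective
    refine hno (hasIndexTwo_of_cyclic_image θ (card_pow_two_of_isPGroup ?_ (x := ⟨θ g, g, rfl⟩) ?_))
    · exact (IsPGroup.of_card (p := 2) (n := 2) hA4).to_subgroup θ.range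
    · intro e
      exact hne (congrArg Subtype.val (DFunLike.congr_fun (congrArg Subtype.val e : θ g = 1) x))
  have hMi : M.index = 24 := by
    have h1 := Subgroup.card_mul_index M
    rw [hMc, h] at h1
    omega
  obtain ⟨K, hK⟩ := Subgroup.exists_right_complement'_of_coprime (N := M) (by rw [hMc, hMi]; decide)
  have hKc : Nat.card K = 24 := hMi ▸ hK.symm.index_eq_card.symm
  let φ : K × M →* G := MonoidHom.noncommCoprod K.subtype M.subtype fun k x => by
    have := hcen (k : G) x
    exact mul_inv_eq_iff_eq_mul.mp this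
  have hφ : Function.Bijective φ := by
    refine (Nat.bijective_iff_injective_and_card φ).mpr ⟨?_, by rw [Nat.card_prod, hKc, hMc, h]⟩
    rw [injective_iff_map_eq_one]
    rintro ⟨k, x⟩ he
    have he' : (k : G) * x = 1 := he
    have h1 : (k : G) ∈ M ⊓ K := ⟨by rw [eq_inv_of_mul_eq_one_left he']; exact M.inv_mem x.2, k.2⟩
    rw [hK.disjoint.eq_bot, Subgroup.mem_bot] at h1
    rw [h1, one_mul] at he'
    exact Prod.ext (Subtype.ext h1) (Subtype.ext he')
  let eG := MulEquiv.ofBijective φ hφ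
  have hKno : ¬ HasIndexTwo K := fun hh => hno (hasIndexTwo_of_hom
    ((MonoidHom.fst K M).comp eG.symm.toMonoidHom)
    (fun k => ⟨eG (k, 1), by simp⟩) hh)
  have hKP : ∀ P : Sylow 2 K, ¬ IsCyclic (P : Subgroup K) := by
    intro P hPc
    haveI := (R.restrict K).isZGroup_of_two fun Q => isCyclic_of_surjective (P.equiv Q) (P.equiv Q).surjective
    exact hKno (hasIndexTwo_of_zgroup (by rw [hKc]; norm_num))
  obtain ⟨eK⟩ := sl23_of_no_index_two hKc (hsyl hKc hKP (R.restrict K)) hKno
  exact ⟨eG.symm.trans (MulEquiv.prodCongr eK (mulEquivOfCyclicCardEq (by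
    rw [hMc, Nat.card_congr Multiplicative.toAdd, Nat.card_zmod])))⟩

end CfsgLib.FpfQuat
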