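import Cfsg.Agent.Lib.PermFieldModel
import Cfsg.Agent.Lib.PermRegularIndexTwo
import Mathlib.NumberTheory.LegendreSymbol.QuadraticChar.Basic

/-!
# Linear groups normalising an irreducible commutative subgroup are semilinear
-/

set_option autoImplicit false
set_option linter.unusedSectionVars false
set_option linter.style.haveILetI false

namespace CfsgLib.FieldModel

universe u v

/-- The subgroup lands in a field and the group in its semilinear group. -/
theorem exists_semilinear {q : ℕ} [Fact q.Prime] {V : Type u} [AddCommGroup V] [Module (ZMod q) V]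
    [Finite V] [Nontrivial V] {G : Type v} [Group G] (ρ : G →* (V ≃ₗ[ZMod q] V)) (A : Subgroup G)
    [hA : A.Normal] (hcomm : ∀ a ∈ A, ∀ b ∈ A, a * b = b * a)
    (hirr : ∀ W : Submodule (ZMod q) V, (∀ a ∈ A, ∀ v ∈ W, ρ a v ∈ W) → W = ⊥ ∨ W = ⊤) :
    ∃ (F : Type) (_ : Field F) (_ : Fintype F) (e : V ≃+ F), ringChar F = q ∧
      ∀ g : G, ∃ (a : F) (σ : F ≃+* F), ∀ v : V, e (ρ g v) = a * σ (e v) := by
  classical
  set n := Module.finrank (ZMod q) V
  have hn : n ≠ 0 := Module.finrank_pos.ne'
  have hV : Nat.card V = q ^ n := by rw [Module.natCard_eq_pow_finrank (K := ZMod q), Nat.card_zmod]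
  let ρA : A →* Module.End (ZMod q) V :=
    { toFun := fun a => (ρ a).toLinearMap
      map_one' := by rw [OneMemClass.coe_one, map_one]; rfl
      map_mul' := fun a b => by rw [Subgroup.coe_mul, map_mul]; rfl }
  obtain ⟨φ, χ, hχ⟩ := exists_field_model hn hV ρA (fun a b => by
      rw [← map_mul, ← map_mul]; exact congrArg ρA (Subtype.ext (hcomm a a.2 b b.2))) fun W hW =>
    hirr W fun a ha v hv => hW ⟨a, ha⟩ v hv
  haveI := Fintype.ofFinite (GaloisField q n)
  refine ⟨GaloisField q n, inferInstance, inferInstance, φ, ringChar.eq _ q, fun g => ?_⟩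
  let T : GaloisField q n →+ GaloisField q n :=
    (φ.toAddMonoidHom.comp (ρ g).toAddEquiv.toAddMonoidHom).comp φ.symm.toAddMonoidHom
  have hT : ∀ v, φ (ρ g v) = T (φ v) := fun v => by
    show _ = φ (ρ g (φ.symm (φ v)))
    rw [AddEquiv.symm_apply_apply]
  have hTinj : Function.Injective T := φ.injective.comp ((ρ g).injective.comp φ.symm.injective)
  have hT1 : T 1 ≠ 0 := fun e => one_ne_zero (hTinj (e.trans (map_zero T).symm))
  let S : AddSubgroup (GaloisField q n) :=
    { carrier := {l | ∀ x, T (l * x) * T 1 = T l * T x}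
      add_mem' := fun {a b} ha hb x => by rw [add_mul, map_add, map_add, add_mul, add_mul, ha x, hb x]
      zero_mem' := fun x => by rw [zero_mul, map_zero, zero_mul, zero_mul]
      neg_mem' := fun {a} ha x => by rw [neg_mul, map_neg, map_neg, neg_mul, neg_mul, ha x] }
  have hχS : ∀ a : A, χ a ∈ S := by
    intro a x
    let b : A := ⟨g * a * g⁻¹, hA.conj_mem a a.2 g⟩
    have hb : ∀ y, T (χ a * y) = χ b * T y := by
      intro y
      obtain ⟨v, rfl⟩ := φ.surjective y
      rw [← hχ, ← hT, ← hT]
      show φ (ρ g (ρ (a : G) v)) = χ b * φ (ρ g v)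
      rw [← hχ]
      show φ (ρ g (ρ (a : G) v)) = φ (ρ (b : G) (ρ g v))
      rw [show ρ g (ρ (a : G) v) = (ρ g * ρ (a : G)) v from rfl, ← map_mul,
        show ρ (b : G) (ρ g v) = (ρ (b : G) * ρ g) v from rfl, ← map_mul,
        show (b : G) * g = g * a by show g * a * g⁻¹ * g = g * a; group]
    have h1 := hb 1
    rw [mul_one] at h1
    rw [hb x, h1]
    ring
  set K := AddSubgroup.closure (Set.range χ)
  have hKS : K ≤ S := (AddSubgroup.closure_le S).mpr (by rintro _ ⟨a, rfl⟩; exact hχS a)
  have hKmul : ∀ (a : A), ∀ k ∈ K, χ a * k ∈ K := by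
    intro a k hk
    induction hk using AddSubgroup.closure_induction with
    | mem k hk =>
      obtain ⟨b, rfl⟩ := hk
      exact AddSubgroup.subset_closure ⟨a * b, map_mul χ a b⟩
    | zero => rw [mul_zero]; exact K.zero_mem
    | add k l _ _ hk hl => rw [mul_add]; exact K.add_mem hk hl
    | neg k _ hk => rw [mul_neg]; exact K.neg_mem hk
  let W : Submodule (ZMod q) V := AddSubgroup.toZModSubmodule q (K.comap φ.toAddMonoidHom)
  have hmemW : ∀ v, v ∈ W ↔ φ v ∈ K := fun v => Iff.rfl
  have hWtop : W = ⊤ := (hirr W fun a ha v hv => by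
    rw [hmemW] at hv ⊢
    have h := hχ ⟨a, ha⟩ v
    change φ (ρ a v) = _ at h
    rw [h]
    exact hKmul _ _ hv).resolve_left fun h => by
      have h1 : φ.symm 1 ∈ W := by
        rw [hmemW, AddEquiv.apply_symm_apply]
        exact AddSubgroup.subset_closure ⟨1, map_one χ⟩
      rw [h, Submodule.mem_bot] at h1
      exact one_ne_zero (φ.symm.injective (h1.trans (map_zero φ.symm).symm))
  have hall : ∀ l, l ∈ S := fun l => hKS (by
    have h := (hmemW (φ.symm l)).mp (hWtop ▸ Submodule.mem_top)
    rwa [AddEquiv.apply_symm_apply] at h)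
  let s : GaloisField q n →+* GaloisField q n :=
    { toFun := fun x => T x * (T 1)⁻¹
      map_one' := mul_inv_cancel₀ hT1
      map_zero' := by rw [map_zero, zero_mul]
      map_add' := fun x y => by rw [map_add, add_mul]
      map_mul' := fun x y => by
        have h := hall x y
        field_simp
        linear_combination h }
  refine ⟨T 1, RingEquiv.ofBijective s ⟨s.injective, Finite.injective_iff_surjective.mp s.injective⟩, fun v => ?_⟩
  rw [hT]
  show _ = T 1 * (T (φ v) * (T 1)⁻¹)
  field_simp

/-- A transitive semilinear group in odd characteristic has index two. -/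
theorem hasIndexTwo_semilinear {V : Type u} [AddCommGroup V] {G : Type v} [Group G] [Finite G]
    {F : Type} [Field F] [Fintype F] (hF : ringChar F ≠ 2) (e : V ≃+ F) (act : G → V → V)
    (h1 : ∀ v, act 1 v = v) (hmul : ∀ g h v, act (g * h) v = act g (act h v))
    (hsl : ∀ g : G, ∃ (a : F) (σ : F ≃+* F), ∀ v : V, e (act g v) = a * σ (e v))
    (htrans : ∀ v w : V, v ≠ 0 → w ≠ 0 → ∃ g, act g v = w) : CfsgLib.FpfQuat.HasIndexTwo G := by
  classical
  choose a σ hσ using hsl
  have hinv : ∀ (g : G) (x : F), quadraticChar F (σ g x) = quadraticChar F x := by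
    intro g x
    by_cases hx : x = 0
    · rw [hx, map_zero]
    by_cases hs : IsSquare x
    · obtain ⟨y, rfl⟩ := hs
      rw [(quadraticChar_one_iff_isSquare hx).mpr ⟨y, rfl⟩, quadraticChar_one_iff_isSquare]
      · exact ⟨σ g y, map_mul _ _ _⟩
      · exact fun e' => hx ((σ g).injective (e'.trans (map_zero _).symm))
    · rw [quadraticChar_neg_one_iff_not_isSquare.mpr hs, quadraticChar_neg_one_iff_not_isSquare]
      rintro ⟨y, hy⟩
      exact hs ⟨(σ g).symm y, (σ g).injective (by rw [hy, map_mul, RingEquiv.apply_symm_apply])⟩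
  have hval : ∀ g, e (act g (e.symm 1)) = a g := fun g => by
    rw [hσ, AddEquiv.apply_symm_apply, map_one, mul_one]
  let f : G →* ℤ :=
    { toFun := fun g => quadraticChar F (a g)
      map_one' := by rw [← hval, h1, AddEquiv.apply_symm_apply]; exact map_one _
      map_mul' := fun g h => by
        rw [← hval, hmul, hσ, map_mul, hinv, hval] }
  obtain ⟨x, hx⟩ := quadraticChar_exists_neg_one hF
  have hx0 : x ≠ 0 := fun h => by rw [h, quadraticChar_zero] at hx; norm_num at hx
  obtain ⟨g, hg⟩ := htrans (e.symm 1) (e.symm x)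
    (fun h => one_ne_zero (e.symm.injective (h.trans (map_zero e.symm).symm)))
    (fun h => hx0 (e.symm.injective (h.trans (map_zero e.symm).symm)))
  have hfg : f g = -1 := by
    show quadraticChar F (a g) = -1
    rw [← hval, hg, AddEquiv.apply_symm_apply, hx]
  have hsurj : Function.Surjective f.toHomUnits := by
    intro u
    rcases Int.units_eq_one_or u with rfl | rfl
    · exact ⟨1, map_one _⟩
    · exact ⟨g, Units.ext hfg⟩
  refine ⟨f.toHomUnits.ker, inferInstance, ?_⟩
  rw [Subgroup.index_ker, MonoidHom.range_eq_top.mpr hsurj, Subgroup.card_top, Nat.card_eq_fintype_card,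
    Fintype.card_units_int]

end CfsgLib.FieldModel
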