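import Mathlib

/-!
# Sharply four-transitive actions have degree at most eleven

The centralizer of an involution with two or three fixed points, stabilizing a moved point, is
faithful on the fixed points and transitive on the other moved points.
-/

set_option autoImplicit false
set_option linter.style.haveILetI false

namespace CfsgLib.SharpFour

open MulAction

variable {G : Type*} [Group G] {Ω : Type*} [MulAction G Ω]

theorem exists_four (h4 : IsMultiplyPretransitive G Ω 4) {a b c d a' b' c' d' : Ω}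
    (h1 : a ≠ b) (h2 : a ≠ c) (h3 : a ≠ d) (h5 : b ≠ c) (h6 : b ≠ d) (h7 : c ≠ d)
    (k1 : a' ≠ b') (k2 : a' ≠ c') (k3 : a' ≠ d') (k5 : b' ≠ c') (k6 : b' ≠ d') (k7 : c' ≠ d') :
    ∃ g : G, g • a = a' ∧ g • b = b' ∧ g • c = c' ∧ g • d = d' := by
  haveI := h4
  let x : Fin 4 ↪ Ω := ⟨![a, b, c, d], by
    intro i j h
    fin_cases i <;> fin_cases j <;> simp_all⟩
  let y : Fin 4 ↪ Ω := ⟨![a', b', c', d'], by
    intro i j h
    fin_cases i <;> fin_cases j <;> simp_all⟩
  obtain ⟨g, hg⟩ := MulAction.exists_smul_eq G x y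
  exact ⟨g, DFunLike.congr_fun hg 0, DFunLike.congr_fun hg 1, DFunLike.congr_fun hg 2,
    DFunLike.congr_fun hg 3⟩

theorem eq_one_of_four (hsharp : ∀ x : Fin 4 ↪ Ω, stabilizer G x = ⊥) {a b c d : Ω} (g : G)
    (h1 : a ≠ b) (h2 : a ≠ c) (h3 : a ≠ d) (h5 : b ≠ c) (h6 : b ≠ d) (h7 : c ≠ d)
    (ha : g • a = a) (hb : g • b = b) (hc : g • c = c) (hd : g • d = d) : g = 1 := by
  let x : Fin 4 ↪ Ω := ⟨![a, b, c, d], by
    intro i j h
    fin_cases i <;> fin_cases j <;> simp_all⟩
  have : g ∈ stabilizer G x := by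
    refine mem_stabilizer_iff.mpr (DFunLike.ext _ _ fun i => ?_)
    show g • x i = x i
    fin_cases i <;> assumption
  rwa [hsharp x, Subgroup.mem_bot] at this

theorem degree_le_eleven (h4 : IsMultiplyPretransitive G Ω 4)
    (hsharp : ∀ x : Fin 4 ↪ Ω, stabilizer G x = ⊥) (hne : Nonempty (Fin 4 ↪ Ω)) :
    Finite Ω ∧ Nat.card Ω ≤ 11 ∧ (Even (Nat.card Ω) → Nat.card Ω ≤ 6) := by
  classical
  obtain ⟨e⟩ := hne
  have he : ∀ i j : Fin 4, i ≠ j → e i ≠ e j := fun i j h => e.injective.ne h
  obtain ⟨u, u0, u1, u2, u3⟩ := exists_four h4 (he 0 1 (by decide)) (he 0 2 (by decide))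
    (he 0 3 (by decide)) (he 1 2 (by decide)) (he 1 3 (by decide)) (he 2 3 (by decide))
    (he 0 1 (by decide)) (he 0 3 (by decide)) (he 0 2 (by decide)) (he 1 3 (by decide))
    (he 1 2 (by decide)) (he 3 2 (by decide))
  have huu : ∀ x : Ω, u • u • x = x := by
    have h := eq_one_of_four hsharp (u * u) (he 0 1 (by decide)) (he 0 2 (by decide))
      (he 0 3 (by decide)) (he 1 2 (by decide)) (he 1 3 (by decide)) (he 2 3 (by decide))
      (by rw [mul_smul, u0, u0]) (by rw [mul_smul, u1, u1]) (by rw [mul_smul, u2, u3])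
      (by rw [mul_smul, u3, u2])
    intro x
    rw [← mul_smul, h, one_smul]
  set F : Set Ω := {x | u • x = x} with hF
  set M : Set Ω := {x | u • x ≠ x} with hM
  have hune : u ≠ 1 := fun h => he 2 3 (by decide) (by rw [← u2, h, one_smul])
  -- at most three fixed points
  have hFfin : F.Finite ∧ F.ncard ≤ 3 := by
    by_contra hcon
    obtain ⟨T, hT, hTc⟩ : ∃ T : Finset Ω, (↑T : Set Ω) ⊆ F ∧ T.card = 4 := by
      rcases F.finite_or_infinite with h | h
      · have h4 : 4 ≤ h.toFinset.card := by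
          rw [← Set.ncard_eq_toFinset_card F h]
          by_contra h'
          exact hcon ⟨h, by omega⟩
        obtain ⟨T, hT, hTc⟩ := Finset.exists_subset_card_eq h4
        exact ⟨T, fun x hx => h.mem_toFinset.mp (hT hx), hTc⟩
      · exact h.exists_subset_card_eq 4
    obtain ⟨w, x, y, z, a1, a2, a3, a4, a5, a6, rfl⟩ := Finset.card_eq_four.mp hTc
    simp only [Finset.coe_insert, Finset.coe_singleton, Set.insert_subset_iff,
      Set.singleton_subset_iff] at hT
    exact hune (eq_one_of_four hsharp u a1 a2 a3 a4 a5 a6 hT.1 hT.2.1 hT.2.2.1 hT.2.2.2)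
  haveI : Finite F := hFfin.1.to_subtype
  have h0F : e 0 ∈ F := u0
  have h1F : e 1 ∈ F := u1
  set p := e 2 with hp
  have hup : u • p ≠ p := by rw [u2]; exact (he 2 3 (by decide)).symm
  set M' : Set Ω := M \ {p, u • p} with hM'
  -- the centralizer of `u` fixing `p`
  let C : Subgroup G := Subgroup.centralizer ({u} : Set G) ⊓ stabilizer G p
  have hcomm : ∀ c : C, ∀ x : Ω, u • (c : G) • x = (c : G) • u • x := fun c x => by
    rw [← mul_smul, ← mul_smul,
      Subgroup.mem_centralizer_iff.mp (Subgroup.mem_inf.mp c.2).1 u rfl]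
  let toF : C → Equiv.Perm F := fun c =>
    { toFun := fun x => ⟨(c : G) • (x : Ω), by
        show u • _ = _
        rw [hcomm, show u • (x : Ω) = x from x.2]⟩
      invFun := fun x => ⟨(c : G)⁻¹ • (x : Ω), by
        show u • _ = _
        have h := hcomm c⁻¹ x
        rw [Subgroup.coe_inv] at h
        rw [h, show u • (x : Ω) = x from x.2]⟩
      left_inv := fun x => Subtype.ext (inv_smul_smul _ _)
      right_inv := fun x => Subtype.ext (smul_inv_smul _ _) }
  have hinj : Function.Injective toF := by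
    intro c d hcd
    have hfix : ∀ x ∈ F, ((d⁻¹ * c : C) : G) • x = x := fun x hx => by
      rw [Subgroup.coe_mul, Subgroup.coe_inv, mul_smul, inv_smul_eq_iff]
      exact congrArg Subtype.val (Equiv.congr_fun hcd ⟨x, hx⟩)
    have hpp : ((d⁻¹ * c : C) : G) • p = p := (Subgroup.mem_inf.mp (d⁻¹ * c).2).2
    have h := eq_one_of_four hsharp ((d⁻¹ * c : C) : G) (he 0 1 (by decide))
      (he 0 2 (by decide)) (he 0 3 (by decide)) (he 1 2 (by decide)) (he 1 3 (by decide))
      (he 2 3 (by decide)) (hfix _ h0F) (hfix _ h1F) hpp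
      (by rw [← u2, ← hcomm, hpp])
    exact (inv_mul_eq_one.mp (Subtype.ext h : d⁻¹ * c = 1)).symm
  haveI : Finite C := Finite.of_injective toF hinj
  have hne4 : ∀ q ∈ M', p ≠ u • p ∧ p ≠ q ∧ p ≠ u • q ∧ u • p ≠ q ∧ u • p ≠ u • q ∧ q ≠ u • q := by
    rintro q ⟨hq, hq'⟩
    simp only [Set.mem_insert_iff, Set.mem_singleton_iff, not_or] at hq'
    refine ⟨Ne.symm hup, Ne.symm hq'.1, fun h => hq'.2 (by rw [h, huu]), Ne.symm hq'.2,
      fun h => hq'.1 (by rw [← huu q, ← h, huu]), Ne.symm hq⟩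
  obtain ⟨hM'fin, hM'card⟩ : M'.Finite ∧ M'.ncard ≤ Nat.card (Equiv.Perm F) := by
    rcases M'.eq_empty_or_nonempty with h | ⟨q0, hq0⟩
    · rw [h]; exact ⟨Set.finite_empty, by simp⟩
    have hex : ∀ q : M', ∃ c : C, (c : G) • q0 = q := by
      intro q
      obtain ⟨a1, a2, a3, a5, a6, a7⟩ := hne4 q0 hq0
      obtain ⟨b1, b2, b3, b5, b6, b7⟩ := hne4 q q.2
      obtain ⟨g, g1, g2, g3, g4⟩ := exists_four h4 a1 a2 a3 a5 a6 a7 b1 b2 b3 b5 b6 b7
      have h1 := eq_one_of_four hsharp (g⁻¹ * u⁻¹ * g * u) a1 a2 a3 a5 a6 a7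
        (by simp only [mul_smul]; rw [inv_smul_eq_iff, inv_smul_eq_iff, g2, g1])
        (by simp only [mul_smul]; rw [inv_smul_eq_iff, inv_smul_eq_iff, huu, g1, g2, huu])
        (by simp only [mul_smul]; rw [inv_smul_eq_iff, inv_smul_eq_iff, g4, g3])
        (by simp only [mul_smul]; rw [inv_smul_eq_iff, inv_smul_eq_iff, huu, g3, g4, huu])
      have hgu : g * u = u * g := by
        have := congrArg (fun t => u * g * t) h1
        simpa [mul_assoc] using this
      exact ⟨⟨g, Subgroup.mem_inf.mpr ⟨Subgroup.mem_centralizer_iff.mpr fun h hh => by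
        rw [Set.mem_singleton_iff.mp hh, hgu], g1⟩⟩, g3⟩
    choose Φ hΦ using hex
    have hΦi : Function.Injective (fun q => toF (Φ q)) := fun q q' h =>
      Subtype.ext (by rw [← hΦ q, ← hΦ q', hinj h])
    haveI : Finite M' := Finite.of_injective _ hΦi
    exact ⟨Set.toFinite M', Nat.card_le_card_of_injective _ hΦi⟩
  have huniv : (Set.univ : Set Ω) = F ∪ M := by
    ext x; simp [hF, hM, em]
  have hMfin : M.Finite := ((hM'fin.union (Set.toFinite {p, u • p}))).subset (by
    intro x hx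
    by_cases h : x ∈ ({p, u • p} : Set Ω)
    · exact Or.inr h
    · exact Or.inl ⟨hx, h⟩)
  haveI hfin : Finite Ω := Set.finite_univ_iff.mp (huniv ▸ hFfin.1.union hMfin)
  haveI := Fintype.ofFinite Ω
  have hMsub : ({p, u • p} : Set Ω) ⊆ M := by
    intro x hx
    rcases hx with rfl | hx
    · exact hup
    · rw [Set.mem_singleton_iff.mp hx]
      show u • u • p ≠ u • p
      rw [huu]; exact Ne.symm hup
  have hMc : M'.ncard + 2 = M.ncard := by
    rw [hM', ← Set.ncard_pair (Ne.symm hup), Set.ncard_sdiff_add_ncard_of_subset hMsub]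
  have hnc : Nat.card Ω = F.ncard + M.ncard := by
    rw [← Set.ncard_univ, huniv, Set.ncard_union_eq]
    rw [Set.disjoint_left]
    exact fun x h1 h2 => h2 h1
  have hF2 : 2 ≤ F.ncard := by
    rw [← Set.ncard_pair (he 0 1 (by decide))]
    exact Set.ncard_le_ncard (Set.insert_subset h0F (Set.singleton_subset_iff.mpr h1F))
  have hperm : Nat.card (Equiv.Perm F) = Nat.factorial F.ncard := by
    rw [Nat.card_perm, Nat.card_coe_set_eq]
  rw [hperm] at hM'card
  have hMeven : Even M.ncard := by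
    let τ : Equiv.Perm Ω := ⟨(u • ·), (u • ·), huu, huu⟩
    have hτ : τ * τ = 1 := Equiv.ext huu
    have h := τ.two_dvd_card_support (by rw [sq, hτ])
    rw [even_iff_two_dvd, show M.ncard = τ.support.card from ?_]
    · exact h
    rw [← Set.ncard_coe_finset]
    congr 1
    ext x
    simp [τ, hM]
  have hF3' := hFfin.2
  refine ⟨hfin, ?_, fun hev => ?_⟩
  · have h6 : Nat.factorial F.ncard ≤ 6 := by
      interval_cases h : F.ncard
      all_goals first | decide | omega
    omega
  · have hF3 : F.ncard = 2 := by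
      rcases (show F.ncard = 2 ∨ F.ncard = 3 by omega) with h | h
      · exact h
      · rw [hnc, h] at hev
        obtain ⟨k, hk⟩ := hev
        obtain ⟨l, hl⟩ := hMeven
        omega
    rw [hF3] at hM'card
    simp [Nat.factorial] at hM'card
    omega

end CfsgLib.SharpFour
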