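import Mathlib.GroupTheory.GroupAction.Jordan
import Mathlib.GroupTheory.GroupAction.MultipleTransitivity
import Mathlib.GroupTheory.Perm.Cycle.Type

/-!
# Elements of small support in multiply transitive groups
-/

set_option autoImplicit false
set_option linter.unusedSectionVars false
set_option linter.style.haveILetI false

namespace CfsgLib.SmallSupport

open MulAction Equiv

universe u

variable {α : Type u} [Fintype α] [DecidableEq α]

/-- In any permutation some subset of the support of given size is left at most at one place. -/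
theorem exists_segment (g : Perm α) :
    ∀ j, j ≤ g.support.card → ∃ A : Finset α, A ⊆ g.support ∧ A.card = j ∧
      ∀ y ∈ A, ∀ z ∈ A, g y ∉ A → g z ∉ A → y = z := by
  intro j
  induction j with
  | zero => exact fun _ => ⟨∅, Finset.empty_subset _, Finset.card_empty, fun y hy => absurd hy (Finset.notMem_empty y)⟩
  | succ j ih =>
    intro hj
    obtain ⟨A, hA, hcard, hex⟩ := ih (by omega)
    by_cases hexit : ∃ y ∈ A, g y ∉ A
    · obtain ⟨y, hy, hgy⟩ := hexit
      refine ⟨insert (g y) A, Finset.insert_subset (Equiv.Perm.apply_mem_support.mpr (hA hy)) hA,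
        by rw [Finset.card_insert_of_notMem hgy, hcard], ?_⟩
      have key : ∀ z ∈ insert (g y) A, g z ∉ insert (g y) A → z = g y := by
        intro z hz hgz
        simp only [Finset.mem_insert, not_or] at hz hgz
        rcases hz with hz | hz
        · exact hz
        · exact absurd (by rw [hex z hz y hy hgz.2 hgy]) hgz.1
      exact fun z hz w hw h1 h2 => (key z hz h1).trans (key w hw h2).symm
    · push Not at hexit
      obtain ⟨x, hx, hxA⟩ := Finset.exists_mem_notMem_of_card_lt_card (show A.card < g.support.card by omega)
      refine ⟨insert x A, Finset.insert_subset hx hA,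
        by rw [Finset.card_insert_of_notMem hxA, hcard], ?_⟩
      have key : ∀ z ∈ insert x A, g z ∉ insert x A → z = x := by
        intro z hz hgz
        simp only [Finset.mem_insert, not_or] at hz hgz
        rcases hz with hz | hz
        · exact hz
        · exact absurd (hexit z hz) hgz.2
      exact fun z hz w hw h1 h2 => (key z hz h1).trans (key w hw h2).symm

variable (G : Subgroup (Perm α))

theorem exists_fixing_moving {k : ℕ} (hkn : k ≤ Fintype.card α)
    (hG : IsMultiplyPretransitive G α k) (A : Finset α) (hA : A.card + 1 ≤ k) {c d : α}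
    (hc : c ∉ A) (hd : d ∉ A) :
    ∃ x ∈ G, (∀ y ∈ A, x y = y) ∧ x c = d := by
  haveI : IsMultiplyPretransitive G α (insert c A).card :=
    isMultiplyPretransitive_of_le (n := k) (by rw [Finset.card_insert_of_notMem hc]; omega)
      (by rw [Nat.card_eq_fintype_card]; omega)
  let e := (insert c A).equivFin.symm
  let u : Fin (insert c A).card ↪ α := e.toEmbedding.trans (Function.Embedding.subtype _)
  let v : Fin (insert c A).card ↪ α := ⟨fun i => if (e i : α) = c then d else e i, by
    intro i j h
    simp only at h
    have hmem : ∀ i, (e i : α) ≠ c → (e i : α) ∈ A := fun i hi =>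
      (Finset.mem_insert.mp (e i).2).resolve_left hi
    split_ifs at h with h1 h2 h2
    · exact e.injective (Subtype.ext (h1.trans h2.symm))
    · exact absurd (hmem j h2) (h ▸ hd)
    · exact absurd (hmem i h1) (h.symm ▸ hd)
    · exact e.injective (Subtype.ext h)⟩
  obtain ⟨x, hx⟩ := exists_smul_eq G u v
  have happ : ∀ y (hy : y ∈ insert c A), (x : Perm α) y = if y = c then d else y := by
    intro y hy
    obtain ⟨i, hi⟩ := e.surjective ⟨y, hy⟩
    have h : (x : Perm α) (e i : α) = if (e i : α) = c then d else (e i : α) := DFunLike.congr_fun hx i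
    rwa [hi] at h
  refine ⟨x, x.2, fun y hy => ?_, ?_⟩
  · rw [happ y (Finset.mem_insert_of_mem hy), if_neg fun e' : y = c => hc (by rw [← e']; exact hy)]
  · rw [happ c (Finset.mem_insert_self c A), if_pos rfl]

/-- The support of the quotient of a permutation by its conjugate. -/
theorem support_quot (g x : Perm α) (A : Finset α) (hA : ∀ y ∈ A, x y = y) (F : Finset α)
    (hF : ∀ y ∈ F, y ∈ A ∧ g y ∈ A) :
    (g⁻¹ * (x * g * x⁻¹)).support ⊆
      (g.support ∪ (((g.support \ A).image x) \ g.support)) \ F := by
  intro y hy
  rw [Perm.mem_support, Perm.mul_apply, Ne, Perm.inv_eq_iff_eq] at hy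
  rw [Finset.mem_sdiff, Finset.mem_union]
  constructor
  · by_contra hc
    push Not at hc
    obtain ⟨hy1, hy2⟩ := hc
    have hgy : g y = y := Perm.notMem_support.mp hy1
    apply hy
    rw [Perm.mul_apply, Perm.mul_apply, hgy]
    by_contra hne
    have hz : x⁻¹ y ∈ g.support := by
      rw [Perm.mem_support]
      intro e
      exact hne (by rw [e, ← Perm.mul_apply, mul_inv_cancel, Perm.one_apply])
    have hzA : x⁻¹ y ∉ A := fun h => hy1 (by
      rw [← hA _ h, ← Perm.mul_apply, mul_inv_cancel, Perm.one_apply] at hz; exact hz)
    exact hy2 (Finset.mem_sdiff.mpr ⟨Finset.mem_image.mpr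
      ⟨x⁻¹ y, Finset.mem_sdiff.mpr ⟨hz, hzA⟩, by rw [← Perm.mul_apply, mul_inv_cancel, Perm.one_apply]⟩,
      hy1⟩)
  · intro hyF
    obtain ⟨h1, h2⟩ := hF y hyF
    apply hy
    rw [Perm.mul_apply, Perm.mul_apply, Perm.inv_eq_iff_eq.mpr (hA y h1).symm, hA _ h2]

theorem exists_smaller {k : ℕ} (hk : 3 ≤ k) (hkn : k ≤ Fintype.card α)
    (hG : IsMultiplyPretransitive G α k) (g : Perm α) (hg : g ∈ G)
    (hm : g.support.card < 2 * k - 2) (h4 : 4 ≤ g.support.card) :
    ∃ h ∈ G, h ≠ 1 ∧ (h.support.card ≤ 3 ∨ h.support.card < g.support.card) := by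
  set m := g.support.card
  have hmn : m ≤ Fintype.card α := Finset.card_le_univ _
  have hmk : ∀ x ∈ G, g⁻¹ * (x * g * x⁻¹) ∈ G := fun x hx =>
    G.mul_mem (G.inv_mem hg) (G.mul_mem (G.mul_mem hx hg) (G.inv_mem hx))
  rcases Nat.lt_or_ge k m with hkm | hkm
  · obtain ⟨A, hAT, hAcard, hex⟩ := exists_segment g (k - 1) (by omega)
    by_cases hexit : ∃ y ∈ A, g y ∉ A
    · obtain ⟨y₀, hy₀, hgy₀⟩ := hexit
      obtain ⟨d, hdT, hd⟩ := Finset.exists_mem_notMem_of_card_lt_card
        (show (insert (g y₀) A).card < g.support.card by
          rw [Finset.card_insert_of_notMem hgy₀]; omega)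
      simp only [Finset.mem_insert, not_or] at hd
      obtain ⟨x, hx, hxA, hxc⟩ := exists_fixing_moving G hkn hG A (by omega) hgy₀ hd.2
      refine ⟨_, hmk x hx, fun e => hd.1 ?_, .inr ?_⟩
      · have e' := congrArg (fun σ : Perm α => σ y₀) e
        simp only [Perm.mul_apply, Perm.one_apply, Perm.inv_eq_iff_eq] at e'
        rw [Perm.inv_eq_iff_eq.mpr (hxA y₀ hy₀).symm, hxc] at e'
        exact e'
      · have h1 := Finset.card_le_card (support_quot g x A hxA (A.erase y₀) fun y hy => by
          rw [Finset.mem_erase] at hy
          exact ⟨hy.2, by_contra fun h => hy.1 (hex y hy.2 y₀ hy₀ h hgy₀)⟩)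
        have hc1 : g y₀ ∈ g.support \ A :=
          Finset.mem_sdiff.mpr ⟨Perm.apply_mem_support.mpr (hAT hy₀), hgy₀⟩
        have h2 : (((g.support \ A).image x) \ g.support).card ≤ m - k := by
          have hsub : ((g.support \ A).image x) \ g.support ⊆
              ((g.support \ A).erase (g y₀)).image x := by
            intro z hz
            simp only [Finset.mem_sdiff, Finset.mem_image] at hz
            obtain ⟨⟨w, hw, rfl⟩, hz⟩ := hz
            refine Finset.mem_image_of_mem x (Finset.mem_erase.mpr ⟨fun e => hz ?_, Finset.mem_sdiff.mpr hw⟩)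
            rw [e, hxc]; exact hdT
          refine ((Finset.card_le_card hsub).trans Finset.card_image_le).trans (le_of_eq ?_)
          rw [Finset.card_erase_of_mem hc1, Finset.card_sdiff_of_subset hAT, hAcard]
          omega
        rw [Finset.card_sdiff_of_subset (((Finset.erase_subset _ _).trans hAT).trans
          Finset.subset_union_left), Finset.card_erase_of_mem hy₀, hAcard] at h1
        have := Finset.card_union_le g.support (((g.support \ A).image x) \ g.support)
        omega
    · push Not at hexit
      obtain ⟨c, hcT, hcA⟩ := Finset.exists_mem_notMem_of_card_lt_card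
        (show A.card < g.support.card by omega)
      by_cases hout : ∃ d, d ∉ g.support
      · obtain ⟨d, hd⟩ := hout
        obtain ⟨x, hx, hxA, hxc⟩ := exists_fixing_moving G hkn hG A (by omega) hcA fun h => hd (hAT h)
        refine ⟨_, hmk x hx, fun e => Perm.mem_support.mp hcT ?_, .inr ?_⟩
        · have e' := congrArg (fun σ : Perm α => σ d) e
          simp only [Perm.mul_apply, Perm.one_apply, Perm.inv_eq_iff_eq] at e'
          rw [Perm.inv_eq_iff_eq.mpr hxc.symm, Perm.notMem_support.mp hd] at e'
          exact x.injective (e'.trans hxc.symm)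
        · have h1 := Finset.card_le_card (support_quot g x A hxA A fun y hy => ⟨hy, hexit y hy⟩)
          have h2 : (((g.support \ A).image x) \ g.support).card ≤ m - (k - 1) := by
            refine ((Finset.card_le_card Finset.sdiff_subset).trans Finset.card_image_le).trans
              (le_of_eq ?_)
            rw [Finset.card_sdiff_of_subset hAT, hAcard]
          rw [Finset.card_sdiff_of_subset (hAT.trans Finset.subset_union_left), hAcard] at h1
          have := Finset.card_union_le g.support (((g.support \ A).image x) \ g.support)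
          omega
      · push Not at hout
        obtain ⟨y₁, hy₁⟩ := Finset.card_pos.mp (show 0 < A.card by omega)
        -- the preimage of the removed point
        obtain ⟨y₂, hy₂, hgy₂⟩ : ∃ y₂ ∈ A, g y₂ = y₁ := by
          have himg : A.image g = A := Finset.eq_of_subset_of_card_le
            (fun z hz => by obtain ⟨w, hw, rfl⟩ := Finset.mem_image.mp hz; exact hexit w hw)
            (by rw [Finset.card_image_of_injective _ g.injective])
          rw [← himg] at hy₁
          exact Finset.mem_image.mp hy₁
        have h21 : y₂ ≠ y₁ := fun e => Perm.mem_support.mp (hAT hy₂) (hgy₂.trans e.symm)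
        obtain ⟨x, hx, hxA, hxc⟩ := exists_fixing_moving G hkn hG (A.erase y₁)
          (by rw [Finset.card_erase_of_mem hy₁]; omega) (Finset.notMem_erase y₁ A)
          (fun h => hcA (Finset.mem_of_mem_erase h))
        refine ⟨_, hmk x hx, fun e => hcA ?_, .inr ?_⟩
        · have e' := congrArg (fun σ : Perm α => σ y₂) e
          simp only [Perm.mul_apply, Perm.one_apply, Perm.inv_eq_iff_eq] at e'
          rw [Perm.inv_eq_iff_eq.mpr (hxA y₂ (Finset.mem_erase.mpr ⟨h21, hy₂⟩)).symm, hgy₂, hxc] at e'
          rw [e']; exact hy₁
        · have h1 := Finset.card_le_card (support_quot g x (A.erase y₁) hxA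
            ((A.erase y₁).erase y₂) fun y hy => by
              simp only [Finset.mem_erase] at hy ⊢
              exact ⟨hy.2, fun e => hy.1 (g.injective (e.trans hgy₂.symm)), hexit y hy.2.2⟩)
          rw [Finset.card_sdiff_of_subset (((Finset.erase_subset _ _).trans ((Finset.erase_subset _ _).trans hAT)).trans Finset.subset_union_left), Finset.card_erase_of_mem (Finset.mem_erase.mpr ⟨h21, hy₂⟩),
            Finset.card_erase_of_mem hy₁, hAcard] at h1
          have hu : g.support ∪ (((g.support \ (A.erase y₁)).image x) \ g.support) = g.support := by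
            rw [Finset.union_eq_left]
            exact fun z _ => hout z
          rw [hu] at h1
          omega
  · -- the support is shorter than the transitivity
    by_cases hfull : k = Fintype.card α
    · haveI : Nontrivial α := Fintype.one_lt_card_iff_nontrivial.mp (by omega)
      have htop : G = ⊤ := Equiv.Perm.eq_top_of_isMultiplyPretransitive
        (isMultiplyPretransitive_of_le (n := k) (by rw [Nat.card_eq_fintype_card]; omega)
          (by rw [Nat.card_eq_fintype_card]; omega))
      obtain ⟨y, z, hyz⟩ := exists_pair_ne α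
      refine ⟨swap y z, by rw [htop]; exact Subgroup.mem_top _,
        fun e => hyz ?_, .inl (by rw [Perm.card_support_swap hyz]; norm_num)⟩
      have e' := congrArg (fun σ : Perm α => σ y) e
      simp only [swap_apply_left, Perm.one_apply] at e'
      exact e'.symm
    obtain ⟨d, -, hd⟩ := Finset.exists_mem_notMem_of_card_lt_card
      (show g.support.card < (Finset.univ : Finset α).card by rw [Finset.card_univ]; omega)
    obtain ⟨c, hc⟩ := Finset.card_pos.mp (show 0 < g.support.card by omega)
    obtain ⟨x, hx, hxA, hxc⟩ := exists_fixing_moving G hkn hG (g.support.erase c)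
      (by rw [Finset.card_erase_of_mem hc]; omega) (Finset.notMem_erase c _)
      (fun h => hd (Finset.mem_of_mem_erase h))
    refine ⟨_, hmk x hx, fun e => Perm.mem_support.mp hc ?_, .inl ?_⟩
    · have e' := congrArg (fun σ : Perm α => σ d) e
      simp only [Perm.mul_apply, Perm.one_apply, Perm.inv_eq_iff_eq] at e'
      rw [Perm.inv_eq_iff_eq.mpr hxc.symm, Perm.notMem_support.mp hd] at e'
      exact x.injective (e'.trans hxc.symm)
    · have h1 := Finset.card_le_card (support_quot g x (g.support.erase c) hxA
        ((g.support.erase c).erase (g⁻¹ c)) fun y hy => by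
          simp only [Finset.mem_erase] at hy ⊢
          exact ⟨hy.2, fun e => hy.1 (Perm.inv_eq_iff_eq.mpr e.symm).symm,
            Perm.apply_mem_support.mpr hy.2.2⟩)
      have hsub : g.support ∪ (((g.support \ g.support.erase c).image x) \ g.support) ⊆
          insert d g.support := by
        intro z hz
        rcases Finset.mem_union.mp hz with h | h
        · exact Finset.mem_insert_of_mem h
        · simp only [Finset.mem_sdiff, Finset.mem_image, Finset.mem_erase] at h
          obtain ⟨⟨w, ⟨hw, hwc⟩, rfl⟩, -⟩ := h
          rw [show w = c from by_contra fun e => hwc ⟨e, hw⟩, hxc]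
          exact Finset.mem_insert_self d _
      have h2 := Finset.card_le_card hsub
      rw [Finset.card_insert_of_notMem hd] at h2
      rw [Finset.card_sdiff_of_subset (((Finset.erase_subset _ _).trans (Finset.erase_subset _ _)).trans
        Finset.subset_union_left)] at h1
      have h3 := Finset.card_erase_add_one hc
      have h4' := Finset.pred_card_le_card_erase (s := g.support.erase c) (a := g⁻¹ c)
      omega

theorem small_support {k : ℕ} (hk : 3 ≤ k) (hkn : k ≤ Fintype.card α)
    (hG : IsMultiplyPretransitive G α k) (g : Perm α) (hg : g ∈ G) (hg1 : g ≠ 1)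
    (hsupp : g.support.card < 2 * k - 2) :
    (∃ h : Perm α, h ∈ G ∧ h ≠ 1 ∧ h.support.card ≤ 3) ∧ alternatingGroup α ≤ G := by
  obtain ⟨h, hh, hh1, hh3⟩ : ∃ h : Perm α, h ∈ G ∧ h ≠ 1 ∧ h.support.card ≤ 3 := by
    induction hn : g.support.card using Nat.strong_induction_on generalizing g with
    | _ n ih =>
      by_cases hn4 : g.support.card ≤ 3
      · exact ⟨g, hg, hg1, hn4⟩
      obtain ⟨h, hh, hh1, h3 | hlt⟩ := exists_smaller G hk hkn hG g hg hsupp (by omega)
      · exact ⟨h, hh, hh1, h3⟩
      · exact ih h.support.card (hn ▸ hlt) h hh hh1 (by omega) rfl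
  refine ⟨⟨h, hh, hh1, hh3⟩, ?_⟩
  have hprim : IsPreprimitive G α := isPreprimitive_of_is_two_pretransitive
    (isMultiplyPretransitive_of_le (n := k) (by omega) (by rw [Nat.card_eq_fintype_card]; omega))
  have h2 := Perm.two_le_card_support_of_ne_one hh1
  rcases (show h.support.card = 2 ∨ h.support.card = 3 by omega) with e | e
  · rw [Equiv.Perm.subgroup_eq_top_of_isPreprimitive_of_isSwap_mem hprim h
      (Perm.card_support_eq_two.mp e) hh]
    exact le_top
  · exact Equiv.Perm.alternatingGroup_le_of_isPreprimitive_of_isThreeCycle_mem hprim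
      (card_support_eq_three_iff.mp e) hh

end CfsgLib.SmallSupport
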