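import Mathlib

/-!
# The meet of a point stabilizer with a non-abelian socle in a primitive group
-/

set_option autoImplicit false
set_option linter.unusedSectionVars false
set_option linter.style.haveILetI false

namespace CfsgLib.SocleStab

open scoped commutatorElement
open MulAction

section Power

variable {T : Type} [Group T] [IsSimpleGroup T] {m : ℕ}

/-- The `i`-th factor. -/
def fac (i : Fin m) : Subgroup (Fin m → T) where
  carrier := {x | ∀ j, j ≠ i → x j = 1}
  one_mem' := fun j _ => rfl
  mul_mem' := fun {x y} hx hy j hj => by rw [Pi.mul_apply, hx j hj, hy j hj, one_mul]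
  inv_mem' := fun {x} hx j hj => by rw [Pi.inv_apply, hx j hj, inv_one]

instance fac_normal (i : Fin m) : (fac (T := T) i).Normal :=
  ⟨fun x hx g j hj => by rw [Pi.mul_apply, Pi.mul_apply, Pi.inv_apply, hx j hj, mul_one, mul_inv_cancel]⟩

theorem single_mem_fac (i : Fin m) (t : T) : Pi.mulSingle i t ∈ fac i := fun j hj => by
  simp [Pi.mulSingle_eq_of_ne hj]

theorem eq_single {i : Fin m} {x : Fin m → T} (hx : x ∈ fac i) : x = Pi.mulSingle i (x i) := by
  funext j
  by_cases hj : j = i
  · subst hj; simp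
  · rw [hx j hj, Pi.mulSingle_eq_of_ne hj]

/-- A non-trivial normal subgroup of a power of a non-abelian simple group contains a factor. -/
theorem fac_le_of_normal (hT : ¬ IsMulCommutative T) (M : Subgroup (Fin m → T)) [hM : M.Normal]
    {x : Fin m → T} (hx : x ∈ M) {i : Fin m} (hxi : x i ≠ 1) : fac i ≤ M := by
  classical
  have hMi : (M.comap (MonoidHom.mulSingle (fun _ : Fin m => T) i)).Normal := hM.comap _
  rcases IsSimpleGroup.eq_bot_or_eq_top_of_normal _ hMi with h | h
  · exfalso
    have hcen : x i ∈ Subgroup.center T := by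
      rw [Subgroup.mem_center_iff]
      intro t
      have hmem : ⁅x i, t⁆ ∈ M.comap (MonoidHom.mulSingle (fun _ : Fin m => T) i) := by
        rw [Subgroup.mem_comap]
        have e : MonoidHom.mulSingle (fun _ : Fin m => T) i ⁅x i, t⁆ =
            x * (Pi.mulSingle i t * x⁻¹ * (Pi.mulSingle i t)⁻¹) := by
          funext j
          by_cases hj : j = i
          · subst hj; simp [commutatorElement_def, mul_assoc]
          · simp [commutatorElement_def, Pi.mulSingle_eq_of_ne hj]
        rw [e]
        exact M.mul_mem hx (hM.conj_mem _ (M.inv_mem hx) _)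
      rw [h, Subgroup.mem_bot, commutatorElement_eq_one_iff_mul_comm] at hmem
      exact hmem.symm
    rcases IsSimpleGroup.eq_bot_or_eq_top_of_normal (Subgroup.center T) inferInstance with hc | hc
    · rw [hc, Subgroup.mem_bot] at hcen
      exact hxi hcen
    · exact hT ⟨⟨fun a b => Subgroup.mem_center_iff.mp (hc.symm ▸ Subgroup.mem_top b) a⟩⟩
  · intro y hy
    rw [eq_single hy]
    exact (h.symm ▸ Subgroup.mem_top (y i) : y i ∈ M.comap (MonoidHom.mulSingle (fun _ : Fin m => T) i))

theorem exists_ne_one : ∃ t : T, t ≠ 1 := exists_ne 1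

theorem fac_injective {i j : Fin m} (h : fac (T := T) i ≤ fac j) : i = j := by
  obtain ⟨t, ht⟩ := exists_ne (1 : T)
  by_contra hij
  have := h (single_mem_fac i t) i hij
  rw [Pi.mulSingle_eq_same] at this
  exact ht this

/-- Automorphisms permute the factors. -/
theorem exists_perm (hT : ¬ IsMulCommutative T) (φ : (Fin m → T) ≃* (Fin m → T)) (i : Fin m) :
    ∃ j, (fac i).map φ.toMonoidHom = fac j := by
  obtain ⟨t, ht⟩ := exists_ne (1 : T)
  set x := φ (Pi.mulSingle i t) with hx
  have hxne : x ≠ 1 := fun e => ht (by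
    have h := congrFun ((map_eq_one_iff φ φ.injective).mp e) i
    rwa [Pi.mulSingle_eq_same] at h)
  obtain ⟨j, hj⟩ : ∃ j, x j ≠ 1 := by
    by_contra h
    push Not at h
    exact hxne (funext h)
  haveI hn : ((fac i).map φ.toMonoidHom).Normal :=
    Subgroup.Normal.map inferInstance _ φ.surjective
  have h1 : fac j ≤ (fac i).map φ.toMonoidHom :=
    fac_le_of_normal hT _ (Subgroup.mem_map_of_mem _ (single_mem_fac i t)) hj
  refine ⟨j, le_antisymm ?_ h1⟩
  haveI hn2 : ((fac j).comap φ.toMonoidHom).Normal := Subgroup.Normal.comap inferInstance _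
  obtain ⟨s, hs⟩ := exists_ne (1 : T)
  obtain ⟨y, hy⟩ := φ.surjective (Pi.mulSingle j s)
  have hyM : y ∈ (fac j).comap φ.toMonoidHom := by
    rw [Subgroup.mem_comap]
    show φ y ∈ fac j
    rw [hy]
    exact single_mem_fac j s
  obtain ⟨k, hk⟩ : ∃ k, y k ≠ 1 := by
    by_contra h
    push Not at h
    apply hs
    have : y = 1 := funext h
    rw [this, map_one] at hy
    have h2 := congrFun hy j
    rw [Pi.mulSingle_eq_same] at h2
    exact h2.symm
  have h2 : fac k ≤ (fac j).comap φ.toMonoidHom := fac_le_of_normal hT _ hyM hk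
  have hle : (fac j).comap φ.toMonoidHom ≤ fac i := fun z hz => by
    obtain ⟨w, hw, hwz⟩ := h1 hz
    rwa [← φ.injective hwz]
  rw [fac_injective (h2.trans hle)] at h2
  exact Subgroup.map_le_iff_le_comap.mpr h2

/-- The projection of a subgroup to a factor. -/
def proj (L : Subgroup (Fin m → T)) (i : Fin m) : L →* T :=
  (Pi.evalMonoidHom (fun _ : Fin m => T) i).comp L.subtype

theorem proj_apply (L : Subgroup (Fin m → T)) (i : Fin m) (x : L) : proj L i x = (x : Fin m → T) i :=
  rfl

/-- Subdirect subgroups are products of diagonals. -/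
theorem subdirect_structure (hT : ¬ IsMulCommutative T) (L : Subgroup (Fin m → T))
    (hfull : ∀ i, Function.Surjective (proj L i)) :
    ∃ (c : Fin m → Fin m) (θ : Fin m → (T ≃* T)),
      (∀ i j, c i = c j ↔ (proj L i).ker = (proj L j).ker) ∧ (∀ i, c (c i) = c i) ∧
      ∀ x, x ∈ L ↔ ∀ i j, c i = c j → θ i (x i) = θ j (x j) := by
  classical
  obtain ⟨c, hc1, hc2⟩ : ∃ c : Fin m → Fin m, (∀ i, (proj L (c i)).ker = (proj L i).ker) ∧
      ∀ i j, (proj L i).ker = (proj L j).ker → c i = c j := by
    have hne : ∀ i, (Finset.univ.filter fun j => (proj L j).ker = (proj L i).ker).Nonempty :=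
      fun i => ⟨i, by simp⟩
    refine ⟨fun i => Finset.min' _ (hne i), fun i => ?_, fun i j h => ?_⟩
    · exact (Finset.mem_filter.mp (Finset.min'_mem _ (hne i))).2
    · simp only [h]
  have hciff : ∀ i j, c i = c j ↔ (proj L i).ker = (proj L j).ker := fun i j =>
    ⟨fun h => by rw [← hc1 i, ← hc1 j, h], hc2 i j⟩
  have hcc : ∀ i, c (c i) = c i := fun i => hc2 _ _ (hc1 i)
  let θ0 : Fin m → T →* T := fun i =>
    (proj L i).liftOfSurjective (hfull i) ⟨proj L (c i), (hc1 i).ge⟩
  have hθ0 : ∀ i (x : L), θ0 i ((x : Fin m → T) i) = (x : Fin m → T) (c i) := fun i x =>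
    MonoidHom.liftOfRightInverse_comp_apply _ _ _ _ x
  have hθbij : ∀ i, Function.Bijective (θ0 i) := fun i => by
    refine ⟨(injective_iff_map_eq_one _).mpr fun t ht => ?_, fun t => ?_⟩
    · obtain ⟨x, rfl⟩ := hfull i t
      rw [proj_apply, hθ0] at ht
      have : x ∈ (proj L (c i)).ker := ht
      rw [hc1] at this
      exact this
    · obtain ⟨x, rfl⟩ := hfull (c i) t
      exact ⟨_, hθ0 i x⟩
  let θ : Fin m → (T ≃* T) := fun i => MulEquiv.ofBijective (θ0 i) (hθbij i)
  have hθfix : ∀ r, c r = r → ∀ t, θ r t = t := fun r hr t => by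
    obtain ⟨x, rfl⟩ := hfull r t
    show θ0 r _ = _
    rw [proj_apply, hθ0, hr]
  refine ⟨c, θ, hciff, hcc, fun x => ⟨fun hx i j hij => ?_, fun hx => ?_⟩⟩
  · show θ0 i (x i) = θ0 j (x j)
    rw [hθ0 i ⟨x, hx⟩, hθ0 j ⟨x, hx⟩, hij]
  -- the representatives can be prescribed
  have hsingle : ∀ r, c r = r → ∀ (S : Finset (Fin m)), (∀ s ∈ S, c s = s) → r ∉ S →
      ∀ t, ∃ y : L, (y : Fin m → T) r = t ∧ ∀ s ∈ S, (y : Fin m → T) s = 1 := by
    intro r hr S
    induction S using Finset.induction_on with
    | empty => exact fun _ _ t => (hfull r t).imp fun y hy => ⟨hy, by simp⟩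
    | insert s S hsS ih =>
      intro hS hrS
      simp only [Finset.mem_insert, not_or] at hrS
      have ih' := ih (fun u hu => hS u (Finset.mem_insert_of_mem hu)) hrS.2
      let J : Subgroup L := ⨅ u ∈ S, (proj L u).ker
      have hJ : ∀ y : L, y ∈ J ↔ ∀ u ∈ S, (y : Fin m → T) u = 1 := fun y => by
        simp [J, Subgroup.mem_iInf, proj_apply]
      have hJn : J.Normal := Subgroup.normal_iInf_normal fun u =>
        Subgroup.normal_iInf_normal fun _ => MonoidHom.normal_ker _
      have hJr : J.map (proj L r) = ⊤ := by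
        rw [eq_top_iff]
        intro t _
        obtain ⟨y, hy, hyS⟩ := ih' t
        exact ⟨y, (hJ y).mpr hyS, hy⟩
      have hKr : (proj L s).ker.map (proj L r) = ⊤ := by
        have hn : ((proj L s).ker.map (proj L r)).Normal :=
          Subgroup.Normal.map (MonoidHom.normal_ker _) _ (hfull r)
        rcases IsSimpleGroup.eq_bot_or_eq_top_of_normal _ hn with h | h
        · exfalso
          rw [Subgroup.map_eq_bot_iff] at h
          have hn' : ((proj L r).ker.map (proj L s)).Normal :=
            Subgroup.Normal.map (MonoidHom.normal_ker _) _ (hfull s)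
          rcases IsSimpleGroup.eq_bot_or_eq_top_of_normal _ hn' with h' | h'
          · rw [Subgroup.map_eq_bot_iff] at h'
            have := hc2 s r (le_antisymm h h')
            rw [hS s (Finset.mem_insert_self _ _), hr] at this
            exact hrS.1 this.symm
          · apply hT
            refine ⟨⟨fun a b => ?_⟩⟩
            obtain ⟨y, rfl⟩ := hfull r a
            obtain ⟨z, hz, hzs⟩ : proj L s y ∈ (proj L r).ker.map (proj L s) :=
              h'.symm ▸ Subgroup.mem_top _
            have h1 : y * z⁻¹ ∈ (proj L s).ker := by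
              rw [MonoidHom.mem_ker, map_mul, map_inv, hzs, mul_inv_cancel]
            have h2 := h h1
            rw [MonoidHom.mem_ker, map_mul, map_inv, MonoidHom.mem_ker.mp hz, inv_one,
              mul_one] at h2
            rw [h2, one_mul, mul_one]
        · exact h
      intro t
      have hcomm : commutator T = ⊤ := by
        rcases IsSimpleGroup.eq_bot_or_eq_top_of_normal (commutator T) inferInstance with h | h
        · exfalso
          apply hT
          refine ⟨⟨fun a b => ?_⟩⟩
          have : ⁅a, b⁆ ∈ commutator T :=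
            Subgroup.commutator_mem_commutator (Subgroup.mem_top a) (Subgroup.mem_top b)
          rw [h, Subgroup.mem_bot, commutatorElement_eq_one_iff_mul_comm] at this
          exact this
        · exact h
      have hall : (J ⊓ (proj L s).ker).map (proj L r) = ⊤ := by
        rw [eq_top_iff, ← hcomm, commutator_def]
        conv_lhs => enter [1]; rw [← hJr]
        conv_lhs => enter [2]; rw [← hKr]
        rw [← Subgroup.map_commutator]
        refine Subgroup.map_mono (le_inf ?_ ?_)
        · haveI := hJn; exact Subgroup.commutator_le_left _ _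
        · haveI := MonoidHom.normal_ker (proj L s); exact Subgroup.commutator_le_right _ _
      obtain ⟨y, hy, hyt⟩ : t ∈ (J ⊓ (proj L s).ker).map (proj L r) := hall.symm ▸ Subgroup.mem_top t
      obtain ⟨hyJ, hys⟩ := Subgroup.mem_inf.mp hy
      refine ⟨y, hyt, fun u hu => ?_⟩
      rcases Finset.mem_insert.mp hu with rfl | hu
      · exact hys
      · exact (hJ y).mp hyJ u hu
  have hpres : ∀ S : Finset (Fin m), (∀ s ∈ S, c s = s) →
      ∃ y : L, ∀ r, c r = r → (y : Fin m → T) r = if r ∈ S then x r else 1 := by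
    intro S
    induction S using Finset.induction_on with
    | empty => exact fun _ => ⟨1, fun r _ => by simp⟩
    | insert s S hsS ih =>
      intro hS
      obtain ⟨y, hy⟩ := ih fun u hu => hS u (Finset.mem_insert_of_mem hu)
      obtain ⟨z, hz, hz'⟩ := hsingle s (hS s (Finset.mem_insert_self _ _))
        (Finset.univ.filter fun r => c r = r ∧ r ≠ s) (fun r hr => (Finset.mem_filter.mp hr).2.1)
        (by simp) (x s)
      refine ⟨z * y, fun r hr => ?_⟩
      rw [Subgroup.coe_mul, Pi.mul_apply, hy r hr]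
      by_cases hrs : r = s
      · subst hrs
        simp [hsS, hz]
      · rw [hz' r (by simp [hr, hrs]), one_mul]
        simp [hrs]
  obtain ⟨y, hy⟩ := hpres (Finset.univ.filter fun r => c r = r) fun s hs =>
    (Finset.mem_filter.mp hs).2
  have : x = y := funext fun i => (θ i).injective (by
    rw [hx i (c i) (hcc i).symm, hθfix (c i) (hcc i)]
    show x (c i) = θ0 i _
    rw [hθ0, hy (c i) (hcc i)]
    simp [hcc i])
  rw [this]
  exact y.2

end Power

section Socle

variable {α : Type*} [Finite α]

theorem stabilizer_meet_socle (H : Subgroup (Equiv.Perm α)) [IsPreprimitive H α] (N : Subgroup H)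
    [N.Normal] (hN : N ≠ ⊥) (hmin : ∀ M : Subgroup H, M.Normal → M ≤ N → M = ⊥ ∨ M = N)
    (hnab : ¬ IsMulCommutative N) (a : α) (T : Type) [Group T] [IsSimpleGroup T] (m : ℕ)
    (hm : 0 < m) (e : N ≃* (Fin m → T)) :
    ¬ IsMulCommutative T ∧ ∃ e' : N ≃* (Fin m → T),
      ((∃ K : Fin m → Subgroup T, (∀ i, K i ≠ ⊤) ∧
          ∀ n : N, (n : H) ∈ stabilizer H a ↔ ∀ i, e' n i ∈ K i) ∨
        (∃ (k : ℕ) (c : Fin m → Fin m), 2 ≤ k ∧
          (∀ j : Fin m, Nat.card {i : Fin m // c i = j} = k ∨ Nat.card {i : Fin m // c i = j} = 0) ∧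
          ∀ n : N, (n : H) ∈ stabilizer H a ↔ ∀ i j : Fin m, c i = c j → e' n i = e' n j)) := by
  classical
  have hT : ¬ IsMulCommutative T := by
    intro h
    apply hnab
    refine ⟨⟨fun x y => e.injective ?_⟩⟩
    rw [map_mul, map_mul]
    funext i
    exact h.1.1 _ _
  refine ⟨hT, ?_⟩
  set A := stabilizer H a with hA
  have hnot : fixedPoints N α ≠ Set.univ := by
    intro h
    apply hN
    rw [Subgroup.eq_bot_iff_forall]
    intro x hx
    refine Subtype.ext (Equiv.ext fun b => ?_)
    have hb : b ∈ fixedPoints N α := h ▸ Set.mem_univ b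
    exact hb ⟨x, hx⟩
  haveI htr : IsPretransitive N α := IsQuasiPreprimitive.isPretransitive_of_normal hnot
  haveI hnt : Nontrivial α := by
    by_contra h
    rw [not_nontrivial_iff_subsingleton] at h
    exact hnot (Set.eq_univ_of_forall fun b g => Subsingleton.elim _ _)
  have hAmax : IsCoatom A := (MulAction.isCoatom_stabilizer_iff_preprimitive H a).mpr inferInstance
  have hdec : ∀ h : H, ∃ n ∈ N, ∃ b ∈ A, h = n * b := by
    intro h
    obtain ⟨n, hn⟩ := MulAction.exists_smul_eq N a (h • a)
    refine ⟨n, n.2, (n : H)⁻¹ * h, ?_, (mul_inv_cancel_left _ _).symm⟩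
    rw [hA, mem_stabilizer_iff, mul_smul, ← hn]
    exact inv_smul_smul _ _
  -- conjugation
  let cj : H → ((Fin m → T) ≃* (Fin m → T)) := fun h =>
    (e.symm.trans (MulAut.conjNormal h)).trans e
  have hcj : ∀ (h : H) (n : N), cj h (e n) = e (MulAut.conjNormal h n) := fun h n => by simp [cj]
  choose σ hσ using fun h => exists_perm hT (cj h)
  have hσval : ∀ (h : H) (x : Fin m → T) (i : Fin m), cj h x (σ h i) = cj h (Pi.mulSingle i (x i)) (σ h i) := by
    intro h x i
    have hsplit : x = Pi.mulSingle i (x i) * Function.update x i 1 := by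
      funext j
      by_cases hj : j = i
      · subst hj; simp
      · simp [Pi.mulSingle_eq_of_ne hj, hj]
    conv_lhs => rw [hsplit, map_mul, Pi.mul_apply]
    convert mul_one _ using 2
    -- the rest lies in the other factors
    by_contra hne
    haveI : ((fac (σ h i)).comap (cj h).toMonoidHom).Normal := Subgroup.Normal.comap inferInstance _
    let M : Subgroup (Fin m → T) := (Pi.evalMonoidHom (fun _ : Fin m => T) i).ker
    have hM : M.map (cj h).toMonoidHom ≤ (Pi.evalMonoidHom (fun _ : Fin m => T) (σ h i)).ker := by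
      haveI : (M.map (cj h).toMonoidHom).Normal :=
        Subgroup.Normal.map (MonoidHom.normal_ker _) _ (cj h).surjective
      intro y hy
      rw [MonoidHom.mem_ker]
      by_contra hy'
      have hle : fac (σ h i) ≤ M.map (cj h).toMonoidHom := fac_le_of_normal hT _ hy hy'
      rw [← hσ h i, Subgroup.map_le_map_iff_of_injective (cj h).injective] at hle
      obtain ⟨t, ht⟩ := exists_ne (1 : T)
      have h1 := hle (single_mem_fac i t)
      rw [MonoidHom.mem_ker, Pi.evalMonoidHom_apply, Pi.mulSingle_eq_same] at h1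
      exact ht h1
    exact hne (hM (Subgroup.mem_map_of_mem _ (show Function.update x i 1 ∈ M by simp [M])))
  -- the point stabilizer inside the socle
  obtain ⟨L, hL⟩ : ∃ L : Subgroup (Fin m → T), L = (A.subgroupOf N).map e.toMonoidHom := ⟨_, rfl⟩
  have hmemL : ∀ n : N, e n ∈ L ↔ (n : H) ∈ A := by
    intro n
    rw [hL]
    constructor
    · rintro ⟨n', hn', he⟩
      rwa [← e.injective he]
    · exact fun hn => ⟨n, hn, rfl⟩
  have hLinv : ∀ b ∈ A, ∀ x ∈ L, cj b x ∈ L := by
    intro b hb x hx
    obtain ⟨n, rfl⟩ := e.surjective x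
    rw [hcj, hmemL, MulAut.conjNormal_apply]
    exact A.mul_mem (A.mul_mem hb ((hmemL n).mp hx)) (A.inv_mem hb)
  have hLne : L ≠ ⊤ := by
    intro h
    obtain ⟨b, hb⟩ := exists_ne a
    obtain ⟨n, hn⟩ := MulAction.exists_smul_eq N a b
    have hna : (n : H) ∈ A := (hmemL n).mp (h ▸ Subgroup.mem_top _)
    exact hb (hn.symm.trans (mem_stabilizer_iff.mp hna))
  have hdich : ∀ M : Subgroup (Fin m → T), L ≤ M → (∀ b ∈ A, ∀ x ∈ M, cj b x ∈ M) →
      M = L ∨ M = ⊤ := by
    intro M hLM hinv
    let MH : Subgroup H := (M.comap e.toMonoidHom).map N.subtype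
    have hAMH : A ≤ MH ⊔ A := le_sup_right
    rcases hAmax.le_iff.mp hAMH with h | h
    · right
      rw [eq_top_iff]
      intro x _
      obtain ⟨n, rfl⟩ := e.surjective x
      have hn : (n : H) ∈ MH ⊔ A := h ▸ Subgroup.mem_top _
      have hnorm : A ≤ Subgroup.normalizer (MH : Set H) := by
        intro b hb
        rw [Subgroup.mem_normalizer_iff]
        have hh : ∀ b ∈ A, ∀ y ∈ MH, b * y * b⁻¹ ∈ MH := by
          rintro b hb _ ⟨n', hn', rfl⟩
          refine ⟨MulAut.conjNormal b n', ?_, MulAut.conjNormal_apply b n'⟩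
          have := hinv b hb _ hn'
          rw [show (e.toMonoidHom n') = e n' from rfl, hcj] at this
          exact this
        refine fun y => ⟨hh b hb y, fun hy => ?_⟩
        have := hh b⁻¹ (A.inv_mem hb) _ hy
        simpa [mul_assoc] using this
      rw [← SetLike.mem_coe, Subgroup.coe_mul_of_right_le_normalizer_left MH A hnorm] at hn
      obtain ⟨y, hy, b, hb, hyb⟩ := hn
      obtain ⟨n', hn', rfl⟩ := hy
      have hbN : b = ((n'⁻¹ * n : N) : H) := by
        rw [Subgroup.coe_mul, Subgroup.coe_inv, ← hyb]; simp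
      have hbL : e (n'⁻¹ * n) ∈ L := (hmemL _).mpr (hbN ▸ hb)
      have := M.mul_mem hn' (hLM hbL)
      rwa [show e.toMonoidHom n' = e n' from rfl, ← map_mul, mul_inv_cancel_left] at this
    · left
      refine le_antisymm (fun x hx => ?_) hLM
      obtain ⟨n, rfl⟩ := e.surjective x
      rw [hmemL, ← h]
      exact Subgroup.mem_sup_left ⟨n, hx, rfl⟩
  -- transitivity on the factors
  have htrans : ∀ i j, ∃ b ∈ A, σ b i = j := by
    intro i j
    let U : Subgroup (Fin m → T) := ⨆ b : A, fac (σ b.1 i)
    haveI hUn : U.Normal := Subgroup.iSup_normal _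
    have hUinv : ∀ b ∈ A, ∀ x ∈ U, cj b x ∈ U := by
      intro b hb x hx
      have h1 : U.map (cj b).toMonoidHom ≤ U := by
        simp only [U, Subgroup.map_iSup]
        refine iSup_le fun c => ?_
        refine le_trans ?_ (le_iSup (fun b : A => fac (σ b.1 i)) (⟨b, hb⟩ * c))
        rw [← hσ c.1 i, ← hσ ((⟨b, hb⟩ : A) * c).1 i, Subgroup.map_map]
        intro y hy
        obtain ⟨z, hz, rfl⟩ := hy
        refine ⟨z, hz, ?_⟩
        simp [cj, map_mul]
      exact h1 (Subgroup.mem_map_of_mem _ hx)
    let UH : Subgroup H := (U.comap e.toMonoidHom).map N.subtype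
    have hUHn : UH.Normal := by
      refine ⟨fun y hy h => ?_⟩
      obtain ⟨n', hn', rfl⟩ := hy
      obtain ⟨n, hn, b, hb, rfl⟩ := hdec h
      refine ⟨⟨n, hn⟩ * MulAut.conjNormal b n' * ⟨n, hn⟩⁻¹, ?_, by simp [mul_assoc]⟩
      show e _ ∈ U
      rw [map_mul, map_mul, map_inv]
      refine hUn.conj_mem _ ?_ _
      rw [← hcj]
      exact hUinv b hb _ hn'
    rcases hmin UH hUHn (Subgroup.map_subtype_le _) with h | h
    · exfalso
      obtain ⟨t, ht⟩ := exists_ne (1 : T)
      have h1 : Pi.mulSingle (σ 1 i) t ∈ U :=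
        le_iSup (fun b : A => fac (σ b.1 i)) 1 (single_mem_fac _ t)
      obtain ⟨n, hn⟩ := e.surjective (Pi.mulSingle (σ 1 i) t)
      have h2 : (n : H) ∈ UH := ⟨n, by show e n ∈ U; rwa [hn], rfl⟩
      rw [h, Subgroup.mem_bot] at h2
      rw [show n = 1 from Subtype.ext h2, map_one] at hn
      have h3 := congrFun hn (σ 1 i)
      rw [Pi.mulSingle_eq_same] at h3
      exact ht h3.symm
    · by_contra hcon
      push Not at hcon
      obtain ⟨t, ht⟩ := exists_ne (1 : T)
      obtain ⟨n, hn⟩ := e.surjective (Pi.mulSingle j t)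
      have hh : (n : H) ∈ UH := h.symm ▸ n.2
      obtain ⟨n', hn', hnn⟩ := hh
      rw [show n' = n from Subtype.ext hnn] at hn'
      have hle : U ≤ (Pi.evalMonoidHom (fun _ : Fin m => T) j).ker :=
        iSup_le fun b y hy => hy j (Ne.symm (hcon b.1 b.2))
      have h4 := hle hn'
      rw [MonoidHom.mem_ker, Pi.evalMonoidHom_apply, show e.toMonoidHom n = e n from rfl, hn,
        Pi.mulSingle_eq_same] at h4
      exact ht h4
  by_cases hfull : ∃ i, Function.Surjective (proj L i)
  · -- diagonal type
    obtain ⟨i0, hi0⟩ := hfull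
    have hall : ∀ i, Function.Surjective (proj L i) := by
      intro i t
      obtain ⟨b, hb, rfl⟩ := htrans i0 i
      obtain ⟨z, hz⟩ := (cj b).surjective (Pi.mulSingle (σ b i0) t)
      obtain ⟨x, hx⟩ := hi0 (z i0)
      refine ⟨⟨cj b x, hLinv b hb x x.2⟩, ?_⟩
      show cj b (x : Fin m → T) (σ b i0) = t
      rw [hσval, ← proj_apply, hx, ← hσval, hz, Pi.mulSingle_eq_same]
    obtain ⟨c, θ, hciff, hcc, hmem⟩ := subdirect_structure hT L hall
    refine ⟨e.trans (MulEquiv.piCongrRight θ), Or.inr ?_⟩
    -- the blocks are permuted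
    have hblock : ∀ b ∈ A, ∀ i j, c i = c j → c (σ b i) = c (σ b j) := by
      intro b hb i j hij
      rw [hciff]
      have hker : ∀ i j, (proj L i).ker = (proj L j).ker →
          (proj L (σ b i)).ker ≤ (proj L (σ b j)).ker := by
        intro i j hk x hx
        rw [MonoidHom.mem_ker, proj_apply] at hx ⊢
        obtain ⟨y, hy⟩ : ∃ y : L, cj b (y : Fin m → T) = x := by
          refine ⟨⟨cj b⁻¹ x, hLinv b⁻¹ (A.inv_mem hb) x x.2⟩, ?_⟩
          obtain ⟨n, hn⟩ := e.surjective (x : Fin m → T)
          rw [Subtype.coe_mk, ← hn, hcj, hcj]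
          congr 1
          exact Subtype.ext (by simp [mul_assoc])
        rw [← hy] at hx ⊢
        have h1 : y ∈ (proj L i).ker := by
          rw [MonoidHom.mem_ker, proj_apply]
          by_contra hne
          rw [hσval] at hx
          have h2 : cj b (Pi.mulSingle i ((y : Fin m → T) i)) ∈ fac (σ b i) :=
            hσ b i ▸ Subgroup.mem_map_of_mem _ (single_mem_fac i _)
          have h3 := eq_single h2
          rw [hx, Pi.mulSingle_one, map_eq_one_iff _ (cj b).injective] at h3
          have h5 := congrFun h3 i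
          rw [Pi.mulSingle_eq_same] at h5
          exact hne h5
        rw [hk, MonoidHom.mem_ker, proj_apply] at h1
        rw [hσval, h1, Pi.mulSingle_one, map_one, Pi.one_apply]
      exact le_antisymm (hker i j ((hciff i j).mp hij)) (hker j i ((hciff j i).mp hij.symm))
    have hsizes : ∀ i i', Nat.card {j // c j = c i} ≤ Nat.card {j // c j = c i'} := by
      intro i i'
      obtain ⟨b, hb, rfl⟩ := htrans i i'
      refine Nat.card_le_card_of_injective
        (fun j : {j // c j = c i} => (⟨σ b j.1, hblock b hb _ _ j.2⟩ : {l // c l = c (σ b i)})) ?_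
      intro j j' hjj
      have h : σ b j.1 = σ b j'.1 := congrArg Subtype.val hjj
      refine Subtype.ext (fac_injective (T := T) (le_of_eq ?_))
      exact Subgroup.map_injective (cj b).injective (by rw [hσ b j.1, hσ b j'.1, h])
    let i1 : Fin m := ⟨0, hm⟩
    refine ⟨Nat.card {j // c j = c i1}, c, ?_, fun j => ?_, fun n => ?_⟩
    · by_contra hk
      apply hLne
      rw [eq_top_iff]
      intro x _
      rw [hmem]
      intro i j hij
      have : i = j := by
        have h1 : Nat.card {l // c l = c i} ≤ 1 := le_trans (hsizes i i1) (by omega)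
        rw [Finite.card_le_one_iff_subsingleton] at h1
        exact congrArg Subtype.val (Subsingleton.elim (α := {l // c l = c i}) ⟨i, rfl⟩ ⟨j, hij.symm⟩)
      rw [this]
    · by_cases hj : ∃ i, c i = j
      · obtain ⟨i, rfl⟩ := hj
        exact Or.inl (le_antisymm (hsizes i i1) (hsizes i1 i))
      · refine Or.inr ?_
        rw [Nat.card_eq_zero]
        exact Or.inl ⟨fun i => hj ⟨i.1, i.2⟩⟩
    · rw [← hmemL, hmem]
      exact Iff.rfl
  · -- product type
    push Not at hfull
    refine ⟨e, Or.inl ⟨fun i => (proj L i).range, fun i h => hfull i (MonoidHom.range_eq_top.mp h),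
      fun n => ?_⟩⟩
    obtain ⟨M, hM⟩ : ∃ M : Subgroup (Fin m → T), M = ⨅ i, (proj L i).range.comap
        (Pi.evalMonoidHom (fun _ : Fin m => T) i) := ⟨_, rfl⟩
    have hmemM : ∀ x, x ∈ M ↔ ∀ i, x i ∈ (proj L i).range := fun x => by
      rw [hM]; simp [Subgroup.mem_iInf]
    have hLM : L ≤ M := fun x hx => (hmemM x).mpr fun i => ⟨⟨x, hx⟩, rfl⟩
    have hinv : ∀ b ∈ A, ∀ x ∈ M, cj b x ∈ M := by
      intro b hb x hx
      rw [hmemM] at hx ⊢
      intro j
      obtain ⟨i, rfl⟩ : ∃ i, σ b i = j := by
        have hinj : Function.Injective (σ b) := fun i i' h =>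
          fac_injective (T := T) (le_of_eq
            (Subgroup.map_injective (cj b).injective (by rw [hσ b i, hσ b i', h])))
        exact Finite.surjective_of_injective hinj j
      obtain ⟨y, hy⟩ := hx i
      refine ⟨⟨cj b y, hLinv b hb y y.2⟩, ?_⟩
      show cj b (y : Fin m → T) (σ b i) = cj b x (σ b i)
      rw [hσval, ← proj_apply, hy, ← hσval]
    rcases hdich M hLM hinv with h | h
    · rw [← hmemL]
      exact ⟨fun hl => (hmemM _).mp (hLM hl), fun hh => h.le ((hmemM _).mpr hh)⟩
    · exfalso
      let i1' : Fin m := ⟨0, hm⟩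
      refine hfull i1' ?_
      rw [← MonoidHom.range_eq_top, eq_top_iff]
      intro t _
      have := (hmemM (Pi.mulSingle i1' t)).mp (h ▸ Subgroup.mem_top _) i1'
      rwa [Pi.mulSingle_eq_same] at this
end Socle

end CfsgLib.SocleStab
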