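import Cfsg.Agent.Lib.PermLinearRegular
import Cfsg.Agent.Lib.TransferQuatSection
import Cfsg.Agent.S0016
import Mathlib.FieldTheory.Finite.GaloisField
import Mathlib.GroupTheory.Nilpotent
import Mathlib.GroupTheory.Solvable

/-!
# Soluble sharply doubly transitive groups that are not semilinear: the degrees
-/

set_option autoImplicit false
set_option linter.unusedSectionVars false
set_option linter.style.haveILetI false

namespace CfsgLib.TypeTwo

open scoped commutatorElement
open CfsgLib.LinearRegular

universe u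

/-- The automorphism group of the quaternion group of order eight has order twenty-four. -/
theorem card_mulAut_q8 : Nat.card (MulAut (QuaternionGroup 2)) = 24 := by
  let P := {q : QuaternionGroup 2 × QuaternionGroup 2 //
    q.1 * q.1 ≠ 1 ∧ q.2 * q.2 ≠ 1 ∧ q.2 ≠ q.1 ∧ q.2 ≠ q.1⁻¹}
  let f : P → MulAut (QuaternionGroup 2) := fun q =>
    MulEquiv.ofBijective
      (MonoidHom.mk' (CfsgLib.ZStar.qMap q.1.1 q.1.2)
        (CfsgLib.QuatSection.q8_pair_hom _ _ q.2.1 q.2.2.1 q.2.2.2.1 q.2.2.2.2))
      (Finite.injective_iff_bijective.mp fun x y e =>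
        CfsgLib.QuatSection.q8_pair_inj _ _ q.2.1 q.2.2.1 q.2.2.2.1 q.2.2.2.2 x y e)
  have key : ∀ x : QuaternionGroup 2,
      x = CfsgLib.ZStar.qMap (QuaternionGroup.a 1) (QuaternionGroup.xa 0) x := by decide +kernel
  have hf : Function.Bijective f := by
    constructor
    · intro q q' e
      have h1 := DFunLike.congr_fun e (QuaternionGroup.a 1)
      have h2 := DFunLike.congr_fun e (QuaternionGroup.xa 0)
      have e1 : ∀ u v : QuaternionGroup 2,
          CfsgLib.ZStar.qMap u v (QuaternionGroup.a 1) = u ∧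
            CfsgLib.ZStar.qMap u v (QuaternionGroup.xa 0) = v := fun u v => by
        refine ⟨?_, ?_⟩
        · show u ^ (1 : ZMod (2 * 2)).val = u
          rw [show (1 : ZMod (2 * 2)).val = 1 from rfl, pow_one]
        · show v * u ^ (0 : ZMod (2 * 2)).val = v
          rw [show (0 : ZMod (2 * 2)).val = 0 from rfl, pow_zero, mul_one]
      exact Subtype.ext (Prod.ext
        ((e1 q.1.1 q.1.2).1.symm.trans (h1.trans (e1 q'.1.1 q'.1.2).1))
        ((e1 q.1.1 q.1.2).2.symm.trans (h2.trans (e1 q'.1.1 q'.1.2).2)))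
    · intro φ
      refine ⟨⟨(φ (QuaternionGroup.a 1), φ (QuaternionGroup.xa 0)), ?_, ?_, ?_, ?_⟩, ?_⟩
      · rw [← map_mul, ← map_one φ]; exact φ.injective.ne (by decide +kernel)
      · rw [← map_mul, ← map_one φ]; exact φ.injective.ne (by decide +kernel)
      · exact φ.injective.ne (by decide +kernel)
      · rw [← map_inv]; exact φ.injective.ne (by decide +kernel)
      · refine MulEquiv.ext fun x => ?_
        show CfsgLib.ZStar.qMap _ _ x = φ x
        conv_rhs => rw [key x]
        cases x with
        | a i => exact (map_pow φ _ _).symm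
        | xa i =>
          show _ * _ ^ _ = φ (_ * _ ^ _)
          exact ((map_mul φ (QuaternionGroup.xa 0) (QuaternionGroup.a 1 ^ i.val)).trans
            (congrArg (φ (QuaternionGroup.xa 0) * ·) (map_pow φ _ _))).symm
  rw [← Nat.card_eq_of_bijective f hf, Nat.card_eq_fintype_card]
  decide +kernel

variable {p : ℕ} [Fact p.Prime] {V : Type u} [AddCommGroup V] [Module (ZMod p) V] [Finite V]

/-- The semilinear bound of a normal abelian subgroup. -/
theorem semilinear_bound [Nontrivial V] (H : Subgroup (V ≃ₗ[ZMod p] V)) (A : Subgroup H)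
    [hAn : A.Normal] (hreg : ∀ v w : V, v ≠ 0 → w ≠ 0 → ∃! h : H, (h : V ≃ₗ[ZMod p] V) v = w)
    (hAc : IsMulCommutative A) (hred : ∃ W : Submodule (ZMod p) V, W ≠ ⊥ ∧ W ≠ ⊤ ∧ Inv H A W) :
    ∃ k : ℕ, 1 ≤ k ∧ 2 * k ≤ Module.finrank (ZMod p) V ∧ Nat.card A ∣ p ^ k - 1 ∧
      (Subgroup.centralizer (A : Set H)).index ∣ k := by
  classical
  haveI : Module.Finite (ZMod p) V := Module.Finite.of_finite
  obtain ⟨W, h1, -, -, -, hdom, hfr, hdim⟩ := structure_abelian H A hreg hAc hred
  set R := envAlg H A
  haveI : Finite (Module.End (ZMod p) V) :=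
    Finite.of_injective (fun f => (f : V → V)) DFunLike.coe_injective
  haveI : Finite R := Subtype.finite
  letI : CommRing R :=
    { (inferInstance : Ring R) with mul_comm := fun r s => Subtype.ext (env_comm H A hAc r.2 s.2) }
  haveI : NoZeroDivisors R := ⟨fun {r s} h => by
    by_contra hc
    push Not at hc
    obtain ⟨v, hv⟩ : ∃ v, (s : Module.End (ZMod p) V) v ≠ 0 := by
      by_contra hz
      push Not at hz
      exact hc.2 (Subtype.ext (LinearMap.ext hz))
    exact hc.1 (Subtype.ext (hdom _ r.2 _ hv (by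
      rw [← Module.End.mul_apply]
      exact LinearMap.congr_fun (congrArg Subtype.val h) v)))⟩
  haveI : Nontrivial R := ⟨⟨0, 1, fun e => by
    obtain ⟨v, hv⟩ := exists_ne (0 : V)
    exact hv (LinearMap.congr_fun (congrArg Subtype.val e) v).symm⟩⟩
  haveI : IsDomain R := NoZeroDivisors.to_isDomain R
  letI : Field R := (Finite.isField_of_domain R).toField
  let ι : A →* R :=
    { toFun := fun a => ⟨toEnd H a, toEnd_mem H A a.2⟩
      map_one' := rfl
      map_mul' := fun _ _ => rfl }
  have hι : Function.Injective ι := fun a b e =>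
    Subtype.ext (Subtype.ext (LinearEquiv.toLinearMap_injective (congrArg Subtype.val e)))
  have hcardR : Nat.card R = p ^ Module.finrank (ZMod p) W := by
    rw [Module.natCard_eq_pow_finrank (K := ZMod p) (V := R), Nat.card_zmod, hfr]
  have hdvd : Nat.card A ∣ p ^ Module.finrank (ZMod p) W - 1 := by
    rw [← hcardR, ← Nat.card_units]
    exact Subgroup.card_dvd_of_injective ι.toHomUnits fun a b e => hι (congrArg Units.val e)
  refine ⟨_, Nat.one_le_iff_ne_zero.mpr fun e => h1 (Submodule.finrank_eq_zero.mp e), hdim, hdvd, ?_⟩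
  let ψ0 : H → (R →ₐ[ZMod p] R) := fun h =>
    AlgHom.codRestrict (((h : V ≃ₗ[ZMod p] V).conjAlgEquiv (ZMod p)).toAlgHom.comp R.val) R fun r => by
      obtain ⟨r, hr⟩ := r
      show (h : V ≃ₗ[ZMod p] V).conjAlgEquiv (ZMod p) r ∈ R
      induction hr using Algebra.adjoin_induction with
      | mem x hx =>
        obtain ⟨a, ha, rfl⟩ := hx
        have e : (h : V ≃ₗ[ZMod p] V).conjAlgEquiv (ZMod p) (toEnd H a) = toEnd H (h * a * h⁻¹) :=
          LinearMap.ext fun v => rfl
        rw [e]
        exact toEnd_mem H A (hAn.conj_mem a ha h)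
      | algebraMap c => rw [AlgEquiv.commutes]; exact algebraMap_mem _ c
      | add x y _ _ hx hy => rw [map_add]; exact add_mem hx hy
      | mul x y _ _ hx hy => rw [map_mul]; exact mul_mem hx hy
  have hψinj : ∀ h, Function.Bijective (ψ0 h) := fun h =>
    Finite.injective_iff_bijective.mp fun r s e =>
      Subtype.ext (((h : V ≃ₗ[ZMod p] V).conjAlgEquiv (ZMod p)).injective (congrArg Subtype.val e))
  let ψ : H →* (R ≃ₐ[ZMod p] R) :=
    MonoidHom.mk' (fun h => AlgEquiv.ofBijective (ψ0 h) (hψinj h)) fun g h => by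
      refine AlgEquiv.ext fun r => Subtype.ext (LinearMap.ext fun v => ?_)
      rfl
  have hker : ψ.ker = Subgroup.centralizer (A : Set H) := by
    ext h
    rw [MonoidHom.mem_ker, Subgroup.mem_centralizer_iff]
    constructor
    · intro e a ha
      have e1 : toEnd H (h * a * h⁻¹) = toEnd H a :=
        congrArg Subtype.val (DFunLike.congr_fun e (⟨toEnd H a, toEnd_mem H A ha⟩ : R))
      have e2 : h * a * h⁻¹ = a := Subtype.ext (LinearEquiv.toLinearMap_injective e1)
      rw [mul_inv_eq_iff_eq_mul] at e2
      exact e2.symm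
    · intro hc
      refine AlgEquiv.ext fun r => Subtype.ext ?_
      obtain ⟨r, hr⟩ := r
      show (h : V ≃ₗ[ZMod p] V).conjAlgEquiv (ZMod p) r = r
      induction hr using Algebra.adjoin_induction with
      | mem x hx =>
        obtain ⟨a, ha, rfl⟩ := hx
        have e : (h : V ≃ₗ[ZMod p] V).conjAlgEquiv (ZMod p) (toEnd H a) = toEnd H (h * a * h⁻¹) :=
          LinearMap.ext fun v => rfl
        rw [e, ← hc a ha, mul_inv_cancel_right]
      | algebraMap c => rw [AlgEquiv.commutes]
      | add x y _ _ hx hy => rw [map_add, hx, hy]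
      | mul x y _ _ hx hy => rw [map_mul, hx, hy]
  rw [← hker, Subgroup.index_ker]
  haveI : Module.Finite (ZMod p) R := Module.Finite.of_finite
  refine (Subgroup.card_subgroup_dvd_card _).trans (dvd_of_eq ?_)
  rw [IsGalois.card_aut_eq_finrank, hfr]

/-- The arithmetic at the end. -/
theorem arith {p n k : ℕ} (hp : p.Prime) (hk : 1 ≤ k) (hn : 2 * k ≤ n)
    (h8 : 8 ∣ p ^ n - 1) (hd : p ^ n - 1 ∣ (p ^ k - 1) * (24 * k)) :
    p ^ n = 25 ∨ p ^ n = 49 ∨ p ^ n = 121 ∨ p ^ n = 529 ∨ p ^ n = 9 := by
  have hp2 : p ≠ 2 := by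
    intro e
    subst e
    have h1 : 2 ∣ 2 ^ n := dvd_pow_self 2 (by omega)
    have h2 : 1 ≤ 2 ^ n := Nat.one_le_two_pow
    omega
  have hp3 : 3 ≤ p := by have := hp.two_le; omega
  have hqpos : 1 < p ^ k := Nat.one_lt_pow (by omega) (by omega)
  have hle : p ^ n - 1 ≤ (p ^ k - 1) * (24 * k) :=
    Nat.le_of_dvd (Nat.mul_pos (by omega) (by omega)) hd
  rcases Nat.eq_or_lt_of_le hn with hn2 | hn2
  · subst hn2
    have hfac : p ^ (2 * k) - 1 = (p ^ k - 1) * (p ^ k + 1) := by
      rw [show 2 * k = k + k by omega, pow_add, Nat.sub_mul, Nat.mul_add, one_mul, mul_one]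
      omega
    rw [hfac] at hd
    have hd' : p ^ k + 1 ∣ 24 * k := Nat.dvd_of_mul_dvd_mul_left (by omega) hd
    have hle' := Nat.le_of_dvd (by omega) hd'
    have h3k : 3 ^ k ≤ p ^ k := Nat.pow_le_pow_left hp3 k
    have hk4 : k ≤ 4 := by
      by_contra h
      have h5 : 24 * k + 1 ≤ 3 ^ k := by
        have : 5 ≤ k := by omega
        clear * - this
        induction k, this using Nat.le_induction with
        | base => norm_num
        | succ j hj ih => rw [pow_succ]; omega
      omega
    interval_cases k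
    · have hp23 : p ≤ 23 := by rw [pow_one] at hle'; omega
      interval_cases p <;> simp_all (config := {decide := true})
    · have : p ≤ 6 := by nlinarith
      interval_cases p <;> simp_all (config := {decide := true})
    · have : p ≤ 4 := by
        by_contra h
        have : 5 ^ 3 ≤ p ^ 3 := Nat.pow_le_pow_left (by omega) 3
        omega
      interval_cases p <;> simp_all (config := {decide := true})
    · have : p ≤ 3 := by
        by_contra h
        have : 4 ^ 4 ≤ p ^ 4 := Nat.pow_le_pow_left (by omega) 4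
        omega
      interval_cases p <;> simp_all (config := {decide := true})
  · exfalso
    have h1 : p * (p ^ k * p ^ k) ≤ p ^ n := by
      rw [← pow_add, ← pow_succ']
      exact Nat.pow_le_pow_right (by omega) (by omega)
    have h2 : 3 * (p ^ k * p ^ k) ≤ p ^ n := le_trans (Nat.mul_le_mul_right _ hp3) h1
    obtain ⟨q, hq⟩ : ∃ q, p ^ k = q + 1 := ⟨p ^ k - 1, by omega⟩
    rw [hq] at h2 hle
    simp only [Nat.add_sub_cancel] at hle
    have hq8 : q + 1 < 8 * k := by
      by_contra h
      have : q * (24 * k) ≤ q * (3 * (q + 1)) := Nat.mul_le_mul_left _ (by omega)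
      have : p ^ n ≤ q * (24 * k) + 1 := by omega
      nlinarith
    have h3k : 3 ^ k ≤ q + 1 := hq ▸ Nat.pow_le_pow_left hp3 k
    have hk2 : k ≤ 2 := by
      by_contra h
      have h5 : 8 * k ≤ 3 ^ k := by
        have : 3 ≤ k := by omega
        clear * - this
        induction k, this using Nat.le_induction with
        | base => norm_num
        | succ j hj ih => rw [pow_succ]; omega
      omega
    interval_cases k
    · rw [pow_one] at hq
      have hp7 : p ≤ 7 := by omega
      interval_cases p <;> first | (norm_num at hp; done) | skip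
      · obtain rfl : q = 2 := by omega
        have : n ≤ 3 := by
          by_contra h
          have : 3 ^ 4 ≤ 3 ^ n := Nat.pow_le_pow_right (by norm_num) (by omega)
          omega
        obtain rfl : n = 3 := by omega
        norm_num at h8
      · obtain rfl : q = 4 := by omega
        have : 5 ^ 3 ≤ 5 ^ n := Nat.pow_le_pow_right (by norm_num) (by omega)
        omega
      · obtain rfl : q = 6 := by omega
        have : 7 ^ 3 ≤ 7 ^ n := Nat.pow_le_pow_right (by norm_num) (by omega)
        omega
    · have : p ≤ 3 := by nlinarith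
      obtain rfl : p = 3 := by omega
      obtain rfl : q = 8 := by omega
      have : n ≤ 5 := by
        by_contra h
        have : 3 ^ 6 ≤ 3 ^ n := Nat.pow_le_pow_right (by norm_num) (by omega)
        omega
      obtain rfl : n = 5 := by omega
      norm_num at h8

/-- Soluble regular linear groups without irreducible cyclic normal subgroups. -/
theorem degrees (H : Subgroup (V ≃ₗ[ZMod p] V))
    (hreg : ∀ v w : V, v ≠ 0 → w ≠ 0 → ∃! h : H, (h : V ≃ₗ[ZMod p] V) v = w)
    (hI : ∀ A : Subgroup H, A.Normal → IsCyclic A → ∃ W : Submodule (ZMod p) V, W ≠ ⊥ ∧ W ≠ ⊤ ∧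
      ∀ a ∈ A, ∀ v ∈ W, ((a : H) : V ≃ₗ[ZMod p] V) v ∈ W)
    (hsolv : Group.IsSolvable H) :
    Nat.card V = 25 ∨ Nat.card V = 49 ∨ Nat.card V = 121 ∨ Nat.card V = 529 := by
  classical
  haveI := hsolv
  haveI hnt : Nontrivial V := by
    by_contra hV
    haveI : Subsingleton V := not_nontrivial_iff_subsingleton.mp hV
    obtain ⟨W, hW, -, -⟩ := hI ⊥ inferInstance (isCyclic_of_subsingleton)
    exact hW (Submodule.eq_bot_of_subsingleton)
  haveI : Module.Finite (ZMod p) V := Module.Finite.of_finite
  haveI : Finite (V ≃ₗ[ZMod p] V) :=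
    Finite.of_injective (fun f => (f : V → V)) DFunLike.coe_injective
  have hfree : ∀ (B : Subgroup H), ∀ a ∈ B, ∀ v : V, v ≠ 0 →
      ((a : H) : V ≃ₗ[ZMod p] V) v = v → a = 1 :=
    fun B a _ v hv e => eq_one_of_fix H hreg hv e
  have habcyc : ∀ B : Subgroup H, IsMulCommutative B → IsCyclic B := fun B hB =>
    isCyclic_abelian H B hB (hfree B)
  -- maximal normal abelian subgroup
  obtain ⟨A, ⟨hAn, hAc⟩, hAmax⟩ : ∃ A : Subgroup H, (A.Normal ∧ IsMulCommutative A) ∧
      ∀ B : Subgroup H, B.Normal → IsMulCommutative B → A ≤ B → B = A := by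
    obtain ⟨A, hA⟩ := (Set.toFinite {B : Subgroup H | B.Normal ∧ IsMulCommutative B}).exists_maximal
      ⟨⊥, inferInstance, inferInstance⟩
    exact ⟨A, hA.1, fun B h1 h2 h3 => le_antisymm (hA.2 ⟨h1, h2⟩ h3) h3⟩
  haveI := hAn
  have hred := hI A hAn (habcyc A hAc)
  obtain ⟨k, hk1, hkn, hAk, hCk⟩ := semilinear_bound H A hreg hAc hred
  obtain ⟨-, -, -, -, -, -, hne⟩ := abelian_facts H A hreg hAc hred
  set C := Subgroup.centralizer (A : Set H) with hC
  have hAC : A ≤ C := fun a ha => Subgroup.mem_centralizer_iff.mpr fun b hb =>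
    congrArg Subtype.val (hAc.is_comm.comm (⟨b, hb⟩ : A) ⟨a, ha⟩)
  have hCna : ¬ IsMulCommutative C := fun h => hne (hAmax C inferInstance h hAC)
  -- minimal non-abelian normal subgroup of the centralizer
  obtain ⟨N, ⟨hNn, hNC, hNna⟩, hNmin⟩ : ∃ N : Subgroup H,
      (N.Normal ∧ N ≤ C ∧ ¬ IsMulCommutative N) ∧
        ∀ M : Subgroup H, M.Normal → M ≤ N → ¬ IsMulCommutative M → M = N := by
    obtain ⟨N, hN⟩ := (Set.toFinite {B : Subgroup H | B.Normal ∧ B ≤ C ∧ ¬ IsMulCommutative B}).exists_minimal
      ⟨C, inferInstance, le_rfl, hCna⟩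
    exact ⟨N, hN.1, fun M h1 h2 h3 => le_antisymm h2 (hN.2 ⟨h1, h2.trans hN.1.2.1, h3⟩ h2)⟩
  haveI := hNn
  have hirr : ∀ W : Submodule (ZMod p) V, Inv H N W → W = ⊥ ∨ W = ⊤ := by
    intro W hW
    by_contra hc
    push Not at hc
    exact hNna (comm_of_reducible H N hreg ⟨W, hc.1, hc.2, hW⟩)
  have hAN : A ≤ Subgroup.centralizer (N : Set H) := fun a ha =>
    Subgroup.mem_centralizer_iff.mpr fun n hn =>
      (Subgroup.mem_centralizer_iff.mp (hNC hn) a ha).symm
  have hCN : Subgroup.centralizer (N : Set H) = A :=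
    hAmax _ inferInstance (centralizer_comm H N hirr) hAN
  -- commutators are central
  have hder : ⁅N, N⁆ ≤ A := by
    have hNb : N ≠ ⊥ := fun e => hNna (e ▸ inferInstance)
    have hlt := IsSolvable.commutator_lt_of_ne_bot (H := N) hNb
    have hab : IsMulCommutative (⁅N, N⁆ : Subgroup H) := by
      by_contra h
      exact hlt.ne (hNmin _ inferInstance hlt.le h)
    have hsup : IsMulCommutative (⁅N, N⁆ ⊔ A : Subgroup H) := by
      rw [Subgroup.sup_eq_closure]
      refine Subgroup.isMulCommutative_closure ?_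
      rintro u (hu | hu) w (hw | hw)
      · exact congrArg Subtype.val (hab.is_comm.comm ⟨u, hu⟩ ⟨w, hw⟩)
      · exact (Subgroup.mem_centralizer_iff.mp (hNC (hlt.le hu)) w hw).symm
      · exact Subgroup.mem_centralizer_iff.mp (hNC (hlt.le hw)) u hu
      · exact congrArg Subtype.val (hAc.is_comm.comm ⟨u, hu⟩ ⟨w, hw⟩)
    exact le_sup_left.trans (hAmax _ inferInstance hsup le_sup_right).le
  have hcen : ∀ x y : N, ⁅x, y⁆ ∈ Subgroup.center N := by
    intro x y
    rw [Subgroup.mem_center_iff]
    intro g
    refine Subtype.ext ?_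
    exact Subgroup.mem_centralizer_iff.mp
      (hAN (hder (Subgroup.commutator_mem_commutator x.2 y.2))) g g.2
  haveI hnil : Group.IsNilpotent N := by
    have hkle : (QuotientGroup.mk' (Subgroup.center N)).ker ≤ Subgroup.center N := by
      rw [QuotientGroup.ker_mk']
    haveI : IsMulCommutative (N ⧸ Subgroup.center N) := ⟨⟨fun a b => by
      induction a using QuotientGroup.induction_on with
      | H x =>
        induction b using QuotientGroup.induction_on with
        | H y =>
          rw [← QuotientGroup.mk_mul, ← QuotientGroup.mk_mul, QuotientGroup.eq]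
          rw [show (x * y)⁻¹ * (y * x) = ⁅y⁻¹, x⁻¹⁆ by rw [commutatorElement_def]; group]
          exact hcen _ _⟩⟩
    letI : CommGroup (N ⧸ Subgroup.center N) :=
      { (inferInstance : Group (N ⧸ Subgroup.center N)) with
        mul_comm := fun a b => mul_comm' a b }
    exact isNilpotent_of_ker_le_center (QuotientGroup.mk' (Subgroup.center N)) hkle
  -- `N` has prime power order
  obtain ⟨r, hr, hrN⟩ : ∃ r, r.Prime ∧ IsPGroup r N := by
    by_contra hcon
    push Not at hcon
    apply hNna
    have hsyl : ∀ (r : ℕ), r.Prime → ∀ P : Sylow r N, IsMulCommutative (P : Subgroup N) := by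
      intro r hr P
      haveI := Fact.mk hr
      haveI : (P : Subgroup N).Normal := Sylow.normal_of_normalizerCondition normalizerCondition_of_isNilpotent P
      haveI : (P : Subgroup N).Characteristic := P.characteristic_of_normal inferInstance
      by_contra hP
      have hM : ((P : Subgroup N).map N.subtype).Normal := inferInstance
      have hMc : ¬ IsMulCommutative ((P : Subgroup N).map N.subtype) := fun h => hP ⟨⟨fun a b => by
        have e := congrArg Subtype.val (h.is_comm.comm
          (⟨_, Subgroup.mem_map_of_mem N.subtype a.2⟩ : (P : Subgroup N).map N.subtype)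
          ⟨_, Subgroup.mem_map_of_mem N.subtype b.2⟩)
        exact Subtype.ext (Subtype.ext (by simpa using e))⟩⟩
      have hMN := hNmin _ hM (Subgroup.map_subtype_le _) hMc
      refine hcon r hr ?_
      have htop : (P : Subgroup N) = ⊤ := Subgroup.map_injective N.subtype_injective
        (hMN.trans (by rw [← MonoidHom.range_eq_map, Subgroup.range_subtype]))
      exact (IsPGroup.of_equiv (htop ▸ P.2) Subgroup.topEquiv)
    obtain ⟨e⟩ := (Group.isNilpotent_of_finite_tfae (G := N)).out 0 4 |>.mp hnil
    refine ⟨⟨fun x y => ?_⟩⟩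
    obtain ⟨a, rfl⟩ := e.surjective x
    obtain ⟨b, rfl⟩ := e.surjective y
    rw [← map_mul, ← map_mul]
    congr 1
    funext r P
    exact (hsyl r (Nat.prime_of_mem_primeFactors r.2) P).is_comm.comm _ _
  haveI := Fact.mk hr
  have huniq : ∀ X Y : Subgroup N, Nat.card X = r → Nat.card Y = r → X = Y := by
    haveI : Nontrivial N := by
      by_contra h
      rw [not_nontrivial_iff_subsingleton] at h
      exact hNna ⟨⟨fun a b => Subsingleton.elim _ _⟩⟩
    haveI := hrN.center_nontrivial
    suffices h : ∀ X : Subgroup N, Nat.card X = r → ∀ z ∈ Subgroup.center N, orderOf z = r →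
        X = Subgroup.zpowers z by
      obtain ⟨c, hc⟩ := (hrN.to_subgroup (Subgroup.center N)).exists_card_eq
      have hc0 : c ≠ 0 := fun e => by
        rw [e, pow_zero] at hc
        exact (Finite.one_lt_card (α := Subgroup.center N)).ne' hc
      obtain ⟨⟨z, hz⟩, hzo⟩ := exists_prime_orderOf_dvd_card' (G := Subgroup.center N) r
        (hc ▸ dvd_pow_self r hc0)
      intro X Y hX hY
      have hzo' : orderOf z = r := (Subgroup.orderOf_coe ⟨z, hz⟩).trans hzo
      rw [h X hX z hz hzo', h Y hY z hz hzo']
    intro X hX z hz hzo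
    haveI : IsCyclic X := isCyclic_of_prime_card hX
    set B : Subgroup N := X ⊔ Subgroup.zpowers z with hB
    have hBc : IsMulCommutative B := by
      rw [hB, Subgroup.sup_eq_closure]
      refine Subgroup.isMulCommutative_closure ?_
      have hZX : ∀ u ∈ Subgroup.zpowers z, ∀ w, w * u = u * w := fun u hu w =>
        Subgroup.mem_center_iff.1 (Subgroup.zpowers_le.2 hz hu) w
      rintro u (hu | hu) w (hw | hw)
      · exact congrArg Subtype.val (mul_comm' (⟨u, hu⟩ : X) ⟨w, hw⟩)
      · exact hZX w hw u
      · exact (hZX u hu w).symm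
      · exact (hZX u hu w).symm
    haveI : IsCyclic B := by
      haveI : IsCyclic (B.map N.subtype) := habcyc _ ⟨⟨fun ⟨a, x, hx, hxa⟩ ⟨b, y, hy, hyb⟩ =>
        Subtype.ext (by
          show a * b = b * a
          rw [← hxa, ← hyb, ← map_mul, ← map_mul]
          exact congrArg N.subtype (congrArg Subtype.val (hBc.is_comm.comm ⟨x, hx⟩ ⟨y, hy⟩)))⟩⟩
      exact (B.equivMapOfInjective N.subtype N.subtype_injective).isCyclic.2 this
    haveI : Fintype B := Fintype.ofFinite B
    refine Subgroup.eq_of_le_of_card_ge ?_ (by rw [Nat.card_zpowers, hzo, hX])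
    intro x hx
    by_contra hxz
    let xB : B := ⟨x, Subgroup.mem_sup_left hx⟩
    have h1 : (insert xB (Finset.univ.filter fun y : B => (y : N) ∈ Subgroup.zpowers z)).card =
        r + 1 := by
      rw [Finset.card_insert_of_notMem (by simp [xB, hxz]), ← Fintype.card_subtype,
        ← Nat.card_eq_fintype_card]
      congr 1
      rw [show Nat.card {y : B // (y : N) ∈ Subgroup.zpowers z} =
          Nat.card ((Subgroup.zpowers z).subgroupOf B) from rfl,
        Nat.card_congr (Subgroup.subgroupOfEquivOfLe le_sup_right).toEquiv, Nat.card_zpowers, hzo]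
    have hsub : insert xB (Finset.univ.filter fun y : B => (y : N) ∈ Subgroup.zpowers z) ⊆
        Finset.univ.filter fun y : B => y ^ r = 1 := by
      intro y hy
      rw [Finset.mem_filter]
      refine ⟨Finset.mem_univ _, Subtype.ext ?_⟩
      rw [SubmonoidClass.coe_pow, OneMemClass.coe_one]
      rcases Finset.mem_insert.1 hy with rfl | hy'
      · exact orderOf_dvd_iff_pow_eq_one.mp (hX ▸ Subgroup.orderOf_dvd_natCard X hx)
      · exact orderOf_dvd_iff_pow_eq_one.mp
          (hzo ▸ (Nat.card_zpowers z ▸ Subgroup.orderOf_dvd_natCard _ (Finset.mem_filter.1 hy').2))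
    have := (Finset.card_le_card hsub).trans (IsCyclic.card_pow_eq_one_le (α := B) hr.pos)
    omega
  obtain ⟨e⟩ : Nonempty (N ≃* QuaternionGroup 2) := by
    rcases Cfsg.Agent.S0016.result r hrN huniq with hc | ⟨-, m, ⟨e⟩⟩
    · exact absurd (IsCyclic.commutative (α := N)) hNna
    · rcases Nat.lt_or_ge m 2 with hm | hm
      · interval_cases m
        · exfalso
          exact hNna ⟨⟨fun x y => e.injective (by
            rw [map_mul, map_mul]
            exact (by decide +kernel : ∀ a b : QuaternionGroup (2 ^ 0), a * b = b * a) _ _)⟩⟩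
        · exact ⟨e⟩
      · exfalso
        have h := hcen (e.symm (QuaternionGroup.a 1)) (e.symm (QuaternionGroup.xa 0))
        have h' := congrArg e (Subgroup.mem_center_iff.mp h (e.symm (QuaternionGroup.xa 0)))
        have hc2 : ⁅QuaternionGroup.a (1 : ZMod (2 * 2 ^ m)), QuaternionGroup.xa (0 : ZMod (2 * 2 ^ m))⁆ =
            QuaternionGroup.a 2 := by
          rw [commutatorElement_def, mul_inv_eq_iff_eq_mul, mul_inv_eq_iff_eq_mul,
            QuaternionGroup.a_mul_xa, QuaternionGroup.a_mul_xa, QuaternionGroup.xa_mul_a]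
          congr 1
          ring
        simp only [map_mul, map_commutatorElement, MulEquiv.apply_symm_apply, hc2,
          QuaternionGroup.a_mul_xa, QuaternionGroup.xa_mul_a] at h'
        have h4 : ((4 : ℕ) : ZMod (2 * 2 ^ m)) = 0 := by
          have := QuaternionGroup.xa.inj h'
          push_cast
          linear_combination this
        rw [ZMod.natCast_eq_zero_iff] at h4
        have := Nat.le_of_dvd (by norm_num) h4
        have : 2 ^ 2 ≤ 2 ^ m := Nat.pow_le_pow_right (by norm_num) hm
        omega
  -- the automorphisms induced on `N`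
  have haC : A.relIndex C ∣ 24 := by
    let ρ : C →* MulAut (QuaternionGroup 2) :=
      ((MulAut.congr e).toMonoidHom.comp (MulAut.conjNormal (H := N))).comp C.subtype
    have hρ : ρ.ker = A.subgroupOf C := by
      ext c
      rw [MonoidHom.mem_ker, Subgroup.mem_subgroupOf, ← hCN, Subgroup.mem_centralizer_iff]
      constructor
      · intro h n hn
        have h' : MulAut.conjNormal (H := N) (c : H) = 1 :=
          (MulAut.congr e).injective (h.trans (map_one _).symm)
        have := congrArg Subtype.val (DFunLike.congr_fun h' (⟨n, hn⟩ : N))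
        rw [MulAut.conjNormal_apply, MulAut.one_apply, mul_inv_eq_iff_eq_mul] at this
        exact this.symm
      · intro h
        have h' : MulAut.conjNormal (H := N) (c : H) = 1 := by
          refine MulEquiv.ext fun n => Subtype.ext ?_
          rw [MulAut.conjNormal_apply, MulAut.one_apply, ← h n n.2, mul_inv_cancel_right]
        show (MulAut.congr e) _ = 1
        rw [show (MulAut.conjNormal (H := N)) (C.subtype c) = 1 from h', map_one]
    rw [Subgroup.relIndex, ← hρ, Subgroup.index_ker, ← card_mulAut_q8]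
    exact Subgroup.card_subgroup_dvd_card _
  -- the order of the group
  obtain ⟨n, hn⟩ : ∃ n, n = Module.finrank (ZMod p) V := ⟨_, rfl⟩
  have hV : Nat.card V = p ^ n := by
    rw [hn, Module.natCard_eq_pow_finrank (K := ZMod p) (V := V), Nat.card_zmod]
  have hH : Nat.card H = p ^ n - 1 := by rw [card_eq_pred H hreg, hV]
  have hd : p ^ n - 1 ∣ (p ^ k - 1) * (24 * k) := by
    rw [← hH, ← Subgroup.card_mul_index A, ← Subgroup.relIndex_mul_index hAC]
    exact mul_dvd_mul hAk (mul_dvd_mul haC hCk)
  have hN8 : Nat.card N = 8 := by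
    rw [Nat.card_congr e.toEquiv, Nat.card_eq_fintype_card, QuaternionGroup.card]
  have h8 : 8 ∣ p ^ n - 1 := by rw [← hH, ← hN8]; exact Subgroup.card_subgroup_dvd_card N
  rw [hV]
  rcases arith (Fact.out : p.Prime) hk1 (hn ▸ hkn) h8 hd with h | h | h | h | h
  · exact Or.inl h
  · exact Or.inr (Or.inl h)
  · exact Or.inr (Or.inr (Or.inl h))
  · exact Or.inr (Or.inr (Or.inr h))
  · exfalso
    have hNtop : N = ⊤ := Subgroup.eq_top_of_card_eq N (by rw [hN8, hH, h])
    set g : H := ((e.symm (QuaternionGroup.a 1) : N) : H) with hg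
    have hgo : orderOf g = 4 := by
      rw [hg, Subgroup.orderOf_coe, MulEquiv.orderOf_eq, QuaternionGroup.orderOf_a_one]
    haveI hgn : (Subgroup.zpowers g).Normal := Subgroup.normal_of_index_eq_two (by
      have h2 := Subgroup.card_mul_index (Subgroup.zpowers g)
      rw [Nat.card_zpowers, hgo, hH, h] at h2
      omega)
    have hB : IsMulCommutative (Subgroup.zpowers g ⊔ A : Subgroup H) := by
      rw [Subgroup.sup_eq_closure]
      refine Subgroup.isMulCommutative_closure ?_
      have hA' : ∀ a ∈ A, ∀ w : H, w * a = a * w := fun a ha w =>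
        Subgroup.mem_centralizer_iff.mp (hAN ha) w (hNtop ▸ Subgroup.mem_top w)
      rintro u (hu | hu) w (hw | hw)
      · exact congrArg Subtype.val (mul_comm' (⟨u, hu⟩ : Subgroup.zpowers g) ⟨w, hw⟩)
      · exact hA' w hw u
      · exact (hA' u hu w).symm
      · exact (hA' u hu w).symm
    have hgA : g ∈ A :=
      (hAmax _ inferInstance hB le_sup_right).le (Subgroup.mem_sup_left (Subgroup.mem_zpowers g))
    have h1 := Subgroup.mem_centralizer_iff.mp (hAN hgA) _ (e.symm (QuaternionGroup.xa 0)).2
    have h2 : e.symm (QuaternionGroup.xa 0 * QuaternionGroup.a 1) =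
        e.symm (QuaternionGroup.a 1 * QuaternionGroup.xa 0) := by
      rw [map_mul, map_mul]; exact Subtype.ext h1
    exact absurd (e.symm.injective h2) (by decide +kernel)

end CfsgLib.TypeTwo
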