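import Mathlib.GroupTheory.GroupAction.MultipleTransitivity
import Mathlib.GroupTheory.GroupAction.FixingSubgroup
import Mathlib.Tactic.Group

/-!
# Witt's lemma on transitive extensions
-/

set_option autoImplicit false
set_option linter.unusedSectionVars false
set_option linter.style.haveILetI false

namespace CfsgLib.Witt

open MulAction

universe u

variable {α : Type u}

/-- A subgroup and one more element that together form a union of two double cosets. -/
theorem closure_double_coset (A : Subgroup (Equiv.Perm α)) (s : Equiv.Perm α)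
    (hs2 : s * s ∈ A)
    (hses : ∀ e ∈ A, s * e * s ∈ A ∨ ∃ a ∈ A, ∃ b ∈ A, s * e * s = a * s * b) :
    ∀ g ∈ Subgroup.closure ((A : Set (Equiv.Perm α)) ∪ {s}),
      g ∈ A ∨ ∃ a ∈ A, ∃ b ∈ A, g = a * s * b := by
  intro g hg
  induction hg using Subgroup.closure_induction with
  | mem x hx =>
    rcases hx with hx | hx
    · exact .inl hx
    · exact .inr ⟨1, A.one_mem, 1, A.one_mem, by rw [Set.mem_singleton_iff.mp hx, one_mul, mul_one]⟩
  | one => exact .inl A.one_mem
  | mul x y _ _ hx hy =>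
    rcases hx with hx | ⟨a, ha, b, hb, rfl⟩
    · rcases hy with hy | ⟨c, hc, d, hd, rfl⟩
      · exact .inl (A.mul_mem hx hy)
      · exact .inr ⟨x * c, A.mul_mem hx hc, d, hd, by group⟩
    · rcases hy with hy | ⟨c, hc, d, hd, rfl⟩
      · exact .inr ⟨a, ha, b * y, A.mul_mem hb hy, by group⟩
      · have e : a * s * b * (c * s * d) = a * (s * (b * c) * s) * d := by group
        rw [e]
        rcases hses _ (A.mul_mem hb hc) with h | ⟨a', ha', b', hb', h⟩
        · exact .inl (A.mul_mem (A.mul_mem ha h) hd)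
        · exact .inr ⟨a * a', A.mul_mem ha ha', b' * d, A.mul_mem hb' hd, by rw [h]; group⟩
  | inv x _ hx =>
    rcases hx with hx | ⟨a, ha, b, hb, rfl⟩
    · exact .inl (A.inv_mem hx)
    · exact .inr ⟨b⁻¹, A.inv_mem hb, (s * s)⁻¹ * a⁻¹, A.mul_mem (A.inv_mem hs2) (A.inv_mem ha), by
        group⟩

/-- The chain of groups generated by the extension. -/
def chain (G : Subgroup (Equiv.Perm α)) (s : ℕ → Equiv.Perm α) (m : ℕ) : Subgroup (Equiv.Perm α) :=
  Subgroup.closure ((G : Set (Equiv.Perm α)) ∪ {x | ∃ i : ℕ, 2 ≤ i ∧ i + 1 ≤ m ∧ x = s i})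

theorem witt (t : ℕ) (ht : 2 ≤ t) (q : ℕ → α)
    (hq : ∀ i j : ℕ, 1 ≤ i → i ≤ t → 1 ≤ j → j ≤ t → q i = q j → i = j)
    (G : Subgroup (Equiv.Perm α)) (hfix : ∀ g ∈ G, ∀ i : ℕ, 3 ≤ i → i ≤ t → g (q i) = q i)
    (h2 : ∀ a b c d : α, (∀ i, 3 ≤ i → i ≤ t → a ≠ q i ∧ b ≠ q i ∧ c ≠ q i ∧ d ≠ q i) →
      a ≠ b → c ≠ d → ∃ g ∈ G, g a = c ∧ g b = d)
    (s : ℕ → Equiv.Perm α) (hs1 : s 1 ∈ G) (hs1q : s 1 (q 1) = q 2 ∧ s 1 (q 2) = q 1)
    (hsq : ∀ i : ℕ, 2 ≤ i → i + 1 ≤ t → s i (q i) = q (i + 1) ∧ s i (q (i + 1)) = q i ∧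
      ∀ j : ℕ, 1 ≤ j → j ≤ t → j ≠ i → j ≠ i + 1 → s i (q j) = q j)
    (H : Subgroup (Equiv.Perm α))
    (hH : H = G ⊓ stabilizer (Equiv.Perm α) (q 1) ⊓ stabilizer (Equiv.Perm α) (q 2))
    (hsq2 : ∀ i : ℕ, 1 ≤ i → i + 1 ≤ t → s i ^ 2 ∈ H)
    (hbraid : ∀ i : ℕ, 1 ≤ i → i + 2 ≤ t → (s i * s (i + 1)) ^ 3 ∈ H)
    (hcomm : ∀ i j : ℕ, 1 ≤ i → i + 2 ≤ j → j + 1 ≤ t →
      (s i * s j) ^ 2 ∈ H ∧ (s j * s i) ^ 2 ∈ H)
    (hnorm : ∀ i : ℕ, 2 ≤ i → i + 1 ≤ t → ∀ g ∈ G ⊓ stabilizer (Equiv.Perm α) (q 2),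
      s i * g * (s i)⁻¹ ∈ G ⊓ stabilizer (Equiv.Perm α) (q 2)) :
    IsMultiplyPretransitive ↥(chain G s t) α t ∧
      chain G s t ⊓ fixingSubgroup (Equiv.Perm α) {x | ∃ i : ℕ, 1 ≤ i ∧ i ≤ t ∧ x = q i} = H := by
  have hGle : ∀ m, G ≤ chain G s m := fun m x hx => Subgroup.subset_closure (.inl hx)
  have hHG : H ≤ G := hH ▸ inf_le_left.trans inf_le_left
  have hmono : ∀ {m m' : ℕ}, m ≤ m' → chain G s m ≤ chain G s m' := fun h =>
    Subgroup.closure_mono (Set.union_subset_union_right _ fun x ⟨i, h1, h2', h3⟩ =>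
      ⟨i, h1, le_trans h2' h, h3⟩)
  have hsmem : ∀ i m, 1 ≤ i → i + 1 ≤ m → s i ∈ chain G s m := fun i m h1 h2' => by
    rcases (show i = 1 ∨ 2 ≤ i by omega) with rfl | h
    · exact hGle m hs1
    · exact Subgroup.subset_closure (.inr ⟨i, h, h2', rfl⟩)
  have hbase : chain G s 2 = G := by
    refine le_antisymm ?_ (hGle 2)
    rw [chain, Subgroup.closure_le]
    rintro x (hx | ⟨i, h1, h2', -⟩)
    · exact hx
    · omega
  let In : ℕ → α → Prop := fun m x => ∀ i, m < i → i ≤ t → x ≠ q i
  have hqIn : ∀ m i, 1 ≤ i → i ≤ m → i ≤ t → In m (q i) := fun m i h1 h2' h3 j hj hjt e => by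
    have := hq i j h1 h3 (by omega) hjt e
    omega
  -- the properties of one step of the chain
  let P : ℕ → Prop := fun m =>
    (∀ g ∈ chain G s m, ∀ i, m < i → i ≤ t → g (q i) = q i) ∧
    (∀ x y, In m x → In m y → ∃ g ∈ chain G s m, g x = y) ∧
    (∀ g ∈ chain G s m, g (q m) = q m ∨ ∃ x ∈ chain G s m, ∃ y ∈ chain G s m,
      x (q m) = q m ∧ y (q m) = q m ∧ g = x * s (m - 1) * y) ∧
    (3 ≤ m → ∀ g ∈ chain G s m, g (q m) = q m → g ∈ chain G s (m - 1))
  have hq12 : q 1 ≠ q 2 := fun e => by have := hq 1 2 le_rfl (by omega) (by omega) ht e; omega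
  have hP2 : P 2 := by
    refine ⟨fun g hg i hi hit => hfix g (hbase ▸ hg) i hi hit, fun x y hx hy => ?_, fun g hg => ?_,
      fun h => by omega⟩
    · obtain ⟨x', hx', hxx⟩ : ∃ x', In 2 x' ∧ x ≠ x' := by
        rcases eq_or_ne x (q 1) with rfl | h
        · exact ⟨q 2, hqIn 2 2 (by omega) le_rfl ht, hq12⟩
        · exact ⟨q 1, hqIn 2 1 le_rfl (by omega) (by omega), h⟩
      obtain ⟨y', hy', hyy⟩ : ∃ y', In 2 y' ∧ y ≠ y' := by
        rcases eq_or_ne y (q 1) with rfl | h
        · exact ⟨q 2, hqIn 2 2 (by omega) le_rfl ht, hq12⟩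
        · exact ⟨q 1, hqIn 2 1 le_rfl (by omega) (by omega), h⟩
      obtain ⟨g, hg, hgx, -⟩ := h2 x x' y y' (fun i hi hit =>
        ⟨hx i hi hit, hx' i hi hit, hy i hi hit, hy' i hi hit⟩) hxx hyy
      exact ⟨g, hbase.symm ▸ hg, hgx⟩
    · rw [hbase] at hg ⊢
      by_cases hgq : g (q 2) = q 2
      · exact .inl hgq
      right
      have hx : In 2 (g (q 2)) := fun i hi hit e => hqIn 2 2 (by omega) le_rfl ht i hi hit
        (g.injective (e.trans (hfix g hg i hi hit).symm))
      obtain ⟨b, hb, hb2, hb1⟩ := h2 (q 2) (q 1) (q 2) (g (q 2)) (fun i hi hit =>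
        ⟨hqIn 2 2 (by omega) le_rfl ht i hi hit, hqIn 2 1 le_rfl (by omega) (by omega) i hi hit,
          hqIn 2 2 (by omega) le_rfl ht i hi hit, hx i hi hit⟩) hq12.symm (Ne.symm hgq)
      refine ⟨b, hb, (b * s 1)⁻¹ * g, G.mul_mem (G.inv_mem (G.mul_mem hb hs1)) hg, hb2, ?_,
        by show g = b * s 1 * ((b * s 1)⁻¹ * g); group⟩
      rw [Equiv.Perm.mul_apply, Equiv.Perm.inv_eq_iff_eq, Equiv.Perm.mul_apply, hs1q.2, hb1]
  have hHmem : ∀ {m : ℕ}, ∀ h ∈ H, h ∈ chain G s m := fun {m} h hh => hGle m (hHG hh)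
  -- later generators normalise earlier groups
  have hnormal : ∀ j, 2 ≤ j → (∀ k, 2 ≤ k → k ≤ j → P k) → ∀ i, j < i → i + 1 ≤ t →
      ∀ g ∈ chain G s j, s i * g * (s i)⁻¹ ∈ chain G s j := by
    intro j hj2
    induction j, hj2 using Nat.le_induction with
    | base =>
      intro hP i hi hit g hg
      have hs' : s i * s 1 * (s i)⁻¹ ∈ chain G s 2 := by
        have h := (hcomm 1 i le_rfl (by omega) hit).1
        have e : s i * s 1 * (s i)⁻¹ = (s 1)⁻¹ * (s 1 * s i) ^ 2 * (s i ^ 2)⁻¹ := by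
          simp only [sq]; group
        rw [e]
        exact mul_mem (mul_mem (inv_mem (hGle 2 hs1)) (hHmem _ h)) (inv_mem (hHmem _ (hsq2 i (by omega) hit)))
      have hB : ∀ x ∈ chain G s 2, x (q 2) = q 2 → s i * x * (s i)⁻¹ ∈ chain G s 2 := fun x hx hxq =>
        hGle 2 (hnorm i (by omega) hit x ⟨hbase ▸ hx, hxq⟩).1
      rcases (hP 2 le_rfl le_rfl).2.2.1 g hg with h | ⟨x, hx, y, hy, hxq, hyq, rfl⟩
      · exact hB g hg h
      · have e : s i * (x * s (2 - 1) * y) * (s i)⁻¹ =
            (s i * x * (s i)⁻¹) * (s i * s 1 * (s i)⁻¹) * (s i * y * (s i)⁻¹) := by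
          show s i * (x * s 1 * y) * (s i)⁻¹ = _
          group
        rw [e]
        exact mul_mem (mul_mem (hB x hx hxq) hs') (hB y hy hyq)
    | succ j hj ih =>
      intro hP i hi hit g hg
      have hlow : ∀ x ∈ chain G s (j + 1), x (q (j + 1)) = q (j + 1) →
          s i * x * (s i)⁻¹ ∈ chain G s (j + 1) := fun x hx hxq =>
        hmono (Nat.le_succ j) (ih (fun k h1 h2' => hP k h1 (by omega)) i (by omega) hit x
          ((hP (j + 1) (by omega) le_rfl).2.2.2 (by omega) x hx hxq))
      have hs' : s i * s j * (s i)⁻¹ ∈ chain G s (j + 1) := by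
        have h := (hcomm j i (by omega) (by omega) hit).1
        have e : s i * s j * (s i)⁻¹ = (s j)⁻¹ * (s j * s i) ^ 2 * (s i ^ 2)⁻¹ := by
          simp only [sq]; group
        rw [e]
        exact mul_mem (mul_mem (inv_mem (hsmem j (j + 1) (by omega) le_rfl)) (hHmem _ h))
          (inv_mem (hHmem _ (hsq2 i (by omega) hit)))
      rcases (hP (j + 1) (by omega) le_rfl).2.2.1 g hg with h | ⟨x, hx, y, hy, hxq, hyq, rfl⟩
      · exact hlow g hg h
      · rw [Nat.add_sub_cancel]
        have e : s i * (x * s j * y) * (s i)⁻¹ =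
            (s i * x * (s i)⁻¹) * (s i * s j * (s i)⁻¹) * (s i * y * (s i)⁻¹) := by group
        rw [e]
        exact mul_mem (mul_mem (hlow x hx hxq) hs') (hlow y hy hyq)
  have hall : ∀ n m, m = n + 2 → m ≤ t → P m := by
    intro n
    induction n using Nat.strong_induction_on with
    | _ n ih =>
      intro m hm hmt
      rcases n with _ | n
      · subst hm; exact hP2
      obtain rfl : m = (n + 2) + 1 := by omega
      set k := n + 2
      have hPk : P k := ih n (by omega) k rfl (by omega)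
      have hPlow : ∀ j, 2 ≤ j → j ≤ k → P j := fun j h1 h2' => ih (j - 2) (by omega) j (by omega) (by omega)
      obtain ⟨hfk, htrk, hdk, hstk⟩ := hPk
      obtain ⟨hsk, hsk1, hskj⟩ := hsq k (by omega) hmt
      have hs2 : s k * s k ∈ chain G s k := hHmem _ (by rw [← sq]; exact hsq2 k (by omega) hmt)
      have hB : ∀ x ∈ chain G s k, x (q k) = q k → s k * x * (s k)⁻¹ ∈ chain G s k := by
        intro x hx hxq
        rcases (show k = 2 ∨ 3 ≤ k by omega) with hk | hk
        · rw [hk] at hx hxq hmt ⊢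
          exact hGle 2 (hnorm 2 le_rfl hmt x ⟨hbase ▸ hx, hxq⟩).1
        · exact hmono (Nat.sub_le k 1) (hnormal (k - 1) (by omega)
            (fun j h1 h2' => hPlow j h1 (by omega)) k (by omega) hmt x (hstk hk x hx hxq))
      have hBs : ∀ x ∈ chain G s k, x (q k) = q k → (s k)⁻¹ * x * s k ∈ chain G s k := by
        intro x hx hxq
        have e : (s k)⁻¹ * x * s k = (s k * s k)⁻¹ * (s k * x * (s k)⁻¹) * (s k * s k) := by group
        rw [e]
        exact mul_mem (mul_mem (inv_mem hs2) (hB x hx hxq)) hs2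
      have hses : ∀ e ∈ chain G s k, s k * e * s k ∈ chain G s k ∨
          ∃ a ∈ chain G s k, ∃ b ∈ chain G s k, s k * e * s k = a * s k * b := by
        intro e he
        rcases hdk e he with h | ⟨x, hx, y, hy, hxq, hyq, rfl⟩
        · left
          rw [show s k * e * s k = (s k * e * (s k)⁻¹) * (s k * s k) by group]
          exact mul_mem (hB e he h) hs2
        · right
          set s' := s (k - 1)
          have hs' : s' ∈ chain G s k := hsmem _ _ (by omega) (by omega)
          have hb := hbraid (k - 1) (by omega) (by omega)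
          rw [show k - 1 + 1 = k by omega] at hb
          refine ⟨(s k * x * (s k)⁻¹) * s'⁻¹ * (s' * s k) ^ 3 * (s k * s k)⁻¹, ?_,
            s'⁻¹ * ((s k)⁻¹ * y * s k), mul_mem (inv_mem hs') (hBs y hy hyq), ?_⟩
          · exact mul_mem (mul_mem (mul_mem (hB x hx hxq) (inv_mem hs')) (hHmem _ hb)) (inv_mem hs2)
          · simp only [pow_succ, pow_zero, one_mul]
            group
      have hdec : ∀ g ∈ chain G s (k + 1), g ∈ chain G s k ∨
          ∃ a ∈ chain G s k, ∃ b ∈ chain G s k, g = a * s k * b := by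
        intro g hg
        refine closure_double_coset (chain G s k) (s k) hs2 hses g ?_
        refine Subgroup.closure_le _ |>.mpr ?_ hg
        rintro x (hx | ⟨i, h1, h2', rfl⟩)
        · exact Subgroup.subset_closure (.inl (hGle k hx))
        · rcases (show i + 1 ≤ k ∨ i = k by omega) with h | rfl
          · exact Subgroup.subset_closure (.inl (hsmem i k (by omega) h))
          · exact Subgroup.subset_closure (.inr rfl)
      have hk_qIn : In k (q k) := hqIn k k (by omega) le_rfl (by omega)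
      have hmove : ∀ a ∈ chain G s k, ∀ b ∈ chain G s k,
          (a * s k * b) (q (k + 1)) ≠ q (k + 1) := by
        intro a ha b hb e
        rw [Equiv.Perm.mul_apply, Equiv.Perm.mul_apply, hfk b hb (k + 1) (by omega) hmt, hsk1] at e
        exact hk_qIn (k + 1) (by omega) hmt
          (a.injective (e.trans (hfk a ha (k + 1) (by omega) hmt).symm))
      refine ⟨fun g hg i hi hit => ?_, fun x y hx hy => ?_, fun g hg => ?_, fun _ g hg hgq => ?_⟩
      · rcases hdec g hg with h | ⟨a, ha, b, hb, rfl⟩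
        · exact hfk g h i (by omega) hit
        · rw [Equiv.Perm.mul_apply, Equiv.Perm.mul_apply, hfk b hb i (by omega) hit,
            hskj i (by omega) hit (by omega) (by omega), hfk a ha i (by omega) hit]
      · have hto : ∀ z, In (k + 1) z → ∃ g ∈ chain G s (k + 1), g (q (k + 1)) = z := by
          intro z hz
          rcases eq_or_ne z (q (k + 1)) with rfl | hne
          · exact ⟨1, one_mem _, rfl⟩
          obtain ⟨a, ha, hak⟩ := htrk (q k) z hk_qIn fun i hi hit => by
            rcases (show i = k + 1 ∨ k + 1 < i by omega) with rfl | h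
            · exact hne
            · exact hz i h hit
          exact ⟨a * s k, mul_mem (hmono (Nat.le_succ k) ha) (hsmem k (k + 1) (by omega) le_rfl),
            by rw [Equiv.Perm.mul_apply, hsk1, hak]⟩
        obtain ⟨g, hg, hgx⟩ := hto x hx
        obtain ⟨g', hg', hgy⟩ := hto y hy
        exact ⟨g' * g⁻¹, mul_mem hg' (inv_mem hg),
          by rw [Equiv.Perm.mul_apply, Equiv.Perm.inv_eq_iff_eq.mpr hgx.symm, hgy]⟩
      · rcases hdec g hg with h | ⟨a, ha, b, hb, rfl⟩
        · exact .inl (hfk g h _ (by omega) hmt)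
        · right
          rw [Nat.add_sub_cancel]
          exact ⟨a, hmono (Nat.le_succ k) ha, b, hmono (Nat.le_succ k) hb,
            hfk a ha _ (by omega) hmt, hfk b hb _ (by omega) hmt, rfl⟩
      · rw [Nat.add_sub_cancel]
        rcases hdec g hg with h | ⟨a, ha, b, hb, rfl⟩
        · exact h
        · exact absurd hgq (hmove a ha b hb)
  have hPall : ∀ m, 2 ≤ m → m ≤ t → P m := fun m h1 h2' => hall (m - 2) m (by omega) h2'
  refine ⟨?_, ?_⟩
  · -- every tuple can be moved to the standard one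
    have hto : ∀ u : Fin t ↪ α, ∃ g ∈ chain G s t, ∀ i : Fin t, g (u i) = q (i.val + 1) := by
      intro u
      have main : ∀ n, n + 1 ≤ t → ∃ g ∈ chain G s t, ∀ i : Fin t, t - n ≤ i.val + 0 →
          g (u i) = q (i.val + 1) := by
        intro n
        induction n with
        | zero => exact fun _ => ⟨1, one_mem _, fun i hi => absurd hi (by omega)⟩
        | succ n ih =>
          intro hn
          obtain ⟨g, hg, hgi⟩ := ih (by omega)
          set m := t - n with hm
          let i₀ : Fin t := ⟨m - 1, by omega⟩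
          have hin : In m (g (u i₀)) := by
            intro i hi hit e
            have hi' := hgi ⟨i - 1, by omega⟩ (by simp only; omega)
            simp only [show i - 1 + 1 = i by omega] at hi'
            have := congrArg Fin.val (u.injective (g.injective (e.trans hi'.symm)))
            simp only [i₀] at this
            omega
          obtain ⟨a, ha, hai⟩ := (hPall m (by omega) (by omega)).2.1 _ (q m) hin
            (hqIn m m (by omega) le_rfl (by omega))
          refine ⟨a * g, mul_mem (hmono (by omega) ha) hg, fun i hi => ?_⟩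
          rcases (show i.val + 1 = m ∨ m ≤ i.val by omega) with h | h
          · rw [show i = i₀ from Fin.ext (by simp only [i₀]; omega), Equiv.Perm.mul_apply, hai]
            simp only [i₀]
            congr 1; omega
          · rw [Equiv.Perm.mul_apply, hgi i (by omega)]
            exact (hPall m (by omega) (by omega)).1 a ha _ (by omega) (by omega)
      obtain ⟨g, hg, hgi⟩ := main (t - 1) (by omega)
      let i₀ : Fin t := ⟨0, by omega⟩
      have hin : In 2 (g (u i₀)) ∧ g (u i₀) ≠ q 2 := by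
        have key : ∀ i, 2 ≤ i → i ≤ t → g (u i₀) ≠ q i := by
          intro i hi hit e
          have hi' := hgi ⟨i - 1, by omega⟩ (by simp only; omega)
          simp only [show i - 1 + 1 = i by omega] at hi'
          have := congrArg Fin.val (u.injective (g.injective (e.trans hi'.symm)))
          simp only [i₀] at this
          omega
        exact ⟨fun i hi hit => key i (by omega) hit, key 2 le_rfl ht⟩
      obtain ⟨a, ha, ha2, ha1⟩ := h2 (q 2) (g (u i₀)) (q 2) (q 1) (fun i hi hit =>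
        ⟨hqIn 2 2 (by omega) le_rfl ht i hi hit, hin.1 i hi hit, hqIn 2 2 (by omega) le_rfl ht i hi hit,
          hqIn 2 1 le_rfl (by omega) (by omega) i hi hit⟩) hin.2.symm hq12.symm
      refine ⟨a * g, mul_mem (hGle t ha) hg, fun i => ?_⟩
      rw [Equiv.Perm.mul_apply]
      rcases (show i.val = 0 ∨ 1 ≤ i.val by omega) with h | h
      · rw [show i = i₀ from Fin.ext h, ha1]
      · rw [hgi i (by omega)]
        rcases (show i.val = 1 ∨ 2 ≤ i.val by omega) with h' | h'
        · rw [h']; exact ha2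
        · exact hfix a ha _ (by omega) (by omega)
    rw [IsMultiplyPretransitive, isPretransitive_iff]
    intro u v
    obtain ⟨g, hg, hgi⟩ := hto u
    obtain ⟨g', hg', hgi'⟩ := hto v
    refine ⟨⟨g'⁻¹ * g, mul_mem (inv_mem hg') hg⟩, DFunLike.ext _ _ fun i => ?_⟩
    show (g'⁻¹ * g) (u i) = v i
    rw [Equiv.Perm.mul_apply, hgi i, Equiv.Perm.inv_eq_iff_eq]
    exact (hgi' i).symm
  · refine le_antisymm ?_ ?_
    · rintro g ⟨hg, hgf⟩
      have hgq : ∀ i, 1 ≤ i → i ≤ t → g (q i) = q i := fun i h1 h2' =>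
        (mem_fixingSubgroup_iff _).mp hgf _ ⟨i, h1, h2', rfl⟩
      have hdown : ∀ n, n + 2 ≤ t → g ∈ chain G s (t - n) := by
        intro n
        induction n with
        | zero => exact fun _ => hg
        | succ n ih =>
          intro hn
          have := (hPall (t - n) (by omega) (by omega)).2.2.2 (by omega) g (ih (by omega))
            (hgq _ (by omega) (by omega))
          rwa [show t - n - 1 = t - (n + 1) by omega] at this
      have h := hdown (t - 2) (by omega)
      rw [show t - (t - 2) = 2 by omega, hbase] at h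
      rw [hH]
      exact ⟨⟨h, hgq 1 le_rfl (by omega)⟩, hgq 2 (by omega) ht⟩
    · intro g hg
      refine ⟨hGle t (hHG hg), (mem_fixingSubgroup_iff _).mpr ?_⟩
      rintro x ⟨i, h1, h2', rfl⟩
      rw [hH] at hg
      rcases (show i = 1 ∨ i = 2 ∨ 3 ≤ i by omega) with rfl | rfl | h
      · exact hg.1.2
      · exact hg.2
      · exact hfix g hg.1.1 i h h2'

end CfsgLib.Witt
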