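import Cfsg.Prelude.Def_OddOrderLocal
import Cfsg.Agent.Lib.ZStarTwoGroup
import Cfsg.Agent.Lib.CoreBasic

/-!
# The Puig series relative to an ambient group
-/

set_option autoImplicit false

universe u v

namespace CfsgLib.Puig

variable {G : Type u} [Group G]

/-- One Puig step inside `D`. -/
def pstep (D X : Subgroup G) : Subgroup G :=
  sSup {A : Subgroup G | A ≤ D ∧ IsMulCommutative A ∧ X ≤ Subgroup.normalizer (A : Set G)}

/-- The Puig series of `D` inside the ambient group. -/
def pseq (D : Subgroup G) : ℕ → Subgroup G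
  | 0 => ⊥
  | n + 1 => pstep D (pseq D n)

/-- The Puig subgroup of `D` inside the ambient group. -/
def PL (D : Subgroup G) : Subgroup G := ⨅ n : ℕ, pseq D (2 * n + 1)

/-- The lower Puig subgroup of `D` inside the ambient group. -/
def PLs (D : Subgroup G) : Subgroup G := ⨆ n : ℕ, pseq D (2 * n)

theorem le_pstep {D X A : Subgroup G} (h1 : A ≤ D) (h2 : IsMulCommutative A)
    (h3 : X ≤ Subgroup.normalizer (A : Set G)) : A ≤ pstep D X :=
  le_sSup ⟨h1, h2, h3⟩

theorem pstep_le (D X : Subgroup G) : pstep D X ≤ D := sSup_le fun _ hA => hA.1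

theorem anti {D : Subgroup G} {X Y : Subgroup G} (h : X ≤ Y) : pstep D Y ≤ pstep D X :=
  sSup_le_sSup fun _ hA => ⟨hA.1, hA.2.1, h.trans hA.2.2⟩

theorem pseq_le (D : Subgroup G) : ∀ n, pseq D n ≤ D
  | 0 => bot_le
  | _ + 1 => pstep_le D _

theorem pseq_one (D : Subgroup G) : pseq D 1 = D :=
  le_antisymm (pstep_le D _) fun g hg =>
    le_pstep (Subgroup.zpowers_le.2 hg) inferInstance bot_le (Subgroup.mem_zpowers g)

theorem even_mono (D : Subgroup G) : Monotone fun n => pseq D (2 * n) :=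
  monotone_nat_of_le_succ fun n => by
    induction n with
    | zero => exact bot_le
    | succ n ih => exact anti (anti ih)

theorem odd_anti (D : Subgroup G) : Antitone fun n => pseq D (2 * n + 1) :=
  antitone_nat_of_succ_le fun n => anti (even_mono D (Nat.le_succ n))

theorem even_le_odd_same (D : Subgroup G) : ∀ n, pseq D (2 * n) ≤ pseq D (2 * n + 1)
  | 0 => bot_le
  | n + 1 => anti (anti (even_le_odd_same D n))

theorem even_le_odd (D : Subgroup G) (n m : ℕ) : pseq D (2 * n) ≤ pseq D (2 * m + 1) :=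
  (even_mono D (le_max_left n m)).trans
    ((even_le_odd_same D _).trans (odd_anti D (le_max_right n m)))

theorem PLs_le_PL (D : Subgroup G) : PLs D ≤ PL D :=
  iSup_le fun n => le_iInf fun m => even_le_odd D n m

theorem PL_le (D : Subgroup G) : PL D ≤ D :=
  (iInf_le (fun n => pseq D (2 * n + 1)) 0).trans (pseq_le D 1)

theorem exists_stable [Finite G] (D : Subgroup G) : ∃ k, ∀ n, k ≤ n →
    pseq D (2 * n) = PLs D ∧ pseq D (2 * n + 1) = PL D := by
  obtain ⟨k, hk⟩ := WellFoundedGT.monotone_chain_condition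
    (⟨_, even_mono D⟩ : ℕ →o Subgroup G)
  have hs : ∀ n, k ≤ n → pseq D (2 * n) = pseq D (2 * k) := fun n hn => (hk n hn).symm
  have hs' : ∀ n, k ≤ n → pseq D (2 * n + 1) = pseq D (2 * k + 1) := fun n hn =>
    congrArg (pstep D) (hs n hn)
  have h1 : PLs D = pseq D (2 * k) := le_antisymm
    (iSup_le fun n => (even_mono D (le_max_left n k)).trans (hs _ (le_max_right n k)).le)
    (le_iSup (fun n => pseq D (2 * n)) k)
  have h2 : PL D = pseq D (2 * k + 1) := le_antisymm
    (iInf_le (fun n => pseq D (2 * n + 1)) k)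
    (le_iInf fun n => (hs' _ (le_max_right n k)).ge.trans (odd_anti D (le_max_left n k)))
  exact ⟨k, fun n hn => ⟨(hs n hn).trans h1.symm, (hs' n hn).trans h2.symm⟩⟩

theorem pstep_PLs [Finite G] (D : Subgroup G) : pstep D (PLs D) = PL D := by
  obtain ⟨k, hk⟩ := exists_stable D
  rw [← (hk k le_rfl).1, ← (hk k le_rfl).2]
  rfl

section Map

variable {G' : Type v} [Group G'] {f : G →* G'}

theorem map_pstep {D X : Subgroup G} (hf : Set.InjOn f (D : Set G)) (hX : X ≤ D) :
    (pstep D X).map f = pstep (D.map f) (X.map f) := by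
  apply le_antisymm
  · rw [Subgroup.map_le_iff_le_comap]
    refine sSup_le fun A hA => ?_
    rw [← Subgroup.map_le_iff_le_comap]
    refine le_pstep (Subgroup.map_mono hA.1) ⟨⟨?_⟩⟩ ?_
    · rintro ⟨_, a, ha, rfl⟩ ⟨_, b, hb, rfl⟩
      refine Subtype.ext ?_
      show f a * f b = f b * f a
      have e : a * b = b * a := congrArg Subtype.val (hA.2.1.is_comm.comm ⟨a, ha⟩ ⟨b, hb⟩)
      rw [← map_mul, ← map_mul, e]
    · exact (Subgroup.map_mono hA.2.2).trans (Subgroup.le_normalizer_map f)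
  · refine sSup_le fun A' hA' => ?_
    have e1 : (A'.comap f ⊓ D).map f = A' := by
      refine le_antisymm ?_ ?_
      · rintro _ ⟨x, hx, rfl⟩; exact hx.1
      · intro y hy
        obtain ⟨x, hx, rfl⟩ := hA'.1 hy
        exact ⟨x, ⟨hy, hx⟩, rfl⟩
    rw [← e1]
    refine Subgroup.map_mono (le_pstep inf_le_right ⟨⟨?_⟩⟩ ?_)
    · rintro ⟨a, ha, haD⟩ ⟨b, hb, hbD⟩
      refine Subtype.ext (hf (D.mul_mem haD hbD) (D.mul_mem hbD haD) ?_)
      show f (a * b) = f (b * a)
      rw [map_mul, map_mul]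
      exact congrArg Subtype.val (hA'.2.1.is_comm.comm ⟨f a, ha⟩ ⟨f b, hb⟩)
    · intro x hx
      rw [Subgroup.mem_normalizer_iff]
      intro y
      have hn := Subgroup.mem_normalizer_iff.1 (hA'.2.2 (Subgroup.mem_map_of_mem f hx)) (f y)
      have hD := Subgroup.mem_normalizer_iff.1 (Subgroup.le_normalizer (hX hx)) y
      simp only [Subgroup.mem_inf, Subgroup.mem_comap, map_mul, map_inv]
      exact and_congr hn hD

theorem map_pseq {D : Subgroup G} (hf : Set.InjOn f (D : Set G)) :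
    ∀ n, (pseq D n).map f = pseq (D.map f) n
  | 0 => Subgroup.map_bot f
  | n + 1 => by
    show (pstep D (pseq D n)).map f = pstep (D.map f) (pseq (D.map f) n)
    rw [map_pstep hf (pseq_le D n), map_pseq hf n]

theorem map_PLs {D : Subgroup G} (hf : Set.InjOn f (D : Set G)) : (PLs D).map f = PLs (D.map f) := by
  rw [PLs, Subgroup.map_iSup]
  exact iSup_congr fun n => map_pseq hf _

theorem map_PL [Finite G] {D : Subgroup G} (hf : Set.InjOn f (D : Set G)) :
    (PL D).map f = PL (D.map f) := by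
  refine le_antisymm (le_iInf fun n => ?_) ?_
  · rw [← map_pseq hf]
    exact Subgroup.map_mono (iInf_le (fun n => pseq D (2 * n + 1)) n)
  · obtain ⟨k, hk⟩ := exists_stable D
    rw [← (hk k le_rfl).2, map_pseq hf]
    exact iInf_le (fun n => pseq (D.map f) (2 * n + 1)) k

end Map

theorem puigSeq_eq : ∀ n, Cfsg.puigSeq G n = pseq (⊤ : Subgroup G) n
  | 0 => rfl
  | n + 1 => by
    show sSup {A : Subgroup G | IsMulCommutative A ∧ Cfsg.puigSeq G n ≤ Subgroup.normalizer (A : Set G)}
      = sSup {A : Subgroup G | A ≤ ⊤ ∧ IsMulCommutative A ∧ pseq ⊤ n ≤ Subgroup.normalizer (A : Set G)}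
    rw [puigSeq_eq n]
    simp

theorem puigSubgroup_eq (D : Subgroup G) [Finite G] :
    (Cfsg.puigSubgroup D).map D.subtype = PL D := by
  have e : Cfsg.puigSubgroup D = PL (⊤ : Subgroup D) := iInf_congr fun n => puigSeq_eq _
  rw [e, map_PL D.subtype_injective.injOn, ← MonoidHom.range_eq_map, Subgroup.range_subtype]

theorem puigLower_eq (D : Subgroup G) : (Cfsg.puigLower D).map D.subtype = PLs D := by
  have e : Cfsg.puigLower D = PLs (⊤ : Subgroup D) := iSup_congr fun n => puigSeq_eq _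
  rw [e, map_PLs D.subtype_injective.injOn, ← MonoidHom.range_eq_map, Subgroup.range_subtype]

theorem pseq_normal {D : Subgroup G} [D.Normal] (n : ℕ) : (pseq D n).Normal := by
  refine ⟨fun x hx g => ?_⟩
  have h := map_pseq (f := (MulAut.conj g).toMonoidHom) (D := D) (MulAut.conj g).injective.injOn n
  have hD : D.map (MulAut.conj g).toMonoidHom = D := by
    refine le_antisymm ?_ ?_
    · rintro _ ⟨y, hy, rfl⟩
      exact Subgroup.Normal.conj_mem inferInstance y hy g
    · intro y hy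
      refine ⟨g⁻¹ * y * g, ?_, by simp [mul_assoc]⟩
      simpa using Subgroup.Normal.conj_mem (inferInstance : D.Normal) y hy g⁻¹
  rw [hD] at h
  rw [← h]
  exact ⟨x, hx, rfl⟩

theorem normalizer_le_PL [Finite G] (D : Subgroup G) :
    Subgroup.normalizer (D : Set G) ≤ Subgroup.normalizer (PL D : Set G) := by
  intro g hg
  have hD : D.map (MulAut.conj g).toMonoidHom = D := by
    ext y
    constructor
    · rintro ⟨x, hx, rfl⟩
      exact (Subgroup.mem_normalizer_iff.1 hg x).1 hx
    · intro hy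
      refine ⟨g⁻¹ * y * g, (Subgroup.mem_normalizer_iff.1 hg _).2 ?_, by simp [mul_assoc]⟩
      simpa [mul_assoc] using hy
  have h := map_PL (f := (MulAut.conj g).toMonoidHom) (D := D) (MulAut.conj g).injective.injOn
  rw [hD] at h
  rw [Subgroup.mem_normalizer_iff]
  intro y
  constructor
  · intro hy
    rw [← h]
    exact ⟨y, hy, rfl⟩
  · intro hy
    rw [← h] at hy
    obtain ⟨x, hx, hxe⟩ := hy
    rwa [← (MulAut.conj g).injective hxe]

/-- A self-centralising abelian subgroup inside every positive term. -/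
theorem exists_core [Finite G] {p : ℕ} [Fact p.Prime] {D : Subgroup G} (hD : IsPGroup p D) :
    ∃ A : Subgroup G, A ≤ D ∧ D ⊓ Subgroup.centralizer (A : Set G) ≤ A ∧
      ∀ n, A ≤ pseq D (n + 1) := by
  obtain ⟨A, hAn, hAc, hAC⟩ := CfsgLib.TwoGroup.exists_self_centralizing hD
  refine ⟨A.map D.subtype, Subgroup.map_subtype_le _, ?_, fun n => le_pstep (Subgroup.map_subtype_le _) ?_ ?_⟩
  · rintro x ⟨hx, hxc⟩
    refine ⟨⟨x, hx⟩, hAC ?_, rfl⟩
    rw [Subgroup.mem_centralizer_iff]
    intro a ha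
    exact Subtype.ext (Subgroup.mem_centralizer_iff.1 hxc _ ⟨a, ha, rfl⟩)
  · refine ⟨⟨?_⟩⟩
    rintro ⟨_, a, ha, rfl⟩ ⟨_, b, hb, rfl⟩
    exact Subtype.ext (congrArg D.subtype (hAc a ha b hb))
  · refine (pseq_le D n).trans fun x hx => ?_
    have := Subgroup.le_normalizer_map (H := A) D.subtype
      (show (x : G) ∈ (Subgroup.normalizer (A : Set D)).map D.subtype from
        ⟨⟨x, hx⟩, by rw [Subgroup.normalizer_eq_top]; exact Subgroup.mem_top _, rfl⟩)
    exact this

theorem inf_centralizer_pseq_le [Finite G] {p : ℕ} [Fact p.Prime] {D : Subgroup G} (hD : IsPGroup p D)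
    (n : ℕ) : D ⊓ Subgroup.centralizer (pseq D (n + 1) : Set G) ≤ pseq D (n + 1) := by
  obtain ⟨A, -, hA, hA'⟩ := exists_core hD
  exact (inf_le_inf_left D (Subgroup.centralizer_le (hA' n))).trans (hA.trans (hA' n))

theorem inf_centralizer_PLs_le [Finite G] {p : ℕ} [Fact p.Prime] {D : Subgroup G} (hD : IsPGroup p D) :
    D ⊓ Subgroup.centralizer (PLs D : Set G) ≤ PLs D := by
  obtain ⟨A, -, hA, hA'⟩ := exists_core hD
  have h : A ≤ PLs D := (hA' 1).trans (le_iSup (fun n => pseq D (2 * n)) 1)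
  exact (inf_le_inf_left D (Subgroup.centralizer_le h)).trans (hA.trans h)

theorem inf_centralizer_PL_le [Finite G] {p : ℕ} [Fact p.Prime] {D : Subgroup G} (hD : IsPGroup p D) :
    D ⊓ Subgroup.centralizer (PL D : Set G) ≤ PL D := by
  obtain ⟨A, -, hA, hA'⟩ := exists_core hD
  have h : A ≤ PL D := le_iInf fun n => hA' _
  exact (inf_le_inf_left D (Subgroup.centralizer_le h)).trans (hA.trans h)

/-- Comparison of the series of a group and of a subgroup absorbing the generators. -/
theorem compare {R D : Subgroup G} (hDR : D ≤ R)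
    (h : ∀ (n : ℕ) (A : Subgroup G), A ≤ R → IsMulCommutative A →
      pseq D (2 * n + 1) ≤ Subgroup.normalizer (A : Set G) → A ≤ D) :
    ∀ n, pseq R (2 * n) ≤ pseq D (2 * n) ∧ pseq D (2 * n + 1) ≤ pseq R (2 * n + 1)
  | 0 => ⟨le_rfl, by rw [pseq_one, pseq_one]; exact hDR⟩
  | n + 1 => by
    obtain ⟨-, h2⟩ := compare hDR h n
    have hev : pseq R (2 * (n + 1)) ≤ pseq D (2 * (n + 1)) :=
      sSup_le fun A hA => le_pstep (h n A hA.1 hA.2.1 (h2.trans hA.2.2)) hA.2.1 (h2.trans hA.2.2)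
    exact ⟨hev, sSup_le fun A hA => le_pstep (hA.1.trans hDR) hA.2.1 (hev.trans hA.2.2)⟩

theorem compare_lim {R D : Subgroup G} (h : ∀ n, pseq R (2 * n) ≤ pseq D (2 * n) ∧
    pseq D (2 * n + 1) ≤ pseq R (2 * n + 1)) : PLs R ≤ PLs D ∧ PL D ≤ PL R :=
  ⟨iSup_mono fun n => (h n).1, iInf_mono fun n => (h n).2⟩

/-- The Puig subgroup only depends on a subgroup containing it. -/
theorem PL_eq_of_le [Finite G] {R Q : Subgroup G} (h1 : PL R ≤ Q) (h2 : Q ≤ R) : PL Q = PL R := by
  have habs : ∀ A : Subgroup G, A ≤ R → IsMulCommutative A →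
      PLs R ≤ Subgroup.normalizer (A : Set G) → A ≤ Q := fun A hA hc hn =>
    ((le_pstep hA hc hn).trans (pstep_PLs R).le).trans h1
  have hlo : ∀ n, pseq Q (2 * n) ≤ PLs R ∧ PL R ≤ pseq Q (2 * n + 1) := by
    intro n
    induction n with
    | zero => exact ⟨bot_le, by rw [pseq_one]; exact h1⟩
    | succ n ih =>
      obtain ⟨k, hk⟩ := exists_stable R
      have he : pseq Q (2 * (n + 1)) ≤ PLs R := by
        rw [← (hk (k + 1) (Nat.le_succ k)).1]
        refine sSup_le fun A hA => le_pstep (hA.1.trans h2) hA.2.1 ?_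
        show pseq R (2 * k + 1) ≤ _
        rw [(hk k le_rfl).2]
        exact ih.2.trans hA.2.2
      refine ⟨he, ?_⟩
      rw [← pstep_PLs]
      exact sSup_le fun A hA => le_pstep (habs A hA.1 hA.2.1 hA.2.2) hA.2.1 (he.trans hA.2.2)
  refine le_antisymm ?_ (le_iInf fun n => (hlo n).2)
  exact (compare_lim (compare h2 fun n A hA hc hn =>
    habs A hA hc (((PLs_le_PL R).trans (hlo n).2).trans hn))).2

end CfsgLib.Puig
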