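import Cfsg.Agent.Lib.Puig
import Cfsg.Agent.S1465
import Cfsg.Agent.Lib.FgsSylowProduct

/-!
# The Puig series in groups of odd order
-/

set_option autoImplicit false

universe u

namespace CfsgLib.Puig

variable {G : Type u} [Group G] [Finite G] [Group.IsSolvable G] {p : ℕ} [hp : Fact p.Prime]

theorem compare_sylow (hodd : Odd (Nat.card G)) (hp2 : p ≠ 2) (hO : Cfsg.pPrimeCore p G = ⊥)
    (S : Sylow p G) : PLs (S : Subgroup G) ≤ PLs (Cfsg.pCore p G) ∧
      PL (Cfsg.pCore p G) ≤ PL (S : Subgroup G) := by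
  haveI := CfsgLib.Core.normal_pCore (G := G) p
  refine compare_lim (compare (CfsgLib.Core.pCore_le_sylow S) fun n A hA hc hn => ?_)
  haveI := pseq_normal (D := Cfsg.pCore p G) (2 * n + 1)
  have hT : IsPGroup p (Cfsg.pCore p G) := CfsgLib.Core.isPGroup_pCore p
  have h := (Cfsg.Agent.S1465.result hodd p hp2 (pseq (Cfsg.pCore p G) (2 * n + 1))
    (hT.to_le (pseq_le _ _)) {A} (by rintro B rfl; exact ⟨hc, S.2.to_le hA, hn⟩)).2 hO
    (inf_centralizer_pseq_le hT _)
  rwa [sSup_singleton] at h

/-- The centre of the Puig subgroup of a Sylow subgroup is normal. -/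
theorem center_PL_normal (hodd : Odd (Nat.card G)) (hp2 : p ≠ 2) (hO : Cfsg.pPrimeCore p G = ⊥)
    (S : Sylow p G) :
    (PL (S : Subgroup G) ⊓ Subgroup.centralizer (PL (S : Subgroup G) : Set G)).Normal := by
  haveI hTn := CfsgLib.Core.normal_pCore (G := G) p
  obtain ⟨hlo, hup⟩ := compare_sylow hodd hp2 hO S
  set T := Cfsg.pCore p G with hT
  have hTS : T ≤ (S : Subgroup G) := CfsgLib.Core.pCore_le_sylow S
  have hTp : IsPGroup p T := CfsgLib.Core.isPGroup_pCore p
  set Z := PL (S : Subgroup G) ⊓ Subgroup.centralizer (PL (S : Subgroup G) : Set G) with hZ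
  set Y := PL T ⊓ Subgroup.centralizer (PL T : Set G) with hY
  haveI hPn : (PL T).Normal := by
    rw [PL]
    exact Subgroup.normal_iInf_normal fun n => pseq_normal _
  haveI hYn : Y.Normal := inferInstance
  have hYT : Y ≤ T := inf_le_left.trans (PL_le T)
  -- the centre lies in that of the core
  have hZY : Z ≤ Y := by
    intro z hz
    have h1 : z ∈ Subgroup.centralizer (PL T : Set G) := Subgroup.centralizer_le hup hz.2
    have h2 : z ∈ PLs (S : Subgroup G) := inf_centralizer_PLs_le S.2
      ⟨PL_le _ hz.1, Subgroup.centralizer_le (PLs_le_PL _) hz.2⟩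
    have h3 : z ∈ T := ((PLs_le_PL T).trans (PL_le T)) (hlo h2)
    exact ⟨inf_centralizer_PL_le hTp ⟨h3, h1⟩, h1⟩
  have hYc : IsMulCommutative Y :=
    ⟨⟨fun a b => Subtype.ext (Subgroup.mem_centralizer_iff.1 b.2.2 _ a.2.1)⟩⟩
  have hYs : Y ≤ PLs (S : Subgroup G) := by
    refine le_trans (?_ : Y ≤ pseq (S : Subgroup G) 2) (le_iSup (fun n => pseq (S : Subgroup G) (2 * n)) 1)
    refine le_pstep (hYT.trans hTS) hYc ?_
    rw [Subgroup.normalizer_eq_top]
    exact le_top
  -- the Puig subgroup acts on it as a `p`-group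
  set C := Subgroup.centralizer (Y : Set G) with hC
  set K := (Cfsg.pCore p (G ⧸ C)).comap (QuotientGroup.mk' C) with hK
  haveI : (Cfsg.pCore p (G ⧸ C)).Normal := CfsgLib.Core.normal_pCore p
  haveI hKn : K.Normal := Subgroup.Normal.comap inferInstance _
  have hLK : PL (S : Subgroup G) ≤ K := by
    rw [← pstep_PLs, hK, ← Subgroup.map_le_iff_le_comap]
    exact (Cfsg.Agent.S1465.result hodd p hp2 Y (hTp.to_le hYT) _
      (fun B hB => ⟨hB.2.1, S.2.to_le hB.1, hYs.trans hB.2.2⟩)).1
  set N := Subgroup.normalizer (Z : Set G) with hN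
  have hCN : C ≤ N := by
    intro c hc
    have hcz : ∀ z ∈ Z, c * z * c⁻¹ = z := fun z hz => by
      rw [← Subgroup.mem_centralizer_iff.1 hc z (hZY hz), mul_inv_cancel_right]
    rw [hN, Subgroup.mem_normalizer_iff]
    intro z
    constructor
    · intro hz; rwa [hcz z hz]
    · intro hz
      have h := hcz _ hz
      have : c * z * c⁻¹ = z := by
        have h' : c * (c * z * c⁻¹) * c⁻¹ = c * z * c⁻¹ := h
        have := congrArg (fun w => c⁻¹ * w * c) h'
        simpa [mul_assoc] using this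
      rwa [this] at hz
  set Q := (S : Subgroup G) ⊓ K with hQ
  have hQL : PL Q = PL (S : Subgroup G) := PL_eq_of_le (le_inf (PL_le _) hLK) inf_le_left
  have hQN : Subgroup.normalizer (Q : Set G) ≤ N := by
    intro g hg
    have h := normalizer_le_PL Q hg
    rw [hQL] at h
    rw [hN, Subgroup.mem_normalizer_iff]
    intro z
    have h' := fun w => (Subgroup.mem_normalizer_iff.1 h w)
    rw [hZ, Subgroup.mem_inf, Subgroup.mem_inf]
    refine and_congr (h' z) ?_
    rw [Subgroup.mem_centralizer_iff, Subgroup.mem_centralizer_iff]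
    constructor
    · intro hz w hw
      have hw' : g⁻¹ * w * g ∈ PL (S : Subgroup G) := (h' _).2 (by simpa [mul_assoc] using hw)
      have e := congrArg (fun v => g * v * g⁻¹) (hz _ hw')
      simpa [mul_assoc] using e
    · intro hz w hw
      have e := congrArg (fun v => g⁻¹ * v * g) (hz _ ((h' w).1 hw))
      simpa [mul_assoc] using e
  -- Frattini
  obtain ⟨Qk, hQk⟩ := CfsgLib.SylowProd.sylow_inf_normal K S
  have hQmap : (Qk : Subgroup K).map K.subtype = Q := by
    rw [hQk, Subgroup.map_subgroupOf_eq_of_le inf_le_right]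
  have hKN : K ≤ N := by
    rw [← Subgroup.subgroupOf_eq_top, ← Subgroup.index_eq_one]
    have h1 : (N.subgroupOf K).index ∣ C.relIndex K := Subgroup.relIndex_dvd_of_le_left K hCN
    obtain ⟨j, hj⟩ := IsPGroup.iff_card.1 (CfsgLib.Core.isPGroup_pCore (G := G ⧸ C) p)
    have h2 : C.relIndex K = p ^ j := by
      conv_lhs => rw [← QuotientGroup.ker_mk' C]
      rw [Subgroup.relIndex_ker, hK,
        Subgroup.map_comap_eq_self_of_surjective (QuotientGroup.mk'_surjective C), hj]
    have h3 : (N.subgroupOf K).index ∣ (Qk : Subgroup K).index := by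
      refine Subgroup.index_dvd_of_le ?_
      rw [hQk]
      exact fun x hx => hQN (Subgroup.le_normalizer hx)
    have h4 : ((Qk : Subgroup K).index).Coprime (p ^ j) :=
      Nat.Coprime.pow_right j ((hp.out.coprime_iff_not_dvd).2 Qk.not_dvd_index).symm
    exact Nat.Coprime.eq_one_of_dvd ((h4.coprime_dvd_left h3)) (h2 ▸ h1)
  have h := Qk.normalizer_sup_eq_top
  rw [hQmap] at h
  rw [← Subgroup.normalizer_eq_top_iff, eq_top_iff, ← h]
  exact sup_le hQN hKN

end CfsgLib.Puig
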