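import Cfsg.Agent.Lib.QuadPairGroup

/-!
# The field of a quadratic pair
-/

set_option autoImplicit false
set_option linter.style.haveILetI false

universe u v w

namespace CfsgLib.QuadPair

open CfsgLib.Dickson

variable {H : Type v} [Group H] [Finite H] {K : Type u} [Field K] {p : ℕ} [hp : Fact p.Prime]
  [CharP K p]

omit hp in
theorem coe_add_coe_inv {E : Type w} [Field E] (g : SL E) :
    (g : Matrix (Fin 2) (Fin 2) E) + ((g⁻¹ : SL E) : Matrix (Fin 2) (Fin 2) E) =
      Matrix.trace (g : Matrix (Fin 2) (Fin 2) E) • 1 := by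
  ext i j
  fin_cases i <;> fin_cases j <;>
    simp [Matrix.SpecialLinearGroup.coe_inv, Matrix.adjugate_fin_two, Matrix.trace_fin_two,
      add_comm]

/-- The trace of an element of order dividing `p ^ e * k`, with `k ∣ q - 1`, has `q`-th power
equal to itself. -/
theorem trace_pow_eq_self {E : Type w} [Field E] [CharP E p] (g : SL E) {e k n : ℕ}
    (hk : k ∣ p ^ n - 1) (hg : g ^ (p ^ e * k) = 1) :
    Matrix.trace (g : Matrix (Fin 2) (Fin 2) E) ^ p ^ n =
      Matrix.trace (g : Matrix (Fin 2) (Fin 2) E) := by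
  haveI : ExpChar E p := ExpChar.prime hp.out
  set T := Matrix.trace (g : Matrix (Fin 2) (Fin 2) E) with hT
  have hcomm : Commute (g : Matrix (Fin 2) (Fin 2) E) ((g⁻¹ : SL E) : Matrix (Fin 2) (Fin 2) E) := by
    show _ * _ = _ * _
    rw [← Matrix.SpecialLinearGroup.coe_mul, ← Matrix.SpecialLinearGroup.coe_mul, mul_inv_cancel,
      inv_mul_cancel]
  have key : ∀ j : ℕ, ((g ^ p ^ j : SL E) : Matrix (Fin 2) (Fin 2) E) +
      (((g ^ p ^ j)⁻¹ : SL E) : Matrix (Fin 2) (Fin 2) E) = (T ^ p ^ j) • 1 := by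
    intro j
    rw [← inv_pow, Matrix.SpecialLinearGroup.coe_pow, Matrix.SpecialLinearGroup.coe_pow,
      ← add_pow_char_pow_of_commute p j hcomm, coe_add_coe_inv, ← hT, smul_pow, one_pow]
  have hN : (g ^ p ^ e) ^ p ^ n = g ^ p ^ e := by
    obtain ⟨m, hm⟩ := hk
    have h1 : p ^ n = k * m + 1 := by
      have := Nat.one_le_pow n p hp.out.pos
      omega
    rw [h1, pow_succ, pow_mul, ← pow_mul g, hg, one_pow, one_mul]
  have h1 := key (e + n)
  rw [pow_add, pow_mul, hN, key e, pow_mul] at h1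
  have h2 := congrFun (congrFun h1 0) 0
  simp only [Matrix.smul_apply, Matrix.one_apply_eq, smul_eq_mul, mul_one] at h2
  refine iterateFrobenius_inj E p e ?_
  rw [iterateFrobenius_def, iterateFrobenius_def, ← pow_mul, mul_comm, pow_mul]
  exact h2.symm

theorem mem_range_algebraMap_of_pow_card [Fintype K] {E : Type w} [Field E] [Algebra K E] {x : E}
    (hx : x ^ Fintype.card K = x) : x ∈ (algebraMap K E).range := by
  classical
  by_contra hxr
  set q := Fintype.card K with hq
  have hq1 : 1 < q := Fintype.one_lt_card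
  set f : Polynomial E := Polynomial.X ^ q - Polynomial.X with hf
  have hf0 : f ≠ 0 := FiniteField.X_pow_card_sub_X_ne_zero E hq1
  have hdeg : f.natDegree = q := FiniteField.X_pow_card_sub_X_natDegree_eq E hq1
  set s : Finset E := insert x (Finset.univ.image (algebraMap K E)) with hs
  have hcard : s.card = q + 1 := by
    rw [hs, Finset.card_insert_of_notMem, Finset.card_image_of_injective _ (algebraMap K E).injective,
      Finset.card_univ]
    intro h
    obtain ⟨y, -, rfl⟩ := Finset.mem_image.1 h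
    exact hxr ⟨y, rfl⟩
  have hsub : s.val ⊆ f.roots := by
    intro y hy
    rw [Polynomial.mem_roots hf0]
    simp only [hf, Polynomial.IsRoot.def, Polynomial.eval_sub, Polynomial.eval_pow,
      Polynomial.eval_X, sub_eq_zero]
    rcases Finset.mem_insert.1 hy with rfl | hy
    · exact hx
    · obtain ⟨z, -, rfl⟩ := Finset.mem_image.1 hy
      rw [← map_pow, hq, FiniteField.pow_card]
  have h1 := Polynomial.card_le_degree_of_subset_roots hsub
  omega

/-- With `k ∣ q - 1` the target `SL₂` is defined over `K` itself. -/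
theorem exists_hom_SL [Fintype K] {W : Type w} [AddCommGroup W] [Module K W] [Finite W]
    (ρ : H →* Module.End K W) {a b : H} (hgen : Subgroup.closure ({a, b} : Set H) = ⊤)
    (ha : (ρ a - 1) ^ 2 = 0) (hb : (ρ b - 1) ^ 2 = 0) {g : H} (hg : ¬ p ∣ orderOf g)
    (hg1 : ρ g ≠ 1) (hk : ∃ e k : ℕ, orderOf (a * b) = p ^ e * k ∧ k ∣ Fintype.card K - 1) :
    ∃ φ : H →* SL K, ¬ IsPGroup p φ.range := by
  obtain ⟨E, _, _, _, φ, c, hc0, hφa, hφb, hφg, -⟩ := hasSLTwo_of_quadratic ρ hgen ha hb hg hg1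
  haveI : CharP E p := charP_of_injective_algebraMap (algebraMap K E).injective p
  obtain ⟨e, k, hord, hkq⟩ := hk
  obtain ⟨n, -, hn⟩ := FiniteField.card K p
  have hc : c ∈ (algebraMap K E).range := by
    have h1 := trace_pow_eq_self (p := p) (φ (a * b)) (e := e) (k := k) (n := n) (hn ▸ hkq)
      (by rw [← map_pow, ← hord, pow_orderOf_eq_one, map_one])
    rw [← hn] at h1
    have h2 : Matrix.trace ((φ (a * b) : SL E) : Matrix (Fin 2) (Fin 2) E) = c + 2 := by
      rw [map_mul, hφa, hφb, Matrix.SpecialLinearGroup.coe_mul, coe_upperU, coe_lowerU]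
      simp [Matrix.trace_fin_two, Matrix.mul_apply, Fin.sum_univ_two]
      ring
    have h3 := mem_range_algebraMap_of_pow_card h1
    rw [h2] at h3
    obtain ⟨t, ht⟩ := h3
    exact ⟨t - 2, by rw [map_sub, map_ofNat, ht]; ring⟩
  obtain ⟨c₀, rfl⟩ := hc
  set ι : SL K →* SL E := Matrix.SpecialLinearGroup.map (algebraMap K E) with hι
  have hιinj : Function.Injective ι := fun x y h => by
    apply Subtype.ext
    ext i j
    have h1 := congrArg (fun z : SL E => (z : Matrix (Fin 2) (Fin 2) E) i j) h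
    simpa [hι] using h1
  have hle : φ.range ≤ ι.range := by
    rw [MonoidHom.range_eq_map, ← hgen, MonoidHom.map_closure, Subgroup.closure_le]
    rintro _ ⟨z, rfl | rfl, rfl⟩
    · exact ⟨upperU c₀, by
        rw [hφa]; refine sl_ext ?_ ?_ ?_ ?_ <;>
          simp [hι, coe_upperU, Matrix.SpecialLinearGroup.map_apply_coe]⟩
    · exact ⟨lowerU 1, by
        rw [hφb]; refine sl_ext ?_ ?_ ?_ ?_ <;>
          simp [hι, coe_lowerU, Matrix.SpecialLinearGroup.map_apply_coe]⟩
  let ψ : H →* SL K := (MonoidHom.ofInjective hιinj).symm.toMonoidHom.comp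
    (φ.codRestrict ι.range (fun h => hle ⟨h, rfl⟩))
  refine ⟨ψ, fun hP => hφg ?_⟩
  have h1 : ψ g = 1 := by
    obtain ⟨j, hj⟩ := hP ⟨ψ g, g, rfl⟩
    have hj' : ψ g ^ p ^ j = 1 := congrArg Subtype.val hj
    rw [← orderOf_eq_one_iff]
    exact Nat.Coprime.eq_one_of_dvd
      (Nat.Coprime.pow_right j ((hp.out.coprime_iff_not_dvd.2 fun h => hg
        (h.trans (orderOf_map_dvd ψ g))).symm))
      (orderOf_dvd_of_pow_eq_one hj')
  have h2 : ι (ψ g) = φ g := MonoidHom.apply_ofInjective_symm hιinj _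
  rw [← h2, h1, map_one]

end CfsgLib.QuadPair
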