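import Cfsg.Agent.Lib.QuadPairFree

/-!
# Sections are stable when `SL₂(p)` is absent from the `p`-local subgroups
-/

set_option autoImplicit false
set_option linter.style.haveILetI false

universe u

namespace CfsgLib.QuadPair

open CfsgLib.Dickson

variable {p : ℕ} [hp : Fact p.Prime]

theorem normalizerPStable_of_localFree (hodd : p ≠ 2) {G X : Type u} [Group G] [Finite G] [Group X]
    [Finite X]
    (hG : ∀ P : Subgroup G, IsPGroup p P → P ≠ ⊥ →
      ¬ Cfsg.Involves (SL (ZMod p)) ↥(Subgroup.normalizer (P : Set G)))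
    {K : Subgroup G} (π : K →* X) (hπ : Function.Surjective π) : Cfsg.IsNormalizerPStable p X := by
  intro P hP g hg hq
  by_contra hnot
  have hP1 : P ≠ ⊥ := by
    rintro rfl
    refine hnot ?_
    rw [show (QuotientGroup.mk (⟨g, hg⟩ : ↥(Subgroup.normalizer ((⊥ : Subgroup X) : Set X))) : _ ⧸ _) = 1
      from (QuotientGroup.eq_one_iff _).2 (by
        rw [Subgroup.mem_subgroupOf, Subgroup.mem_centralizer_iff]
        intro y hy
        rw [show y = 1 from hy, one_mul, mul_one])]
    exact one_mem _
  set N := Subgroup.normalizer (P : Set X) with hN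
  haveI : (P.subgroupOf N).Normal := Subgroup.normal_in_normalizer
  have hPN : P ≤ N := Subgroup.le_normalizer
  have hq' : ⁅⁅P.subgroupOf N, Subgroup.zpowers (⟨g, hg⟩ : N)⁆,
      Subgroup.zpowers (⟨g, hg⟩ : N)⁆ = ⊥ := by
    apply Subgroup.map_injective N.subtype_injective
    rw [Subgroup.map_commutator, Subgroup.map_commutator, MonoidHom.map_zpowers,
      Subgroup.map_subgroupOf_eq_of_le hPN, Subgroup.map_bot]
    exact hq
  have hnot' : (QuotientGroup.mk (⟨g, hg⟩ : N) :
      N ⧸ Subgroup.centralizer ((P.subgroupOf N : Subgroup N) : Set N)) ∉ Cfsg.pCore p _ := by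
    intro h
    let f : N ⧸ Subgroup.centralizer ((P.subgroupOf N : Subgroup N) : Set N) →*
        N ⧸ (Subgroup.centralizer (P : Set X)).subgroupOf N :=
      QuotientGroup.map _ _ (MonoidHom.id N) (fun x hx => by
        rw [Subgroup.mem_comap, MonoidHom.id_apply, Subgroup.mem_subgroupOf,
          Subgroup.mem_centralizer_iff]
        exact fun y hy => congrArg Subtype.val
          (Subgroup.mem_centralizer_iff.1 hx ⟨y, hPN hy⟩ hy))
    have hf : Function.Surjective f := by
      intro q
      obtain ⟨x, rfl⟩ := QuotientGroup.mk_surjective q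
      exact ⟨QuotientGroup.mk x, rfl⟩
    exact hnot (CfsgLib.Core.map_pCore_le_of_surjective p f hf ⟨_, h, rfl⟩)
  obtain ⟨Y, ψ, hψ⟩ := exists_section_of_not_pCore hodd (P := P.subgroupOf N)
    (hP.comap_of_injective N.subtype N.subtype_injective) hq' hnot'
  -- a Sylow subgroup of the preimage
  set M := P.comap π with hM
  obtain ⟨S⟩ := (inferInstance : Nonempty (Sylow p M))
  set Q := (S : Subgroup M).map M.subtype with hQ
  have hQM : Q.map π = P := by
    have hs : Function.Surjective (π.subgroupComap P) :=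
      π.subgroupComap_surjective_of_surjective P hπ
    have h1 : (S : Subgroup M).map (π.subgroupComap P) = ⊤ := by
      rw [← Sylow.coe_mapSurjective hs S]
      exact ((S.mapSurjective hs).3 (hP.to_subgroup ⊤) le_top).symm
    rw [hQ, Subgroup.map_map, show π.comp M.subtype = P.subtype.comp (π.subgroupComap P) from rfl,
      ← Subgroup.map_map, h1, ← MonoidHom.range_eq_map, Subgroup.range_subtype]
  set QG := Q.map K.subtype with hQG
  have hQG1 : QG ≠ ⊥ := fun e => hP1 (by
    rw [← hQM, (Subgroup.map_eq_bot_iff_of_injective _ K.subtype_injective).1 e, Subgroup.map_bot])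
  have hNle : N ≤ (Subgroup.normalizer (Q : Set K)).map π := by
    intro x hx
    obtain ⟨k, rfl⟩ := hπ x
    have hk : k ∈ Subgroup.normalizer (M : Set K) := by
      rw [Subgroup.mem_normalizer_iff]
      intro y
      show π y ∈ P ↔ π (k * y * k⁻¹) ∈ P
      rw [map_mul, map_mul, map_inv]
      exact Subgroup.mem_normalizer_iff.1 hx (π y)
    haveI : (M.subgroupOf (Subgroup.normalizer (M : Set K))).Normal := Subgroup.normal_in_normalizer
    set L := Subgroup.normalizer (M : Set K)
    have hML : M ≤ L := Subgroup.le_normalizer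
    let S' : Sylow p (M.subgroupOf L) :=
      S.mapSurjective (f := (Subgroup.subgroupOfEquivOfLe hML).symm.toMonoidHom)
        (Subgroup.subgroupOfEquivOfLe hML).symm.surjective
    have h1 := Sylow.normalizer_sup_eq_top S'
    have h2 : ((S' : Subgroup (M.subgroupOf L)).map (M.subgroupOf L).subtype).map L.subtype = Q := by
      show (((S : Subgroup M).map _).map _).map _ = Q
      rw [Subgroup.map_map, Subgroup.map_map, hQ]
      rfl
    obtain ⟨n, hn, m, hm, hnm⟩ : ∃ n ∈ Subgroup.normalizer
        (((S' : Subgroup (M.subgroupOf L)).map (M.subgroupOf L).subtype : Subgroup L) : Set L),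
        ∃ m ∈ M.subgroupOf L, (⟨k, hk⟩ : L) = n * m := by
      have h3 : (⟨k, hk⟩ : L) ∈ ((Subgroup.normalizer
        (((S' : Subgroup (M.subgroupOf L)).map (M.subgroupOf L).subtype : Subgroup L) : Set L) ⊔
          M.subgroupOf L : Subgroup L) : Set L) := by rw [h1]; trivial
      rw [Subgroup.mul_normal] at h3
      obtain ⟨n, hn, m, hm, e⟩ := h3
      exact ⟨n, hn, m, hm, e.symm⟩
    have hn' : (n : K) ∈ Subgroup.normalizer (Q : Set K) := by
      rw [← h2]
      exact Subgroup.le_normalizer_map L.subtype ⟨n, hn, rfl⟩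
    obtain ⟨q, hq, hqm⟩ : π (m : K) ∈ Q.map π := hQM.symm ▸ hm
    refine ⟨(n : K) * q, mul_mem hn' (Subgroup.le_normalizer hq), ?_⟩
    rw [map_mul, hqm, ← map_mul]
    exact congrArg π (congrArg Subtype.val hnm).symm
  -- the section inside the local subgroup
  set NG := Subgroup.normalizer (QG : Set G) with hNG
  set Y' := ((Y.map N.subtype).comap π ⊓ Subgroup.normalizer (Q : Set K)) with hY'
  have hle : Y'.map K.subtype ≤ NG := (Subgroup.map_mono inf_le_right).trans
    (Subgroup.le_normalizer_map K.subtype)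
  let eY := Y.equivMapOfInjective N.subtype N.subtype_injective
  let eY' := Y'.equivMapOfInjective K.subtype K.subtype_injective
  let π' : Y' →* Y.map N.subtype := (π.comp Y'.subtype).codRestrict _ (fun x => x.2.1)
  refine hG QG ((S.2.map _).map _) hQG1 (involves_of_hom (Y := (Y'.map K.subtype).subgroupOf NG)
    ((((ψ.comp eY.symm.toMonoidHom).comp π').comp eY'.symm.toMonoidHom).comp
      (Subgroup.subgroupOfEquivOfLe hle).toMonoidHom) ?_)
  refine (((hψ.comp eY.symm.surjective).comp ?_).comp eY'.symm.surjective).comp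
    (Subgroup.subgroupOfEquivOfLe hle).surjective
  rintro ⟨x, hx⟩
  obtain ⟨n, hn, hnx⟩ := hNle (Subgroup.map_subtype_le _ hx)
  exact ⟨⟨n, ⟨show π n ∈ Y.map N.subtype by rw [hnx]; exact hx, hn⟩⟩, Subtype.ext hnx⟩

end CfsgLib.QuadPair
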