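import Mathlib
import Cfsg.Prelude.Def_RootSubgroups

set_option autoImplicit false

open Cfsg

namespace CfsgLib.Root

variable {G : Type*} [Group G]

theorem mem_cb {A : Subgroup G} {g x : G} : x ∈ conjBy A g ↔ g⁻¹ * x * g ∈ A := by
  simp only [conjBy, Subgroup.mem_map, MulEquiv.coe_toMonoidHom, MulAut.conj_apply]
  constructor
  · rintro ⟨y, hy, rfl⟩
    have : g⁻¹ * (g * y * g⁻¹) * g = y := by group
    rwa [this]
  · intro h
    exact ⟨_, h, by group⟩

theorem mem_cb_of_mem {A : Subgroup G} {g a : G} (ha : a ∈ A) : g * a * g⁻¹ ∈ conjBy A g :=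
  mem_cb.2 (by simpa [mul_assoc] using ha)

theorem cb_mul (A : Subgroup G) (g h : G) : conjBy (conjBy A g) h = conjBy A (h * g) := by
  ext x; simp [mem_cb, mul_assoc]

theorem cb_one (A : Subgroup G) : conjBy A (1 : G) = A := by
  ext x; simp [mem_cb]

theorem cb_inv (A : Subgroup G) (g : G) : conjBy (conjBy A g) g⁻¹ = A := by
  rw [cb_mul, inv_mul_cancel, cb_one]

theorem cb_inv' (A : Subgroup G) (g : G) : conjBy (conjBy A g⁻¹) g = A := by
  rw [cb_mul, mul_inv_cancel, cb_one]

theorem cb_inj {A B : Subgroup G} {g : G} (h : conjBy A g = conjBy B g) : A = B := by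
  rw [← cb_inv A g, h, cb_inv]

theorem cb_eq_iff {A B : Subgroup G} {g : G} : conjBy A g = B ↔ A = conjBy B g⁻¹ :=
  ⟨fun h => by rw [← h, cb_inv], fun h => by rw [h, cb_inv']⟩

theorem cb_mono {A B : Subgroup G} (g : G) (h : A ≤ B) : conjBy A g ≤ conjBy B g :=
  Subgroup.map_mono h

theorem cb_sup (A B : Subgroup G) (g : G) : conjBy (A ⊔ B) g = conjBy A g ⊔ conjBy B g :=
  Subgroup.map_sup A B _

theorem cb_of_mem {A : Subgroup G} {g : G} (hg : g ∈ A) : conjBy A g = A := by
  ext x
  rw [mem_cb, Subgroup.mul_mem_cancel_right A hg,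
    Subgroup.mul_mem_cancel_left A (inv_mem hg)]

theorem cb_normal {A : Subgroup G} (hA : A.Normal) (g : G) : conjBy A g = A := by
  ext x
  rw [mem_cb]
  constructor
  · intro h
    simpa [mul_assoc] using hA.conj_mem _ h g
  · intro h
    simpa [mul_assoc] using hA.conj_mem _ h g⁻¹

theorem cb_self_iff {A : Subgroup G} {g : G} :
    conjBy A g = A ↔ g ∈ Subgroup.normalizer (A : Set G) := by
  constructor
  · intro h
    rw [Subgroup.mem_normalizer_iff]
    intro x
    constructor
    · intro hx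
      rw [← h]
      exact mem_cb_of_mem hx
    · intro hx
      have h' : g⁻¹ * (g * x * g⁻¹) * g ∈ A := mem_cb.1 (by rw [h]; exact hx)
      simpa [mul_assoc] using h'
  · intro h
    ext x
    rw [mem_cb, Subgroup.mem_normalizer_iff.1 h]
    simp [mul_assoc]

theorem cb_inv_self {A : Subgroup G} {g : G} (h : conjBy A g = A) : conjBy A g⁻¹ = A :=
  (cb_eq_iff.1 h).symm

/-- Elementwise commuting. -/
def Cm (A B : Subgroup G) : Prop := ∀ a ∈ A, ∀ b ∈ B, a * b = b * a

theorem cm_iff {A B : Subgroup G} : ⁅A, B⁆ = ⊥ ↔ Cm A B := by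
  rw [Subgroup.commutator_eq_bot_iff_le_centralizer]
  constructor
  · intro h a ha b hb
    exact (Subgroup.mem_centralizer_iff.1 (h ha) b hb).symm
  · intro h a ha
    exact Subgroup.mem_centralizer_iff.2 fun b hb => (h a ha b hb).symm

theorem Cm.symm {A B : Subgroup G} (h : Cm A B) : Cm B A :=
  fun b hb a ha => (h a ha b hb).symm

theorem Cm.conj {A B : Subgroup G} (h : Cm A B) (g : G) : Cm (conjBy A g) (conjBy B g) := by
  intro a ha b hb
  have := h _ (mem_cb.1 ha) _ (mem_cb.1 hb)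
  have h2 : g * (g⁻¹ * a * g * (g⁻¹ * b * g)) * g⁻¹ = g * (g⁻¹ * b * g * (g⁻¹ * a * g)) * g⁻¹ := by
    rw [this]
  simpa [mul_assoc] using h2

theorem Cm.cb_eq {A B : Subgroup G} (h : Cm A B) {b : G} (hb : b ∈ B) : conjBy A b = A := by
  ext x
  rw [mem_cb]
  constructor
  · intro hx
    have := h _ hx _ hb
    have e : b⁻¹ * x * b = x := by
      have h3 : b * (b⁻¹ * x * b) = (b⁻¹ * x * b) * b := this.symm
      have h4 : x * b = (b⁻¹ * x * b) * b := by rw [← h3]; group
      exact (mul_right_cancel h4).symm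
    rwa [e] at hx
  · intro hx
    have h2 := h _ hx _ hb
    have : b⁻¹ * x * b = x := by rw [mul_assoc, h2]; group
    rwa [this]

theorem cm_self {A : Subgroup G} (h : IsMulCommutative A) : Cm A A := by
  intro a ha b hb
  exact congrArg Subtype.val (h.is_comm.comm ⟨a, ha⟩ ⟨b, hb⟩)

theorem ne_bot_exists {A : Subgroup G} (h : A ≠ ⊥) : ∃ a ∈ A, a ≠ 1 := by
  by_contra hc
  push Not at hc
  exact h ((Subgroup.eq_bot_iff_forall A).2 hc)

/-! ### Rank one pairs -/

section Pair

variable {A B : Subgroup G}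

theorem R_ne_bot (h : IsRankOnePair A B) : A ≠ ⊥ := by
  intro hA
  have hB : B = ⊥ := by
    rw [Subgroup.eq_bot_iff_forall]
    intro b hb
    by_contra hb1
    obtain ⟨a, ha, ha1, -⟩ := h.cond_right b hb hb1
    exact ha1 ((Subgroup.mem_bot).1 (hA ▸ ha))
  exact h.ne (hA.trans hB.symm)

theorem R_fix (h : IsRankOnePair A B) {a : G} (ha : a ∈ A) (he : conjBy B a = B) : a = 1 := by
  by_contra ha1
  obtain ⟨b, hb, -, hab⟩ := h.cond_left a ha ha1
  rw [cb_inv_self he] at hab
  exact h.ne (cb_inj (hab.trans (cb_of_mem (inv_mem hb)).symm))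

theorem R_fix_inf (h : IsRankOnePair A B) : A ⊓ Subgroup.normalizer (B : Set G) = ⊥ := by
  rw [Subgroup.eq_bot_iff_forall]
  rintro x ⟨hx, hx'⟩
  exact R_fix h hx (cb_self_iff.2 hx')

theorem R_inf (h : IsRankOnePair A B) : A ⊓ B = ⊥ := by
  rw [Subgroup.eq_bot_iff_forall]
  rintro x ⟨hx, hx'⟩
  exact R_fix h hx (cb_of_mem hx')

theorem R_conj (h : IsRankOnePair A B) (g : G) : IsRankOnePair (conjBy A g) (conjBy B g) := by
  have key : ∀ {A B : Subgroup G}, RankOneCondition A B →
      RankOneCondition (conjBy A g) (conjBy B g) := by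
    intro A B hc a ha ha1
    have ha' := mem_cb.1 ha
    obtain ⟨b, hb, hb1, hab⟩ := hc _ ha' (by
      intro e
      apply ha1
      have e2 : g * (g⁻¹ * a * g) * g⁻¹ = g * 1 * g⁻¹ := by rw [e]
      simpa [mul_assoc] using e2)
    refine ⟨g * b * g⁻¹, mem_cb_of_mem hb, ?_, ?_⟩
    · intro e; exact hb1 (conj_eq_one_iff.1 e)
    · have := congrArg (fun C => conjBy C g) hab
      simp only [cb_mul] at this ⊢
      convert this using 2 <;> group
  refine ⟨fun e => h.ne (cb_inj e), ?_, ?_, key h.cond_left, key h.cond_right⟩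
  · exact (Group.isNilpotent_congr (A.equivMapOfInjective _ (MulAut.conj g).injective)).1 h.nilpotent_left
  · exact (Group.isNilpotent_congr (B.equivMapOfInjective _ (MulAut.conj g).injective)).1 h.nilpotent_right

theorem self_mem_omega (A B : Subgroup G) : A ∈ unipotentSubgroups A B :=
  ⟨1, one_mem _, (cb_one A).symm⟩

theorem omega_conj {C : Subgroup G} (hC : C ∈ unipotentSubgroups A B) {x : G} (hx : x ∈ A ⊔ B) :
    conjBy C x ∈ unipotentSubgroups A B := by
  obtain ⟨y, hy, rfl⟩ := hC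
  exact ⟨x * y, mul_mem hx hy, cb_mul A y x⟩

theorem omega_le {C : Subgroup G} (hC : C ∈ unipotentSubgroups A B) : C ≤ A ⊔ B := by
  obtain ⟨y, hy, rfl⟩ := hC
  calc conjBy A y ≤ conjBy (A ⊔ B) y := cb_mono y le_sup_left
    _ = A ⊔ B := cb_of_mem hy

theorem right_mem_omega (h : IsRankOnePair A B) : B ∈ unipotentSubgroups A B := by
  obtain ⟨a, ha, ha1⟩ := ne_bot_exists (R_ne_bot h)
  obtain ⟨b, hb, -, hab⟩ := h.cond_left a ha ha1
  refine ⟨a * b⁻¹, mul_mem (le_sup_left (b := B) ha) (le_sup_right (a := A) (inv_mem hb)), ?_⟩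
  rw [← cb_mul, hab, cb_inv']

theorem omega_swap (h : IsRankOnePair A B) : unipotentSubgroups B A = unipotentSubgroups A B := by
  ext C
  constructor
  · rintro ⟨x, hx, rfl⟩
    exact omega_conj (right_mem_omega h) (by rwa [sup_comm])
  · rintro ⟨x, hx, rfl⟩
    exact omega_conj (right_mem_omega (RankOnePair_symm h)) (by rwa [sup_comm] at hx)

/-- The set `{A} ∪ B^A` is invariant under `B`. -/
theorem omega_eq (h : IsRankOnePair A B) {C : Subgroup G} (hC : C ∈ unipotentSubgroups A B) :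
    C = A ∨ ∃ a ∈ A, C = conjBy B a := by
  have hb_A : ∀ b ∈ B, conjBy A b = A ∨ ∃ a ∈ A, conjBy A b = conjBy B a := by
    intro b hb
    by_cases hb1 : b = 1
    · left; rw [hb1, cb_one]
    · obtain ⟨a, ha, -, hab⟩ := h.cond_right b⁻¹ (inv_mem hb) (inv_ne_one.2 hb1)
      right
      exact ⟨a⁻¹, inv_mem ha, by rw [← inv_inv b]; exact hab.symm⟩
  have step : ∀ x ∈ A ⊔ B, ∀ C : Subgroup G, (C = A ∨ ∃ a ∈ A, C = conjBy B a) →
      (conjBy C x = A ∨ ∃ a ∈ A, conjBy C x = conjBy B a) ∧
      (conjBy C x⁻¹ = A ∨ ∃ a ∈ A, conjBy C x⁻¹ = conjBy B a) := by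
    intro x hx
    rw [Subgroup.sup_eq_closure] at hx
    induction hx using Subgroup.closure_induction with
    | mem x hx =>
      rcases hx with hx | hx
      · have key : ∀ x ∈ A, ∀ C : Subgroup G, (C = A ∨ ∃ a ∈ A, C = conjBy B a) →
            (conjBy C x = A ∨ ∃ a ∈ A, conjBy C x = conjBy B a) := by
          rintro x hx C (rfl | ⟨a, ha, rfl⟩)
          · left; exact cb_of_mem hx
          · right; exact ⟨x * a, mul_mem hx ha, cb_mul B a x⟩
        exact fun C hC => ⟨key x hx C hC, key _ (inv_mem hx) C hC⟩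
      · have key : ∀ x ∈ B, ∀ C : Subgroup G, (C = A ∨ ∃ a ∈ A, C = conjBy B a) →
            (conjBy C x = A ∨ ∃ a ∈ A, conjBy C x = conjBy B a) := by
          rintro x hx C (rfl | ⟨a, ha, rfl⟩)
          · exact hb_A x hx
          · by_cases ha1 : a = 1
            · right; exact ⟨1, one_mem _, by rw [ha1, cb_one, cb_of_mem hx]⟩
            · obtain ⟨b, hb, -, hab⟩ := h.cond_left a⁻¹ (inv_mem ha) (inv_ne_one.2 ha1)
              rw [inv_inv] at hab
              rw [← hab, cb_mul]
              exact hb_A _ (mul_mem hx (inv_mem hb))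
        exact fun C hC => ⟨key x hx C hC, key _ (inv_mem hx) C hC⟩
    | one => intro C hC; simp only [inv_one, cb_one]; exact ⟨hC, hC⟩
    | mul x y _ _ ihx ihy =>
      intro C hC
      refine ⟨?_, ?_⟩
      · rw [← cb_mul]; exact (ihx _ (ihy C hC).1).1
      · rw [mul_inv_rev, ← cb_mul]; exact (ihy _ (ihx C hC).2).2
    | inv x _ ih => intro C hC; rw [inv_inv]; exact ⟨(ih C hC).2, (ih C hC).1⟩
  obtain ⟨x, hx, rfl⟩ := hC
  exact (step x hx A (Or.inl rfl)).1

theorem omega_ne_cases (h : IsRankOnePair A B) {C : Subgroup G}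
    (hC : C ∈ unipotentSubgroups A B) (hne : C ≠ A) : ∃ a ∈ A, C = conjBy B a :=
  (omega_eq h hC).resolve_left hne

/-- Two-transitivity. -/
theorem omega_pair (h : IsRankOnePair A B) {C D : Subgroup G}
    (hC : C ∈ unipotentSubgroups A B) (hD : D ∈ unipotentSubgroups A B) (hne : C ≠ D) :
    ∃ x ∈ A ⊔ B, C = conjBy A x ∧ D = conjBy B x := by
  obtain ⟨y, hy, rfl⟩ := hC
  have hD' := omega_conj hD (inv_mem hy)
  obtain ⟨a, ha, hDa⟩ := omega_ne_cases h hD' (fun e => hne (by rw [← cb_inv' D y, e]))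
  refine ⟨y * a, mul_mem hy (le_sup_left (b := B) ha), ?_, ?_⟩
  · rw [← cb_mul, cb_of_mem ha]
  · rw [← cb_mul, ← hDa, cb_inv']

theorem omega_fix (h : IsRankOnePair A B) {C : Subgroup G} (hC : C ∈ unipotentSubgroups A B)
    {a : G} (ha : a ∈ A) (ha1 : a ≠ 1) (he : conjBy C a = C) : C = A := by
  by_contra hne
  obtain ⟨a', ha', rfl⟩ := omega_ne_cases h hC hne
  have h2 : conjBy B (a'⁻¹ * a * a') = B := by
    rw [← cb_mul, ← cb_mul, he, cb_inv]
  have := R_fix h (mul_mem (mul_mem (inv_mem ha') ha) ha') h2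
  apply ha1
  have e2 : a' * (a'⁻¹ * a * a') * a'⁻¹ = a' * 1 * a'⁻¹ := by rw [this]
  simpa [mul_assoc] using e2

theorem omega_pair_R (h : IsRankOnePair A B) {C D : Subgroup G}
    (hC : C ∈ unipotentSubgroups A B) (hD : D ∈ unipotentSubgroups A B) (hne : C ≠ D) :
    IsRankOnePair C D := by
  obtain ⟨x, -, rfl, rfl⟩ := omega_pair h hC hD hne
  exact R_conj h x

theorem omega_sup (h : IsRankOnePair A B) {C D : Subgroup G}
    (hC : C ∈ unipotentSubgroups A B) (hD : D ∈ unipotentSubgroups A B) (hne : C ≠ D) :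
    C ⊔ D = A ⊔ B := by
  obtain ⟨x, hx, rfl, rfl⟩ := omega_pair h hC hD hne
  rw [← cb_sup, cb_of_mem hx]

theorem omega_not_cm (h : IsRankOnePair A B) {C D : Subgroup G}
    (hC : C ∈ unipotentSubgroups A B) (hD : D ∈ unipotentSubgroups A B) (hcm : Cm C D) : C = D := by
  by_contra hne
  have hR := omega_pair_R h hC hD hne
  obtain ⟨c, hc, hc1⟩ := ne_bot_exists (R_ne_bot hR)
  exact hc1 (R_fix hR hc (hcm.symm.cb_eq hc))

theorem R_not_cm (h : IsRankOnePair A B) : ¬ Cm A B :=
  fun hcm => h.ne (omega_not_cm h (self_mem_omega A B) (right_mem_omega h) hcm)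

end Pair

/-! ### Root subgroup sets -/

section RootSet

variable {S : Set (Subgroup G)}

theorem comm_case_cm {A B : Subgroup G} (h : RootCommutatorCase S A B)
    (hB : IsMulCommutative B) {a : G} (ha : a ∈ A) : Cm (conjBy B a) B := by
  intro x hx b hb
  have hb' := mem_cb.1 hx
  set b' := a⁻¹ * x * a with hb'def
  have hx' : x = (a * b' * a⁻¹ * b'⁻¹) * b' := by rw [hb'def]; group
  have hE : a * b' * a⁻¹ * b'⁻¹ ∈ ⁅A, B⁆ := by
    have := Subgroup.commutator_mem_commutator ha hb'
    rwa [commutatorElement_def] at this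
  have h1 := h.2.1 _ hE b (le_sup_right (a := A) hb)
  have h2 := cm_self hB b' hb' b hb
  rw [hx', mul_assoc, h2, ← mul_assoc, h1, mul_assoc]

theorem comm_case_symm {A B : Subgroup G} (h : RootCommutatorCase S A B) :
    RootCommutatorCase S B A := by
  obtain ⟨h1, h2, h3, h4⟩ := h
  have swap : ∀ (x : G) (T : Set G),
      Subgroup.closure ((fun y : G => x * y * x⁻¹ * y⁻¹) '' T) =
      Subgroup.closure ((fun y : G => y * x * y⁻¹ * x⁻¹) '' T) := by
    intro x T
    rw [← Subgroup.closure_inv]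
    congr 1
    ext z
    simp only [Set.mem_inv, Set.mem_image]
    constructor
    · rintro ⟨y, hy, hz⟩
      exact ⟨y, hy, inv_injective (by rw [← hz]; group)⟩
    · rintro ⟨y, hy, hz⟩
      exact ⟨y, hy, by rw [← hz]; group⟩
  rw [Subgroup.commutator_comm] at h1 h2 h3 h4
  refine ⟨h1, by rwa [sup_comm], fun b hb hb1 => ?_, fun a ha ha1 => ?_⟩
  · rw [swap]; exact h4 b hb hb1
  · rw [← swap]; exact h3 a ha ha1

/-- Either `A` and `B` form a rank one pair or every conjugate of `B` by `A` commutes with `B`. -/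
theorem pair_or_cm (hS : IsRootSubgroupSet S) {A B : Subgroup G} (hA : A ∈ S) (hB : B ∈ S) :
    IsRankOnePair A B ∨ ∀ a ∈ A, Cm (conjBy B a) B := by
  rcases hS.pair A hA B hB with h | h | h
  · right
    intro a ha
    rw [(cm_iff.1 h).symm.cb_eq ha]
    exact cm_self (hS.commutative B hB)
  · exact Or.inl h
  · exact Or.inr fun a ha => comm_case_cm h (hS.commutative B hB) ha

/-- If `(A, D)` is a rank one pair, `z` centralizes `A` and the conjugate of `D` by `z⁻¹`
commutes with `D`, then a member containing `a z` is a rank one partner of `D`. -/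
theorem translate_rankOne (hS : IsRootSubgroupSet S) {A D E : Subgroup G} (hD : D ∈ S)
    (h : IsRankOnePair A D) (hE : E ∈ S) {a z : G} (ha : a ∈ A) (ha1 : a ≠ 1)
    (hz : ∀ x ∈ A, x * z = z * x) (hzD : Cm (conjBy D z) D) (haz : z * a ∈ E) :
    IsRankOnePair E D := by
  refine (pair_or_cm hS hE hD).resolve_right fun hc => ?_
  have h1 : Cm (conjBy D (z * a)) D := hc _ haz
  rw [← cb_mul] at h1
  -- `D^a` commutes with `D^{z⁻¹}`
  have h2 : Cm (conjBy D a) (conjBy D z⁻¹) := by
    have := h1.conj z⁻¹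
    rwa [cb_inv] at this
  obtain ⟨d, hd, -, hda⟩ := h.cond_left a⁻¹ (inv_mem ha) (inv_ne_one.2 ha1)
  rw [inv_inv] at hda
  have hzD' : Cm (conjBy D z⁻¹) D := by
    have := hzD.conj z⁻¹
    rw [cb_inv] at this
    exact this.symm
  rw [← hda] at h2
  have h3 := h2.conj d
  rw [cb_inv', hzD'.cb_eq hd] at h3
  -- `A` commutes with `D^{z⁻¹}`
  have h4 := h3.conj z
  rw [cb_inv'] at h4
  have hAz : conjBy A z = A := by
    ext x
    rw [mem_cb]
    constructor
    · intro hx
      have := hz _ hx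
      have e : z⁻¹ * x * z = x := by
        have h5 : z * (z⁻¹ * x * z) = (z⁻¹ * x * z) * z := this.symm
        have h6 : x * z = (z⁻¹ * x * z) * z := by rw [← h5]; group
        exact (mul_right_cancel h6).symm
      rwa [e] at hx
    · intro hx
      have : z⁻¹ * x * z = x := by rw [mul_assoc, hz x hx]; group
      rwa [this]
  rw [hAz] at h4
  exact R_not_cm h h4

/-- A member meeting nontrivially a member with a rank one partner is equal to it. -/
theorem eq_of_inter (hS : IsRootSubgroupSet S) {A D B : Subgroup G} (hD : D ∈ S)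
    (h : IsRankOnePair A D) (hB : B ∈ S) {x : G} (hxA : x ∈ A) (hxB : x ∈ B) (hx : x ≠ 1) :
    B = A := by
  have hBD : IsRankOnePair B D := by
    refine (pair_or_cm hS hB hD).resolve_right fun hc => ?_
    have := omega_not_cm h (omega_conj (right_mem_omega h) (le_sup_left (b := D) hxA))
      (right_mem_omega h) (hc x hxB)
    exact hx (R_fix h hxA this)
  obtain ⟨d, hd, -, hdx⟩ := h.cond_left x hxA hx
  obtain ⟨d', hd', -, hdx'⟩ := hBD.cond_left x hxB hx
  rw [← hdx, cb_eq_iff, inv_inv, cb_mul] at hdx'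
  have hBom : B ∈ unipotentSubgroups A D := by
    rw [hdx']
    exact omega_conj (self_mem_omega A D) (le_sup_right (a := A) (mul_mem hd' (inv_mem hd)))
  exact omega_fix h hBom hxA hx (cb_of_mem hxB)

theorem exists_partner (hS : IsRootSubgroupSet S) {A : Subgroup G} (hA : A ∈ S)
    (hi : ¬ IsIsolatedIn (FAdj S) S A) : ∃ D ∈ S, IsRankOnePair A D := by
  simp only [IsIsolatedIn, not_and, not_forall] at hi
  obtain ⟨B, hB⟩ := hi hA
  by_cases h1 : FAdj S A B
  · exact ⟨B, h1.2.1, h1.2.2⟩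
  · have h2 : FAdj S B A := by tauto
    exact ⟨B, h2.1, RankOnePair_symm h2.2.2⟩

/-- A member with a rank one partner lying in a rank one group of members is one of its
unipotent subgroups. -/
theorem member_in_omega (hS : IsRootSubgroupSet S) {C D A : Subgroup G} (hC : C ∈ S)
    (h : IsRankOnePair C D) (hA : A ∈ S) {A' : Subgroup G} (hA' : A' ∈ S)
    (hAA' : IsRankOnePair A A') (hAle : A ≤ C ⊔ D) (hA'le : A' ≤ C ⊔ D) :
    A ∈ unipotentSubgroups C D := by
  have hmemS : ∀ X ∈ unipotentSubgroups C D, X ∈ S := by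
    rintro X ⟨x, -, rfl⟩
    exact hS.conj_mem C hC x
  by_contra hnot
  have hcm : ∀ X ∈ unipotentSubgroups C D, Cm A X := by
    intro X hX
    rcases hS.pair A hA X (hmemS X hX) with h1 | h1 | h1
    · exact cm_iff.1 h1
    · exfalso
      obtain ⟨a, ha, ha1⟩ := ne_bot_exists (R_ne_bot h1)
      obtain ⟨x, hx, -, hax⟩ := h1.cond_left a ha ha1
      apply hnot
      rw [cb_eq_iff, inv_inv] at hax
      rw [hax]
      exact omega_conj (omega_conj hX (hAle (inv_mem ha))) (omega_le hX hx)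
    · -- commutator case
      exfalso
      have hfix : ∀ a ∈ A, conjBy X a = X := fun a ha =>
        omega_not_cm h (omega_conj hX (hAle ha)) hX
          (comm_case_cm h1 (hS.commutative X (hmemS X hX)) ha)
      have hEX : ⁅A, X⁆ ≤ X := by
        rw [Subgroup.commutator_le]
        intro a ha x hx
        rw [commutatorElement_def]
        refine mul_mem ?_ (inv_mem hx)
        have := mem_cb_of_mem (g := a) hx
        rwa [hfix a ha] at this
      obtain ⟨e, he, he1⟩ := ne_bot_exists (hS.ne_bot _ h1.1)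
      have hpartner : ∃ X' ∈ S, IsRankOnePair X X' := by
        by_cases hXC : X = C
        · subst hXC
          exact ⟨D, hmemS D (right_mem_omega h), h⟩
        · exact ⟨C, hC, omega_pair_R h hX (self_mem_omega C D) hXC⟩
      obtain ⟨X', hX', hXX'⟩ := hpartner
      have hEeq : ⁅A, X⁆ = X := eq_of_inter hS hX' hXX' h1.1 (hEX he) he he1
      have hbot : ⁅A, X⁆ = ⊥ := by
        rw [cm_iff]
        intro a ha x hx
        exact (h1.2.1 x (by rw [hEeq]; exact hx) a (le_sup_left (b := X) ha)).symm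
      exact hS.ne_bot _ h1.1 hbot
  have hAY : ∀ y ∈ C ⊔ D, ∀ a ∈ A, a * y = y * a := by
    intro y hy a ha
    have : C ⊔ D ≤ Subgroup.centralizer (A : Set G) := by
      refine sup_le ?_ ?_ <;> intro x hx <;> rw [Subgroup.mem_centralizer_iff] <;> intro a ha
      · exact hcm C (self_mem_omega C D) a ha x hx
      · exact hcm D (right_mem_omega h) a ha x hx
    exact Subgroup.mem_centralizer_iff.1 (this hy) a ha
  exact R_not_cm hAA' fun a ha x hx => hAY x (hA'le hx) a ha

end RootSet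

end CfsgLib.Root
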