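import Cfsg.Agent.Lib.RootRankOne

set_option autoImplicit false

open Cfsg

namespace CfsgLib.Root

variable {G : Type*} [Group G] {S : Set (Subgroup G)}

theorem fadj_symm {A B : Subgroup G} (h : FAdj S A B) : FAdj S B A :=
  ⟨h.2.1, h.1, RankOnePair_symm h.2.2⟩

theorem fpath_symm {A B : Subgroup G} (h : Relation.ReflTransGen (FAdj S) A B) :
    Relation.ReflTransGen (FAdj S) B A := by
  induction h with
  | refl => exact .refl
  | tail _ h ih => exact (Relation.ReflTransGen.single (fadj_symm h)).trans ih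

theorem comp_eq_of_path {A B : Subgroup G} (h : Relation.ReflTransGen (FAdj S) A B) :
    componentOf (FAdj S) S A = componentOf (FAdj S) S B := by
  ext C
  exact ⟨fun hC => ⟨hC.1, (fpath_symm h).trans hC.2⟩, fun hC => ⟨hC.1, h.trans hC.2⟩⟩

theorem path_of_comp_eq {A B : Subgroup G} (hB : B ∈ S)
    (h : componentOf (FAdj S) S A = componentOf (FAdj S) S B) :
    Relation.ReflTransGen (FAdj S) A B :=
  (show B ∈ componentOf (FAdj S) S A from h ▸ ⟨hB, .refl⟩).2

theorem not_isolated_of_adj {A B : Subgroup G} (h : FAdj S A B) :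
    ¬ IsIsolatedIn (FAdj S) S A := fun hi => (hi.2 B).1 h

theorem fpath_conj (hS : IsRootSubgroupSet S) {A B : Subgroup G} (g : G)
    (h : Relation.ReflTransGen (FAdj S) A B) :
    Relation.ReflTransGen (FAdj S) (conjBy A g) (conjBy B g) := by
  induction h with
  | refl => exact .refl
  | tail _ h ih =>
    exact ih.tail ⟨hS.conj_mem _ h.1 g, hS.conj_mem _ h.2.1 g, R_conj h.2.2 g⟩

theorem fpath_conjugate {A B : Subgroup G} (h : Relation.ReflTransGen (FAdj S) A B) :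
    ∃ g : G, B = conjBy A g := by
  induction h with
  | refl => exact ⟨1, (cb_one A).symm⟩
  | tail _ h ih =>
    obtain ⟨g, rfl⟩ := ih
    obtain ⟨x, -, hx⟩ := right_mem_omega h.2.2
    exact ⟨x * g, hx.trans (cb_mul A g x)⟩

/-- In the commutator case the map `b ↦ a⁻¹ b⁻¹ a b` is an isomorphism. -/
theorem comm_iso (hS : IsRootSubgroupSet S) {A D B : Subgroup G} (hA : A ∈ S) (hD : D ∈ S)
    (hAD : IsRankOnePair A D) (hB : B ∈ S) (h : RootCommutatorCase S A B) {a : G} (ha : a ∈ A)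
    (ha1 : a ≠ 1) :
    ∃ φ : ↥B ≃* ↥⁅A, B⁆, ∀ b : ↥B, (φ b : G) = a⁻¹ * (b : G)⁻¹ * a * b := by
  have hmem : ∀ b : ↥B, a⁻¹ * (b : G)⁻¹ * a * b ∈ ⁅A, B⁆ := by
    intro b
    have := Subgroup.commutator_mem_commutator (inv_mem ha) (inv_mem b.2)
    rwa [commutatorElement_def, inv_inv, inv_inv] at this
  have hCcm : Cm ⁅A, B⁆ ⁅A, B⁆ := cm_self (hS.commutative _ h.1)
  let f : ↥B →* ↥⁅A, B⁆ := MonoidHom.mk' (fun b => ⟨_, hmem b⟩) fun b b' => by
    apply Subtype.ext
    simp only [Subgroup.coe_mul, mul_inv_rev]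
    have h1 := h.2.1 _ (hmem b) (b' : G) (le_sup_right (a := A) b'.2)
    have h2 := hCcm _ (hmem b) _ (hmem b')
    rw [h2]
    calc a⁻¹ * ((b' : G)⁻¹ * (b : G)⁻¹) * a * ((b : G) * b')
        = a⁻¹ * (b' : G)⁻¹ * a * ((a⁻¹ * (b : G)⁻¹ * a * b) * b') := by group
      _ = a⁻¹ * (b' : G)⁻¹ * a * (b' * (a⁻¹ * (b : G)⁻¹ * a * b)) := by rw [h1]
      _ = a⁻¹ * (b' : G)⁻¹ * a * b' * (a⁻¹ * (b : G)⁻¹ * a * b) := by group
  have hinj : Function.Injective f := by
    rw [injective_iff_map_eq_one]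
    intro b hb
    by_contra hb1
    have e : a⁻¹ * (b : G)⁻¹ * a * b = 1 := congrArg Subtype.val hb
    have e2 : a * b = b * a := by
      rw [mul_assoc, mul_assoc, inv_mul_eq_one] at e
      calc a * (b : G) = (b : G) * ((b : G)⁻¹ * (a * b)) := by group
        _ = b * a := by rw [← e]
    have he : conjBy A (b : G) = A := by
      refine eq_of_inter hS hD hAD (hS.conj_mem A hA _) ha ?_ ha1
      have h3 := mem_cb_of_mem (g := (b : G)) ha
      rwa [← e2, mul_inv_cancel_right] at h3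
    have hCA : ∀ a' ∈ A, a' * b * a'⁻¹ * (b : G)⁻¹ = 1 := by
      intro a' ha'
      by_contra hne
      have h1 : a' * b * a'⁻¹ * (b : G)⁻¹ ∈ A := by
        have := mul_mem ha' (show (b : G) * a'⁻¹ * (b : G)⁻¹ ∈ A from
          he ▸ mem_cb_of_mem (g := (b : G)) (inv_mem ha'))
        simpa [mul_assoc] using this
      have h2 : a' * b * a'⁻¹ * (b : G)⁻¹ ∈ ⁅A, B⁆ := by
        have := Subgroup.commutator_mem_commutator ha' b.2
        rwa [commutatorElement_def] at this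
      have heq := eq_of_inter hS hD hAD h.1 h1 h2 hne
      apply hne
      rw [mul_inv_eq_one, mul_inv_eq_iff_eq_mul]
      exact h.2.1 a' (by rw [heq]; exact ha') b (le_sup_right (a := A) b.2)
    have hcl := h.2.2.2 b b.2 (fun e => hb1 (Subtype.ext e))
    apply hS.ne_bot _ h.1
    rw [← hcl, eq_bot_iff, Subgroup.closure_le]
    rintro x ⟨a', ha', rfl⟩
    simpa using hCA a' ha'
  have hsurj : Function.Surjective f := by
    intro c
    have hle : ⁅A, B⁆ ≤ f.range.map ⁅A, B⁆.subtype := by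
      have hcl := h.2.2.1 a⁻¹ (inv_mem ha) (inv_ne_one.2 ha1)
      conv_lhs => rw [← hcl]
      rw [Subgroup.closure_le]
      rintro x ⟨b, hb, rfl⟩
      exact ⟨f ⟨b⁻¹, inv_mem hb⟩, ⟨_, rfl⟩, by simp [f]⟩
    obtain ⟨y, ⟨b, rfl⟩, hy⟩ := hle c.2
    exact ⟨b, Subtype.ext hy⟩
  exact ⟨MulEquiv.ofBijective f ⟨hinj, hsurj⟩, fun b => rfl⟩

end CfsgLib.Root
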