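import Mathlib
import Cfsg.Agent.Lib.RootRankOne
import Cfsg.Prelude.Def_Transfer

namespace Cfsg.Agent.RootSpecialRoots

open Cfsg CfsgLib.Root

variable {G : Type*} [Group G] {A B : Subgroup G}

/-- The element of `B` partnered with an element of `A`. -/
def Partner (A B : Subgroup G) (a u : G) : Prop :=
  a ∈ A ∧ a ≠ 1 ∧ u ∈ B ∧ conjBy A u = conjBy B a⁻¹

theorem exists_partner (hR : IsRankOnePair A B) {a : G} (ha : a ∈ A) (ha1 : a ≠ 1) :
    ∃ u, Partner A B a u := by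
  obtain ⟨b, hb, -, hab⟩ := hR.cond_left a ha ha1
  exact ⟨b⁻¹, ha, ha1, B.inv_mem hb, hab⟩

theorem Partner.ne_one (hR : IsRankOnePair A B) {a u : G} (h : Partner A B a u) : u ≠ 1 := by
  obtain ⟨ha, ha1, -, he⟩ := h
  rintro rfl
  rw [cb_one] at he
  apply hR.ne
  have h2 := congrArg (fun C => conjBy C a) he
  rw [cb_inv', cb_of_mem ha] at h2
  exact h2

theorem Partner.unique (hR : IsRankOnePair A B) {a u u' : G} (h : Partner A B a u)
    (h' : Partner A B a u') : u = u' := by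
  have he : conjBy A (u'⁻¹ * u) = A := by
    rw [← cb_mul, h.2.2.2, ← h'.2.2.2, cb_inv]
  exact (inv_mul_eq_one.1 (R_fix (RankOnePair_symm hR) (B.mul_mem (B.inv_mem h'.2.2.1) h.2.2.1) he)).symm

theorem Partner.inj (hR : IsRankOnePair A B) {a a' u : G} (h : Partner A B a u)
    (h' : Partner A B a' u) : a = a' := by
  have he : conjBy B (a' * a⁻¹) = B := by
    rw [← cb_mul, ← h.2.2.2, h'.2.2.2, cb_inv']
  exact (mul_inv_eq_one.1 (R_fix hR (A.mul_mem h'.1 (A.inv_mem h.1)) he)).symm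

theorem Partner.braid (hs : IsSpecialRankOnePair A B) {a u : G} (h : Partner A B a u) :
    u * a * u⁻¹ = a⁻¹ * u * a := by
  have h1 := hs.2 a h.1 h.2.1 u⁻¹ (B.inv_mem h.2.2.1) (inv_ne_one.2 (h.ne_one hs.1))
    (by rw [inv_inv]; exact h.2.2.2)
  rwa [inv_inv] at h1

theorem Partner.braid' (hs : IsSpecialRankOnePair A B) {a u : G} (h : Partner A B a u) :
    a * u * a = u * a * u := by
  have h1 := h.braid hs
  calc a * u * a = a * (a * (u * a * u⁻¹)) := by rw [h1]; group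
    _ = a * (a * (a⁻¹ * u * a)) := by rw [h1]
    _ = a * (u * a) := by group
    _ = u * a * u := by
      have h2 : a * (u * a * u⁻¹) = u * a := by rw [h1]; group
      calc a * (u * a) = a * (u * a * u⁻¹) * u := by group
        _ = u * a * u := by rw [h2]

theorem Partner.conj_left (hs : IsSpecialRankOnePair A B) {a u : G} (h : Partner A B a u) :
    (a * u * a) * a * (a * u * a)⁻¹ = u := by
  calc (a * u * a) * a * (a * u * a)⁻¹ = a * (u * a * u⁻¹) * a⁻¹ := by group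
    _ = a * (a⁻¹ * u * a) * a⁻¹ := by rw [h.braid hs]
    _ = u := by group

theorem Partner.conj_right (hs : IsSpecialRankOnePair A B) {a u : G} (h : Partner A B a u) :
    (a * u * a) * u * (a * u * a)⁻¹ = a := by
  have h1 := h.braid' hs
  calc (a * u * a) * u * (a * u * a)⁻¹ = (u * a * u) * u * (u * a * u)⁻¹ := by rw [h1]
    _ = (u * a * u) * a⁻¹ * u⁻¹ := by group
    _ = (a * u * a) * a⁻¹ * u⁻¹ := by rw [h1]
    _ = a := by group

theorem Partner.map_left {a u : G} (h : Partner A B a u) : conjBy A (a * u * a) = B := by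
  rw [← cb_mul, cb_of_mem h.1, ← cb_mul, h.2.2.2, cb_inv']

theorem Partner.map_right (hs : IsSpecialRankOnePair A B) {a u : G} (h : Partner A B a u) :
    conjBy B (a * u * a) = A := by
  have hn : a * u * a ∈ A ⊔ B :=
    mul_mem (mul_mem (Subgroup.mem_sup_left h.1) (Subgroup.mem_sup_right h.2.2.1)) (Subgroup.mem_sup_left h.1)
  by_contra hne
  have hB := omega_conj (right_mem_omega hs.1) hn
  have hmem : a ∈ conjBy B (a * u * a) ⊓ A := by
    refine ⟨?_, h.1⟩
    show a ∈ conjBy B (a * u * a)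
    have := mem_cb_of_mem (g := a * u * a) h.2.2.1
    rwa [h.conj_right hs] at this
  rw [R_inf (omega_pair_R hs.1 hB (self_mem_omega A B) hne), Subgroup.mem_bot] at hmem
  exact h.2.1 hmem

theorem Partner.inv (hs : IsSpecialRankOnePair A B) {a u : G} (h : Partner A B a u) :
    Partner A B a⁻¹ u⁻¹ := by
  refine ⟨A.inv_mem h.1, inv_ne_one.2 h.2.1, B.inv_mem h.2.2.1, ?_⟩
  have h1 := h.map_right hs
  rw [h.braid' hs, ← cb_mul, cb_of_mem h.2.2.1, ← cb_mul] at h1
  rw [inv_inv, ← h1, cb_inv]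

variable (hs : IsSpecialRankOnePair A B) (hab : HasAbelianUnipotents A B)

include hs hab in
theorem pow_partner : ∀ i : ℕ, 1 ≤ i → ∀ {a u v : G}, Partner A B a u → Partner A B (a ^ i) v → v ^ i = u := by
  have hR := hs.1
  have hcA : ∀ x ∈ A, ∀ y ∈ A, x * y = y * x := fun x hx y hy =>
    congrArg Subtype.val (hab.1.is_comm.comm ⟨x, hx⟩ ⟨y, hy⟩)
  intro i hi
  induction i, hi using Nat.le_induction with
  | base =>
    intro a u v h hv
    rw [pow_one] at hv ⊢
    exact hv.unique hR h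
  | succ i hi ih =>
    intro a u v' h hv'
    set n := a * u * a with hn
    by_cases hai : a ^ i = 1
    · have hui : u ^ i = 1 := by
        rw [← h.conj_left hs, conj_pow, hai, mul_one, mul_inv_cancel]
      rw [pow_succ, hai, one_mul] at hv'
      rw [hv'.unique hR h, pow_succ, hui, one_mul]
    obtain ⟨v, hv⟩ := exists_partner hR (A.pow_mem h.1 i) hai
    have hvi : v ^ i = u := ih h hv
    set z := u⁻¹ * v with hz
    set w := n * v * n⁻¹ with hw
    have hwA : w ∈ A := by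
      rw [← h.map_right hs]; exact mem_cb_of_mem hv.2.2.1
    have hwi : w ^ i = a := by rw [hw, conj_pow, hvi, h.conj_right hs]
    set w' := n⁻¹ * v * n with hw'
    have h3 : n⁻¹ * u * n = a := by
      have e := h.conj_left hs
      rw [← hn] at e
      rw [← e]; group
    have hw'A : w' ∈ A := by
      have h1 : conjBy B n⁻¹ = A := by
        conv_rhs => rw [← cb_inv A n]
        rw [h.map_left]
      rw [← h1]
      have h2 := mem_cb_of_mem (g := n⁻¹) hv.2.2.1
      rwa [inv_inv] at h2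
    have hw'i : w' ^ i = a := by
      have h2 : (n⁻¹ * v * n⁻¹⁻¹) ^ i = n⁻¹ * v ^ i * n⁻¹⁻¹ := conj_pow
      rw [inv_inv, hvi, h3] at h2
      exact h2
    -- the point of the next power
    have hζ : n⁻¹ * z * n = a⁻¹ * w' := by
      calc n⁻¹ * z * n = (n⁻¹ * u * n)⁻¹ * (n⁻¹ * v * n) := by rw [hz]; group
        _ = a⁻¹ * w' := by rw [h3, hw']
    have hd : (w' ^ (i + 1))⁻¹ = (a * a * (n⁻¹ * z * n))⁻¹ := by
      rw [hζ, pow_succ, hw'i]; group
    have hne : w' ^ (i + 1) ≠ 1 := fun e => hv'.2.1 (by rw [← hw'i, ← pow_mul, mul_comm, pow_mul, e, one_pow])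
    obtain ⟨t, ht⟩ := exists_partner hR (A.pow_mem hw'A (i + 1)) hne
    have hstep : Partner A B (a ^ (i + 1)) (u * t⁻¹) := by
      refine ⟨A.pow_mem h.1 _, hv'.2.1, B.mul_mem h.2.2.1 (B.inv_mem ht.2.2.1), ?_⟩
      have e1 : conjBy B (a ^ (i + 1))⁻¹ = conjBy A (a⁻¹ * v) := by
        rw [← cb_mul, hv.2.2.2, cb_mul, pow_succ, mul_inv_rev]
      have e2 : a⁻¹ * v = u * (a * a * (n⁻¹ * z * n)) * n⁻¹ := by
        have e3 : a⁻¹ * u = u * a * u⁻¹ * a⁻¹ := by rw [h.braid hs]; group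
        calc a⁻¹ * v = (a⁻¹ * u) * (u⁻¹ * v) := by group
          _ = u * (a * a * (n⁻¹ * z * n)) * n⁻¹ := by rw [e3, hz, hn]; group
      have e4 : conjBy A n⁻¹ = B := by
        conv_rhs => rw [← cb_inv B n]
        rw [h.map_right hs]
      have e5 : a * a * (n⁻¹ * z * n) = w' ^ (i + 1) := inv_injective hd.symm
      have e6 : conjBy B (w' ^ (i + 1)) = conjBy A t⁻¹ := by
        rw [(ht.inv hs).2.2.2, inv_inv]
      rw [e1, e2, e5, ← cb_mul A n⁻¹, e4, ← cb_mul B (w' ^ (i + 1)), e6, cb_mul]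
    have hv'' : v' = u * t⁻¹ := hv'.unique hR hstep
    have hti : v' ^ i = t := by
      refine ih ht ?_
      rw [← pow_mul, mul_comm, pow_mul, hw'i]
      exact hv'
    rw [pow_succ', hti, hv'']
    group

include hs hab in
theorem elementary_or_divisible :
    (∃ p : ℕ, p.Prime ∧ IsElementaryAbelian p A) ∨
    ((∀ a ∈ A, a ≠ 1 → ¬ IsOfFinOrder a) ∧ ∀ a ∈ A, ∀ n : ℕ, 0 < n → ∃ c ∈ A, c ^ n = a) := by
  classical
  have hR := hs.1
  have hcA : ∀ x ∈ A, ∀ y ∈ A, Commute x y := fun x hx y hy =>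
    congrArg Subtype.val (hab.1.is_comm.comm ⟨x, hx⟩ ⟨y, hy⟩)
  by_cases htf : ∀ a ∈ A, a ≠ 1 → ¬ IsOfFinOrder a
  · refine Or.inr ⟨htf, fun a ha n hn => ?_⟩
    rcases eq_or_ne a 1 with rfl | ha1
    · exact ⟨1, one_mem _, one_pow _⟩
    obtain ⟨u, hu⟩ := exists_partner hR ha ha1
    have han : a ^ n ≠ 1 := fun e => htf a ha ha1 (isOfFinOrder_iff_pow_eq_one.2 ⟨n, hn, e⟩)
    obtain ⟨v, hv⟩ := exists_partner hR (A.pow_mem ha n) han
    refine ⟨(a * u * a) * v * (a * u * a)⁻¹, ?_, ?_⟩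
    · rw [← hu.map_right hs]; exact mem_cb_of_mem hv.2.2.1
    · rw [conj_pow, pow_partner hs hab n hn hu hv, hu.conj_right hs]
  left
  push Not at htf
  obtain ⟨a₁, ha₁, ha₁1, ha₁f⟩ := htf
  obtain ⟨p, hp, hpn⟩ := Nat.exists_prime_and_dvd (n := orderOf a₁) (fun h => ha₁1 (orderOf_eq_one_iff.1 h))
  set a := a₁ ^ (orderOf a₁ / p)
  have ha : a ∈ A := A.pow_mem ha₁ _
  have hao : orderOf a = p := orderOf_pow_orderOf_div (orderOf_pos_iff.2 ha₁f).ne' hpn
  have ha1 : a ≠ 1 := fun e => hp.ne_one (by rw [← hao, e, orderOf_one])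
  refine ⟨p, hp, hab.1, fun d hd => ?_⟩
  by_contra hdp
  have hpow : (a * d) ^ p = d ^ p := by
    rw [(hcA a ha d hd).mul_pow, ← hao, pow_orderOf_eq_one, one_mul]
  have hd1 : d ≠ 1 := fun e => hdp (by rw [e, one_pow])
  have had1 : a * d ≠ 1 := fun e => hdp (by rw [← hpow, e, one_pow])
  obtain ⟨v, hv⟩ := exists_partner hR (A.pow_mem hd p) hdp
  obtain ⟨u, hu⟩ := exists_partner hR hd hd1
  obtain ⟨u', hu'⟩ := exists_partner hR (A.mul_mem ha hd) had1
  have e1 := pow_partner hs hab p hp.one_le hu hv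
  have e2 := pow_partner hs hab p hp.one_le hu' (hpow.symm ▸ hv)
  rw [e1] at e2
  subst e2
  exact ha1 (mul_eq_right.1 (hu'.inj hR hu))

end Cfsg.Agent.RootSpecialRoots
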