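import Cfsg.Agent.Lib.RootSets

set_option autoImplicit false

open Cfsg

namespace CfsgLib.Root

variable {G : Type*} [Group G] {S : Set (Subgroup G)}

/-- If the commutator of two members is a member, the pair is in the commutator case. -/
theorem comm_case_of_mem (hS : IsRootSubgroupSet S) {A B : Subgroup G} (hAS : A ∈ S) (hB : B ∈ S)
    (hC : ⁅A, B⁆ ∈ S) : RootCommutatorCase S A B := by
  rcases hS.pair A hAS B hB with h | h | h
  · exact absurd h (hS.ne_bot _ hC)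
  · exfalso
    have hle1 : ∀ x, x ∈ A ∨ x ∈ B → conjBy ⁅A, B⁆ x ≤ ⁅A, B⁆ := by
      intro x hx
      rw [conjBy, Subgroup.map_le_iff_le_comap, Subgroup.commutator_le]
      intro a ha b hb
      rw [Subgroup.mem_comap, MulEquiv.coe_toMonoidHom, MulAut.conj_apply, commutatorElement_def]
      rcases hx with hx | hx
      · have h1 := mul_mem (Subgroup.commutator_mem_commutator (mul_mem hx ha) hb)
          (inv_mem (Subgroup.commutator_mem_commutator hx hb))
        simpa [commutatorElement_def, mul_assoc] using h1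
      · have h1 := mul_mem (inv_mem (Subgroup.commutator_mem_commutator ha hx))
          (Subgroup.commutator_mem_commutator ha (mul_mem hx hb))
        simpa [commutatorElement_def, mul_assoc] using h1
    have hnorm : ∀ x, x ∈ A ∨ x ∈ B → conjBy ⁅A, B⁆ x = ⁅A, B⁆ := by
      intro x hx
      refine le_antisymm (hle1 x hx) ?_
      have := cb_mono x (hle1 x⁻¹ (hx.imp inv_mem inv_mem))
      rwa [cb_inv'] at this
    have hCle : ⁅A, B⁆ ≤ A ⊔ B := by
      rw [Subgroup.commutator_le]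
      intro a ha b hb
      rw [commutatorElement_def]
      exact mul_mem (mul_mem (mul_mem (le_sup_left (b := B) ha) (le_sup_right (a := A) hb))
        (inv_mem (le_sup_left (b := B) ha))) (inv_mem (le_sup_right (a := A) hb))
    have key : ∀ {P Q : Subgroup G}, IsRankOnePair P Q → P ∈ S → Q ∈ S → ⁅A, B⁆ ≤ P ⊔ Q →
        (∀ x ∈ P, conjBy ⁅A, B⁆ x = ⁅A, B⁆) → (∀ x ∈ Q, conjBy ⁅A, B⁆ x = ⁅A, B⁆) →
        ∀ c ∈ ⁅A, B⁆, ∀ p ∈ P, c * p = p * c := by
      intro P Q hPQ hP hQ hle hnP hnQ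
      have hfix : ∀ c ∈ ⁅A, B⁆, conjBy P c = P := by
        rcases pair_or_cm hS hC hP with hR | hR
        · intro c _
          obtain ⟨p, hp, hp1⟩ := ne_bot_exists (R_ne_bot (RankOnePair_symm hR))
          exact absurd (R_fix (RankOnePair_symm hR) hp (hnP p hp)) hp1
        · intro c hc
          exact omega_not_cm hPQ (omega_conj (self_mem_omega P Q) (hle hc)) (self_mem_omega P Q)
            (hR c hc)
      intro c hc p hp
      have hmP : c * p * c⁻¹ * p⁻¹ ∈ P := by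
        refine mul_mem ?_ (inv_mem hp)
        have := mem_cb_of_mem (g := c) hp
        rwa [hfix c hc] at this
      have hmC : c * p * c⁻¹ * p⁻¹ ∈ ⁅A, B⁆ := by
        have h1 : p * c⁻¹ * p⁻¹ ∈ ⁅A, B⁆ := by
          rw [← hnP p hp]; exact mem_cb_of_mem (inv_mem hc)
        simpa [mul_assoc] using mul_mem hc h1
      by_contra hne
      have hne' : c * p * c⁻¹ * p⁻¹ ≠ 1 := fun e => hne (by
        rw [mul_inv_eq_one, mul_inv_eq_iff_eq_mul] at e; exact e)
      have heq := eq_of_inter hS hQ hPQ hC hmP hmC hne'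
      obtain ⟨q, hq, hq1⟩ := ne_bot_exists (R_ne_bot (RankOnePair_symm hPQ))
      exact hq1 (R_fix (RankOnePair_symm hPQ) hq (heq ▸ hnQ q hq))
    have hcA := key h hAS hB hCle (fun x hx => hnorm x (Or.inl hx)) (fun x hx => hnorm x (Or.inr hx))
    have hcB := key (RankOnePair_symm h) hB hAS (by rw [sup_comm]; exact hCle)
      (fun x hx => hnorm x (Or.inr hx)) (fun x hx => hnorm x (Or.inl hx))
    obtain ⟨a, ha, ha1⟩ := ne_bot_exists (R_ne_bot h)
    refine ha1 (R_fix h ha ?_)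
    refine omega_not_cm h (omega_conj (right_mem_omega h) (le_sup_left (b := B) ha))
      (right_mem_omega h) ?_
    intro x hx b hb
    have hb' := mem_cb.1 hx
    set b' := a⁻¹ * x * a with hb'def
    have hx' : x = (a * b' * a⁻¹ * b'⁻¹) * b' := by rw [hb'def]; group
    have hE : a * b' * a⁻¹ * b'⁻¹ ∈ ⁅A, B⁆ := by
      have := Subgroup.commutator_mem_commutator ha hb'
      rwa [commutatorElement_def] at this
    have h1 := hcB _ hE b hb
    have h2 := cm_self (hS.commutative B hB) b' hb' b hb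
    rw [hx', mul_assoc, h2, ← mul_assoc, h1, mul_assoc]
  · exact h

/-- Two commutator cases `[A,B]=C`, `[C,D]=A`. -/
structure Tri (S : Set (Subgroup G)) (A B C D : Subgroup G) : Prop where
  h1 : RootCommutatorCase S A B
  e1 : ⁅A, B⁆ = C
  h2 : RootCommutatorCase S C D
  e2 : ⁅C, D⁆ = A

namespace Tri

variable {A B C D : Subgroup G}

theorem symm (h : Tri S A B C D) : Tri S C D A B := ⟨h.h2, h.e2, h.h1, h.e1⟩

theorem cmCA (h : Tri S A B C D) : Cm C A := fun c hc a ha => by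
  rw [← h.e1] at hc; exact h.h1.2.1 c hc a (le_sup_left (b := B) ha)

theorem cmCB (h : Tri S A B C D) : Cm C B := fun c hc b hb => by
  rw [← h.e1] at hc; exact h.h1.2.1 c hc b (le_sup_right (a := A) hb)

theorem comm_mem (h : Tri S A B C D) {b a : G} (hb : b ∈ B) (ha : a ∈ A) : b * a * b⁻¹ * a⁻¹ ∈ C := by
  have := Subgroup.commutator_mem_commutator hb ha
  rwa [Subgroup.commutator_comm, h.e1, commutatorElement_def] at this

/-- A nontrivial element of `A` commutes with no member of the generating family. -/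
theorem not_fix (h : Tri S A B C D) (hS : IsRootSubgroupSet S) {a : G} (ha : a ∈ A)
    (hc : ∀ b ∈ B, a * b = b * a) : a = 1 := by
  by_contra ha1
  refine hS.ne_bot _ h.h1.1 (eq_bot_iff.2 ?_)
  rw [← h.h1.2.2.1 a ha ha1, Subgroup.closure_le]
  rintro x ⟨b, hb, rfl⟩
  rw [SetLike.mem_coe, Subgroup.mem_bot]
  show a * b * a⁻¹ * b⁻¹ = 1
  rw [hc b hb]; group

theorem not_fix' (h : Tri S A B C D) (hS : IsRootSubgroupSet S) {b : G} (hb : b ∈ B)
    (hc : ∀ a ∈ A, b * a = a * b) : b = 1 := by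
  by_contra hb1
  refine hS.ne_bot _ h.h1.1 (eq_bot_iff.2 ?_)
  rw [← h.h1.2.2.2 b hb hb1, Subgroup.closure_le]
  rintro x ⟨a, ha, rfl⟩
  rw [SetLike.mem_coe, Subgroup.mem_bot]
  show a * b * a⁻¹ * b⁻¹ = 1
  rw [← hc a ha]; group

theorem inter (h : Tri S A B C D) (hS : IsRootSubgroupSet S) {a : G} (ha : a ∈ A) (hc : a ∈ C) : a = 1 :=
  h.not_fix hS ha (h.cmCB a hc)

theorem dec (h : Tri S A B C D) {x : G} (hx : x ∈ A ⊔ C) : ∃ a ∈ A, ∃ c ∈ C, a * c = x := by
  have hle : A ≤ Subgroup.normalizer (C : Set G) := fun a ha => cb_self_iff.1 (h.cmCA.cb_eq ha)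
  rw [← SetLike.mem_coe, Subgroup.coe_mul_of_left_le_normalizer_right A C hle] at hx
  exact hx

theorem uniq (h : Tri S A B C D) (hS : IsRootSubgroupSet S) {a a' c c' : G} (ha : a ∈ A) (ha' : a' ∈ A)
    (hc : c ∈ C) (hc' : c' ∈ C) (e : a * c = a' * c') : a = a' ∧ c = c' := by
  have e1 : a'⁻¹ * a = c' * c⁻¹ := by
    calc a'⁻¹ * a = a'⁻¹ * (a * c) * c⁻¹ := by group
      _ = c' * c⁻¹ := by rw [e]; group
  have e2 := h.inter hS (mul_mem (inv_mem ha') ha) (e1 ▸ mul_mem hc' (inv_mem hc))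
  have e3 : a = a' := (inv_mul_eq_one.1 e2).symm
  exact ⟨e3, mul_left_cancel (e3 ▸ e)⟩

theorem norm_le (h : Tri S A B C D) {b : G} (hb : b ∈ B) : conjBy (A ⊔ C) b ≤ A ⊔ C := by
  rw [cb_sup]
  refine sup_le (fun x hx => ?_) ?_
  · have ha := mem_cb.1 hx
    have := mul_mem (le_sup_right (a := A) (h.comm_mem hb ha)) (le_sup_left (b := C) ha)
    simpa [mul_assoc] using this
  · rw [h.cmCB.cb_eq hb]; exact le_sup_right

theorem norm_gen (h : Tri S A B C D) : B ≤ Subgroup.normalizer ((A ⊔ C : Subgroup G) : Set G) := by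
  intro b hb
  refine cb_self_iff.1 (le_antisymm (h.norm_le hb) ?_)
  have := cb_mono b (h.norm_le (inv_mem hb))
  rwa [cb_inv'] at this

theorem norm_all (h : Tri S A B C D) {x : G} (hx : x ∈ B ⊔ D) : conjBy (A ⊔ C) x = A ⊔ C := by
  refine cb_self_iff.2 (sup_le h.norm_gen ?_ hx)
  have := h.symm.norm_gen
  rwa [sup_comm] at this

theorem fix_eq (h : Tri S A B C D) (hS : IsRootSubgroupSet S) :
    (A ⊔ C) ⊓ Subgroup.centralizer (B : Set G) = C := by
  refine le_antisymm (fun x hx => ?_) (le_inf le_sup_right fun c hc =>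
    Subgroup.mem_centralizer_iff.2 fun b hb => (h.cmCB c hc b hb).symm)
  obtain ⟨a, ha, c, hc, rfl⟩ := h.dec hx.1
  have : a = 1 := h.not_fix hS ha fun b hb => by
    have e := Subgroup.mem_centralizer_iff.1 hx.2 b hb
    have e2 := h.cmCB c hc b hb
    refine mul_right_cancel (b := c) ?_
    calc a * b * c = a * (c * b) := by rw [mul_assoc, e2]
      _ = b * a * c := by rw [← mul_assoc, ← e, mul_assoc]
  rw [this, one_mul]; exact hc

theorem fix_conj (h : Tri S A B C D) (E : Subgroup G) {x : G} (hx : x ∈ B ⊔ D) :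
    conjBy ((A ⊔ C) ⊓ Subgroup.centralizer (E : Set G)) x =
      (A ⊔ C) ⊓ Subgroup.centralizer (conjBy E x : Set G) := by
  have e := h.norm_all hx
  ext y
  rw [mem_cb, Subgroup.mem_inf, Subgroup.mem_inf, ← mem_cb (A := A ⊔ C), e]
  refine and_congr_right fun _ => ?_
  rw [Subgroup.mem_centralizer_iff, Subgroup.mem_centralizer_iff]
  constructor
  · intro hh z hz
    have h1 := hh _ (mem_cb.1 hz)
    calc z * y = x * ((x⁻¹ * z * x) * (x⁻¹ * y * x)) * x⁻¹ := by group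
      _ = x * ((x⁻¹ * y * x) * (x⁻¹ * z * x)) * x⁻¹ := by rw [h1]
      _ = y * z := by group
  · intro hh z hz
    have h1 := hh _ (mem_cb_of_mem (g := x) hz)
    calc z * (x⁻¹ * y * x) = x⁻¹ * ((x * z * x⁻¹) * y) * x := by group
      _ = x⁻¹ * (y * (x * z * x⁻¹)) * x := by rw [h1]
      _ = x⁻¹ * y * x * z := by group

theorem key_eqn (h : Tri S A B C D) (hS : IsRootSubgroupSet S) {b d : G} (hb : b ∈ B) (hd : d ∈ D)
    (he : ∀ y ∈ B ⊔ D, (b * d * b⁻¹ * d⁻¹) * y = y * (b * d * b⁻¹ * d⁻¹))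
    {a : G} (ha : a ∈ A) :
    (b * d * b⁻¹ * d⁻¹) * (b * a * b⁻¹ * a⁻¹) = (b * a * b⁻¹ * a⁻¹) * (b * d * b⁻¹ * d⁻¹) ∧
    (b * d * b⁻¹ * d⁻¹) * ((d * (b * a * b⁻¹ * a⁻¹) * d⁻¹ * (b * a * b⁻¹ * a⁻¹)⁻¹) * a) =
      a * (b * d * b⁻¹ * d⁻¹) := by
  set e := b * d * b⁻¹ * d⁻¹ with hedef
  set c := b * a * b⁻¹ * a⁻¹ with hcdef
  set p := d * c * d⁻¹ * c⁻¹ with hpdef
  have hcC : c ∈ C := h.comm_mem hb ha
  have hpA : p ∈ A := h.symm.comm_mem hd hcC
  have heX : e ∈ B ⊔ D := by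
    exact mul_mem (mul_mem (mul_mem (le_sup_left (b := D) hb) (le_sup_right (a := B) hd))
      (inv_mem (le_sup_left (b := D) hb))) (inv_mem (le_sup_right (a := B) hd))
  have hfixE : ∀ (E : Subgroup G), E ≤ B ⊔ D → conjBy E e = E := fun E hE =>
    Cm.cb_eq (B := Subgroup.zpowers e) (fun y hy z hz => by
      obtain ⟨i, rfl⟩ := hz
      exact (Commute.zpow_right (show Commute y e from (he y (hE hy)).symm) i).eq) (Subgroup.mem_zpowers e)
  have heC : conjBy C e = C := by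
    conv_rhs => rw [← h.fix_eq hS, ← hfixE B le_sup_left, ← h.fix_conj B heX, h.fix_eq hS]
  have heA : conjBy A e = A := by
    have h2 := h.symm.fix_eq hS
    rw [sup_comm] at h2
    conv_rhs => rw [← h2, ← hfixE D le_sup_right, ← h.fix_conj D heX, h2]
  have hda : d * a = a * d := (h.symm.cmCB a ha d hd).symm
  have hac : a * c = c * a := (h.cmCA c hcC a ha).symm
  have main : e * (p * a * c) * e⁻¹ = a * c := by
    calc e * (p * a * c) * e⁻¹ = (e * d) * (c * (d⁻¹ * (d * a)) ) * (e * d)⁻¹ := by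
          rw [show p * a * c = p * (c * a) by rw [mul_assoc, hac], hpdef]
          nth_rewrite 2 [show a = d⁻¹ * (d * a) by group]
          rw [hda]; group
      _ = b * (d * a * d⁻¹) * b⁻¹ := by
          rw [show c * (d⁻¹ * (d * a)) = b * a * b⁻¹ by rw [hcdef]; group, hedef]; group
      _ = c * a := by rw [hda, mul_inv_cancel_right, hcdef]; group
      _ = a * c := hac.symm
  have u := h.uniq hS (a := e * (p * a) * e⁻¹) (c := e * c * e⁻¹) (a' := a) (c' := c)
    (by have := mem_cb_of_mem (g := e) (mul_mem hpA ha); rwa [heA] at this) ha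
    (by have := mem_cb_of_mem (g := e) hcC; rwa [heC] at this) hcC
    (by rw [← main]; group)
  exact ⟨mul_inv_eq_iff_eq_mul.1 u.2, mul_inv_eq_iff_eq_mul.1 u.1⟩

theorem fix_all (h : Tri S A B C D) (hS : IsRootSubgroupSet S) {b d : G} (hb : b ∈ B) (hb1 : b ≠ 1) (hd : d ∈ D)
    (he : ∀ y ∈ B ⊔ D, (b * d * b⁻¹ * d⁻¹) * y = y * (b * d * b⁻¹ * d⁻¹)) :
    ∀ c ∈ C, (b * d * b⁻¹ * d⁻¹) * c = c * (b * d * b⁻¹ * d⁻¹) := by
  intro c hc
  have hle : C ≤ Subgroup.centralizer ({b * d * b⁻¹ * d⁻¹} : Set G) := by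
    rw [← h.e1, ← h.h1.2.2.2 b hb hb1, Subgroup.closure_le]
    rintro x ⟨a, ha, rfl⟩
    rw [SetLike.mem_coe, Subgroup.mem_centralizer_singleton_iff]
    have h1 : Commute (b * d * b⁻¹ * d⁻¹) (b * a * b⁻¹ * a⁻¹) := (h.key_eqn hS hb hd he ha).1
    have h2 := h1.inv_right
    rw [show (b * a * b⁻¹ * a⁻¹)⁻¹ = a * b * a⁻¹ * b⁻¹ by group] at h2
    exact h2.symm.eq
  exact ((Subgroup.mem_centralizer_singleton_iff).1 (hle hc)).symm

theorem rankOne (h : Tri S A B C D) (hS : IsRootSubgroupSet S) (hB : B ∈ S) (hD : D ∈ S) :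
    IsRankOnePair B D := by
  obtain ⟨b, hb, hb1⟩ := ne_bot_exists (hS.ne_bot B hB)
  obtain ⟨d, hd, hd1⟩ := ne_bot_exists (hS.ne_bot D hD)
  rcases hS.pair B hB D hD with hc | hc | hc
  · exfalso
    have hcm := cm_iff.1 hc
    refine hd1 (h.symm.not_fix' hS hd fun c hcC => ?_)
    have hf : conjBy C d = C := by
      conv_rhs => rw [← h.fix_eq hS, ← hcm.cb_eq hd, ← h.fix_conj B (le_sup_right (a := B) hd), h.fix_eq hS]
    have h1 : d * c * d⁻¹ * c⁻¹ ∈ C := mul_mem (by have := mem_cb_of_mem (g := d) hcC; rwa [hf] at this) (inv_mem hcC)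
    have h2 := h.inter hS (h.symm.comm_mem hd hcC) h1
    exact mul_inv_eq_iff_eq_mul.1 (mul_inv_eq_one.1 h2)
  · exact hc
  · exfalso
    have he : ∀ y ∈ B ⊔ D, (b * d * b⁻¹ * d⁻¹) * y = y * (b * d * b⁻¹ * d⁻¹) := fun y hy =>
      hc.2.1 _ (by have := Subgroup.commutator_mem_commutator hb hd; rwa [commutatorElement_def] at this) y hy
    have he' : ∀ y ∈ D ⊔ B, (d * b * d⁻¹ * b⁻¹) * y = y * (d * b * d⁻¹ * b⁻¹) := fun y hy => by
      rw [show d * b * d⁻¹ * b⁻¹ = (b * d * b⁻¹ * d⁻¹)⁻¹ by group]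
      exact (Commute.inv_left (he y (by rwa [sup_comm] at hy))).eq
    refine hd1 (h.symm.not_fix' hS hd fun c hcC => ?_)
    have hle : C ≤ Subgroup.centralizer ({d} : Set G) := by
      rw [← h.e1, ← h.h1.2.2.2 b hb hb1, Subgroup.closure_le]
      rintro x ⟨a, ha, rfl⟩
      rw [SetLike.mem_coe, Subgroup.mem_centralizer_singleton_iff]
      have h2 := (h.key_eqn hS hb hd he ha).2
      have h3 := h.symm.fix_all hS hd hd1 hb he' a ha
      have h4 : (b * d * b⁻¹ * d⁻¹) * a = a * (b * d * b⁻¹ * d⁻¹) := by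
        have : Commute (d * b * d⁻¹ * b⁻¹)⁻¹ a := Commute.inv_left h3
        rw [show (d * b * d⁻¹ * b⁻¹)⁻¹ = b * d * b⁻¹ * d⁻¹ by group] at this
        exact this.eq
      rw [← h4] at h2
      have h5 := mul_eq_right.1 (mul_left_cancel h2)
      have h6 : Commute d (b * a * b⁻¹ * a⁻¹) := mul_inv_eq_iff_eq_mul.1 (mul_inv_eq_one.1 h5)
      have h7 := h6.inv_right
      rw [show (b * a * b⁻¹ * a⁻¹)⁻¹ = a * b * a⁻¹ * b⁻¹ by group] at h7
      exact h7.symm.eq
    exact (Subgroup.mem_centralizer_singleton_iff.1 (hle hcC)).symm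

theorem orbit_eq (h : Tri S A B C D) (hS : IsRootSubgroupSet S) (hB : B ∈ S) (hD : D ∈ S) :
    {E | ∃ x ∈ B ⊔ D, E = conjBy A x} = (fun b : G => conjBy A b) '' (B : Set G) ∪ {C} ∧
    {E | ∃ x ∈ B ⊔ D, E = conjBy A x} = {E | ∃ x ∈ B ⊔ D, E = conjBy C x} := by
  have hR := h.rankOne hS hB hD
  have h2 := h.symm.fix_eq hS
  rw [sup_comm] at h2
  obtain ⟨z, hz, hBz⟩ := right_mem_omega (RankOnePair_symm hR)
  have hz' : z ∈ B ⊔ D := by rwa [sup_comm] at hz
  have hCA : C = conjBy A z := by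
    rw [← h2, h.fix_conj D hz', ← hBz, h.fix_eq hS]
  constructor
  · ext E
    constructor
    · rintro ⟨x, hx, rfl⟩
      have hm : conjBy D x ∈ unipotentSubgroups D B := ⟨x, by rwa [sup_comm], rfl⟩
      rw [← omega_swap (RankOnePair_symm hR)] at hm
      rcases omega_eq hR hm with he | ⟨b, hb, he⟩
      · right
        rw [Set.mem_singleton_iff, ← h2, h.fix_conj D hx, he, h.fix_eq hS]
      · left
        refine ⟨b, hb, ?_⟩
        show conjBy A b = conjBy A x
        rw [← h2, h.fix_conj D hx, h.fix_conj D (le_sup_left (b := D) hb), he]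
    · rintro (⟨b, hb, rfl⟩ | hE)
      · exact ⟨b, le_sup_left (b := D) hb, rfl⟩
      · exact ⟨z, hz', (Set.mem_singleton_iff.1 hE).trans hCA⟩
  · ext E
    constructor
    · rintro ⟨x, hx, rfl⟩
      exact ⟨x * z⁻¹, mul_mem hx (inv_mem hz'), by rw [hCA, cb_mul, inv_mul_cancel_right]⟩
    · rintro ⟨x, hx, rfl⟩
      exact ⟨x * z, mul_mem hx hz', by rw [hCA, cb_mul]⟩

theorem cb_fixed (h : Tri S A B C D) (hS : IsRootSubgroupSet S) (hB : B ∈ S) (hD : D ∈ S) {a b : G}
    (ha : a ∈ A) (hb : b ∈ B) (hb1 : b ≠ 1) (hm : b * a * b⁻¹ ∈ A) : a = 1 := by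
  have hR := h.rankOne hS hB hD
  have hc : b * a * b⁻¹ = a := by
    have h1 : b * a * b⁻¹ * a⁻¹ ∈ A := mul_mem hm (inv_mem ha)
    exact mul_inv_eq_one.1 (h.inter hS h1 (h.comm_mem hb ha))
  obtain ⟨d, hd, -, hbd⟩ := hR.cond_left b hb hb1
  -- `conjBy B d⁻¹ = conjBy D b⁻¹`
  have h2 := h.symm.fix_eq hS
  rw [sup_comm] at h2
  have key : conjBy C d⁻¹ = conjBy A b⁻¹ := by
    rw [← h.fix_eq hS, h.fix_conj B (inv_mem (le_sup_right (a := B) hd)), hbd,
      ← h.fix_conj D (inv_mem (le_sup_left (b := D) hb)), h2]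
  have haA : a ∈ conjBy A b⁻¹ := mem_cb.2 (by rw [inv_inv, hc]; exact ha)
  rw [← key, mem_cb, inv_inv, (h.symm.cmCB a ha d hd).symm, mul_inv_cancel_right] at haA
  exact h.inter hS ha haA

theorem partition (h : Tri S A B C D) (hS : IsRootSubgroupSet S) (hB : B ∈ S) (hD : D ∈ S) :
    IsSubgroupPartition (A ⊔ C) {E | ∃ x ∈ B ⊔ D, E = conjBy A x} := by
  refine ⟨?_, ?_, ?_⟩
  · rintro E ⟨x, hx, rfl⟩
    rw [← h.norm_all hx]
    exact cb_mono x le_sup_left
  · intro x hx _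
    rw [(h.orbit_eq hS hB hD).1]
    obtain ⟨a, ha, c, hc, rfl⟩ := h.dec hx
    by_cases ha1 : a = 1
    · exact ⟨C, Or.inr rfl, by rw [ha1, one_mul]; exact hc⟩
    -- `b ↦ [b, a]` maps `B` onto `C`
    let f : B →* G := MonoidHom.mk' (fun b => a * b * a⁻¹ * (b : G)⁻¹) fun b b' => by
      simp only [Subgroup.coe_mul]
      have hm : a * b' * a⁻¹ * (b' : G)⁻¹ ∈ C := by
        have := Subgroup.commutator_mem_commutator ha b'.2
        rwa [h.e1, commutatorElement_def] at this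
      have e := h.cmCB _ hm b b.2
      calc a * (b * b') * a⁻¹ * ((b : G) * b')⁻¹
          = (a * b * a⁻¹ * (b : G)⁻¹) * (b * (a * b' * a⁻¹ * (b' : G)⁻¹) * (b : G)⁻¹) := by group
        _ = (a * b * a⁻¹ * (b : G)⁻¹) * (a * b' * a⁻¹ * (b' : G)⁻¹) := by rw [← e, mul_inv_cancel_right]
    have hrange : C ≤ f.range := by
      rw [← h.e1, ← h.h1.2.2.1 a ha ha1, Subgroup.closure_le]
      rintro y ⟨b, hb, rfl⟩
      exact ⟨⟨b, hb⟩, rfl⟩
    obtain ⟨b, hbc⟩ := hrange (inv_mem hc)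
    have hbc : a * b * a⁻¹ * (b : G)⁻¹ = c⁻¹ := hbc
    refine ⟨conjBy A b, Or.inl ⟨b, b.2, rfl⟩, ?_⟩
    have e : a * c = (b : G) * a * (b : G)⁻¹ := by
      rw [(h.cmCA c hc a ha).symm, show c = (b : G) * a * (b : G)⁻¹ * a⁻¹ by
        rw [← inv_inv c, ← hbc]; group]
      group
    rw [e]
    exact mem_cb_of_mem ha
  · intro E hE E' hE' hne
    rw [(h.orbit_eq hS hB hD).1] at hE hE'
    refine eq_bot_iff.2 fun x hx => Subgroup.mem_bot.2 ?_
    have hAC : ∀ b ∈ B, x ∈ conjBy A b → x ∈ C → x = 1 := by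
      intro b hb h1 h2
      have h3 : b⁻¹ * x * b ∈ C := by
        have := mem_cb_of_mem (g := b⁻¹) h2
        rw [h.cmCB.cb_eq (inv_mem hb)] at this
        simpa using this
      have h4 := h.inter hS (mem_cb.1 h1) h3
      calc x = b * (b⁻¹ * x * b) * b⁻¹ := by group
        _ = 1 := by rw [h4]; group
    rcases hE with ⟨b, hb, rfl⟩ | hE
    · rcases hE' with ⟨b', hb', rfl⟩ | hE'
      · have hbb : b'⁻¹ * b ≠ 1 := fun e => hne (by rw [inv_mul_eq_one.1 e])
        have h4 := h.cb_fixed hS hB hD (mem_cb.1 hx.1) (mul_mem (inv_mem hb') hb) hbb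
          (by
            have := mem_cb.1 hx.2
            simpa [mul_assoc] using this)
        calc x = b * (b⁻¹ * x * b) * b⁻¹ := by group
          _ = 1 := by rw [h4]; group
      · exact hAC b hb hx.1 (Set.mem_singleton_iff.1 hE' ▸ hx.2)
    · rcases hE' with ⟨b', hb', rfl⟩ | hE'
      · exact hAC b' hb' hx.2 (Set.mem_singleton_iff.1 hE ▸ hx.1)
      · exact absurd ((Set.mem_singleton_iff.1 hE).trans (Set.mem_singleton_iff.1 hE').symm) hne

theorem central (h : Tri S A B C D) (hS : IsRootSubgroupSet S) (hB : B ∈ S) (hD : D ∈ S) {x : G}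
    (hx : x ∈ (B ⊔ D) ⊓ Subgroup.centralizer ((A ⊔ C : Subgroup G) : Set G)) :
    ∀ y ∈ B ⊔ D, x * y = y * x := by
  have hR := h.rankOne hS hB hD
  have h2 := h.symm.fix_eq hS
  rw [sup_comm] at h2
  have hfixN : ∀ E : Subgroup G, E ≤ A ⊔ C → conjBy E x = E := fun E hE =>
    Cm.cb_eq (B := Subgroup.zpowers x) (fun y hy z hz => by
      obtain ⟨i, rfl⟩ := hz
      exact (Commute.zpow_right (show Commute y x from (Subgroup.mem_centralizer_iff.1 hx.2 y (hE hy))) i).eq)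
      (Subgroup.mem_zpowers x)
  -- nontrivial intersections of the two orbits' members
  have hcases : ∀ E ∈ unipotentSubgroups B D, (A ⊔ C) ⊓ Subgroup.centralizer (E : Set G) = A → E = D := by
    intro E hE hEA
    rcases omega_eq hR hE with he | ⟨b, hb, he⟩
    · exfalso
      rw [he, h.fix_eq hS] at hEA
      obtain ⟨a, ha, ha1⟩ := ne_bot_exists (hS.ne_bot _ h.h2.1)
      rw [h.e2] at ha
      exact ha1 (h.inter hS ha ((SetLike.ext_iff.1 hEA a).2 ha))
    · by_cases hb1 : b = 1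
      · rw [he, hb1, cb_one]
      exfalso
      rw [he, ← h.fix_conj D (le_sup_left (b := D) hb), h2] at hEA
      obtain ⟨a, ha, ha1⟩ := ne_bot_exists (hS.ne_bot _ h.h2.1)
      rw [h.e2] at ha
      exact ha1 (h.cb_fixed hS hB hD ha hb hb1 (by
        have := mem_cb_of_mem (g := b) ha; rwa [hEA] at this))
  have hcases' : ∀ E ∈ unipotentSubgroups B D, (A ⊔ C) ⊓ Subgroup.centralizer (E : Set G) = C → E = B := by
    intro E hE hEC
    rw [← omega_swap hR] at hE
    have hR' := RankOnePair_symm hR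
    rcases omega_eq hR' hE with he | ⟨d, hd, he⟩
    · exfalso
      rw [he, h2] at hEC
      obtain ⟨a, ha, ha1⟩ := ne_bot_exists (hS.ne_bot _ h.h1.1)
      rw [h.e1] at ha
      exact ha1 (h.inter hS ((SetLike.ext_iff.1 hEC a).2 ha) ha)
    · by_cases hd1 : d = 1
      · rw [he, hd1, cb_one]
      exfalso
      rw [he, ← h.fix_conj B (le_sup_right (a := B) hd), h.fix_eq hS] at hEC
      obtain ⟨a, ha, ha1⟩ := ne_bot_exists (hS.ne_bot _ h.h1.1)
      rw [h.e1] at ha
      exact ha1 (h.symm.cb_fixed hS hD hB ha hd hd1 (by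
        have := mem_cb_of_mem (g := d) ha; rwa [hEC] at this))
  have hxD : conjBy D x = D := hcases _ (omega_conj (right_mem_omega hR) hx.1)
    (by rw [← h.fix_conj D hx.1, h2, hfixN A le_sup_left])
  have hxB : conjBy B x = B := hcases' _ (omega_conj (self_mem_omega B D) hx.1)
    (by rw [← h.fix_conj B hx.1, h.fix_eq hS, hfixN C le_sup_right])
  have hcm : ∀ (T : Tri S A B C D), conjBy B x = B → (∀ a ∈ A, x * a = a * x) → ∀ b ∈ B, x * b = b * x := by
    intro T hf hxa b hb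
    have h3 : x * b * x⁻¹ * b⁻¹ = 1 := T.not_fix' hS (mul_mem (by
        have := mem_cb_of_mem (g := x) hb; rwa [hf] at this) (inv_mem hb)) (fun a ha => by
      have hc := T.comm_mem (inv_mem hb) ha
      have hcN : b⁻¹ * a * b ∈ A ⊔ C := by
        have := mul_mem (le_sup_right (a := A) hc) (le_sup_left (b := C) ha)
        simpa [mul_assoc] using this
      have hxc : Commute x (b⁻¹ * a * b) := ((Subgroup.mem_centralizer_iff.1 hx.2) _ hcN).symm
      calc x * b * x⁻¹ * b⁻¹ * a = x * b * (x⁻¹ * (b⁻¹ * a * b)) * b⁻¹ := by group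
        _ = x * b * ((b⁻¹ * a * b) * x⁻¹) * b⁻¹ := by rw [hxc.inv_left.eq]
        _ = (x * a) * b * x⁻¹ * b⁻¹ := by group
        _ = (a * x) * b * x⁻¹ * b⁻¹ := by rw [hxa a ha]
        _ = a * (x * b * x⁻¹ * b⁻¹) := by group)
    exact mul_inv_eq_iff_eq_mul.1 (mul_inv_eq_one.1 h3)
  have hxB' : ∀ b ∈ B, x * b = b * x := hcm h hxB fun a ha =>
    (Subgroup.mem_centralizer_iff.1 hx.2 a (le_sup_left (b := C) ha)).symm
  have hxD' : ∀ d ∈ D, x * d = d * x := by
    intro d hd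
    have hsym : ∀ a ∈ C, x * a = a * x := fun a ha =>
      (Subgroup.mem_centralizer_iff.1 hx.2 a (le_sup_right (a := A) ha)).symm
    have h3 : x * d * x⁻¹ * d⁻¹ = 1 := h.symm.not_fix' hS (mul_mem (by
        have := mem_cb_of_mem (g := x) hd; rwa [hxD] at this) (inv_mem hd)) (fun a ha => by
      have hc := h.symm.comm_mem (inv_mem hd) ha
      have hcN : d⁻¹ * a * d ∈ A ⊔ C := by
        have := mul_mem (le_sup_left (b := C) hc) (le_sup_right (a := A) ha)
        simpa [mul_assoc] using this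
      have hxc : Commute x (d⁻¹ * a * d) := ((Subgroup.mem_centralizer_iff.1 hx.2) _ hcN).symm
      calc x * d * x⁻¹ * d⁻¹ * a = x * d * (x⁻¹ * (d⁻¹ * a * d)) * d⁻¹ := by group
        _ = x * d * ((d⁻¹ * a * d) * x⁻¹) * d⁻¹ := by rw [hxc.inv_left.eq]
        _ = (x * a) * d * x⁻¹ * d⁻¹ := by group
        _ = (a * x) * d * x⁻¹ * d⁻¹ := by rw [hsym a ha]
        _ = a * (x * d * x⁻¹ * d⁻¹) := by group)
    exact mul_inv_eq_iff_eq_mul.1 (mul_inv_eq_one.1 h3)
  intro y hy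
  have hle : B ⊔ D ≤ Subgroup.centralizer ({x} : Set G) := sup_le
    (fun b hb => Subgroup.mem_centralizer_singleton_iff.2 (hxB' b hb).symm)
    (fun d hd => Subgroup.mem_centralizer_singleton_iff.2 (hxD' d hd).symm)
  exact (Subgroup.mem_centralizer_singleton_iff.1 (hle hy)).symm

end Tri

end CfsgLib.Root
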