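import Mathlib

/-!
A group of order `2p³` with trivial centralizer in `PSL(n,p)` for arbitrarily large `n`.
-/

set_option autoImplicit false

namespace CfsgLib.SLBrick

open Matrix

variable (p : ℕ) [Fact p.Prime]

/-- The group of signs. -/
abbrev Sgn : Type := ↥(Subgroup.zpowers (-1 : (ZMod p)ˣ))

/-- The sign action. -/
def act : Sgn p →* MulAut (Multiplicative (Fin 3 → ZMod p)) where
  toFun c :=
    { toFun := fun v => Multiplicative.ofAdd (((c : (ZMod p)ˣ) : ZMod p) • v.toAdd)
      invFun := fun v => Multiplicative.ofAdd ((((c⁻¹ : Sgn p) : (ZMod p)ˣ) : ZMod p) • v.toAdd)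
      left_inv := fun v => by
        apply Multiplicative.toAdd.injective
        simp only [toAdd_ofAdd]
        rw [smul_smul, ← Units.val_mul, ← Subgroup.coe_mul, inv_mul_cancel, Subgroup.coe_one, Units.val_one, one_smul]
      right_inv := fun v => by
        apply Multiplicative.toAdd.injective
        simp only [toAdd_ofAdd]
        rw [smul_smul, ← Units.val_mul, ← Subgroup.coe_mul, mul_inv_cancel, Subgroup.coe_one, Units.val_one, one_smul]
      map_mul' := fun v w => by apply Multiplicative.toAdd.injective; simp [smul_add] }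
  map_one' := by
    refine MulEquiv.ext fun v => ?_
    apply Multiplicative.toAdd.injective
    show (((1 : Sgn p) : (ZMod p)ˣ) : ZMod p) • v.toAdd = v.toAdd
    simp
  map_mul' c d := by
    refine MulEquiv.ext fun v => ?_
    apply Multiplicative.toAdd.injective
    show (((c * d : Sgn p) : (ZMod p)ˣ) : ZMod p) • v.toAdd =
      ((c : (ZMod p)ˣ) : ZMod p) • (((d : (ZMod p)ˣ) : ZMod p) • v.toAdd)
    simp [smul_smul]

/-- The group of order `2p³`. -/
abbrev HB : Type := Multiplicative (Fin 3 → ZMod p) ⋊[act p] Sgn p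

variable {p}

theorem card_HB (hp : p ≠ 2) : Nat.card (HB p) = 2 * p ^ 3 := by
  have h2 : orderOf (-1 : (ZMod p)ˣ) = 2 := by
    refine orderOf_eq_prime (by simp) fun h => ?_
    have h' : ((-1 : ZMod p)) = 1 := by simpa using congrArg Units.val h
    haveI : Fact (2 < p) := ⟨by have := (Fact.out : p.Prime).two_le; omega⟩
    exact ZMod.neg_one_ne_one h'
  rw [Nat.card_congr SemidirectProduct.equivProd, Nat.card_prod, Nat.card_zpowers, h2,
    Nat.card_congr Multiplicative.toAdd, Nat.card_fun]
  simp [mul_comm]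

variable (p) in
/-- The shift. -/
def shift (m : ℕ) : Matrix (Fin m) (Fin m) (ZMod p) :=
  Matrix.of fun i j => if (j : ℕ) = i + 1 then 1 else 0

/-- The three maps. -/
def mv (m : ℕ) (v : Fin 3 → ZMod p) : Matrix (Fin m) (Fin m) (ZMod p) :=
  v 0 • 1 + v 1 • shift p m + v 2 • (shift p m)ᵀ

theorem shift_mul {m : ℕ} (P : Matrix (Fin m) (Fin m) (ZMod p)) (i j : Fin m) :
    (shift p m * P) i j = if h : (i : ℕ) + 1 < m then P ⟨i + 1, h⟩ j else 0 := by
  rw [Matrix.mul_apply]
  split_ifs with h
  · rw [Finset.sum_eq_single ⟨i + 1, h⟩]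
    · simp [shift]
    · intro k _ hk
      have : (k : ℕ) ≠ i + 1 := fun e => hk (Fin.ext e)
      simp [shift, this]
    · simp
  · refine Finset.sum_eq_zero fun k _ => ?_
    have : (k : ℕ) ≠ i + 1 := fun e => h (e ▸ k.2)
    simp [shift, this]

theorem mul_shift_succ {m : ℕ} (P : Matrix (Fin m) (Fin m) (ZMod p)) (i : Fin m) {k : ℕ} (h : k + 1 < m) :
    (P * shift p m) i ⟨k + 1, h⟩ = P i ⟨k, by omega⟩ := by
  rw [Matrix.mul_apply, Finset.sum_eq_single ⟨k, by omega⟩]
  · simp [shift]
  · intro x _ hx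
    have : k ≠ (x : ℕ) := fun e => hx (Fin.ext e.symm)
    simp [shift, this]
  · simp

theorem mul_shift_zero {m : ℕ} (hm : 0 < m) (P : Matrix (Fin m) (Fin m) (ZMod p)) (i : Fin m) :
    (P * shift p m) i ⟨0, hm⟩ = 0 := by
  rw [Matrix.mul_apply]
  exact Finset.sum_eq_zero fun x _ => by simp [shift]

theorem scalar_of_commute {m : ℕ} (hm : 0 < m) (P : Matrix (Fin m) (Fin m) (ZMod p))
    (h1 : P * shift p m = shift p m * P) (h2 : P * (shift p m)ᵀ = (shift p m)ᵀ * P) :
    P = Matrix.scalar (Fin m) (P ⟨0, hm⟩ ⟨0, hm⟩) := by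
  have h2' : Pᵀ * shift p m = shift p m * Pᵀ := by
    have := congrArg Matrix.transpose h2
    rw [Matrix.transpose_mul, Matrix.transpose_mul, Matrix.transpose_transpose] at this
    exact this.symm
  have key : ∀ (Q : Matrix (Fin m) (Fin m) (ZMod p)), Q * shift p m = shift p m * Q →
      ∀ (i : ℕ) (hi : i < m), (0 < i → Q ⟨i, hi⟩ ⟨0, hm⟩ = 0) := by
    intro Q hQ i hi hpos
    obtain ⟨k, rfl⟩ : ∃ k, i = k + 1 := ⟨i - 1, by omega⟩
    have := congrFun (congrFun hQ ⟨k, by omega⟩) ⟨0, hm⟩
    rw [mul_shift_zero, shift_mul, dif_pos hi] at this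
    exact this.symm
  have step : ∀ (t i j : ℕ) (hi : i + t < m) (hj : j + t < m),
      P ⟨i + t, hi⟩ ⟨j + t, hj⟩ = P ⟨i, by omega⟩ ⟨j, by omega⟩ := by
    intro t
    induction t with
    | zero => intro i j hi hj; rfl
    | succ t ih =>
      intro i j hi hj
      have := congrFun (congrFun h1 ⟨i + t, by omega⟩) ⟨j + t + 1, by omega⟩
      rw [mul_shift_succ, shift_mul, dif_pos (by exact hi)] at this
      rw [← ih i j (by omega) (by omega), this]
      rfl
  ext ⟨i, hi⟩ ⟨j, hj⟩
  rw [Matrix.scalar_apply, Matrix.diagonal_apply]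
  rcases lt_trichotomy i j with h | h | h
  · rw [if_neg (by simp; omega)]
    obtain ⟨t, rfl⟩ : ∃ t, j = t + i := ⟨j - i, by omega⟩
    have := step i 0 t (by omega) (by omega)
    simp only [zero_add] at this
    rw [this]
    have := key Pᵀ h2' t (by omega) (by omega)
    rwa [Matrix.transpose_apply] at this
  · subst h
    rw [if_pos rfl]
    have := step i 0 0 (by omega) (by omega)
    simp only [zero_add] at this
    exact this
  · rw [if_neg (by simp; omega)]
    obtain ⟨t, rfl⟩ : ∃ t, i = t + j := ⟨i - j, by omega⟩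
    have := step j t 0 (by omega) (by omega)
    simp only [zero_add] at this
    rw [this]
    exact key P h1 t (by omega) (by omega)

/-- The block matrix of an element. -/
def blk (m : ℕ) (z : HB p) : Matrix (Fin m ⊕ Fin m) (Fin m ⊕ Fin m) (ZMod p) :=
  fromBlocks 1 0 (mv m z.left.toAdd) ((((z.right : (ZMod p)ˣ) : ZMod p)) • 1)

theorem mv_add (m : ℕ) (v w : Fin 3 → ZMod p) : mv m (v + w) = mv m v + mv m w := by
  simp [mv, add_smul]; abel

theorem mv_smul (m : ℕ) (c : ZMod p) (w : Fin 3 → ZMod p) : mv m (c • w) = c • mv m w := by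
  simp [mv, smul_add, smul_smul]

theorem blk_mul (m : ℕ) (z z' : HB p) : blk m (z * z') = blk m z * blk m z' := by
  rw [blk, blk, blk, Matrix.fromBlocks_multiply, SemidirectProduct.mul_left, SemidirectProduct.mul_right]
  congr 1
  · simp
  · simp
  · rw [toAdd_mul]
    show mv m (z.left.toAdd + (((z.right : (ZMod p)ˣ) : ZMod p)) • z'.left.toAdd) = _
    rw [mv_add, mv_smul]
    simp
  · simp [smul_smul, mul_comm]

theorem sgn_cases (c : Sgn p) : ((c : (ZMod p)ˣ) : ZMod p) = 1 ∨ ((c : (ZMod p)ˣ) : ZMod p) = -1 := by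
  obtain ⟨i, hi⟩ := Subgroup.mem_zpowers_iff.1 c.2
  rw [← hi]
  rcases Int.even_or_odd i with h | h
  · left; rw [h.neg_one_zpow]; simp
  · right; rw [h.neg_one_zpow]; simp

theorem det_blk {m : ℕ} (hm : Even m) (z : HB p) : (blk m z).det = 1 := by
  rw [blk, Matrix.det_fromBlocks_zero₁₂, Matrix.det_one, Matrix.det_smul, Matrix.det_one, Fintype.card_fin,
    one_mul, mul_one]
  rcases sgn_cases z.right with h | h <;> rw [h]
  · exact one_pow m
  · exact hm.neg_one_pow

/-- The embedding into the special linear group. -/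
def rep {m : ℕ} (hm : Even m) : HB p →* Matrix.SpecialLinearGroup (Fin (m + m)) (ZMod p) where
  toFun z := ⟨Matrix.reindexAlgEquiv (ZMod p) _ finSumFinEquiv (blk m z), by
    rw [Matrix.det_reindexAlgEquiv, det_blk hm]⟩
  map_one' := by
    apply Subtype.ext
    have : blk m (1 : HB p) = 1 := by simp [blk, mv]
    show Matrix.reindexAlgEquiv _ _ _ (blk m 1) = 1
    rw [this, map_one]
  map_mul' z z' := by
    apply Subtype.ext
    show Matrix.reindexAlgEquiv _ _ _ (blk m (z * z')) = _ * _
    rw [blk_mul, map_mul]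

theorem two_ne (hp : p ≠ 2) : (2 : ZMod p) ≠ 0 := by
  intro h
  have h' : ((2 : ℕ) : ZMod p) = 0 := by exact_mod_cast h
  rw [ZMod.natCast_eq_zero_iff] at h'
  exact hp ((Nat.prime_dvd_prime_iff_eq Fact.out Nat.prime_two).1 h')

theorem brick (hp : p ≠ 2) {m : ℕ} (hm : Even m) (hm2 : 2 ≤ m) :
    ∃ φ : HB p →* ProjectiveSpecialLinearGroup (Fin (m + m)) (ZMod p), Function.Injective φ ∧
      Subgroup.centralizer (φ.range : Set (ProjectiveSpecialLinearGroup (Fin (m + m)) (ZMod p))) = ⊥ := by
  set φ := (QuotientGroup.mk' (Subgroup.center (Matrix.SpecialLinearGroup (Fin (m + m)) (ZMod p)))).comp (rep hm)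
  set E := Matrix.reindexAlgEquiv (ZMod p) (ZMod p) (finSumFinEquiv : Fin m ⊕ Fin m ≃ Fin (m + m))
  have hscal : ∀ r : ZMod p, Matrix.scalar (Fin (m + m)) r = E (r • 1) := fun r => by
    rw [map_smul, map_one]
    ext i j
    simp [Matrix.diagonal_apply, Matrix.one_apply]
  let i0 : Fin m := ⟨0, by omega⟩
  haveI : Nonempty (Fin m) := ⟨i0⟩
  refine ⟨φ, ?_, ?_⟩
  · rw [injective_iff_map_eq_one]
    intro z hz
    have hz' : rep hm z ∈ Subgroup.center (Matrix.SpecialLinearGroup (Fin (m + m)) (ZMod p)) :=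
      (QuotientGroup.eq_one_iff _).1 hz
    obtain ⟨r, -, hr⟩ := Matrix.SpecialLinearGroup.mem_center_iff.1 hz'
    rw [hscal] at hr
    have h : r • (1 : Matrix (Fin m ⊕ Fin m) (Fin m ⊕ Fin m) (ZMod p)) = blk m z := E.injective hr
    rw [← fromBlocks_one, fromBlocks_smul, blk, fromBlocks_inj] at h
    obtain ⟨h11, -, h21, h22⟩ := h
    have hr1 : r = 1 := by simpa [Matrix.one_apply] using congrFun (congrFun h11 i0) i0
    have hc : (((z.right : (ZMod p)ˣ) : ZMod p)) = r := by
      simpa [Matrix.one_apply] using (congrFun (congrFun h22 i0) i0).symm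
    let i1 : Fin m := ⟨1, by omega⟩
    have e0 := congrFun (congrFun h21 i0) i0
    have e1 := congrFun (congrFun h21 i0) i1
    have e2 := congrFun (congrFun h21 i1) i0
    simp [mv, shift, Matrix.one_apply, i0, i1] at e0 e1 e2
    refine SemidirectProduct.ext ?_ (Subtype.ext (Units.ext ?_))
    · apply Multiplicative.toAdd.injective
      funext k
      fin_cases k
      · simpa using e0.symm
      · simpa using e1.symm
      · simpa using e2.symm
    · rw [hc, hr1]; simp
  · rw [eq_bot_iff]
    intro x hx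
    obtain ⟨g, rfl⟩ := QuotientGroup.mk'_surjective _ x
    obtain ⟨G, hG⟩ := E.surjective (g : Matrix (Fin (m + m)) (Fin (m + m)) (ZMod p))
    obtain ⟨P, Q, R, S, rfl⟩ : ∃ P Q R S, G = fromBlocks P Q R S :=
      ⟨_, _, _, _, (fromBlocks_toBlocks G).symm⟩
    have hdet : (fromBlocks P Q R S).det = 1 := by
      rw [← Matrix.det_reindexAlgEquiv (ZMod p) (ZMod p) finSumFinEquiv, hG, g.2]
    have hrel : ∀ z : HB p, ∃ k : ZMod p, k ≠ 0 ∧
        fromBlocks P Q R S * blk m z = k • (blk m z * fromBlocks P Q R S) := by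
      intro z
      have hc := Subgroup.mem_centralizer_iff.1 hx (φ z) ⟨z, rfl⟩
      have hc' : (QuotientGroup.mk' (Subgroup.center _)) (rep hm z * g) =
          QuotientGroup.mk' (Subgroup.center _) (g * rep hm z) := by
        rw [map_mul, map_mul]; exact hc
      obtain ⟨c, hc1, hc2⟩ := (QuotientGroup.mk'_eq_mk' _).1 hc'
      obtain ⟨r, hr1, hr⟩ := Matrix.SpecialLinearGroup.mem_center_iff.1 hc1
      refine ⟨r, fun e => ?_, E.injective ?_⟩
      · rw [e, zero_pow (by simp; omega)] at hr1
        exact zero_ne_one hr1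
      · rw [map_smul, map_mul, map_mul, hG]
        have := congrArg Subtype.val hc2
        rw [Matrix.SpecialLinearGroup.coe_mul, Matrix.SpecialLinearGroup.coe_mul, Matrix.SpecialLinearGroup.coe_mul, ← hr] at this
        calc (g : Matrix (Fin (m + m)) (Fin (m + m)) (ZMod p)) * E (blk m z)
            = E (blk m z) * g * Matrix.scalar (Fin (m + m)) r := this.symm
          _ = r • (E (blk m z) * g) := by
            rw [hscal, map_smul, map_one, mul_smul_comm, mul_one]
    -- unipotent elements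
    have hu : ∀ v : Fin 3 → ZMod p, ∃ k : ZMod p, k ≠ 0 ∧ P + Q * mv m v = k • P ∧ Q = k • Q ∧
        R + S * mv m v = k • (mv m v * P + R) ∧ S = k • (mv m v * Q + S) := by
      intro v
      obtain ⟨k, hk, h⟩ := hrel (SemidirectProduct.inl (Multiplicative.ofAdd v))
      simp [blk, fromBlocks_multiply, fromBlocks_smul, fromBlocks_inj] at h
      exact ⟨k, hk, h.1, h.2.1, by rw [smul_add]; exact h.2.2.1, by rw [smul_add]; exact h.2.2.2⟩
    obtain ⟨k, hk, hP, hQ, hR, hS⟩ := hu (Pi.single 0 1)
    have hI : mv m (Pi.single 0 1 : Fin 3 → ZMod p) = 1 := by simp [mv]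
    rw [hI, Matrix.mul_one] at hP hR
    rw [Matrix.one_mul] at hR
    have hk1 : k = 1 := by
      by_contra hk1
      have hQ0 : Q = 0 := by
        have : (1 - k) • Q = 0 := by rw [sub_smul, one_smul, ← hQ, sub_self]
        exact (smul_eq_zero.1 this).resolve_left (sub_ne_zero.2 (Ne.symm hk1))
      rw [hQ0, add_zero] at hP
      have hP0 : P = 0 := by
        have : (1 - k) • P = 0 := by rw [sub_smul, one_smul, ← hP, sub_self]
        exact (smul_eq_zero.1 this).resolve_left (sub_ne_zero.2 (Ne.symm hk1))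
      rw [hQ0, hP0, Matrix.det_fromBlocks_zero₁₂, Matrix.det_zero, zero_mul] at hdet
      exact zero_ne_one hdet
    rw [hk1, one_smul] at hP hR
    have hQ0 : Q = 0 := by simpa using hP
    have hSP : S = P := by
      have := hR
      rw [add_comm P R] at this
      exact add_left_cancel this
    have hPne : P ≠ 0 := by
      intro e
      rw [hQ0, e, Matrix.det_fromBlocks_zero₁₂, Matrix.det_zero, zero_mul] at hdet
      exact zero_ne_one hdet
    have hcomm : ∀ v, P * mv m v = mv m v * P := by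
      intro v
      obtain ⟨k, hk, hP', -, hR', -⟩ := hu v
      rw [hQ0, Matrix.zero_mul, add_zero] at hP'
      have hk1 : k = 1 := by
        by_contra hk1
        have : (1 - k) • P = 0 := by rw [sub_smul, one_smul, ← hP', sub_self]
        exact hPne ((smul_eq_zero.1 this).resolve_left (sub_ne_zero.2 (Ne.symm hk1)))
      rw [hk1, one_smul, hSP, add_comm (mv m v * P) R] at hR'
      exact add_left_cancel hR'
    have h1 := hcomm (Pi.single 1 1)
    have h2 := hcomm (Pi.single 2 1)
    simp [mv] at h1 h2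
    have hPs := scalar_of_commute (show 0 < m by omega) P h1 h2
    -- the involution
    have hR0 : R = 0 := by
      obtain ⟨k, hk, h⟩ := hrel (SemidirectProduct.inr ⟨-1, Subgroup.mem_zpowers _⟩)
      simp [blk, fromBlocks_multiply, fromBlocks_smul, fromBlocks_inj, mv, hQ0] at h
      have hk1 : k = 1 := by
        by_contra hk1
        have : (1 - k) • P = 0 := by rw [sub_smul, one_smul, ← h.1, sub_self]
        exact hPne ((smul_eq_zero.1 this).resolve_left (sub_ne_zero.2 (Ne.symm hk1)))
      have h3 : R = -R := by simpa [hk1] using h.2.1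
      have : (2 : ZMod p) • R = 0 := by
        rw [two_smul]
        nth_rewrite 1 [h3]
        exact neg_add_cancel R
      exact (smul_eq_zero.1 this).resolve_left (two_ne hp)
    rw [Subgroup.mem_bot]
    refine (QuotientGroup.eq_one_iff _).2 (Matrix.SpecialLinearGroup.mem_center_iff.2 ⟨P i0 i0, ?_, ?_⟩)
    · rw [hQ0, hR0, hSP, Matrix.det_fromBlocks_zero₁₂, hPs] at hdet
      simpa [Matrix.det_diagonal, pow_add, i0] using hdet
    · rw [← hG, hscal, hQ0, hR0, hSP]
      congr 1
      rw [← fromBlocks_one, fromBlocks_smul]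
      congr 1
      · rw [Matrix.smul_one_eq_diagonal]; exact hPs.symm
      · simp
      · simp
      · rw [Matrix.smul_one_eq_diagonal]; exact hPs.symm

theorem exists_group (hp : p ≠ 2) :
    ∃ (H : Type) (_ : Group H) (_ : Finite H), Nat.card H = 2 * p ^ 3 ∧
      ∀ N : ℕ, ∃ n, N ≤ n ∧ ∃ φ : H →* Matrix.ProjectiveSpecialLinearGroup (Fin n) (ZMod p),
        Function.Injective φ ∧ Subgroup.centralizer (φ.range : Set (Matrix.ProjectiveSpecialLinearGroup (Fin n) (ZMod p))) = ⊥ := by
  refine ⟨HB p, inferInstance, Finite.of_equiv _ SemidirectProduct.equivProd.symm, card_HB hp,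
    fun N => ⟨(2 * (N + 1)) + (2 * (N + 1)), by omega, brick hp (even_two_mul _) (by omega)⟩⟩

end CfsgLib.SLBrick
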