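import Cfsg.Agent.Lib.CorePGroup
import Cfsg.Agent.Lib.FgsGrun
import Cfsg.Agent.Lib.DicksonDihedral

/-!
A simple group with an involution centralizer that is a Sylow 2-subgroup with Frattini subgroup
generated by the involution: the Sylow subgroup is dihedral of order 8.
-/

set_option autoImplicit false

namespace CfsgLib.SmallSylowEight

open Subgroup
open scoped commutatorElement

variable {L : Type*} [Group L] [Finite L]

theorem dihedral_eight [IsSimpleGroup L] (hL : ¬ IsMulCommutative L) (z : L) (hz : orderOf z = 2)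
    (P : Sylow 2 L) (hR : (P : Subgroup L) = centralizer ({z} : Set L))
    (hΦ : (frattini ↥(P : Subgroup L)).map (P : Subgroup L).subtype = zpowers z) :
    Nonempty (↥(P : Subgroup L) ≃* DihedralGroup 4) := by
  classical
  haveI : Fact (Nat.Prime 2) := ⟨Nat.prime_two⟩
  set R : Subgroup L := (P : Subgroup L) with hRdef
  have hz1 : z ≠ 1 := fun h => by rw [h, orderOf_one] at hz; exact absurd hz (by norm_num)
  have hzz : z * z = 1 := by rw [← sq, ← hz, pow_orderOf_eq_one]
  have hmemR : ∀ {a : L}, a ∈ R ↔ a * z = z * a := by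
    intro a
    rw [hR, mem_centralizer_singleton_iff]
  have hzR : z ∈ R := hmemR.mpr rfl
  have hzp : ∀ {a : L}, a ∈ zpowers z → a = 1 ∨ a = z := by
    intro a ha
    obtain ⟨k, rfl⟩ := mem_zpowers_iff.mp ha
    rcases Int.even_or_odd k with ⟨m, rfl⟩ | ⟨m, rfl⟩
    · left; rw [← two_mul, zpow_mul, zpow_two, hzz, one_zpow]
    · right; rw [zpow_add, zpow_mul, zpow_two, hzz, one_zpow, one_mul, zpow_one]
  have hsq : ∀ a ∈ R, a * a = 1 ∨ a * a = z := by
    intro a ha
    refine hzp ?_
    rw [← hΦ]
    exact ⟨(⟨a, ha⟩ : R) ^ 2, CfsgLib.Core.pgroup_pow_mem_frattini P.2 _, by simp [sq]⟩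
  have hcm : ∀ a ∈ R, ∀ b ∈ R, a * b * a⁻¹ * b⁻¹ = 1 ∨ a * b * a⁻¹ * b⁻¹ = z := by
    intro a ha b hb
    refine hzp ?_
    rw [← hΦ]
    exact ⟨⁅(⟨a, ha⟩ : R), ⟨b, hb⟩⁆, CfsgLib.Core.pgroup_commutator_le_frattini P.2
      (commutator_mem_commutator (mem_top _) (mem_top _)), by simp [commutatorElement_def]⟩
  -- `z` is a square or a commutator in `R`
  have hwit : (∃ a ∈ R, a * a = z) ∨ ∃ a ∈ R, ∃ b ∈ R, a * b * a⁻¹ * b⁻¹ = z := by
    by_contra hno
    rw [not_or] at hno
    have h1 : frattini ↥R ≤ ⊥ := by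
      refine CfsgLib.Core.frattini_le_of_elementary (p := 2) ?_ ?_
      · rw [commutator_def, commutator_le]
        intro a _ b _
        rw [mem_bot]
        apply Subtype.ext
        rcases hcm a a.2 b b.2 with h | h
        · simpa [commutatorElement_def] using h
        · exact absurd ⟨a.1, a.2, b.1, b.2, h⟩ hno.2
      · intro x
        rw [mem_bot]
        apply Subtype.ext
        rcases hsq x x.2 with h | h
        · simpa [sq] using h
        · exact absurd ⟨x.1, x.2, h⟩ hno.1
    rw [le_bot_iff] at h1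
    rw [h1, Subgroup.map_bot] at hΦ
    exact hz1 (by simpa using (zpowers_eq_bot.mp hΦ.symm))
  -- the normalizer of `R` is `R`
  have hnorm : ∀ g ∈ normalizer (R : Set L), g ∈ R := by
    intro g hg
    have hin : ∀ a ∈ R, g * a * g⁻¹ ∈ R := fun a ha => (mem_normalizer_iff.mp hg a).1 ha
    have key : g * z * g⁻¹ = 1 ∨ g * z * g⁻¹ = z := by
      rcases hwit with ⟨a, ha, h⟩ | ⟨a, ha, b, hb, h⟩
      · have := hsq _ (hin a ha)
        rwa [show g * a * g⁻¹ * (g * a * g⁻¹) = g * (a * a) * g⁻¹ by group, h] at this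
      · have := hcm _ (hin a ha) _ (hin b hb)
        rwa [show g * a * g⁻¹ * (g * b * g⁻¹) * (g * a * g⁻¹)⁻¹ * (g * b * g⁻¹)⁻¹ =
          g * (a * b * a⁻¹ * b⁻¹) * g⁻¹ by group, h] at this
    rcases key with h | h
    · exact absurd (conj_eq_one_iff.mp h) hz1
    · exact hmemR.mpr (mul_inv_eq_iff_eq_mul.mp h)
  -- conjugates of `z`
  set C : Set L := {t | ∃ h : L, h * z * h⁻¹ = t} with hC
  have hzC : z ∈ C := ⟨1, by group⟩
  have hCconj : ∀ {t : L}, t ∈ C → ∀ g : L, g * t * g⁻¹ ∈ C := by
    rintro t ⟨h, rfl⟩ g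
    exact ⟨g * h, by group⟩
  -- generation of `R`
  have hgen : R ≤ closure (C ∩ (R : Set L)) := by
    have htop : commutator L = ⊤ := by
      rcases (inferInstance : (commutator L).Normal).eq_bot_or_eq_top with h | h
      · exact absurd (isMulCommutative_iff.mpr fun a b => by
          have h2 : ⁅a, b⁆ ∈ commutator L :=
            commutator_mem_commutator (mem_top a) (mem_top b)
          rw [h, mem_bot, commutatorElement_eq_one_iff_mul_comm] at h2
          exact h2) hL
      · exact h
    intro x hx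
    have hzcl : z ∈ closure (C ∩ (R : Set L)) := subset_closure ⟨hzC, hzR⟩
    have hRR : ⁅R, R⁆ ≤ zpowers z := by
      rw [commutator_le]
      intro a ha b hb
      rcases hcm a ha b hb with h | h
      · rw [commutatorElement_def, h]; exact one_mem _
      · rw [commutatorElement_def, h]; exact mem_zpowers z
    refine CfsgLib.FgsGrun.mem_of_grun P (closure (C ∩ (R : Set L))) ?_ ?_ x hx
      (htop ▸ mem_top x)
    · intro a ha hac
      have hle : normalizer (R : Set L) ≤ R := hnorm
      rcases hzp (hRR (commutator_mono hle hle hac)) with h | h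
      · rw [h]; exact one_mem _
      · rw [h]; exact hzcl
    · rintro g a ha ⟨b, hb, rfl⟩
      rcases hzp (hRR hb) with h | h
      · rw [h]; simp
      · subst h
        exact subset_closure ⟨⟨g, by simp⟩, ha⟩
  -- a conjugate of `z` other than `z` is not central in `R`
  have hnc : ∀ t ∈ C, t ∈ R → t ≠ z → ∃ r ∈ R, r * t * r⁻¹ = z * t := by
    rintro t ⟨h, rfl⟩ htR htne
    by_contra hno
    set t := h * z * h⁻¹ with htdef
    have hall : ∀ r ∈ R, r * t = t * r := by
      intro r hr
      rcases hcm r hr t htR with e | e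
      · have := congrArg (· * (t * r)) e
        simpa [mul_assoc] using this
      · exact absurd ⟨r, hr, mul_inv_eq_iff_eq_mul.mp e⟩ hno
    have hle : ∀ r ∈ R, h⁻¹ * r * h ∈ R := by
      intro r hr
      refine hmemR.mpr ?_
      have := hall r hr
      rw [htdef] at this
      calc h⁻¹ * r * h * z = h⁻¹ * (r * (h * z * h⁻¹)) * h := by group
        _ = h⁻¹ * (h * z * h⁻¹ * r) * h := by rw [this]
        _ = z * (h⁻¹ * r * h) := by group
    have key : h⁻¹ * z * h = 1 ∨ h⁻¹ * z * h = z := by
      rcases hwit with ⟨a, ha, e⟩ | ⟨a, ha, b, hb, e⟩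
      · have := hsq _ (hle a ha)
        rwa [show h⁻¹ * a * h * (h⁻¹ * a * h) = h⁻¹ * (a * a) * h by group, e] at this
      · have := hcm _ (hle a ha) _ (hle b hb)
        rwa [show h⁻¹ * a * h * (h⁻¹ * b * h) * (h⁻¹ * a * h)⁻¹ * (h⁻¹ * b * h)⁻¹ =
          h⁻¹ * (a * b * a⁻¹ * b⁻¹) * h by group, e] at this
    rcases key with e | e
    · exact hz1 (by simpa [mul_assoc] using congrArg (fun u => h * u * h⁻¹) e)
    · apply htne
      rw [htdef]
      calc h * z * h⁻¹ = h * (h⁻¹ * z * h) * h⁻¹ := by rw [e]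
        _ = z := by group
  -- the product of two commuting distinct conjugates is a conjugate
  have hprod : ∀ s ∈ C, ∀ u ∈ C, s * u = u * s → s ≠ u → s * u ∈ C := by
    rintro s ⟨h, rfl⟩ u hu hsu hne
    set u' := h⁻¹ * u * h with hu'
    have hu'C : u' ∈ C := by
      have := hCconj hu h⁻¹
      rwa [inv_inv] at this
    have hu'R : u' ∈ R := by
      refine hmemR.mpr ?_
      calc u' * z = h⁻¹ * (u * (h * z * h⁻¹)) * h := by rw [hu']; group
        _ = h⁻¹ * (h * z * h⁻¹ * u) * h := by rw [← hsu]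
        _ = z * u' := by rw [hu']; group
    obtain ⟨r, -, hr⟩ := hnc u' hu'C hu'R fun e => hne (by rw [← e, hu']; group)
    have := hCconj (hCconj hu'C r) h
    rw [hr] at this
    rwa [show h * (z * u') * h⁻¹ = h * z * h⁻¹ * u by rw [hu']; group] at this
  -- squares of conjugates
  have hCsq : ∀ t ∈ C, t * t = 1 := by
    rintro t ⟨h, rfl⟩
    calc h * z * h⁻¹ * (h * z * h⁻¹) = h * (z * z) * h⁻¹ := by group
      _ = 1 := by rw [hzz]; group
  have hzc : ∀ a ∈ R, a * z = z * a := fun a ha => hmemR.mp ha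
  -- commuting pairs of noncentral conjugates
  have hpair : ∀ t ∈ C, t ∈ R → t ≠ z → ∀ u ∈ C, u ∈ R → u ≠ z → t * u = u * t →
      u = t ∨ u = z * t := by
    intro t ht htR htz u hu huR huz hcomm
    by_contra hno
    rw [not_or] at hno
    obtain ⟨r, hr, hrt⟩ := hnc t ht htR htz
    have hrr : ∀ w ∈ C, w ∈ R → r * w = w * r ∨ r * w * r⁻¹ = z * w := by
      intro w _ hw
      rcases hcm r hr w hw with e | e
      · exact Or.inl (by simpa [mul_assoc] using congrArg (· * (w * r)) e)
      · exact Or.inr (mul_inv_eq_iff_eq_mul.mp e)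
    have hCR : ∀ a ∈ R, a * t = t * a → a * a = 1 := by
      intro a ha hat
      obtain ⟨h, hh⟩ := ht
      have hb : h⁻¹ * a * h ∈ R := by
        refine hmemR.mpr ?_
        calc h⁻¹ * a * h * z = h⁻¹ * (a * (h * z * h⁻¹)) * h := by group
          _ = h⁻¹ * (h * z * h⁻¹ * a) * h := by rw [hh, hat]
          _ = z * (h⁻¹ * a * h) := by group
      rcases hsq a ha with e | e
      · exact e
      · exfalso
        rcases hsq _ hb with e' | e'
        · rw [show h⁻¹ * a * h * (h⁻¹ * a * h) = h⁻¹ * (a * a) * h by group, e] at e'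
          exact hz1 (by simpa [mul_assoc] using congrArg (fun u => h * u * h⁻¹) e')
        · rw [show h⁻¹ * a * h * (h⁻¹ * a * h) = h⁻¹ * (a * a) * h by group, e] at e'
          apply htz
          rw [← hh]
          calc h * z * h⁻¹ = h * (h⁻¹ * z * h) * h⁻¹ := by rw [e']
            _ = z := by group
    have htu : t * u ∈ C := hprod t ht u hu hcomm (fun e => hno.1 e.symm)
    have htune : t * u ≠ z := by
      intro e
      apply hno.2
      calc u = t * (t * u) := by rw [← mul_assoc, hCsq t ht, one_mul]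
        _ = z * t := by rw [e, hzc t htR]
    -- `r` moves both `u` and `t * u`, and moves `t`
    have hrmove : ∀ w ∈ C, w ∈ R → w ≠ z → w * t = t * w → r * w * r⁻¹ = z * w := by
      intro w hw hwR hwz hwt
      rcases hrr w hw hwR with e | e
      · exfalso
        obtain ⟨r₀, hr₀, e₀⟩ := hnc w hw hwR hwz
        by_cases hr₀t : r₀ * t = t * r₀
        · -- then `r * r₀` moves both
          have h1 : r₀ * r * t * (r₀ * r)⁻¹ = z * t := by
            calc r₀ * r * t * (r₀ * r)⁻¹ = r₀ * (r * t * r⁻¹) * r₀⁻¹ := by group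
              _ = r₀ * z * (t * r₀⁻¹) := by rw [hrt]; group
              _ = z * (r₀ * t * r₀⁻¹) := by rw [hzc r₀ hr₀]; group
              _ = z * t := by rw [hr₀t]; group
          -- `w` is centralized by `C(t) ∩ R`: transport to `C(t)`
          obtain ⟨h, hh⟩ := ht
          have hconj : ∀ a ∈ R, a * t = t * a → h⁻¹ * a * h ∈ R := by
            intro a _ hat
            refine hmemR.mpr ?_
            calc h⁻¹ * a * h * z = h⁻¹ * (a * (h * z * h⁻¹)) * h := by group
              _ = h⁻¹ * (h * z * h⁻¹ * a) * h := by rw [hh, hat]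
              _ = z * (h⁻¹ * a * h) := by group
          have hcz := hcm _ (hconj r₀ hr₀ hr₀t) _ (hconj w hwR hwt)
          rw [show h⁻¹ * r₀ * h * (h⁻¹ * w * h) * (h⁻¹ * r₀ * h)⁻¹ * (h⁻¹ * w * h)⁻¹ =
            h⁻¹ * (r₀ * w * r₀⁻¹) * w⁻¹ * h by group, e₀,
            show h⁻¹ * (z * w) * w⁻¹ * h = h⁻¹ * z * h by group] at hcz
          rcases hcz with e' | e'
          · exact hz1 (by simpa [mul_assoc] using congrArg (fun u => h * u * h⁻¹) e')
          · apply htz
            rw [← hh]
            calc h * z * h⁻¹ = h * (h⁻¹ * z * h) * h⁻¹ := by rw [e']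
              _ = z := by group
        · have hr₁ : r⁻¹ * r₀ ∈ R := mul_mem (inv_mem hr) hr₀
          have e₀t : r₀ * t * r₀⁻¹ = z * t := by
            rcases hcm r₀ hr₀ t htR with e₂ | e₂
            · exact absurd (by simpa [mul_assoc] using congrArg (· * (t * r₀)) e₂) hr₀t
            · exact mul_inv_eq_iff_eq_mul.mp e₂
          have hcent : r⁻¹ * r₀ * t = t * (r⁻¹ * r₀) := by
            calc r⁻¹ * r₀ * t = r⁻¹ * (r₀ * t * r₀⁻¹) * r₀ := by group
              _ = r⁻¹ * (r * t * r⁻¹) * r₀ := by rw [e₀t, hrt]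
              _ = t * (r⁻¹ * r₀) := by group
          have hew : r⁻¹ * r₀ * w * (r⁻¹ * r₀)⁻¹ = z * w := by
            calc r⁻¹ * r₀ * w * (r⁻¹ * r₀)⁻¹ = r⁻¹ * (r₀ * w * r₀⁻¹) * r := by group
              _ = r⁻¹ * z * (w * r) := by rw [e₀]; group
              _ = r⁻¹ * z * r * w := by rw [← e]; group
              _ = z * w := by rw [mul_assoc r⁻¹, ← hzc r hr]; group
          have h1 := hCR _ hr₁ hcent
          have h2 := hCR _ hwR hwt
          have h3 := hCR _ (mul_mem hr₁ hwR) (by
            rw [mul_assoc, hwt, ← mul_assoc, hcent, mul_assoc])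
          have hcw : r⁻¹ * r₀ * w = w * (r⁻¹ * r₀) := by
            have ha := inv_eq_of_mul_eq_one_right h1
            have hb := inv_eq_of_mul_eq_one_right h2
            have hab := inv_eq_of_mul_eq_one_right h3
            rw [mul_inv_rev, ha, hb] at hab
            exact hab.symm
          rw [hcw, mul_inv_cancel_right] at hew
          exact hz1 (by simpa using hew.symm)
      · exact e
    have e1 := hrmove u hu huR huz hcomm.symm
    have e2 := hrmove (t * u) htu (mul_mem htR huR) htune (by rw [mul_assoc, hcomm])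
    rw [show r * (t * u) * r⁻¹ = r * t * r⁻¹ * (r * u * r⁻¹) by group, hrt, e1] at e2
    have : z * t * (z * u) = t * u := by
      rw [mul_assoc, ← mul_assoc t z, hzc t htR, mul_assoc z t, ← mul_assoc, hzz,
        one_mul]
    rw [this] at e2
    exact hz1 (by simpa using (mul_eq_right.mp e2.symm))
  -- two noncommuting conjugates
  obtain ⟨t, ht, htR, htz⟩ : ∃ t ∈ C, t ∈ R ∧ t ≠ z := by
    by_contra hno
    push Not at hno
    have hle : R ≤ zpowers z := by
      refine hgen.trans ?_
      rw [closure_le]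
      rintro s ⟨hs, hsR⟩
      rw [hno s hs hsR]
      exact mem_zpowers z
    rcases hwit with ⟨a, ha, e⟩ | ⟨a, ha, b, hb, e⟩
    · rcases hzp (hle ha) with h | h <;> rw [h] at e
      · exact hz1 (by simpa using e.symm)
      · exact hz1 (by rw [← e, hzz])
    · rcases hzp (hle ha) with h | h <;> rw [h] at e
      · exact hz1 (by simpa using e.symm)
      · rw [← hzc b hb] at e
        exact hz1 (by simpa [mul_assoc] using e.symm)
  obtain ⟨u, hu, huR, hut⟩ : ∃ u ∈ C, u ∈ R ∧ t * u ≠ u * t := by
    by_contra hno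
    push Not at hno
    obtain ⟨r, hr, hrt⟩ := hnc t ht htR htz
    have hle : R ≤ centralizer ({t} : Set L) := by
      refine hgen.trans ?_
      rw [closure_le]
      rintro s ⟨hs, hsR⟩
      exact mem_centralizer_singleton_iff.mpr (hno s hs hsR).symm
    have := mem_centralizer_singleton_iff.mp (hle hr)
    rw [this, mul_inv_cancel_right] at hrt
    exact hz1 (mul_eq_right.mp hrt.symm)
  have huz : u ≠ z := fun e => hut (by rw [e, hzc t htR])
  have hne : ∀ {a b : L}, a ∈ R → b ∈ R → a * a = 1 → b * b = 1 → a * b ≠ b * a →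
      (a * b) * (a * b) = z := by
    intro a b ha hb ha2 hb2 hab
    rcases hcm a ha b hb with e | e
    · exact absurd (by simpa [mul_assoc] using congrArg (· * (b * a)) e) hab
    · rw [inv_eq_of_mul_eq_one_right ha2, inv_eq_of_mul_eq_one_right hb2] at e
      rw [← e]; group
  have hc2 : (t * u) * (t * u) = z := hne htR huR (hCsq t ht) (hCsq u hu) hut
  set c := t * u with hcdef
  set K := zpowers c with hK
  have hcR : c ∈ R := mul_mem htR huR
  have hc4 : orderOf c = 4 := by
    refine orderOf_eq_prime_pow (p := 2) (n := 1) ?_ ?_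
    · rw [pow_one, sq, hc2]; exact hz1
    · rw [show 2 ^ (1 + 1) = 2 * 2 by norm_num, pow_mul, sq, sq, hc2, hzz]
  have hzK : z ∈ K := by rw [← hc2]; exact mul_mem (mem_zpowers c) (mem_zpowers c)
  have hinv : t * c * t⁻¹ = c⁻¹ := by
    rw [hcdef, mul_inv_rev, inv_eq_of_mul_eq_one_right (hCsq u hu),
      inv_eq_of_mul_eq_one_right (hCsq t ht)]
    rw [← mul_assoc t t u, hCsq t ht, one_mul]
  have htK : t ∉ K := by
    intro h
    obtain ⟨k, hk⟩ := mem_zpowers_iff.mp h
    have h1 : t * c * t⁻¹ = c := by rw [← hk]; group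
    rw [hinv, inv_eq_iff_mul_eq_one, hc2] at h1
    exact hz1 h1
  have hthree : ∀ v ∈ C, v ∈ R → v ∈ K ∨ t * v ∈ K := by
    intro v hv hvR
    by_cases hvz : v = z
    · exact Or.inl (hvz ▸ hzK)
    by_cases htv : t * v = v * t
    · rcases hpair t ht htR htz v hv hvR hvz htv with e | e
      · right; rw [e, hCsq t ht]; exact one_mem _
      · right
        rw [e, ← hzc t htR, ← mul_assoc, hCsq t ht, one_mul]
        exact hzK
    by_cases huv : u * v = v * u
    · rcases hpair u hu huR huz v hv hvR hvz huv with e | e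
      · right; rw [e]; exact mem_zpowers c
      · right
        rw [e, ← mul_assoc, hzc t htR, mul_assoc]
        exact mul_mem hzK (mem_zpowers c)
    · exfalso
      -- `u * v` centralizes `t`, so has square 1, but it squares to `z`
      have huv2 := hne huR hvR (hCsq u hu) (hCsq v hv) huv
      have hmv : ∀ w ∈ R, t * w ≠ w * t → t * w * t⁻¹ = z * w := by
        intro w hw hne'
        rcases hcm t htR w hw with e | e
        · exact absurd (by simpa [mul_assoc] using congrArg (· * (w * t)) e) hne'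
        · exact mul_inv_eq_iff_eq_mul.mp e
      have hcomm : t * (u * v) = u * v * t := by
        refine mul_inv_eq_iff_eq_mul.mp ?_
        rw [show t * (u * v) * t⁻¹ = t * u * t⁻¹ * (t * v * t⁻¹) by group, hmv u huR hut,
          hmv v hvR htv, mul_assoc, ← mul_assoc u z, hzc u huR, mul_assoc z u, ← mul_assoc,
          hzz, one_mul]
      obtain ⟨h, hh⟩ := ht
      have hconj : h⁻¹ * (u * v) * h ∈ R := by
        refine hmemR.mpr ?_
        calc h⁻¹ * (u * v) * h * z = h⁻¹ * (u * v * (h * z * h⁻¹)) * h := by group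
          _ = h⁻¹ * (h * z * h⁻¹ * (u * v)) * h := by rw [hh, hcomm]
          _ = z * (h⁻¹ * (u * v) * h) := by group
      have := hsq _ hconj
      rw [show h⁻¹ * (u * v) * h * (h⁻¹ * (u * v) * h) = h⁻¹ * ((u * v) * (u * v)) * h by group,
        huv2] at this
      rcases this with e' | e'
      · exact hz1 (by simpa [mul_assoc] using congrArg (fun u => h * u * h⁻¹) e')
      · apply htz
        rw [← hh]
        calc h * z * h⁻¹ = h * (h⁻¹ * z * h) * h⁻¹ := by rw [e']
          _ = z := by group
  have htn : ∀ k ∈ K, t * k * t⁻¹ ∈ K := by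
    intro k hk
    obtain ⟨i, rfl⟩ := mem_zpowers_iff.mp hk
    rw [← conj_zpow, hinv]
    exact zpow_mem (inv_mem (mem_zpowers c)) i
  have hti : t⁻¹ = t := inv_eq_of_mul_eq_one_right (hCsq t ht)
  rw [hti] at htn
  have hsplit : ∀ x ∈ R, x ∈ K ∨ t * x ∈ K := by
    intro x hx
    refine closure_induction (p := fun y _ => y ∈ K ∨ t * y ∈ K) ?_ ?_ ?_ ?_ (hgen hx)
    · rintro v ⟨hv, hvR⟩; exact hthree v hv hvR
    · exact Or.inl (one_mem _)
    · rintro a b - - (ha | ha) (hb | hb)
      · exact Or.inl (mul_mem ha hb)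
      · right
        rw [show t * (a * b) = (t * a * t) * (t⁻¹ * b) by group, hti]
        exact mul_mem (htn a ha) hb
      · exact Or.inr (by rw [← mul_assoc]; exact mul_mem ha hb)
      · left
        have := mul_mem (htn _ ha) hb
        rwa [← mul_assoc t t a, hCsq t ht, one_mul, mul_assoc, ← mul_assoc t t b, hCsq t ht,
          one_mul] at this
    · rintro a - (ha | ha)
      · exact Or.inl (inv_mem ha)
      · right
        have := htn _ (inv_mem ha)
        rwa [mul_inv_rev, hti, mul_assoc, mul_assoc, hCsq t ht, mul_one] at this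
  have hcard : Nat.card ↥R = 2 * 4 := by
    have hKR : K ≤ R := zpowers_le.mpr hcR
    have hi : (K.subgroupOf R).index = 2 := by
      rw [index_eq_two_iff]
      refine ⟨⟨t, htR⟩, fun b => ?_⟩
      simp only [mem_subgroupOf, Subgroup.coe_mul]
      rcases hsplit b b.2 with hb | hb
      · refine Or.inr ⟨hb, fun h => htK ?_⟩
        have := mul_mem (inv_mem hb) h
        rwa [inv_mul_cancel_left] at this
      · refine Or.inl ⟨?_, fun h => htK ?_⟩
        · have := htn _ hb
          rwa [← mul_assoc t t, hCsq t ht, one_mul] at this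
        · have := mul_mem hb (inv_mem h)
          rwa [mul_inv_cancel_right] at this
    rw [← (K.subgroupOf R).card_mul_index, hi, Nat.card_congr (subgroupOfEquivOfLe hKR).toEquiv,
      hK, Nat.card_zpowers, hc4]
  refine CfsgLib.Dickson.equiv_dihedral (c := (⟨c, hcR⟩ : ↥R)) (g := (⟨t, htR⟩ : ↥R))
    (by rw [Subgroup.orderOf_mk]; exact hc4) hcard (Subtype.ext (hCsq t ht)) ?_ (Subtype.ext hinv)
  intro h
  obtain ⟨i, hi⟩ := mem_zpowers_iff.mp h
  exact htK ⟨i, by simpa using congrArg Subtype.val hi⟩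

end CfsgLib.SmallSylowEight
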