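import Mathlib
import Cfsg.Agent.Lib.SmallSimple168

/-!
# Subgroups of simple groups of order 168
-/

set_option autoImplicit false

namespace CfsgLib.SmallSimple.O168

open CfsgLib.SmallSimple

variable {G : Type*} [Group G] [Finite G] [IsSimpleGroup G]

theorem kleinMap {A B : Type*} [Group A] [Group B] {U : Subgroup A} (hU : IsKleinFour ↥U)
    (f : A →* B) (hf : Function.Injective f) : IsKleinFour ↥(U.map f) := by
  refine ⟨?_, ?_⟩
  · rw [← Nat.card_congr (U.equivMapOfInjective f hf).toEquiv]; exact hU.card_four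
  · rw [← Monoid.exponent_eq_of_mulEquiv (U.equivMapOfInjective f hf)]; exact hU.exponent_two

theorem no_six (h : Nat.card G = 168) (g : G) : orderOf g ≠ 6 := by
  rcases orders h g with e | e | e | e | e <;> omega

theorem exists_frame (h : Nat.card G = 168) (T : Sylow 2 G) :
    ∃ a b : G, a ∈ (T : Subgroup G) ∧ b ∈ (T : Subgroup G) ∧ orderOf a = 4 ∧ b ^ 2 = 1 ∧
      b * a * b⁻¹ = a⁻¹ ∧ b ∉ Subgroup.zpowers a ∧
      ∀ t ∈ (T : Subgroup G), t ∈ Subgroup.zpowers a ∨ b⁻¹ * t ∈ Subgroup.zpowers a := by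
  classical
  haveI : Fact (Nat.Prime 2) := ⟨Nat.prime_two⟩
  obtain ⟨a, ha, ha4⟩ := exists_four h T
  obtain ⟨b, hb, hinv⟩ := invert_four h T ha ha4
  have hb2 : b ∉ Subgroup.zpowers a := by
    rintro ⟨i, rfl⟩
    have e : a ^ i * a * (a ^ i)⁻¹ = a := by
      rw [((Commute.refl a).zpow_left i).eq, mul_inv_cancel_right]
    have hinv' : a ^ i * a * (a ^ i)⁻¹ = a⁻¹ := hinv
    rw [e] at hinv'
    have : a ^ 2 = 1 := by rw [sq]; exact mul_eq_one_iff_eq_inv.mpr hinv'
    have := Nat.le_of_dvd (by norm_num) (orderOf_dvd_of_pow_eq_one this)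
    omega
  have hbsq : b ^ 2 = 1 := (sq_mem h T hb).resolve_right fun e => by
    rcases four_cases h T hb ha ((orderOf_four_iff h hb).mpr e) ha4 with e' | e'
    · exact hb2 (e' ▸ Subgroup.mem_zpowers a)
    · exact hb2 (e' ▸ inv_mem (Subgroup.mem_zpowers a))
  refine ⟨a, b, ha, hb, ha4, hbsq, hinv, hb2, fun t ht => ?_⟩
  have hle : Subgroup.zpowers a ≤ (T : Subgroup G) := Subgroup.zpowers_le.mpr ha
  have hidx : ((Subgroup.zpowers a).subgroupOf T).index = 2 := by
    have := ((Subgroup.zpowers a).subgroupOf T).card_mul_index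
    rw [Nat.card_congr (Subgroup.subgroupOfEquivOfLe hle).toEquiv, Nat.card_zpowers, ha4,
      sylow_two_card h T] at this
    omega
  by_cases h' : t ∈ Subgroup.zpowers a
  · exact Or.inl h'
  · refine Or.inr ?_
    have := (Subgroup.mul_mem_iff_of_index_two hidx (a := (⟨b⁻¹, inv_mem hb⟩ : (T : Subgroup G))) (b := ⟨t, ht⟩)).mpr
      (iff_of_false (fun hh => hb2 (inv_mem_iff.mp hh)) h')
    exact this

theorem sylow_two_dihedral (h : Nat.card G = 168) (T : Sylow 2 G) :
    Nonempty (↥(T : Subgroup G) ≃* DihedralGroup 4) := by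
  classical
  obtain ⟨a, b, ha, hb, ha4, hb2, hinv, hbn, -⟩ := exists_frame h T
  have hp : a ^ 4 = 1 := ha4 ▸ pow_orderOf_eq_one a
  let A : ZMod 4 → G := fun i => a ^ i.val
  have hAadd : ∀ i j, A (i + j) = A i * A j := fun i j => by
    simp only [A]
    rw [← pow_add, ZMod.val_add]
    exact pow_eq_pow_iff_modEq.mpr (by rw [ha4]; exact (Nat.mod_modEq _ 4))
  have hA0 : A 0 = 1 := by simp [A]
  have hAneg : ∀ i, A (-i) = (A i)⁻¹ := fun i => by
    rw [eq_inv_iff_mul_eq_one, ← hAadd, neg_add_cancel, hA0]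
  have hbb : b * b = 1 := by rw [← sq]; exact hb2
  have hbA : ∀ i, A i * b = b * A (-i) := fun i => by
    rw [hAneg]
    have e : b * (A i)⁻¹ * b⁻¹ = A i := by
      simp only [A]
      rw [← inv_pow, ← conj_pow, show b * a⁻¹ * b⁻¹ = a by
        rw [← inv_inj, mul_inv_rev, mul_inv_rev, inv_inv, inv_inv, ← mul_assoc]; exact hinv]
    calc A i * b = b * (A i)⁻¹ * b⁻¹ * b := by rw [e]
      _ = b * (A i)⁻¹ := inv_mul_cancel_right _ _
  let φ : DihedralGroup 4 → G := fun
    | .r i => A i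
    | .sr i => b * A i
  have hmul : ∀ x y, φ (x * y) = φ x * φ y := by
    rintro (i | i) (j | j)
    · simp [φ, DihedralGroup.r_mul_r, hAadd]
    · simp only [φ, DihedralGroup.r_mul_sr]
      rw [← mul_assoc, hbA, mul_assoc, ← hAadd, show -i + j = j - i by abel]
    · simp [φ, DihedralGroup.sr_mul_r, hAadd, mul_assoc]
    · simp only [φ, DihedralGroup.sr_mul_sr]
      rw [mul_assoc b, ← mul_assoc (A i), hbA, mul_assoc b (A (-i)), ← mul_assoc b b, hbb, one_mul, ← hAadd,
        show -i + j = j - i by abel]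
  let f : DihedralGroup 4 →* (T : Subgroup G) := MonoidHom.codRestrict (MonoidHom.mk' φ hmul) T (by
    rintro (i | i)
    · exact pow_mem ha _
    · exact mul_mem hb (pow_mem ha _))
  have hinj : Function.Injective f := by
    have key : ∀ x, φ x = 1 → x = 1 := by
      rintro (i | i) e
      · have hd : 4 ∣ i.val := by
          have e' : a ^ (ZMod.val i) = 1 := e
          have := orderOf_dvd_of_pow_eq_one e'
          rwa [ha4] at this
        have hi0 : i.val = 0 := by have := ZMod.val_lt i; omega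
        rw [(ZMod.val_eq_zero i).mp hi0]
        rfl
      · exfalso
        apply hbn
        rw [eq_inv_of_mul_eq_one_left (show b * A i = 1 from e)]
        exact inv_mem (pow_mem (Subgroup.mem_zpowers a) _)
    rw [← MonoidHom.ker_eq_bot_iff, eq_bot_iff]
    intro x hx
    exact Subgroup.mem_bot.mpr (key x (congrArg Subtype.val (MonoidHom.mem_ker.mp hx)))
  refine ⟨(MulEquiv.ofBijective f (hinj.bijective_of_nat_card_le ?_)).symm⟩
  rw [sylow_two_card h T, Nat.card_eq_fintype_card, DihedralGroup.card]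

theorem klein_le (h : Nat.card G = 168) (T : Sylow 2 G) {b : G} (hb : b ∈ (T : Subgroup G))
    (hb2 : b ^ 2 = 1) (hb1 : b ≠ 1) (hbz : b ≠ zT h T) :
    IsKleinFour ↥((T : Subgroup G) ⊓ Subgroup.centralizer ({b} : Set G)) ∧
      zT h T ∈ (T : Subgroup G) ⊓ Subgroup.centralizer ({b} : Set G) := by
  classical
  haveI : Fact (Nat.Prime 2) := ⟨Nat.prime_two⟩
  set U := (T : Subgroup G) ⊓ Subgroup.centralizer ({b} : Set G) with hU
  have hzU : zT h T ∈ U := ⟨zT_mem h T, Subgroup.mem_centralizer_singleton_iff.mpr (zT_comm h T hb).symm⟩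
  have hbU : b ∈ U := ⟨hb, Subgroup.mem_centralizer_singleton_iff.mpr rfl⟩
  have hne : U ≠ (T : Subgroup G) := fun e => hbz (zT_unique h T hb (fun t ht =>
    Subgroup.mem_centralizer_singleton_iff.mp (e.ge ht).2) hb1)
  have hcard : Nat.card U = 4 := by
    haveI := Fintype.ofFinite U
    have hd : Nat.card U ∣ 8 := sylow_two_card h T ▸ Subgroup.card_dvd_of_le inf_le_left
    have hlt : Nat.card U ≠ 8 := fun e =>
      hne (Subgroup.eq_of_le_of_card_ge inf_le_left (by rw [sylow_two_card h T, e]))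
    have h3 : ({1, ⟨b, hbU⟩, ⟨zT h T, hzU⟩} : Finset U).card ≤ Nat.card U :=
      le_of_le_of_eq (Finset.card_le_univ _) Nat.card_eq_fintype_card.symm
    rw [Finset.card_insert_of_notMem (by simp [Subtype.ext_iff, Ne.symm hb1, (zT_ne_one h T).symm]),
      Finset.card_pair (by simp [Subtype.ext_iff, hbz])] at h3
    have key : ∀ n ∈ Nat.divisors 8, 3 ≤ n → n ≠ 8 → n = 4 := by decide
    exact key _ (Nat.mem_divisors.mpr ⟨hd, by norm_num⟩) h3 hlt
  refine ⟨⟨hcard, ?_⟩, hzU⟩
  haveI : Nontrivial U := Finite.one_lt_card_iff_nontrivial.mp (by rw [hcard]; norm_num)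
  rw [Monoid.exponent_eq_prime_iff Nat.prime_two]
  intro u hu
  refine orderOf_eq_prime (Subtype.ext ?_) hu
  push_cast
  by_contra hne2
  have h4 := (orderOf_four_iff h u.2.1).mpr ((sq_mem h T u.2.1).resolve_left hne2)
  have hUeq : Subgroup.zpowers (u : G) = U :=
    Subgroup.eq_of_le_of_card_ge (Subgroup.zpowers_le.mpr u.2) (by rw [Nat.card_zpowers, h4, hcard])
  obtain ⟨i, hi⟩ : b ∈ Subgroup.zpowers (u : G) := by rw [hUeq]; exact hbU
  have hi' : (u : G) ^ i = b := hi
  have hd : (4 : ℤ) ∣ i * 2 := by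
    rw [show (4 : ℤ) = ((orderOf (u : G) : ℕ) : ℤ) by rw [h4]; rfl, orderOf_dvd_iff_zpow_eq_one,
      zpow_mul, hi', zpow_ofNat, hb2]
  obtain ⟨j, rfl⟩ : (2 : ℤ) ∣ i := by omega
  rw [zpow_mul, zpow_ofNat, (orderOf_four_iff h u.2.1).mp h4] at hi'
  rcases Int.even_or_odd j with ⟨l, rfl⟩ | ⟨l, rfl⟩
  · rw [← two_mul, zpow_mul, zpow_ofNat, ← zT_order h T, pow_orderOf_eq_one, one_zpow] at hi'
    exact hb1 hi'.symm
  · rw [zpow_add_one, zpow_mul, zpow_ofNat, ← zT_order h T, pow_orderOf_eq_one, one_zpow, one_mul] at hi'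
    exact hbz hi'.symm

theorem klein_cases (h : Nat.card G = 168) (T : Sylow 2 G) :
    ∃ U₁ U₂ : Subgroup G, U₁ ≠ U₂ ∧ U₁ ≤ (T : Subgroup G) ∧ U₂ ≤ (T : Subgroup G) ∧
      IsKleinFour ↥U₁ ∧ IsKleinFour ↥U₂ ∧ zT h T ∈ U₁ ∧ zT h T ∈ U₂ ∧
      ∀ W : Subgroup G, W ≤ (T : Subgroup G) → IsKleinFour ↥W → W = U₁ ∨ W = U₂ := by
  classical
  haveI : Fact (Nat.Prime 2) := ⟨Nat.prime_two⟩
  obtain ⟨a, b, ha, hb, ha4, hb2, hinv, hbn, hcov⟩ := exists_frame h T
  have hz : a ^ 2 = zT h T := (orderOf_four_iff h ha).mp ha4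
  have hzmem : zT h T ∈ Subgroup.zpowers a := hz ▸ pow_mem (Subgroup.mem_zpowers a) 2
  have hb1 : b ≠ 1 := fun e => hbn (e ▸ one_mem _)
  have hbz : b ≠ zT h T := fun e => hbn (e ▸ hzmem)
  have hban : b * a ∉ Subgroup.zpowers a := fun e => hbn (by
    have := mul_mem e (inv_mem (Subgroup.mem_zpowers a))
    rwa [mul_inv_cancel_right] at this)
  have hba1 : b * a ≠ 1 := fun e => hban (e ▸ one_mem _)
  have hbaz : b * a ≠ zT h T := fun e => hban (e ▸ hzmem)
  have hba2 : (b * a) ^ 2 = 1 := by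
    rw [sq]
    calc b * a * (b * a) = b * a * b⁻¹ * (b ^ 2) * a := by rw [sq]; group
      _ = 1 := by rw [hinv, hb2, mul_one, inv_mul_cancel]
  set U₁ := (T : Subgroup G) ⊓ Subgroup.centralizer ({b} : Set G) with h1
  set U₂ := (T : Subgroup G) ⊓ Subgroup.centralizer ({b * a} : Set G) with h2
  obtain ⟨hk1, hz1⟩ := klein_le h T hb hb2 hb1 hbz
  obtain ⟨hk2, hz2⟩ := klein_le h T (mul_mem hb ha) hba2 hba1 hbaz
  refine ⟨U₁, U₂, ?_, inf_le_left, inf_le_left, hk1, hk2, hz1, hz2, ?_⟩
  · intro e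
    have hm : b ∈ U₂ := e ▸ ⟨hb, Subgroup.mem_centralizer_singleton_iff.mpr rfl⟩
    have hc : b * (b * a) = b * a * b := Subgroup.mem_centralizer_singleton_iff.mp hm.2
    have hca : b * a = a * b := by
      rw [mul_assoc b a b] at hc
      exact mul_left_cancel hc
    rw [hca, mul_inv_cancel_right] at hinv
    have : a ^ 2 = 1 := by rw [sq]; exact mul_eq_one_iff_eq_inv.mpr hinv
    have := Nat.le_of_dvd (by norm_num) (orderOf_dvd_of_pow_eq_one this)
    omega
  · intro W hW hWk
    haveI := hWk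
    have hW4 : Nat.card W = 4 := hWk.card_four
    obtain ⟨w, hwW, hwn⟩ : ∃ w ∈ W, w ∉ Subgroup.zpowers a := by
      by_contra hall
      push Not at hall
      have he : W = Subgroup.zpowers a :=
        Subgroup.eq_of_le_of_card_ge hall (by rw [Nat.card_zpowers, ha4, hW4])
      have hd := Monoid.order_dvd_exponent (⟨a, he ▸ Subgroup.mem_zpowers a⟩ : W)
      rw [hWk.exponent_two, Subgroup.orderOf_mk, ha4] at hd
      norm_num at hd
    obtain ⟨j, hj⟩ := (hcov w (hW hwW)).resolve_left hwn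
    have hj' : w = b * a ^ j := by
      have : a ^ j = b⁻¹ * w := hj
      rw [this, mul_inv_cancel_left]
    have hWc : W ≤ (T : Subgroup G) ⊓ Subgroup.centralizer ({w} : Set G) := fun v hv =>
      ⟨hW hv, Subgroup.mem_centralizer_singleton_iff.mpr
        (congrArg Subtype.val (IsKleinFour.isMulCommutative.is_comm.comm (⟨v, hv⟩ : W) ⟨w, hwW⟩))⟩
    have heven : ∀ (c : G) (l : ℤ), c ∈ (T : Subgroup G) → w = c * a ^ (2 * l) →
        (T : Subgroup G) ⊓ Subgroup.centralizer ({w} : Set G) ≤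
          (T : Subgroup G) ⊓ Subgroup.centralizer ({c} : Set G) := by
      intro c l hc hw v hv
      refine ⟨hv.1, Subgroup.mem_centralizer_singleton_iff.mpr ?_⟩
      have hvw : Commute v w := Subgroup.mem_centralizer_singleton_iff.mp hv.2
      have hvz : Commute v (a ^ (2 * l)) := by
        rw [zpow_mul, zpow_ofNat, hz]
        exact Commute.zpow_right (zT_comm h T hv.1) l
      have : c = w * (a ^ (2 * l))⁻¹ := by rw [hw, mul_inv_cancel_right]
      rw [this]
      exact (hvw.mul_right hvz.inv_right).eq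
    rcases Int.even_or_odd j with ⟨l, rfl⟩ | ⟨l, rfl⟩
    · left
      refine Subgroup.eq_of_le_of_card_ge (hWc.trans (heven b l hb (by rw [hj', two_mul]))) ?_
      rw [hk1.card_four, hW4]
    · right
      refine Subgroup.eq_of_le_of_card_ge (hWc.trans (heven (b * a) l (mul_mem hb ha)
        (by rw [hj', mul_assoc b a, ← zpow_one_add]; ring_nf))) ?_
      rw [hk2.card_four, hW4]

theorem card_klein (h : Nat.card G = 168) (T : Sylow 2 G) :
    Nat.card {U : Subgroup G // U ≤ (T : Subgroup G) ∧ IsKleinFour ↥U} = 2 := by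
  obtain ⟨U₁, U₂, hne, h1, h2, k1, k2, -, -, hall⟩ := klein_cases h T
  rw [Nat.card_eq_two_iff]
  refine ⟨⟨U₁, h1, k1⟩, ⟨U₂, h2, k2⟩, fun e => hne (congrArg Subtype.val e), ?_⟩
  refine Set.eq_univ_of_forall fun ⟨W, hW, hk⟩ => ?_
  rcases hall W hW hk with rfl | rfl
  · exact Or.inl rfl
  · exact Or.inr rfl

theorem sylow_le_normalizer (h : Nat.card G = 168) (T : Sylow 2 G) {U : Subgroup G}
    (hU : U ≤ (T : Subgroup G)) (hk : IsKleinFour ↥U) :
    (T : Subgroup G) ≤ Subgroup.normalizer (U : Set G) := by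
  haveI : (U.subgroupOf (T : Subgroup G)).Normal := Subgroup.normal_of_index_eq_two (by
    have := (U.subgroupOf (T : Subgroup G)).card_mul_index
    rw [Nat.card_congr (Subgroup.subgroupOfEquivOfLe hU).toEquiv, hk.card_four, sylow_two_card h T] at this
    omega)
  exact (Subgroup.normal_subgroupOf_iff_le_normalizer hU).mp inferInstance

theorem exists_sylow_klein (h : Nat.card G = 168) {U : Subgroup G} (hk : IsKleinFour ↥U) :
    ∃ T : Sylow 2 G, U ≤ (T : Subgroup G) :=
  (IsPGroup.of_card (p := 2) (n := 2) (by rw [hk.card_four]; norm_num)).exists_le_sylow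

theorem klein_normalizer_ne_top (h : Nat.card G = 168) {U : Subgroup G} (hk : IsKleinFour ↥U) :
    Subgroup.normalizer (U : Set G) ≠ ⊤ := by
  intro e
  rw [Subgroup.normalizer_eq_top_iff] at e
  rcases e.eq_bot_or_eq_top with hb | ht
  · have := hk.card_four; rw [hb, Subgroup.card_bot] at this; omega
  · have := hk.card_four; rw [ht, Subgroup.card_top, h] at this; omega

theorem card_normalizer_klein (h : Nat.card G = 168) {U : Subgroup G} (hk : IsKleinFour ↥U) :
    Nat.card (Subgroup.normalizer (U : Set G)) = 24 := by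
  classical
  haveI : Fact (Nat.Prime 2) := ⟨Nat.prime_two⟩
  obtain ⟨T, hT⟩ := exists_sylow_klein h hk
  obtain ⟨U₁, U₂, hne, h1, h2, k1, k2, z1, z2, hall⟩ := klein_cases h T
  have hzU : zT h T ∈ U := by rcases hall U hT hk with rfl | rfl <;> assumption
  haveI := hk
  obtain ⟨u, hu, hu1, huz⟩ : ∃ u ∈ U, u ≠ 1 ∧ u ≠ zT h T := by
    by_contra hall'
    push Not at hall'
    haveI := Fintype.ofFinite U
    have hsub : (Finset.univ : Finset U) ⊆ {1, ⟨zT h T, hzU⟩} := fun v _ => by
      by_cases hv : v = 1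
      · simp [hv]
      · simp [Subtype.ext_iff, hall' v v.2 (fun e => hv (Subtype.ext e))]
    have := (Finset.card_le_card hsub).trans Finset.card_le_two
    rw [Finset.card_univ, ← Nat.card_eq_fintype_card, hk.card_four] at this
    omega
  have hu2 : orderOf u = 2 := by
    have hd := Monoid.order_dvd_exponent (⟨u, hu⟩ : U)
    rw [hk.exponent_two, Subgroup.orderOf_mk] at hd
    rcases (Nat.dvd_prime Nat.prime_two).mp hd with e | e
    · exact absurd (orderOf_eq_one_iff.mp e) hu1
    · exact e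
  obtain ⟨T', hT'⟩ := zT_surjective h hu2
  have hUT' : U ≤ (T' : Subgroup G) := fun v hv => by
    rw [← zT_centralizer h T', hT']
    exact Subgroup.mem_centralizer_singleton_iff.mpr
      (congrArg Subtype.val (IsKleinFour.isMulCommutative.is_comm.comm (⟨v, hv⟩ : U) ⟨u, hu⟩))
  set N := Subgroup.normalizer (U : Set G) with hN
  have hTN : (T : Subgroup G) ≤ N := sylow_le_normalizer h T hT hk
  have hT'N : (T' : Subgroup G) ≤ N := sylow_le_normalizer h T' hUT' hk
  have hle := card_le_24 h N (klein_normalizer_ne_top h hk)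
  have h8 : 8 ∣ Nat.card N := sylow_two_card h T ▸ Subgroup.card_dvd_of_le hTN
  have hne8 : Nat.card N ≠ 8 := fun e => by
    have e1 : (T : Subgroup G) = N := Subgroup.eq_of_le_of_card_ge hTN (by rw [sylow_two_card h T, e])
    have e2 : T' = T := Sylow.ext (Subgroup.eq_of_le_of_card_ge (e1.symm ▸ hT'N)
      (by rw [sylow_two_card h T, sylow_two_card h T']))
    exact huz (by rw [← hT', e2])
  have hd : Nat.card N ∣ 168 := h ▸ Subgroup.card_subgroup_dvd_card N
  have key : ∀ n ∈ Nat.divisors 168, 8 ∣ n → n ≤ 24 → n ≠ 8 → n = 24 := by decide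
  exact key _ (Nat.mem_divisors.mpr ⟨hd, by norm_num⟩) h8 hle hne8

theorem normalizer_klein_iso (h : Nat.card G = 168) {U : Subgroup G} (hk : IsKleinFour ↥U) :
    Nonempty (↥(Subgroup.normalizer (U : Set G)) ≃* Equiv.Perm (Fin 4)) :=
  equiv_perm_four (card_normalizer_klein h hk) fun g e => no_six h g (by rw [Subgroup.orderOf_coe]; exact e)

theorem klein_not_conj (h : Nat.card G = 168) (T : Sylow 2 G) {U W : Subgroup G}
    (hU : U ≤ (T : Subgroup G)) (hW : W ≤ (T : Subgroup G)) (kU : IsKleinFour ↥U) (kW : IsKleinFour ↥W)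
    (hne : U ≠ W) (g : G) : U.map (MulAut.conj g).toMonoidHom ≠ W := by
  intro e
  haveI : Fact (Nat.Prime 2) := ⟨Nat.prime_two⟩
  apply hne
  set N := Subgroup.normalizer (W : Set G) with hN
  have hTN : (T : Subgroup G) ≤ N := sylow_le_normalizer h T hW kW
  have hgN : ((g • T : Sylow 2 G) : Subgroup G) ≤ N := by
    rintro _ ⟨t, ht, rfl⟩
    have hn := sylow_le_normalizer h T hU kU ht
    rw [hN, Subgroup.mem_normalizer_iff]
    intro y
    rw [← e, Subgroup.mem_map_equiv, Subgroup.mem_map_equiv]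
    simp only [MulDistribMulAction.toMonoidEnd_apply, MulDistribMulAction.toMonoidHom_apply,
      MulAut.smul_def, MulAut.conj_apply, MulAut.conj_symm_apply]
    rw [Subgroup.mem_normalizer_iff.mp hn (g⁻¹ * y * g)]
    simp [mul_assoc]
  obtain ⟨n, hn⟩ := MulAction.exists_smul_eq N ((g • T).subtype hgN) (T.subtype hTN)
  rw [Sylow.smul_subtype hgN n] at hn
  have hn' : ((n : G) * g) • T = T := by
    have := Sylow.subtype_injective hn
    rw [mul_smul]
    exact this
  have hmem : (n : G) * g ∈ Subgroup.normalizer ((T : Subgroup G) : Set G) :=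
    Sylow.smul_eq_iff_mem_normalizer.mp hn'
  rw [normalizer_two h T] at hmem
  have h1 : U.map (MulAut.conj ((n : G) * g)).toMonoidHom = U :=
    (Subgroup.mem_normalizer_iff_map_conj_eq).mp (sylow_le_normalizer h T hU kU hmem)
  have h2 : W.map (MulAut.conj (n : G)).toMonoidHom = W :=
    (Subgroup.mem_normalizer_iff_map_conj_eq).mp n.2
  calc U = U.map (MulAut.conj ((n : G) * g)).toMonoidHom := h1.symm
    _ = (U.map (MulAut.conj g).toMonoidHom).map (MulAut.conj (n : G)).toMonoidHom := by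
        rw [Subgroup.map_map, map_mul]; rfl
    _ = W := by rw [e, h2]

theorem normalizer_klein_ne (h : Nat.card G = 168) {U W : Subgroup G} (kU : IsKleinFour ↥U)
    (kW : IsKleinFour ↥W) (T : Sylow 2 G) (hU : U ≤ (T : Subgroup G)) (hW : W ≤ (T : Subgroup G))
    (hne : U ≠ W) : Subgroup.normalizer (U : Set G) ≠ Subgroup.normalizer (W : Set G) := by
  intro e
  haveI := kU
  haveI := kW
  obtain ⟨U₁, U₂, -, h1, h2, k1, k2, z1, z2, hall⟩ := klein_cases h T
  have hzU : zT h T ∈ U := by rcases hall U hU kU with rfl | rfl <;> assumption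
  have hzW : zT h T ∈ W := by rcases hall W hW kW with rfl | rfl <;> assumption
  have hlt : Nat.card ↥(U ⊓ W) < 4 := by
    refine lt_of_le_of_ne (kU.card_four ▸ Subgroup.card_le_of_le inf_le_left) fun e4 => hne ?_
    rw [← Subgroup.eq_of_le_of_card_ge (inf_le_left : U ⊓ W ≤ U) (by rw [kU.card_four, e4]),
      Subgroup.eq_of_le_of_card_ge (inf_le_right : U ⊓ W ≤ W) (by rw [kW.card_four, e4])]
  have hd : Nat.card ↥(U ⊓ W) ∣ 4 := kU.card_four ▸ Subgroup.card_dvd_of_le inf_le_left
  have h12 : Nat.card ↥(U ⊓ W) = 2 := by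
    have h2 : 2 ∣ Nat.card ↥(U ⊓ W) := zT_order h T ▸ Subgroup.orderOf_dvd_natCard _ ⟨hzU, hzW⟩
    have key : ∀ n ∈ Nat.divisors 4, 2 ∣ n → n < 4 → n = 2 := by decide
    exact key _ (Nat.mem_divisors.mpr ⟨hd, by norm_num⟩) h2 hlt
  classical
  have hsub : Subgroup.normalizer (U : Set G) ≤ Subgroup.centralizer ({zT h T} : Set G) := by
    intro n hn
    have hnW : n ∈ Subgroup.normalizer (W : Set G) := e ▸ hn
    rw [Subgroup.mem_centralizer_singleton_iff]
    have hc : n * zT h T * n⁻¹ ∈ U ⊓ W :=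
      ⟨(Subgroup.mem_normalizer_iff.mp hn _).mp hzU, (Subgroup.mem_normalizer_iff.mp hnW _).mp hzW⟩
    have hz : Subgroup.zpowers (zT h T) = U ⊓ W :=
      Subgroup.eq_of_le_of_card_ge (Subgroup.zpowers_le.mpr ⟨hzU, hzW⟩)
        (by rw [Nat.card_zpowers, zT_order h T, h12])
    rw [← hz, mem_zpowers_iff_mem_range_orderOf, Finset.mem_image] at hc
    obtain ⟨i, hi, hi'⟩ := hc
    rw [Finset.mem_range, zT_order h T] at hi
    interval_cases i
    · rw [pow_zero, eq_comm, conj_eq_one_iff] at hi'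
      exact absurd hi' (zT_ne_one h T)
    · rw [pow_one] at hi'
      exact mul_inv_eq_iff_eq_mul.mp hi'.symm
  have := Subgroup.card_le_of_le hsub
  rw [zT_centralizer h T, card_normalizer_klein h kU, sylow_two_card h T] at this
  omega

theorem le_normalizer_seven (h : Nat.card G = 168) {M : Subgroup G} (hM : M ≠ ⊤) (h7 : 7 ∣ Nat.card M) :
    ∃ S : Sylow 7 G, M ≤ Subgroup.normalizer ((S : Subgroup G) : Set G) := by
  haveI : Fact (Nat.Prime 7) := ⟨by norm_num⟩
  have hle := card_le_24 h M hM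
  obtain ⟨S₀⟩ : Nonempty (Sylow 7 M) := inferInstance
  obtain ⟨k, hk⟩ := h7
  have hS : Nat.card S₀ = 7 := by
    rw [CfsgLib.Perm.sylow_card S₀ (k := 1) (m := k) (by rw [hk, pow_one])
      (fun hd => by have : 0 < Nat.card M := Nat.card_pos; have := Nat.le_of_dvd (by omega) hd; omega), pow_one]
  have hidx : (S₀ : Subgroup M).index = k := by
    have := (S₀ : Subgroup M).card_mul_index
    rw [hS, hk] at this
    omega
  have hd := S₀.card_dvd_index
  rw [hidx] at hd
  have hmod : Nat.card (Sylow 7 M) % 7 = 1 % 7 := card_sylow_modEq_one 7 M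
  have hpos : 0 < Nat.card M := Nat.card_pos
  have h1 : Nat.card (Sylow 7 M) = 1 := by
    have := Nat.le_of_dvd (by omega) hd
    omega
  haveI : (S₀ : Subgroup M).Normal := by
    rw [← Subgroup.normalizer_eq_top_iff, ← Subgroup.index_eq_one, index_normalizer S₀, h1]
  obtain ⟨S, hS'⟩ := (IsPGroup.map S₀.2 M.subtype).exists_le_sylow
  have e : (S₀ : Subgroup M).map M.subtype = S :=
    Subgroup.eq_of_le_of_card_ge hS' (by rw [sylow_seven_card h S, Subgroup.card_subtype, hS])
  refine ⟨S, ?_⟩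
  rw [← e]
  have hmap := Subgroup.le_normalizer_map (H := (S₀ : Subgroup M)) M.subtype
  rwa [Subgroup.normalizer_eq_top, ← MonoidHom.range_eq_map, Subgroup.range_subtype] at hmap

theorem normalizer_three_le (h : Nat.card G = 168) (P : Sylow 3 G) :
    ∃ V : Subgroup G, IsKleinFour ↥V ∧
      Subgroup.normalizer ((P : Subgroup G) : Set G) ≤ Subgroup.normalizer (V : Set G) := by
  classical
  haveI : Fact (Nat.Prime 3) := ⟨Nat.prime_three⟩
  haveI : Fact (Nat.Prime 2) := ⟨Nat.prime_two⟩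
  obtain ⟨T⟩ : Nonempty (Sylow 2 G) := inferInstance
  obtain ⟨U, -, -, hU, -, kU, -, -, -, -⟩ := klein_cases h T
  set N := Subgroup.normalizer (U : Set G) with hN
  have hN24 := card_normalizer_klein h kU
  obtain ⟨R⟩ : Nonempty (Sylow 3 N) := inferInstance
  have hR3 : Nat.card R = 3 := sylow_three_card_sub hN24 R
  obtain ⟨Q, hQ⟩ := (IsPGroup.map R.2 N.subtype).exists_le_sylow
  have e : (R : Subgroup N).map N.subtype = Q :=
    Subgroup.eq_of_le_of_card_ge hQ (by rw [sylow_three_card h Q, Subgroup.card_subtype, hR3])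
  have hRN : Nat.card (Subgroup.normalizer ((R : Subgroup N) : Set N)) = 6 := by
    have hm := (Subgroup.normalizer ((R : Subgroup N) : Set N)).card_mul_index
    rw [index_normalizer R, sylow_three_number hN24 fun g e => no_six h g (by rw [Subgroup.orderOf_coe]; exact e),
      hN24] at hm
    omega
  have hQN : Subgroup.normalizer ((Q : Subgroup G) : Set G) ≤ N := by
    have h1 : (Subgroup.normalizer ((R : Subgroup N) : Set N)).map N.subtype ≤
        Subgroup.normalizer ((Q : Subgroup G) : Set G) := e ▸ Subgroup.le_normalizer_map N.subtype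
    rw [← Subgroup.eq_of_le_of_card_ge h1 (by rw [card_normalizer_three h Q, Subgroup.card_subtype, hRN])]
    exact Subgroup.map_subtype_le _
  obtain ⟨g, hg⟩ := MulAction.exists_smul_eq G Q P
  refine ⟨U.map (MulAut.conj g).toMonoidHom, ?_, ?_⟩
  · exact kleinMap kU _ (MulAut.conj g).injective
  · rw [← hg, Sylow.smul_def]
    show Subgroup.normalizer ((((Q : Subgroup G).map (MulAut.conj g).toMonoidHom : Subgroup G)) : Set G) ≤ _
    rw [← Subgroup.map_equiv_normalizer_eq, ← Subgroup.map_equiv_normalizer_eq]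
    exact Subgroup.map_mono hQN
where
  sylow_three_card_sub {N : Subgroup G} (h : Nat.card N = 24) (R : Sylow 3 N) : Nat.card R = 3 :=
    CfsgLib.SmallSimple.sylow_three_card (k := 8) (by omega) (by norm_num) R

theorem le_maximal (h : Nat.card G = 168) {M : Subgroup G} (hM : M ≠ ⊤) :
    (∃ S : Sylow 7 G, M ≤ Subgroup.normalizer ((S : Subgroup G) : Set G)) ∨
      ∃ V : Subgroup G, IsKleinFour ↥V ∧ M ≤ Subgroup.normalizer (V : Set G) := by
  classical
  by_cases h7 : 7 ∣ Nat.card M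
  · exact Or.inl (le_normalizer_seven h hM h7)
  right
  haveI : Fact (Nat.Prime 3) := ⟨Nat.prime_three⟩
  haveI : Fact (Nat.Prime 2) := ⟨Nat.prime_two⟩
  have hd : Nat.card M ∣ 168 := h ▸ Subgroup.card_subgroup_dvd_card M
  by_cases h3 : 3 ∣ Nat.card M
  · obtain ⟨k, hk⟩ := h3
    have key : ∀ n ∈ Nat.divisors 168, 3 ∣ n → ¬ 7 ∣ n → n ≤ 24 → n = 3 ∨ n = 6 ∨ n = 12 ∨ n = 24 := by decide
    have hcases := key _ (Nat.mem_divisors.mpr ⟨hd, by norm_num⟩) ⟨k, hk⟩ h7 (card_le_24 h M hM)
    have hk3 : ¬ 3 ∣ k := by omega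
    obtain ⟨R⟩ : Nonempty (Sylow 3 M) := inferInstance
    have hR := CfsgLib.SmallSimple.sylow_three_card hk hk3 R
    have hidx : (R : Subgroup M).index = k := by
      have := (R : Subgroup M).card_mul_index
      rw [hR, hk] at this
      omega
    have hdn := R.card_dvd_index
    rw [hidx] at hdn
    have hmod : Nat.card (Sylow 3 M) % 3 = 1 % 3 := card_sylow_modEq_one 3 M
    by_cases h1 : Nat.card (Sylow 3 M) = 1
    · haveI : (R : Subgroup M).Normal := by
        rw [← Subgroup.normalizer_eq_top_iff, ← Subgroup.index_eq_one, index_normalizer R, h1]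
      obtain ⟨P, hP⟩ := (IsPGroup.map R.2 M.subtype).exists_le_sylow
      have e : (R : Subgroup M).map M.subtype = P :=
        Subgroup.eq_of_le_of_card_ge hP (by rw [sylow_three_card h P, Subgroup.card_subtype, hR])
      obtain ⟨V, hV, hle⟩ := normalizer_three_le h P
      refine ⟨V, hV, le_trans ?_ hle⟩
      rw [← e]
      have hmap := Subgroup.le_normalizer_map (H := (R : Subgroup M)) M.subtype
      rwa [Subgroup.normalizer_eq_top, ← MonoidHom.range_eq_map, Subgroup.range_subtype] at hmap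
    · have hk8 : k = 1 ∨ k = 2 ∨ k = 4 ∨ k = 8 := by omega
      have hpos : 0 < Nat.card (Sylow 3 M) := Nat.card_pos
      have h4 : Nat.card (Sylow 3 M) = 4 ∧ (k = 4 ∨ k = 8) := by
        have := Nat.le_of_dvd (by omega) hdn
        have key2 : ∀ n ∈ Finset.range 9, ∀ k ∈ ({1, 2, 4, 8} : Finset ℕ), n ∣ k → n % 3 = 1 → n ≠ 1 →
            n = 4 ∧ (k = 4 ∨ k = 8) := by decide
        exact key2 _ (Finset.mem_range.mpr (by omega)) k (by simp; omega) hdn (by omega) h1
      obtain ⟨V, hVn, hVk⟩ := exists_klein_normal (G := M) (by omega)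
        (fun g e => no_six h g (by rw [Subgroup.orderOf_coe]; exact e)) h4.1
      refine ⟨V.map M.subtype, kleinMap hVk _ M.subtype_injective, ?_⟩
      haveI := hVn
      have hmap := Subgroup.le_normalizer_map (H := V) M.subtype
      rwa [Subgroup.normalizer_eq_top, ← MonoidHom.range_eq_map, Subgroup.range_subtype] at hmap
  · have key : ∀ n ∈ Nat.divisors 168, ¬ 3 ∣ n → ¬ 7 ∣ n → n ∣ 8 := by decide
    obtain ⟨j, -, hj⟩ := (Nat.dvd_prime_pow Nat.prime_two).mp
      (show Nat.card M ∣ 2 ^ 3 from key _ (Nat.mem_divisors.mpr ⟨hd, by norm_num⟩) h3 h7)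
    obtain ⟨T, hT⟩ := (IsPGroup.of_card (p := 2) hj).exists_le_sylow
    obtain ⟨U, -, -, hU, -, kU, -, -, -, -⟩ := klein_cases h T
    exact ⟨U, kU, hT.trans (sylow_le_normalizer h T hU kU)⟩

theorem normalizer_seven_coatom (h : Nat.card G = 168) (S : Sylow 7 G) :
    IsCoatom (Subgroup.normalizer ((S : Subgroup G) : Set G)) := by
  refine ⟨fun e => ?_, fun H hH => ?_⟩
  · have := card_normalizer_seven h S
    rw [e, Subgroup.card_top, h] at this
    omega
  · by_contra hne
    have h1 := card_le_24 h H hne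
    have h2 : 21 ∣ Nat.card H := card_normalizer_seven h S ▸ Subgroup.card_dvd_of_le hH.le
    have h3 : Nat.card H = 21 := by have : 0 < Nat.card H := Nat.card_pos; omega
    exact hH.ne (Subgroup.eq_of_le_of_card_ge hH.le (by rw [card_normalizer_seven h S, h3]))

theorem normalizer_klein_coatom (h : Nat.card G = 168) {U : Subgroup G} (hk : IsKleinFour ↥U) :
    IsCoatom (Subgroup.normalizer (U : Set G)) := by
  refine ⟨klein_normalizer_ne_top h hk, fun H hH => ?_⟩
  by_contra hne
  have h1 := card_le_24 h H hne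
  have h2 := Subgroup.card_le_of_le hH.le
  rw [card_normalizer_klein h hk] at h2
  exact hH.ne (Subgroup.eq_of_le_of_card_ge hH.le (by rw [card_normalizer_klein h hk]; omega))

theorem coatom_cases (h : Nat.card G = 168) {M : Subgroup G} (hM : IsCoatom M) :
    (∃ S : Sylow 7 G, M = Subgroup.normalizer ((S : Subgroup G) : Set G)) ∨
      ∃ V : Subgroup G, IsKleinFour ↥V ∧ M = Subgroup.normalizer (V : Set G) := by
  rcases le_maximal h hM.1 with ⟨S, hS⟩ | ⟨V, hV, hle⟩
  · refine Or.inl ⟨S, (hM.le_iff.mp hS).resolve_left (normalizer_seven_coatom h S).1 |>.symm⟩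
  · exact Or.inr ⟨V, hV, ((hM.le_iff.mp hle).resolve_left (klein_normalizer_ne_top h hV)).symm⟩

theorem maximal_subgroups (h : Nat.card G = 168) :
    (∀ M : Subgroup G, IsCoatom M →
        Nonempty (↥M ≃* Equiv.Perm (Fin 4)) ∨ (Nat.card ↥M = 21 ∧ ¬ IsMulCommutative ↥M)) ∧
    (∀ M M' : Subgroup G, IsCoatom M → IsCoatom M' → Nat.card ↥M = 21 → Nat.card ↥M' = 21 →
        ∃ g : G, M' = M.map (MulAut.conj g).toMonoidHom) ∧
    ∃ M₁ M₂ : Subgroup G, IsCoatom M₁ ∧ IsCoatom M₂ ∧ Nonempty (↥M₁ ≃* Equiv.Perm (Fin 4)) ∧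
      Nonempty (↥M₂ ≃* Equiv.Perm (Fin 4)) ∧ (∀ g : G, M₂ ≠ M₁.map (MulAut.conj g).toMonoidHom) ∧
      ∀ M : Subgroup G, IsCoatom M → Nonempty (↥M ≃* Equiv.Perm (Fin 4)) →
        ∃ g : G, M = M₁.map (MulAut.conj g).toMonoidHom ∨ M = M₂.map (MulAut.conj g).toMonoidHom := by
  classical
  haveI : Fact (Nat.Prime 7) := ⟨by norm_num⟩
  haveI : Fact (Nat.Prime 2) := ⟨Nat.prime_two⟩
  refine ⟨fun M hM => ?_, fun M M' hM hM' h1 h2 => ?_, ?_⟩
  · rcases coatom_cases h hM with ⟨S, rfl⟩ | ⟨V, hV, rfl⟩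
    · exact Or.inr ⟨card_normalizer_seven h S, normalizer_seven_noncomm h S⟩
    · exact Or.inl (normalizer_klein_iso h hV)
  · rcases coatom_cases h hM with ⟨S, rfl⟩ | ⟨V, hV, rfl⟩
    · rcases coatom_cases h hM' with ⟨S', rfl⟩ | ⟨V, hV, rfl⟩
      · obtain ⟨g, hg⟩ := MulAction.exists_smul_eq G S S'
        refine ⟨g, ?_⟩
        rw [← hg, Sylow.smul_def]
        show Subgroup.normalizer ((((S : Subgroup G).map (MulAut.conj g).toMonoidHom : Subgroup G)) : Set G) = _
        rw [← Subgroup.map_equiv_normalizer_eq]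
      · rw [card_normalizer_klein h hV] at h2; omega
    · rw [card_normalizer_klein h hV] at h1; omega
  obtain ⟨T⟩ : Nonempty (Sylow 2 G) := inferInstance
  obtain ⟨U₁, U₂, hne, hU1, hU2, k1, k2, -, -, hall⟩ := klein_cases h T
  refine ⟨_, _, normalizer_klein_coatom h k1, normalizer_klein_coatom h k2, normalizer_klein_iso h k1,
    normalizer_klein_iso h k2, fun g e => ?_, fun M hM hiso => ?_⟩
  · rw [Subgroup.map_equiv_normalizer_eq] at e
    set W := U₁.map (MulAut.conj g).toMonoidHom with hW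
    have kW : IsKleinFour ↥W := kleinMap k1 _ (MulAut.conj g).injective
    have hWT : W ≤ (T : Subgroup G) := by
      -- `T` normalizes `W`, so the join is a `2`-group
      have hTW : (T : Subgroup G) ≤ Subgroup.normalizer (W : Set G) := e ▸ sylow_le_normalizer h T hU2 k2
      have hp : IsPGroup 2 ↥((T : Subgroup G) ⊔ W) :=
        T.2.to_sup_of_normal_right' (IsPGroup.of_card (n := 2) (by rw [kW.card_four]; norm_num)) hTW
      exact le_sup_right.trans (T.3 hp le_sup_left).le
    have hWne : W ≠ U₂ := klein_not_conj h T hU1 hU2 k1 k2 hne g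
    exact normalizer_klein_ne h k2 kW T hU2 hWT hWne.symm e
  · rcases coatom_cases h hM with ⟨S, rfl⟩ | ⟨V, hV, rfl⟩
    · obtain ⟨f⟩ := hiso
      have := Nat.card_congr f.toEquiv
      rw [card_normalizer_seven h S, Nat.card_perm, Nat.card_fin] at this
      exact absurd this (by decide)
    · obtain ⟨T', hT'⟩ := exists_sylow_klein h hV
      obtain ⟨g, hg⟩ := MulAction.exists_smul_eq G T' T
      have hVT : V.map (MulAut.conj g).toMonoidHom ≤ (T : Subgroup G) := by
        rw [← hg, Sylow.smul_def]; exact Subgroup.map_mono hT'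
      have hVk : IsKleinFour ↥(V.map (MulAut.conj g).toMonoidHom) :=
        kleinMap hV _ (MulAut.conj g).injective
      have back : (V.map (MulAut.conj g).toMonoidHom).map (MulAut.conj g⁻¹).toMonoidHom = V := by
        rw [Subgroup.map_map]
        conv_rhs => rw [← Subgroup.map_id V]
        congr 1
        ext x
        simp [mul_assoc]
      refine ⟨g⁻¹, ?_⟩
      rcases hall _ hVT hVk with e | e
      · left; rw [Subgroup.map_equiv_normalizer_eq, ← e, back]
      · right; rw [Subgroup.map_equiv_normalizer_eq, ← e, back]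

end CfsgLib.SmallSimple.O168
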