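import Mathlib

/-!
Self-dual binary codes of length 24 and minimum weight at least 8: cosets, octads, double evenness.
-/

set_option autoImplicit false

namespace CfsgLib.Spor.AbsGolay

open Finset

abbrev W := Fin 24 → ZMod 2

/-- Characteristic vector. -/
def ind (s : Finset (Fin 24)) : W := fun i => if i ∈ s then 1 else 0

/-- Support. -/
def supp (w : W) : Finset (Fin 24) := univ.filter fun i => w i ≠ 0

theorem z2 : ∀ a : ZMod 2, a = 0 ∨ a = 1 := by decide

theorem supp_ind (s : Finset (Fin 24)) : supp (ind s) = s := by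
  ext i; by_cases h : i ∈ s <;> simp [supp, ind, h]

theorem ind_supp (w : W) : ind (supp w) = w := by
  funext i
  rcases z2 (w i) with h | h <;> simp [supp, ind, h]

theorem norm_eq (w : W) : hammingNorm w = (supp w).card := rfl

theorem norm_ind (s : Finset (Fin 24)) : hammingNorm (ind s) = s.card := by rw [norm_eq, supp_ind]

theorem ind_injective : Function.Injective ind := fun s t h => by rw [← supp_ind s, h, supp_ind]

theorem ind_sub (s t : Finset (Fin 24)) : ind s - ind t = ind (symmDiff s t) := by
  funext i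
  by_cases h1 : i ∈ s <;> by_cases h2 : i ∈ t <;> simp [ind, Finset.mem_symmDiff, h1, h2] <;> decide

theorem ind_add (s t : Finset (Fin 24)) : ind s + ind t = ind (symmDiff s t) := by
  rw [← ind_sub, CharTwo.sub_eq_add]

theorem card_symmDiff_le (s t : Finset (Fin 24)) : (symmDiff s t).card ≤ s.card + t.card :=
  (card_le_card fun i hi => by
    rcases Finset.mem_symmDiff.1 hi with h | h
    · exact mem_union_left _ h.1
    · exact mem_union_right _ h.1).trans (card_union_le s t)

theorem disjoint_of_card {s t : Finset (Fin 24)} (h : s.card + t.card ≤ (symmDiff s t).card) :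
    Disjoint s t := by
  rw [Finset.disjoint_left]
  intro i hs ht
  have : (symmDiff s t).card < s.card + t.card := by
    rw [← card_union_add_card_inter]
    refine (card_le_card fun j hj => ?_).trans_lt
      (Nat.lt_add_of_pos_right (card_pos.2 ⟨i, mem_inter.2 ⟨hs, ht⟩⟩))
    rcases Finset.mem_symmDiff.1 hj with h | h
    · exact mem_union_left _ h.1
    · exact mem_union_right _ h.1
  omega

/-- The hypotheses on the code. -/
structure GCode (C : Submodule (ZMod 2) W) : Prop where
  dim : Module.finrank (ZMod 2) C = 12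
  orth : ∀ v ∈ C, ∀ w ∈ C, ∑ i, v i * w i = 0
  min : ∀ w ∈ C, w ≠ 0 → 8 ≤ hammingNorm w

variable {C : Submodule (ZMod 2) W} (hC : GCode C)

/-- The class of a set. -/
def qc (C : Submodule (ZMod 2) W) (s : Finset (Fin 24)) : W ⧸ C := Submodule.Quotient.mk (ind s)

include hC

theorem eq_or_big {s t : Finset (Fin 24)} (h : qc C s = qc C t) :
    s = t ∨ 8 ≤ (symmDiff s t).card := by
  by_cases hst : s = t
  · exact Or.inl hst
  right
  have hm := (Submodule.Quotient.eq C).1 h
  have hne : ind s - ind t ≠ 0 := sub_ne_zero.2 fun e => hst (ind_injective e)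
  have := hC.min _ hm hne
  rwa [ind_sub, norm_ind] at this

theorem eq_of_small {s t : Finset (Fin 24)} (h : qc C s = qc C t) (hs : s.card + t.card < 8) : s = t :=
  (eq_or_big hC h).resolve_right fun h8 => by have := card_symmDiff_le s t; omega

theorem card_quot : Nat.card (W ⧸ C) = 4096 := by
  have h := Submodule.finrank_quotient_add_finrank C
  rw [hC.dim, Module.finrank_pi, Fintype.card_fin] at h
  rw [Module.natCard_eq_pow_finrank (K := ZMod 2), Nat.card_zmod, show Module.finrank (ZMod 2) (W ⧸ C) = 12 by omega]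
  norm_num

/-- The tetrads in a coset. -/
noncomputable def tetrads (C : Submodule (ZMod 2) W) (x : W ⧸ C) : Finset (Finset (Fin 24)) :=
  haveI := Classical.decEq (W ⧸ C)
  (univ.powersetCard 4).filter fun s => qc C s = x

omit hC in
theorem mem_tetrads {x : W ⧸ C} {s : Finset (Fin 24)} : s ∈ tetrads C x ↔ s.card = 4 ∧ qc C s = x := by
  simp [tetrads, mem_powersetCard]

theorem tetrads_disjoint {x : W ⧸ C} {s t : Finset (Fin 24)} (hs : s ∈ tetrads C x) (ht : t ∈ tetrads C x)
    (hne : s ≠ t) : Disjoint s t := by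
  rw [mem_tetrads] at hs ht
  have := (eq_or_big hC (hs.2.trans ht.2.symm)).resolve_left hne
  exact disjoint_of_card (by omega)

theorem tetrads_le (x : W ⧸ C) : (tetrads C x).card ≤ 6 := by
  classical
  have h := card_biUnion (s := tetrads C x) (t := id) fun s hs t ht hne => tetrads_disjoint hC hs ht hne
  rw [Finset.sum_congr (f := fun u : Finset (Fin 24) => (id u).card) (g := fun _ => 4) rfl
    (fun s hs => (mem_tetrads.1 hs).1), sum_const, smul_eq_mul] at h
  have := card_le_univ ((tetrads C x).biUnion id)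
  rw [Fintype.card_fin] at this
  omega

/-- A class either has a unique short representative or is made of six disjoint tetrads. -/
theorem coset_cases (x : W ⧸ C) :
    (∃ s : Finset (Fin 24), s.card ≤ 3 ∧ qc C s = x ∧
        ∀ t : Finset (Fin 24), t.card ≤ 4 → qc C t = x → t = s) ∨
      ((tetrads C x).card = 6 ∧ ∀ t : Finset (Fin 24), t.card ≤ 3 → qc C t ≠ x) := by
  classical
  by_cases h : ∃ s : Finset (Fin 24), s.card ≤ 3 ∧ qc C s = x
  · obtain ⟨s, hs, e⟩ := h
    exact Or.inl ⟨s, hs, e, fun t ht e' => eq_of_small hC (e'.trans e.symm) (by omega)⟩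
  push Not at h
  refine Or.inr ⟨?_, h⟩
  have : Fintype (W ⧸ C) := Fintype.ofFinite _
  let short : Finset (Finset (Fin 24)) :=
    univ.powersetCard 0 ∪ univ.powersetCard 1 ∪ univ.powersetCard 2 ∪ univ.powersetCard 3
  have hshort : ∀ s : Finset (Fin 24), s ∈ short ↔ s.card ≤ 3 := fun s => by
    simp only [short, mem_union, mem_powersetCard, subset_univ, true_and]; omega
  have hcshort : short.card = 2325 := by
    have d : ∀ i j, i ≠ j → Disjoint ((univ : Finset (Fin 24)).powersetCard i) (univ.powersetCard j) := fun i j hij =>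
      Finset.disjoint_left.2 fun s hs ht => hij ((mem_powersetCard.1 hs).2.symm.trans (mem_powersetCard.1 ht).2)
    rw [card_union_of_disjoint, card_union_of_disjoint, card_union_of_disjoint]
    · simp only [card_powersetCard, card_univ, Fintype.card_fin]; decide
    · exact d 0 1 (by norm_num)
    · exact disjoint_union_left.2 ⟨d 0 2 (by norm_num), d 1 2 (by norm_num)⟩
    · exact disjoint_union_left.2 ⟨disjoint_union_left.2 ⟨d 0 3 (by norm_num), d 1 3 (by norm_num)⟩, d 2 3 (by norm_num)⟩
  let long : Finset (W ⧸ C) := univ \ short.image (qc C)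
  have hlong : long.card = 1771 := by
    rw [card_sdiff_of_subset (subset_univ _), card_univ, ← Nat.card_eq_fintype_card, card_quot hC,
      card_image_of_injOn (fun s hs t ht e => eq_of_small hC e (by
        have h1 := (hshort s).1 hs; have h2 := (hshort t).1 ht; omega)), hcshort]
  have hmaps : ∀ s ∈ (univ : Finset (Fin 24)).powersetCard 4, qc C s ∈ long := by
    intro s hs
    simp only [long, mem_sdiff, mem_univ, true_and, mem_image, not_exists, not_and]
    intro t ht e
    have h4 := (mem_powersetCard.1 hs).2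
    have h3 := (hshort t).1 ht
    have := eq_of_small hC e (by omega)
    rw [this] at h3; omega
  have hsum := card_eq_sum_card_fiberwise (f := qc C) (t := long) hmaps
  have hx : x ∈ long := by
    simp only [long, mem_sdiff, mem_univ, true_and, mem_image, not_exists, not_and]
    exact fun t ht => h t ((hshort t).1 ht)
  have e : ∀ y, ((univ : Finset (Fin 24)).powersetCard 4).filter (fun s => qc C s = y) = tetrads C y := fun y => by
    ext s; simp [mem_tetrads, mem_powersetCard]
  simp only [e] at hsum
  by_contra hne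
  have hlt : ∑ y ∈ long, (tetrads C y).card < ∑ _y ∈ long, 6 :=
    sum_lt_sum (fun y _ => tetrads_le hC y) ⟨x, hx, lt_of_le_of_ne (tetrads_le hC x) hne⟩
  rw [← hsum, sum_const, hlong, card_powersetCard, card_univ, Fintype.card_fin, smul_eq_mul] at hlt
  exact absurd hlt (by decide)

/-- The six tetrads of a coset cover all coordinates. -/
theorem tetrad_cover {q : Finset (Fin 24)} (hq : q.card = 4) (i : Fin 24) :
    ∃ t ∈ tetrads C (qc C q), i ∈ t := by
  classical
  rcases coset_cases hC (qc C q) with ⟨s, hs, -, hu⟩ | ⟨h6, -⟩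
  · have := hu q hq.le rfl
    rw [← this] at hs; omega
  have h := card_biUnion (s := tetrads C (qc C q)) (t := id) fun s hs t ht hne => tetrads_disjoint hC hs ht hne
  rw [Finset.sum_congr (f := fun u : Finset (Fin 24) => (id u).card) (g := fun _ => 4) rfl
    (fun s hs => (mem_tetrads.1 hs).1), sum_const, smul_eq_mul, h6] at h
  have e := eq_univ_of_card _ (h.trans (Fintype.card_fin 24).symm)
  have := mem_univ i
  rw [← e, mem_biUnion] at this
  exact this

/-- Two tetrads of a coset give an octad. -/
theorem octad_of_tetrads {q t : Finset (Fin 24)} (hq : q.card = 4) (ht : t ∈ tetrads C (qc C q))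
    (hne : t ≠ q) : Disjoint q t ∧ ind (q ∪ t) ∈ C ∧ (q ∪ t).card = 8 := by
  have hqm : q ∈ tetrads C (qc C q) := mem_tetrads.2 ⟨hq, rfl⟩
  have hd := tetrads_disjoint hC hqm ht (Ne.symm hne)
  refine ⟨hd, ?_, ?_⟩
  · have h := (Submodule.Quotient.eq C).1 (mem_tetrads.1 ht).2
    rw [ind_sub, show symmDiff t q = q ∪ t by
      rw [Disjoint.symmDiff_eq_sup hd.symm, sup_comm]; rfl] at h
    exact h
  · rw [card_union_of_disjoint hd, hq, (mem_tetrads.1 ht).1]

theorem steiner : ∀ s : Finset (Fin 24), s.card = 5 →
    ∃! b : Finset (Fin 24), (ind b ∈ C ∧ b.card = 8) ∧ s ⊆ b := by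
  intro s hs
  obtain ⟨i, hi⟩ : s.Nonempty := card_pos.1 (by omega)
  have hq : (s.erase i).card = 4 := by rw [card_erase_of_mem hi, hs]
  obtain ⟨t, ht, hit⟩ := tetrad_cover hC hq i
  have hne : t ≠ s.erase i := fun e => by rw [e] at hit; exact notMem_erase i s hit
  obtain ⟨-, hmem, hcard⟩ := octad_of_tetrads hC hq ht hne
  refine ⟨s.erase i ∪ t, ⟨⟨hmem, hcard⟩, fun j hj => ?_⟩, ?_⟩
  · rcases eq_or_ne j i with rfl | h
    · exact mem_union_right _ hit
    · exact mem_union_left _ (mem_erase.2 ⟨h, hj⟩)
  rintro b ⟨⟨hb, hb8⟩, hsb⟩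
  by_contra hne'
  set a := s.erase i ∪ t
  have hsa : s ⊆ a := fun j hj => by
    rcases eq_or_ne j i with rfl | h
    · exact mem_union_right _ hit
    · exact mem_union_left _ (mem_erase.2 ⟨h, hj⟩)
  have h8 : 8 ≤ (symmDiff b a).card := by
    have := hC.min _ (C.sub_mem hb hmem) (sub_ne_zero.2 fun e => hne' (ind_injective e))
    rwa [ind_sub, norm_ind] at this
  have hsub : symmDiff b a ⊆ (b \ s) ∪ (a \ s) := fun j hj => by
    rcases Finset.mem_symmDiff.1 hj with ⟨h1, h2⟩ | ⟨h1, h2⟩
    · exact mem_union_left _ (mem_sdiff.2 ⟨h1, fun h => h2 (hsa h)⟩)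
    · exact mem_union_right _ (mem_sdiff.2 ⟨h1, fun h => h2 (hsb h)⟩)
  have := (card_le_card hsub).trans (card_union_le _ _)
  rw [card_sdiff_of_subset hsb, card_sdiff_of_subset hsa] at this
  omega

theorem exists_octad : ∃ w ∈ C, hammingNorm w = 8 := by
  obtain ⟨b, ⟨⟨hb, h8⟩, -⟩, -⟩ := steiner hC {0, 1, 2, 3, 4} (by decide)
  exact ⟨ind b, hb, (norm_ind b).trans h8⟩

/-- The octad words span the code. -/
theorem span_octads : Submodule.span (ZMod 2) {w : W | w ∈ C ∧ hammingNorm w = 8} = C := by
  classical
  set S := Submodule.span (ZMod 2) {w : W | w ∈ C ∧ hammingNorm w = 8}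
  have hle : S ≤ C := Submodule.span_le.2 fun w hw => hw.1
  refine Submodule.eq_of_le_of_finrank_le hle ?_
  let d : LinearMap.BilinForm (ZMod 2) W := Matrix.toBilin' 1
  have hd : ∀ x y, d x y = ∑ i, x i * y i := fun x y => by
    simp [d, Matrix.toBilin'_apply', dotProduct]
  have hnd : d.Nondegenerate := Matrix.Nondegenerate.toBilin' (Matrix.nondegenerate_of_det_ne_zero (by simp))
  have hdr := LinearMap.BilinForm.finrank_orthogonal (B := d) hnd S
  have hle' : d.orthogonal S ≤ C := by
    intro u hu
    rw [LinearMap.BilinForm.mem_orthogonal_iff] at hu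
    by_contra hc
    obtain ⟨v, hv4, hvne, hvq⟩ : ∃ v : Finset (Fin 24), v.card ≤ 4 ∧ v.Nonempty ∧ qc C v = Submodule.Quotient.mk u := by
      rcases coset_cases hC (Submodule.Quotient.mk u) with ⟨s, hs, e, -⟩ | ⟨h6, -⟩
      · refine ⟨s, by omega, nonempty_iff_ne_empty.2 fun h0 => hc ?_, e⟩
        subst h0
        have h : (Submodule.Quotient.mk u : W ⧸ C) = 0 := by
          rw [← e]; exact (Submodule.Quotient.mk_eq_zero C).2 (by
            rw [show ind (∅ : Finset (Fin 24)) = 0 by funext j; simp [ind]]; exact C.zero_mem)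
        exact (Submodule.Quotient.mk_eq_zero C).1 h
      · obtain ⟨s, hs⟩ := card_pos.1 (show 0 < (tetrads C (Submodule.Quotient.mk u)).card by omega)
        obtain ⟨h4, e⟩ := mem_tetrads.1 hs
        exact ⟨s, h4.le, card_pos.1 (by omega), e⟩
    obtain ⟨x, hx⟩ := hvne
    obtain ⟨r, hr, hr3⟩ := exists_subset_card_eq (s := (univ : Finset (Fin 24)) \ v) (n := 3) (by
      rw [card_sdiff_of_subset (subset_univ _), card_univ, Fintype.card_fin]; omega)
    have hxr : x ∉ r := fun h => (mem_sdiff.1 (hr h)).2 hx
    have hq : (insert x r).card = 4 := by rw [card_insert_of_notMem hxr, hr3]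
    have h6 : (tetrads C (qc C (insert x r))).card = 6 := by
      rcases coset_cases hC (qc C (insert x r)) with ⟨s, hs, -, hu'⟩ | ⟨h6, -⟩
      · have := hu' _ hq.le rfl
        rw [← this] at hs; omega
      · exact h6
    set T := tetrads C (qc C (insert x r))
    have hmeq : insert x r ∈ T := mem_tetrads.2 ⟨hq, rfl⟩
    obtain ⟨t, ht, htne, htv⟩ : ∃ t ∈ T, t ≠ insert x r ∧ Disjoint t v := by
      by_contra! h
      have hch : ∀ t ∈ T.erase (insert x r), ∃ y, y ∈ t ∧ y ∈ v.erase x := by
        intro t ht
        obtain ⟨hne, ht'⟩ := mem_erase.1 ht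
        obtain ⟨y, hy1, hy2⟩ := not_disjoint_iff.1 (h t ht' hne)
        refine ⟨y, hy1, mem_erase.2 ⟨fun e => ?_, hy2⟩⟩
        exact disjoint_left.1 (tetrads_disjoint hC ht' hmeq hne) hy1 (e ▸ mem_insert_self x r)
      choose f hf1 hf2 using hch
      have : (T.erase (insert x r)).attach.card ≤ (v.erase x).card :=
        card_le_card_of_injOn (fun t => f t.1 t.2) (fun t _ => hf2 t.1 t.2) fun a _ b _ e => by
          by_contra hab
          exact disjoint_left.1 (tetrads_disjoint hC (mem_erase.1 a.2).2 (mem_erase.1 b.2).2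
            (fun h => hab (Subtype.ext h))) (hf1 a.1 a.2) (by rw [show f a.1 a.2 = f b.1 b.2 from e]; exact hf1 b.1 b.2)
      rw [card_attach, card_erase_of_mem hmeq, card_erase_of_mem hx, h6] at this
      omega
    obtain ⟨-, hoct, hoct8⟩ := octad_of_tetrads hC hq ht htne
    have h0 : d (ind (insert x r ∪ t)) u = 0 :=
      hu _ (Submodule.subset_span ⟨hoct, (norm_ind _).trans hoct8⟩)
    have hdiff : d (ind (insert x r ∪ t)) (u - ind v) = 0 := by
      rw [hd]; exact hC.orth _ hoct _ ((Submodule.Quotient.eq C).1 hvq.symm)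
    rw [map_sub, h0, zero_sub, neg_eq_zero, hd] at hdiff
    have hone : ∀ j, ind (insert x r ∪ t) j * ind v j = if j = x then 1 else 0 := by
      intro j
      by_cases hjx : j = x
      · subst hjx; simp [ind, hx]
      · by_cases hjv : j ∈ v
        · have h1 : j ∉ r := fun h => (mem_sdiff.1 (hr h)).2 hjv
          have h2 : j ∉ t := fun h => disjoint_left.1 htv h hjv
          simp [ind, hjx, h1, h2]
        · simp [ind, hjx, hjv]
    rw [sum_congr rfl fun j _ => hone j, sum_ite_eq' univ x, if_pos (mem_univ x)] at hdiff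
    exact one_ne_zero hdiff
  have := Submodule.finrank_mono hle'
  rw [Module.finrank_pi, Fintype.card_fin] at hdr
  have h12 := hC.dim
  omega

theorem doubly_even : ∀ w ∈ C, 4 ∣ hammingNorm w := by
  intro w hw
  rw [← span_octads hC] at hw
  refine (show w ∈ C ∧ 4 ∣ hammingNorm w from ?_).2
  induction hw using Submodule.span_induction with
  | mem x hx => exact ⟨hx.1, by rw [hx.2]; norm_num⟩
  | zero => exact ⟨C.zero_mem, by simp⟩
  | add x y _ _ hx hy =>
    refine ⟨C.add_mem hx.1 hy.1, ?_⟩
    have h0 := hC.orth x hx.1 y hy.1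
    have hint : 2 ∣ (supp x ∩ supp y).card := by
      have : ∑ i, x i * y i = ((supp x ∩ supp y).card : ZMod 2) := by
        rw [Finset.sum_congr rfl (g := fun i => if i ∈ supp x ∩ supp y then (1 : ZMod 2) else 0)
          (fun i _ => by rcases z2 (x i) with a | a <;> rcases z2 (y i) with b | b <;> simp [supp, a, b]),
          Finset.sum_boole]
        congr 2; ext i; simp
      rw [this, ZMod.natCast_eq_zero_iff] at h0
      exact h0
    have hx' : 4 ∣ (supp x).card := hx.2
    have hy' : 4 ∣ (supp y).card := hy.2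
    rw [show x + y = ind (symmDiff (supp x) (supp y)) by rw [← ind_add, ind_supp, ind_supp], norm_ind,
      show symmDiff (supp x) (supp y) = (supp x \ supp y) ∪ (supp y \ supp x) from rfl,
      card_union_of_disjoint (disjoint_sdiff_sdiff), card_sdiff, card_sdiff, inter_comm (supp y)]
    have hle1 : (supp x ∩ supp y).card ≤ (supp x).card := card_le_card inter_subset_left
    have hle2 : (supp x ∩ supp y).card ≤ (supp y).card := card_le_card inter_subset_right
    omega
  | smul c x _ hx =>
    rcases z2 c with rfl | rfl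
    · simpa using C.zero_mem
    · simpa using hx

end CfsgLib.Spor.AbsGolay
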