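import Cfsg.Agent.Lib.SporLeech
import Cfsg.Agent.Lib.SporMathieu

/-!
The shortest vectors of the rank-24 lattice: classification and number.
-/

set_option autoImplicit false
set_option maxRecDepth 8000

namespace CfsgLib.Spor
open Cfsg
open scoped Pointwise

/-- A vector with two entries of absolute value four. -/
def shapeFour (d : (_ : Finset GolayPt) × Finset GolayPt) : GolayPt → ℤ :=
  fun p => if p ∈ d.1 then (if p ∈ d.2 then -4 else 4) else 0

/-- A vector with eight entries of absolute value two. -/
def shapeTwo (d : (_ : Finset GolayPt) × Finset GolayPt) : GolayPt → ℤ :=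
  fun p => if p ∈ d.1 then (if p ∈ d.2 then -2 else 2) else 0

/-- A vector with odd entries. -/
def shapeOdd (d : GolayPt × Finset GolayPt) : GolayPt → ℤ :=
  fun p => if p ∈ d.2 then (if p = d.1 then 3 else -1) else (if p = d.1 then -3 else 1)

/-- The signed pairs. -/
noncomputable def minFours : Finset (GolayPt → ℤ) :=
  (((Finset.univ : Finset GolayPt).powersetCard 2).sigma fun s => s.powerset).image shapeFour

/-- The signed octads with evenly many minus signs. -/
noncomputable def minTwos : Finset (GolayPt → ℤ) :=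
  ((Set.toFinite octads).toFinset.sigma fun s => s.powerset.filter fun n => 2 ∣ n.card).image shapeTwo

/-- The odd vectors. -/
noncomputable def minOdds : Finset (GolayPt → ℤ) :=
  ((Finset.univ : Finset GolayPt) ×ˢ (Set.toFinite codeSets).toFinset).image shapeOdd

theorem card_even_powerset : ∀ {s : Finset GolayPt}, s.card = 8 →
    (s.powerset.filter fun n => 2 ∣ n.card).card = 128 := by
  intro s hs
  have e : s.powerset.filter (fun n => 2 ∣ n.card) =
      ({0, 2, 4, 6, 8} : Finset ℕ).biUnion fun k => s.powersetCard k := by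
    ext n
    simp only [Finset.mem_filter, Finset.mem_powerset, Finset.mem_biUnion, Finset.mem_powersetCard, Finset.mem_insert,
      Finset.mem_singleton]
    constructor
    · rintro ⟨h1, h2⟩
      refine ⟨n.card, ?_, h1, rfl⟩
      have := Finset.card_le_card h1
      omega
    · rintro ⟨k, hk, h1, rfl⟩
      exact ⟨h1, by omega⟩
  rw [e, Finset.card_biUnion]
  · simp [Finset.card_powersetCard, hs, Nat.choose]
  · intro a _ b _ hab
    simp only [Function.onFun, Finset.disjoint_left, Finset.mem_powersetCard]
    rintro n ⟨-, h1⟩ ⟨-, h2⟩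
    exact hab (h1.symm.trans h2)

theorem card_codeSetsFinset : (Set.toFinite codeSets).toFinset.card = 4096 := by
  have e : (Set.toFinite codeSets).toFinset = codeMasks.toFinset.image setOfMask := by
    ext s
    simp only [Set.Finite.mem_toFinset, Finset.mem_image, List.mem_toFinset]
    exact ⟨fun h => ⟨_, mem_codeSets_iff.1 h, setOfMask_maskOf s⟩, fun ⟨m, hm, e⟩ => e ▸ setOfMask_mem_codeSets hm⟩
  rw [e, Finset.card_image_of_injOn, List.toFinset_card_of_nodup codeMasks_nodup, length_codeMasks]
  intro a ha b hb h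
  exact setOfMask_inj (codeMasks_lt a (List.mem_toFinset.1 ha)) (codeMasks_lt b (List.mem_toFinset.1 hb)) h

theorem sum_ite_mem_const (s : Finset GolayPt) (c : ℤ) : (∑ p, if p ∈ s then c else 0) = s.card * c := by
  rw [Finset.sum_ite_mem, Finset.univ_inter, Finset.sum_const, nsmul_eq_mul]

theorem shapeFour_mem {d : (_ : Finset GolayPt) × Finset GolayPt} (h1 : d.1.card = 2) :
    shapeFour d ∈ leechLattice ∧ sqNorm (shapeFour d) = 32 := by
  let b : GolayPt → ℤ := fun p => if p ∈ d.1 then (if p ∈ d.2 then -2 else 2) else 0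
  refine ⟨mem_leech.2 ⟨0, b, fun p => ?_, ?_, ?_⟩, ?_⟩
  · simp only [shapeFour, b]; split_ifs <;> rfl
  · have hd : (2 : ℤ) ∣ ∑ p, (if p ∈ d.1 then (if p ∈ d.2 then (-1 : ℤ) else 1) else 0) := by
      rw [show (2 : ℤ) = ((2 : ℕ) : ℤ) by rfl, ← ZMod.intCast_zmod_eq_zero_iff_dvd, Int.cast_sum]
      have : ∀ p, (((if p ∈ d.1 then (if p ∈ d.2 then (-1 : ℤ) else 1) else 0) : ℤ) : ZMod 2)
          = if p ∈ d.1 then 1 else 0 := fun p => by split_ifs <;> rfl
      rw [Finset.sum_congr rfl fun p _ => this p, Finset.sum_boole, Finset.filter_mem_eq_inter, Finset.univ_inter, h1]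
      rfl
    have : ∑ p, shapeFour d p = 4 * ∑ p, (if p ∈ d.1 then (if p ∈ d.2 then (-1 : ℤ) else 1) else 0) := by
      rw [Finset.mul_sum]
      refine Finset.sum_congr rfl fun p _ => ?_
      simp only [shapeFour]; split_ifs <;> rfl
    omega
  · have : oddWord b = 0 := by
      funext p; simp only [oddWord, b, Pi.zero_apply]; split_ifs <;> rfl
    rw [this]; exact golayCode.zero_mem
  · have : ∀ p, shapeFour d p ^ 2 = if p ∈ d.1 then 16 else 0 := fun p => by
      simp only [shapeFour]; split_ifs <;> rfl
    rw [sqNorm, Finset.sum_congr rfl fun p _ => this p, sum_ite_mem_const, h1]; rfl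

theorem shapeTwo_mem {d : (_ : Finset GolayPt) × Finset GolayPt} (h1 : d.1 ∈ octads) (h2 : d.2 ⊆ d.1)
    (h3 : 2 ∣ d.2.card) : shapeTwo d ∈ leechLattice ∧ sqNorm (shapeTwo d) = 32 := by
  obtain ⟨hc, h8⟩ := h1
  let b : GolayPt → ℤ := fun p => if p ∈ d.1 then (if p ∈ d.2 then -1 else 1) else 0
  refine ⟨mem_leech.2 ⟨0, b, fun p => ?_, ?_, ?_⟩, ?_⟩
  · simp only [shapeTwo, b]; split_ifs <;> rfl
  · have : ∀ p, shapeTwo d p = (if p ∈ d.1 then 2 else 0) - (if p ∈ d.2 then 4 else 0) := fun p => by
      simp only [shapeTwo]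
      by_cases ha : p ∈ d.2
      · simp [ha, h2 ha]
      · simp [ha]
    rw [Finset.sum_congr rfl fun p _ => this p, Finset.sum_sub_distrib, sum_ite_mem_const, sum_ite_mem_const, h8]
    obtain ⟨c, hc'⟩ := h3
    rw [hc']; push_cast
    exact ⟨2 - c, by ring⟩
  · rw [← mem_codeSets_support]
    convert hc using 1
    ext p
    rw [mem_support₂]
    simp only [oddWord, b]
    split_ifs <;> simp_all
  · have : ∀ p, shapeTwo d p ^ 2 = if p ∈ d.1 then 4 else 0 := fun p => by
      simp only [shapeTwo]; split_ifs <;> rfl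
    rw [sqNorm, Finset.sum_congr rfl fun p _ => this p, sum_ite_mem_const, h8]; rfl

theorem shapeOdd_mem {d : GolayPt × Finset GolayPt} (h : d.2 ∈ codeSets) :
    shapeOdd d ∈ leechLattice ∧ sqNorm (shapeOdd d) = 32 := by
  refine ⟨?_, ?_⟩
  · have hbase : (fun p : GolayPt => if p = d.1 then (-3 : ℤ) else 1) ∈ leechLattice := by
      refine mem_leech.2 ⟨1, fun p => if p = d.1 then -2 else 0, fun p => by beta_reduce; split <;> rfl, ?_, ?_⟩
      · have : ∀ p : GolayPt, (if p = d.1 then (-3 : ℤ) else 1) = 1 + (if p = d.1 then -4 else 0) := fun p => by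
          split <;> rfl
        rw [Finset.sum_congr rfl fun p _ => this p, Finset.sum_add_distrib, Finset.sum_ite_eq', if_pos (Finset.mem_univ _),
          Finset.sum_const, Finset.card_univ, card_GolayPt]
        exact ⟨2, by norm_num⟩
      · have : (oddWord fun p : GolayPt => if p = d.1 then (-2 : ℤ) else 0) = 0 := by
          funext p; simp only [oddWord]; split <;> rfl
        rw [this]; exact golayCode.zero_mem
    convert sign_mem_leech h hbase using 1
    funext p
    simp only [shapeOdd]
    split_ifs <;> rfl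
  · have : ∀ p, shapeOdd d p ^ 2 = 1 + (if p = d.1 then 8 else 0) := fun p => by
      simp only [shapeOdd]; split_ifs <;> rfl
    rw [sqNorm, Finset.sum_congr rfl fun p _ => this p, Finset.sum_add_distrib, Finset.sum_ite_eq',
      if_pos (Finset.mem_univ _), Finset.sum_const, Finset.card_univ, card_GolayPt]; rfl

theorem sq_le_thirty_two {a : ℤ} (h : a ^ 2 ≤ 32) : -5 ≤ a ∧ a ≤ 5 := by constructor <;> nlinarith

theorem sq_le_four {a : ℤ} (h : a ^ 2 ≤ 8) : -2 ≤ a ∧ a ≤ 2 := by constructor <;> nlinarith

/-- The shortest vectors have the three shapes. -/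
theorem minSet_eq : {x : GolayPt → ℤ | x ∈ leechLattice ∧ sqNorm x = 32} = ↑(minFours ∪ minTwos ∪ minOdds) := by
  ext x
  constructor
  swap
  · intro h
    simp only [Finset.coe_union, Set.mem_union, Finset.mem_coe, minFours, minTwos, minOdds, Finset.mem_image,
      Finset.mem_sigma, Finset.mem_product, Finset.mem_filter, Finset.mem_powerset, Finset.mem_powersetCard,
      Set.Finite.mem_toFinset] at h
    rcases h with (⟨d, hd, rfl⟩ | ⟨d, hd, rfl⟩) | ⟨d, hd, rfl⟩
    · exact shapeFour_mem hd.1.2
    · exact shapeTwo_mem hd.1 hd.2.1 hd.2.2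
    · exact shapeOdd_mem hd.2
  intro hxn
  obtain ⟨hx, hn⟩ : x ∈ leechLattice ∧ sqNorm x = 32 := hxn
  simp only [Finset.coe_union, Set.mem_union, Finset.mem_coe, minFours, minTwos, minOdds, Finset.mem_image,
    Finset.mem_sigma, Finset.mem_product, Finset.mem_filter, Finset.mem_powerset, Finset.mem_powersetCard,
    Set.Finite.mem_toFinset]
  obtain ⟨m, a, hxa, hs, hw⟩ := mem_leech.1 hx
  rcases Int.even_or_odd' m with ⟨k, hk | hk⟩
  · let c : GolayPt → ℤ := fun i => k + a i
    have hxc : ∀ i, x i = 2 * c i := fun i => by rw [hxa i, hk]; ring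
    have hw' : oddWord c ∈ golayCode := by
      have : oddWord c = (k : ZMod 2) • 1 + oddWord a := by funext i; simp [c, oddWord]
      rw [this]; exact golayCode.add_mem (golayCode.smul_mem _ one_mem_golayCode) hw
    have hc8 : ∑ i, c i ^ 2 = 8 := by
      have : sqNorm x = 4 * ∑ i, c i ^ 2 := by
        rw [sqNorm, Finset.mul_sum]; exact Finset.sum_congr rfl fun i _ => by rw [hxc i]; ring
      omega
    have hbd : ∀ i, -2 ≤ c i ∧ c i ≤ 2 := fun i =>
      sq_le_four (hc8 ▸ Finset.single_le_sum (f := fun j => c j ^ 2) (fun j _ => sq_nonneg _) (Finset.mem_univ i))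
    by_cases hz : oddWord c = 0
    · left; left
      have hev : ∀ i, c i = -2 ∨ c i = 0 ∨ c i = 2 := fun i => by
        have h2 : ((c i : ℤ) : ZMod 2) = 0 := congrFun hz i
        rw [ZMod.intCast_zmod_eq_zero_iff_dvd] at h2
        have := hbd i
        omega
      refine ⟨⟨Finset.univ.filter fun i => c i ≠ 0, Finset.univ.filter fun i => c i = -2⟩,
        ⟨⟨Finset.subset_univ _, ?_⟩, fun i hi => ?_⟩, funext fun i => ?_⟩
      · have : ∀ i, c i ^ 2 = if c i ≠ 0 then 4 else 0 := fun i => by
          rcases hev i with h | h | h <;> simp [h]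
        rw [Finset.sum_congr rfl fun i _ => this i, ← Finset.sum_filter, Finset.sum_const, nsmul_eq_mul] at hc8
        dsimp only
        omega
      · simp only [Finset.mem_filter, Finset.mem_univ, true_and] at hi ⊢; omega
      · simp only [shapeFour, Finset.mem_filter, Finset.mem_univ, true_and, hxc i]
        rcases hev i with h | h | h <;> simp [h]
    · left; right
      set S := support₂ (oddWord c) with hS
      have h8 : 8 ≤ S.card := eight_le_card_support hw' hz
      have hodd : ∀ i, i ∈ S ↔ ¬ (2 : ℤ) ∣ c i := fun i => by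
        rw [hS, mem_support₂, oddWord, ne_eq, ZMod.intCast_zmod_eq_zero_iff_dvd]; rfl
      have hle : ∀ i, (if i ∈ S then (1 : ℤ) else 0) ≤ c i ^ 2 := fun i => by
        split
        · rename_i hi
          have : c i ≠ 0 := fun h => (hodd i).1 hi (by simp [h])
          have : 0 < c i ^ 2 := by positivity
          omega
        · exact sq_nonneg _
      have hsum : ∑ i, (if i ∈ S then (1 : ℤ) else 0) = (S.card : ℤ) := by rw [sum_ite_mem_const]; ring
      have hSle : (S.card : ℤ) ≤ 8 := by rw [← hsum, ← hc8]; exact Finset.sum_le_sum fun i _ => hle i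
      have hcard : S.card = 8 := by omega
      have heq : ∀ i, (if i ∈ S then (1 : ℤ) else 0) = c i ^ 2 := fun i =>
        (Finset.sum_eq_sum_iff_of_le fun i _ => hle i).1 (by rw [hsum, hc8, hcard]; rfl) i (Finset.mem_univ i)
      have hval : ∀ i, (i ∈ S ∧ (c i = 1 ∨ c i = -1)) ∨ (i ∉ S ∧ c i = 0) := fun i => by
        have := heq i
        by_cases hi : i ∈ S
        · rw [if_pos hi] at this; exact Or.inl ⟨hi, sq_eq_one_iff.1 this.symm⟩
        · rw [if_neg hi] at this; exact Or.inr ⟨hi, pow_eq_zero_iff (by norm_num) |>.1 this.symm⟩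
      refine ⟨⟨S, Finset.univ.filter fun i => c i = -1⟩, ⟨⟨mem_codeSets_support.2 hw', hcard⟩, fun i hi => ?_, ?_⟩,
        funext fun i => ?_⟩
      · simp only [Finset.mem_filter, Finset.mem_univ, true_and] at hi
        rcases hval i with ⟨h, -⟩ | ⟨-, h⟩
        · exact h
        · omega
      · have hx' : ∀ i, x i = (if i ∈ S then 2 else 0) - (if i ∈ Finset.univ.filter (fun i => c i = -1) then 4 else 0) := by
          intro i
          simp only [Finset.mem_filter, Finset.mem_univ, true_and, hxc i]
          rcases hval i with ⟨h, h' | h'⟩ | ⟨h, h'⟩ <;> simp [h, h']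
        rw [Finset.sum_congr rfl fun i _ => hx' i, Finset.sum_sub_distrib, sum_ite_mem_const, sum_ite_mem_const, hcard,
          hk] at hs
        push_cast at hs
        dsimp only
        omega
      · simp only [shapeTwo, Finset.mem_filter, Finset.mem_univ, true_and, hxc i]
        rcases hval i with ⟨h, h' | h'⟩ | ⟨h, h'⟩ <;> simp [h, h']
  · right
    have hoddx : ∀ i, ¬ (2 : ℤ) ∣ x i := fun i => by rw [hxa i, hk]; omega
    have hbd : ∀ i, -5 ≤ x i ∧ x i ≤ 5 := fun i =>
      sq_le_thirty_two (hn ▸ Finset.single_le_sum (f := fun j => x j ^ 2) (fun j _ => sq_nonneg _) (Finset.mem_univ i))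
    have hge : ∀ i, (1 : ℤ) ≤ x i ^ 2 := fun i => by
      have : x i ≠ 0 := fun h => hoddx i (by simp [h])
      have : 0 < x i ^ 2 := by positivity
      omega
    have hone : ∀ i, x i ^ 2 = 1 + (x i ^ 2 - 1) := fun i => by ring
    have h8 : ∑ i, (x i ^ 2 - 1) = 8 := by
      rw [Finset.sum_sub_distrib, Finset.sum_const, Finset.card_univ, card_GolayPt]
      change sqNorm x - _ = _
      rw [hn]; rfl
    have hsmall : ∀ i, x i ^ 2 - 1 = 0 ∨ x i ^ 2 - 1 = 8 := fun i => by
      have h1 : x i ^ 2 - 1 ≤ 8 := h8 ▸ Finset.single_le_sum (f := fun j => x j ^ 2 - 1)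
        (fun j _ => by have := hge j; omega) (Finset.mem_univ i)
      obtain ⟨l, hl⟩ : ∃ l, x i = 2 * l + 1 := ⟨x i / 2, by have := hoddx i; omega⟩
      have := hbd i
      rw [hl] at h1 ⊢
      have hlr : -3 ≤ l ∧ l ≤ 2 := by omega
      obtain ⟨hl1, hl2⟩ := hlr
      interval_cases l <;> revert h1 <;> norm_num
    obtain ⟨p, hp⟩ : ∃ p, x p ^ 2 - 1 = 8 := by
      by_contra hc
      push Not at hc
      rw [Finset.sum_eq_zero fun i _ => (hsmall i).resolve_right (hc i)] at h8
      norm_num at h8
    have hrest : ∀ i, i ≠ p → x i ^ 2 = 1 := fun i hi => by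
      rcases hsmall i with h | h
      · omega
      · have h2 := Finset.sum_le_sum_of_subset_of_nonneg (f := fun j => x j ^ 2 - 1) (Finset.subset_univ {i, p})
          (fun j _ _ => by have := hge j; omega)
        rw [Finset.sum_pair hi, h, hp, h8] at h2
        norm_num at h2
    have hp3 : x p = 3 ∨ x p = -3 := by
      have : (x p - 3) * (x p + 3) = 0 := by linarith
      rcases mul_eq_zero.1 this with h | h <;> omega
    have h1 : ∀ i, i ≠ p → x i = 1 ∨ x i = -1 := fun i hi => sq_eq_one_iff.1 (hrest i hi)
    let N : Finset GolayPt := Finset.univ.filter fun i => x i = -1 ∨ x i = 3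
    refine ⟨(p, N), ⟨Finset.mem_univ _, ?_⟩, funext fun i => ?_⟩
    · have hN : N = support₂ (oddWord a + (k : ZMod 2) • 1) := by
        ext i
        rw [mem_support₂, show (oddWord a + (k : ZMod 2) • (1 : GolayPt → ZMod 2)) i = ((a i + k : ℤ) : ZMod 2) by
          simp [oddWord], ne_eq, ZMod.intCast_zmod_eq_zero_iff_dvd]
        simp only [N, Finset.mem_filter, Finset.mem_univ, true_and]
        have := hxa i
        by_cases hi : i = p
        · subst hi; rcases hp3 with h | h <;> omega
        · rcases h1 i hi with h | h <;> omega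
      rw [hN, mem_codeSets_support]
      exact golayCode.add_mem hw (golayCode.smul_mem _ one_mem_golayCode)
    · simp only [shapeOdd, N, Finset.mem_filter, Finset.mem_univ, true_and]
      by_cases hi : i = p
      · subst hi; rcases hp3 with h | h <;> simp [h]
      · rcases h1 i hi with h | h <;> simp [h, hi]

theorem shape_injective (v : ℤ) (hv : v ≠ 0) :
    Set.InjOn (fun d : (_ : Finset GolayPt) × Finset GolayPt => fun p => if p ∈ d.1 then (if p ∈ d.2 then -v else v) else 0)
      {d | d.2 ⊆ d.1} := by
  rintro ⟨s, n⟩ (hn : n ⊆ s) ⟨t, m⟩ (hm : m ⊆ t) h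
  have e1 : s = t := by
    ext p
    have := congrFun h p
    simp only at this
    constructor <;> intro hp <;> by_contra hp' <;> simp [hp, hp'] at this <;> split at this <;> omega
  subst e1
  have e2 : n = m := by
    ext p
    have := congrFun h p
    simp only at this
    constructor <;> intro hp
    · rw [if_pos (hn hp), if_pos (hn hp), if_pos hp] at this
      by_contra hp'
      rw [if_neg hp'] at this; omega
    · rw [if_pos (hm hp), if_pos (hm hp), if_pos hp] at this
      by_contra hp'
      rw [if_neg hp'] at this; omega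
  subst e2
  rfl

theorem card_minFours : minFours.card = 1104 := by
  rw [minFours, Finset.card_image_of_injOn, Finset.card_sigma, Finset.sum_congr rfl
    (fun s hs => show (s.powerset).card = 4 by rw [Finset.card_powerset, (Finset.mem_powersetCard.1 hs).2]; rfl),
    Finset.sum_const, Finset.card_powersetCard, Finset.card_univ, card_GolayPt]
  · rfl
  · intro d hd e he h
    simp only [Finset.coe_sigma, Set.mem_sigma_iff, Finset.mem_coe, Finset.mem_powerset] at hd he
    exact shape_injective 4 (by norm_num) hd.2 he.2 h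

theorem card_minTwos : minTwos.card = 97152 := by
  rw [minTwos, Finset.card_image_of_injOn, Finset.card_sigma, Finset.sum_congr rfl
    (fun s hs => card_even_powerset ((Set.Finite.mem_toFinset _).1 hs).2), Finset.sum_const,
    ← Set.ncard_eq_toFinset_card, card_octads]
  · rfl
  · intro d hd e he h
    simp only [Finset.coe_sigma, Set.mem_sigma_iff, Finset.mem_coe, Finset.mem_powerset, Finset.mem_filter] at hd he
    exact shape_injective 2 (by norm_num) hd.2.1 he.2.1 h

theorem card_minOdds : minOdds.card = 98304 := by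
  rw [minOdds, Finset.card_image_of_injOn, Finset.card_product, Finset.card_univ, card_GolayPt, card_codeSetsFinset]
  rintro ⟨p, c⟩ - ⟨q, d⟩ - h
  have e1 : p = q := by
    have := congrFun h p
    simp only [shapeOdd, if_true] at this
    by_contra hne
    rw [if_neg hne, if_neg hne] at this
    split_ifs at this <;> omega
  subst e1
  have e2 : c = d := by
    ext i
    have := congrFun h i
    simp only [shapeOdd] at this
    constructor <;> intro hi <;> by_contra hi' <;> simp [hi, hi'] at this <;> split at this <;> omega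
  rw [e2]

theorem ncard_minSet : {x : GolayPt → ℤ | x ∈ leechLattice ∧ sqNorm x = 32}.ncard = 196560 := by
  rw [minSet_eq, Set.ncard_coe_finset, Finset.card_union_of_disjoint, Finset.card_union_of_disjoint,
    card_minFours, card_minTwos, card_minOdds]
  · rw [Finset.disjoint_left]
    intro x hx hy
    simp only [minFours, minTwos, Finset.mem_image, Finset.mem_sigma, Finset.mem_powersetCard] at hx hy
    obtain ⟨d, ⟨⟨-, hd⟩, -⟩, rfl⟩ := hx
    obtain ⟨e, -, he⟩ := hy
    obtain ⟨p, hp⟩ := Finset.card_pos.1 (show 0 < d.1.card by omega)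
    have := congrFun he p
    simp only [shapeFour, shapeTwo, hp, if_true] at this
    split_ifs at this <;> omega
  · rw [Finset.disjoint_left]
    intro x hx hy
    simp only [minFours, minTwos, minOdds, Finset.mem_union, Finset.mem_image] at hx hy
    obtain ⟨e, -, rfl⟩ := hy
    have hodd : ¬ (2 : ℤ) ∣ shapeOdd e e.1 := by simp only [shapeOdd, if_true]; split <;> omega
    rcases hx with ⟨d, -, hd⟩ | ⟨d, -, hd⟩ <;> refine hodd ?_ <;> rw [← congrFun hd e.1]
    · simp only [shapeFour]; split_ifs <;> norm_num
    · simp only [shapeTwo]; split_ifs <;> norm_num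

end CfsgLib.Spor
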