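import Cfsg.Agent.Lib.SporLeechClass
import Cfsg.Agent.Lib.SporLeechCount
import Cfsg.Prelude.Def_Spor_Conway

/-!
Transitivity on the vectors of square length 32 and 48, on the classes of length 64; the stabiliser
of such a class; the order and centre of `Co0`.
-/

set_option autoImplicit false
set_option maxRecDepth 8000

namespace CfsgLib.Spor
open Cfsg
open scoped Pointwise

/-- The chosen vector of square length 32. -/
noncomputable def repTwo : leechLattice := minV ⟨0, 0, 1, 0⟩

/-- Numbered coordinates of eight times a unit vector. -/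
def eightN (j : ℕ) (i : ℕ) : ℤ := if i = j then 8 else 0

/-- The chosen vector of square length 64. -/
noncomputable def repFour : leechLattice := latN (eightN 23)

/-- The chosen vector of square length 48. -/
def repThree : leechLattice := Cfsg.Spor.leechV

theorem eightN_ok : (List.range 24).all (fun j => isLeechN (eightN j) && decide (kapN (eightN j) = 4277266)) = true := by
  decide +kernel

theorem repTwo_val : (repTwo : GolayPt → ℤ) = ofN (minN ⟨0, 0, 1, 0⟩) := minV_val (by decide +kernel)

theorem repFour_val : (repFour : GolayPt → ℤ) = ofN (eightN 23) :=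
  latN_mem (by decide +kernel)

theorem repThree_val : (repThree : GolayPt → ℤ) = ofN (fun i => if i = 23 then -5 else -1) := by
  funext p
  have h23 : (ix p = 23) ↔ p = none := ⟨fun e => ix_inj (e.trans rfl), fun e => e ▸ rfl⟩
  simp [repThree, Cfsg.Spor.leechV, Cfsg.Spor.vecV, ofN, h23]

theorem kap_repTwo : kap repTwo = 2 := by rw [kap_eq_kapN repTwo_val]; decide +kernel
theorem kap_repFour : kap repFour = 4277266 := by rw [kap_eq_kapN repFour_val]; decide +kernel
theorem kap_repThree : kap repThree = 5526791 := by rw [kap_eq_kapN repThree_val]; decide +kernel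

theorem sqNorm_ofN (f : ℕ → ℤ) : sqNorm (ofN f) = ((List.range 24).map fun i => f i ^ 2).sum :=
  sum_ix (fun i => f i ^ 2)

theorem sqNorm_repTwo : sqNorm (repTwo : GolayPt → ℤ) = 32 := by
  rw [repTwo_val, sqNorm_ofN]; decide +kernel
theorem sqNorm_repFour : sqNorm (repFour : GolayPt → ℤ) = 64 := by
  rw [repFour_val, sqNorm_ofN]; decide +kernel
theorem sqNorm_repThree : sqNorm (repThree : GolayPt → ℤ) = 48 := by
  rw [repThree_val, sqNorm_ofN]; decide +kernel

/-- Congruent short vectors, for lattice elements. -/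
theorem short_kap {x y : leechLattice} (hx : sqNorm (x : GolayPt → ℤ) ≤ 64) (hy : sqNorm (y : GolayPt → ℤ) ≤ 64)
    (h : kap x = kap y) :
    x = y ∨ x = -y ∨ (sqNorm (x : GolayPt → ℤ) = 64 ∧ sqNorm (y : GolayPt → ℤ) = 64 ∧
      dotInt (x : GolayPt → ℤ) y = 0) := by
  obtain ⟨w, hw⟩ := kap_eq_iff.1 h
  by_cases hne : (x : GolayPt → ℤ) = y
  · exact Or.inl (Subtype.ext hne)
  right
  rcases short_congruent y.2 w.2 hx hy (by rw [hw, two_nsmul, AddSubgroup.coe_add, AddSubgroup.coe_add]; abel) hne with e | e
  · exact Or.inl (Subtype.ext (by rw [AddSubgroup.coe_neg, e, neg_neg]))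
  · exact Or.inr e

theorem kap_ne_zero {x : leechLattice} (hx : sqNorm (x : GolayPt → ℤ) ≤ 64) (h0 : x ≠ 0) : kap x ≠ 0 := by
  intro h
  obtain ⟨w, rfl⟩ := kap_eq_zero_iff.1 h
  have hw : (w : GolayPt → ℤ) ≠ 0 := fun e => h0 (by
    apply Subtype.ext; rw [AddSubgroup.coe_add, e]; simp)
  have h1 := leech_min w.2 hw
  have h2 := sqNorm_two_nsmul (w : GolayPt → ℤ)
  rw [two_nsmul] at h2
  rw [AddSubgroup.coe_add] at hx
  omega

theorem ne_zero_of_sqNorm {x : leechLattice} (h : sqNorm (x : GolayPt → ℤ) ≠ 0) : x ≠ 0 := by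
  rintro rfl; exact h (by simp [sqNorm])

theorem normPar_of_sqNorm {x : leechLattice} {n : ℤ} (h : sqNorm (x : GolayPt → ℤ) = n) :
    normPar x = ((n / 16 : ℤ) : ZMod 2) := by rw [normPar, h]

theorem normPar_eq_of_kap {x y : leechLattice} (h : kap x = kap y) : normPar x = normPar y := by
  rw [normPar_eq_parN, normPar_eq_parN, h]

theorem normPar_smul (g : Co0) (x : leechLattice) : normPar (g • x) = normPar x := isInvQuad_normPar.inv g x

/-- Every class is carried to one of the representatives. -/
theorem exists_smul_class (x : leechLattice) (h0 : kap x ≠ 0) :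
    (∃ g : Co0, kap (g • x) = kap repTwo ∧ normPar x = 0) ∨ (∃ g : Co0, kap (g • x) = kap repFour ∧ normPar x = 0) ∨
      (∃ g : Co0, kap (g • x) = kap repThree ∧ normPar x = 1) := by
  obtain ⟨g, hg⟩ := exists_rep x
  simp only [classReps, List.mem_cons, List.not_mem_nil, or_false] at hg
  have hq : ∀ (r : leechLattice), kap (g • x) = kap r → normPar x = normPar r := fun r h => by
    rw [← normPar_smul g, normPar_eq_of_kap h]
  rcases hg with h | h | h | h
  · exfalso
    apply h0
    have := kap_smul_congr g⁻¹ (x := g • x) (y := 0) (by rw [h, kap_zero])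
    rwa [inv_smul_smul, Co0_smul_zero, kap_zero] at this
  · refine Or.inl ⟨g, by rw [h, kap_repTwo], ?_⟩
    rw [hq repTwo (by rw [h, kap_repTwo]), normPar_of_sqNorm sqNorm_repTwo]; rfl
  · refine Or.inr (Or.inl ⟨g, by rw [h, kap_repFour], ?_⟩)
    rw [hq repFour (by rw [h, kap_repFour]), normPar_of_sqNorm sqNorm_repFour]; rfl
  · refine Or.inr (Or.inr ⟨g, by rw [h, kap_repThree], ?_⟩)
    rw [hq repThree (by rw [h, kap_repThree]), normPar_of_sqNorm sqNorm_repThree]; rfl

theorem smul_eq_or_neg {x r : leechLattice} {g : Co0} {n : ℤ} (hn : n < 64)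
    (hx : sqNorm (x : GolayPt → ℤ) = n) (hr : sqNorm (r : GolayPt → ℤ) ≤ 64) (h : kap (g • x) = kap r) :
    ∃ g' : Co0, g' • x = r := by
  have hgx : sqNorm ((g • x : leechLattice) : GolayPt → ℤ) = n := by rw [Co0_sqNorm, hx]
  rcases short_kap (by omega) hr h with e | e | ⟨e, -⟩
  · exact ⟨g, e⟩
  · refine ⟨signAut Finset.univ exists_M24_word.univ_mem_supports_golayCode' * g, ?_⟩
    rw [mul_smul, e]
    apply Subtype.ext
    funext p
    rw [signAut_smul]
    simp
  · omega

/-- Transitivity on the vectors of square length 32. -/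
theorem exists_smul_min {x : leechLattice} (hx : sqNorm (x : GolayPt → ℤ) = 32) : ∃ g : Co0, g • x = repTwo := by
  rcases exists_smul_class x (kap_ne_zero (by omega) (ne_zero_of_sqNorm (by omega))) with
    ⟨g, h, -⟩ | ⟨g, h, -⟩ | ⟨g, -, h⟩
  · exact smul_eq_or_neg (by norm_num) hx (by rw [sqNorm_repTwo]; norm_num) h
  · exfalso
    obtain ⟨g', e⟩ := smul_eq_or_neg (r := repFour) (by norm_num) hx sqNorm_repFour.le h
    have := Co0_sqNorm g' x
    rw [e, sqNorm_repFour, hx] at this
    norm_num at this
  · rw [normPar_of_sqNorm hx] at h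
    exact absurd h (by decide)

/-- Transitivity on the vectors of square length 48. -/
theorem exists_smul_three {x : leechLattice} (hx : sqNorm (x : GolayPt → ℤ) = 48) : ∃ g : Co0, g • x = repThree := by
  rcases exists_smul_class x (kap_ne_zero (by omega) (ne_zero_of_sqNorm (by omega))) with
    ⟨g, -, h⟩ | ⟨g, -, h⟩ | ⟨g, h, -⟩
  · rw [normPar_of_sqNorm hx] at h
    exact absurd h (by decide)
  · rw [normPar_of_sqNorm hx] at h
    exact absurd h (by decide)
  · exact smul_eq_or_neg (by norm_num) hx (by rw [sqNorm_repThree]; norm_num) h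

/-- Transitivity on the classes of square length 64. -/
theorem exists_smul_four {x : leechLattice} (hx : sqNorm (x : GolayPt → ℤ) = 64) :
    ∃ g : Co0, kap (g • x) = kap repFour := by
  rcases exists_smul_class x (kap_ne_zero (by omega) (ne_zero_of_sqNorm (by omega))) with
    ⟨g, h, -⟩ | ⟨g, h, -⟩ | ⟨g, -, h⟩
  · exfalso
    rcases short_kap (by rw [Co0_sqNorm]; omega) (by rw [sqNorm_repTwo]; norm_num) h with e | e | ⟨-, e, -⟩
    · have := Co0_sqNorm g x
      rw [e, sqNorm_repTwo, hx] at this; norm_num at this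
    · have := Co0_sqNorm g x
      rw [e, AddSubgroup.coe_neg, show sqNorm (-(repTwo : GolayPt → ℤ)) = sqNorm (repTwo : GolayPt → ℤ) by simp [sqNorm],
        sqNorm_repTwo, hx] at this
      norm_num at this
    · rw [sqNorm_repTwo] at e; norm_num at e
  · exact ⟨g, h⟩
  · rw [normPar_of_sqNorm hx] at h
    exact absurd h (by decide)

/-- The classes of square length 32 and 64 differ. -/
theorem kap_two_ne_four (g : Co0) : kap (g • repTwo) ≠ kap repFour := by
  intro h
  obtain ⟨g', e⟩ := smul_eq_or_neg (r := repFour) (by norm_num) sqNorm_repTwo sqNorm_repFour.le h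
  have := Co0_sqNorm g' repTwo
  rw [e, sqNorm_repFour, sqNorm_repTwo] at this
  norm_num at this

end CfsgLib.Spor
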