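import Cfsg.Agent.Lib.SporCo2
import Cfsg.Agent.Lib.SporLeechOrbit

/-!
The stabiliser of a shortest vector has no normal 2-subgroup but the trivial one.
-/

set_option autoImplicit false
set_option maxRecDepth 8000

namespace CfsgLib.Spor
open Cfsg
open scoped Pointwise

attribute [local irreducible] kap eightV repFour repTwo

/-- A signed pair vector. -/
theorem exists_pairVec (i j : GolayPt) (hij : i ≠ j) (hi : i ≠ none ∧ i ≠ some 0) (hj : j ≠ none ∧ j ≠ some 0)
    (c : ℤ) (hc : c = 1 ∨ c = -1) :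
    ∃ y : leechLattice, (y : GolayPt → ℤ) = (fun p => (if p = i then 4 else 0) + (if p = j then 4 * c else 0)) ∧
      sqNorm (y : GolayPt → ℤ) = 32 ∧ dotInt (Cfsg.Spor.leechU : GolayPt → ℤ) y = 0 := by
  have h2 : ({i, j} : Finset GolayPt).card = 2 := Finset.card_pair hij
  have hmem := shapeFour_mem (d := ⟨{i, j}, if c = 1 then ∅ else {j}⟩) h2
  have hval : shapeFour ⟨{i, j}, if c = 1 then ∅ else {j}⟩ =
      fun p => (if p = i then 4 else 0) + (if p = j then 4 * c else 0) := by
    funext p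
    simp only [shapeFour, Finset.mem_insert, Finset.mem_singleton]
    rcases hc with rfl | rfl <;> by_cases h1 : p = i <;> by_cases h2 : p = j <;>
      simp [h1, h2, hij, Ne.symm hij]
  rw [hval] at hmem
  refine ⟨⟨_, hmem.1⟩, rfl, hmem.2, ?_⟩
  rw [dot_leechU]
  simp [Ne.symm hi.1, Ne.symm hj.1, Ne.symm hi.2, Ne.symm hj.2]

/-- An automorphism fixing the standard vector and, up to sign, all shortest vectors orthogonal to it is trivial. -/
theorem eq_one_of_signFix {g : Co0} (hg : g • Cfsg.Spor.leechU = Cfsg.Spor.leechU)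
    (hfix : ∀ w : leechLattice, sqNorm (w : GolayPt → ℤ) = 32 → dotInt (Cfsg.Spor.leechU : GolayPt → ℤ) w = 0 →
      g • w = w ∨ g • w = -w) : g = 1 := by
  have hd : ∀ (x : leechLattice) p, dotInt ((g • x : leechLattice) : GolayPt → ℤ)
      ((g • eightV p : leechLattice) : GolayPt → ℤ) = 8 * x.1 p := fun x p => by rw [dot_smul, dot_eightV]
  -- the sign of a vector
  have hsgn : ∀ w : leechLattice, sqNorm (w : GolayPt → ℤ) = 32 →
      dotInt (Cfsg.Spor.leechU : GolayPt → ℤ) w = 0 →
      ∃ s : ℤ, (s = 1 ∨ s = -1) ∧ ∀ p, (g • w).1 p = s * w.1 p := fun w h1 h2 => by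
    rcases hfix w h1 h2 with e | e
    · exact ⟨1, Or.inl rfl, fun p => by rw [e, one_mul]⟩
    · exact ⟨-1, Or.inr rfl, fun p => by rw [e, AddSubgroup.coe_neg, Pi.neg_apply]; ring⟩
  -- three vectors in a linear relation have the same sign
  have htri : ∀ (a b e : leechLattice), e = a + b → ∀ sa sb se : ℤ, (∀ p, (g • a).1 p = sa * a.1 p) →
      (∀ p, (g • b).1 p = sb * b.1 p) → (∀ p, (g • e).1 p = se * e.1 p) → ∀ p, (sa - se) * a.1 p + (sb - se) * b.1 p = 0 := by
    rintro a b e rfl sa sb se ha hb he p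
    have h := he p
    rw [Co0_smul_add, AddSubgroup.coe_add, Pi.add_apply, ha p, hb p, AddSubgroup.coe_add, Pi.add_apply] at h
    linarith
  have hout : ∀ i : GolayPt, i ≠ none ∧ i ≠ some 0 → ∃ j k : GolayPt, (j ≠ none ∧ j ≠ some 0) ∧
      (k ≠ none ∧ k ≠ some 0) ∧ i ≠ j ∧ i ≠ k ∧ j ≠ k := by decide +kernel
  -- the sign of one point, shared with every other point
  have hpoint : ∀ i j : GolayPt, i ≠ none ∧ i ≠ some 0 → j ≠ none ∧ j ≠ some 0 → i ≠ j →
      ∃ s : ℤ, (s = 1 ∨ s = -1) ∧ (∀ p, (g • eightV i).1 p = s * (eightV i).1 p) ∧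
        ∀ r : leechLattice, r.1 = (fun p => (if p = i then 4 else 0) + (if p = j then 4 * 1 else 0)) →
          ∀ p, (g • r).1 p = s * r.1 p := by
    intro i j hi hj hij
    obtain ⟨k, hk, hki, hkj⟩ : ∃ k : GolayPt, (k ≠ none ∧ k ≠ some 0) ∧ k ≠ i ∧ k ≠ j := by
      obtain ⟨a, b, ha, hb, h1, h2, h3⟩ := hout i hi
      by_cases h : a = j
      · exact ⟨b, hb, Ne.symm h2, fun e => h3 (h.trans e.symm)⟩
      · exact ⟨a, ha, Ne.symm h1, h⟩
    obtain ⟨r, hr, hrn, hru⟩ := exists_pairVec i j hij hi hj 1 (Or.inl rfl)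
    obtain ⟨q, hq, hqn, hqu⟩ := exists_pairVec i j hij hi hj (-1) (Or.inr rfl)
    obtain ⟨qik, hqik, hqikn, hqiku⟩ := exists_pairVec i k (Ne.symm hki) hi hk (-1) (Or.inr rfl)
    obtain ⟨rkj, hrkj, hrkjn, hrkju⟩ := exists_pairVec k j hkj hk hj 1 (Or.inl rfl)
    obtain ⟨qjk, hqjk, hqjkn, hqjku⟩ := exists_pairVec j k (Ne.symm hkj) hj hk (-1) (Or.inr rfl)
    obtain ⟨sr, hsr, er⟩ := hsgn r hrn hru
    obtain ⟨sq, -, eq'⟩ := hsgn q hqn hqu
    obtain ⟨sa, -, ea⟩ := hsgn qik hqikn hqiku
    obtain ⟨sb, -, eb⟩ := hsgn rkj hrkjn hrkju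
    obtain ⟨sc, -, ec⟩ := hsgn qjk hqjkn hqjku
    have t1 := htri qik rkj r (Subtype.ext (funext fun p => by
      rw [AddSubgroup.coe_add, Pi.add_apply, hqik, hrkj, hr]; simp only; split_ifs <;> norm_num)) sa sb sr ea eb er i
    rw [hqik, hrkj] at t1
    simp [Ne.symm hki, hij] at t1
    have t2 := htri q qjk qik (Subtype.ext (funext fun p => by
      rw [AddSubgroup.coe_add, Pi.add_apply, hqik, hq, hqjk]; simp only; split_ifs <;> norm_num)) sq sc sa eq' ec ea i
    rw [hq, hqjk] at t2
    simp [hij, Ne.symm hki] at t2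
    refine ⟨sr, hsr, fun p => ?_, fun r' hr' p => ?_⟩
    · have e : eightV i = r + q := Subtype.ext (funext fun p => by
        rw [AddSubgroup.coe_add, Pi.add_apply, eightV_val, hr, hq]; simp only; split_ifs <;> norm_num)
      rw [e, Co0_smul_add, AddSubgroup.coe_add, AddSubgroup.coe_add, Pi.add_apply, Pi.add_apply, er p, eq' p,
        show sq = sr by linarith]
      ring
    · rw [show r' = r from Subtype.ext (hr'.trans hr.symm)]; exact er p
  obtain ⟨i0, hi0⟩ : ∃ i0 : GolayPt, i0 ≠ none ∧ i0 ≠ some 0 := ⟨some 1, by decide, by decide⟩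
  obtain ⟨j0, k0, hj0, hk0, hij0, -, -⟩ := hout i0 hi0
  obtain ⟨s, hs, hsi, -⟩ := hpoint i0 j0 hi0 hj0 hij0
  have hall : ∀ i : GolayPt, i ≠ none ∧ i ≠ some 0 → ∀ p, (g • eightV i).1 p = s * (eightV i).1 p := by
    intro i hi
    by_cases he : i = i0
    · exact he ▸ hsi
    obtain ⟨t, -, hti, htr⟩ := hpoint i i0 hi hi0 he
    obtain ⟨t', -, hti', htr'⟩ := hpoint i0 i hi0 hi (Ne.symm he)
    have h1 := hti' i0
    rw [hsi i0, eightV_val] at h1
    simp at h1
    obtain ⟨r, hr, -, -⟩ := exists_pairVec i i0 he hi hi0 1 (Or.inl rfl)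
    have h2 := htr r hr i
    rw [htr' r (hr.trans (funext fun p => by ring)) i, hr] at h2
    simp [he] at h2
    intro p
    rw [hti p, show t = s by linarith]
  have hcoord : ∀ (x : leechLattice) (i : GolayPt), i ≠ none ∧ i ≠ some 0 → (g • x).1 i = s * x.1 i := by
    intro x i hi
    have h := hd x i
    rw [show ((g • eightV i : leechLattice) : GolayPt → ℤ) = fun p => s * (eightV i).1 p from funext (hall i hi)] at h
    rw [show dotInt ((g • x : leechLattice) : GolayPt → ℤ) (fun p => s * (eightV i).1 p) =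
      s * dotInt ((g • x : leechLattice) : GolayPt → ℤ) (eightV i) by
        simp only [dotInt, Finset.mul_sum]; exact Finset.sum_congr rfl fun r _ => by ring, dot_eightV] at h
    rcases hs with rfl | rfl <;> linarith
  obtain ⟨s0, hs0, e0⟩ := hsgn Cfsg.Spor.leechU' sqNorm_leechU' (by rw [dot_leechU, leechU'_val]; rfl)
  have hsum : ∀ x : leechLattice, (g • x).1 none + (g • x).1 (some 0) = x.1 none + x.1 (some 0) := fun x => by
    have h := dot_smul g Cfsg.Spor.leechU x
    rw [hg, dot_leechU, dot_leechU] at h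
    linarith
  have hdiff : ∀ x : leechLattice,
      (g • x).1 none - (g • x).1 (some 0) = s0 * (x.1 none - x.1 (some 0)) := fun x => by
    have hdu : ∀ y : leechLattice, dotInt (y : GolayPt → ℤ) (Cfsg.Spor.leechU' : GolayPt → ℤ) =
        4 * (y.1 none - y.1 (some 0)) := fun y => by
      have he : (Cfsg.Spor.leechU' : GolayPt → ℤ) = fun p => (eightV none).1 p - (Cfsg.Spor.leechU : GolayPt → ℤ) p :=
        funext fun p => by rw [← leechU_add, AddSubgroup.coe_add, Pi.add_apply]; ring
      rw [he, show dotInt (y : GolayPt → ℤ) (fun p => (eightV none).1 p - (Cfsg.Spor.leechU : GolayPt → ℤ) p) =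
        dotInt (y : GolayPt → ℤ) (eightV none) - dotInt (Cfsg.Spor.leechU : GolayPt → ℤ) y by
          simp only [dotInt, ← Finset.sum_sub_distrib]; exact Finset.sum_congr rfl fun r _ => by ring,
        dot_eightV, dot_leechU]
      ring
    have h := dot_smul g x Cfsg.Spor.leechU'
    rw [show ((g • Cfsg.Spor.leechU' : leechLattice) : GolayPt → ℤ) = fun p => s0 * (Cfsg.Spor.leechU').1 p from funext e0,
      show dotInt ((g • x : leechLattice) : GolayPt → ℤ) (fun p => s0 * (Cfsg.Spor.leechU').1 p) =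
        s0 * dotInt ((g • x : leechLattice) : GolayPt → ℤ) (Cfsg.Spor.leechU' : GolayPt → ℤ) by
          simp only [dotInt, Finset.mul_sum]; exact Finset.sum_congr rfl fun r _ => by ring, hdu, hdu] at h
    rcases hs0 with rfl | rfl <;> linarith
  -- an octad through the two points
  have hss : s0 = s := by
    obtain ⟨m, hm, hb, hb'⟩ : ∃ m ∈ weightMasks 8, m.testBit 23 = true ∧ m.testBit 0 = true := by decide +kernel
    have ho := setOfMask_mem_octads hm
    have h1 : (none : GolayPt) ∈ setOfMask m := mem_setOfMask.2 hb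
    have h2 : (some 0 : GolayPt) ∈ setOfMask m := mem_setOfMask.2 hb'
    obtain ⟨c, hc, hc1, hc2⟩ : ∃ c ∈ setOfMask m, c ≠ none ∧ c ≠ some 0 := by
      by_contra hcon
      push Not at hcon
      have : setOfMask m ⊆ {(none : GolayPt), some 0} := fun c hc => by
        rw [Finset.mem_insert, Finset.mem_singleton]
        by_cases h : c = none
        · exact Or.inl h
        · exact Or.inr (hcon c hc h)
      have := (Finset.card_le_card this).trans Finset.card_le_two
      rw [ho.2] at this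
      omega
    have hsub : ({some 0, c} : Finset GolayPt) ⊆ setOfMask m := by
      intro x hx
      rcases Finset.mem_insert.1 hx with rfl | hx
      · exact h2
      · exact Finset.mem_singleton.1 hx ▸ hc
    obtain ⟨hw, hwn⟩ := shapeTwo_mem (d := ⟨setOfMask m, {some 0, c}⟩) ho hsub (by rw [Finset.card_pair (Ne.symm hc2)])
    obtain ⟨r, -, er⟩ := hsgn ⟨_, hw⟩ hwn (by
      rw [dot_leechU]; simp [shapeTwo, h1, h2, Ne.symm hc1])
    have d1 := hdiff ⟨_, hw⟩
    have d2 := hcoord ⟨_, hw⟩ c ⟨hc1, hc2⟩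
    rw [er, er] at d1
    rw [er] at d2
    simp [shapeTwo, h1, h2, hc, Ne.symm hc1] at d1 d2
    linarith
  subst hss
  rcases hs with rfl | rfl
  · refine Subtype.ext (Equiv.ext fun x => Subtype.ext (funext fun p => ?_))
    show (g • x).1 p = x.1 p
    have := hsum x
    have := hdiff x
    by_cases h1 : p = none
    · subst h1; linarith
    by_cases h2 : p = some 0
    · subst h2; linarith
    simpa using hcoord x p ⟨h1, h2⟩
  · exfalso
    have hbase : (fun p : GolayPt => if p = none then (-3 : ℤ) else 1) ∈ leechLattice := by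
      convert (shapeOdd_mem (d := ((none : GolayPt), (∅ : Finset GolayPt))) Cfsg.Spor.empty_mem_supports_golayCode).1 using 1
      funext p; simp [shapeOdd]
    let o : leechLattice := ⟨_, hbase⟩
    obtain ⟨m, a, ha, -, hw⟩ := mem_leech.1 (o + g • o).2
    have hv : ∀ p : GolayPt, (o + g • o).1 p = if p = none ∨ p = some 0 then -2 else 0 := by
      intro p
      have e1 := hsum o
      have e2 := hdiff o
      simp [o] at e1 e2
      rw [AddSubgroup.coe_add, Pi.add_apply]
      by_cases h1 : p = none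
      · subst h1; simp [o]; omega
      by_cases h2 : p = some 0
      · subst h2; simp [o]; omega
      rw [if_neg (not_or.2 ⟨h1, h2⟩), hcoord o p ⟨h1, h2⟩]
      simp [o, h1]
    have hm2 : (2 : ℤ) ∣ m := by
      have h23 := ha none
      rw [hv] at h23
      simp at h23
      omega
    obtain ⟨k, rfl⟩ := hm2
    have hcode : oddWord a + (k : ZMod 2) • (1 : GolayPt → ZMod 2) ∈ golayCode :=
      golayCode.add_mem hw (golayCode.smul_mem _ one_mem_golayCode)
    have e : support₂ (oddWord a + (k : ZMod 2) • (1 : GolayPt → ZMod 2)) = {(none : GolayPt), some 0} := by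
      ext p
      rw [mem_support₂, show (oddWord a + (k : ZMod 2) • (1 : GolayPt → ZMod 2)) p = ((a p + k : ℤ) : ZMod 2) by
        simp [oddWord], ne_eq, ZMod.intCast_zmod_eq_zero_iff_dvd, Finset.mem_insert, Finset.mem_singleton]
      have h := ha p
      rw [hv] at h
      split_ifs at h with hp <;> simp [hp] <;> omega
    have h4 := four_dvd_card_support hcode
    rw [e, Finset.card_pair (by simp : (none : GolayPt) ≠ some 0)] at h4
    omega

/-- A 2-subgroup of the stabiliser of a shortest vector, normalised by it, is trivial. -/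
theorem co2_two_core (N : Subgroup Co0) (hle : N ≤ co2Sub) (hN : IsPGroup 2 N)
    (hnorm : ∀ g ∈ co2Sub, ∀ n ∈ N, g * n * g⁻¹ ∈ N) : N = ⊥ := by
  classical
  set O := MulAction.orbit co2Sub Cfsg.Spor.leechU' with hO
  have hOmem : ∀ w, w ∈ O ↔ sqNorm (w : GolayPt → ℤ) = 32 ∧ dotInt (Cfsg.Spor.leechU : GolayPt → ℤ) w = 0 := by
    intro w; rw [hO, co2_orbit_eq]; rfl
  have hOfin : O.Finite := Set.finite_of_ncard_ne_zero (by rw [ncard_co2_orbit]; norm_num)
  -- classes of the orbit
  let X : Finset ℕ := hOfin.toFinset.image kap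
  have hneg : ∀ w ∈ O, -w ∈ O := fun w hw => by
    rw [hOmem] at hw ⊢
    exact ⟨by rw [AddSubgroup.coe_neg, sqNorm_neg, hw.1], by
      rw [AddSubgroup.coe_neg]; simp only [dotInt, Pi.neg_apply, mul_neg, Finset.sum_neg_distrib]
      have := hw.2; simp only [dotInt] at this; rw [this, neg_zero]⟩
  have hX : X.card = 46575 := by
    have hfib : ∀ m ∈ X, (hOfin.toFinset.filter fun x => kap x = m).card = 2 := by
      intro m hm
      obtain ⟨x, hx, rfl⟩ := Finset.mem_image.1 hm
      rw [Set.Finite.mem_toFinset] at hx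
      have hxn := ((hOmem x).1 hx).1
      have hne : x ≠ -x := fun h => by
        have h0 : x + x = 0 := by nth_rw 2 [h]; exact add_neg_cancel x
        have h' : (x : GolayPt → ℤ) = 0 := funext fun p => by
          have := congrArg (fun y : leechLattice => y.1 p) h0
          simp only [AddSubgroup.coe_add, Pi.add_apply, AddSubgroup.coe_zero, Pi.zero_apply] at this ⊢
          omega
        rw [h'] at hxn; simp [sqNorm] at hxn
      have : hOfin.toFinset.filter (fun z => kap z = kap x) = {x, -x} := by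
        ext y
        simp only [Finset.mem_filter, Set.Finite.mem_toFinset, Finset.mem_insert, Finset.mem_singleton]
        constructor
        · rintro ⟨hy, hk⟩
          have hyn := ((hOmem y).1 hy).1
          rcases short_kap (x := y) (y := x) (by rw [hyn]; norm_num) (by rw [hxn]; norm_num) hk with e | e | ⟨e, -⟩
          · exact Or.inl e
          · exact Or.inr e
          · rw [hyn] at e; norm_num at e
        · rintro (rfl | rfl)
          · exact ⟨hx, rfl⟩
          · exact ⟨hneg x hx, kap_neg x⟩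
      rw [this, Finset.card_pair hne]
    have h := Finset.card_eq_sum_card_image kap hOfin.toFinset
    rw [Finset.sum_congr rfl hfib, Finset.sum_const, smul_eq_mul, ← Set.ncard_eq_toFinset_card _ hOfin,
      ncard_co2_orbit] at h
    change 93150 = X.card * 2 at h
    omega
  have hXlt : ∀ (n : N) (m : ℕ), m ∈ X → applyM (hypList.map fun h => kap ((n : Co0) • h)) m ∈ X := by
    intro n m hm
    obtain ⟨x, hx, rfl⟩ := Finset.mem_image.1 hm
    rw [← kap_smul]
    refine Finset.mem_image_of_mem _ ?_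
    rw [Set.Finite.mem_toFinset] at hx ⊢
    rw [hOmem] at hx ⊢
    refine ⟨by rw [Co0_sqNorm, hx.1], ?_⟩
    rw [← mem_co2Sub.1 (hle n.2), dot_smul, hx.2]
  letI : SMul N X := ⟨fun n m => ⟨applyM (hypList.map fun h => kap ((n : Co0) • h)) m, hXlt n m m.2⟩⟩
  have hsm : ∀ (n : N) (m : X), ((n • m : X) : ℕ) = applyM (hypList.map fun h => kap ((n : Co0) • h)) (m : ℕ) :=
    fun _ _ => rfl
  letI : MulAction N X :=
    { one_smul := fun ⟨m, hm⟩ => Subtype.ext (by
        obtain ⟨x, hx, rfl⟩ := Finset.mem_image.1 hm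
        rw [hsm, ← kap_smul, Subgroup.coe_one, one_smul])
      mul_smul := fun a b ⟨m, hm⟩ => Subtype.ext (by
        obtain ⟨x, hx, rfl⟩ := Finset.mem_image.1 hm
        rw [hsm, hsm, hsm, ← kap_smul, ← kap_smul, ← kap_smul, Subgroup.coe_mul, mul_smul]) }
  haveI : Fact (Nat.Prime 2) := ⟨Nat.prime_two⟩
  have hodd : ¬ 2 ∣ Nat.card X := by
    rw [Nat.card_eq_fintype_card, Fintype.card_coe, hX]; norm_num
  obtain ⟨⟨m, hm⟩, hfix⟩ := hN.nonempty_fixed_point_of_prime_not_dvd_card X hodd
  obtain ⟨w0, hw0, rfl⟩ := Finset.mem_image.1 hm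
  rw [Set.Finite.mem_toFinset] at hw0
  rw [eq_bot_iff]
  intro n hn
  rw [Subgroup.mem_bot]
  refine eq_one_of_signFix (mem_co2Sub.1 (hle hn)) fun w hw hwd => ?_
  have hwO : w ∈ O := (hOmem w).2 ⟨hw, hwd⟩
  rw [hO, ← MulAction.orbit_eq_iff.2 hw0] at hwO
  obtain ⟨⟨k, hk⟩, hkw⟩ := hwO
  have hn' : k⁻¹ * n * k ∈ N := by simpa using hnorm _ (co2Sub.inv_mem hk) n hn
  have h := congrArg Subtype.val (hfix ⟨_, hn'⟩)
  rw [hsm, ← kap_smul] at h
  have hkw' : k • w0 = w := hkw
  have h2 := kap_smul_congr k h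
  simp only at h2
  rw [mul_smul, mul_smul, smul_inv_smul, hkw'] at h2
  rcases short_kap (by rw [Co0_sqNorm, hw]; norm_num) (by rw [hw]; norm_num) h2 with e | e | ⟨e, -⟩
  · exact Or.inl e
  · exact Or.inr e
  · rw [Co0_sqNorm, hw] at e; norm_num at e

end CfsgLib.Spor
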