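import Cfsg.Agent.Lib.SporMonsterQ
import Cfsg.Agent.Lib.SporCo2Core
import Cfsg.Agent.Lib.CorePGroup
import Cfsg.Agent.Lib.CoreLayer

/-!
In a group of Monster type the centraliser of the second class of involutions in the extraspecial subgroup,
modulo that involution, is of Baby Monster type.
-/

set_option autoImplicit false
set_option maxRecDepth 8000

namespace CfsgLib.Spor
open Cfsg
open scoped Pointwise commutatorElement

attribute [local irreducible] kap eightV repFour repTwo

/-- A normal `p`-subgroup holding its centraliser and every normal `p`-subgroup is the generalised Fitting subgroup. -/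
theorem generalizedFitting_eq_of_pGroup {X : Type*} [Group X] [Finite X] {p : ℕ} [hp : Fact p.Prime]
    (R : Subgroup X) [hR : R.Normal] (hRp : IsPGroup p R) (hc : Subgroup.centralizer (R : Set X) ≤ R)
    (hmax : ∀ N : Subgroup X, N.Normal → IsPGroup p N → N ≤ R) :
    Cfsg.generalizedFittingSubgroup X = R := by
  haveI : Group.IsNilpotent R := hRp.isNilpotent
  have hRs : Group.IsSolvable R := inferInstance
  have hlay : Cfsg.layer X = ⊥ := by
    have h1 : Cfsg.layer X ≤ R := le_trans (Subgroup.commutator_eq_bot_iff_le_centralizer.1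
      (CfsgLib.Core.commutator_layer_of_subnormal_solvable hR.isSubnormal hRs)) hc
    have h2 := CfsgLib.Core.commutator_layer_of_subnormal_solvable hR.isSubnormal hRs
    rw [eq_bot_iff, ← CfsgLib.Core.layer_perfect, ← h2]
    exact Subgroup.commutator_mono le_rfl h1
  have hcore : Cfsg.pPrimeCore p X = ⊥ := by
    haveI hn := CfsgLib.Core.normal_pPrimeCore (G := X) p
    obtain ⟨k, hk⟩ := IsPGroup.iff_card.1 hRp
    have hcop : (Nat.card R).Coprime (Nat.card (Cfsg.pPrimeCore p X)) := by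
      rw [hk]; exact (CfsgLib.Core.coprime_card_pPrimeCore p).symm.pow_left k
    have hdis : R ⊓ Cfsg.pPrimeCore p X = ⊥ := Subgroup.inf_eq_bot_of_coprime hcop
    have h1 : Cfsg.pPrimeCore p X ≤ R := fun x hx => hc (Subgroup.mem_centralizer_iff.2 fun r hr =>
      Subgroup.commute_of_normal_of_disjoint _ _ hR hn (disjoint_iff.2 hdis) r x hr hx)
    rw [← hdis, inf_eq_right.2 h1]
  rw [Cfsg.generalizedFittingSubgroup, hlay, bot_sup_eq,
    CfsgLib.Core.fittingSubgroup_eq_pCore_of_pPrimeCore_eq_bot hcore]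
  exact le_antisymm (sSup_le fun N hN => hmax N hN.1 hN.2) (CfsgLib.Core.le_pCore hR hRp)

namespace MData

variable {G : Type*} [Group G] {z : G} {Q : Subgroup (Subgroup.centralizer ({z} : Set G))} [Q.Normal] (d : MData Q)
include d

theorem z_ne_mul {a : G} : a * z ≠ a := fun h => d.hz (mul_eq_left.1 h)

/-- Commutation is orthogonality of classes. -/
theorem comm_iff {x y : G} {v w : leechLattice} (hx : d.Cls x v) (hy : d.Cls y w) :
    x * y = y * x ↔ ((dotInt (v : GolayPt → ℤ) (w : GolayPt → ℤ) / 8 : ℤ) : ZMod 2) = 0 := by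
  have hyC := mem_centZ.1 (qG_le (d.cls_mem hy))
  have hsx := d.cls_square hx
  have hsy := d.cls_square hy
  have hsxy := d.cls_square (d.cls_mul hx hy)
  rw [normPar_add] at hsxy
  have hzz := d.hz2
  rcases d.conj_cases (d.cls_mem hx) (d.cls_mem hy) with h | h
  · have hc : x * y = y * x := (mul_inv_eq_iff_eq_mul.1 h).symm
    have e : x * y * (x * y) = x * x * (y * y) := by
      calc x * y * (x * y) = x * (y * x) * y := by group
        _ = _ := by rw [← hc]; group
    rw [e] at hsxy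
    refine ⟨fun _ => ?_, fun _ => hc⟩
    rcases d.square_cases (d.cls_mem hx) with ha | ha <;> rcases d.square_cases (d.cls_mem hy) with hb | hb <;>
      rw [ha] at hsx hsxy <;> rw [hb] at hsy hsxy <;>
      simp only [one_mul, mul_one, hzz, d.hz, true_iff, false_iff] at hsx hsy hsxy <;>
      revert hsx hsy hsxy <;>
      generalize normPar v = a <;> generalize normPar w = b <;>
      generalize ((dotInt (v : GolayPt → ℤ) (w : GolayPt → ℤ) / 8 : ℤ) : ZMod 2) = c <;>
      revert a b c <;> decide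
  · have hyx : y * x = x * z * y := by rw [← h]; group
    have hne : x * y ≠ y * x := fun hc => by
      rw [hyx, mul_assoc x, ← hyC] at hc
      exact d.z_ne_mul (mul_left_cancel hc).symm
    have e : x * y * (x * y) = x * x * (y * y) * z := by
      calc x * y * (x * y) = x * (y * x) * y := by group
        _ = x * (x * z * y) * y := by rw [hyx]
        _ = x * x * (z * (y * y)) := by group
        _ = x * x * (y * y * z) := by
          rw [show z * (y * y) = y * y * z by rw [← mul_assoc, ← hyC, mul_assoc, ← hyC, mul_assoc]]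
        _ = _ := by group
    rw [e] at hsxy
    refine ⟨fun hc => absurd hc hne, fun h0 => ?_⟩
    exfalso
    rcases d.square_cases (d.cls_mem hx) with ha | ha <;> rcases d.square_cases (d.cls_mem hy) with hb | hb <;>
      rw [ha] at hsx hsxy <;> rw [hb] at hsy hsxy <;>
      simp only [one_mul, mul_one, hzz, d.hz, true_iff, false_iff] at hsx hsy hsxy <;>
      revert hsx hsy hsxy h0 <;>
      generalize normPar v = a <;> generalize normPar w = b <;>
      generalize ((dotInt (v : GolayPt → ℤ) (w : GolayPt → ℤ) / 8 : ℤ) : ZMod 2) = c <;>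
      revert a b c <;> decide

theorem two_of_not_conj [Finite G] {y t : G} (hyQ : y ∈ qG Q) (hy : IsConj z y) (hyz : y ≠ z) {v : leechLattice}
    (hv : d.Cls t v) (h2 : orderOf t = 2) (hn : ¬ IsConj z t) : ∃ c : Co0, kap (c • v) = kap repTwo := by
  have hsq : t * t = 1 := by rw [← pow_two, ← h2, pow_orderOf_eq_one]
  have h1 : t ≠ 1 := fun e => by rw [e, orderOf_one] at h2; exact absurd h2 (by norm_num)
  have hz : t ≠ z := fun e => hn (e ▸ IsConj.refl z)
  rcases (d.type_cases hv hsq h1 hz).2 with h | ⟨c, hc⟩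
  · exact h
  · exact absurd (d.conj_of_four hyQ hy hyz hv hc).1 hn

theorem not_conj_of_two [Finite G] {x : G} {v r : leechLattice} (hv : d.Cls x v) {c : Co0}
    (hc : kap (c • v) = kap r) (hr : sqNorm (r : GolayPt → ℤ) = 32) (hxz : x ≠ z) : ¬ IsConj z x := by
  intro hx
  obtain ⟨c', hc'⟩ := d.four_of_conj hx hxz hv
  obtain ⟨a, ha⟩ := exists_smul_min hr
  have h2 := kap_smul_congr a hc
  rw [ha, ← mul_smul] at h2
  have h2' := kap_smul_congr (a * c)⁻¹ h2
  rw [inv_smul_smul] at h2'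
  have h3 := kap_smul_congr c' h2'
  rw [hc', ← mul_smul] at h3
  exact kap_two_ne_four _ h3.symm

end MData

/-- Membership of the standard stabiliser as a group of permutations. -/
noncomputable def toCo2 : co2Sub →* Cfsg.Spor.Co2 where
  toFun g := ⟨(g : Co0).1, (g : Co0).2, MulAction.mem_stabilizer_iff.2 g.2⟩
  map_one' := rfl
  map_mul' _ _ := rfl

theorem toCo2_bijective : Function.Bijective toCo2 := by
  refine ⟨fun a b h => Subtype.ext (Subtype.ext (congrArg Subtype.val h :)), fun g => ?_⟩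
  exact ⟨⟨⟨g.1, g.2.1⟩, g.2.2⟩, rfl⟩

theorem sqNorm_neg_leech (x : leechLattice) : sqNorm ((-x : leechLattice) : GolayPt → ℤ) = sqNorm (x : GolayPt → ℤ) := by
  rw [AddSubgroup.coe_neg, sqNorm_neg]

namespace MData

variable {G : Type*} [Group G] {z : G} {Q : Subgroup (Subgroup.centralizer ({z} : Set G))} [Q.Normal] (d : MData Q)
include d

section
variable {t : G} (htU : d.Cls t Cfsg.Spor.leechU)
include htU

theorem t_facts : t ∈ qG Q ∧ t ≠ 1 ∧ t ≠ z ∧ t * t = 1 ∧ t * z = z * t := by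
  have h0 : kap Cfsg.Spor.leechU ≠ 0 :=
    kap_ne_zero (by rw [sqNorm_leechU]; norm_num) (ne_zero_of_sqNorm (by rw [sqNorm_leechU]; norm_num))
  refine ⟨d.cls_mem htU, fun e => h0 ((d.cls_zero_iff htU).2 (Or.inl e)),
    fun e => h0 ((d.cls_zero_iff htU).2 (Or.inr e)), (d.cls_square htU).2 ?_, mem_centZ.1 (qG_le (d.cls_mem htU))⟩
  rw [normPar_of_sqNorm sqNorm_leechU]; rfl

theorem z_not_mem_zpowers : z ∉ Subgroup.zpowers t := by
  obtain ⟨-, h1, h2, h3, -⟩ := d.t_facts htU
  intro h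
  obtain ⟨k, hk⟩ := Subgroup.mem_zpowers_iff.1 h
  rcases Int.even_or_odd k with ⟨j, rfl⟩ | ⟨j, rfl⟩
  · rw [← two_mul, zpow_mul, zpow_two, h3, one_zpow] at hk
    exact d.hz hk.symm
  · rw [zpow_add, zpow_mul, zpow_two, h3, one_zpow, one_mul, zpow_one] at hk
    exact h2 hk

theorem mem_zpowers_t {a : G} (h : a ∈ Subgroup.zpowers t) : a = 1 ∨ a = t := by
  obtain ⟨-, -, -, h3, -⟩ := d.t_facts htU
  obtain ⟨k, hk⟩ := Subgroup.mem_zpowers_iff.1 h
  rcases Int.even_or_odd k with ⟨j, rfl⟩ | ⟨j, rfl⟩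
  · left; rw [← hk, ← two_mul, zpow_mul, zpow_two, h3, one_zpow]
  · right; rw [← hk, zpow_add, zpow_mul, zpow_two, h3, one_zpow, one_mul, zpow_one]

theorem lift_unique {g g' : co2Sub}
    (h : (QuotientGroup.mk (g : Co0) : Cfsg.Spor.Co1) = QuotientGroup.mk (g' : Co0)) : g = g' := by
  have hc : (g : Co0)⁻¹ * (g' : Co0) ∈ Subgroup.center Co0 := QuotientGroup.eq.1 h
  rcases center_Co0.1 hc with e | e
  · exact Subtype.ext (inv_mul_eq_one.1 e)
  · exfalso
    have h1 : ((g : Co0)⁻¹ * (g' : Co0)) • Cfsg.Spor.leechU = Cfsg.Spor.leechU := co2Sub.mul_mem (co2Sub.inv_mem g.2) g'.2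
    rw [e, negAut_smul] at h1
    have := congrArg (fun y : leechLattice => (y : GolayPt → ℤ) none) h1
    simp [leechU_val, Cfsg.Spor.vecU] at this

theorem exists_chi (a : ↥(Subgroup.centralizer ({z} : Set G) ⊓ Subgroup.centralizer ({t} : Set G))) :
    ∃ g : co2Sub, (QuotientGroup.mk (g : Co0) : Cfsg.Spor.Co1) = d.toCo1 ⟨(a : G), a.2.1⟩ := by
  obtain ⟨g, hg⟩ := QuotientGroup.mk_surjective (d.toCo1 ⟨(a : G), a.2.1⟩)
  have hcl := d.cls_conj htU (h := ⟨(a : G), a.2.1⟩) hg
  rw [show (a : G) * t * (a : G)⁻¹ = t from mul_inv_eq_iff_eq_mul.2 (Subgroup.mem_centralizer_singleton_iff.1 a.2.2)] at hcl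
  rcases short_kap (by rw [Co0_sqNorm, sqNorm_leechU]; norm_num) (by rw [sqNorm_leechU]; norm_num)
      (d.cls_kap hcl htU) with e | e | ⟨e, -⟩
  · exact ⟨⟨g, e⟩, hg⟩
  · refine ⟨⟨g * negAut, ?_⟩, ?_⟩
    · rw [mem_co2Sub, mul_smul, negAut_smul, Co0_smul_neg, e, neg_neg]
    · rw [QuotientGroup.mk_mul, (QuotientGroup.eq_one_iff _).2 (center_Co0.2 (Or.inr rfl)), mul_one, hg]
  · rw [Co0_sqNorm, sqNorm_leechU] at e; norm_num at e

/-- The action of the joint centraliser on the lattice, fixing the standard vector. -/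
noncomputable def chi : ↥(Subgroup.centralizer ({z} : Set G) ⊓ Subgroup.centralizer ({t} : Set G)) →* co2Sub :=
  MonoidHom.mk' (fun a => (d.exists_chi htU a).choose) fun a b => by
    apply d.lift_unique htU
    rw [(d.exists_chi htU (a * b)).choose_spec]
    show _ = (QuotientGroup.mk (((d.exists_chi htU a).choose : Co0) * ((d.exists_chi htU b).choose : Co0)) : Cfsg.Spor.Co1)
    rw [QuotientGroup.mk_mul, (d.exists_chi htU a).choose_spec, (d.exists_chi htU b).choose_spec, ← map_mul]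
    rfl

theorem chi_spec (a : ↥(Subgroup.centralizer ({z} : Set G) ⊓ Subgroup.centralizer ({t} : Set G))) :
    (QuotientGroup.mk ((d.chi htU a : co2Sub) : Co0) : Cfsg.Spor.Co1) = d.toCo1 ⟨(a : G), a.2.1⟩ :=
  (d.exists_chi htU a).choose_spec

theorem chi_eq_one (a : ↥(Subgroup.centralizer ({z} : Set G) ⊓ Subgroup.centralizer ({t} : Set G))) :
    d.chi htU a = 1 ↔ (a : G) ∈ qG Q := by
  have h := d.chi_spec htU a
  constructor
  · intro e
    rw [e, Subgroup.coe_one, QuotientGroup.mk_one, toCo1_apply, eq_comm, EmbeddingLike.map_eq_one_iff,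
      QuotientGroup.eq_one_iff] at h
    exact mem_qG.2 ⟨a.2.1, h⟩
  · intro hq
    obtain ⟨hq', hqQ⟩ := mem_qG.1 hq
    apply d.lift_unique htU
    rw [h, toCo1_apply, (QuotientGroup.eq_one_iff _).2 hqQ, map_one, Subgroup.coe_one, QuotientGroup.mk_one]

theorem chi_surjective : Function.Surjective (d.chi htU) := by
  intro g
  obtain ⟨h, hh, he⟩ := d.exists_conj htU htU
    (kap_ne_zero (by rw [sqNorm_leechU]; norm_num) (ne_zero_of_sqNorm (by rw [sqNorm_leechU]; norm_num)))
    (g := (g : Co0)) (show kap ((g : Co0) • Cfsg.Spor.leechU) = kap Cfsg.Spor.leechU by rw [mem_co2Sub.1 g.2])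
  refine ⟨⟨h, h.2, Subgroup.mem_centralizer_singleton_iff.2 (mul_inv_eq_iff_eq_mul.1 hh)⟩, ?_⟩
  apply d.lift_unique htU
  rw [d.chi_spec, he]
  rfl

end

set_option maxHeartbeats 2000000 in
theorem baby_type [Finite G] {t : G} (htU : d.Cls t Cfsg.Spor.leechU) {y : G} (hyQ : y ∈ qG Q) (hy : IsConj z y)
    (hyz : y ≠ z) [hn : ((Subgroup.zpowers t).subgroupOf (Subgroup.centralizer ({t} : Set G))).Normal] :
    Cfsg.IsOfBabyMonsterType
      (↥(Subgroup.centralizer ({t} : Set G)) ⧸ (Subgroup.zpowers t).subgroupOf (Subgroup.centralizer ({t} : Set G))) := by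
  obtain ⟨htQ, ht1, htz, ht2, htzc⟩ := d.t_facts htU
  have hU0 : kap Cfsg.Spor.leechU ≠ 0 :=
    kap_ne_zero (by rw [sqNorm_leechU]; norm_num) (ne_zero_of_sqNorm (by rw [sqNorm_leechU]; norm_num))
  have htzclass : ¬ IsConj z (t * z) := d.not_conj_of_two (c := 1) (d.cls_mul_z htU) (show kap ((1 : Co0) • Cfsg.Spor.leechU) = kap Cfsg.Spor.leechU by rw [one_smul])
    sqNorm_leechU (fun e => ht1 (mul_eq_right.1 e))
  set Ct := Subgroup.centralizer ({t} : Set G) with hCt
  set A := Subgroup.centralizer ({z} : Set G) ⊓ Ct with hA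
  set π := QuotientGroup.mk' ((Subgroup.zpowers t).subgroupOf Ct) with hπ
  have hzCt : z ∈ Ct := Subgroup.mem_centralizer_singleton_iff.2 htzc.symm
  have hπeq : ∀ a b : Ct, π a = π b ↔ (b : G) = a ∨ (b : G) = (a : G) * t := by
    intro a b
    rw [hπ, QuotientGroup.mk'_apply, QuotientGroup.mk'_apply, QuotientGroup.eq, Subgroup.mem_subgroupOf]
    constructor
    · intro h
      rcases d.mem_zpowers_t htU h with e | e
      · exact Or.inl (inv_mul_eq_one.1 e).symm
      · exact Or.inr (inv_mul_eq_iff_eq_mul.1 e)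
    · rintro (e | e) <;> rw [Subgroup.coe_mul, Subgroup.coe_inv, e]
      · rw [inv_mul_cancel]; exact one_mem _
      · rw [inv_mul_cancel_left]; exact Subgroup.mem_zpowers t
  set zb := π ⟨z, hzCt⟩ with hzb
  have hzb1 : zb ≠ 1 := by
    intro h
    rw [← map_one π, hπeq] at h
    simp only [Subgroup.coe_one] at h
    rcases h with e | e
    · exact d.hz e.symm
    · exact d.z_not_mem_zpowers htU (by rw [eq_inv_of_mul_eq_one_left e.symm]; exact Subgroup.inv_mem _ (Subgroup.mem_zpowers t))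
  set Db := Subgroup.centralizer ({zb} : Set (↥Ct ⧸ (Subgroup.zpowers t).subgroupOf Ct)) with hDb
  have hAmem : ∀ a : A, π ⟨(a : G), a.2.2⟩ ∈ Db := fun a => by
    rw [hDb, Subgroup.mem_centralizer_singleton_iff, hzb, ← map_mul, ← map_mul]
    exact congrArg π (Subtype.ext (mem_centZ.1 a.2.1))
  let ρ : A →* Db := MonoidHom.mk' (fun a => ⟨π ⟨(a : G), a.2.2⟩, hAmem a⟩) fun a b => Subtype.ext (map_mul π ⟨(a : G), a.2.2⟩ ⟨(b : G), b.2.2⟩)
  have hρ : Function.Surjective ρ := by
    rintro ⟨b, hb⟩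
    obtain ⟨a, rfl⟩ := QuotientGroup.mk'_surjective _ b
    rw [hDb, Subgroup.mem_centralizer_singleton_iff, hzb, ← map_mul, ← map_mul, hπeq] at hb
    simp only [Subgroup.coe_mul] at hb
    rcases hb with e | e
    · exact ⟨⟨a, mem_centZ.2 e.symm, a.2⟩, rfl⟩
    · exfalso
      apply htzclass
      refine isConj_iff.2 ⟨(a : G)⁻¹, ?_⟩
      have ha : (a : G) * t = t * a := Subgroup.mem_centralizer_singleton_iff.1 a.2
      calc (a : G)⁻¹ * z * (a : G)⁻¹⁻¹ = (a : G)⁻¹ * (z * a) := by group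
        _ = (a : G)⁻¹ * (a * z * t) := by rw [e]
        _ = t * z := by rw [htzc]; group
  have hρker : ∀ a : A, ρ a = 1 ↔ (a : G) = 1 ∨ (a : G) = t := by
    intro a
    rw [← Subtype.coe_inj, show ((ρ a : Db) : ↥Ct ⧸ (Subgroup.zpowers t).subgroupOf Ct) = π ⟨(a : G), a.2.2⟩ from rfl, OneMemClass.coe_one,
      ← map_one π, eq_comm, hπeq]
    simp
  have hkle : ρ.ker ≤ (d.chi htU).ker := fun a ha => by
    rw [MonoidHom.mem_ker, hρker] at ha
    rw [MonoidHom.mem_ker, d.chi_eq_one]
    rcases ha with e | e <;> rw [e]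
    · exact one_mem _
    · exact htQ
  let χb : Db →* co2Sub := ρ.liftOfSurjective hρ ⟨d.chi htU, hkle⟩
  have hχρ : ∀ a, χb (ρ a) = d.chi htU a := fun a => MonoidHom.liftOfRightInverse_comp_apply _ _ _ _ a
  have hχs : Function.Surjective χb := fun g => by
    obtain ⟨a, ha⟩ := d.chi_surjective htU g
    exact ⟨ρ a, (hχρ a).trans ha⟩
  set Qb := χb.ker with hQb
  have hQmem : ∀ a : A, ρ a ∈ Qb ↔ (a : G) ∈ qG Q := fun a => by rw [hQb, MonoidHom.mem_ker, hχρ, d.chi_eq_one]
  have hQof : ∀ {a : G} (_ : a ∈ qG Q) (_ : a * t = t * a), a ∈ A :=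
    fun ha hc => ⟨qG_le ha, Subgroup.mem_centralizer_singleton_iff.2 hc⟩
  -- order
  let Q1 : Subgroup A := (d.chi htU).ker
  have hQ1 : Nat.card Q1 = 2 ^ 24 := by
    rw [← d.card_comm_qG htU hU0]
    exact Nat.card_congr
      { toFun := fun a => ⟨((a : A) : G), (d.chi_eq_one htU a.1).1 a.2, a.1.2.2⟩
        invFun := fun a => ⟨⟨a.1, qG_le a.2.1, a.2.2⟩, (d.chi_eq_one htU _).2 a.2.1⟩
        left_inv := fun a => rfl
        right_inv := fun a => rfl }
  have hQmap : Qb = Q1.map ρ := by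
    ext b
    obtain ⟨a, rfl⟩ := hρ b
    constructor
    · intro h
      exact ⟨a, show d.chi htU a = 1 from (hχρ a).symm.trans h, rfl⟩
    · rintro ⟨a', ha', e⟩
      rw [← e, hQb, MonoidHom.mem_ker, hχρ]; exact ha'
  have hQcard : Nat.card Qb = 2 ^ 23 := by
    let f : Q1 →* Db := ρ.comp Q1.subtype
    have h1 : f.range = Qb := by rw [hQmap, MonoidHom.range_comp, Subgroup.range_subtype]
    have hk2 : Nat.card f.ker = 2 := by
      have e1 : ∀ x : f.ker, ((x.1 : A) : G) = 1 ∨ ((x.1 : A) : G) = t := fun x => (hρker _).1 x.2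
      refine Nat.card_eq_two_iff.2 ⟨⟨1, one_mem _⟩, ⟨⟨⟨t, hQof htQ rfl⟩, (d.chi_eq_one htU _).2 htQ⟩,
        (hρker _).2 (Or.inr rfl)⟩, ?_, ?_⟩
      · intro h
        exact ht1 (congrArg (fun x : f.ker => ((x.1 : A) : G)) h).symm
      · refine Set.eq_univ_of_forall fun x => ?_
        rcases e1 x with e | e
        · exact Or.inl (Subtype.ext (Subtype.ext (Subtype.ext e)))
        · exact Or.inr (Subtype.ext (Subtype.ext (Subtype.ext e)))
    have h := Subgroup.card_eq_card_quotient_mul_card_subgroup f.ker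
    rw [hk2, Nat.card_congr (QuotientGroup.quotientKerEquivRange f).toEquiv, h1, hQ1] at h
    norm_num at h ⊢
    omega
  have hzA : z ∈ A := hQof d.hzQ htzc.symm
  set zq : Qb := ⟨ρ ⟨z, hzA⟩, (hQmem _).2 d.hzQ⟩ with hzq
  have hzq_val : ((zq : Db) : ↥Ct ⧸ (Subgroup.zpowers t).subgroupOf Ct) = zb := rfl
  have hzq1 : zq ≠ 1 := fun h => hzb1 (by rw [← hzq_val, h]; rfl)
  have hzqc : zq ∈ Subgroup.center Qb := Subgroup.mem_center_iff.2 fun b =>
    Subtype.ext (Subtype.ext (Subgroup.mem_centralizer_singleton_iff.1 b.1.2))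
  have hlift : ∀ b : Qb, ∃ a : A, (a : G) ∈ qG Q ∧ ρ a = (b : Db) := fun b => by
    obtain ⟨a, ha⟩ := hρ b
    exact ⟨a, (hQmem a).1 (ha ▸ b.2), ha⟩
  -- centre
  have hcenter : Subgroup.center Qb = Subgroup.zpowers zq := by
    refine le_antisymm ?_ (Subgroup.zpowers_le.2 hzqc)
    intro b hb
    obtain ⟨a, haQ, hab⟩ := hlift b
    have hat : (a : G) * t = t * a := Subgroup.mem_centralizer_singleton_iff.1 a.2.2
    have hcent : ∀ q ∈ qG Q, q * t = t * q → q * (a : G) = (a : G) * q := by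
      intro q hq hqt
      have h := congrArg (fun x : Qb => ((x : Db) : ↥Ct ⧸ (Subgroup.zpowers t).subgroupOf Ct))
        (Subgroup.mem_center_iff.1 hb ⟨ρ ⟨q, hQof hq hqt⟩, (hQmem _).2 hq⟩)
      simp only [Subgroup.coe_mul, ← hab] at h
      change π _ * π _ = π _ * π _ at h
      rw [← map_mul, ← map_mul, hπeq] at h
      simp only [Subgroup.coe_mul] at h
      rcases d.conj_cases haQ hq with e | e
      · exact mul_inv_eq_iff_eq_mul.1 e
      · exfalso
        have e' : q * (a : G) = (a : G) * z * q := mul_inv_eq_iff_eq_mul.1 e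
        have hzq' := mem_centZ.1 (qG_le hq)
        rw [mul_assoc, ← hzq', ← mul_assoc] at e'
        rcases h with h | h <;> rw [e'] at h
        · exact d.z_ne_mul h.symm
        · rw [mul_assoc ((a : G) * q), mul_assoc] at h
          have h5 : z * t = 1 := by
            have : (a : G) * q * (z * t) = (a : G) * q * 1 := by rw [mul_one]; simpa [mul_assoc] using h.symm
            exact mul_left_cancel this
          exact d.z_not_mem_zpowers htU (by
            rw [eq_inv_of_mul_eq_one_left h5]; exact Subgroup.inv_mem _ (Subgroup.mem_zpowers t))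
    obtain ⟨v, hv⟩ := d.cls_exists haQ
    have hres : (a : G) = 1 ∨ (a : G) = z ∨ (a : G) = t ∨ (a : G) = t * z := by
      by_contra hcon
      push Not at hcon
      have hta := (qG Q).mul_mem htQ haQ
      obtain ⟨w, hw⟩ := d.cls_exists hta
      have hw0 : kap w ≠ 0 := fun h0 => by
        rcases (d.cls_zero_iff hw).1 h0 with e | e
        · exact hcon.2.2.1 ((inv_eq_of_mul_eq_one_right e).symm.trans (inv_eq_of_mul_eq_one_right ht2))
        · exact hcon.2.2.2 (by rw [← e, ← mul_assoc, ht2, one_mul])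
      obtain ⟨q, hq, hqx⟩ := d.exists_move hw hw0
      have hqz := mem_centZ.1 (qG_le hq)
      have hcalc : q * (t * (a : G)) * q⁻¹ = (q * t * q⁻¹) * (q * (a : G) * q⁻¹) := by group
      rcases d.conj_cases htQ hq with e | e
      · have hqt : q * t = t * q := mul_inv_eq_iff_eq_mul.1 e
        rw [hcalc, e, mul_inv_eq_iff_eq_mul.2 (hcent q hq hqt)] at hqx
        exact d.z_ne_mul hqx.symm
      · -- q moves t; then it must move a
        obtain ⟨q', hq', hq'a⟩ := d.exists_move hv (fun h0 => by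
          rcases (d.cls_zero_iff hv).1 h0 with e | e
          · exact hcon.1 e
          · exact hcon.2.1 e)
        have hq't : q' * t * q'⁻¹ = t * z := (d.conj_cases htQ hq').resolve_left fun h => by
          rw [mul_inv_eq_iff_eq_mul.2 (hcent q' hq' (mul_inv_eq_iff_eq_mul.1 h))] at hq'a
          exact d.z_ne_mul hq'a.symm
        have hzt : z * t⁻¹ = t⁻¹ * z :=
          (mem_centZ.1 ((Subgroup.centralizer ({z} : Set G)).inv_mem (qG_le htQ))).symm
        have hqq : (q'⁻¹ * q) * t = t * (q'⁻¹ * q) := by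
          have h1 : q' * t * q'⁻¹ = q * t * q⁻¹ := hq't.trans e.symm
          calc q'⁻¹ * q * t = q'⁻¹ * (q * t * q⁻¹) * q := by group
            _ = t * (q'⁻¹ * q) := by rw [← h1]; group
        have h2 := hcent _ ((qG Q).mul_mem ((qG Q).inv_mem hq') hq) hqq
        have h3 : q * (a : G) * q⁻¹ = q' * (a : G) * q'⁻¹ := by
          calc q * (a : G) * q⁻¹ = q' * (q'⁻¹ * q * (a : G)) * q⁻¹ := by group
            _ = q' * (a : G) * q'⁻¹ := by rw [h2]; group
        rw [hcalc, e, h3, hq'a] at hqx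
        have h4 : t * z * ((a : G) * z) = t * (a : G) := by
          rw [mul_assoc t, ← mul_assoc z, ← mem_centZ.1 a.2.1, mul_assoc (a : G), d.hz2, mul_one]
        rw [h4] at hqx
        exact d.z_ne_mul hqx.symm
    rw [Subgroup.mem_zpowers_iff]
    have hb' : ((b : Db) : ↥Ct ⧸ (Subgroup.zpowers t).subgroupOf Ct) = π ⟨(a : G), a.2.2⟩ := by rw [← hab]; rfl
    rcases hres with e | e | e | e
    · refine ⟨0, Subtype.ext (Subtype.ext ?_)⟩
      rw [hb', zpow_zero, Subgroup.coe_one, Subgroup.coe_one, ← map_one π, hπeq]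
      exact Or.inl e
    · refine ⟨1, Subtype.ext (Subtype.ext ?_)⟩
      rw [hb', zpow_one, hzq_val, hzb, hπeq]
      exact Or.inl e
    · refine ⟨0, Subtype.ext (Subtype.ext ?_)⟩
      rw [hb', zpow_zero, Subgroup.coe_one, Subgroup.coe_one, ← map_one π, hπeq]
      exact Or.inr (by rw [Subgroup.coe_one, one_mul]; exact e)
    · refine ⟨1, Subtype.ext (Subtype.ext ?_)⟩
      rw [hb', zpow_one, hzq_val, hzb, hπeq]
      exact Or.inr (e.trans htzc)
  have hzq2 : zq ^ 2 = 1 := Subtype.ext (Subtype.ext (by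
    simp only [Subgroup.coe_pow, hzq_val, hzb, ← map_pow, Subgroup.coe_one]
    rw [← map_one π]
    exact congrArg π (Subtype.ext (by rw [Subgroup.coe_pow, Subgroup.coe_one, pow_two]; exact d.hz2))))
  have hcc : Nat.card (Subgroup.center Qb) = 2 := by
    rw [hcenter, Nat.card_zpowers, orderOf_eq_prime hzq2 hzq1]
  haveI : Fact (Nat.Prime 2) := ⟨Nat.prime_two⟩
  have hQp : IsPGroup 2 Qb := IsPGroup.of_card hQcard
  have hsq : ∀ b : Qb, b ^ 2 ∈ Subgroup.center Qb := fun b => by
    obtain ⟨a, haQ, hab⟩ := hlift b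
    rcases d.square_cases haQ with e | e
    · have : b ^ 2 = 1 := Subtype.ext (by
        rw [Subgroup.coe_pow, Subgroup.coe_one, ← hab, ← map_pow, hρker]
        exact Or.inl (by rw [Subgroup.coe_pow, pow_two]; exact e))
      rw [this]; exact one_mem _
    · have : b ^ 2 = zq := Subtype.ext (by
        rw [Subgroup.coe_pow, ← hab, ← map_pow]
        exact congrArg ρ (Subtype.ext (by rw [Subgroup.coe_pow, pow_two]; exact e)))
      rw [this]; exact hzqc
  have hcomm : commutator Qb ≤ Subgroup.center Qb := by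
    rw [commutator_def, Subgroup.commutator_le]
    intro b _ c _
    obtain ⟨a, haQ, hab⟩ := hlift b
    obtain ⟨a', haQ', hab'⟩ := hlift c
    have h1 : ((⁅b, c⁆ : Qb) : Db) = ρ ⁅a, a'⁆ := by
      rw [map_commutatorElement, hab, hab']; rfl
    rcases d.conj_cases haQ' haQ with e | e
    · have : ⁅b, c⁆ = 1 := Subtype.ext (by
        rw [h1, Subgroup.coe_one, hρker]
        exact Or.inl (by
          simp only [commutatorElement_def, Subgroup.coe_mul, Subgroup.coe_inv]
          rw [e, mul_inv_cancel]))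
      rw [this]; exact one_mem _
    · have : ⁅b, c⁆ = zq := Subtype.ext (by
        rw [h1]
        refine congrArg ρ (Subtype.ext ?_)
        simp only [commutatorElement_def, Subgroup.coe_mul, Subgroup.coe_inv]
        rw [e, mem_centZ.1 (qG_le haQ'), mul_inv_cancel_right])
      rw [this]; exact hzqc
  have hcomm' : commutator Qb = Subgroup.center Qb := by
    refine le_antisymm hcomm ?_
    by_contra hlt
    have hbot : commutator Qb = ⊥ := by
      rcases (Nat.dvd_prime Nat.prime_two).1 (hcc ▸ Subgroup.card_dvd_of_le hcomm) with h | h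
      · exact Subgroup.card_eq_one.1 h
      · exact absurd (Subgroup.eq_of_le_of_card_ge hcomm (by rw [hcc, h])).ge hlt
    have htop : Subgroup.center Qb = ⊤ := by
      rw [eq_top_iff]
      intro b _
      refine Subgroup.mem_center_iff.2 fun c => ?_
      have := Subgroup.commutator_mem_commutator (Subgroup.mem_top c) (Subgroup.mem_top b)
      rw [← commutator_def, hbot, Subgroup.mem_bot, commutatorElement_eq_one_iff_mul_comm] at this
      exact this
    rw [htop, Subgroup.card_top, hQcard] at hcc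
    norm_num at hcc
  have hfr : frattini Qb = Subgroup.center Qb :=
    le_antisymm (CfsgLib.Core.frattini_le_of_elementary hcomm hsq)
      (hcomm' ▸ CfsgLib.Core.pgroup_commutator_le_frattini hQp)
  -- the lattice identification
  have horth : ∀ x : leechPerpU,
      ∃ b : Qb, ∃ a : A, (a : G) ∈ qG Q ∧ ρ a = (b : Db) ∧ d.Cls (a : G) (x : leechLattice) := by
    intro x
    obtain ⟨q, hq⟩ := d.hψ.2.1 (d.ψ (x : leechLattice))
    obtain ⟨q', hq'⟩ := QuotientGroup.mk_surjective (d.ψ (x : leechLattice))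
    have hcl : d.Cls ((q' : Subgroup.centralizer ({z} : Set G)) : G) (x : leechLattice) := ⟨q', rfl, hq'.symm⟩
    have hc := (d.comm_iff hcl htU).2 (by
      obtain ⟨k, hk⟩ := x.2
      rw [leechU_val, hk, show (16 : ℤ) * k = 8 * (2 * k) by ring, Int.mul_ediv_cancel_left _ (by norm_num)]
      push_cast
      rw [show (2 : ZMod 2) = 0 from rfl, zero_mul])
    exact ⟨⟨ρ ⟨_, hQof (d.cls_mem hcl) hc⟩, (hQmem _).2 (d.cls_mem hcl)⟩, _, d.cls_mem hcl, rfl, hcl⟩
  let ψb : leechPerpU → Qb ⧸ Subgroup.center Qb := fun x => QuotientGroup.mk (horth x).choose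
  have hψb : ∀ (x : leechPerpU) (b : Qb) (a : A), (a : G) ∈ qG Q → ρ a = (b : Db) →
      d.Cls (a : G) (x : leechLattice) → ψb x = QuotientGroup.mk b := by
    intro x b a haQ hab hcl
    obtain ⟨a', -, hab', hcl'⟩ := (horth x).choose_spec
    rcases d.eq_or_of_cls hcl hcl' with e | e
    · have : (horth x).choose = b := Subtype.ext (by rw [← hab', ← hab, show a' = a from Subtype.ext e])
      show QuotientGroup.mk (horth x).choose = _
      rw [this]
    · have : (horth x).choose = b * zq := Subtype.ext (by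
        rw [Subgroup.coe_mul, ← hab', ← hab]
        show _ = ρ a * ρ ⟨z, hzA⟩
        rw [← map_mul]
        exact congrArg ρ (Subtype.ext e))
      show QuotientGroup.mk (horth x).choose = _
      rw [this, QuotientGroup.mk_mul, (QuotientGroup.eq_one_iff zq).2 hzqc, mul_one]
  let e2 : Db ⧸ Qb ≃* Cfsg.Spor.Co2 :=
    (QuotientGroup.quotientKerEquivOfSurjective χb hχs).trans (MulEquiv.ofBijective toCo2 toCo2_bijective)
  have he2 : ∀ a, e2 (QuotientGroup.mk (ρ a)) = toCo2 (d.chi htU a) := fun a => by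
    show toCo2 (χb (ρ a)) = _
    rw [hχρ]
  have hiso : Cfsg.IsLeechPerpModTwoIso Qb e2 ψb := by
    refine ⟨fun x y => ?_, fun b => ?_, fun x => ?_, fun h g hg x y hxy q hq => ?_⟩
    · obtain ⟨a, haQ, hab, hcl⟩ := (horth x).choose_spec
      obtain ⟨a', haQ', hab', hcl'⟩ := (horth y).choose_spec
      rw [hψb (x + y) ((horth x).choose * (horth y).choose) (a * a') ((qG Q).mul_mem haQ haQ')
        (by rw [map_mul, hab, hab']; rfl) (d.cls_mul hcl hcl')]
      rfl
    · obtain ⟨b, rfl⟩ := QuotientGroup.mk_surjective b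
      obtain ⟨a, haQ, hab⟩ := hlift b
      obtain ⟨v, hv⟩ := d.cls_exists haQ
      have h := (d.comm_iff hv htU).1 (Subgroup.mem_centralizer_singleton_iff.1 a.2.2)
      have hmem : v ∈ leechPerpU := by
        show (16 : ℤ) ∣ dotInt (v : GolayPt → ℤ) Cfsg.Spor.vecU
        rw [ZMod.intCast_zmod_eq_zero_iff_dvd, leechU_val] at h
        have h8 : (8 : ℤ) ∣ dotInt (v : GolayPt → ℤ) Cfsg.Spor.vecU := by
          rw [← leechU_val]; exact eight_dvd_dotInt v.2 (Cfsg.Spor.leechU).2
        omega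
      exact ⟨⟨v, hmem⟩, hψb _ _ a haQ hab hv⟩
    · obtain ⟨a, haQ, hab, hcl⟩ := (horth x).choose_spec
      show QuotientGroup.mk (horth x).choose = (1 : Qb ⧸ Subgroup.center Qb) ↔ _
      rw [QuotientGroup.eq_one_iff, hcenter]
      constructor
      · intro h
        obtain ⟨k, hk⟩ := Subgroup.mem_zpowers_iff.1 h
        have hcases : (a : G) = 1 ∨ (a : G) = z ∨ (a : G) = t ∨ (a : G) = z * t := by
          rcases Int.even_or_odd k with ⟨j, rfl⟩ | ⟨j, rfl⟩
          · rw [← two_mul, zpow_mul, zpow_two, ← pow_two, hzq2, one_zpow] at hk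
            rw [← hk, Subgroup.coe_one, hρker] at hab
            rcases hab with e | e
            · exact Or.inl e
            · exact Or.inr (Or.inr (Or.inl e))
          · rw [zpow_add, zpow_mul, zpow_two, ← pow_two, hzq2, one_zpow, one_mul, zpow_one] at hk
            rw [← hk] at hab
            have := congrArg (fun b : Db => (b : ↥Ct ⧸ (Subgroup.zpowers t).subgroupOf Ct)) hab
            change π _ = π _ at this
            rcases (hπeq _ _).1 this.symm with e | e
            · exact Or.inr (Or.inl e)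
            · exact Or.inr (Or.inr (Or.inr e))
        rcases hcases with e | e | e | e
        · left
          obtain ⟨w, hw⟩ := kap_eq_zero_iff.1 ((d.cls_zero_iff hcl).2 (Or.inl e))
          exact ⟨w, hw⟩
        · left
          obtain ⟨w, hw⟩ := kap_eq_zero_iff.1 ((d.cls_zero_iff hcl).2 (Or.inr e))
          exact ⟨w, hw⟩
        · right
          rw [e] at hcl
          exact kap_eq_iff.1 (d.cls_kap hcl htU)
        · right
          rw [e, ← htzc] at hcl
          exact kap_eq_iff.1 (d.cls_kap hcl (d.cls_mul_z htU))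
      · intro h
        have hkey : ∀ (c : A), (c : G) ∈ qG Q → d.Cls (c : G) (x : leechLattice) →
            (hq : ρ c ∈ Qb) → (QuotientGroup.mk (horth x).choose : Qb ⧸ Subgroup.center Qb) = QuotientGroup.mk ⟨ρ c, hq⟩ :=
          fun c hc hcc _ => hψb x ⟨ρ c, (hQmem c).2 hc⟩ c hc rfl hcc
        rw [← hcenter, ← QuotientGroup.eq_one_iff]
        rcases h with ⟨w, hw⟩ | ⟨w, hw⟩
        · rw [hkey 1 (one_mem _) (d.cls_congr d.cls_one (by rw [hw, kap_zero]; exact (kap_eq_zero_iff.2 ⟨w, rfl⟩).symm)) ((hQmem 1).2 (one_mem _))]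
          exact (QuotientGroup.eq_one_iff _).2 (by
            rw [show (⟨ρ 1, (hQmem 1).2 (one_mem _)⟩ : Qb) = 1 from Subtype.ext (map_one ρ)]
            exact one_mem _)
        · rw [hkey ⟨t, hQof htQ rfl⟩ htQ (d.cls_congr htU (by rw [hw, kap_add_double])) ((hQmem _).2 htQ)]
          exact (QuotientGroup.eq_one_iff _).2 (by
            rw [show (⟨ρ ⟨t, hQof htQ rfl⟩, (hQmem _).2 htQ⟩ : Qb) = 1 from
              Subtype.ext (show ρ ⟨t, hQof htQ rfl⟩ = 1 from (hρker _).2 (Or.inr rfl))]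
            exact one_mem _)
    · obtain ⟨a, rfl⟩ := hρ h
      rw [he2] at hg
      obtain ⟨c, hcQ, hcb, hcl⟩ := (horth x).choose_spec
      have hgx : (((d.chi htU a : co2Sub) : Co0) • (x : leechLattice)) = (y : leechLattice) := by rw [← hxy, ← hg]; rfl
      have hcl' := d.cls_conj hcl (h := ⟨(a : G), a.2.1⟩) (d.chi_spec htU a)
      rw [hgx] at hcl'
      rw [hψb y ⟨ρ a * (horth x).choose * (ρ a)⁻¹, (inferInstance : Qb.Normal).conj_mem _ ((horth x).choose).2 _⟩
        (a * c * a⁻¹) (conj_qG a.2.1 hcQ) (by rw [map_mul, map_mul, map_inv, hcb]) hcl', QuotientGroup.eq]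
      have h0 : (horth x).choose⁻¹ * q ∈ Subgroup.center Qb := QuotientGroup.eq.1 hq
      have hres : ∀ w : Qb, w ∈ Subgroup.center Qb →
          (⟨ρ a * (w : Db) * (ρ a)⁻¹, (inferInstance : Qb.Normal).conj_mem _ w.2 _⟩ : Qb) ∈ Subgroup.center Qb := by
        intro w hw
        rw [hcenter, Subgroup.mem_zpowers_iff] at hw ⊢
        obtain ⟨k, hk⟩ := hw
        refine ⟨k, Subtype.ext ?_⟩
        have hz' : ρ a * (zq : Db) * (ρ a)⁻¹ = (zq : Db) := mul_inv_eq_iff_eq_mul.2 (Subtype.ext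
          (Subgroup.mem_centralizer_singleton_iff.1 (ρ a).2))
        have hk' : (w : Db) = (zq : Db) ^ k := by rw [← hk, Subgroup.coe_zpow]
        show (((zq ^ k : Qb)) : Db) = ρ a * (w : Db) * (ρ a)⁻¹
        rw [hk', ← conj_zpow, hz', Subgroup.coe_zpow]
      have := hres _ h0
      convert this using 1
      apply Subtype.ext
      simp only [Subgroup.coe_mul, Subgroup.coe_inv]
      group
  -- the generalised Fitting subgroup
  have hfit : Cfsg.generalizedFittingSubgroup Db = Qb := by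
    refine generalizedFitting_eq_of_pGroup Qb hQp ?_ ?_
    · intro b hb
      obtain ⟨a, rfl⟩ := hρ b
      rw [hQb, MonoidHom.mem_ker, hχρ]
      apply Subtype.ext
      refine eq_one_of_signFix (mem_co2Sub.1 (d.chi htU a).2) fun w hw hwd => ?_
      have hw' : w ∈ leechPerpU := by
        show (16 : ℤ) ∣ dotInt (w : GolayPt → ℤ) Cfsg.Spor.vecU
        rw [← leechU_val, show dotInt (w : GolayPt → ℤ) (Cfsg.Spor.leechU : GolayPt → ℤ) = 0 by
          rw [← hwd]; simp only [dotInt, mul_comm]]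
        exact dvd_zero _
      obtain ⟨c, hcQ, hcb, hcl⟩ := (horth ⟨w, hw'⟩).choose_spec
      have hcm := Subgroup.mem_centralizer_iff.1 hb _ ((horth ⟨w, hw'⟩).choose).2
      rw [← hcb, ← map_mul, ← map_mul] at hcm
      have hcm' : π ⟨((c * a : A) : G), (c * a).2.2⟩ = π ⟨((a * c : A) : G), (a * c).2.2⟩ := congrArg Subtype.val hcm
      have hcl' := d.cls_conj hcl (h := ⟨(a : G), a.2.1⟩) (d.chi_spec htU a)
      have hnorm : sqNorm ((((d.chi htU a : co2Sub) : Co0) • w : leechLattice) : GolayPt → ℤ) = 32 := by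
        rw [Co0_sqNorm, hw]
      rcases (hπeq _ _).1 hcm' with e | e <;> simp only [Subgroup.coe_mul] at e <;>
        rw [show (a : G) * c * (a : G)⁻¹ = _ from congrArg (· * (a : G)⁻¹) e] at hcl'
      · rw [mul_inv_cancel_right] at hcl'
        rcases short_kap (hnorm.le.trans (by norm_num)) (by rw [hw]; norm_num) (d.cls_kap hcl' hcl) with e | e | ⟨e, -⟩
        · exact Or.inl e
        · exact Or.inr e
        · rw [hnorm] at e; norm_num at e
      · exfalso
        rw [mul_assoc _ t, show t * (a : G)⁻¹ = (a : G)⁻¹ * t from (Subgroup.mem_centralizer_singleton_iff.1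
          ((Subgroup.centralizer ({t} : Set G)).inv_mem a.2.2)).symm, ← mul_assoc, mul_inv_cancel_right] at hcl'
        have hk := d.cls_kap hcl' (d.cls_mul hcl htU)
        have hwu : sqNorm ((w + Cfsg.Spor.leechU : leechLattice) : GolayPt → ℤ) = 64 := by
          rw [AddSubgroup.coe_add, sqNorm_add, hw, sqNorm_leechU,
            show dotInt (w : GolayPt → ℤ) (Cfsg.Spor.leechU : GolayPt → ℤ) = 0 by
              rw [← hwd]; simp only [dotInt, mul_comm]]
          norm_num
        rcases short_kap (by rw [hnorm]; norm_num) hwu.le hk with e | e | ⟨e, -⟩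
        · rw [e, hwu] at hnorm; norm_num at hnorm
        · rw [e, sqNorm_neg_leech, hwu] at hnorm; norm_num at hnorm
        · rw [hnorm] at e; norm_num at e
    · intro N hN hNp b hb
      rw [hQb, MonoidHom.mem_ker]
      have := co2_two_core ((N.map χb).map co2Sub.subtype) (Subgroup.map_subtype_le _) ((hNp.map _).map _)
        (fun g hg n hn' => by
          obtain ⟨n1, ⟨n0, hn0, rfl⟩, rfl⟩ := hn'
          obtain ⟨g0, hg0⟩ := hχs ⟨g, hg⟩
          refine ⟨χb (g0 * n0 * g0⁻¹), ⟨_, hN.conj_mem _ hn0 _, rfl⟩, ?_⟩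
          rw [show χb (g0 * n0 * g0⁻¹) = ⟨g, hg⟩ * χb n0 * ⟨g, hg⟩⁻¹ by rw [map_mul, map_mul, map_inv, hg0]]
          rfl)
      have hb' : ((χb b : co2Sub) : Co0) ∈ (N.map χb).map co2Sub.subtype := ⟨_, ⟨b, hb, rfl⟩, rfl⟩
      rw [this, Subgroup.mem_bot] at hb'
      exact Subtype.ext hb'
  -- a conjugate of the involution in the new extraspecial subgroup
  obtain ⟨s, g, hgz, hgt, hsQ, hsz, hst⟩ : ∃ s g : G, g * z * g⁻¹ = s ∧ g * t = t * g ∧ s ∈ qG Q ∧ s ≠ z ∧
      s * t = t * s := by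
    obtain ⟨g0, hg0⟩ := isConj_iff.1 hy
    obtain ⟨vy, hvy⟩ := d.cls_exists hyQ
    obtain ⟨cy, hcy⟩ := d.four_of_conj hy hyz hvy
    obtain ⟨d0, hd0⟩ := d.exists_twist hvy hcy
    obtain ⟨-, himg⟩ := d0.four_structure hg0 hyz hd0
    obtain ⟨m1, hm1, m2, hm2, hwt⟩ : ∃ m1 ∈ weightMasks 8, ∃ m2 ∈ weightMasks 8, wt (m1 &&& m2) = 2 := by
      decide +kernel
    have ho := setOfMask_mem_octads hm1
    have hc := (setOfMask_mem_octads hm2).1
    obtain ⟨hxm, hxn⟩ := shapeTwo_mem (d := ⟨setOfMask m1, ∅⟩) ho (Finset.empty_subset _) (by simp)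
    set x : leechLattice := ⟨_, hxm⟩ with hx
    obtain ⟨q0, hq0⟩ := QuotientGroup.mk_surjective (d0.ψ x)
    have hclq : d0.Cls ((q0 : Subgroup.centralizer ({z} : Set G)) : G) x := ⟨q0, rfl, hq0.symm⟩
    set q : G := ((q0 : Subgroup.centralizer ({z} : Set G)) : G) with hq
    have hqy : q * y = y * q := (d0.comm_iff hclq hd0).2 (by
      rw [← eightV_none, dot_eightV, Int.mul_ediv_cancel_left _ (by norm_num : (8 : ℤ) ≠ 0)]
      simp only [hx, shapeTwo, Finset.notMem_empty, if_false]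
      split_ifs <;> decide)
    have hsign : (QuotientGroup.mk (signAut (setOfMask m2) hc) : Cfsg.Spor.Co1) ∈ signImg := by
      refine ⟨_, mem_signGrp.2 fun p => ?_, rfl⟩
      by_cases hp : p ∈ setOfMask m2
      · refine Or.inr (Subtype.ext (funext fun r => ?_))
        rw [signAut_smul, AddSubgroup.coe_neg, Pi.neg_apply, eightV_val]
        by_cases hr : r = p
        · subst hr; simp [hp]
        · simp [hr]
      · refine Or.inl (Subtype.ext (funext fun r => ?_))
        rw [signAut_smul, eightV_val]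
        by_cases hr : r = p
        · subst hr; simp [hp]
        · simp [hr]
    rw [← himg] at hsign
    obtain ⟨h, ⟨hhY, -⟩, hh⟩ := hsign
    have hcl2 := d0.cls_mul (d0.cls_conj hclq (h := h) hh.symm) (d0.cls_inv hclq)
    set t0 : G := (h : G) * q * (h : G)⁻¹ * q⁻¹ with ht0
    have ht0W : t0 ∈ qConj Q g0 := by
      rw [ht0, show (h : G) * q * (h : G)⁻¹ * q⁻¹ = (h : G) * (q * (h : G)⁻¹ * q⁻¹) by group]
      exact (qConj Q g0).mul_mem hhY (d0.normal_qConj hg0 hqy ((qConj Q g0).inv_mem hhY))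
    set u0 : leechLattice := signAut (setOfMask m2) hc • x + -x with hu0
    have hu0n : sqNorm (u0 : GolayPt → ℤ) = 32 := by
      have e : ∀ p, (u0 : GolayPt → ℤ) p = if p ∈ setOfMask (m1 &&& m2) then -4 else 0 := fun p => by
        rw [hu0, AddSubgroup.coe_add, Pi.add_apply, signAut_smul, AddSubgroup.coe_neg, Pi.neg_apply]
        simp only [hx, shapeTwo, Finset.notMem_empty, if_false, mem_setOfMask, Nat.testBit_and, Bool.and_eq_true]
        by_cases h1 : m1.testBit (ix p) = true <;> by_cases h2 : m2.testBit (ix p) = true <;> simp [h1, h2]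
      have e2 : ∀ p, ((u0 : GolayPt → ℤ) p) ^ 2 = if p ∈ setOfMask (m1 &&& m2) then 16 else 0 := fun p => by
        rw [e p]; split <;> norm_num
      rw [sqNorm, Finset.sum_congr rfl fun p _ => e2 p, sum_ite_mem_const, card_setOfMask, hwt]
      norm_num
    have hu00 : kap u0 ≠ 0 := kap_ne_zero (by rw [hu0n]; norm_num) (ne_zero_of_sqNorm (by rw [hu0n]; norm_num))
    obtain ⟨a, ha⟩ := exists_smul_min hu0n
    obtain ⟨b, hb⟩ := exists_smul_min sqNorm_leechU
    obtain ⟨v0, hv0⟩ := d.cls_exists (d0.cls_mem hcl2)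
    have ht0z : t0 ≠ z := fun e => hu00 ((d0.cls_zero_iff hcl2).2 (Or.inr e))
    have ht0n : ¬ IsConj z t0 := d0.not_conj_of_two (c := 1) hcl2 (by rw [one_smul]) hu0n ht0z
    have ht02 : orderOf t0 = 2 := orderOf_eq_prime
      (by rw [pow_two]; exact d0.sq_one_inter hg0 hyz (d0.cls_mem hcl2) ht0W)
      (fun e => hu00 ((d0.cls_zero_iff hcl2).2 (Or.inl e)))
    obtain ⟨c0, hc0⟩ := d.two_of_not_conj hyQ hy hyz hv0 ht02 ht0n
    have h00 : kap v0 ≠ 0 := kap_smul_ne_zero (kap_ne_zero (by rw [sqNorm_repTwo]; norm_num)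
      (ne_zero_of_sqNorm (by rw [sqNorm_repTwo]; norm_num))) hc0
    obtain ⟨k, hk, -⟩ := d.exists_conj hv0 htU h00 (g := b⁻¹ * c0) (by
      rw [mul_smul, ← inv_smul_smul b Cfsg.Spor.leechU, hb]; exact kap_smul_congr b⁻¹ hc0)
    let g1 : G := (k : G) * g0
    have hkz := mem_centZ.1 k.2
    have hs : g1 * z * g1⁻¹ = (k : G) * y * (k : G)⁻¹ := by rw [← hg0]; simp only [g1]; group
    have htg1 : t ∈ qConj Q g1 := by
      rw [mem_qConj] at ht0W ⊢
      rw [← hk]
      simpa [g1, mul_assoc] using ht0W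
    have ht' := mem_qConj.1 htg1
    set t' : G := g1⁻¹ * t * g1 with ht'def
    have hconjt : IsConj t t' := isConj_iff.2 ⟨g1⁻¹, by rw [ht'def, inv_inv]⟩
    have ht'n : ¬ IsConj z t' := fun hc' => by
      have : IsConj z t := hc'.trans hconjt.symm
      exact d.not_conj_of_two (c := 1) htU (by rw [one_smul]) sqNorm_leechU htz this
    have ht'2 : orderOf t' = 2 := by
      rw [ht'def, show g1⁻¹ * t * g1 = g1⁻¹ * t * g1⁻¹⁻¹ by rw [inv_inv], ← MulAut.conj_apply, MulEquiv.orderOf_eq]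
      exact orderOf_eq_prime (by rw [pow_two]; exact ht2) ht1
    obtain ⟨v', hv'⟩ := d.cls_exists ht'
    obtain ⟨c', hc'⟩ := d.two_of_not_conj hyQ hy hyz hv' ht'2 ht'n
    obtain ⟨k2, hk2, -⟩ := d.exists_conj htU hv' hU0 (g := c'⁻¹ * b) (by
      rw [mul_smul, hb, ← inv_smul_smul c' v']; exact kap_smul_congr c'⁻¹ hc'.symm)
    refine ⟨(k : G) * y * (k : G)⁻¹, g1 * (k2 : G), ?_, ?_, conj_qG k.2 hyQ, ?_, ?_⟩
    · rw [← hs]
      have := mem_centZ.1 k2.2
      calc g1 * (k2 : G) * z * (g1 * (k2 : G))⁻¹ = g1 * ((k2 : G) * z) * (k2 : G)⁻¹ * g1⁻¹ := by group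
        _ = _ := by rw [this]; group
    · have h' : (k2 : G) * t = t' * k2 := by rw [← hk2]; group
      calc g1 * (k2 : G) * t = g1 * ((k2 : G) * t) := by group
        _ = t * (g1 * (k2 : G)) := by rw [h', ht'def]; group
    · intro e
      apply hyz
      calc y = (k : G)⁻¹ * ((k : G) * y * (k : G)⁻¹) * k := by group
        _ = (k : G)⁻¹ * z * k := by rw [e]
        _ = z := by rw [mul_assoc, ← hkz]; group
    · exact (qConj_comm_x hs htg1).symm
  have hgCt : g ∈ Ct := Subgroup.mem_centralizer_singleton_iff.2 hgt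
  have hsA : s ∈ A := hQof hsQ hst
  have hmapped : π ⟨g, hgCt⟩ * zb * (π ⟨g, hgCt⟩)⁻¹ = π ⟨s, hsA.2⟩ := by
    rw [hzb, ← map_inv, ← map_mul, ← map_mul]
    exact congrArg π (Subtype.ext hgz)
  refine ⟨zb, Qb, inferInstance, ⟨orderOf_eq_prime ?_ hzb1, hfit, ⟨⟨hQp, hfr, hcomm'⟩, hcc⟩, hQcard, π ⟨g, hgCt⟩, ⟨?_, ?_⟩, ?_⟩,
    e2, ψb, hiso⟩
  · rw [← hzq_val]
    exact congrArg (fun b : Qb => ((b : Db) : ↥Ct ⧸ (Subgroup.zpowers t).subgroupOf Ct)) hzq2
  · rw [hmapped]; exact hAmem ⟨s, hsA⟩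
  · have : (⟨π ⟨g, hgCt⟩ * zb * (π ⟨g, hgCt⟩)⁻¹, by rw [hmapped]; exact hAmem ⟨s, hsA⟩⟩ : Db) = ρ ⟨s, hsA⟩ :=
      Subtype.ext hmapped
    rw [this]
    exact (hQmem _).2 hsQ
  · rw [hmapped, hzb, Ne, eq_comm, hπeq]
    rintro (e | e)
    · exact hsz e
    · exact htzclass (by rw [htzc]; exact isConj_iff.2 ⟨g, hgz.trans e⟩)

end MData

end CfsgLib.Spor
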