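import Cfsg.Agent.Lib.SporLeechStab

/-!
The numbers of lattice vectors of square length 48 and 64, and the index of the lattice.
-/

set_option autoImplicit false
set_option maxRecDepth 8000

namespace CfsgLib.Spor
open Cfsg
open scoped Pointwise

attribute [local irreducible] kap eightV repFour repTwo

/-- The class mask of an integer vector, zero outside the lattice. -/
noncomputable def kapF (x : GolayPt → ℤ) : ℕ := by
  classical exact if h : x ∈ leechLattice then kap ⟨x, h⟩ else 0

theorem kapF_coe (y : leechLattice) : kapF y.1 = kap y := by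
  classical exact dif_pos y.2

attribute [local irreducible] kapF

theorem shell_finite (n : ℤ) : {x : GolayPt → ℤ | x ∈ leechLattice ∧ sqNorm x = n}.Finite := by
  refine (Set.Finite.pi' (fun _ : GolayPt => Set.finite_Icc (-n) n)).subset ?_
  rintro x ⟨-, hx⟩ p
  have h1 : x p ^ 2 ≤ n :=
    hx ▸ Finset.single_le_sum (f := fun i => x i ^ 2) (fun i _ => sq_nonneg (x i)) (Finset.mem_univ p)
  have h2 := Int.le_self_sq (x p)
  have h3 := Int.le_self_sq (-(x p))
  rw [neg_sq] at h3
  exact ⟨by omega, by omega⟩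

theorem sqNorm_neg (x : GolayPt → ℤ) : sqNorm (-x) = sqNorm x := by simp [sqNorm]

theorem card_nonsingular_masks :
    ((Finset.range (4 ^ 12)).filter fun m => parN 12 m ≠ 0).card = 8386560 := by
  have h : ∀ N, N = 4 ^ 12 → ((Finset.range N).filter fun m => parN 12 m ≠ 0).card = 8386560 := by
    intro N hN
    have h := Finset.card_filter_add_card_filter_not (s := Finset.range N) (fun m => parN 12 m = 0)
    have h2 : ((Finset.range N).filter fun m => parN 12 m = 0).card = 8390656 := by
      rw [hN]; exact card_singular_masks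
    rw [h2, Finset.card_range] at h
    have : N = 16777216 := hN.trans (by norm_num)
    show ((Finset.range N).filter fun m => ¬ parN 12 m = 0).card = 8386560
    omega
  exact h _ rfl

theorem ncard_shell_three : {x : GolayPt → ℤ | x ∈ leechLattice ∧ sqNorm x = 48}.ncard = 16773120 := by
  classical
  let S : Finset (GolayPt → ℤ) := (shell_finite 48).toFinset
  have hS : ∀ x, x ∈ S ↔ x ∈ leechLattice ∧ sqNorm x = 48 := fun x => by simp [S]
  obtain ⟨N, hN⟩ : ∃ N, N = 4 ^ 12 := ⟨_, rfl⟩
  have hNv : N = 2 ^ 24 := hN.trans (by norm_num)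
  let T : Finset ℕ := (Finset.range N).filter fun m => parN 12 m ≠ 0
  have hT : T.card = 8386560 := by
    show ((Finset.range N).filter fun m => parN 12 m ≠ 0).card = 8386560
    rw [hN]; exact card_nonsingular_masks
  have himg : S.image kapF = T := by
    ext m
    simp only [T, Finset.mem_image, hS, Finset.mem_filter, Finset.mem_range]
    constructor
    · rintro ⟨x, ⟨hx, hn⟩, rfl⟩
      rw [kapF_coe ⟨x, hx⟩]
      refine ⟨hNv ▸ kap_lt _, ?_⟩
      rw [← normPar_eq_parN, normPar_of_sqNorm (x := ⟨x, hx⟩) hn]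
      decide
    · rintro ⟨hm, hp⟩
      have hm' : m < 2 ^ 24 := hNv ▸ hm
      have hk := kap_lift hm'
      have h0 : m ≠ 0 := by rintro rfl; exact hp (by decide)
      rcases exists_smul_class (selSum hypList m) (by rw [hk]; exact h0) with ⟨g, -, h⟩ | ⟨g, -, h⟩ | ⟨g, h, -⟩
      · rw [normPar_eq_parN, hk] at h; exact absurd h hp
      · rw [normPar_eq_parN, hk] at h; exact absurd h hp
      · refine ⟨(g⁻¹ • repThree).1, ⟨(g⁻¹ • repThree).2, by rw [Co0_sqNorm, sqNorm_repThree]⟩, ?_⟩
        rw [kapF_coe, ← kap_smul_congr g⁻¹ h, inv_smul_smul, hk]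
  have hfib : ∀ m ∈ S.image kapF, (S.filter fun x => kapF x = m).card = 2 := by
    intro m hm
    obtain ⟨x, hx, rfl⟩ := Finset.mem_image.1 hm
    obtain ⟨hxL, hxn⟩ := (hS x).1 hx
    have hne : x ≠ -x := fun h => by
      have : x = 0 := by funext p; have := congrFun h p; simp only [Pi.neg_apply, Pi.zero_apply] at this ⊢; omega
      rw [this] at hxn; simp [sqNorm] at hxn
    have : S.filter (fun z => kapF z = kapF x) = {x, -x} := by
      ext z
      simp only [Finset.mem_filter, Finset.mem_insert, Finset.mem_singleton, hS]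
      constructor
      · rintro ⟨⟨hzL, hzn⟩, hz⟩
        rw [kapF_coe ⟨z, hzL⟩, kapF_coe ⟨x, hxL⟩] at hz
        rcases short_kap (x := ⟨z, hzL⟩) (y := ⟨x, hxL⟩) (le_of_eq_of_le hzn (by norm_num))
          (le_of_eq_of_le hxn (by norm_num)) hz with e | e | ⟨e, -⟩
        · exact Or.inl (congrArg Subtype.val e)
        · exact Or.inr (congrArg Subtype.val e)
        · simp [hzn] at e
      · rintro (rfl | rfl)
        · exact ⟨⟨hxL, hxn⟩, rfl⟩
        · refine ⟨⟨neg_mem hxL, by rw [sqNorm_neg, hxn]⟩, ?_⟩
          rw [kapF_coe ⟨x, hxL⟩, ← kap_neg ⟨x, hxL⟩]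
          exact kapF_coe (-⟨x, hxL⟩)
    rw [this, Finset.card_pair hne]
  have := Finset.card_eq_sum_card_image kapF S
  rw [Finset.sum_congr rfl hfib, Finset.sum_const, smul_eq_mul, himg, hT] at this
  rw [show {x : GolayPt → ℤ | x ∈ leechLattice ∧ sqNorm x = 48} = ↑S from Set.ext fun x => (hS x).symm,
    Set.ncard_coe_finset, this]

set_option maxHeartbeats 1000000 in
theorem ncard_shell_four : {x : GolayPt → ℤ | x ∈ leechLattice ∧ sqNorm x = 64}.ncard = 398034000 := by
  classical
  let S : Finset (GolayPt → ℤ) := (shell_finite 64).toFinset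
  have hS : ∀ x, x ∈ S ↔ x ∈ leechLattice ∧ sqNorm x = 64 := fun x => by simp [S]
  have himg : (↑(S.image kapF) : Set ℕ) = kapOrbit repFour := by
    ext m
    simp only [Finset.coe_image, Set.mem_image, Finset.mem_coe, hS, kapOrbit, Set.mem_range]
    constructor
    · rintro ⟨x, ⟨hx, hn⟩, rfl⟩
      obtain ⟨g, hg⟩ := exists_smul_four (x := ⟨x, hx⟩) hn
      refine ⟨g⁻¹, ?_⟩
      rw [← kap_smul_congr g⁻¹ hg, inv_smul_smul, kapF_coe ⟨x, hx⟩]
    · rintro ⟨g, rfl⟩
      exact ⟨(g • repFour).1, ⟨(g • repFour).2, by rw [Co0_sqNorm, sqNorm_repFour]⟩, kapF_coe _⟩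
  have hfib : ∀ m ∈ S.image kapF, (S.filter fun x => kapF x = m).card = 48 := by
    intro m hm
    have hm' : m ∈ kapOrbit repFour := by rw [← himg]; exact hm
    obtain ⟨g, rfl⟩ := hm'
    let f : GolayPt × Bool → (GolayPt → ℤ) := fun d =>
      ((g • if d.2 then eightV d.1 else -eightV d.1 : leechLattice) : GolayPt → ℤ)
    have e : S.filter (fun x => kapF x = kap (g • repFour)) = Finset.univ.image f := by
      ext x
      simp only [Finset.mem_filter, hS, Finset.mem_image, Finset.mem_univ, true_and, f]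
      constructor
      · rintro ⟨⟨hx, hn⟩, hk⟩
        rw [kapF_coe ⟨x, hx⟩] at hk
        have hk' := kap_smul_congr g⁻¹ hk
        rw [inv_smul_smul] at hk'
        obtain ⟨p, e | e⟩ := short_class_four (y := g⁻¹ • ⟨x, hx⟩) (by rw [Co0_sqNorm]; exact hn) hk'
        · refine ⟨(p, true), ?_⟩
          rw [if_pos rfl, ← e, smul_inv_smul]
        · refine ⟨(p, false), ?_⟩
          rw [if_neg Bool.false_ne_true, ← e, smul_inv_smul]
      · rintro ⟨⟨p, b⟩, rfl⟩
        refine ⟨⟨Subtype.coe_prop _, ?_⟩, ?_⟩
        · cases b <;> simp [Co0_sqNorm, sqNorm_eightV, sqNorm_neg]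
        · rw [kapF_coe]
          refine kap_smul_congr g ?_
          cases b <;> simp [kap_neg, kap_eightV]
    have hinj : Function.Injective f := by
      rintro ⟨p, b⟩ ⟨q, c⟩ h
      have h' := MulAction.injective g (Subtype.ext h :
        (g • if b then eightV p else -eightV p : leechLattice) = g • if c then eightV q else -eightV q)
      have h1 := congrArg (fun y : leechLattice => (y : GolayPt → ℤ) p) h'
      cases b <;> cases c <;> by_cases hpq : p = q <;> simp [eightV_val, hpq] at h1 ⊢
    rw [e, Finset.card_image_of_injective _ hinj, Finset.card_univ, Fintype.card_prod, card_GolayPt,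
      Fintype.card_bool]
  have := Finset.card_eq_sum_card_image kapF S
  rw [Finset.sum_congr rfl hfib, Finset.sum_const, smul_eq_mul, ← Set.ncard_coe_finset (S.image kapF), himg,
    ncard_kapOrbit_four] at this
  rw [show {x : GolayPt → ℤ | x ∈ leechLattice ∧ sqNorm x = 64} = ↑S from Set.ext fun x => (hS x).symm,
    Set.ncard_coe_finset, this]

theorem card_golayCode' : Nat.card ↥golayCode = 4096 := by
  rw [← card_codeSets_coe]
  exact Nat.card_congr (Equiv.ofBijective (fun w => (⟨support₂ w.1, mem_codeSets_support.2 w.2⟩ : ↥codeSets))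
    ⟨fun a b h => Subtype.ext (support₂_injective (congrArg Subtype.val h)),
      fun ⟨_, w, hw, e⟩ => ⟨⟨w, hw⟩, Subtype.ext e⟩⟩)

/-- Reduction of integer vectors modulo 2. -/
def oddHom : (GolayPt → ℤ) →+ (GolayPt → ZMod 2) where
  toFun := oddWord
  map_zero' := by funext i; simp [oddWord]
  map_add' a b := by funext i; simp [oddWord]

theorem oddHom_surjective : Function.Surjective oddHom := fun w =>
  ⟨fun i => ((w i).val : ℤ), by funext i; simp [oddHom, oddWord, ZMod.natCast_zmod_val]⟩

theorem index_golayPre : (golayCode.toAddSubgroup.comap oddHom).index = 4096 := by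
  rw [AddSubgroup.index_comap_of_surjective _ oddHom_surjective]
  have h := AddSubgroup.card_mul_index golayCode.toAddSubgroup
  rw [show Nat.card ↥golayCode.toAddSubgroup = 4096 from card_golayCode',
    show Nat.card (GolayPt → ZMod 2) = 2 ^ 24 by
      rw [Nat.card_eq_fintype_card, Fintype.card_fun, ZMod.card, card_GolayPt]] at h
  norm_num at h
  omega

theorem sum_even_of_pre {y : GolayPt → ℤ} (hy : oddWord y ∈ golayCode) : (2 : ℤ) ∣ ∑ i, y i := by
  rw [show (2 : ℤ) = ((2 : ℕ) : ℤ) from rfl, ← ZMod.intCast_zmod_eq_zero_iff_dvd]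
  have e : ∀ i, ((y i : ℤ) : ZMod 2) = if oddWord y i ≠ 0 then 1 else 0 := by
    intro i
    have : ∀ u : ZMod 2, u = if u ≠ 0 then 1 else 0 := by decide
    exact this _
  push_cast
  simp only [e, Finset.sum_boole]
  obtain ⟨c, hc⟩ := four_dvd_card_support hy
  rw [← support₂, hc, Nat.cast_mul]
  rw [show ((4 : ℕ) : ZMod 2) = 0 from rfl, zero_mul]

/-- The halved even part of the lattice. -/
def halfEven : AddSubgroup (GolayPt → ℤ) where
  carrier := {y | oddWord y ∈ golayCode ∧ (4 : ℤ) ∣ ∑ i, y i}
  zero_mem' := ⟨by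
      show oddHom 0 ∈ golayCode
      rw [map_zero]; exact golayCode.zero_mem, by simp⟩
  add_mem' := by
    rintro a b ⟨ha, ha'⟩ ⟨hb, hb'⟩
    exact ⟨by
      show oddHom (a + b) ∈ golayCode
      rw [map_add]; exact golayCode.add_mem ha hb,
      by simpa [Finset.sum_add_distrib] using dvd_add ha' hb'⟩
  neg_mem' := by
    rintro a ⟨ha, ha'⟩
    exact ⟨by
      show oddHom (-a) ∈ golayCode
      rw [map_neg]; exact golayCode.neg_mem ha,
      by simp only [Pi.neg_apply, Finset.sum_neg_distrib]; exact dvd_neg.2 ha'⟩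

theorem index_halfEven : halfEven.index = 8192 := by
  set P := golayCode.toAddSubgroup.comap oddHom with hP
  have hle : halfEven ≤ P := fun y hy => hy.1
  let ψ : P →+ ZMod 2 :=
    { toFun := fun y => (((∑ i, (y : GolayPt → ℤ) i) / 2 : ℤ) : ZMod 2)
      map_zero' := by simp
      map_add' := fun a b => by
        simp only [AddSubgroup.coe_add, Pi.add_apply, Finset.sum_add_distrib]
        rw [Int.add_ediv_of_dvd_left (sum_even_of_pre a.2), Int.cast_add] }
  have hker : ψ.ker = halfEven.addSubgroupOf P := by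
    ext ⟨y, hy⟩
    simp only [AddMonoidHom.mem_ker, AddSubgroup.mem_addSubgroupOf, ψ, AddMonoidHom.coe_mk, ZeroHom.coe_mk,
      ZMod.intCast_zmod_eq_zero_iff_dvd]
    have h2 := sum_even_of_pre hy
    exact ⟨fun h => ⟨hy, by push_cast at h; omega⟩, fun h => by have := h.2; push_cast; omega⟩
  have hψ : Function.Surjective ψ := by
    intro u
    rcases (show ∀ u : ZMod 2, u = 0 ∨ u = 1 by decide) u with rfl | rfl
    · exact ⟨0, map_zero ψ⟩
    · refine ⟨⟨fun i => if i = none then 2 else 0, ?_⟩, ?_⟩
      · show oddWord _ ∈ golayCode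
        have : oddWord (fun i : GolayPt => if i = none then (2 : ℤ) else 0) = 0 := by
          funext i; simp only [oddWord]; split_ifs <;> rfl
        rw [this]; exact golayCode.zero_mem
      · show (((∑ i : GolayPt, if i = none then (2 : ℤ) else 0) / 2 : ℤ) : ZMod 2) = 1
        simp [Finset.sum_ite_eq']
  have hrel : halfEven.relIndex P = 2 := by
    rw [AddSubgroup.relIndex, ← hker, AddSubgroup.index_ker, AddMonoidHom.range_eq_top.2 hψ]
    simp
  rw [← AddSubgroup.relIndex_mul_index hle, hrel, hP, index_golayPre]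

/-- Doubling of integer vectors. -/
def doubleHom : (GolayPt → ℤ) →+ (GolayPt → ℤ) where
  toFun y := fun i => 2 * y i
  map_zero' := by funext i; simp
  map_add' a b := by funext i; simp [mul_add]

theorem index_range_double : doubleHom.range.index = 2 ^ 24 := by
  have e : doubleHom.range = oddHom.ker := by
    ext x
    simp only [AddMonoidHom.mem_range, AddMonoidHom.mem_ker, funext_iff, oddHom, AddMonoidHom.coe_mk,
      ZeroHom.coe_mk, oddWord, Pi.zero_apply, ZMod.intCast_zmod_eq_zero_iff_dvd, doubleHom, Nat.cast_ofNat]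
    exact ⟨fun ⟨y, hy⟩ i => ⟨y i, (hy i).symm⟩, fun h => ⟨fun i => (h i).choose, fun i => (h i).choose_spec.symm⟩⟩
  rw [e, AddSubgroup.index_ker, AddMonoidHom.range_eq_top.2 oddHom_surjective]
  simp only [AddSubgroup.card_top, Nat.card_eq_fintype_card, Fintype.card_fun, ZMod.card, card_GolayPt]

theorem index_leech : leechLattice.index = 2 ^ 36 := by
  have hinj : Function.Injective doubleHom := fun a b h => funext fun i => by
    have : (2 : ℤ) * a i = 2 * b i := congrFun h i
    omega
  set L0 := halfEven.map doubleHom with hL0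
  have h0 : L0.index = 8192 * 2 ^ 24 := by
    rw [hL0, AddSubgroup.index_map_of_injective _ hinj, index_halfEven, index_range_double]
  have hle : L0 ≤ leechLattice := by
    rintro _ ⟨y, ⟨hy, hs⟩, rfl⟩
    refine mem_leech.2 ⟨0, y, fun i => by simp [doubleHom], ?_, hy⟩
    simp only [doubleHom, AddMonoidHom.coe_mk, ZeroHom.coe_mk, ← Finset.mul_sum]
    omega
  let φ : leechLattice →+ ZMod 2 :=
    { toFun := fun x => (((x : GolayPt → ℤ) none : ℤ) : ZMod 2)
      map_zero' := by simp
      map_add' := fun a b => by simp }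
  have hker : φ.ker = L0.addSubgroupOf leechLattice := by
    ext ⟨x, hx⟩
    simp only [AddMonoidHom.mem_ker, AddSubgroup.mem_addSubgroupOf, φ, AddMonoidHom.coe_mk, ZeroHom.coe_mk,
      ZMod.intCast_zmod_eq_zero_iff_dvd, Nat.cast_ofNat]
    constructor
    · intro h
      obtain ⟨m, a, e, hs, ha⟩ := mem_leech.1 hx
      obtain ⟨k, rfl⟩ : (2 : ℤ) ∣ m := by have := e none; omega
      have hw : oddWord (fun i => k + a i) = oddWord a + (k : ZMod 2) • 1 := by
        funext i; simp [oddWord, add_comm]
      refine ⟨fun i => k + a i, ⟨hw ▸ golayCode.add_mem ha (golayCode.smul_mem _ one_mem_golayCode), ?_⟩, ?_⟩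
      · simp only [e, Finset.sum_add_distrib, Finset.sum_const, Finset.card_univ, card_GolayPt,
          ← Finset.mul_sum, nsmul_eq_mul] at hs
        simp only [Finset.sum_add_distrib, Finset.sum_const, Finset.card_univ, card_GolayPt, nsmul_eq_mul]
        push_cast at hs ⊢
        omega
      · funext i
        simp only [doubleHom, AddMonoidHom.coe_mk, ZeroHom.coe_mk, e i]
        ring
    · rintro ⟨y, -, e⟩
      exact ⟨y none, (congrFun e none).symm⟩
  have hφ : Function.Surjective φ := by
    intro u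
    rcases (show ∀ u : ZMod 2, u = 0 ∨ u = 1 by decide) u with rfl | rfl
    · exact ⟨0, map_zero φ⟩
    · refine ⟨repThree, ?_⟩
      show (((repThree : GolayPt → ℤ) none : ℤ) : ZMod 2) = 1
      rw [repThree_val]; rfl
  have hrel : L0.relIndex leechLattice = 2 := by
    rw [AddSubgroup.relIndex, ← hker, AddSubgroup.index_ker, AddMonoidHom.range_eq_top.2 hφ]
    simp
  have := AddSubgroup.relIndex_mul_index hle
  rw [hrel, h0] at this
  norm_num at this ⊢
  omega

end CfsgLib.Spor
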