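import Cfsg.Agent.Lib.SporFrameGroup
import Cfsg.Agent.Lib.SporLeechShells

/-!
The stabiliser of a shortest vector in `Co0`: order, and transitivity on the orthogonal shortest vectors.
-/

set_option autoImplicit false
set_option maxRecDepth 8000

namespace CfsgLib.Spor
open Cfsg
open scoped Pointwise

attribute [local irreducible] kap eightV repFour repTwo

theorem leechU_val : (Cfsg.Spor.leechU : GolayPt → ℤ) = Cfsg.Spor.vecU := rfl

theorem leechU'_val : (Cfsg.Spor.leechU' : GolayPt → ℤ) = Cfsg.Spor.vecU' := rfl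

theorem sqNorm_leechU : sqNorm (Cfsg.Spor.leechU : GolayPt → ℤ) = 32 := by
  rw [leechU_val, sqNorm]; decide +kernel

theorem sqNorm_leechU' : sqNorm (Cfsg.Spor.leechU' : GolayPt → ℤ) = 32 := by
  rw [leechU'_val, sqNorm]; decide +kernel

theorem dot_leechU (x : GolayPt → ℤ) :
    dotInt (Cfsg.Spor.leechU : GolayPt → ℤ) x = 4 * (x none + x (some 0)) := by
  have h : ∀ p, Cfsg.Spor.vecU p * x p =
      (if p = none then 4 * x none else 0) + (if p = some 0 then 4 * x (some 0) else 0) := fun p => by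
    simp only [Cfsg.Spor.vecU]
    by_cases h1 : p = none
    · subst h1; simp
    by_cases h2 : p = some 0
    · subst h2; simp
    simp [h1, h2]
  rw [leechU_val, dotInt, Finset.sum_congr rfl fun p _ => h p, Finset.sum_add_distrib, Finset.sum_ite_eq',
    Finset.sum_ite_eq', if_pos (Finset.mem_univ _), if_pos (Finset.mem_univ _)]
  ring

/-- The stabiliser of the standard shortest vector. -/
def co2Sub : Subgroup Co0 := MulAction.stabilizer Co0 Cfsg.Spor.leechU

theorem mem_co2Sub {g : Co0} : g ∈ co2Sub ↔ g • Cfsg.Spor.leechU = Cfsg.Spor.leechU := Iff.rfl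

theorem ncard_minL : {x : leechLattice | sqNorm (x : GolayPt → ℤ) = 32}.ncard = 196560 := by
  rw [← ncard_minSet, ← Set.ncard_image_of_injective _ (Subtype.val_injective (p := fun a => a ∈ leechLattice))]
  congr 1
  ext x
  simp only [Set.mem_image, Set.mem_setOf_eq]
  exact ⟨fun ⟨a, h, e⟩ => e ▸ ⟨a.2, h⟩, fun ⟨h1, h2⟩ => ⟨⟨x, h1⟩, h2, rfl⟩⟩

theorem card_co2Sub : Nat.card co2Sub = 42305421312000 := by
  have h := card_eq_ncard_mul (⊤ : Subgroup Co0) Cfsg.Spor.leechU {x : leechLattice | sqNorm (x : GolayPt → ℤ) = 32}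
    (fun g _ => by show sqNorm _ = 32; rw [Co0_sqNorm, sqNorm_leechU])
    (fun y hy => by
      obtain ⟨g, hg⟩ := exists_smul_min sqNorm_leechU
      obtain ⟨h, hh⟩ := exists_smul_min (show sqNorm (y : GolayPt → ℤ) = 32 from hy)
      exact ⟨h⁻¹ * g, Subgroup.mem_top _, by rw [mul_smul, hg, ← hh, inv_smul_smul]⟩)
  rw [Subgroup.card_top, card_Co0, ncard_minL, top_inf_eq] at h
  exact Nat.eq_of_mul_eq_mul_left (by norm_num : 0 < 196560) (h.symm.trans (by norm_num))

/-- The stabiliser of two orthogonal shortest vectors spanning a pair of frame vectors. -/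
def co2Pair : Subgroup Co0 := co2Sub ⊓ MulAction.stabilizer Co0 Cfsg.Spor.leechU'

theorem leechU_add : Cfsg.Spor.leechU + Cfsg.Spor.leechU' = eightV none := by
  refine Subtype.ext (funext fun p => ?_)
  rw [AddSubgroup.coe_add, eightV_val, leechU_val, leechU'_val]
  simp only [Pi.add_apply, Cfsg.Spor.vecU, Cfsg.Spor.vecU']
  by_cases h1 : p = none
  · subst h1; simp
  by_cases h2 : p = some 0
  · subst h2; simp
  simp [h1, h2]

theorem leechU_sub : Cfsg.Spor.leechU - Cfsg.Spor.leechU' = eightV (some 0) := by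
  refine Subtype.ext (funext fun p => ?_)
  rw [AddSubgroup.coe_sub, eightV_val, leechU_val, leechU'_val]
  simp only [Pi.sub_apply, Cfsg.Spor.vecU, Cfsg.Spor.vecU']
  by_cases h1 : p = none
  · subst h1; simp
  by_cases h2 : p = some 0
  · subst h2; simp
  simp [h1, h2]

theorem mem_co2Pair {g : Co0} :
    g ∈ co2Pair ↔ g • eightV none = eightV none ∧ g • eightV (some 0) = eightV (some 0) := by
  constructor
  · rintro ⟨h1, h2⟩
    have h1' : g • Cfsg.Spor.leechU = Cfsg.Spor.leechU := h1
    have h2' : g • Cfsg.Spor.leechU' = Cfsg.Spor.leechU' := h2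
    refine ⟨by rw [← leechU_add, Co0_smul_add, h1', h2'], ?_⟩
    rw [← leechU_sub, sub_eq_add_neg, Co0_smul_add, Co0_smul_neg, h1', h2']
  · rintro ⟨h1, h2⟩
    rw [← leechU_add, Co0_smul_add] at h1
    rw [← leechU_sub, sub_eq_add_neg, Co0_smul_add, Co0_smul_neg] at h2
    have key : ∀ p, ((g • Cfsg.Spor.leechU : leechLattice) : GolayPt → ℤ) p = (Cfsg.Spor.leechU : GolayPt → ℤ) p ∧
        ((g • Cfsg.Spor.leechU' : leechLattice) : GolayPt → ℤ) p = (Cfsg.Spor.leechU' : GolayPt → ℤ) p := fun p => by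
      have e1 := congrArg (fun y : leechLattice => (y : GolayPt → ℤ) p) h1
      have e2 := congrArg (fun y : leechLattice => (y : GolayPt → ℤ) p) h2
      simp only [AddSubgroup.coe_add, AddSubgroup.coe_neg, Pi.add_apply, Pi.neg_apply] at e1 e2
      omega
    exact ⟨Subtype.ext (funext fun p => (key p).1), Subtype.ext (funext fun p => (key p).2)⟩

theorem monoAut_fix {d : ↥codeSets × ↥M24} {p : GolayPt} (hσ : (d.2 : P24) p = p) (hc : p ∉ (d.1 : Finset GolayPt)) :
    monoAut d • eightV p = eightV p := by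
  refine Subtype.ext (funext fun q => ?_)
  rw [monoAut_smul, eightV_val]
  beta_reduce
  have hq : (d.2 : P24) q = p ↔ q = p := ⟨fun h => (d.2 : P24).injective (h.trans hσ.symm), fun h => h ▸ hσ⟩
  by_cases h : q = p
  · subst h; rw [if_neg hc, if_pos (hq.2 rfl), if_pos rfl]
  · rw [if_neg (mt hq.1 h), if_neg h]; split_ifs <;> rfl

theorem ncard_avoid :
    {s : Finset GolayPt | s ∈ codeSets ∧ (none : GolayPt) ∉ s ∧ (some 0 : GolayPt) ∉ s}.ncard = 1024 := by
  have h := ncard_setOf_eq_countP codeMasks codeMasks_nodup codeMasks_lt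
    (fun s => (none : GolayPt) ∉ s ∧ (some 0 : GolayPt) ∉ s) (fun m => !m.testBit 23 && !m.testBit 0)
    (fun m _ => by
      simp [mem_setOfMask, show ix (none : GolayPt) = 23 from rfl, show ix (some 0 : GolayPt) = 0 from rfl])
  have e : codeMasks.countP (fun m => !m.testBit 23 && !m.testBit 0) = 1024 := by decide +kernel
  rw [e] at h
  rw [← h]
  refine congrArg Set.ncard (Set.ext fun s => ?_)
  simp only [Set.mem_setOf_eq, mem_codeSets_iff]

theorem card_co2Pair : Nat.card co2Pair = 454164480 := by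
  let A := {s : Finset GolayPt | s ∈ codeSets ∧ (none : GolayPt) ∉ s ∧ (some 0 : GolayPt) ∉ s}
  let f : ↥A × ↥Cfsg.Spor.M22 → co2Pair := fun d => ⟨monoAut (⟨d.1.1, d.1.2.1⟩, ⟨d.2.1, d.2.2.1.1⟩),
    mem_co2Pair.2 ⟨monoAut_fix d.2.2.1.2 d.1.2.2.1, monoAut_fix d.2.2.2 d.1.2.2.2⟩⟩
  have hf : Function.Bijective f := by
    refine ⟨fun a b h => ?_, fun g => ?_⟩
    · have h' := monoAut_injective (congrArg Subtype.val h)
      simp only [Prod.mk.injEq, Subtype.mk.injEq] at h'
      exact Prod.ext (Subtype.ext h'.1) (Subtype.ext h'.2)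
    · obtain ⟨h1, h2⟩ := mem_co2Pair.1 g.2
      have hm : (g : Co0) ∈ frameStab := by rw [mem_frameStab, ← eightV_none, h1]
      obtain ⟨⟨c, σ⟩, hd⟩ := exists_monoAut hm
      rw [← hd] at h1 h2
      have fixes : ∀ p, monoAut (c, σ) • eightV p = eightV p → (σ : P24) p = p ∧ p ∉ (c : Finset GolayPt) := by
        intro p hp
        have h := congrArg (fun y : leechLattice => (y : GolayPt → ℤ) p) hp
        simp only [monoAut_smul, eightV_val, if_true] at h
        split_ifs at h with a b <;> first | omega | exact ⟨by assumption, by assumption⟩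
      refine ⟨(⟨c, c.2, (fixes _ h1).2, (fixes _ h2).2⟩, ⟨σ, ⟨σ.2, (fixes _ h1).1⟩, (fixes _ h2).1⟩),
        Subtype.ext hd⟩
  rw [← Nat.card_congr (Equiv.ofBijective f hf), Nat.card_prod, Nat.card_coe_set_eq, ncard_avoid, card_M22]

theorem ncard_co2_orbit : (MulAction.orbit co2Sub Cfsg.Spor.leechU').ncard = 93150 := by
  have h := card_eq_ncard_mul co2Sub Cfsg.Spor.leechU' (MulAction.orbit co2Sub Cfsg.Spor.leechU')
    (fun g hg => ⟨⟨g, hg⟩, rfl⟩) (fun y hy => by obtain ⟨g, rfl⟩ := hy; exact ⟨g, g.2, rfl⟩)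
  change Nat.card co2Sub = _ * Nat.card co2Pair at h
  rw [card_co2Sub, card_co2Pair] at h
  exact Nat.eq_of_mul_eq_mul_right (by norm_num : 0 < 454164480) (h.symm.trans (by norm_num))

/-- The condition of orthogonality to the standard vector. -/
def OrthU (x : GolayPt → ℤ) : Prop := x none + x (some 0) = 0

instance : DecidablePred OrthU := fun _ => inferInstanceAs (Decidable (_ = _))

theorem card_fours_orth : (minFours.filter OrthU).card ≤ 926 := by
  rw [minFours, Finset.filter_image]
  refine Finset.card_image_le.trans ?_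
  have : ((((Finset.univ : Finset GolayPt).powersetCard 2).sigma fun s => s.powerset).filter
      fun d => OrthU (shapeFour d)).card = 926 := by decide +kernel
  exact this.le

theorem card_octad_subsets {s : Finset GolayPt} (hs : s.card = 8) {a b : GolayPt} (ha : a ∈ s) (hb : b ∈ s)
    (hab : a ≠ b) : ((s.powerset.filter fun n => 2 ∣ n.card ∧ (b ∈ n ↔ a ∉ n))).card ≤ 64 := by
  obtain ⟨c, hc, hca, hcb⟩ : ∃ c ∈ s, c ≠ a ∧ c ≠ b := by
    by_contra hcon
    push Not at hcon
    have : s ⊆ {a, b} := fun c hc => by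
      rw [Finset.mem_insert, Finset.mem_singleton]
      by_cases h : c = a
      · exact Or.inl h
      · exact Or.inr (hcon c hc h)
    have := (Finset.card_le_card this).trans Finset.card_le_two
    omega
  have hcard : ((s.erase a).erase c).card = 6 := by
    rw [Finset.card_erase_of_mem (Finset.mem_erase.2 ⟨hca, hc⟩), Finset.card_erase_of_mem ha, hs]
  refine (Finset.card_le_card_of_injOn (t := ((s.erase a).erase c).powerset) (fun n => (n.erase a).erase c) ?_ ?_).trans
    (by rw [Finset.card_powerset, hcard]; norm_num)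
  · intro n hn
    simp only [Finset.coe_filter, Finset.mem_powerset, Set.mem_setOf_eq] at hn
    simp only [Finset.mem_coe, Finset.mem_powerset]
    exact Finset.erase_subset_erase _ (Finset.erase_subset_erase _ hn.1)
  · intro n hn m hm h
    simp only [Finset.coe_filter, Finset.mem_powerset, Set.mem_setOf_eq] at hn hm
    simp only at h
    have hne : ∀ x, x ≠ a → x ≠ c → (x ∈ n ↔ x ∈ m) := fun x hxa hxc => by
      have := Finset.ext_iff.1 h x
      simpa [hxa, hxc] using this
    have hba := hne b hab.symm hcb.symm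
    have haa : a ∈ n ↔ a ∈ m := by
      rw [hn.2.2, hm.2.2, not_iff_not] at hba
      exact hba
    ext x
    by_cases hxc : x = c
    · subst hxc
      have he : n.erase x = m.erase x := by
        ext y
        by_cases hyx : y = x
        · subst hyx; simp
        by_cases hya : y = a
        · subst hya; simp [hyx, haa]
        simp [hyx, hne y hya hyx]
      have h1 := hn.2.1; have h2 := hm.2.1
      constructor <;> intro hx <;> by_contra hx'
      · rw [Finset.erase_eq_of_notMem hx'] at he
        have := Finset.card_erase_of_mem hx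
        have hpos := Finset.card_pos.2 ⟨x, hx⟩
        rw [he] at this
        omega
      · rw [Finset.erase_eq_of_notMem hx'] at he
        have := Finset.card_erase_of_mem hx
        have hpos := Finset.card_pos.2 ⟨x, hx⟩
        rw [← he] at this
        omega
    · by_cases hxa : x = a
      · subst hxa; exact haa
      · exact hne x hxa hxc

theorem card_twos_orth : (minTwos.filter OrthU).card ≤ 47168 := by
  classical
  rw [minTwos, Finset.filter_image]
  refine Finset.card_image_le.trans ?_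
  have hs : ∀ d : (_ : Finset GolayPt) × Finset GolayPt, OrthU (shapeTwo d) ↔
      (((none : GolayPt) ∈ d.1 ↔ (some 0 : GolayPt) ∈ d.1) ∧
        ((none : GolayPt) ∈ d.1 → ((some 0 : GolayPt) ∈ d.2 ↔ (none : GolayPt) ∉ d.2))) := by
    intro d
    simp only [OrthU, shapeTwo]
    by_cases h1 : (none : GolayPt) ∈ d.1 <;> by_cases h2 : (some 0 : GolayPt) ∈ d.1 <;>
      by_cases h3 : (none : GolayPt) ∈ d.2 <;> by_cases h4 : (some 0 : GolayPt) ∈ d.2 <;> simp [h1, h2, h3, h4]
  let O := (Set.toFinite octads).toFinset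
  let f : Finset GolayPt → ℕ := fun s =>
    (if (none : GolayPt) ∉ s ∧ (some 0 : GolayPt) ∉ s then 128 else 0) +
      (if (none : GolayPt) ∈ s ∧ (some 0 : GolayPt) ∈ s then 64 else 0)
  have e : (O.sigma fun s => s.powerset.filter fun n => 2 ∣ n.card).filter (fun d => OrthU (shapeTwo d)) =
      O.sigma fun s => s.powerset.filter fun n => 2 ∣ n.card ∧ OrthU (shapeTwo ⟨s, n⟩) := by
    ext ⟨s, n⟩
    simp only [Finset.mem_filter, Finset.mem_sigma, and_assoc]
  rw [e, Finset.card_sigma]
  refine (Finset.sum_le_sum (g := f) fun s hs' => ?_).trans ?_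
  · have h8 : s.card = 8 := ((Set.Finite.mem_toFinset _).1 hs').2
    simp only [f]
    by_cases h1 : (none : GolayPt) ∈ s <;> by_cases h2 : (some 0 : GolayPt) ∈ s
    · rw [if_neg (fun h => h.1 h1), if_pos ⟨h1, h2⟩, zero_add]
      refine (Finset.card_le_card ?_).trans (card_octad_subsets h8 h1 h2 (by simp))
      intro n hn
      simp only [Finset.mem_filter] at hn ⊢
      exact ⟨hn.1, hn.2.1, ((hs ⟨s, n⟩).1 hn.2.2).2 h1⟩
    · rw [if_neg (fun h => h.1 h1), if_neg (fun h => h2 h.2), add_zero, Nat.le_zero, Finset.card_eq_zero,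
        Finset.filter_eq_empty_iff]
      exact fun n _ h => h2 (((hs ⟨s, n⟩).1 h.2).1.1 h1)
    · rw [if_neg (fun h => h.2 h2), if_neg (fun h => h1 h.1), add_zero, Nat.le_zero, Finset.card_eq_zero,
        Finset.filter_eq_empty_iff]
      exact fun n _ h => h1 (((hs ⟨s, n⟩).1 h.2).1.2 h2)
    · rw [if_pos ⟨h1, h2⟩, if_neg (fun h => h1 h.1), add_zero]
      refine (Finset.card_le_card ?_).trans (card_even_powerset h8).le
      intro n hn
      simp only [Finset.mem_filter] at hn ⊢
      exact ⟨hn.1, hn.2.1⟩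
  · have hcount : ∀ (P : Finset GolayPt → Prop) [DecidablePred P] (Q : ℕ → Bool),
        (∀ m ∈ weightMasks 8, (Q m = true ↔ P (setOfMask m))) → (O.filter P).card = (weightMasks 8).countP Q := by
      intro P _ Q h
      rw [← ncard_setOf_eq_countP (weightMasks 8) (weightMasks_nodup 8) (weightMasks_lt 8) P Q h,
        ← Set.ncard_coe_finset]
      refine congrArg Set.ncard (Set.ext fun s => ?_)
      simp only [Finset.coe_filter, Set.mem_setOf_eq, O, Set.Finite.mem_toFinset, mem_octads_iff]
    have c1 := hcount (fun s => (none : GolayPt) ∉ s ∧ (some 0 : GolayPt) ∉ s) (fun m => !m.testBit 23 && !m.testBit 0)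
      (fun m _ => by simp [mem_setOfMask, show ix (none : GolayPt) = 23 from rfl, show ix (some 0 : GolayPt) = 0 from rfl])
    have c2 := hcount (fun s => (none : GolayPt) ∈ s ∧ (some 0 : GolayPt) ∈ s) (fun m => m.testBit 23 && m.testBit 0)
      (fun m _ => by simp [mem_setOfMask, show ix (none : GolayPt) = 23 from rfl, show ix (some 0 : GolayPt) = 0 from rfl])
    have e1 : (weightMasks 8).countP (fun m => !m.testBit 23 && !m.testBit 0) = 330 := by decide +kernel
    have e2 : (weightMasks 8).countP (fun m => m.testBit 23 && m.testBit 0) = 77 := by decide +kernel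
    rw [e1] at c1
    rw [e2] at c2
    simp only [f, Finset.sum_add_distrib, ← Finset.sum_filter, Finset.sum_const, smul_eq_mul]
    rw [c1, c2]

theorem card_odds_orth : (minOdds.filter OrthU).card ≤ 45056 := by
  classical
  rw [minOdds, Finset.filter_image]
  refine Finset.card_image_le.trans ?_
  let C := (Set.toFinite codeSets).toFinset
  refine (Finset.card_le_card (t := (((Finset.univ : Finset GolayPt).erase none).erase (some 0)) ×ˢ
    C.filter (fun c => ((none : GolayPt) ∈ c ↔ (some 0 : GolayPt) ∉ c))) ?_).trans ?_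
  · intro x h
    obtain ⟨p, c⟩ := x
    obtain ⟨h0, h⟩ := Finset.mem_filter.1 h
    have hc := (Finset.mem_product.1 h0).2
    simp only [OrthU, shapeOdd] at h
    simp only [Finset.mem_product, Finset.mem_filter, Finset.mem_erase, Finset.mem_univ, and_true]
    by_cases h1 : (none : GolayPt) ∈ c <;> by_cases h2 : (some 0 : GolayPt) ∈ c <;>
      by_cases h3 : (none : GolayPt) = p <;> by_cases h4 : (some 0 : GolayPt) = p
    all_goals first
      | (subst h3; simp [h1, h2] at h; done)
      | (subst h4; simp [h1, h2] at h; done)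
      | (simp [h1, h2, h3, h4] at h; done)
      | exact ⟨⟨Ne.symm h4, Ne.symm h3⟩, hc, by simp [h1, h2]⟩
  · rw [Finset.card_product, Finset.card_erase_of_mem (Finset.mem_erase.2 ⟨by simp, Finset.mem_univ _⟩),
      Finset.card_erase_of_mem (Finset.mem_univ _), Finset.card_univ, card_GolayPt]
    have h := ncard_setOf_eq_countP codeMasks codeMasks_nodup codeMasks_lt
      (fun c => ((none : GolayPt) ∈ c ↔ (some 0 : GolayPt) ∉ c)) (fun m => m.testBit 23 != m.testBit 0)
      (fun m _ => by
        simp only [mem_setOfMask, show ix (none : GolayPt) = 23 from rfl, show ix (some 0 : GolayPt) = 0 from rfl]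
        cases m.testBit 23 <;> cases m.testBit 0 <;> simp)
    have e : codeMasks.countP (fun m => m.testBit 23 != m.testBit 0) = 2048 := by decide +kernel
    rw [e] at h
    have e2 : (C.filter (fun c => ((none : GolayPt) ∈ c ↔ (some 0 : GolayPt) ∉ c))).card = 2048 := by
      rw [← h, ← Set.ncard_coe_finset]
      refine congrArg Set.ncard (Set.ext fun s => ?_)
      simp only [Finset.coe_filter, Set.mem_setOf_eq, C, Set.Finite.mem_toFinset, mem_codeSets_iff]
    rw [e2]

/-- The shortest vectors orthogonal to the standard one form one orbit of its stabiliser. -/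
theorem co2_orbit_eq : MulAction.orbit co2Sub Cfsg.Spor.leechU' =
    {x : leechLattice | sqNorm (x : GolayPt → ℤ) = 32 ∧ dotInt (Cfsg.Spor.leechU : GolayPt → ℤ) x = 0} := by
  classical
  have hfin : {x : leechLattice | sqNorm (x : GolayPt → ℤ) = 32 ∧
      dotInt (Cfsg.Spor.leechU : GolayPt → ℤ) x = 0}.Finite :=
    (Set.finite_of_ncard_ne_zero (s := {x : leechLattice | sqNorm (x : GolayPt → ℤ) = 32})
      (by rw [ncard_minL]; norm_num)).subset fun x hx => hx.1
  refine Set.eq_of_subset_of_ncard_le ?_ ?_ hfin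
  · rintro _ ⟨⟨g, hg⟩, rfl⟩
    refine ⟨by show sqNorm ((g • Cfsg.Spor.leechU' : leechLattice) : GolayPt → ℤ) = 32; rw [Co0_sqNorm, sqNorm_leechU'], ?_⟩
    show dotInt _ ((g • Cfsg.Spor.leechU' : leechLattice) : GolayPt → ℤ) = 0
    rw [← mem_co2Sub.1 hg, dot_smul, dot_leechU, leechU'_val]
    rfl
  · rw [ncard_co2_orbit, ← Set.ncard_image_of_injective _ (Subtype.val_injective (p := fun a => a ∈ leechLattice))]
    have h1 := card_fours_orth
    have h2 := card_twos_orth
    have h3 := card_odds_orth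
    refine le_trans ?_ (le_trans ((Finset.card_union_le _ _).trans (Nat.add_le_add ((Finset.card_union_le _ _).trans
      (Nat.add_le_add h1 h2)) h3)) (by norm_num : 926 + 47168 + 45056 ≤ 93150))
    rw [← Set.ncard_coe_finset]
    refine Set.ncard_le_ncard ?_ (Finset.finite_toSet _)
    rintro _ ⟨x, ⟨hn, hd⟩, rfl⟩
    have ho : OrthU (x : GolayPt → ℤ) := by rw [dot_leechU] at hd; show _ + _ = 0; omega
    have hm : (x : GolayPt → ℤ) ∈ ((minFours ∪ minTwos ∪ minOdds : Finset _) : Set (GolayPt → ℤ)) := by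
      rw [← minSet_eq]; exact ⟨x.2, hn⟩
    simp only [Finset.coe_union, Set.mem_union, Finset.mem_coe] at hm ⊢
    rcases hm with (hm | hm) | hm
    · exact Or.inl (Or.inl (Finset.mem_filter.2 ⟨hm, ho⟩))
    · exact Or.inl (Or.inr (Finset.mem_filter.2 ⟨hm, ho⟩))
    · exact Or.inr (Finset.mem_filter.2 ⟨hm, ho⟩)

theorem exists_smul_orth_pair {v w w' : leechLattice} (hv : sqNorm (v : GolayPt → ℤ) = 32)
    (hw : sqNorm (w : GolayPt → ℤ) = 32) (hw' : sqNorm (w' : GolayPt → ℤ) = 32)
    (hd : dotInt (v : GolayPt → ℤ) w = 0) (hd' : dotInt (v : GolayPt → ℤ) w' = 0) :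
    ∃ g : Co0, g • v = v ∧ g • w = w' := by
  obtain ⟨a, ha⟩ := exists_smul_min hv
  obtain ⟨b, hb⟩ := exists_smul_min sqNorm_leechU
  have hc : (b⁻¹ * a) • v = Cfsg.Spor.leechU := by rw [mul_smul, ha, ← hb, inv_smul_smul]
  set c := b⁻¹ * a
  have mk : ∀ y : leechLattice, sqNorm (y : GolayPt → ℤ) = 32 → dotInt (v : GolayPt → ℤ) y = 0 →
      ∃ k : co2Sub, k • Cfsg.Spor.leechU' = c • y := fun y hy hy' => by
    have h : c • y ∈ MulAction.orbit co2Sub Cfsg.Spor.leechU' := by
      rw [co2_orbit_eq]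
      exact ⟨by rw [Co0_sqNorm, hy], by rw [← hc, dot_smul, hy']⟩
    exact h
  obtain ⟨⟨k, hk⟩, ek⟩ := mk w hw hd
  obtain ⟨⟨k', hk'⟩, ek'⟩ := mk w' hw' hd'
  refine ⟨c⁻¹ * (k' * k⁻¹) * c, ?_, ?_⟩
  · rw [mul_smul, hc, mul_smul, mul_smul, show k⁻¹ • Cfsg.Spor.leechU = Cfsg.Spor.leechU from co2Sub.inv_mem hk,
      show k' • Cfsg.Spor.leechU = Cfsg.Spor.leechU from hk', ← hc, inv_smul_smul]
  · have ek2 : c • w = k • Cfsg.Spor.leechU' := ek.symm
    rw [mul_smul, ek2, mul_smul, mul_smul, inv_smul_smul,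
      show k' • Cfsg.Spor.leechU' = c • w' from ek', inv_smul_smul]

end CfsgLib.Spor
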