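import Cfsg.Agent.Lib.SporLeech
import Cfsg.Prelude.Def_Spor_Conway

/-!
A faithful representation of `Co2` in dimension 23 over the field with 13 elements.
-/

set_option autoImplicit false

namespace CfsgLib.Spor.CoMod
open Cfsg CfsgLib.Spor

local instance fact13 : Fact (Nat.Prime 13) := ⟨by norm_num⟩

abbrev W13 := GolayPt → ZMod 13

/-- Reduction of the lattice modulo 13. -/
def red : leechLattice →+ W13 where
  toFun x := fun p => ((x : GolayPt → ℤ) p : ZMod 13)
  map_zero' := by funext p; simp
  map_add' x y := by funext p; simp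

theorem eight_mem (a : GolayPt → ℤ) : (fun p => 8 * a p) ∈ leechLattice := by
  rw [mem_leech, isLeech_iff]
  refine ⟨0, fun i => ?_, ?_, fun k => ?_⟩
  · exact (Int.modEq_zero_iff_dvd).2 ⟨4 * a i, by ring⟩
  · rw [← Finset.mul_sum]; exact (Int.modEq_zero_iff_dvd).2 ⟨∑ i, a i, by ring⟩
  · by_cases hk : 4 ∣ k
    · refine ⟨1, one_mem_golayCode, ?_⟩
      ext i
      simp only [mem_support₂, Pi.one_apply, ne_eq, one_ne_zero, not_false_iff, Finset.mem_filter, Finset.mem_univ,
        true_and, true_iff]
      exact (Int.modEq_zero_iff_dvd.2 ⟨2 * a i, by ring⟩).trans (Int.modEq_zero_iff_dvd.2 hk).symm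
    · refine ⟨0, golayCode.zero_mem, ?_⟩
      ext i
      simp only [mem_support₂, Pi.zero_apply, ne_eq, not_true, Finset.mem_filter, Finset.mem_univ, true_and,
        false_iff]
      intro h
      exact hk (Int.modEq_zero_iff_dvd.1 (h.symm.trans (Int.modEq_zero_iff_dvd.2 ⟨2 * a i, by ring⟩)))

/-- Eight times an integer vector, in the lattice. -/
def eight (a : GolayPt → ℤ) : leechLattice := ⟨fun p => 8 * a p, eight_mem a⟩

theorem red_surjective : Function.Surjective red := fun w =>
  ⟨eight fun p => 5 * ((w p).val : ℤ), funext fun p => by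
    show ((8 * (5 * ((w p).val : ℤ)) : ℤ) : ZMod 13) = w p
    push_cast
    rw [ZMod.natCast_zmod_val, show (8 : ZMod 13) * (5 * w p) = (8 * 5) * w p by ring,
      show (8 : ZMod 13) * 5 = 1 from rfl, one_mul]⟩

theorem exists_div {x y : leechLattice} (h : red x = red y) : ∃ z : leechLattice, x - y = 13 • z := by
  have hd : ∀ p, (13 : ℤ) ∣ ((x - y : leechLattice) : GolayPt → ℤ) p := fun p => by
    have := congrFun h p
    rw [AddSubgroup.coe_sub, Pi.sub_apply]
    exact (ZMod.intCast_eq_intCast_iff_dvd_sub _ _ 13).1 this.symm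
  choose f hf using hd
  refine ⟨5 • (x - y) - 8 • eight f, Subtype.ext (funext fun p => ?_)⟩
  have := hf p
  rw [AddSubgroup.coe_sub, Pi.sub_apply] at this
  simp only [AddSubmonoidClass.coe_nsmul, AddSubgroupClass.coe_sub, Pi.smul_apply, Pi.sub_apply]
  rw [this]
  show _ = (13 : ℕ) • ((5 : ℕ) • (13 * f p) - (8 : ℕ) • (8 * f p))
  simp only [nsmul_eq_mul]
  push_cast
  ring

/-- The automorphisms fixing the shortest vector. -/
abbrev K2 : Type := Cfsg.Spor.Co2

theorem K2_add (g : K2) (x y : leechLattice) : (g : Equiv.Perm leechLattice) (x + y) =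
    (g : Equiv.Perm leechLattice) x + (g : Equiv.Perm leechLattice) y := g.2.1.1 x y

theorem K2_norm (g : K2) (x : leechLattice) :
    sqNorm (((g : Equiv.Perm leechLattice) x : leechLattice) : GolayPt → ℤ) = sqNorm (x : GolayPt → ℤ) := g.2.1.2 x

theorem K2_fix (g : K2) : (g : Equiv.Perm leechLattice) Cfsg.Spor.leechU = Cfsg.Spor.leechU := g.2.2

/-- The additive map of an automorphism. -/
def addHom (g : K2) : leechLattice →+ leechLattice := AddMonoidHom.mk' (fun x => (g : Equiv.Perm leechLattice) x) (K2_add g)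

theorem K2_dot (g : K2) (x y : leechLattice) :
    dotInt ((addHom g x : leechLattice) : GolayPt → ℤ) (addHom g y : leechLattice) =
      dotInt (x : GolayPt → ℤ) (y : GolayPt → ℤ) := by
  have h := K2_norm g (x + y)
  change sqNorm ((addHom g (x + y) : leechLattice) : GolayPt → ℤ) = _ at h
  rw [map_add, AddSubgroup.coe_add, AddSubgroup.coe_add, sqNorm_add, sqNorm_add] at h
  have h1 : sqNorm ((addHom g x : leechLattice) : GolayPt → ℤ) = _ := K2_norm g x
  have h2 : sqNorm ((addHom g y : leechLattice) : GolayPt → ℤ) = _ := K2_norm g y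
  omega

/-- The induced map modulo 13. -/
noncomputable def barFun (g : K2) (w : W13) : W13 := red (addHom g (Function.surjInv red_surjective w))

theorem barFun_red (g : K2) (x : leechLattice) : barFun g (red x) = red (addHom g x) := by
  obtain ⟨z, hz⟩ := exists_div (Function.surjInv_eq red_surjective (red x))
  rw [barFun, ← sub_eq_zero, ← map_sub, ← map_sub, hz, map_nsmul, map_nsmul]
  funext p
  show (13 : ℕ) • (red (addHom g z)) p = 0
  rw [nsmul_eq_mul, show ((13 : ℕ) : ZMod 13) = 0 from ZMod.natCast_self 13, zero_mul]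

/-- The induced linear map. -/
noncomputable def bar (g : K2) : W13 →ₗ[ZMod 13] W13 :=
  (AddMonoidHom.mk' (barFun g) fun a b => by
    obtain ⟨x, rfl⟩ := red_surjective a
    obtain ⟨y, rfl⟩ := red_surjective b
    rw [← map_add, barFun_red, barFun_red, barFun_red, map_add, map_add]).toZModLinearMap 13

theorem bar_red (g : K2) (x : leechLattice) : bar g (red x) = red (addHom g x) := barFun_red g x

/-- The functional of the shortest vector. -/
def lam : W13 →ₗ[ZMod 13] ZMod 13 :=
  LinearMap.proj (R := ZMod 13) (φ := fun _ : GolayPt => ZMod 13) none +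
    LinearMap.proj (R := ZMod 13) (φ := fun _ : GolayPt => ZMod 13) (some 0)

theorem lam_red (x : leechLattice) :
    lam (red x) * 4 = ((dotInt (Cfsg.Spor.leechU : GolayPt → ℤ) (x : GolayPt → ℤ) : ℤ) : ZMod 13) := by
  have h : ∀ p, Cfsg.Spor.vecU p * (x : GolayPt → ℤ) p =
      (if p = none then 4 * (x : GolayPt → ℤ) none else 0) +
        (if p = some 0 then 4 * (x : GolayPt → ℤ) (some 0) else 0) := fun p => by
    by_cases h1 : p = none
    · subst h1; simp [Cfsg.Spor.vecU]
    · by_cases h2 : p = some 0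
      · subst h2; simp [Cfsg.Spor.vecU]
      · simp [Cfsg.Spor.vecU, h1, h2]
  have e : dotInt (Cfsg.Spor.leechU : GolayPt → ℤ) (x : GolayPt → ℤ) =
      4 * ((x : GolayPt → ℤ) none + (x : GolayPt → ℤ) (some 0)) := by
    show ∑ p, Cfsg.Spor.vecU p * (x : GolayPt → ℤ) p = _
    simp only [h, Finset.sum_add_distrib, Finset.sum_ite_eq', Finset.mem_univ, if_true]
    ring
  rw [e]
  show ((((x : GolayPt → ℤ) none : ℤ) : ZMod 13) + (((x : GolayPt → ℤ) (some 0) : ℤ) : ZMod 13)) * 4 = _
  push_cast
  ring

theorem lam_bar (g : K2) (w : W13) : lam (bar g w) = lam w := by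
  obtain ⟨x, rfl⟩ := red_surjective w
  have h : lam (bar g (red x)) * 4 = lam (red x) * 4 := by
    rw [bar_red, lam_red, lam_red, ← K2_dot g Cfsg.Spor.leechU x, show addHom g Cfsg.Spor.leechU = _ from K2_fix g]
  exact mul_right_cancel₀ (show (4 : ZMod 13) ≠ 0 by decide) h

/-- The hyperplane orthogonal to the shortest vector. -/
abbrev Hyp : Submodule (ZMod 13) W13 := lam.ker

/-- The representation on the hyperplane. -/
noncomputable def rep : K2 →* Module.End (ZMod 13) Hyp where
  toFun g := (bar g).restrict fun w hw => by rw [LinearMap.mem_ker, lam_bar]; exact hw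
  map_one' := by
    refine LinearMap.ext fun w => Subtype.ext ?_
    obtain ⟨x, hx⟩ := red_surjective (w : W13)
    show bar 1 (w : W13) = w
    rw [← hx, bar_red]; rfl
  map_mul' g h := by
    refine LinearMap.ext fun w => Subtype.ext ?_
    obtain ⟨x, hx⟩ := red_surjective (w : W13)
    show bar (g * h) (w : W13) = bar g (bar h (w : W13))
    rw [← hx, bar_red, bar_red, bar_red]; rfl

theorem sqNorm_sub_le (a b : GolayPt → ℤ) : sqNorm (a - b) ≤ 2 * sqNorm a + 2 * sqNorm b := by
  simp only [sqNorm, Finset.mul_sum, ← Finset.sum_add_distrib, Pi.sub_apply]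
  exact Finset.sum_le_sum fun i _ => by nlinarith [sq_nonneg (a i + b i)]

theorem rep_injective : Function.Injective rep := by
  refine (injective_iff_map_eq_one rep).2 fun g hg => ?_
  have hU : bar g (red Cfsg.Spor.leechU) = red Cfsg.Spor.leechU := by
    rw [bar_red, show addHom g Cfsg.Spor.leechU = Cfsg.Spor.leechU from K2_fix g]
  have hlU : lam (red Cfsg.Spor.leechU) = 8 := by
    show ((Cfsg.Spor.vecU none : ℤ) : ZMod 13) + ((Cfsg.Spor.vecU (some 0) : ℤ) : ZMod 13) = 8
    decide
  have hid : ∀ w, bar g w = w := by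
    intro w
    have hm : w - (lam w * 5) • red Cfsg.Spor.leechU ∈ Hyp := by
      rw [LinearMap.mem_ker, map_sub, map_smul, hlU, smul_eq_mul, mul_assoc,
        show (5 : ZMod 13) * 8 = 1 from rfl, mul_one, sub_self]
    have h : bar g (w - (lam w * 5) • red Cfsg.Spor.leechU) = w - (lam w * 5) • red Cfsg.Spor.leechU :=
      congrArg Subtype.val (LinearMap.congr_fun hg ⟨_, hm⟩)
    rw [map_sub, map_smul, hU] at h
    exact sub_left_injective h
  have hsmall : ∀ x : leechLattice, sqNorm (x : GolayPt → ℤ) < 1352 → addHom g x = x := by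
    intro x hx
    obtain ⟨z, hz⟩ := exists_div (x := addHom g x) (y := x) (by rw [← bar_red, hid])
    by_contra hne
    have hz0 : (z : GolayPt → ℤ) ≠ 0 := fun e => hne (sub_eq_zero.1 (by
      rw [hz, show z = 0 from Subtype.ext e, smul_zero]))
    have hm := leech_min z.2 hz0
    have hn := sqNorm_sub_le ((addHom g x : leechLattice) : GolayPt → ℤ) (x : GolayPt → ℤ)
    rw [show sqNorm ((addHom g x : leechLattice) : GolayPt → ℤ) = _ from K2_norm g x,
      ← AddSubgroup.coe_sub, hz] at hn
    have e : sqNorm (((13 : ℕ) • z : leechLattice) : GolayPt → ℤ) = 169 * sqNorm (z : GolayPt → ℤ) := by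
      simp only [sqNorm, AddSubmonoidClass.coe_nsmul, Pi.smul_apply, nsmul_eq_mul, Finset.mul_sum]
      exact Finset.sum_congr rfl fun i _ => by push_cast; ring
    omega
  have he8 : ∀ a : GolayPt → ℤ, addHom g (eight a) = eight a := by
    intro a
    have hsum : eight a = ∑ p, (a p) • eight (Pi.single p 1) := by
      refine Subtype.ext (funext fun q => ?_)
      rw [AddSubgroup.val_finsetSum, Finset.sum_apply, Finset.sum_eq_single q]
      · show 8 * a q = a q * (8 * Pi.single (M := fun _ => ℤ) q (1 : ℤ) q)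
        rw [Pi.single_eq_same]; ring
      · intro b _ hb
        show a b * (8 * Pi.single (M := fun _ => ℤ) b (1 : ℤ) q) = 0
        rw [Pi.single_eq_of_ne hb.symm]; ring
      · intro h; exact absurd (Finset.mem_univ q) h
    have h1 : ∀ p, addHom g (eight (Pi.single p 1)) = eight (Pi.single p 1) := fun p => hsmall _ (by
      show ∑ q, (8 * Pi.single (M := fun _ => ℤ) p (1 : ℤ) q) ^ 2 < 1352
      rw [Finset.sum_eq_single p]
      · rw [Pi.single_eq_same]; norm_num
      · intro b _ hb; rw [Pi.single_eq_of_ne hb]; norm_num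
      · intro h; exact absurd (Finset.mem_univ p) h)
    rw [hsum, map_sum]
    exact Finset.sum_congr rfl fun p _ => by rw [map_zsmul, h1]
  refine Subtype.ext (Equiv.ext fun x => ?_)
  show addHom g x = x
  let a : GolayPt → ℤ := fun p => ((x : GolayPt → ℤ) p + 4) / 8
  have hr : addHom g (x - eight a) = x - eight a := hsmall _ (by
    show ∑ p, (((x : GolayPt → ℤ) p) - 8 * a p) ^ 2 < 1352
    calc ∑ p, (((x : GolayPt → ℤ) p) - 8 * a p) ^ 2 ≤ ∑ _p : GolayPt, (16 : ℤ) :=
          Finset.sum_le_sum fun p _ => by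
            have h1 : -4 ≤ (x : GolayPt → ℤ) p - 8 * a p := by simp only [a]; omega
            have h2 : (x : GolayPt → ℤ) p - 8 * a p ≤ 4 := by simp only [a]; omega
            nlinarith
      _ < 1352 := by rw [Finset.sum_const, Finset.card_univ, card_GolayPt]; norm_num)
  rw [map_sub, he8] at hr
  exact sub_left_injective hr

theorem finrank_Hyp : Module.finrank (ZMod 13) Hyp = 23 := by
  have h := lam.finrank_range_add_finrank_ker
  have hs : Function.Surjective lam := fun c => ⟨fun p => if p = none then c else 0, by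
    show (if (none : GolayPt) = none then c else 0) + (if (some 0 : GolayPt) = none then c else 0) = c
    simp⟩
  rw [LinearMap.range_eq_top.2 hs, finrank_top, Module.finrank_self, Module.finrank_pi, card_GolayPt] at h
  show Module.finrank (ZMod 13) lam.ker = 23; omega

theorem exists_rep23 : ∃ f : Cfsg.Spor.Co2 →* GL (Fin 23) (ZMod 13), Function.Injective f := by
  let b := Module.finBasisOfFinrankEq (ZMod 13) Hyp finrank_Hyp
  let e := (LinearMap.toMatrixAlgEquiv b).toMulEquiv
  refine ⟨((Units.map e.toMonoidHom).comp rep.toHomUnits), fun g h eq => rep_injective ?_⟩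
  exact e.injective (congrArg Units.val eq)

end CfsgLib.Spor.CoMod
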