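import Mathlib
import Cfsg.Prelude.Def_FischerSpaces
import Cfsg.Prelude.Def_Local
import Cfsg.Agent.Lib.SporFischer
import Cfsg.Agent.Lib.SporTriangle
import Cfsg.Agent.Lib.CoreLayer
import Cfsg.Agent.Lib.CoreSubnormal

/-!
Cores, components and primitivity in groups generated by a class of 3-transpositions.
-/

set_option autoImplicit false
set_option linter.unusedSectionVars false
set_option linter.style.haveILetI false
set_option linter.unusedSimpArgs false

namespace CfsgLib.Spor.Fischer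
open scoped commutatorElement

variable {G : Type*} [Group G] {D : Set G}

/-- The same members commute with both. -/
def VRel (D : Set G) (a c : G) : Prop := ∀ x ∈ D, Commute a x ↔ Commute c x

/-- The same other members commute with both. -/
def WRel (D : Set G) (a c : G) : Prop := ∀ x ∈ D, (x ≠ a ∧ Commute a x) ↔ (x ≠ c ∧ Commute c x)

theorem vrel_trivial_or_wrel_trivial {d v w : G} (hd : d ∈ D) (hv : v ∈ D) (hw : w ∈ D) (hV : VRel D d v)
    (hW : WRel D d w) (hvd : v ≠ d) (hwd : w ≠ d) : False := by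
  have hdv : Commute d v := ((hV d hd).1 (Commute.refl d)).symm
  have hdw : ¬ Commute d w := fun h => ((hW w hw).1 ⟨hwd, h⟩).1 rfl
  exact hdw ((hV w hw).2 ((hW v hv).1 ⟨hvd, hdv⟩).2.symm)

/-- A subgroup of a normal subgroup, normalised by it, is subnormal. -/
theorem isSubnormal_of_normalized {K N : Subgroup G} [hK : K.Normal] (hNK : N ≤ K)
    (h : ∀ k ∈ K, ∀ n ∈ N, k * n * k⁻¹ ∈ N) : N.IsSubnormal := by
  refine CfsgLib.Core.isSubnormal_of_le_normal hNK ?_
  have : (N.subgroupOf K).Normal := ⟨fun n hn k => h k k.2 n hn⟩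
  exact this.isSubnormal

theorem solvable_of_small_orders {X : Type*} [Group X] [Finite X] (h : ∀ x : X, x ^ 2 = 1 ∨ x ^ 3 = 1) :
    Group.IsSolvable X := by
  have hdiv : ∀ p : ℕ, p.Prime → p ∣ Nat.card X → p = 2 ∨ p = 3 := by
    intro p hp hdvd
    haveI := Fact.mk hp
    obtain ⟨x, hx⟩ := exists_prime_orderOf_dvd_card' p hdvd
    rcases h x with e | e
    · exact Or.inl ((Nat.prime_dvd_prime_iff_eq hp Nat.prime_two).1 (hx ▸ orderOf_dvd_of_pow_eq_one e))
    · exact Or.inr ((Nat.prime_dvd_prime_iff_eq hp Nat.prime_three).1 (hx ▸ orderOf_dvd_of_pow_eq_one e))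
  refine CfsgLib.Char.burnside_pq Nat.prime_two Nat.prime_three (Nat.card X) X
    ((Nat.card X).factorization 2) ((Nat.card X).factorization 3) rfl ?_
  have hc0 : Nat.card X ≠ 0 := Nat.card_pos.ne'
  conv_lhs => rw [← Nat.prod_factorization_pow_eq_self hc0]
  rw [Finsupp.prod_of_support_subset (s := {2, 3}) _ (fun p hp => ?_) _ (fun _ _ => pow_zero _),
    Finset.prod_pair (by norm_num)]
  rw [Nat.support_factorization, Nat.mem_primeFactors] at hp
  rcases hdiv p hp.1 hp.2.1 with rfl | rfl <;> simp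

/-- A perfect subgroup centralising each solvable subnormal subgroup centralises `d` when it moves `d` inside a solvable subgroup. -/
theorem centralizes_of_moves [Finite G] {E S : Subgroup G} (hperf : ⁅E, E⁆ = E)
    (hsolv : ∀ T : Subgroup G, T.IsSubnormal → Group.IsSolvable T → ⁅E, T⁆ = ⊥) [hE : E.Normal]
    (hS : Group.IsSolvable S) (hnorm : ∀ l ∈ E, ∀ s ∈ S, l * s * l⁻¹ ∈ S) {d : G}
    (hmove : ∀ l ∈ E, l * d * l⁻¹ * d⁻¹ ∈ S) : ∀ l ∈ E, Commute l d := by
  have hfE : ∀ l ∈ E, l * d * l⁻¹ * d⁻¹ ∈ E := fun l hl => by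
    rw [show l * d * l⁻¹ * d⁻¹ = l * (d * l⁻¹ * d⁻¹) by group]
    exact mul_mem hl (hE.conj_mem _ (inv_mem hl) d)
  have hsn : (S ⊓ E).IsSubnormal :=
    isSubnormal_of_normalized inf_le_right fun k hk n hn =>
      ⟨hnorm k hk n hn.1, E.mul_mem (E.mul_mem hk hn.2) (E.inv_mem hk)⟩
  have hsS : Group.IsSolvable ↥(S ⊓ E) := by
    haveI := hS
    exact Group.isSolvable_of_isSolvable_injective (Subgroup.inclusion_injective (inf_le_left : S ⊓ E ≤ S))
  have hc := Subgroup.commutator_eq_bot_iff_le_centralizer.1 (hsolv _ hsn hsS)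
  let f : G → G := fun l => l * d * l⁻¹ * d⁻¹
  have hcomm : ∀ l ∈ E, ∀ m ∈ E, Commute l (f m) := fun l hl m hm =>
    (Subgroup.mem_centralizer_iff.1 (hc hl) _ ⟨hmove m hm, hfE m hm⟩).symm
  have hmul : ∀ l ∈ E, ∀ m ∈ E, f (l * m) = f m * f l := by
    intro l hl m hm
    calc f (l * m) = l * f m * l⁻¹ * f l := by simp only [f]; group
      _ = f m * f l := by rw [(hcomm l hl m hm).eq, mul_inv_cancel_right]
  let H : Subgroup G :=
    { carrier := {l | l ∈ E ∧ f l = 1}
      one_mem' := ⟨one_mem _, by simp [f]⟩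
      mul_mem' := fun {a b} ha hb => ⟨mul_mem ha.1 hb.1, by rw [hmul a ha.1 b hb.1, ha.2, hb.2, one_mul]⟩
      inv_mem' := fun {a} ha => ⟨inv_mem ha.1, by
        have := hmul a ha.1 a⁻¹ (inv_mem ha.1)
        rw [mul_inv_cancel, ha.2, mul_one] at this
        rw [← this]; simp [f]⟩ }
  have hle : E ≤ H := by
    conv_lhs => rw [← hperf]
    rw [Subgroup.commutator_le]
    intro l hl m hm
    refine ⟨?_, ?_⟩
    · rw [commutatorElement_def]
      exact mul_mem (mul_mem (mul_mem hl hm) (inv_mem hl)) (inv_mem hm)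
    · have hinv : ∀ x ∈ E, f x⁻¹ = (f x)⁻¹ := fun x hx => by
        have := hmul x hx x⁻¹ (inv_mem hx)
        rw [mul_inv_cancel, show f 1 = 1 by simp [f]] at this
        exact eq_inv_of_mul_eq_one_left this.symm
      rw [commutatorElement_def, hmul _ (mul_mem (mul_mem hl hm) (inv_mem hl)) _ (inv_mem hm),
        hmul _ (mul_mem hl hm) _ (inv_mem hl), hmul l hl m hm, hinv l hl, hinv m hm]
      have hc2 : Commute (f l) (f m) := hcomm _ (hfE l hl) m hm
      rw [hc2.symm.eq, inv_mul_cancel_left, inv_mul_cancel]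
  intro l hl
  exact mul_inv_eq_iff_eq_mul.1 (mul_inv_eq_one.1 (hle hl).2)

/-- A set of pairwise noncommuting transpositions invariant under itself spans a 3-group of products. -/
theorem isPGroup_products [Finite G] (hS : Cfsg.IsThreeTranspositionSet D) {T : Set G} (hT : T ⊆ D) {d : G}
    (hd : d ∈ T) (hinv : ∀ x ∈ T, ∀ y ∈ T, x * y * x⁻¹ ∈ T)
    (hnc : ∀ x ∈ T, ∀ y ∈ T, x ≠ y → ¬ Commute x y) :
    IsPGroup 3 (Subgroup.closure {z : G | ∃ x ∈ T, ∃ y ∈ T, z = x * y}) := by
  haveI : Fact (Nat.Prime 3) := ⟨Nat.prime_three⟩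
  set M := Subgroup.closure T with hM
  have hstab : ∀ g ∈ M, ∀ y ∈ T, g * y * g⁻¹ ∈ T := by
    have hle : M ≤ Subgroup.normalizer T :=
      (Subgroup.closure_le _).2 fun x hx => Subgroup.mem_normalizer_fintype (hinv x hx)
    exact fun g hg y hy => (Subgroup.mem_set_normalizer_iff.1 (hle hg) y).1 hy
  let d' : M := ⟨d, Subgroup.subset_closure hd⟩
  have hd' : orderOf d' = 2 := by rw [← Subgroup.orderOf_coe]; exact hS.1 d (hT hd)
  have hsub : ∀ a : M, a ∈ conjugatesOf d' → (a : G) ∈ T := fun a ha => by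
    obtain ⟨g, rfl⟩ := isConj_iff.1 ha
    exact hstab g g.2 d hd
  have hall : ∀ x ∈ T, ∃ x' : M, (x' : G) = x ∧ x' ∈ conjugatesOf d' := by
    intro x hx
    refine ⟨⟨x, Subgroup.subset_closure hx⟩, rfl, ?_⟩
    by_cases hxd : x = d
    · subst hxd; exact mem_conjugatesOf_self
    · refine isConj_iff.2 ⟨d' * ⟨x, Subgroup.subset_closure hx⟩, Subtype.ext ?_⟩
      have hb := Trans.braid hS (hT hd) (hT hx) (hnc d hd x hx (Ne.symm hxd))
      calc d * x * d * (d * x)⁻¹ = (d * x * d) * (x * d) := by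
            rw [mul_inv_rev, Trans.inv_eq hS (hT hd), Trans.inv_eq hS (hT hx)]
        _ = x * d * (x * x) * d := by rw [hb]; simp only [mul_assoc]
        _ = x := by rw [Trans.mul_self hS (hT hx), mul_one, mul_assoc, Trans.mul_self hS (hT hd), mul_one]
  have hmem := mul_mem_pCore_of_products (G := M) Nat.prime_three (by norm_num) hd' (fun a ha b hb => by
    by_cases hab : a = b
    · exact ⟨0, by rw [hab, pow_zero, orderOf_eq_one_iff]; exact Subtype.ext (Trans.mul_self hS (hT (hsub b hb)))⟩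
    · refine ⟨1, ?_⟩
      rw [pow_one, ← Subgroup.orderOf_coe, Subgroup.coe_mul]
      have hne : (a : G) ≠ b := fun e => hab (Subtype.ext e)
      refine orderOf_eq_prime (Trans.pow_three hS (hT (hsub a ha)) (hT (hsub b hb))
        (hnc _ (hsub a ha) _ (hsub b hb) hne)) fun e => hne ?_
      rw [eq_inv_of_mul_eq_one_left e, Trans.inv_eq hS (hT (hsub b hb))])
  refine IsPGroup.to_le ((CfsgLib.Core.isPGroup_pCore (G := M) 3).map M.subtype) ?_
  rw [Subgroup.closure_le]
  rintro _ ⟨x, hx, y, hy, rfl⟩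
  obtain ⟨x', rfl, hx'⟩ := hall x hx
  obtain ⟨y', rfl, hy'⟩ := hall y hy
  exact ⟨x' * y', hmem x' hx' y' hy', rfl⟩

section cls
variable [Finite G] (hD : Cfsg.IsThreeTranspositionClass D) (hD2 : ∃ a ∈ D, ∃ b ∈ D, a ≠ b)

include hD in
theorem conj_mem_inv {g x : G} (hx : x ∈ D) : ∃ y ∈ D, g * y * g⁻¹ = x :=
  ⟨g⁻¹ * x * g⁻¹⁻¹, conj_mem hD g⁻¹ hx, by group⟩

include hD in
theorem vrel_conj (g : G) {a c : G} (h : VRel D a c) : VRel D (g * a * g⁻¹) (g * c * g⁻¹) := by
  intro x hx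
  obtain ⟨y, hy, rfl⟩ := conj_mem_inv hD (g := g) hx
  rw [commute_conj_iff, commute_conj_iff]
  exact h y hy

include hD in
theorem wrel_conj (g : G) {a c : G} (h : WRel D a c) : WRel D (g * a * g⁻¹) (g * c * g⁻¹) := by
  intro x hx
  obtain ⟨y, hy, rfl⟩ := conj_mem_inv hD (g := g) hx
  rw [commute_conj_iff, commute_conj_iff, Ne, Ne, mul_left_inj, mul_right_inj, mul_left_inj, mul_right_inj]
  exact h y hy

include hD in
theorem two_ne_bot_of_noncomm {a : G} (ha : a ∈ D) (h : ∀ b ∈ D, Commute a b) : ∀ x ∈ D, x = a := by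
  intro x hx
  obtain ⟨g, rfl⟩ := exists_conj hD ha hx
  refine conj_of_commute ?_
  have hle : Subgroup.closure D ≤ Subgroup.centralizer ({a} : Set G) :=
    (Subgroup.closure_le _).2 fun b hb => Subgroup.mem_centralizer_singleton_iff.2 (h b hb).symm.eq
  rw [hD.2.2] at hle
  exact Subgroup.mem_centralizer_singleton_iff.1 (hle (Subgroup.mem_top g))

include hD hD2

theorem exists_noncomm_of_two {a : G} (ha : a ∈ D) : ∃ b ∈ D, ¬ Commute a b := by
  by_contra h
  push Not at h
  obtain ⟨x, hx, y, hy, hxy⟩ := hD2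
  exact hxy ((two_ne_bot_of_noncomm hD ha h x hx).trans (two_ne_bot_of_noncomm hD ha h y hy).symm)

theorem vrel_iff {d v : G} (hd : d ∈ D) (hv : v ∈ D) : VRel D d v ↔ d⁻¹ * v ∈ Cfsg.pCore 2 G := by
  haveI : Fact (Nat.Prime 2) := ⟨Nat.prime_two⟩
  constructor
  · intro hdv
    obtain ⟨K, hK, hKmem, hKact, -⟩ := exists_kernel hD (VRel D) (fun _ _ _ _ => Iff.rfl)
      (fun _ _ _ _ e x hx => (e x hx).symm) (fun _ _ _ _ _ _ e e' x hx => (e x hx).trans (e' x hx))
      (fun g _ _ _ _ e => vrel_conj hD g e) (fun _ _ _ _ x hx e _ hax => (e x hx).1 hax)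
    let B : Set G := {x | x ∈ D ∧ VRel D d x}
    have hBc : ∀ x ∈ B, ∀ y ∈ B, Commute x y := fun x hx y hy => by
      refine (hx.2 y hy.1).1 ?_
      exact ((hy.2 d hd).1 (Commute.refl d)).symm
    let N := Subgroup.closure B ⊓ K
    have hN : N.IsSubnormal := by
      haveI := hK
      refine isSubnormal_of_normalized inf_le_right fun k hk n hn => ⟨?_, K.mul_mem (K.mul_mem hk hn.2) (K.inv_mem hk)⟩
      have hle : K ≤ Subgroup.normalizer B := fun k hk => Subgroup.mem_normalizer_fintype fun x hx =>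
        ⟨conj_mem hD k hx.1, fun y hy => (hx.2 y hy).trans (hKact k hk x hx.1 y hy)⟩
      have hm : (Subgroup.closure B).map (MulAut.conj k).toMonoidHom ≤ Subgroup.closure B := by
        rw [MonoidHom.map_closure, Subgroup.closure_le]
        rintro _ ⟨x, hx, rfl⟩
        exact Subgroup.subset_closure ((Subgroup.mem_set_normalizer_iff.1 (hle hk) x).1 hx)
      exact hm ⟨n, hn.1, rfl⟩
    have hNp : IsPGroup 2 N :=
      (Trans.isPGroup_closure_commuting hD.1 (fun x hx => hx.1) hBc).to_le inf_le_left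
    refine CfsgLib.Core.le_pCore_of_isSubnormal hN hNp ?_
    rw [inv_eq hD hd]
    exact ⟨mul_mem (Subgroup.subset_closure ⟨hd, fun _ _ => Iff.rfl⟩) (Subgroup.subset_closure ⟨hv, hdv⟩),
      hKmem d hd v hv hdv⟩
  · intro h
    rw [inv_eq hD hd] at h
    haveI := CfsgLib.Core.normal_pCore (G := G) 2
    have key : ∀ d ∈ D, ∀ v ∈ D, d * v ∈ Cfsg.pCore 2 G → ∀ e ∈ D, Commute d e → Commute v e := by
      intro d hd v hv h e he hde
      by_contra hve
      let π := QuotientGroup.mk' (Cfsg.pCore 2 G)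
      have hπ : π v = π d :=
        (QuotientGroup.eq.2 (show d⁻¹ * v ∈ Cfsg.pCore 2 G by rw [inv_eq hD hd]; exact h)).symm
      have h2 : π (v * e) ^ 2 = 1 := by
        rw [map_mul, hπ, ← map_mul, ← map_pow, (commute_iff hD hd he).1 hde, map_one]
      have h3 : π (v * e) ^ 3 = 1 := by rw [← map_pow, pow_three hD hv he hve, map_one]
      have h1 : π (v * e) = 1 := by rwa [pow_succ, h2, one_mul] at h3
      obtain ⟨k, hk⟩ := CfsgLib.Core.isPGroup_pCore (G := G) 2 ⟨_, (QuotientGroup.eq_one_iff _).1 h1⟩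
      have hk' : (v * e) ^ (2 ^ k) = 1 := congrArg Subtype.val hk
      have hg : (v * e) ^ Nat.gcd (2 ^ k) 3 = 1 := pow_gcd_eq_one.2 ⟨hk', pow_three hD hv he hve⟩
      rw [Nat.Coprime.gcd_eq_one (Nat.Coprime.pow_left k (by norm_num)), pow_one] at hg
      exact hve ((commute_iff hD hv he).2 (by rw [hg, one_pow]))
    intro e he
    have h' : v * d ∈ Cfsg.pCore 2 G := by
      have := inv_mem h
      rwa [mul_inv_rev, inv_eq hD hd, inv_eq hD hv] at this
    exact ⟨key d hd v hv h e he, key v hv d hd h' e he⟩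

theorem vrel_exists_conj {d v : G} (hd : d ∈ D) (hv : v ∈ D) (h : VRel D d v) :
    ∃ g ∈ Cfsg.pCore 2 G, v = g * d * g⁻¹ := by
  haveI := CfsgLib.Core.normal_pCore (G := G) 2
  have hmem := (vrel_iff hD hD2 hd hv).1 h
  rw [inv_eq hD hd] at hmem
  obtain ⟨e, he, hde⟩ := exists_noncomm_of_two hD hD2 hd
  have hve : ¬ Commute v e := fun c => hde ((h e he).2 c)
  have hee := mul_self hD he
  have hdd := mul_self hD hd
  have hvv := mul_self hD hv
  refine ⟨e * (d * v) * e⁻¹, (inferInstance : (Cfsg.pCore 2 G).Normal).conj_mem _ hmem e, ?_⟩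
  rw [inv_eq hD he]
  symm
  calc e * (d * v) * e * d * (e * (d * v) * e)⁻¹ = e * d * v * (e * d * e) * v * d * e := by
        simp only [mul_inv_rev, inv_eq hD he, inv_eq hD hd, inv_eq hD hv, mul_assoc]
    _ = e * (d * v) * (d * e * d) * v * d * e := by rw [braid hD he hd fun c => hde c.symm]; simp only [mul_assoc]
    _ = e * (v * d) * (d * e * d) * v * d * e := by rw [((h d hd).1 (Commute.refl d)).symm.eq]
    _ = e * v * (d * d) * e * (d * v) * d * e := by simp only [mul_assoc]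
    _ = e * v * e * (v * d) * d * e := by rw [hdd, ((h d hd).1 (Commute.refl d)).symm.eq, mul_one]
    _ = e * v * e * v * (d * d) * e := by simp only [mul_assoc]
    _ = e * (v * e * v) * e := by rw [hdd, mul_one]; simp only [mul_assoc]
    _ = (e * e) * v * (e * e) := by rw [← braid hD he hv fun c => hve c.symm]; simp only [mul_assoc]
    _ = v := by rw [hee, one_mul, mul_one]

theorem vrel_of_conj {d g : G} (hd : d ∈ D) (hg : g ∈ Cfsg.pCore 2 G) : VRel D d (g * d * g⁻¹) := by
  haveI := CfsgLib.Core.normal_pCore (G := G) 2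
  refine (vrel_iff hD hD2 hd (conj_mem hD g hd)).2 ?_
  rw [show d⁻¹ * (g * d * g⁻¹) = d⁻¹ * g * d⁻¹⁻¹ * g⁻¹ by group]
  exact mul_mem ((inferInstance : (Cfsg.pCore 2 G).Normal).conj_mem g hg d⁻¹) (inv_mem hg)

omit hD2 in
theorem wrel_noncomm {d w : G} (hw : w ∈ D) (h : WRel D d w) (hwd : w ≠ d) : ¬ Commute d w :=
  fun c => ((h w hw).1 ⟨hwd, c⟩).1 rfl

theorem wrel_iff {d w : G} (hd : d ∈ D) (hw : w ∈ D) : WRel D d w ↔ d⁻¹ * w ∈ Cfsg.pCore 3 G := by
  haveI : Fact (Nat.Prime 3) := ⟨Nat.prime_three⟩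
  constructor
  · intro hdw
    obtain ⟨K, hK, hKmem, hKact, -⟩ := exists_kernel hD (WRel D) (fun _ _ _ _ => Iff.rfl)
      (fun _ _ _ _ e x hx => (e x hx).symm) (fun _ _ _ _ _ _ e e' x hx => (e x hx).trans (e' x hx))
      (fun g _ _ _ _ e => wrel_conj hD g e)
      (fun a _ c _ x hx e hne hax => ((e x hx).1 ⟨fun h => hne (h ▸ fun _ _ => Iff.rfl), hax⟩).2)
    let B : Set G := {x | x ∈ D ∧ WRel D d x}
    have hnc : ∀ x ∈ B, ∀ y ∈ B, x ≠ y → ¬ Commute x y := fun x hx y hy hxy =>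
      wrel_noncomm hD hy.1 (fun z hz => (hx.2 z hz).symm.trans (hy.2 z hz)) hxy.symm
    have hinv : ∀ x ∈ B, ∀ y ∈ B, x * y * x⁻¹ ∈ B := by
      intro x hx y hy
      refine ⟨conj_mem hD x hy.1, fun z hz => (hx.2 z hz).trans ?_⟩
      have := wrel_conj hD x (a := x) (c := y) (fun z hz => (hx.2 z hz).symm.trans (hy.2 z hz))
      rw [mul_inv_cancel_right] at this
      exact this z hz
    let P := Subgroup.closure {z : G | ∃ x ∈ B, ∃ y ∈ B, z = x * y}
    have hP : IsPGroup 3 P :=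
      isPGroup_products hD.1 (fun x hx => hx.1) (d := d) ⟨hd, fun _ _ => Iff.rfl⟩ hinv hnc
    have hPK : P ≤ K := (Subgroup.closure_le _).2 (by
      rintro _ ⟨x, hx, y, hy, rfl⟩
      exact hKmem x hx.1 y hy.1 fun z hz => (hx.2 z hz).symm.trans (hy.2 z hz))
    have hPn : P.IsSubnormal := by
      haveI := hK
      refine isSubnormal_of_normalized hPK fun k hk n hn => ?_
      have hm : P.map (MulAut.conj k).toMonoidHom ≤ P := by
        show (Subgroup.closure _).map _ ≤ _
        rw [MonoidHom.map_closure, Subgroup.closure_le]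
        rintro _ ⟨_, ⟨x, hx, y, hy, rfl⟩, rfl⟩
        refine Subgroup.subset_closure ⟨k * x * k⁻¹, ⟨conj_mem hD k hx.1, fun z hz => (hx.2 z hz).trans
          (hKact k hk x hx.1 z hz)⟩, k * y * k⁻¹, ⟨conj_mem hD k hy.1, fun z hz => (hy.2 z hz).trans
          (hKact k hk y hy.1 z hz)⟩, ?_⟩
        simp [mul_assoc]
      exact hm ⟨n, hn, rfl⟩
    rw [inv_eq hD hd]
    exact CfsgLib.Core.le_pCore_of_isSubnormal hPn hP
      (Subgroup.subset_closure ⟨d, ⟨hd, fun _ _ => Iff.rfl⟩, w, ⟨hw, hdw⟩, rfl⟩)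
  · intro h
    rw [inv_eq hD hd] at h
    haveI := CfsgLib.Core.normal_pCore (G := G) 3
    have hodd : ∀ u ∈ Cfsg.pCore 3 G, u * u = 1 → u = 1 := fun u hu h2 => by
      obtain ⟨k, hk⟩ := CfsgLib.Core.isPGroup_pCore (G := G) 3 ⟨u, hu⟩
      have hk' : u ^ (3 ^ k) = 1 := congrArg Subtype.val hk
      have := pow_gcd_eq_one.2 ⟨hk', (pow_two u).trans h2⟩
      rwa [Nat.Coprime.gcd_eq_one (Nat.Coprime.pow_left k (by norm_num)), pow_one] at this
    have key : ∀ d ∈ D, ∀ w ∈ D, d * w ∈ Cfsg.pCore 3 G → ∀ e ∈ D, e ≠ d → Commute d e →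
        e ≠ w ∧ Commute w e := by
      intro d hd w hw h e he hed hde
      constructor
      · intro hew
        apply hed
        have := hodd _ h (by rw [← pow_two]; exact (commute_iff hD hd hw).1 (hew ▸ hde))
        rw [hew, eq_inv_of_mul_eq_one_left this, inv_eq hD hw]
      · by_contra hwe
        let π := QuotientGroup.mk' (Cfsg.pCore 3 G)
        have hπ : π w = π d :=
          (QuotientGroup.eq.2 (show d⁻¹ * w ∈ Cfsg.pCore 3 G by rw [inv_eq hD hd]; exact h)).symm
        have h2 : π (w * e) ^ 2 = 1 := by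
          rw [map_mul, hπ, ← map_mul, ← map_pow, (commute_iff hD hd he).1 hde, map_one]
        have h3 : π (w * e) ^ 3 = 1 := by rw [← map_pow, pow_three hD hw he hwe, map_one]
        have h1 : π (d * e) = 1 := by
          rw [map_mul, ← hπ, ← map_mul]
          rwa [pow_succ, h2, one_mul] at h3
        have := hodd _ ((QuotientGroup.eq_one_iff _).1 h1) (by rw [← pow_two]; exact (commute_iff hD hd he).1 hde)
        apply hed
        rw [eq_inv_of_mul_eq_one_right this, inv_eq hD hd]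
    intro e he
    have h' : w * d ∈ Cfsg.pCore 3 G := by
      have := inv_mem h
      rwa [mul_inv_rev, inv_eq hD hd, inv_eq hD hw] at this
    exact ⟨fun x => key d hd w hw h e he x.1 x.2, fun x => key w hw d hd h' e he x.1 x.2⟩

theorem wrel_exists_conj {d w : G} (hd : d ∈ D) (hw : w ∈ D) (h : WRel D d w) :
    ∃ g ∈ Cfsg.pCore 3 G, w = g * d * g⁻¹ := by
  by_cases hwd : w = d
  · exact ⟨1, one_mem _, by rw [hwd, one_mul, inv_one, mul_one]⟩
  have hmem := (wrel_iff hD hD2 hd hw).1 h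
  rw [inv_eq hD hd] at hmem
  refine ⟨d * w, hmem, ?_⟩
  have hb := braid hD hd hw (wrel_noncomm hD hw h hwd)
  symm
  calc d * w * d * (d * w)⁻¹ = (d * w * d) * (w * d) := by
        rw [mul_inv_rev, inv_eq hD hd, inv_eq hD hw]
    _ = w * d * (w * w) * d := by rw [hb]; simp only [mul_assoc]
    _ = w := by rw [mul_self hD hw, mul_one, mul_assoc, mul_self hD hd, mul_one]

theorem wrel_of_conj {d g : G} (hd : d ∈ D) (hg : g ∈ Cfsg.pCore 3 G) : WRel D d (g * d * g⁻¹) := by
  haveI := CfsgLib.Core.normal_pCore (G := G) 3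
  refine (wrel_iff hD hD2 hd (conj_mem hD g hd)).2 ?_
  rw [show d⁻¹ * (g * d * g⁻¹) = d⁻¹ * g * d⁻¹⁻¹ * g⁻¹ by group]
  exact mul_mem ((inferInstance : (Cfsg.pCore 3 G).Normal).conj_mem g hg d⁻¹) (inv_mem hg)

omit hD2 in
theorem le_center_iff {N : Subgroup G} : N ≤ Subgroup.center G ↔ ∀ d ∈ D, ∀ g ∈ N, g * d * g⁻¹ = d := by
  constructor
  · intro h d _ g hg
    rw [← Subgroup.mem_center_iff.1 (h hg) d, mul_inv_cancel_right]
  · intro h g hg
    rw [Subgroup.mem_center_iff]
    intro x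
    have hle : Subgroup.closure D ≤ Subgroup.centralizer ({g} : Set G) :=
      (Subgroup.closure_le _).2 fun d hd => Subgroup.mem_centralizer_singleton_iff.2
        (mul_inv_eq_iff_eq_mul.1 (h d hd g hg)).symm
    rw [hD.2.2] at hle
    exact Subgroup.mem_centralizer_singleton_iff.1 (hle (Subgroup.mem_top x))

theorem exists_vrel_ne (h : ¬ Cfsg.pCore 2 G ≤ Subgroup.center G) {d : G} (hd : d ∈ D) :
    ∃ v ∈ D, v ≠ d ∧ VRel D d v := by
  rw [le_center_iff hD] at h
  push Not at h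
  obtain ⟨d0, hd0, g, hg, hne⟩ := h
  obtain ⟨u, rfl⟩ := exists_conj hD hd0 hd
  exact ⟨u * (g * d0 * g⁻¹) * u⁻¹, conj_mem hD u (conj_mem hD g hd0), by simpa using hne,
    vrel_conj hD u (vrel_of_conj hD hD2 hd0 hg)⟩

theorem exists_wrel_ne (h : ¬ Cfsg.pCore 3 G ≤ Subgroup.center G) {d : G} (hd : d ∈ D) :
    ∃ w ∈ D, w ≠ d ∧ WRel D d w := by
  rw [le_center_iff hD] at h
  push Not at h
  obtain ⟨d0, hd0, g, hg, hne⟩ := h
  obtain ⟨u, rfl⟩ := exists_conj hD hd0 hd
  exact ⟨u * (g * d0 * g⁻¹) * u⁻¹, conj_mem hD u (conj_mem hD g hd0), by simpa using hne,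
    wrel_conj hD u (wrel_of_conj hD hD2 hd0 hg)⟩

omit hD2 in
theorem pCore_le_center_of_large {p : ℕ} (hp : p.Prime) (hp3 : 3 < p) :
    Cfsg.pCore p G ≤ Subgroup.center G := by
  haveI := Fact.mk hp
  haveI := CfsgLib.Core.normal_pCore (G := G) p
  rw [le_center_iff hD]
  intro d hd g hg
  exact conj_of_commute (Trans.fixed_of_normalized hD.1 (fun u x hx => conj_mem hD u hx) hp hp3
    (CfsgLib.Core.isPGroup_pCore p) hd (fun x hx => (inferInstance : (Cfsg.pCore p G).Normal).conj_mem x hx d) hg).symm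

omit hD2 in
theorem centralizes_all_of {E : Subgroup G} (hperf : ⁅E, E⁆ = E)
    (hsolv : ∀ T : Subgroup G, T.IsSubnormal → Group.IsSolvable T → ⁅E, T⁆ = ⊥) [hE : E.Normal] {d : G} (hd : d ∈ D)
    (h : (∀ l ∈ E, Commute d (l * d * l⁻¹)) ∨ ∀ l ∈ E, l * d * l⁻¹ ≠ d → ¬ Commute d (l * d * l⁻¹)) :
    ∀ l ∈ E, Commute l d := by
  let T : Set G := {y | ∃ l ∈ E, y = l * d * l⁻¹}
  have hdT : d ∈ T := ⟨1, one_mem _, by group⟩
  have hTD : T ⊆ D := by rintro _ ⟨l, -, rfl⟩; exact conj_mem hD l hd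
  have hmv : ∀ {k : G}, k ∈ E → ∀ y ∈ T, k * y * k⁻¹ ∈ T := by
    rintro k hk _ ⟨l, hl, rfl⟩; exact ⟨k * l, mul_mem hk hl, by group⟩
  have hpair : ∀ {x y : G}, x ∈ T → y ∈ T → ∃ l ∈ E, ∃ m ∈ E, x = m * d * m⁻¹ ∧ y = m * (l * d * l⁻¹) * m⁻¹ := by
    rintro _ _ ⟨m, hm, rfl⟩ ⟨l, hl, rfl⟩
    exact ⟨m⁻¹ * l, mul_mem (inv_mem hm) hl, m, hm, rfl, by group⟩
  rcases h with h | h
  · have hc : ∀ x ∈ T, ∀ y ∈ T, Commute x y := fun x hx y hy => by
      obtain ⟨l, hl, m, -, rfl, rfl⟩ := hpair hx hy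
      exact commute_conj_iff.2 (h l hl)
    haveI := Subgroup.isMulCommutative_closure fun x hx y hy => (hc x hx y hy).eq
    refine centralizes_of_moves hperf hsolv (Group.isSolvable_of_comm fun x y : Subgroup.closure T => mul_comm' x y)
      (fun k hk s hs => ?_) fun l hl =>
        mul_mem (Subgroup.subset_closure ⟨l, hl, rfl⟩) (inv_mem (Subgroup.subset_closure hdT))
    have hm : (Subgroup.closure T).map (MulAut.conj k).toMonoidHom ≤ Subgroup.closure T := by
      rw [MonoidHom.map_closure, Subgroup.closure_le]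
      rintro _ ⟨x, hx, rfl⟩
      exact Subgroup.subset_closure (hmv hk x hx)
    exact hm ⟨s, hs, rfl⟩
  · have hnc : ∀ x ∈ T, ∀ y ∈ T, x ≠ y → ¬ Commute x y := fun x hx y hy hxy => by
      obtain ⟨l, hl, m, -, rfl, rfl⟩ := hpair hx hy
      exact fun c => h l hl (fun e => hxy (by rw [e])) (commute_conj_iff.1 c)
    have hinv : ∀ x ∈ T, ∀ y ∈ T, x * y * x⁻¹ ∈ T := by
      rintro _ ⟨m, hm, rfl⟩ _ ⟨l, hl, rfl⟩
      refine ⟨m * (d * (m⁻¹ * l) * d⁻¹), mul_mem hm (hE.conj_mem _ (mul_mem (inv_mem hm) hl) d), ?_⟩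
      group
    haveI : Fact (Nat.Prime 3) := ⟨Nat.prime_three⟩
    have hP := isPGroup_products hD.1 hTD hdT hinv hnc
    haveI := hP.isNilpotent
    refine centralizes_of_moves hperf hsolv (S := Subgroup.closure {z : G | ∃ x ∈ T, ∃ y ∈ T, z = x * y})
      inferInstance (fun k hk s hs => ?_) fun l hl => ?_
    · have hm : (Subgroup.closure {z : G | ∃ x ∈ T, ∃ y ∈ T, z = x * y}).map (MulAut.conj k).toMonoidHom ≤
          Subgroup.closure {z : G | ∃ x ∈ T, ∃ y ∈ T, z = x * y} := by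
        rw [MonoidHom.map_closure, Subgroup.closure_le]
        rintro _ ⟨_, ⟨x, hx, y, hy, rfl⟩, rfl⟩
        exact Subgroup.subset_closure ⟨_, hmv hk x hx, _, hmv hk y hy, by simp [mul_assoc]⟩
      exact hm ⟨s, hs, rfl⟩
    · rw [inv_eq hD hd]
      exact Subgroup.subset_closure ⟨_, ⟨l, hl, rfl⟩, d, hdT, rfl⟩

omit hD2 in
theorem eq_bot_of_centralizes {E : Subgroup G} (hperf : ⁅E, E⁆ = E) (h : ∀ d ∈ D, ∀ l ∈ E, Commute l d) :
    E = ⊥ := by
  have hle : E ≤ Subgroup.center G := (le_center_iff hD).2 fun d hd g hg => conj_of_commute (h d hd g hg)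
  rw [← hperf, Subgroup.commutator_eq_bot_iff_le_centralizer]
  exact hle.trans (Subgroup.center_le_centralizer _)

theorem layer_eq_bot_of_two (h : ¬ Cfsg.pCore 2 G ≤ Subgroup.center G) : Cfsg.layer G = ⊥ := by
  haveI : Fact (Nat.Prime 2) := ⟨Nat.prime_two⟩
  haveI := CfsgLib.Core.normal_layer (G := G)
  refine eq_bot_of_centralizes hD CfsgLib.Core.layer_perfect fun d hd => ?_
  refine centralizes_all_of hD CfsgLib.Core.layer_perfect
    (fun T h1 h2 => CfsgLib.Core.commutator_layer_of_subnormal_solvable h1 h2) hd (Or.inl fun l hl => ?_)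
  obtain ⟨v, hv, hvd, hV⟩ := exists_vrel_ne hD hD2 h hd
  have hq : d * v ∈ Cfsg.pCore 2 G := by
    have := (vrel_iff hD hD2 hd hv).1 hV
    rwa [inv_eq hD hd] at this
  haveI := (CfsgLib.Core.isPGroup_pCore (G := G) 2).isNilpotent
  have hlq : Commute l (d * v) := ((Subgroup.mem_centralizer_iff.1 (Subgroup.commutator_eq_bot_iff_le_centralizer.1
    (CfsgLib.Core.commutator_layer_of_subnormal_solvable (CfsgLib.Core.normal_pCore (G := G) 2).isSubnormal
      inferInstance) hl)) _ hq).symm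
  have hdv : Commute d v := ((hV d hd).1 (Commute.refl d)).symm
  have h1 : Commute (l * d * l⁻¹) (d * v) := by
    have := (commute_conj_iff (g := l)).2 ((Commute.refl d).mul_right hdv)
    rwa [conj_of_commute hlq] at this
  exact ((Trans.commute_pair_iff hD.1 hd hv (conj_mem hD l hd) (Ne.symm hvd) hdv).1 h1).1.symm

theorem layer_eq_bot_of_three (h : ¬ Cfsg.pCore 3 G ≤ Subgroup.center G) : Cfsg.layer G = ⊥ := by
  haveI : Fact (Nat.Prime 3) := ⟨Nat.prime_three⟩
  haveI := CfsgLib.Core.normal_layer (G := G)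
  refine eq_bot_of_centralizes hD CfsgLib.Core.layer_perfect fun d hd => ?_
  refine centralizes_all_of hD CfsgLib.Core.layer_perfect
    (fun T h1 h2 => CfsgLib.Core.commutator_layer_of_subnormal_solvable h1 h2) hd (Or.inr fun l hl hne hcom => ?_)
  obtain ⟨w, hw, hwd, hW⟩ := exists_wrel_ne hD hD2 h hd
  have hq : d * w ∈ Cfsg.pCore 3 G := by
    have := (wrel_iff hD hD2 hd hw).1 hW
    rwa [inv_eq hD hd] at this
  haveI := (CfsgLib.Core.isPGroup_pCore (G := G) 3).isNilpotent
  have hlq : Commute l (d * w) := ((Subgroup.mem_centralizer_iff.1 (Subgroup.commutator_eq_bot_iff_le_centralizer.1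
    (CfsgLib.Core.commutator_layer_of_subnormal_solvable (CfsgLib.Core.normal_pCore (G := G) 3).isSubnormal
      inferInstance) hl)) _ hq).symm
  set y := l * d * l⁻¹ with hy
  have hyD : y ∈ D := conj_mem hD l hd
  have h1 : Commute y (d * w) := hcom.symm.mul_right ((hW y hyD).1 ⟨hne, hcom⟩).2.symm
  have h2 : y * (d * w) * y⁻¹ = (d * w)⁻¹ := by
    have e1 : d * (d * w) * d⁻¹ = (d * w)⁻¹ := by
      rw [mul_inv_rev, inv_eq hD hw, inv_eq hD hd, ← mul_assoc, mul_self hD hd, one_mul]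
    calc y * (d * w) * y⁻¹ = l * (d * (l⁻¹ * (d * w) * l⁻¹⁻¹) * d⁻¹) * l⁻¹ := by rw [hy]; group
      _ = l * (d * w)⁻¹ * l⁻¹ := by rw [conj_of_commute hlq.inv_left, e1]
      _ = (d * w)⁻¹ := conj_of_commute hlq.inv_right
  rw [h1.eq, mul_inv_cancel_right] at h2
  have hk : (d * w) ^ 2 = 1 := by rw [pow_two]; nth_rewrite 1 [h2]; exact inv_mul_cancel _
  exact wrel_noncomm hD hw hW hwd ((commute_iff hD hd hw).2 hk)

theorem layer_ne_bot (h2 : Cfsg.pCore 2 G ≤ Subgroup.center G) (h3 : Cfsg.pCore 3 G ≤ Subgroup.center G) :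
    Cfsg.layer G ≠ ⊥ := by
  intro h
  have hF : Cfsg.fittingSubgroup G ≤ Subgroup.center G := by
    rw [CfsgLib.Core.fittingSubgroup_eq_iSup_pCore]
    refine iSup_le fun p => ?_
    rcases Nat.lt_or_ge 3 (p : ℕ) with hp | hp
    · exact pCore_le_center_of_large hD p.2 hp
    · have := p.2.two_le
      interval_cases hq : (p : ℕ)
      · exact h2
      · exact h3
  have hle : Subgroup.centralizer (Subgroup.center G : Set G) ≤ Subgroup.center G := by
    refine le_trans (le_trans (Subgroup.centralizer_le ?_) CfsgLib.Core.centralizer_generalizedFitting_le) ?_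
    · show (Cfsg.generalizedFittingSubgroup G : Set G) ⊆ Subgroup.center G
      rw [Cfsg.generalizedFittingSubgroup, h, bot_sup_eq]
      exact hF
    · rw [Cfsg.generalizedFittingSubgroup, h, bot_sup_eq]; exact hF
  obtain ⟨a, ha, b, hb, hab⟩ := hD2
  obtain ⟨g, rfl⟩ := exists_conj hD ha hb
  have : g ∈ Subgroup.center G := hle (Subgroup.mem_centralizer_iff.2 fun z hz => (Subgroup.mem_center_iff.1 hz g).symm)
  exact hab ((le_center_iff hD).1 le_rfl a ha g this).symm

theorem fitting_le_center (h2 : Cfsg.pCore 2 G ≤ Subgroup.center G) (h3 : Cfsg.pCore 3 G ≤ Subgroup.center G) :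
    Cfsg.fittingSubgroup G ≤ Subgroup.center G := by
  rw [CfsgLib.Core.fittingSubgroup_eq_iSup_pCore]
  refine iSup_le fun p => ?_
  rcases Nat.lt_or_ge 3 (p : ℕ) with hp | hp
  · exact pCore_le_center_of_large hD p.2 hp
  · have := p.2.two_le
    interval_cases hq : (p : ℕ)
    · exact h2
    · exact h3

theorem trichotomy : (∀ p : ℕ, p.Prime → 3 < p → Cfsg.pCore p G ≤ Subgroup.center G) ∧
    ((¬ Cfsg.pCore 2 G ≤ Subgroup.center G ∧ Cfsg.pCore 3 G ≤ Subgroup.center G ∧ Cfsg.layer G = ⊥) ∨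
      (Cfsg.pCore 2 G ≤ Subgroup.center G ∧ ¬ Cfsg.pCore 3 G ≤ Subgroup.center G ∧ Cfsg.layer G = ⊥) ∨
      (Cfsg.pCore 2 G ≤ Subgroup.center G ∧ Cfsg.pCore 3 G ≤ Subgroup.center G ∧ Cfsg.layer G ≠ ⊥)) := by
  refine ⟨fun p hp h => pCore_le_center_of_large hD hp h, ?_⟩
  by_cases h2 : Cfsg.pCore 2 G ≤ Subgroup.center G <;> by_cases h3 : Cfsg.pCore 3 G ≤ Subgroup.center G
  · exact Or.inr (Or.inr ⟨h2, h3, layer_ne_bot hD hD2 h2 h3⟩)
  · exact Or.inr (Or.inl ⟨h2, h3, layer_eq_bot_of_three hD hD2 h3⟩)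
  · exact Or.inl ⟨h2, h3, layer_eq_bot_of_two hD hD2 h2⟩
  · exfalso
    obtain ⟨d, hd, -⟩ := hD.2.1
    obtain ⟨v, hv, hvd, hV⟩ := exists_vrel_ne hD hD2 h2 hd
    obtain ⟨w, hw, hwd, hW⟩ := exists_wrel_ne hD hD2 h3 hd
    exact vrel_trivial_or_wrel_trivial hd hv hw hV hW hvd hwd

omit hD2 in
theorem component_moves {L : Subgroup G} (hL : Cfsg.IsComponent L) [L.Normal] {d : G} (hd : d ∈ D) :
    (∃ l ∈ L, l * d * l⁻¹ ≠ d ∧ Commute d (l * d * l⁻¹)) ∧ ∃ l ∈ L, ¬ Commute d (l * d * l⁻¹) := by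
  have key : ¬ ∀ l ∈ L, Commute l d := by
    intro h
    refine CfsgLib.Core.component_ne_bot hL (eq_bot_of_centralizes hD (CfsgLib.Core.isPerfect_of_component hL) ?_)
    intro x hx l hl
    obtain ⟨g, rfl⟩ := exists_conj hD hd hx
    have := (commute_conj_iff (g := g)).2 (h (g⁻¹ * l * g⁻¹⁻¹) ((inferInstance : L.Normal).conj_mem l hl g⁻¹))
    simpa [mul_assoc] using this
  have h' : ∀ h, False := fun h => key (centralizes_all_of hD (CfsgLib.Core.isPerfect_of_component hL)
    (fun T h1 h2 => CfsgLib.Core.commutator_component_of_subnormal_solvable hL h1 h2) hd h)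
  constructor
  · by_contra hcon
    push Not at hcon
    exact h' (Or.inr hcon)
  · by_contra hcon
    push Not at hcon
    exact h' (Or.inl hcon)

omit hD2 in
theorem component_normal {L : Subgroup G} (hL : Cfsg.IsComponent L) : L.Normal := by
  rw [← Subgroup.normalizer_eq_top_iff, eq_top_iff, ← hD.2.2, Subgroup.closure_le]
  intro d hd
  rw [SetLike.mem_coe]
  by_contra hne
  set L' := L.map (MulAut.conj d).toMonoidHom with hL'
  have hcomp : Cfsg.IsComponent L' := CfsgLib.Core.isComponent_map_mulEquiv (MulAut.conj d) hL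
  have hneq : L' ≠ L := by
    intro e
    apply hne
    refine Subgroup.mem_normalizer_fintype fun n hn => ?_
    rw [SetLike.mem_coe, ← e]
    exact ⟨n, hn, rfl⟩
  have hc := Subgroup.commutator_eq_bot_iff_le_centralizer.1 (CfsgLib.Core.components_commute hL hcomp hneq.symm)
  refine CfsgLib.Core.quasisimple_not_isSolvable hL.2 ?_
  haveI : Group.IsSolvable (L ⧸ Subgroup.center L) := by
    refine solvable_of_small_orders fun q => ?_
    obtain ⟨l, rfl⟩ := QuotientGroup.mk_surjective q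
    have hl' : d * (l : G) * d⁻¹ ∈ L' := ⟨l, l.2, rfl⟩
    have hcl : Commute (d * (l : G) * d⁻¹) ((l : G)⁻¹) :=
      (show Commute (d * (l : G) * d⁻¹) (l : G) from Subgroup.mem_centralizer_iff.1 (hc l.2) _ hl').inv_right
    have key : ∀ n : ℕ, (d * ((l : G) * d * (l : G)⁻¹)) ^ n = 1 → (QuotientGroup.mk l : L ⧸ Subgroup.center L) ^ n = 1 := by
      intro n hn
      rw [show d * ((l : G) * d * (l : G)⁻¹) = (d * (l : G) * d⁻¹) * (l : G)⁻¹ by rw [inv_eq hD hd]; group,
        hcl.mul_pow, inv_pow, mul_inv_eq_one] at hn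
      rw [← QuotientGroup.mk_pow, QuotientGroup.eq_one_iff, Subgroup.mem_center_iff]
      intro m
      apply Subtype.ext
      have h1 : (l : G) ^ n ∈ L' := hn ▸ pow_mem hl' n
      have h2 := Subgroup.mem_centralizer_iff.1 (hc m.2) _ h1
      simp only [Subgroup.coe_mul, Subgroup.coe_pow]
      exact h2.symm
    exact (hD.1.2 d hd _ (conj_mem hD (l : G) hd)).imp (key 2) (key 3)
  haveI : Group.IsSolvable ↥(Subgroup.center L) :=
    Group.isSolvable_of_comm fun x y => Subtype.ext (Subgroup.mem_center_iff.1 y.2 x)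
  exact Group.isSolvable_of_ker_le_range (Subgroup.center L).subtype (QuotientGroup.mk' (Subgroup.center L))
    (by rw [QuotientGroup.ker_mk', Subgroup.range_subtype])

omit hD2 in
theorem component_unique {L K : Subgroup G} (hL : Cfsg.IsComponent L) (hK : Cfsg.IsComponent K) : K = L := by
  by_contra hne
  haveI := component_normal hD hL
  haveI := component_normal hD hK
  have hc := Subgroup.commutator_eq_bot_iff_le_centralizer.1 (CfsgLib.Core.components_commute hL hK (Ne.symm hne))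
  obtain ⟨d, hd, -⟩ := hD.2.1
  obtain ⟨⟨l, hl, hlne, hlc⟩, -⟩ := component_moves hD hL hd
  obtain ⟨-, k, hk, hknc⟩ := component_moves hD hK hd
  set f2 := d * (l * d * l⁻¹) with hf2
  set f3 := d * (k * d * k⁻¹) with hf3
  have h2 : f2 ^ 2 = 1 := (commute_iff hD hd (conj_mem hD l hd)).1 hlc
  have h3 : f3 ^ 3 = 1 := pow_three hD hd (conj_mem hD k hd) hknc
  have hcl : ∀ x ∈ K, Commute x l := fun x hx => Subgroup.mem_centralizer_iff.1 (hc hl) x hx
  have hf2L : f2 ∈ L := by
    rw [show f2 = (d * l * d⁻¹) * l⁻¹ by rw [hf2, inv_eq hD hd]; group]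
    exact mul_mem ((inferInstance : L.Normal).conj_mem l hl d) (inv_mem hl)
  have hf3K : f3 ∈ K := by
    rw [show f3 = (d * k * d⁻¹) * k⁻¹ by rw [hf3, inv_eq hD hd]; group]
    exact mul_mem ((inferInstance : K.Normal).conj_mem k hk d) (inv_mem hk)
  have hprod : d * ((l * k) * d * (l * k)⁻¹) = f2 * f3 := by
    calc d * ((l * k) * d * (l * k)⁻¹) = (d * l * d⁻¹) * (f3 * l⁻¹) := by
          rw [hf3]; simp only [mul_inv_rev, inv_eq hD hd]; simp [mul_assoc, ← mul_assoc d d, mul_self hD hd]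
      _ = (d * l * d⁻¹) * (l⁻¹ * f3) := by rw [(hcl f3 hf3K).inv_right.eq]
      _ = _ := by rw [hf2, inv_eq hD hd]; simp [mul_assoc]
  have hcc : Commute f2 f3 := (Subgroup.mem_centralizer_iff.1 (hc hf2L) f3 hf3K).symm
  rcases hD.1.2 d hd _ (conj_mem hD (l * k) hd) with e | e <;> rw [hprod, hcc.mul_pow] at e
  · rw [h2, one_mul] at e
    refine hknc ((commute_iff hD hd (conj_mem hD k hd)).2 ?_)
    exact e
  · rw [h3, mul_one] at e
    apply hlne
    have : f2 = 1 := by rwa [pow_succ, h2, one_mul] at e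
    rw [eq_inv_of_mul_eq_one_right this, inv_eq hD hd]

omit hD2 in
theorem layer_eq_component {L : Subgroup G} (hL : Cfsg.IsComponent L) : Cfsg.layer G = L :=
  le_antisymm (sSup_le fun _ hK => (component_unique hD hL hK).le) (CfsgLib.Core.component_le_layer hL)

theorem exists_component (h2 : Cfsg.pCore 2 G ≤ Subgroup.center G) (h3 : Cfsg.pCore 3 G ≤ Subgroup.center G) :
    ∃ L : Subgroup G, L.Normal ∧ Cfsg.IsQuasisimple L ∧
      Cfsg.generalizedFittingSubgroup G = L ⊔ Subgroup.center G := by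
  obtain ⟨L, hL⟩ : ∃ L : Subgroup G, Cfsg.IsComponent L := by
    by_contra h
    push Not at h
    exact layer_ne_bot hD hD2 h2 h3 (le_bot_iff.1 (sSup_le fun K hK => absurd hK (h K)))
  refine ⟨L, component_normal hD hL, hL.2, ?_⟩
  rw [Cfsg.generalizedFittingSubgroup, layer_eq_component hD hL]
  refine congrArg (L ⊔ ·) (le_antisymm (fitting_le_center hD hD2 h2 h3) ?_)
  refine CfsgLib.Core.le_fittingSubgroup inferInstance ?_
  letI : CommGroup (Subgroup.center G) :=
    { (inferInstance : Group (Subgroup.center G)) with mul_comm := fun x y => mul_comm' x y }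
  infer_instance

omit hD2 in
theorem same_coset {L : Subgroup G} [L.Normal] (hL : Cfsg.IsComponent L) {a b : G} (ha : a ∈ D) (hb : b ∈ D)
    (h : (a * b * a⁻¹ * b⁻¹) ∈ L) : a⁻¹ * b ∈ L := by
  rw [inv_eq hD ha, inv_eq hD hb] at *
  let π := QuotientGroup.mk' L
  have h2 : π (a * b) ^ 2 = 1 := by
    rw [← map_pow, QuotientGroup.mk'_apply, QuotientGroup.eq_one_iff, pow_two]
    simpa [mul_assoc] using h
  by_cases hab : Commute a b
  swap
  · have h3 : π (a * b) ^ 3 = 1 := by rw [← map_pow, pow_three hD ha hb hab, map_one]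
    rw [pow_succ, h2, one_mul] at h3
    exact (QuotientGroup.eq_one_iff _).1 h3
  by_contra hne
  let T : G → Set G := fun r => {y | ∃ l ∈ L, y = l * r * l⁻¹}
  have hgen : ∀ r ∈ D, L ≤ Subgroup.closure (T r) := by
    intro r hr
    let M := (Subgroup.closure (T r)).subgroupOf L
    have hconj : ∀ k ∈ L, (Subgroup.closure (T r)).map (MulAut.conj k).toMonoidHom ≤ Subgroup.closure (T r) := by
      intro k hk
      rw [MonoidHom.map_closure, Subgroup.closure_le]
      rintro _ ⟨_, ⟨l, hl, rfl⟩, rfl⟩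
      exact Subgroup.subset_closure ⟨k * l, mul_mem hk hl, by simp [mul_assoc]⟩
    have hM : M.Normal := ⟨fun m hm k => hconj k k.2 ⟨m, hm, rfl⟩⟩
    rcases CfsgLib.Core.quasisimple_normal_cases hL.2 M with e | e
    · exact Subgroup.subgroupOf_eq_top.1 e
    · exfalso
      obtain ⟨-, l, hl, hnc⟩ := component_moves hD hL hr
      apply hnc
      rw [conj_of_commute (a := r) (g := l) ?_]
      haveI : Group.IsSolvable ↥((Subgroup.center L).map L.subtype) :=
        Group.isSolvable_of_comm fun x y => by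
          apply Subtype.ext
          obtain ⟨x0, hx0, hx⟩ := x.2
          obtain ⟨y0, -, hy⟩ := y.2
          show (x : G) * y = y * x
          rw [← hx, ← hy]
          exact congrArg Subtype.val (Subgroup.mem_center_iff.1 hx0 y0).symm
      refine centralizes_of_moves (CfsgLib.Core.isPerfect_of_component hL)
        (fun T h1 h2 => CfsgLib.Core.commutator_component_of_subnormal_solvable hL h1 h2)
        (S := (Subgroup.center L).map L.subtype) inferInstance (fun k hk s hs => ?_) (fun m hm => ?_) l hl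
      · obtain ⟨s0, hs0, rfl⟩ := hs
        refine ⟨⟨k, hk⟩ * s0 * ⟨k, hk⟩⁻¹, ?_, rfl⟩
        exact (inferInstance : (Subgroup.center L).Normal).conj_mem s0 hs0 _
      · have hmem : m * r * m⁻¹ * r⁻¹ ∈ L := by
          rw [show m * r * m⁻¹ * r⁻¹ = m * (r * m⁻¹ * r⁻¹) by group]
          exact mul_mem hm ((inferInstance : L.Normal).conj_mem _ (inv_mem hm) r)
        refine ⟨⟨_, hmem⟩, e ?_, rfl⟩
        show m * r * m⁻¹ * r⁻¹ ∈ Subgroup.closure (T r)
        exact mul_mem (Subgroup.subset_closure ⟨m, hm, rfl⟩)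
          (inv_mem (Subgroup.subset_closure ⟨1, one_mem _, by group⟩))
  have hTc : ∀ x ∈ T a, ∀ y ∈ T b, Commute x y := by
    rintro _ ⟨l, hl, rfl⟩ _ ⟨m, hm, rfl⟩
    by_contra hnc
    apply hne
    have hπl : π l = 1 := (QuotientGroup.eq_one_iff l).2 hl
    have hπm : π m = 1 := (QuotientGroup.eq_one_iff m).2 hm
    have h3 : π (a * b) ^ 3 = 1 := by
      have := congrArg π (pow_three hD (conj_mem hD l ha) (conj_mem hD m hb) hnc)
      simpa [hπl, hπm] using this
    rw [pow_succ, h2, one_mul] at h3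
    exact (QuotientGroup.eq_one_iff _).1 h3
  have hcc : Subgroup.closure (T a) ≤ Subgroup.centralizer (Subgroup.closure (T b) : Set G) := by
    rw [Subgroup.centralizer_closure, Subgroup.closure_le]
    exact fun x hx => Subgroup.mem_centralizer_iff.2 fun y hy => (hTc x hx y hy).eq.symm
  haveI : IsMulCommutative L := Subgroup.le_centralizer_iff_isMulCommutative.1
    (((hgen a ha).trans hcc).trans (Subgroup.centralizer_le (hgen b hb)))
  exact CfsgLib.Core.quasisimple_not_isSolvable hL.2 (Group.isSolvable_of_comm fun x y : L => mul_comm' x y)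

theorem fine_of_component {L : Subgroup G} [L.Normal] (hL : Cfsg.IsQuasisimple L)
    (hF : Cfsg.generalizedFittingSubgroup G = L ⊔ Subgroup.center G) (hi : L.index ≤ 2)
    (h2 : Cfsg.pCore 2 G ≤ Subgroup.center G) (h3 : Cfsg.pCore 3 G ≤ Subgroup.center G) : Fine D := by
  have hcomp : Cfsg.IsComponent L := ⟨(inferInstance : L.Normal).isSubnormal, hL⟩
  have hprod : ∀ x ∈ D, ∀ y ∈ D, x * y ∈ L := by
    intro x hx y hy
    rcases (show L.index = 1 ∨ L.index = 2 by have := L.index_ne_zero_of_finite; omega) with e | e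
    · rw [Subgroup.index_eq_one.1 e]; exact Subgroup.mem_top _
    · obtain ⟨g, rfl⟩ := exists_conj hD hx hy
      rw [Subgroup.mul_mem_iff_of_index_two e]
      exact ⟨fun h => (inferInstance : L.Normal).conj_mem x h g, fun h => by
        simpa [mul_assoc] using (inferInstance : L.Normal).conj_mem _ h g⁻¹⟩
  refine ⟨fun E hr hs ht hg hex hblock a ha c hc hac => ?_, fun a ha => ?_,
    fun a ha => exists_noncomm_of_two hD hD2 ha⟩
  · obtain ⟨K, hK, hKmem, -, hKn⟩ := exists_kernel hD E hr hs ht hg hblock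
    obtain ⟨u, hu, v, hv, huv, hnc⟩ := hex
    haveI := hK
    rcases CfsgLib.Core.quasisimple_normal_cases hL (K.subgroupOf L) with e | e
    · exact absurd (Subgroup.subgroupOf_eq_top.1 e (hprod u hu v hv)) (hKn u hu v hv huv hnc).1
    · have hZ : (Subgroup.center L).map L.subtype ≤ Subgroup.center G := by
        refine le_trans (CfsgLib.Core.le_fittingSubgroup inferInstance ?_) (fitting_le_center hD hD2 h2 h3)
        letI : CommGroup ↥((Subgroup.center L).map L.subtype) :=
          { (inferInstance : Group ↥((Subgroup.center L).map L.subtype)) with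
            mul_comm := fun x y => by
              apply Subtype.ext
              obtain ⟨x0, hx0, hx⟩ := x.2
              obtain ⟨y0, -, hy⟩ := y.2
              show (x : G) * y = y * x
              rw [← hx, ← hy]
              exact congrArg Subtype.val (Subgroup.mem_center_iff.1 hx0 y0).symm }
        infer_instance
      have hKL : K ⊓ L ≤ Subgroup.center G := fun x hx =>
        hZ ⟨⟨x, hx.2⟩, e (show (⟨x, hx.2⟩ : L) ∈ K.subgroupOf L from hx.1), rfl⟩
      have hcb : ∀ S : Subgroup G, S ≤ Subgroup.center G → ⁅S, L⁆ = ⊥ := fun S hS => by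
        rw [Subgroup.commutator_eq_bot_iff_le_centralizer]
        exact hS.trans (Subgroup.center_le_centralizer _)
      have hKc : ⁅⁅L, L⁆, K⁆ = ⊥ := Subgroup.commutator_commutator_eq_bot_of_rotate
        (hcb _ (le_trans (le_inf (Subgroup.commutator_le_right L K) (Subgroup.commutator_le_left L K)) hKL))
        (hcb _ (le_trans (le_inf (Subgroup.commutator_le_left K L) (Subgroup.commutator_le_right K L)) hKL))
      rw [CfsgLib.Core.isPerfect_of_component hcomp, Subgroup.commutator_comm,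
        Subgroup.commutator_eq_bot_iff_le_centralizer] at hKc
      have hKF : K ≤ L ⊔ Subgroup.center G := by
        rw [← hF]
        refine le_trans ?_ CfsgLib.Core.centralizer_generalizedFitting_le
        rw [hF, Subgroup.le_centralizer_iff]
        exact sup_le (Subgroup.le_centralizer_iff.1 hKc) (Subgroup.center_le_centralizer _)
      have hKZ : a * c ∈ Subgroup.center G := by
        have hm : a * c ∈ ((L ⊔ Subgroup.center G : Subgroup G) : Set G) := hKF (hKmem a ha c hc hac)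
        rw [Subgroup.normal_mul] at hm
        obtain ⟨l, hl, z, hz, e'⟩ := hm
        simp only [SetLike.mem_coe] at hl hz e'
        have hlc : (⟨l, hl⟩ : L) ∈ Subgroup.center L := by
          rw [Subgroup.mem_center_iff]
          intro m
          apply Subtype.ext
          have h1 := Subgroup.mem_centralizer_iff.1 (hKc (hKmem a ha c hc hac)) m m.2
          rw [← e', ← mul_assoc, mul_assoc l z, ← Subgroup.mem_center_iff.1 hz m, ← mul_assoc] at h1
          exact mul_right_cancel h1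
        rw [← e']
        exact mul_mem (hZ ⟨⟨l, hl⟩, hlc, rfl⟩) hz
      have hV : VRel D a c := by
        intro x hx
        have hz : Commute (a * c) x := (Subgroup.mem_center_iff.1 hKZ x).symm
        have hc' : c = a * (a * c) := by rw [← mul_assoc, mul_self hD ha, one_mul]
        constructor
        · intro h; rw [hc']; exact h.mul_left hz
        · intro h
          have := hz.mul_left h
          rwa [mul_assoc, mul_self hD hc, mul_one] at this
      obtain ⟨g, hg', rfl⟩ := vrel_exists_conj hD hD2 ha hc hV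
      exact ((le_center_iff hD).1 h2 a ha g hg').symm
  · by_contra hcon
    push Not at hcon
    have hnc : ∀ x ∈ D, ∀ y ∈ D, x ≠ y → ¬ Commute x y := fun x hx y hy hxy hc => by
      obtain ⟨b, hb, hba, hab⟩ := exists_comm_of_one hD hx hy hxy hc ha
      exact hcon b hb hba hab
    haveI := nilpotent_of_noncomm hD hnc
    have hle : L ≤ commutator G := by
      rw [← CfsgLib.Core.isPerfect_of_component hcomp, commutator_def]
      exact Subgroup.commutator_mono le_top le_top
    exact CfsgLib.Core.quasisimple_not_isSolvable hL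
      (Group.isSolvable_of_isSolvable_injective (Subgroup.inclusion_injective hle))

theorem index_le_two_of_connected {L : Subgroup G} [L.Normal] (hL : Cfsg.IsQuasisimple L)
    (hconn : (Cfsg.commutingGraph D).Connected) : L.index ≤ 2 := by
  have hcomp : Cfsg.IsComponent L := ⟨(inferInstance : L.Normal).isSubnormal, hL⟩
  obtain ⟨d, hd, -⟩ := hD.2.1
  let π := QuotientGroup.mk' L
  have hsame : ∀ u v : D, (Cfsg.commutingGraph D).Reachable u v → π (u : G) = π v := by
    intro u v huv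
    obtain ⟨p⟩ := huv
    induction p with
    | nil => rfl
    | @cons x y z hadj _ ih =>
      rw [← ih]
      have hc : Commute (x : G) (y : G) := by
        rw [Cfsg.commutingGraph, SimpleGraph.fromRel_adj] at hadj
        exact hadj.2.elim id Commute.symm
      refine QuotientGroup.eq.2 (same_coset hD hcomp x.2 y.2 ?_)
      rw [hc.eq, mul_inv_cancel_right, mul_inv_cancel]
      exact one_mem L
  have hall : ∀ g : G, π g = 1 ∨ π g = π d := by
    intro g
    have hle : Subgroup.closure D ≤ (Subgroup.zpowers (π d)).comap π := by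
      rw [Subgroup.closure_le]
      intro x hx
      show π x ∈ Subgroup.zpowers (π d)
      rw [hsame ⟨x, hx⟩ ⟨d, hd⟩ (hconn.preconnected _ _)]
      exact Subgroup.mem_zpowers _
    rw [hD.2.2] at hle
    obtain ⟨k, hk⟩ := Subgroup.mem_zpowers_iff.1 (hle (Subgroup.mem_top g))
    have h2 : π d * π d = 1 := by rw [← map_mul, mul_self hD hd, map_one]
    rcases Int.even_or_odd k with ⟨j, rfl⟩ | ⟨j, rfl⟩
    · left; rw [← hk, ← two_mul, zpow_mul, zpow_two, h2, one_zpow]
    · right; rw [← hk, zpow_add, zpow_mul, zpow_two, h2, one_zpow, one_mul, zpow_one]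
  rw [Subgroup.index]
  refine le_trans (Nat.card_le_card_of_surjective (fun b : Bool => if b then π d else 1) fun q => ?_) (by simp)
  obtain ⟨g, rfl⟩ := QuotientGroup.mk'_surjective L q
  rcases hall g with e | e
  · exact ⟨false, e.symm⟩
  · exact ⟨true, e.symm⟩

omit hD2 in
theorem primitive_of_fine (hF : Fine D) : Cfsg.IsPrimitiveUnderConj D := by
  obtain ⟨d, hd, -⟩ := hD.2.1
  obtain ⟨b, hb, hbd, -⟩ := hF.exists_comm d hd
  refine ⟨fun a ha b hb => exists_conj hD ha hb, ⟨d, hd, b, hb, hbd.symm⟩, fun B hBD hblock => ?_⟩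
  by_contra hcon
  rw [not_or, Set.not_subsingleton_iff] at hcon
  obtain ⟨⟨x, hx, y, hy, hxy⟩, hne⟩ := hcon
  have hfix : ∀ {g u v : G}, u ∈ B → Commute g u → v ∈ B → g * v * g⁻¹ ∈ B := by
    intro g u v hu hgu hv
    rcases hblock g with e | e
    · rw [← e]; exact ⟨v, hv, rfl⟩
    · exact absurd hu (Set.disjoint_left.1 e ⟨u, hu, conj_of_commute hgu⟩)
  by_cases hcl : ∃ u ∈ B, ∃ v ∈ B, ¬ Commute u v
  · obtain ⟨u0, hu0, v0, hv0, h0⟩ := hcl
    apply hne
    let T : Set G := {u | u ∈ B ∧ ∃ v ∈ B, ¬ Commute u v}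
    by_contra hBne
    obtain ⟨e0, he0, he0B⟩ := Set.exists_of_ssubset (lt_of_le_of_ne hBD hBne)
    refine not_disconnected hD hF (T := T) (fun u hu => hBD hu.1) ⟨u0, hu0, v0, hv0, h0⟩ he0
      (fun h => he0B h.1) fun t ⟨ht, v, hv, htv⟩ e he heT => ?_
    by_contra hte
    obtain ⟨g, hg, rfl⟩ := orb_noncomm hD hF (hBD ht) (hBD hv) he htv hte
    exact heT ⟨hfix ht hg hv, t, ht, fun c => hte c.symm⟩
  · push Not at hcl
    apply hxy
    refine eq_of_same hD hF (hBD hx) (hBD hy) fun w hw => ?_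
    have key : ∀ u v w, u ∈ B → v ∈ B → v ≠ u → w ∈ D → Commute u w → Commute v w := by
      intro u v w hu hv hvu hw huw
      by_cases hwu : w = u
      · rw [hwu]; exact hcl v hv u hu
      · obtain ⟨g, hg, rfl⟩ := orb_comm hD hF (hBD hu) ⟨hBD hv, hvu, hcl u hu v hv⟩ ⟨hw, hwu, huw⟩
        exact hcl v hv _ (hfix hu hg hv)
    exact ⟨key x y w hx hy hxy.symm hw, key y x w hy hx hxy hw⟩

omit hD2 in
theorem block_of_equiv (E : G → G → Prop) (hs : ∀ a b, E a b → E b a) (ht : ∀ a b c, E a b → E b c → E a c)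
    (hg : ∀ (g : G) a b, E a b → E (g * a * g⁻¹) (g * b * g⁻¹)) (a : G) (g : G) :
    (fun x => g * x * g⁻¹) '' {x | x ∈ D ∧ E a x} = {x | x ∈ D ∧ E a x} ∨
      Disjoint ((fun x => g * x * g⁻¹) '' {x | x ∈ D ∧ E a x}) {x | x ∈ D ∧ E a x} := by
  by_cases h : E a (g * a * g⁻¹)
  · left
    ext x
    constructor
    · rintro ⟨y, ⟨hy, he⟩, rfl⟩; exact ⟨conj_mem hD g hy, ht _ _ _ h (hg g a y he)⟩
    · rintro ⟨hx, he⟩
      refine ⟨g⁻¹ * x * g⁻¹⁻¹, ⟨conj_mem hD g⁻¹ hx, ?_⟩, by group⟩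
      have := hg g⁻¹ _ _ (ht _ _ _ (hs _ _ h) he)
      simpa [mul_assoc] using this
  · right
    rw [Set.disjoint_left]
    rintro _ ⟨y, ⟨_, he⟩, rfl⟩ ⟨_, he'⟩
    exact h (ht _ _ _ he' (hs _ _ (hg g a y he)))

theorem cores_central_of_primitive (hprim : Cfsg.IsPrimitiveUnderConj D)
    (hw : ∃ a ∈ D, ∃ b ∈ D, a ≠ b ∧ Commute a b) :
    Cfsg.pCore 2 G ≤ Subgroup.center G ∧ Cfsg.pCore 3 G ≤ Subgroup.center G := by
  constructor <;> rw [le_center_iff hD] <;> intro d hd g hg
  · rcases hprim.2.2 {x | x ∈ D ∧ VRel D d x} (fun x hx => hx.1)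
      (block_of_equiv hD (VRel D) (fun _ _ e x hx => (e x hx).symm)
        (fun _ _ _ e e' x hx => (e x hx).trans (e' x hx)) (fun u _ _ e => vrel_conj hD u e) d) with h | h
    · exact h ⟨conj_mem hD g hd, vrel_of_conj hD hD2 hd hg⟩ ⟨hd, fun _ _ => Iff.rfl⟩
    · exfalso
      obtain ⟨e, he, hne⟩ := exists_noncomm_of_two hD hD2 hd
      exact hne (((Set.ext_iff.1 h e).2 he).2 d hd |>.1 (Commute.refl d)).symm
  · rcases hprim.2.2 {x | x ∈ D ∧ WRel D d x} (fun x hx => hx.1)
      (block_of_equiv hD (WRel D) (fun _ _ e x hx => (e x hx).symm)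
        (fun _ _ _ e e' x hx => (e x hx).trans (e' x hx)) (fun u _ _ e => wrel_conj hD u e) d) with h | h
    · exact h ⟨conj_mem hD g hd, wrel_of_conj hD hD2 hd hg⟩ ⟨hd, fun _ _ => Iff.rfl⟩
    · exfalso
      obtain ⟨x, hx, y, hy, hxy, hc⟩ := hw
      obtain ⟨b, hb, hbd, hdb⟩ := exists_comm_of_one hD hx hy hxy hc hd
      exact wrel_noncomm hD hb ((Set.ext_iff.1 h b).2 hb).2 hbd hdb

omit hD2 in
theorem connected_of_primitive (hprim : Cfsg.IsPrimitiveUnderConj D)
    (hw : ∃ a ∈ D, ∃ b ∈ D, a ≠ b ∧ Commute a b) : (Cfsg.commutingGraph D).Connected := by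
  obtain ⟨a0, ha0, b0, hb0, hab, hc⟩ := hw
  let E : G → G → Prop := fun u v => Relation.ReflTransGen (fun p q => (p ∈ D ∧ q ∈ D) ∧ Commute p q) u v
  have hs : ∀ u v, E u v → E v u := by
    intro u v h
    induction h with
    | refl => exact Relation.ReflTransGen.refl
    | tail _ h ih => exact Relation.ReflTransGen.head ⟨⟨h.1.2, h.1.1⟩, h.2.symm⟩ ih
  have hg : ∀ (g : G) u v, E u v → E (g * u * g⁻¹) (g * v * g⁻¹) := by
    intro g u v h
    induction h with
    | refl => exact Relation.ReflTransGen.refl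
    | tail _ h ih =>
      exact ih.tail ⟨⟨conj_mem hD g h.1.1, conj_mem hD g h.1.2⟩, commute_conj_iff.2 h.2⟩
  have hB : {x | x ∈ D ∧ E a0 x} = D := by
    rcases hprim.2.2 {x | x ∈ D ∧ E a0 x} (fun x hx => hx.1)
      (block_of_equiv hD E hs (fun _ _ _ h h' => h.trans h') hg a0) with h | h
    · exact absurd (h ⟨ha0, Relation.ReflTransGen.refl⟩ ⟨hb0, Relation.ReflTransGen.single ⟨⟨ha0, hb0⟩, hc⟩⟩) hab
    · exact h
  have hreach : ∀ x, E a0 x → ∀ hx : x ∈ D, (Cfsg.commutingGraph D).Reachable ⟨a0, ha0⟩ ⟨x, hx⟩ := by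
    intro x h
    induction h with
    | refl => intro _; exact SimpleGraph.Reachable.refl _
    | @tail y z _ h ih =>
      intro hz
      refine (ih h.1.1).trans ?_
      by_cases e : y = z
      · subst e; exact SimpleGraph.Reachable.refl _
      · refine SimpleGraph.Adj.reachable ?_
        rw [Cfsg.commutingGraph, SimpleGraph.fromRel_adj]
        exact ⟨fun e' => e (congrArg Subtype.val e'), Or.inl h.2⟩
  haveI : Nonempty D := ⟨⟨a0, ha0⟩⟩
  refine ⟨fun u v => ?_⟩
  exact ((hreach u ((Set.ext_iff.1 hB u).2 u.2).2 u.2).symm).trans (hreach v ((Set.ext_iff.1 hB v).2 v.2).2 v.2)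

theorem maximal_perp (hF : Fine D) (hconn : (Cfsg.commutingGraph D).Connected) {d : G} (hd : d ∈ D) :
    Subgroup.closure {y : G | y ∈ D ∧ Commute d y} ≠ ⊤ ∧
      ∀ H : Subgroup G, Cfsg.IsDSubgroup D H → Subgroup.closure {y : G | y ∈ D ∧ Commute d y} ≤ H →
        H = Subgroup.closure {y : G | y ∈ D ∧ Commute d y} ∨ H = ⊤ := by
  constructor
  · intro h
    obtain ⟨e, he, hne⟩ := exists_noncomm_of_two hD hD2 hd
    have hle : Subgroup.closure {y : G | y ∈ D ∧ Commute d y} ≤ Subgroup.centralizer ({d} : Set G) :=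
      (Subgroup.closure_le _).2 fun y hy => Subgroup.mem_centralizer_singleton_iff.2 hy.2.symm.eq
    rw [h] at hle
    exact hne (Commute.symm (Subgroup.mem_centralizer_singleton_iff.1 (hle (Subgroup.mem_top e))))
  · intro H hH hle
    by_cases hsub : {x : G | x ∈ D ∧ x ∈ H} ⊆ {y : G | y ∈ D ∧ Commute d y}
    · exact Or.inl (le_antisymm (hH ▸ Subgroup.closure_mono hsub) hle)
    right
    obtain ⟨b, ⟨hb, hbH⟩, hdb'⟩ := Set.not_subset.1 hsub
    have hdb : ¬ Commute d b := fun h => hdb' ⟨hb, h⟩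
    have hbraid : ∀ {x y : G}, x ∈ D → y ∈ D → x ∈ H → y ∈ H → ¬ Commute x y → ∃ h ∈ H, h * x * h⁻¹ = y := by
      intro x y hx hy hxH hyH hxy
      refine ⟨x * y, mul_mem hxH hyH, ?_⟩
      calc x * y * x * (x * y)⁻¹ = (x * y * x) * (y * x) := by
            rw [mul_inv_rev, inv_eq hD hx, inv_eq hD hy]
        _ = y * x * (y * y) * x := by rw [braid hD hx hy hxy]; simp only [mul_assoc]
        _ = y := by rw [mul_self hD hy, mul_one, mul_assoc, mul_self hD hx, mul_one]
    have hperpH : ∀ z ∈ perp D d, z ∈ H := fun z hz => hle (Subgroup.subset_closure ⟨hz.1, hz.2.2⟩)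
    have hdH : d ∈ H := hle (Subgroup.subset_closure ⟨hd, Commute.refl d⟩)
    obtain ⟨z0, hz0, hbz⟩ : ∃ z ∈ perp D d, ¬ Commute b z := by
      by_contra hcon
      push Not at hcon
      have hsub' : {z | z ∈ D ∧ z ≠ d ∧ Commute d z} ⊆ {z | z ∈ D ∧ z ≠ b ∧ Commute b z} := fun z hz =>
        ⟨hz.1, fun e => hdb (e ▸ hz.2.2), hcon z hz⟩
      obtain ⟨g, hg⟩ := exists_conj hD hd hb
      have heq := Set.eq_of_subset_of_ncard_le hsub' (le_of_eq (ncard_eq_of_conj hD g
        (P := fun z => z ≠ d ∧ Commute d z) (R := fun z => z ≠ b ∧ Commute b z) fun z _ => by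
          rw [← hg, commute_conj_iff, Ne, Ne, mul_left_inj, mul_right_inj])) (Set.toFinite _)
      apply hdb
      have hW : WRel D d b := fun z hz => ⟨fun h => ((Set.ext_iff.1 heq z).1 ⟨hz, h⟩).2,
        fun h => ((Set.ext_iff.1 heq z).2 ⟨hz, h⟩).2⟩
      have hbd : b ≠ d := fun e => hdb (e ▸ Commute.refl d)
      exfalso
      apply hbd
      refine (hF.noBlocks (WRel D) (fun _ _ _ _ => Iff.rfl) (fun _ _ _ _ e x hx => (e x hx).symm)
        (fun _ _ _ _ _ _ e e' x hx => (e x hx).trans (e' x hx)) (fun g _ _ _ _ e => wrel_conj hD g e) ?_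
        (fun a _ c _ x hx e hne hax => ((e x hx).1 ⟨fun h => hne (h ▸ fun _ _ => Iff.rfl), hax⟩).2)
        d hd b hb hW).symm
      by_contra hno
      have hperp : ∀ z ∈ perp D d, ∀ u ∈ D, u ∉ perp D d → Commute z u := fun z hz u hu huz => by
        by_cases hud : u = d
        · exact hud ▸ hz.2.2.symm
        · have hnc : ¬ Commute d u := fun c => huz ⟨hu, hud, c⟩
          have hWu : WRel D d u := by
            by_contra h
            exact hno ⟨d, hd, u, hu, h, hnc⟩
          exact ((hWu z hz.1).1 hz.2).2.symm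
      obtain ⟨z, hz, hzd, hcz⟩ := hF.exists_comm d hd
      exact not_disconnected hD hF (T := perp D d) (fun u hu => hu.1) ⟨z, hz, hzd, hcz⟩ hd (fun h => h.2.1 rfl) hperp
    have hconjH : ∀ z ∈ perp D d, ∃ h ∈ H, h * d * h⁻¹ = z := by
      intro z hz
      obtain ⟨h1, hh1, e1⟩ := hbraid hd hb hdH hbH hdb
      obtain ⟨h2, hh2, e2⟩ := hbraid hb hz0.1 hbH (hperpH z0 hz0) hbz
      obtain ⟨h3, hh3, e3⟩ := perp_conj_closure hD hF hd hz0 hz
      have hh3' : h3 ∈ H := (Subgroup.closure_le _).2 (fun u hu => hperpH u hu) hh3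
      refine ⟨h3 * h2 * h1, mul_mem (mul_mem hh3' hh2) hh1, ?_⟩
      rw [← e3, ← e2, ← e1]; group
    have hreach : ∀ u v : D, (Cfsg.commutingGraph D).Reachable u v →
        (∃ h ∈ H, h * d * h⁻¹ = (u : G)) → ∃ h ∈ H, h * d * h⁻¹ = (v : G) := by
      intro u v huv
      obtain ⟨p⟩ := huv
      induction p with
      | nil => exact id
      | @cons x y z hadj _ ih =>
        rintro ⟨h, hh, e⟩
        refine ih ?_
        rw [Cfsg.commutingGraph, SimpleGraph.fromRel_adj] at hadj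
        have hc : Commute (x : G) (y : G) := hadj.2.elim id Commute.symm
        have hxy : (y : G) ≠ x := fun e' => hadj.1 (Subtype.ext e'.symm)
        have hm : h⁻¹ * (y : G) * h⁻¹⁻¹ ∈ perp D d := by
          have := perp_conj hD (g := h⁻¹) (show (y : G) ∈ perp D (x : G) from ⟨y.2, hxy, hc⟩)
          rwa [show h⁻¹ * (x : G) * h⁻¹⁻¹ = d by rw [← e]; group] at this
        obtain ⟨k, hk, hke⟩ := hconjH _ hm
        exact ⟨h * k, mul_mem hh hk, by rw [show h * k * d * (h * k)⁻¹ = h * (k * d * k⁻¹) * h⁻¹ by group, hke]; group⟩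
    rw [eq_top_iff, ← hD.2.2, Subgroup.closure_le]
    intro x hx
    obtain ⟨h, hh, e⟩ := hreach ⟨d, hd⟩ ⟨x, hx⟩ (hconn.preconnected _ _) ⟨1, one_mem _, by group⟩
    simp only at e
    rw [← e]
    exact mul_mem (mul_mem hh hdH) (inv_mem hh)

end cls

end CfsgLib.Spor.Fischer
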