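import Cfsg.Agent.Lib.SporLeechStab

/-!
The stabiliser of the standard frame: sign subgroup, permutation complement, images modulo the centre,
and its normal 2-subgroups.
-/

set_option autoImplicit false
set_option maxRecDepth 8000

namespace CfsgLib.Spor
open Cfsg
open scoped Pointwise

attribute [local irreducible] kap eightV repFour

theorem eightV_ne_neg (p q : GolayPt) : eightV p ≠ -eightV q := by
  intro h
  have h1 := congrArg (fun y : leechLattice => (y : GolayPt → ℤ) p) h
  by_cases hpq : p = q <;> simp [eightV_val, hpq] at h1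

theorem eightV_inj {p q : GolayPt} (h : eightV p = eightV q) : p = q := by
  by_contra hne
  have h1 := congrArg (fun y : leechLattice => (y : GolayPt → ℤ) p) h
  simp [eightV_val, hne] at h1

/-- Up to sign. -/
def SignEq (y r : leechLattice) : Prop := y = r ∨ y = -r

theorem SignEq.trans {x y r : leechLattice} (h : SignEq x y) (h' : SignEq y r) : SignEq x r := by
  rcases h with rfl | rfl <;> rcases h' with rfl | rfl
  · exact Or.inl rfl
  · exact Or.inr rfl
  · exact Or.inr rfl
  · exact Or.inl (neg_neg _)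

theorem SignEq.smul (g : Co0) {x y : leechLattice} (h : SignEq x y) : SignEq (g • x) (g • y) := by
  rcases h with rfl | rfl
  · exact Or.inl rfl
  · exact Or.inr (Co0_smul_neg g y)

theorem exists_frame_image (g : frameStab) (p : GolayPt) : ∃ q, SignEq ((g : Co0) • eightV p) (eightV q) :=
  short_class_four (by rw [Co0_sqNorm, sqNorm_eightV]) ((kap_smul_congr g (kap_eightV p)).trans g.2)

/-- The point to which a member of the frame stabiliser moves a point. -/
noncomputable def framePt (g : frameStab) (p : GolayPt) : GolayPt := (exists_frame_image g p).choose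

theorem framePt_spec (g : frameStab) (p : GolayPt) :
    SignEq ((g : Co0) • eightV p) (eightV (framePt g p)) := (exists_frame_image g p).choose_spec

theorem framePt_eq {g : frameStab} {p q : GolayPt} (h : SignEq ((g : Co0) • eightV p) (eightV q)) :
    framePt g p = q := by
  rcases framePt_spec g p with e | e <;> rcases h with e' | e' <;> have hh := e.symm.trans e'
  · exact eightV_inj hh
  · exact absurd hh (eightV_ne_neg _ _)
  · exact absurd hh.symm (eightV_ne_neg _ _)
  · exact eightV_inj (neg_injective hh)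

theorem framePt_mul (a b : frameStab) (p : GolayPt) : framePt (a * b) p = framePt a (framePt b p) := by
  apply framePt_eq
  rw [Subgroup.coe_mul, mul_smul]
  exact ((framePt_spec b p).smul a).trans (framePt_spec a _)

theorem framePt_one (p : GolayPt) : framePt 1 p = p :=
  framePt_eq (Or.inl (by rw [Subgroup.coe_one, one_smul]))

/-- The action of the frame stabiliser on the points. -/
noncomputable def frameHom : frameStab →* P24 where
  toFun g := ⟨framePt g, framePt g⁻¹,
    fun p => by rw [← framePt_mul, inv_mul_cancel, framePt_one],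
    fun p => by rw [← framePt_mul, mul_inv_cancel, framePt_one]⟩
  map_one' := Equiv.ext framePt_one
  map_mul' a b := Equiv.ext (framePt_mul a b)

theorem frameHom_apply (g : frameStab) (p : GolayPt) : frameHom g p = framePt g p := rfl

theorem monoAut_eightV (d : ↥codeSets × ↥M24) (p : GolayPt) :
    SignEq (monoAut d • eightV p) (eightV ((d.2 : P24)⁻¹ p)) := by
  obtain ⟨⟨c, hc⟩, ⟨σ, hσ⟩⟩ := d
  have hq : ∀ q, σ q = p ↔ q = σ⁻¹ p := fun q =>
    ⟨fun h => by rw [← h]; simp, fun h => by rw [h]; simp⟩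
  by_cases hs : σ⁻¹ p ∈ c
  · refine Or.inr (Subtype.ext (funext fun q => ?_))
    rw [monoAut_smul, AddSubgroup.coe_neg, Pi.neg_apply, eightV_val, eightV_val]
    beta_reduce
    by_cases h : q = σ⁻¹ p
    · subst h; rw [if_pos hs, if_pos ((hq _).2 rfl), if_pos rfl]
    · rw [if_neg (fun h' => h ((hq q).1 h')), if_neg h]; split_ifs <;> rfl
  · refine Or.inl (Subtype.ext (funext fun q => ?_))
    rw [monoAut_smul, eightV_val, eightV_val]
    beta_reduce
    by_cases h : q = σ⁻¹ p
    · subst h; rw [if_neg hs, if_pos ((hq _).2 rfl), if_pos rfl]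
    · rw [if_neg (fun h' => h ((hq q).1 h')), if_neg h]; split_ifs <;> rfl

theorem frameHom_monoAut (d : ↥codeSets × ↥M24) :
    frameHom ⟨monoAut d, monoAut_mem d⟩ = (d.2 : P24)⁻¹ :=
  Equiv.ext fun p => framePt_eq (monoAut_eightV d p)

theorem frameHom_mem (g : frameStab) : frameHom g ∈ M24 := by
  obtain ⟨d, hd⟩ := exists_monoAut g.2
  rw [show g = ⟨monoAut d, monoAut_mem d⟩ from Subtype.ext hd.symm, frameHom_monoAut]
  exact M24.inv_mem d.2.2

theorem range_frameHom : frameHom.range = M24 := by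
  refine le_antisymm ?_ fun σ hσ => ?_
  · rintro _ ⟨g, rfl⟩; exact frameHom_mem g
  · refine ⟨⟨monoAut (⟨∅, Cfsg.Spor.empty_mem_supports_golayCode⟩, ⟨σ⁻¹, M24.inv_mem hσ⟩), monoAut_mem _⟩, ?_⟩
    rw [frameHom_monoAut]; exact inv_inv σ

/-- The sign subgroup. -/
noncomputable def signGrp : Subgroup Co0 := frameHom.ker.map frameStab.subtype

theorem signGrp_le : signGrp ≤ frameStab := Subgroup.map_subtype_le _

theorem mem_signGrp {g : Co0} : g ∈ signGrp ↔ ∀ p, SignEq (g • eightV p) (eightV p) := by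
  constructor
  · rintro ⟨g', hg', rfl⟩ p
    have h := framePt_spec g' p
    rw [show framePt g' p = p from Equiv.congr_fun (MonoidHom.mem_ker.1 hg') p] at h
    exact h
  · intro h
    have hm : g ∈ frameStab := by
      rw [mem_frameStab, ← eightV_none]
      rcases h none with e | e <;> rw [e]
      exact kap_neg _
    exact ⟨⟨g, hm⟩, MonoidHom.mem_ker.2 (Equiv.ext fun p => framePt_eq (h p)), rfl⟩

theorem card_signGrp : Nat.card signGrp = 4096 := by
  rw [signGrp, Subgroup.card_map_of_injective Subtype.val_injective]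
  have h := Subgroup.card_eq_card_quotient_mul_card_subgroup frameHom.ker
  rw [Nat.card_congr (QuotientGroup.quotientKerEquivRange frameHom).toEquiv, range_frameHom, card_M24,
    card_frameStab] at h
  exact Nat.eq_of_mul_eq_mul_left (by norm_num : 0 < 244823040) (h.symm.trans (by norm_num))

theorem signGrp_smul {g : Co0} (hg : g ∈ signGrp) : ∃ c : ↥codeSets, g = signAut c.1 c.2 := by
  obtain ⟨⟨c, σ⟩, hd⟩ := exists_monoAut (signGrp_le hg)
  obtain ⟨g', hg', e⟩ := hg
  have : g' = ⟨monoAut (c, σ), monoAut_mem _⟩ := Subtype.ext (e.trans hd.symm)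
  rw [this] at hg'
  have hσ : (σ : P24)⁻¹ = 1 := (frameHom_monoAut (c, σ)).symm.trans (MonoidHom.mem_ker.1 hg')
  refine ⟨c, hd.symm.trans (Subtype.ext (Equiv.ext fun x => Subtype.ext (funext fun p => ?_)))⟩
  refine (monoAut_smul (c, σ) x p).trans ?_
  rw [show (σ : P24) = 1 from inv_eq_one.1 hσ]
  exact (congrFun (signAut_smul c.1 c.2 x) p).symm

theorem signGrp_mul_self {g : Co0} (hg : g ∈ signGrp) : g * g = 1 := by
  obtain ⟨c, rfl⟩ := signGrp_smul hg
  refine Subtype.ext (Equiv.ext fun x => Subtype.ext (funext fun p => ?_))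
  show ((signAut c.1 c.2 • signAut c.1 c.2 • x : leechLattice) : GolayPt → ℤ) p = x.1 p
  simp only [signAut_smul]
  split_ifs <;> simp

theorem negAut_mem_signGrp : negAut ∈ signGrp :=
  mem_signGrp.2 fun p => Or.inr (negAut_smul _)

theorem center_le_frameStab : Subgroup.center Co0 ≤ signGrp := fun z hz => by
  rcases center_Co0.1 hz with rfl | rfl
  · exact one_mem _
  · exact negAut_mem_signGrp

/-- The permutation automorphisms, as a homomorphism. -/
noncomputable def permHom : ↥M24 →* Co0 where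
  toFun σ := permAut (σ : P24)⁻¹ (M24.inv_mem σ.2)
  map_one' := Subtype.ext (Equiv.ext fun x => Subtype.ext (funext fun p => by
    show x.1 (((1 : ↥M24) : P24)⁻¹ p) = x.1 p
    simp))
  map_mul' a b := Subtype.ext (Equiv.ext fun x => Subtype.ext (funext fun p => by
    show x.1 (((a * b : ↥M24) : P24)⁻¹ p) = x.1 ((b : P24)⁻¹ ((a : P24)⁻¹ p))
    rw [Subgroup.coe_mul, mul_inv_rev]; rfl))

theorem permHom_eightV (σ : ↥M24) (p : GolayPt) : permHom σ • eightV p = eightV ((σ : P24) p) := by
  refine Subtype.ext (funext fun q => ?_)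
  show (eightV p).1 ((σ : P24)⁻¹ q) = (eightV ((σ : P24) p)).1 q
  rw [eightV_val, eightV_val]
  have : (σ : P24)⁻¹ q = p ↔ q = (σ : P24) p := ⟨fun h => by rw [← h]; simp, fun h => by rw [h]; simp⟩
  simp only [this]

theorem permHom_mem (σ : ↥M24) : permHom σ ∈ frameStab := by
  rw [mem_frameStab, ← eightV_none, permHom_eightV, kap_eightV, kap_eightV]

theorem frameHom_permHom (σ : ↥M24) : frameHom ⟨permHom σ, permHom_mem σ⟩ = (σ : P24) :=
  Equiv.ext fun p => framePt_eq (Or.inl (permHom_eightV σ p))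

theorem permHom_mem_signGrp {σ : ↥M24} (h : permHom σ ∈ signGrp) : σ = 1 := by
  obtain ⟨g', hg', e⟩ := h
  have : g' = ⟨permHom σ, permHom_mem σ⟩ := Subtype.ext e
  rw [this] at hg'
  exact Subtype.ext ((frameHom_permHom σ).symm.trans (MonoidHom.mem_ker.1 hg'))

theorem frameStab_decompose {g : Co0} (hg : g ∈ frameStab) : ∃ s ∈ signGrp, ∃ σ, g = s * permHom σ := by
  refine ⟨g * (permHom ⟨_, frameHom_mem ⟨g, hg⟩⟩)⁻¹, ?_, _, (inv_mul_cancel_right g _).symm⟩
  refine ⟨⟨g, hg⟩ * ⟨permHom _, permHom_mem ⟨_, frameHom_mem ⟨g, hg⟩⟩⟩⁻¹, MonoidHom.mem_ker.2 ?_, rfl⟩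
  rw [map_mul, map_inv, frameHom_permHom, mul_inv_cancel]

/-- A 2-subgroup normalised by the frame stabiliser inside it lies in the sign group. -/
theorem normal_two_le_signGrp (N : Subgroup Co0) (hle : N ≤ frameStab) (hN : IsPGroup 2 N)
    (hnorm : ∀ g ∈ frameStab, ∀ n ∈ N, g * n * g⁻¹ ∈ N) : N ≤ signGrp := by
  let N' : Subgroup M24 := ((N.subgroupOf frameStab).map frameHom).subgroupOf M24
  have hN' : N'.Normal := by
    refine ⟨fun a ha σ => ?_⟩
    rw [Subgroup.mem_subgroupOf] at ha ⊢
    obtain ⟨n, hn, e⟩ := ha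
    refine ⟨⟨permHom σ, permHom_mem σ⟩ * n * ⟨permHom σ, permHom_mem σ⟩⁻¹, hnorm _ (permHom_mem σ) _ hn, ?_⟩
    rw [map_mul, map_mul, map_inv, frameHom_permHom, e]
    rfl
  have hp : IsPGroup 2 ↥((N.subgroupOf frameStab).map frameHom) :=
    (hN.comap_of_injective frameStab.subtype Subtype.val_injective).map frameHom
  have hp' : IsPGroup 2 N' := hp.comap_of_injective M24.subtype Subtype.val_injective
  haveI := isSimple_M24
  rcases hN'.eq_bot_or_eq_top with h | h
  · intro g hg
    refine ⟨⟨g, hle hg⟩, MonoidHom.mem_ker.2 ?_, rfl⟩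
    have : (⟨frameHom ⟨g, hle hg⟩, frameHom_mem _⟩ : M24) ∈ N' := ⟨⟨g, hle hg⟩, hg, rfl⟩
    rw [h, Subgroup.mem_bot] at this
    exact congrArg Subtype.val this
  · exfalso
    rw [h] at hp'
    obtain ⟨n, hn⟩ := IsPGroup.iff_card.1 hp'
    rw [Subgroup.card_top, card_M24] at hn
    have hdvd : 3 ∣ 2 ^ n := hn ▸ (by norm_num)
    exact absurd (Nat.prime_three.dvd_of_dvd_pow hdvd) (by norm_num)

/-- The image of the frame stabiliser in the quotient by the centre. -/
noncomputable def frameImg : Subgroup Cfsg.Spor.Co1 := frameStab.map (QuotientGroup.mk' _)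

/-- The image of the sign group in the quotient by the centre. -/
noncomputable def signImg : Subgroup Cfsg.Spor.Co1 := signGrp.map (QuotientGroup.mk' _)

/-- The image of the permutation group in the quotient by the centre. -/
noncomputable def permImg : Subgroup Cfsg.Spor.Co1 := ((QuotientGroup.mk' _).comp permHom).range

theorem permHom_mk_injective : Function.Injective ((QuotientGroup.mk' (Subgroup.center Co0)).comp permHom) := by
  rw [← MonoidHom.ker_eq_bot_iff, eq_bot_iff]
  intro σ hσ
  rw [MonoidHom.mem_ker, MonoidHom.comp_apply, QuotientGroup.mk'_apply, QuotientGroup.eq_one_iff] at hσ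
  exact Subgroup.mem_bot.2 (permHom_mem_signGrp (center_le_frameStab hσ))

theorem mem_frameImg {g : Co0} : (QuotientGroup.mk g : Cfsg.Spor.Co1) ∈ frameImg ↔ g ∈ frameStab := by
  refine ⟨?_, fun h => ⟨g, h, rfl⟩⟩
  rintro ⟨g', hg', e⟩
  have h : g'⁻¹ * g ∈ Subgroup.center Co0 := QuotientGroup.eq.1 e
  rw [show g = g' * (g'⁻¹ * g) by group]
  exact frameStab.mul_mem hg' (signGrp_le (center_le_frameStab h))

theorem card_map_mk (N : Subgroup Co0) (h : Subgroup.center Co0 ≤ N) :
    Nat.card N = Nat.card (N.map (QuotientGroup.mk' (Subgroup.center Co0))) * 2 := by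
  let φ : N →* Cfsg.Spor.Co1 := (QuotientGroup.mk' _).comp N.subtype
  have hk : Nat.card φ.ker = 2 := by
    rw [← card_center_Co0]
    have e : φ.ker = (Subgroup.center Co0).subgroupOf N := by
      ext x; simp [φ, Subgroup.mem_subgroupOf, QuotientGroup.eq_one_iff]
    rw [e]
    exact Nat.card_congr (Subgroup.subgroupOfEquivOfLe h).toEquiv
  have hr : φ.range = N.map (QuotientGroup.mk' _) := by
    rw [MonoidHom.range_comp, Subgroup.range_subtype]
  rw [Subgroup.card_eq_card_quotient_mul_card_subgroup φ.ker, hk,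
    Nat.card_congr (QuotientGroup.quotientKerEquivRange φ).toEquiv, hr]

theorem card_frameImg : Nat.card frameImg * 2 = 4096 * 244823040 := by
  rw [frameImg, ← card_map_mk _ (center_le_frameStab.trans signGrp_le), card_frameStab]

theorem card_signImg : Nat.card signImg = 2048 := by
  have := card_map_mk signGrp center_le_frameStab
  rw [card_signGrp] at this
  exact Nat.eq_of_mul_eq_mul_right (by norm_num : 0 < 2) (this.symm.trans (by norm_num))

theorem two_le_signImg (N : Subgroup Cfsg.Spor.Co1) (hle : N ≤ frameImg) (hN : IsPGroup 2 N)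
    (hnorm : ∀ g ∈ frameImg, ∀ n ∈ N, g * n * g⁻¹ ∈ N) : N ≤ signImg := by
  have hz : IsPGroup 2 (QuotientGroup.mk' (Subgroup.center Co0)).ker := by
    rw [QuotientGroup.ker_mk']
    exact IsPGroup.of_card (n := 1) (by rw [card_center_Co0, pow_one])
  intro a ha
  obtain ⟨g, rfl⟩ := QuotientGroup.mk_surjective a
  refine ⟨g, ?_, rfl⟩
  refine normal_two_le_signGrp (N.comap (QuotientGroup.mk' _)) (fun x hx => mem_frameImg.1 (hle hx))
    (hN.comap_of_ker_isPGroup _ hz) (fun x hx n hn => ?_) ha
  show (QuotientGroup.mk (x * n * x⁻¹) : Cfsg.Spor.Co1) ∈ N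
  exact hnorm _ (mem_frameImg.2 hx) _ hn

theorem signGrp_normalized {g n : Co0} (hg : g ∈ frameStab) (hn : n ∈ signGrp) : g * n * g⁻¹ ∈ signGrp := by
  rw [mem_signGrp] at hn ⊢
  intro p
  set q := framePt (⟨g, hg⟩ : frameStab)⁻¹ p with hq
  have h1 : SignEq (g⁻¹ • eightV p) (eightV q) := framePt_spec (⟨g, hg⟩ : frameStab)⁻¹ p
  have h2 : SignEq (eightV q) (g⁻¹ • eightV p) := by
    rcases h1 with e | e
    · exact Or.inl e.symm
    · exact Or.inr (by rw [e, neg_neg])
  have h3 := (((h1.smul n).trans (hn q)).trans h2).smul g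
  rwa [smul_inv_smul, ← mul_smul, ← mul_smul] at h3

theorem signImg_normalized : ∀ g ∈ frameImg, ∀ n ∈ signImg, g * n * g⁻¹ ∈ signImg := by
  intro a ha b hb
  obtain ⟨g, rfl⟩ := QuotientGroup.mk_surjective a
  obtain ⟨n, hn, rfl⟩ := hb
  exact ⟨g * n * g⁻¹, signGrp_normalized (mem_frameImg.1 ha) hn, rfl⟩

theorem signImg_mul_self {a : Cfsg.Spor.Co1} (h : a ∈ signImg) : a * a = 1 := by
  obtain ⟨g, hg, rfl⟩ := h
  rw [← map_mul, signGrp_mul_self hg, map_one]

theorem signImg_le_frameImg : signImg ≤ frameImg := Subgroup.map_mono signGrp_le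

theorem permImg_le_frameImg : permImg ≤ frameImg := by
  rintro _ ⟨σ, rfl⟩; exact ⟨_, permHom_mem σ, rfl⟩

theorem signImg_inf_permImg : signImg ⊓ permImg = ⊥ := by
  rw [eq_bot_iff]
  rintro a ⟨⟨g, hg, rfl⟩, σ, e⟩
  have h : (permHom σ)⁻¹ * g ∈ Subgroup.center Co0 := QuotientGroup.eq.1 e
  have hs : permHom σ ∈ signGrp := by
    rw [show permHom σ = g * ((permHom σ)⁻¹ * g)⁻¹ by group]
    exact signGrp.mul_mem hg (signGrp.inv_mem (center_le_frameStab h))
  rw [Subgroup.mem_bot, ← e, permHom_mem_signGrp hs, map_one]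

theorem signImg_sup_permImg : signImg ⊔ permImg = frameImg := by
  refine le_antisymm (sup_le signImg_le_frameImg permImg_le_frameImg) ?_
  rintro _ ⟨g, hg, rfl⟩
  obtain ⟨s, hs, σ, rfl⟩ := frameStab_decompose hg
  rw [map_mul]
  exact Subgroup.mul_mem_sup ⟨s, hs, rfl⟩ ⟨σ, rfl⟩

end CfsgLib.Spor
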