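import Cfsg.Agent.Lib.SporObjBases
import Cfsg.Agent.Lib.SporObjWordsDod

/-!
Certified stabiliser classes (Dod).
-/

set_option autoImplicit false
set_option maxRecDepth 20000

namespace CfsgLib.Spor
open Cfsg

theorem dodDod_stab : stabOK [dodBase] dodDodGens = true := by decide +kernel

theorem dodDod_classes : classesOK dodDodGens dodObjs (sigL dodBase) dodDodCls = true := by decide +kernel

theorem dpairDpair_stab : stabOK [dpairBase] dpairDpairGens = true := by decide +kernel

theorem dpairDpair_classes : classesOK dpairDpairGens dpairObjs (sigL dpairBase) dpairDpairCls = true := by decide +kernel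

theorem dpairSext_stab : stabOK [dpairBase] dpairSextGens = true := by decide +kernel

theorem dpairSext_classes : classesOK dpairSextGens sextetObjs (sigL dpairBase) dpairSextCls = true := by decide +kernel

end CfsgLib.Spor
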