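import Cfsg.Agent.Lib.SporObjBases
import Cfsg.Agent.Lib.SporObjWordsOct

/-!
Certified stabiliser classes (Oct).
-/

set_option autoImplicit false
set_option maxRecDepth 20000

namespace CfsgLib.Spor
open Cfsg

theorem octOct_stab : stabOK [octBase] octOctGens = true := by decide +kernel

theorem octOct_classes : classesOK octOctGens octObjs (sigL octBase) octOctCls = true := by decide +kernel

theorem octTrio_stab : stabOK [octBase] octTrioGens = true := by decide +kernel

theorem octTrio_classes : classesOK octTrioGens trioObjs (sigL octBase) octTrioCls = true := by decide +kernel

theorem octSext_stab : stabOK [octBase] octSextGens = true := by decide +kernel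

theorem octSext_classes : classesOK octSextGens sextetObjs (sigL octBase) octSextCls = true := by decide +kernel

end CfsgLib.Spor
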