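import Cfsg.Agent.Lib.SporObj

/-!
All classes of an invariant as orbits: conjugacy, orbit sizes and maximality of stabilisers.
-/

set_option autoImplicit false

namespace CfsgLib.Spor
open Cfsg
open scoped Pointwise

/-- The listed values cover the objects and each value class is one orbit. -/
noncomputable def classesOK (gens objs : List (List ℕ)) (Φ : List ℕ → ℕ) (cls : List (ℕ × List ℕ)) : Bool :=
  (cls.all fun vw => classOK gens objs (fun X => Nat.beq (Φ X) vw.1) vw.2) &&
    objs.all fun X => cls.any fun vw => Nat.beq (Φ X) vw.1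

/-- The invariant relative to a base family. -/
noncomputable def sigQ (B : List ℕ) (v : ℕ) (X : List ℕ) : Bool := Nat.beq (sigL B X) v

/-- A single orbit on all of the objects. -/
noncomputable def transOK (gens objs : List (List ℕ)) (words : List ℕ) : Bool :=
  classOK gens objs (fun _ => true) words

namespace Coded

variable {α : Type} [MulAction P24 α] {fam : α → Fam} {S : Set α} {objs : List (List ℕ)}

/-- Objects passing a restriction and having equal invariants are conjugate. -/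
theorem conj_class (hC : Coded fam S objs) {comps gens : List (List ℕ)} {R : List ℕ → Bool} {Φ : List ℕ → ℕ}
    {cls : List (ℕ × List ℕ)} (hs : stabOK comps gens = true) (hc : classesOK gens (objs.filter R) Φ cls = true)
    {h : P24} (hh : h ∈ M24) {X Y : List ℕ} (hX : X ∈ objs) (rX : R X = true) (hY : Y ∈ objs) (rY : R Y = true)
    (e : Φ X = Φ Y) {a b : α} (ea : fam a = h • setSet X) (eb : fam b = h • setSet Y) :
    ∃ g ∈ M24, (∀ B ∈ comps, g • (h • setSet B) = h • setSet B) ∧ g • a = b := by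
  simp only [classesOK, Bool.and_eq_true, List.all_eq_true, List.any_eq_true, Nat.beq_eq] at hc
  have mX : X ∈ objs.filter R := List.mem_filter.2 ⟨hX, rX⟩
  have mY : Y ∈ objs.filter R := List.mem_filter.2 ⟨hY, rY⟩
  obtain ⟨vw, hvw, ev⟩ := hc.2 X mX
  obtain ⟨g, hg, eg⟩ := classOK_sound hs (hc.1 vw hvw) mX (by simpa [Nat.beq_eq] using ev) mY
    (by simpa [Nat.beq_eq] using e ▸ ev)
  obtain ⟨hg1, hg2⟩ := mem_stabL.1 hg
  refine ⟨h * g * h⁻¹, mul_mem (mul_mem hh hg1) (inv_mem hh), fun B hB => ?_, hC.inj ?_⟩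
  · rw [mul_smul, mul_smul, inv_smul_smul, hg2 B hB]
  · rw [hC.smul, ea, eb, mul_smul, mul_smul, inv_smul_smul, eg]

/-- Every object is an image of the first coded one. -/
theorem exists_base (hC : Coded fam S objs) {gens : List (List ℕ)} {words : List ℕ}
    (hs : stabOK [] gens = true) (hc : transOK gens objs words = true) {X : List ℕ} (hX : X ∈ objs)
    {a : α} (ha : a ∈ S) : ∃ h ∈ M24, fam a = h • setSet X := by
  obtain ⟨Y, hY, e⟩ := hC.complete a ha
  obtain ⟨g, hg, eg⟩ := classOK_sound hs hc hX rfl hY rfl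
  exact ⟨g, (mem_stabL.1 hg).1, by rw [e, eg]⟩

theorem sig_code (hC : Coded fam S objs) {h : P24} {B X : List ℕ} (hB : niceL B = true) (hX : X ∈ objs)
    {a : α} (e : fam a = h • setSet X) : sigF (h • setSet B) (fam a) = sigL B X := by
  rw [e, sigF_smul, sigF_setSet hB (hC.nice X hX)]

theorem sig_ncard (hC : Coded fam S objs) {h : P24} (hh : h ∈ M24) {B : List ℕ} (hB : niceL B = true) (v : ℕ) :
    {a | a ∈ S ∧ sigF (h • setSet B) (fam a) = v}.ncard = objs.countP (sigQ B v) :=
  hC.ncard_eq hh _ (sigQ B v) fun X hX a _ e => by rw [sigQ, Nat.beq_eq, hC.sig_code hB hX e]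

theorem sig_conj (hC : Coded fam S objs) {B : List ℕ} {gens : List (List ℕ)} {cls : List (ℕ × List ℕ)}
    (hs : stabOK [B] gens = true) (hc : classesOK gens objs (sigL B) cls = true) (hB : niceL B = true)
    {h : P24} (hh : h ∈ M24) {a b : α} (ha : a ∈ S) (hb : b ∈ S)
    (e : sigF (h • setSet B) (fam a) = sigF (h • setSet B) (fam b)) :
    ∃ g ∈ M24, g • (h • setSet B) = h • setSet B ∧ g • a = b := by
  obtain ⟨X, hX, ea⟩ := hC.exists_code hh ha
  obtain ⟨Y, hY, eb⟩ := hC.exists_code hh hb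
  rw [hC.sig_code hB hX ea, hC.sig_code hB hY eb] at e
  have hc' : classesOK gens (objs.filter fun _ => true) (sigL B) cls = true := by rwa [List.filter_true]
  obtain ⟨g, hg, hfix, eg⟩ := hC.conj_class hs hc' hh hX rfl hY rfl e ea eb
  exact ⟨g, hg, hfix B (by simp), eg⟩

/-- A class of the invariant is an orbit of the stabiliser. -/
theorem orbit_exists (hC : Coded fam S objs) {B : List ℕ} {gens : List (List ℕ)} {cls : List (ℕ × List ℕ)}
    (hs : stabOK [B] gens = true) (hc : classesOK gens objs (sigL B) cls = true) (hB : niceL B = true)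
    {h : P24} (hh : h ∈ M24) {β : Type} [MulAction P24 β] {fb : β → Fam}
    (fb_inj : Function.Injective fb) (fb_smul : ∀ (g : P24) (x : β), fb (g • x) = g • fb x)
    {s : β} (hs' : fb s = h • setSet B) {v n : ℕ} (hn : objs.countP (sigQ B v) = n) (h0 : 0 < n) :
    ∃ a ∈ S, (MulAction.orbit ↥(MulAction.stabilizer (↥M24) s) a).ncard = n ∧
      MulAction.orbit ↥(MulAction.stabilizer (↥M24) s) a = {b | b ∈ S ∧ sigF (fb s) (fam b) = v} := by
  have hcard := hC.sig_ncard hh hB v
  rw [hn] at hcard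
  obtain ⟨a, ha, ea⟩ := Set.nonempty_of_ncard_ne_zero (hcard.trans_ne h0.ne')
  have e : MulAction.orbit ↥(MulAction.stabilizer (↥M24) s) a = {b | b ∈ S ∧ sigF (fb s) (fam b) = v} := by
    ext b
    rw [mem_orbit_stab, Set.mem_setOf_eq, hs']
    constructor
    · rintro ⟨g, hg, gs, rfl⟩
      refine ⟨hC.stable g hg a ha, ?_⟩
      have gB : g • (h • setSet B) = h • setSet B := by rw [← hs', ← fb_smul, gs]
      rw [← ea, hC.smul]
      conv_lhs => rw [← gB, sigF_smul]
    · rintro ⟨hb, eb⟩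
      obtain ⟨g, hg, gB, eg⟩ := hC.sig_conj hs hc hB hh ha hb (ea.trans eb.symm)
      exact ⟨g, hg, fb_inj (by rw [fb_smul, hs', gB]), eg⟩
  exact ⟨a, ha, by rw [e, hs']; exact hcard, e⟩

/-- Every object has one of the listed invariants. -/
theorem sig_mem (hC : Coded fam S objs) {B : List ℕ} (hB : niceL B = true) {h : P24} (hh : h ∈ M24)
    {gens : List (List ℕ)} {cls : List (ℕ × List ℕ)} (hc : classesOK gens objs (sigL B) cls = true)
    {a : α} (ha : a ∈ S) : sigF (h • setSet B) (fam a) ∈ cls.map Prod.fst := by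
  obtain ⟨X, hX, ea⟩ := hC.exists_code hh ha
  rw [hC.sig_code hB hX ea]
  simp only [classesOK, Bool.and_eq_true, List.all_eq_true, List.any_eq_true, Nat.beq_eq] at hc
  obtain ⟨vw, hvw, e⟩ := hc.2 X hX
  exact List.mem_map.2 ⟨vw, hvw, e.symm⟩

end Coded

/-- No proper union of classes has size dividing the number of objects. -/
noncomputable def blockOK (objs : List (List ℕ)) (Φ : List ℕ → ℕ) (v0 : ℕ) (vs : List ℕ) : Bool :=
  vs.sublists.all fun W => forceNat (objs.countP fun X => memL (Φ X) (v0 :: W)) fun k =>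
    Nat.beq k 1 || Nat.beq k objs.length || !Nat.beq (objs.length % k) 0

/-- A stabiliser with no possible blocks is a coatom. -/
theorem isCoatom_stabilizer {G α : Type} [Group G] [Finite G] [MulAction G α] {x : α} {S : Set α}
    (hx : x ∈ S) (hst : ∀ g : G, ∀ a ∈ S, g • a ∈ S) (htr : ∀ a ∈ S, ∃ g : G, g • x = a) (h1 : 1 < S.ncard)
    (hblock : ∀ B ⊆ S, x ∈ B → B.ncard ∣ S.ncard →
      (∀ g : G, g • x = x → ∀ b ∈ B, g • b ∈ B) → B.ncard = 1 ∨ B.ncard = S.ncard) :
    IsCoatom (MulAction.stabilizer G x) := by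
  have htop : Nat.card (⊤ : Subgroup G) = S.ncard * Nat.card ↥(MulAction.stabilizer G x) := by
    have := card_eq_ncard_mul (⊤ : Subgroup G) x S (fun g _ => hst g x hx)
      (fun a ha => (htr a ha).imp fun g e => ⟨Subgroup.mem_top g, e⟩)
    rwa [top_inf_eq] at this
  have hpos : 0 < Nat.card ↥(MulAction.stabilizer G x) := Nat.card_pos
  refine ⟨fun htop' => ?_, fun K hK => ?_⟩
  · rw [htop'] at htop
    have : 0 < Nat.card (⊤ : Subgroup G) := Nat.card_pos
    nlinarith
  obtain ⟨hle, hne⟩ := (lt_iff_le_and_ne.1 hK)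
  set B : Set α := (fun g => g • x) '' (K : Set G) with hB
  have hK' := card_eq_ncard_mul K x B (fun g hg => ⟨g, hg, rfl⟩) (fun y hy => by
    obtain ⟨g, hg, rfl⟩ := hy; exact ⟨g, hg, rfl⟩)
  rw [inf_eq_right.2 hle] at hK'
  have hdvd : B.ncard ∣ S.ncard := by
    have := Subgroup.card_dvd_of_le (le_top : K ≤ ⊤)
    rw [hK', htop] at this
    exact Nat.dvd_of_mul_dvd_mul_right hpos this
  rcases hblock B (by rintro _ ⟨g, -, rfl⟩; exact hst g x hx) ⟨1, K.one_mem, one_smul _ _⟩ hdvd
    (fun g hg b hb => by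
      obtain ⟨k, hk, rfl⟩ := hb
      exact ⟨g * k, K.mul_mem (hle hg) hk, mul_smul ..⟩) with h | h
  · rw [h, one_mul] at hK'
    exact absurd (Subgroup.eq_of_le_of_card_ge hle hK'.le) hne
  · rw [h, ← htop] at hK'
    exact Subgroup.eq_top_of_card_eq K (hK'.trans Subgroup.card_top)

/-- Maximality from certified classes of the invariant. -/
theorem Coded.isCoatom {α : Type} [MulAction P24 α] {fam : α → Fam} {S : Set α} {objs : List (List ℕ)}
    (hC : Coded fam S objs) {gens0 : List (List ℕ)} {words0 : List ℕ}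
    (hs0 : stabOK [] gens0 = true) (hc0 : transOK gens0 objs words0 = true)
    {B : List ℕ} {gens : List (List ℕ)} {cls : List (ℕ × List ℕ)} {Φ : List ℕ → ℕ}
    (hs : stabOK [B] gens = true) (hc : classesOK gens objs Φ cls = true) (hB : B ∈ objs)
    (hblk : blockOK objs Φ (Φ B) (cls.map Prod.fst) = true) (hlen : 1 < objs.length) {x : α} (hx : x ∈ S) :
    IsCoatom (MulAction.stabilizer (↥M24) x) := by
  classical
  obtain ⟨h, hh, ex⟩ := hC.exists_base hs0 hc0 hB hx
  have hcard : S.ncard = objs.length := hC.ncard_univ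
  refine isCoatom_stabilizer hx (fun g a ha => hC.stable g g.2 a ha) ?_ (hcard ▸ hlen) ?_
  · intro a ha
    obtain ⟨h', hh', ea⟩ := hC.exists_base hs0 hc0 hB ha
    refine ⟨⟨h' * h⁻¹, mul_mem hh' (inv_mem hh)⟩, hC.inj ?_⟩
    show fam ((h' * h⁻¹ : P24) • x) = fam a
    rw [hC.smul, ex, ea, mul_smul, inv_smul_smul]
  intro T hTS hxT hdvd hinv
  set W : List ℕ := (cls.map Prod.fst).filter fun v =>
    decide (∃ a ∈ T, ∃ X ∈ objs, fam a = h • setSet X ∧ Φ X = v) with hW
  have hT : T = {a | a ∈ S ∧ a ∈ T} := Set.ext fun a => ⟨fun h => ⟨hTS h, h⟩, And.right⟩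
  have hc' : classesOK gens (objs.filter fun _ => true) Φ cls = true := by rwa [List.filter_true]
  have hmove : ∀ X ∈ objs, ∀ a ∈ S, fam a = h • setSet X →
      (memL (Φ X) (Φ B :: W) = true ↔ a ∈ T) := by
    intro X hX a ha ea
    rw [memL_iff, List.mem_cons]
    constructor
    · intro hm
      obtain ⟨b, hb, Y, hY, eb, ev⟩ : ∃ b ∈ T, ∃ Y ∈ objs, fam b = h • setSet Y ∧ Φ Y = Φ X := by
        rcases hm with hm | hm
        · exact ⟨x, hxT, B, hB, ex, hm.symm⟩
        · simpa using (List.mem_filter.1 hm).2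
      obtain ⟨g, hg, hfix, eg⟩ := hC.conj_class hs hc' hh hY rfl hX rfl ev eb ea
      rw [← eg]
      exact hinv ⟨g, hg⟩ (hC.inj (by show fam (g • x) = fam x; rw [hC.smul, ex, hfix B (by simp)])) b hb
    · intro hm
      refine Or.inr (List.mem_filter.2 ⟨?_, decide_eq_true ⟨a, hm, X, hX, ea, rfl⟩⟩)
      simp only [classesOK, Bool.and_eq_true, List.all_eq_true, List.any_eq_true, Nat.beq_eq] at hc
      obtain ⟨vw, hvw, e⟩ := hc.2 X hX
      exact List.mem_map.2 ⟨vw, hvw, e.symm⟩
  have hn : T.ncard = objs.countP fun X => memL (Φ X) (Φ B :: W) := by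
    conv_lhs => rw [hT]
    exact hC.ncard_eq hh _ _ hmove
  have hk := List.all_eq_true.1 hblk W (List.mem_sublists.2 List.filter_sublist)
  simp only [forceNat_eq, ← hn, Bool.or_eq_true, Nat.beq_eq, Bool.not_eq_true'] at hk
  rcases hk with (hk | hk) | hk
  · exact Or.inl hk
  · exact Or.inr (hk.trans hcard.symm)
  · rw [hcard] at hdvd
    rw [Nat.dvd_iff_mod_eq_zero] at hdvd
    simp [hdvd] at hk

end CfsgLib.Spor
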