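import Cfsg.Agent.Lib.SporObjSets
import Cfsg.Agent.Lib.SporObjClass

/-!
Small lemmas for using certified classes of coded objects.
-/

set_option autoImplicit false

namespace CfsgLib.Spor
open Cfsg
open scoped Pointwise

theorem sigF_one_one (s t : Finset GolayPt) : sigF (famOne s) (famOne t) = 100 ^ (s ∩ t).card := by
  simp [sigF, famOne]

theorem sigF_famOne_iff (s t : Finset GolayPt) (k : ℕ) :
    sigF (famOne s) (famOne t) = 100 ^ k ↔ (s ∩ t).card = k := by
  rw [sigF_one_one]
  exact ⟨fun h => Nat.pow_right_injective (by norm_num) h, fun h => by rw [h]⟩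

theorem famOne_smul_setSet {g : P24} {s : Finset GolayPt} {B : List ℕ} {h : P24} (e : famOne s = h • setSet B)
    (hg : g • (h • setSet B) = h • setSet B) : g • s = s :=
  famOne_injective (by rw [famOne_smul, e, hg])

namespace Coded

variable {α : Type} [MulAction P24 α] {fam : α → Fam} {S : Set α} {objs : List (List ℕ)}

/-- An object alone in its class. -/
theorem sig_singleton (hC : Coded fam S objs) {h : P24} (hh : h ∈ M24) {B : List ℕ} (hB : niceL B = true)
    {v : ℕ} {a : α} (ha : a ∈ S) (ea : sigF (h • setSet B) (fam a) = v) (h1 : objs.countP (sigQ B v) = 1) :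
    {b | b ∈ S ∧ sigF (h • setSet B) (fam b) = v} = {a} := by
  obtain ⟨c, hc⟩ := Set.ncard_eq_one.1 ((hC.sig_ncard hh hB v).trans h1)
  have : a ∈ ({c} : Set α) := by rw [← hc]; exact ⟨ha, ea⟩
  rw [hc, Set.mem_singleton_iff.1 this]

end Coded

theorem octads_inter_compl_union {o o' : Finset GolayPt} (ho : o ∈ octads) (ho' : o' ∈ octads)
    (hd : Disjoint o o') : (o ∪ o')ᶜ ∈ octads := by
  refine ⟨compl_mem_codeSets ?_, ?_⟩
  · have := codeSets_symmDiff ho.1 ho'.1
    rwa [hd.symmDiff_eq_sup] at this
  · rw [Finset.card_compl, Finset.card_union_of_disjoint hd, ho.2, ho'.2]; simp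

end CfsgLib.Spor
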