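import Cfsg.Agent.Lib.SporObjBases
import Cfsg.Agent.Lib.SporObjUse
import Cfsg.Agent.Lib.SporObjWordsPoint

/-!
Certified orbits of stabilisers of points, and translation lemmas for single sets and points.
-/

set_option autoImplicit false
set_option maxRecDepth 20000

namespace CfsgLib.Spor
open Cfsg
open scoped Pointwise

/-- Does the first member contain the point with number `i`? -/
def hasPt (i : ℕ) (X : List ℕ) : Bool := (X.headD 0).testBit i

/-- Does the first member meet the mask? -/
noncomputable def inMask (b : ℕ) (X : List ℕ) : Bool := !Nat.beq (Nat.land b (X.headD 0)) 0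

/-- The intersection number of the first member with a mask. -/
noncomputable def meetNum (b : ℕ) (X : List ℕ) : ℕ := wt (b &&& X.headD 0)

/-- Is the pair inside an octad with the four base points? -/
def pairProp (t : ℕ) : Bool := octList.any fun o => Nat.beq (Nat.land o (Nat.lor 15 t)) (Nat.lor 15 t)

/-- The invariant of a pair relative to the four base points. -/
noncomputable def pairPhi (X : List ℕ) : ℕ :=
  forceNat (X.headD 0) fun t => 2 * wt (12 &&& t) + cond (pairProp t) 1 0

theorem trioOn_stab : stabOK [[8391797]] trioOnGens = true := by decide +kernel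

theorem trioOn_classes : classesOK trioOnGens (trioObjs.filter (fun X => memL 8391797 X)) (fun _ => 0) trioOnCls = true := by decide +kernel

theorem trioPair_stab : stabOK [[8391797], trioBase] trioPairGens = true := by decide +kernel

theorem trioPair_classes : classesOK trioPairGens (trioObjs.filter (fun X => memL 8391797 X && !sameSet X trioBase)) (fun _ => 0) trioPairCls = true := by decide +kernel

theorem octPt_stab : stabOK [[2 ^ 0]] octPtGens = true := by decide +kernel

theorem octPt_classes : classesOK octPtGens (octObjs.filter (hasPt 0)) (fun _ => 0) octPtCls = true := by decide +kernel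

theorem octPtIn_stab : stabOK [[2 ^ 0], octBase] octPtInGens = true := by decide +kernel

theorem octPtIn_classes : classesOK octPtInGens (octObjs.filter (hasPt 0)) (meetNum 5279) octPtInCls = true := by decide +kernel

theorem octPtOff_stab : stabOK [[2 ^ 23]] octPtOffGens = true := by decide +kernel

theorem octPtOff_classes : classesOK octPtOffGens (octObjs.filter (fun X => !hasPt 23 X)) (fun _ => 0) octPtOffCls = true := by decide +kernel

theorem octPtOut_stab : stabOK [[2 ^ 23], octBase] octPtOutGens = true := by decide +kernel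

theorem octPtOut_classes : classesOK octPtOutGens (octObjs.filter (fun X => !hasPt 23 X)) (meetNum 5279) octPtOutCls = true := by decide +kernel

theorem ptOther_stab : stabOK [[2 ^ 0]] ptOtherGens = true := by decide +kernel

theorem ptOther_classes : classesOK ptOtherGens (ptObjs.filter (fun X => !hasPt 0 X)) (fun _ => 0) ptOtherCls = true := by decide +kernel

theorem octTwo_stab : stabOK [[2 ^ 0], [2 ^ 1]] octTwoGens = true := by decide +kernel

theorem octTwo_classes : classesOK octTwoGens (octObjs.filter (fun X => hasPt 0 X && hasPt 1 X)) (fun _ => 0) octTwoCls = true := by decide +kernel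

theorem octTwoIn_stab : stabOK [[2 ^ 0], [2 ^ 1], octBase] octTwoInGens = true := by decide +kernel

theorem octTwoIn_classes : classesOK octTwoInGens (octObjs.filter (fun X => hasPt 0 X && hasPt 1 X)) (meetNum 5279) octTwoInCls = true := by decide +kernel

theorem octOne_stab : stabOK [[2 ^ 0], [2 ^ 1]] octOneGens = true := by decide +kernel

theorem octOne_classes : classesOK octOneGens (octObjs.filter (fun X => hasPt 0 X && !hasPt 1 X)) (fun _ => 0) octOneCls = true := by decide +kernel

theorem octOneIn_stab : stabOK [[2 ^ 0], [2 ^ 1], [15777]] octOneInGens = true := by decide +kernel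

theorem octOneIn_classes : classesOK octOneInGens (octObjs.filter (fun X => hasPt 0 X && !hasPt 1 X)) (meetNum 15777) octOneInCls = true := by decide +kernel

theorem duadTwo_stab : stabOK [[2 ^ 0], [2 ^ 1]] duadTwoGens = true := by decide +kernel

theorem duadTwo_classes : classesOK duadTwoGens (duadObjs.filter (fun X => !hasPt 0 X && !hasPt 1 X)) (fun _ => 0) duadTwoCls = true := by decide +kernel

theorem duadTwoIn_stab : stabOK [[2 ^ 0], [2 ^ 1], [12]] duadTwoInGens = true := by decide +kernel

theorem duadTwoIn_classes : classesOK duadTwoInGens (duadObjs.filter (fun X => !hasPt 0 X && !hasPt 1 X && !Nat.beq (X.headD 0) 12)) (pairPhi) duadTwoInCls = true := by decide +kernel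

theorem dodPt_stab : stabOK [[2 ^ 0]] dodPtGens = true := by decide +kernel

theorem dodPt_classes : classesOK dodPtGens (dodObjs.filter (hasPt 0)) (fun _ => 0) dodPtCls = true := by decide +kernel

theorem dodPtIn_stab : stabOK [[2 ^ 0], dodBase] dodPtInGens = true := by decide +kernel

theorem dodPtIn_classes : classesOK dodPtInGens (dodObjs.filter (hasPt 0)) (meetNum 8419127) dodPtInCls = true := by decide +kernel

theorem dpPt_stab : stabOK [dodBase] dpPtGens = true := by decide +kernel

theorem dpPt_classes : classesOK dpPtGens (ptObjs.filter (inMask 8419127)) (fun _ => 0) dpPtCls = true := by decide +kernel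

theorem dpOut1_stab : stabOK [dodBase, [2 ^ 0]] dpOut1Gens = true := by decide +kernel

theorem dpOut1_classes : classesOK dpOut1Gens (ptObjs.filter (inMask 8358088)) (fun _ => 0) dpOut1Cls = true := by decide +kernel

theorem dpOut2_stab : stabOK [dodBase, [2 ^ 0], [2 ^ 3]] dpOut2Gens = true := by decide +kernel

theorem dpOut2_classes : classesOK dpOut2Gens (ptObjs.filter (inMask 8358080)) (fun _ => 0) dpOut2Cls = true := by decide +kernel

theorem dpOut3_stab : stabOK [dodBase, [2 ^ 0], [2 ^ 3], [2 ^ 6]] dpOut3Gens = true := by decide +kernel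

theorem dpOut3_classes : classesOK dpOut3Gens (ptObjs.filter (inMask 8358016)) (fun _ => 0) dpOut3Cls = true := by decide +kernel

theorem dpIn1_stab : stabOK [dodBase, [2 ^ 0]] dpIn1Gens = true := by decide +kernel

theorem dpIn1_classes : classesOK dpIn1Gens (ptObjs.filter (inMask 8419126)) (fun _ => 0) dpIn1Cls = true := by decide +kernel

theorem dpIn2_stab : stabOK [dodBase, [2 ^ 0], [2 ^ 1]] dpIn2Gens = true := by decide +kernel

theorem dpIn2_classes : classesOK dpIn2Gens (ptObjs.filter (inMask 8419124)) (fun _ => 0) dpIn2Cls = true := by decide +kernel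

theorem dpThree_stab : stabOK [dodBase, [2 ^ 0], [2 ^ 1], [2 ^ 2]] dpThreeGens = true := by decide +kernel

theorem dpThree_classes : classesOK dpThreeGens (ptObjs.filter (inMask 8358088)) (fun _ => 0) dpThreeCls = true := by decide +kernel

theorem Coded.eq_single {S : Set (Finset GolayPt)} {objs : List (List ℕ)} (hC : Coded famOne S objs)
    {X : List ℕ} (hX : X ∈ objs) : ∃ m, X = [m] := by
  obtain ⟨a, -, e⟩ := hC.sound X hX
  have hc := card_setSet' (hC.nice X hX)
  rw [← e] at hc
  match X with
  | [m] => exact ⟨m, rfl⟩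
  | [] => simp [famOne] at hc
  | _ :: _ :: _ => simp [famOne] at hc

theorem smul_setSet_one (h : P24) (m : ℕ) : h • setSet [m] = famOne (h • setOfMask m) := by
  rw [famOne_setSet, famOne_smul]

theorem Coded.one_code {S : Set (Finset GolayPt)} {objs : List (List ℕ)} (hC : Coded famOne S objs) {h : P24}
    (hh : h ∈ M24) {a : Finset GolayPt} (ha : a ∈ S) : ∃ m, [m] ∈ objs ∧ a = h • setOfMask m := by
  obtain ⟨X, hX, e⟩ := hC.exists_code hh ha
  obtain ⟨m, rfl⟩ := hC.eq_single hX
  exact ⟨m, hX, famOne_injective (e.trans (smul_setSet_one h m))⟩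

theorem Coded.one_mem {S : Set (Finset GolayPt)} {objs : List (List ℕ)} (hC : Coded famOne S objs) {h : P24}
    (hh : h ∈ M24) {m : ℕ} (hm : [m] ∈ objs) : h • setOfMask m ∈ S := by
  obtain ⟨a, ha, e⟩ := hC.exists_obj hh hm
  rwa [← famOne_injective (e.trans (smul_setSet_one h m))]

theorem Coded.one_ncard {S : Set (Finset GolayPt)} {objs : List (List ℕ)} (hC : Coded famOne S objs) {h : P24}
    (hh : h ∈ M24) (P : Finset GolayPt → Prop) (Q : List ℕ → Bool)
    (hPQ : ∀ m, [m] ∈ objs → (Q [m] = true ↔ P (h • setOfMask m))) :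
    {a | a ∈ S ∧ P a}.ncard = objs.countP Q :=
  hC.ncard_eq hh P Q fun X hX a _ e => by
    obtain ⟨m, rfl⟩ := hC.eq_single hX
    rw [famOne_injective (e.trans (smul_setSet_one h m))]
    exact hPQ m hX

theorem Coded.one_conj {S : Set (Finset GolayPt)} {objs : List (List ℕ)} (hC : Coded famOne S objs)
    {comps gens : List (List ℕ)} {R : List ℕ → Bool} {Φ : List ℕ → ℕ} {cls : List (ℕ × List ℕ)}
    (hs : stabOK comps gens = true) (hc : classesOK gens (objs.filter R) Φ cls = true)
    {h : P24} (hh : h ∈ M24) {m n : ℕ} (hm : [m] ∈ objs) (rm : R [m] = true) (hn : [n] ∈ objs) (rn : R [n] = true)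
    (e : Φ [m] = Φ [n]) :
    ∃ g ∈ M24, (∀ B ∈ comps, g • (h • setSet B) = h • setSet B) ∧ g • (h • setOfMask m) = h • setOfMask n :=
  hC.conj_class hs hc hh hm rm hn rn e (smul_setSet_one h m).symm (smul_setSet_one h n).symm

theorem pt_conj {comps gens : List (List ℕ)} {R : List ℕ → Bool} {cls : List (ℕ × List ℕ)}
    (hs : stabOK comps gens = true) (hc : classesOK gens (ptObjs.filter R) (fun _ => 0) cls = true)
    {h : P24} (hh : h ∈ M24) {i j : ℕ} (hi : i < 24) (ri : R [2 ^ i] = true) (hj : j < 24) (rj : R [2 ^ j] = true) :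
    ∃ g ∈ M24, (∀ B ∈ comps, g • (h • setSet B) = h • setSet B) ∧ g (h (pt i)) = h (pt j) := by
  have key : ∀ k, k < 24 → famPt (h (pt k)) = h • setSet [2 ^ k] := fun k hk => by
    rw [famPt_setSet hk, ← famPt_smul]; rfl
  obtain ⟨g, hg, hfix, e⟩ := ptCoded.conj_class hs hc hh (List.mem_map.2 ⟨i, List.mem_range.2 hi, rfl⟩) ri
    (List.mem_map.2 ⟨j, List.mem_range.2 hj, rfl⟩) rj rfl (key i hi) (key j hj)
  exact ⟨g, hg, hfix, e⟩

theorem pt_fixed {g h : P24} {i : ℕ} (hi : i < 24) (e : g • (h • setSet [2 ^ i]) = h • setSet [2 ^ i]) :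
    g (h (pt i)) = h (pt i) := by
  rw [famPt_setSet hi, ← famPt_smul, ← famPt_smul] at e
  exact famPt_injective e

theorem set_fixed {g h : P24} {m : ℕ} (e : g • (h • setSet [m]) = h • setSet [m]) :
    g • (h • setOfMask m) = h • setOfMask m := by
  rw [smul_setSet_one, ← famOne_smul] at e
  exact famOne_injective e

theorem mem_smul_mask (h : P24) (m : ℕ) {i : ℕ} (hi : i < 24) :
    h (pt i) ∈ h • setOfMask m ↔ m.testBit i = true := by
  rw [← Equiv.Perm.smul_def, Finset.smul_mem_smul_finset_iff, mem_setOfMask, ix_pt hi]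

theorem card_inter_mask (h : P24) (a b : ℕ) :
    (h • setOfMask a ∩ h • setOfMask b).card = wt (a &&& b) := by
  rw [← Finset.smul_finset_inter, Finset.card_smul_finset, ← setOfMask_and, card_setOfMask]

theorem exists_pt {h : P24} (p : GolayPt) : ∃ i < 24, p = h (pt i) :=
  ⟨ix (h⁻¹ p), ix_lt _, by rw [pt_ix]; simp⟩

/-- A map carrying the first base point to a given point. -/
theorem exists_first (p : GolayPt) : ∃ h ∈ M24, h (pt 0) = p := by
  obtain ⟨g, hg, e⟩ := exists_M24_map (n := 1) (by norm_num) ⟨fun _ => pt 0, fun a b _ => Subsingleton.elim a b⟩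
    ⟨fun _ => p, fun a b _ => Subsingleton.elim a b⟩
  exact ⟨g, hg, e 0⟩

/-- A map carrying two distinct base points to given ones. -/
theorem exists_first_two {p q : GolayPt} (hpq : p ≠ q) : ∃ h ∈ M24, h (pt 0) = p ∧ h (pt 1) = q := by
  obtain ⟨g, hg, e⟩ := exists_M24_map (n := 2) (by norm_num) ⟨![pt 0, pt 1], by decide⟩
    ⟨![p, q], by intro a b e; fin_cases a <;> fin_cases b <;> simp_all⟩
  exact ⟨g, hg, e 0, e 1⟩

theorem subset_smul_mask {h : P24} {a k : ℕ} (ha : a < 2 ^ 24) :
    h • setOfMask a ⊆ h • setOfMask k ↔ k &&& a = a := by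
  rw [Finset.smul_finset_subset_smul_finset_iff, ← Finset.inter_eq_right, ← setOfMask_and]
  exact ⟨fun e => setOfMask_inj (lt_of_le_of_lt Nat.and_le_right ha) ha e, fun e => by rw [e]⟩

/-- Being inside an octad, in coordinates. -/
theorem exists_octad_superset {h : P24} (hh : h ∈ M24) {a : ℕ} (ha : a < 2 ^ 24) :
    (∃ o ∈ octads, h • setOfMask a ⊆ o) ↔ (octList.any fun o => Nat.beq (Nat.land o a) a) = true := by
  simp only [List.any_eq_true, Nat.beq_eq]
  constructor
  · rintro ⟨o, ho, hsub⟩
    obtain ⟨k, hk, rfl⟩ := octCoded.one_code hh ho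
    obtain ⟨k', hk', e⟩ := List.mem_map.1 hk
    obtain rfl : k' = k := by simpa using e
    exact ⟨k', hk', (subset_smul_mask ha).1 hsub⟩
  · rintro ⟨k, hk, e⟩
    exact ⟨_, octCoded.one_mem hh (List.mem_map.2 ⟨k, hk, rfl⟩), (subset_smul_mask ha).2 e⟩

theorem objs_small {S : Set (Finset GolayPt)} {objs : List (List ℕ)} (hC : Coded famOne S objs) {m : ℕ}
    (hm : [m] ∈ objs) : m < 2 ^ 24 :=
  smallL_iff.1 (niceL_iff.1 (hC.nice [m] hm)).1 m (by simp)

theorem inMask_two_pow {b i : ℕ} (hi : i < 24) (h : b.testBit i = true) : inMask b [2 ^ i] = true := by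
  have : Nat.land b (2 ^ i) ≠ 0 := by
    intro e
    have h' := congrArg (fun x => x.testBit i) e
    change (b &&& 2 ^ i).testBit i = _ at h'
    simp [h] at h'
  simpa [inMask, ← Bool.not_eq_true, Nat.beq_eq] using this

theorem outside_mask (d e : ℕ) (h : ((List.range 24).all fun i => d.testBit i || e.testBit i) = true) {i : ℕ}
    (hi : i < 24) (hd : ¬ d.testBit i = true) : e.testBit i = true := by
  have := List.all_eq_true.1 h i (List.mem_range.2 hi)
  simp only [Bool.or_eq_true] at this
  exact this.resolve_left hd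

theorem outside_mask1 (d _e e' a : ℕ)
    (h : ((List.range 24).all fun i => d.testBit i || Nat.beq i a || e'.testBit i) = true) {i : ℕ}
    (hi : i < 24) (hd : ¬ d.testBit i = true) (ha : i ≠ a) : e'.testBit i = true := by
  have := List.all_eq_true.1 h i (List.mem_range.2 hi)
  simp only [Bool.or_eq_true, Nat.beq_eq] at this
  rcases this with (h' | h') | h' <;> tauto

theorem outside_mask2 (d _e _e' e'' a b : ℕ)
    (h : ((List.range 24).all fun i => d.testBit i || Nat.beq i a || Nat.beq i b || e''.testBit i) = true) {i : ℕ}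
    (hi : i < 24) (hd : ¬ d.testBit i = true) (ha : i ≠ a) (hb : i ≠ b) : e''.testBit i = true := by
  have := List.all_eq_true.1 h i (List.mem_range.2 hi)
  simp only [Bool.or_eq_true, Nat.beq_eq] at this
  rcases this with ((h' | h') | h') | h' <;> tauto

end CfsgLib.Spor
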