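import Cfsg.Agent.Lib.SporObjBases
import Cfsg.Agent.Lib.SporObjWordsTrans

/-!
The group of the code is transitive on the coded sets.
-/

set_option autoImplicit false
set_option maxRecDepth 20000

namespace CfsgLib.Spor
open Cfsg

theorem trOct_stab : stabOK [] trOctGens = true := by decide +kernel

theorem trOct_trans : transOK trOctGens octObjs trOctWords = true := by decide +kernel

theorem trDod_stab : stabOK [] trDodGens = true := by decide +kernel

theorem trDod_trans : transOK trDodGens dodObjs trDodWords = true := by decide +kernel

theorem trDpair_stab : stabOK [] trDpairGens = true := by decide +kernel

theorem trDpair_trans : transOK trDpairGens dpairObjs trDpairWords = true := by decide +kernel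

theorem trTrio_stab : stabOK [] trTrioGens = true := by decide +kernel

theorem trTrio_trans : transOK trTrioGens trioObjs trTrioWords = true := by decide +kernel

theorem trSext_stab : stabOK [] trSextGens = true := by decide +kernel

theorem trSext_trans : transOK trSextGens sextetObjs trSextWords = true := by decide +kernel

theorem trPt_stab : stabOK [] trPtGens = true := by decide +kernel

theorem trPt_trans : transOK trPtGens ptObjs trPtWords = true := by decide +kernel

theorem trDuad_stab : stabOK [] trDuadGens = true := by decide +kernel

theorem trDuad_trans : transOK trDuadGens duadObjs trDuadWords = true := by decide +kernel

theorem trTriad_stab : stabOK [] trTriadGens = true := by decide +kernel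

theorem trTriad_trans : transOK trTriadGens triadObjs trTriadWords = true := by decide +kernel

end CfsgLib.Spor
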