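import Cfsg.Agent.Lib.SporGolayPerfect
import Cfsg.Agent.Lib.SporMathieu
import Cfsg.Agent.Lib.SporObjTrans
import Cfsg.Agent.Lib.SporObjCertOct
import Cfsg.Agent.Lib.SporObjCertDod
import Cfsg.Agent.Lib.SporObjPoint

/-!
The permutation module of the 24 points: stabilisers of codewords on the cosets of the code, and the
invariant subspaces.
-/

set_option autoImplicit false
set_option maxRecDepth 20000

namespace CfsgLib.Spor.GolayMod
open Cfsg
open scoped Pointwise

/-- The permuted word. -/
def act (σ : P24) (w : GolayPt → ZMod 2) : GolayPt → ZMod 2 := fun p => w (σ.symm p)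

theorem act_add (σ : P24) (a b : GolayPt → ZMod 2) : act σ (a + b) = act σ a + act σ b := rfl

theorem act_sub (σ : P24) (a b : GolayPt → ZMod 2) : act σ (a - b) = act σ a - act σ b := rfl

theorem act_mul (σ τ : P24) (w : GolayPt → ZMod 2) : act (σ * τ) w = act σ (act τ w) := rfl

theorem act_one (w : GolayPt → ZMod 2) : act 1 w = w := rfl

theorem support₂_act (σ : P24) (w : GolayPt → ZMod 2) : support₂ (act σ w) = σ • support₂ w := by
  ext p
  rw [← Finset.inv_smul_mem_iff, mem_support₂', mem_support₂']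
  rfl
where
  mem_support₂' {v : GolayPt → ZMod 2} {q : GolayPt} : q ∈ support₂ v ↔ v q ≠ 0 := by simp [support₂]

theorem norm_act (σ : P24) (w : GolayPt → ZMod 2) : hammingNorm (act σ w) = hammingNorm w := by
  rw [hammingNorm_eq_card, hammingNorm_eq_card, support₂_act, Finset.card_smul_finset]

theorem mem_iff_support {w : GolayPt → ZMod 2} : w ∈ golayCode ↔ support₂ w ∈ codeSets :=
  ⟨fun h => ⟨w, h, rfl⟩, fun ⟨v, hv, e⟩ => support₂_injective e ▸ hv⟩

theorem act_mem {σ : P24} (hσ : σ ∈ M24) {w : GolayPt → ZMod 2} (hw : w ∈ golayCode) : act σ w ∈ golayCode := by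
  rw [mem_iff_support, support₂_act]
  exact mem_M24_iff_forall.1 hσ _ (mem_iff_support.1 hw)

theorem act_mem_iff {σ : P24} (hσ : σ ∈ M24) {w : GolayPt → ZMod 2} : act σ w ∈ golayCode ↔ w ∈ golayCode :=
  ⟨fun h => by have := act_mem (inv_mem hσ) h; rwa [← act_mul, inv_mul_cancel, act_one] at this, act_mem hσ⟩

theorem high_ok : (codeMasks.map (· / 4096) == List.range 4096) = true := by decide +kernel

theorem exists_residue (m : ℕ) (hm : m < 2 ^ 24) : ∃ c ∈ codeMasks, m ^^^ c < 4096 := by
  have h := eq_of_beq high_ok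
  have : m / 4096 ∈ codeMasks.map (· / 4096) := by
    rw [h, List.mem_range]; omega
  obtain ⟨c, hc, e⟩ := List.mem_map.1 this
  refine ⟨c, hc, ?_⟩
  have hx : (m ^^^ c) >>> 12 = 0 := by
    rw [Nat.shiftRight_xor_distrib, Nat.shiftRight_eq_div_pow, Nat.shiftRight_eq_div_pow,
      show (2 : ℕ) ^ 12 = 4096 by norm_num, show c / 4096 = m / 4096 from e, Nat.xor_self]
  rw [Nat.shiftRight_eq_div_pow] at hx
  omega

/-- Every non-zero residue is moved off its coset by one of the lists. -/
noncomputable def movesOK (gens : List (List ℕ)) : Bool :=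
  (List.range 4096).all fun r => Nat.beq r 0 || gens.any fun L => !inCode (Nat.xor (pull L r) r)

theorem moves_all : (movesOK trPtGens && movesOK octOctGens && movesOK dodDodGens) = true := by decide +kernel

theorem exists_move {comps gens : List (List ℕ)} (hs : stabOK comps gens = true) (hm : movesOK gens = true)
    {w : GolayPt → ZMod 2} (hw : w ∉ golayCode) : ∃ g ∈ stabL comps, act g w - w ∉ golayCode := by
  set m := maskOf (support₂ w) with hmdef
  have hwm : wordOf m = w := wordOf_maskOf_support₂ w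
  obtain ⟨c, hc, hr⟩ := exists_residue m (maskOf_lt _)
  set r := m ^^^ c with hrdef
  have hr0 : r ≠ 0 := fun e => hw (by
    rw [Nat.xor_eq_zero_iff.1 e] at hwm
    exact hwm ▸ mem_golayCode_iff.2 ⟨c, hc, rfl⟩)
  have h := List.all_eq_true.1 hm r (List.mem_range.2 hr)
  simp only [Bool.or_eq_true, Nat.beq_eq, List.any_eq_true, Bool.not_eq_true'] at h
  obtain ⟨L, hL, hno⟩ := h.resolve_left hr0
  obtain ⟨g, hg, hl, hrep⟩ := stabOK_spec hs L hL
  refine ⟨g⁻¹, inv_mem hg, fun hin => ?_⟩
  have hgM : g⁻¹ ∈ M24 := inv_mem (mem_stabL.1 hg).1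
  have hword : ∀ k, act g⁻¹ (wordOf k) = wordOf (pull L k) := fun k => support₂_injective (by
    rw [support₂_act, support₂_wordOf, support₂_wordOf, hrep.smul_setOfMask hl])
  have hm' : m = r ^^^ c := by rw [hrdef, Nat.xor_assoc, Nat.xor_self, Nat.xor_zero]
  have e : act g⁻¹ w - w = wordOf (pull L r ^^^ r) + (act g⁻¹ (wordOf c) + wordOf c) := by
    have hm'' : wordOf m = wordOf r + wordOf c := by rw [← wordOf_xor]; exact congrArg wordOf hm'
    rw [← hwm, hm'', act_add, Perfect.sub_eq, hword r, wordOf_xor (pull L r) r]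
    abel
  rw [e, Submodule.add_mem_iff_left _ (add_mem (act_mem hgM (mem_golayCode_iff.2 ⟨c, hc, rfl⟩))
    (mem_golayCode_iff.2 ⟨c, hc, rfl⟩)), mem_golayCode_iff] at hin
  obtain ⟨k, hk, ek⟩ := hin
  have hlt : pull L r ^^^ r < 2 ^ 24 := Nat.xor_lt_two_pow
    (lt_of_lt_of_le (by rw [pull_eq]; exact fromBits_lt _) (by rw [List.length_map, hl]))
    (by omega)
  have := setOfMask_inj (codeMasks_lt k hk) hlt (by rw [← support₂_wordOf, ← support₂_wordOf, ek])
  rw [this] at hk
  exact Bool.noConfusion ((show inCode (Nat.xor (pull L r) r) = true from inCode_iff.2 hk).symm.trans hno)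

theorem exists_move_of_fix {s : Finset GolayPt} {b : P24} (hb : b ∈ M24) {m : ℕ} (e : b • setOfMask m = s)
    {gens : List (List ℕ)} (hs : stabOK [[m]] gens = true) (hm : movesOK gens = true)
    {w : GolayPt → ZMod 2} (hw : w ∉ golayCode) : ∃ σ ∈ M24, σ • s = s ∧ act σ w - w ∉ golayCode := by
  obtain ⟨g, hg, hmove⟩ := exists_move hs hm (w := act b⁻¹ w) fun h => hw ((act_mem_iff (inv_mem hb)).1 h)
  obtain ⟨gM, gfix⟩ := mem_stabL.1 hg
  refine ⟨b * g * b⁻¹, mul_mem (mul_mem hb gM) (inv_mem hb), ?_, fun h => hmove ?_⟩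
  · have : g • setOfMask m = setOfMask m := by
      have := set_fixed (g := g) (h := 1) (m := m) (by simpa using gfix [m] List.mem_cons_self)
      simpa using this
    rw [← e, mul_smul, mul_smul, inv_smul_smul, this]
  · have := act_mem (inv_mem hb) h
    rwa [act_sub, ← act_mul, show b⁻¹ * (b * g * b⁻¹) = g * b⁻¹ by group, act_mul] at this

/-- The stabiliser of a codeword fixes no non-zero coset. -/
theorem codeword_stab_moves {u : GolayPt → ZMod 2} (hu : u ∈ golayCode) {w : GolayPt → ZMod 2} (hw : w ∉ golayCode) :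
    ∃ σ ∈ M24, act σ u = u ∧ act σ w - w ∉ golayCode := by
  have hmoves := moves_all
  simp only [Bool.and_eq_true] at hmoves
  obtain ⟨⟨h0, h8⟩, h12⟩ := hmoves
  have key : ∀ σ, σ • support₂ u = support₂ u → act σ u = u := fun σ h =>
    support₂_injective (by rw [support₂_act, h])
  have hc := Perfect.weight_cases hu
  simp only [List.mem_cons, List.not_mem_nil, or_false] at hc
  rw [hammingNorm_eq_card] at hc
  have base8 : setOfMask 5279 ∈ octads :=
    mem_octads_iff.2 (by rw [maskOf_setOfMask (by norm_num)]; decide +kernel)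
  have base12 : setOfMask 8419127 ∈ dodecads :=
    mem_wordsOfWeight_iff.2 (by rw [maskOf_setOfMask (by norm_num)]; decide +kernel)
  rcases hc with h | h | h | h | h
  · obtain ⟨g, hg, hm⟩ := exists_move trPt_stab h0 hw
    exact ⟨g, (mem_stabL.1 hg).1, key g (by rw [Finset.card_eq_zero.1 h]; simp), hm⟩
  · obtain ⟨b, hb, e⟩ := exists_M24_octad base8 ⟨mem_iff_support.1 hu, h⟩
    obtain ⟨σ, hσ, hfix, hm⟩ := exists_move_of_fix hb e octOct_stab h8 hw
    exact ⟨σ, hσ, key σ hfix, hm⟩
  · obtain ⟨b, hb, e⟩ := exists_M24_dodecad base12 ⟨mem_iff_support.1 hu, h⟩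
    obtain ⟨σ, hσ, hfix, hm⟩ := exists_move_of_fix hb e dodDod_stab h12 hw
    exact ⟨σ, hσ, key σ hfix, hm⟩
  · have hv : u + 1 ∈ golayCode := add_mem hu one_mem_golay
    have hs : support₂ (u + 1) = (support₂ u)ᶜ := by
      ext p
      simp only [support₂, Finset.mem_compl, Finset.mem_filter, Finset.mem_univ, true_and, Pi.add_apply,
        Pi.one_apply]
      generalize u p = t; revert t; decide
    obtain ⟨b, hb, e⟩ := exists_M24_octad base8 (o' := support₂ (u + 1))
      ⟨mem_iff_support.1 hv, by rw [hs, Finset.card_compl, Fintype.card_option, ZMod.card]; omega⟩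
    obtain ⟨σ, hσ, hfix, hm⟩ := exists_move_of_fix hb e octOct_stab h8 hw
    refine ⟨σ, hσ, ?_, hm⟩
    have h1 : act σ (u + 1) = u + 1 := support₂_injective (by rw [support₂_act, hfix])
    rw [act_add, show act σ (1 : GolayPt → ZMod 2) = 1 from rfl] at h1
    exact add_right_cancel h1
  · obtain ⟨g, hg, hm⟩ := exists_move trPt_stab h0 hw
    refine ⟨g, (mem_stabL.1 hg).1, key g ?_, hm⟩
    rw [Finset.eq_univ_of_card (support₂ u) (by rw [h, Fintype.card_option, ZMod.card]), Finset.smul_finset_univ]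
where
  one_mem_golay : (1 : GolayPt → ZMod 2) ∈ golayCode := mem_golayCode_iff.2 ⟨_, all_mem, wordOf_all⟩

/-- A word of weight `n` gives all of them, the group being transitive on these. -/
theorem orbit_mem {W : Submodule (ZMod 2) (GolayPt → ZMod 2)} (hW : ∀ σ ∈ M24, ∀ w ∈ W, act σ w ∈ W)
    {a b : GolayPt → ZMod 2} (ha : a ∈ W) (h : ∃ σ ∈ M24, σ • support₂ a = support₂ b) : b ∈ W := by
  obtain ⟨σ, hσ, e⟩ := h
  rw [← show act σ a = b from support₂_injective (by rw [support₂_act, e])]
  exact hW σ hσ a ha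

theorem witness_data :
    ([8391797, 13631886, 5246459, 8101915, 15130653, 10305542, 4196943, 12584506, 307594, 8077824].all inCode &&
      Nat.beq (wt 8391797) 8 && Nat.beq (wt 13631886) 8 && Nat.beq (wt 5246459) 12 && Nat.beq (wt 8101915) 12 &&
      Nat.beq (wt 15130653) 12 && Nat.beq (wt 10305542) 8 && Nat.beq (wt 4196943) 8 && Nat.beq (wt 12584506) 8 &&
      Nat.beq (wt 307594) 8 && Nat.beq (wt 8077824) 8 && Nat.beq (Nat.xor 8391797 13631886) 5246459 &&
      Nat.beq (Nat.xor 8101915 15130653) 10305542 && Nat.beq (Nat.xor 8391797 4196943) 12584506 &&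
      Nat.beq (Nat.xor (Nat.xor 8391797 307594) 8077824) 16777215) = true := by decide +kernel

theorem code_submodules {W : Submodule (ZMod 2) (GolayPt → ZMod 2)} (hW : ∀ σ ∈ M24, ∀ w ∈ W, act σ w ∈ W)
    (hle : W ≤ golayCode) :
    W = ⊥ ∨ W = Submodule.span (ZMod 2) {fun _ => (1 : ZMod 2)} ∨ W = golayCode := by
  have hd := witness_data
  simp only [Bool.and_eq_true, Nat.beq_eq, List.all_eq_true] at hd
  obtain ⟨⟨⟨⟨⟨⟨⟨⟨⟨⟨⟨⟨⟨⟨hin, o1⟩, o2⟩, d1⟩, d2⟩, d3⟩, o3⟩, o4⟩, o5⟩, o6⟩, o7⟩, x1⟩, x2⟩, x3⟩, x4⟩ := hd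
  have hset : ∀ {m : ℕ} {k : ℕ}, inCode m = true → wt m = k →
      support₂ (wordOf m) ∈ wordsOfWeight (golayCode : Set (GolayPt → ZMod 2)) k := fun {m k} h hk => by
    rw [support₂_wordOf]
    exact ⟨setOfMask_mem_codeSets (inCode_iff.1 h), by rw [card_setOfMask, hk]⟩
  have octTo : ∀ a b : GolayPt → ZMod 2, support₂ a ∈ octads → support₂ b ∈ octads → a ∈ W → b ∈ W :=
    fun a b ha hb h => orbit_mem hW h (exists_M24_octad ha hb)
  have dodTo : ∀ a b : GolayPt → ZMod 2, support₂ a ∈ dodecads → support₂ b ∈ dodecads → a ∈ W → b ∈ W :=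
    fun a b ha hb h => orbit_mem hW h (exists_M24_dodecad ha hb)
  have supp : ∀ v ∈ golayCode, ∀ k, hammingNorm v = k → support₂ v ∈ wordsOfWeight (golayCode : Set (GolayPt → ZMod 2)) k :=
    fun v hv k hk => ⟨mem_iff_support.1 hv, (hammingNorm_eq_card v).symm.trans hk⟩
  have one_eq : ∀ v : GolayPt → ZMod 2, hammingNorm v = 24 → v = fun _ => 1 := fun v hv => by
    funext p
    have : p ∈ support₂ v := by
      rw [Finset.eq_univ_of_card (support₂ v) (by rw [← hammingNorm_eq_card, hv, Fintype.card_option, ZMod.card])]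
      exact Finset.mem_univ p
    simp only [support₂, Finset.mem_filter, Finset.mem_univ, true_and] at this
    revert this; generalize v p = t; revert t; decide
  have onew : (fun _ : GolayPt => (1 : ZMod 2)) = wordOf 16777215 := wordOf_all.symm
  by_cases hoct : ∃ a ∈ W, support₂ a ∈ octads
  · refine Or.inr (Or.inr (le_antisymm hle fun v hv => ?_))
    obtain ⟨a, ha, hao⟩ := hoct
    have allO : ∀ b, support₂ b ∈ octads → b ∈ W := fun b hb => octTo a b hao hb ha
    have w1 := allO _ (hset (hin 8391797 (by simp)) o1)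
    have w2 := allO _ (hset (hin 13631886 (by simp)) o2)
    have hone : (1 : GolayPt → ZMod 2) ∈ W := by
      rw [← wordOf_all, ← x4]
      show wordOf ((8391797 ^^^ 307594) ^^^ 8077824) ∈ W
      rw [wordOf_xor, wordOf_xor]
      exact add_mem (add_mem w1 (allO _ (hset (hin 307594 (by simp)) o6))) (allO _ (hset (hin 8077824 (by simp)) o7))
    have hdod : wordOf 5246459 ∈ W := by
      rw [← x1]
      show wordOf (8391797 ^^^ 13631886) ∈ W
      rw [wordOf_xor]
      exact add_mem w1 w2
    have hc := Perfect.weight_cases hv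
    simp only [List.mem_cons, List.not_mem_nil, or_false] at hc
    rcases hc with h | h | h | h | h
    · rw [hammingNorm_eq_zero.1 h]; exact W.zero_mem
    · exact allO v (supp v hv 8 h)
    · exact dodTo _ v (hset (hin 5246459 (by simp)) d1) (supp v hv 12 h) hdod
    · have hv1 : v + 1 ∈ W := allO _ ⟨mem_iff_support.1 (add_mem hv (codeword_stab_moves.one_mem_golay)), by
        rw [← hammingNorm_eq_card]
        exact compl_norm v 16 h⟩
      have e : v = v + 1 + 1 := by rw [add_assoc, ← Perfect.sub_eq (1 : GolayPt → ZMod 2), sub_self, add_zero]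
      rw [e]; exact add_mem hv1 hone
    · rw [one_eq v h]; exact hone
  · have hdod : ∀ a ∈ W, support₂ a ∉ dodecads := fun a ha had => hoct ⟨wordOf 10305542, by
      rw [← x2]
      show wordOf (8101915 ^^^ 15130653) ∈ W
      rw [wordOf_xor]
      exact add_mem (dodTo a _ had (hset (hin 8101915 (by simp)) d2) ha)
        (dodTo a _ had (hset (hin 15130653 (by simp)) d3) ha), hset (hin 10305542 (by simp)) o3⟩
    have h16 : ∀ a ∈ W, hammingNorm a ≠ 16 := fun a ha h => by
      have hac := hle ha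
      have hoa : support₂ (a + 1) ∈ octads :=
        supp _ (add_mem hac codeword_stab_moves.one_mem_golay) 8 (compl_norm a 16 h)
      have key : ∀ b, support₂ b ∈ octads → b + 1 ∈ W := fun b hb => by
        obtain ⟨σ, hσ, e⟩ := exists_M24_octad hoa hb
        have hb' : act σ (a + 1) = b := support₂_injective (by rw [support₂_act, e])
        have := hW σ hσ a ha
        have e2 : act σ a = b + 1 := by
          rw [← hb', act_add, show act σ (1 : GolayPt → ZMod 2) = 1 from rfl, add_assoc,
            ← Perfect.sub_eq (1 : GolayPt → ZMod 2), sub_self, add_zero]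
        rwa [e2] at this
      refine hoct ⟨wordOf 12584506, ?_, hset (hin 12584506 (by simp)) o5⟩
      have := add_mem (key _ (hset (hin 8391797 (by simp)) o1)) (key _ (hset (hin 4196943 (by simp)) o4))
      rw [add_add_add_comm, ← Perfect.sub_eq (1 : GolayPt → ZMod 2), sub_self, add_zero, ← wordOf_xor] at this
      rw [← x3]; exact this
    have hsmall : ∀ a ∈ W, a = 0 ∨ a = fun _ => 1 := fun a ha => by
      have hc := Perfect.weight_cases (hle ha)
      simp only [List.mem_cons, List.not_mem_nil, or_false] at hc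
      rcases hc with h | h | h | h | h
      · exact Or.inl (hammingNorm_eq_zero.1 h)
      · exact absurd ⟨a, ha, supp a (hle ha) 8 h⟩ hoct
      · exact absurd (supp a (hle ha) 12 h) (hdod a ha)
      · exact absurd h (h16 a ha)
      · exact Or.inr (one_eq a h)
    by_cases hb : W = ⊥
    · exact Or.inl hb
    · refine Or.inr (Or.inl (le_antisymm (fun a ha => ?_) (Submodule.span_le.2 ?_)))
      · rcases hsmall a ha with e | e <;> rw [e]
        · exact zero_mem _
        · exact Submodule.subset_span rfl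
      · obtain ⟨a, ha, hne⟩ := Submodule.exists_mem_ne_zero_of_ne_bot hb
        rintro _ rfl
        exact ((hsmall a ha).resolve_left hne) ▸ ha
where
  compl_norm (v : GolayPt → ZMod 2) (k : ℕ) (h : hammingNorm v = k) : hammingNorm (v + 1) = 24 - k := by
    have hs : support₂ (v + 1) = (support₂ v)ᶜ := by
      ext p
      simp only [support₂, Finset.mem_compl, Finset.mem_filter, Finset.mem_univ, true_and, Pi.add_apply,
        Pi.one_apply]
      generalize v p = t; revert t; decide
    rw [hammingNorm_eq_card, hs, Finset.card_compl, ← hammingNorm_eq_card, h, Fintype.card_option, ZMod.card]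

/-- Five points fixed, a further one moved off a given small set. -/
theorem exists_push (S P : Finset GolayPt) (hP : P.card = 5) (hPS : P ⊆ S) (hS : S.card ≤ 8) (h5 : 5 < S.card)
    (hno : S ∉ octads) : ∃ σ ∈ M24, (∀ p ∈ P, σ p = p) ∧ ∃ q ∈ S, σ q ∉ S := by
  let e := P.equivFinOfCardEq hP
  let x : ℕ → GolayPt := fun i => if h : i < 5 then (e.symm ⟨i, h⟩).1 else none
  obtain ⟨h, hh, ex⟩ := exists_to_base x 5 le_rfl fun i hi j hj hne he => hne (by
    simp only [x, dif_pos hi, dif_pos hj] at he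
    exact congrArg Fin.val (e.symm.injective (Subtype.ext he)))
  have hM : h ∈ M24 := gen24_le hh
  have hp : ∀ p ∈ P, ∃ j < 5, h p = bpt j := fun p hpP => ⟨(e ⟨p, hpP⟩).1, (e ⟨p, hpP⟩).2, by
    have := ex (e ⟨p, hpP⟩).1 (e ⟨p, hpP⟩).2
    simpa [x] using this⟩
  set T := h • S with hT
  have hTc : T.card = S.card := Finset.card_smul_finset _ _
  have hbT : ∀ j < 5, bpt j ∈ T := fun j hj => by
    have := ex j hj
    rw [← this]
    refine Finset.smul_mem_smul_finset (hPS ?_)
    simp only [x, dif_pos hj]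
    exact (e.symm ⟨j, hj⟩).2
  suffices hτ : ∃ τ ∈ M24, (∀ j < 5, τ (bpt j) = bpt j) ∧ ∃ q ∈ T, τ q ∉ T by
    obtain ⟨τ, hτ, hfix, q, hq, hq'⟩ := hτ
    refine ⟨h⁻¹ * τ * h, mul_mem (mul_mem (inv_mem hM) hτ) hM, fun p hpP => ?_, h⁻¹ q, ?_, fun hc => hq' ?_⟩
    · obtain ⟨j, hj, ej⟩ := hp p hpP
      rw [Equiv.Perm.mul_apply, Equiv.Perm.mul_apply, ej, hfix j hj, Equiv.Perm.inv_eq_iff_eq]
      exact ej.symm
    · rw [hT, ← Finset.inv_smul_mem_iff] at hq
      exact hq
    · have hc' := Finset.smul_mem_smul_finset (a := h) hc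
      rw [← hT] at hc'
      simpa using hc'
  by_cases hout : T ⊆ baseOct
  · obtain ⟨y, hy, hyT⟩ := Finset.exists_of_ssubset (hout.ssubset_of_ne fun eT => hno (by
      have := smul_mem_octads' (inv_mem hM) baseOct_mem
      rwa [← eT, hT, inv_smul_smul] at this))
    obtain ⟨q, hq, hqP⟩ := Finset.exists_mem_notMem_of_card_lt_card
      (s := (Finset.range 5).image bpt) (t := T) (by rw [five_bpt_card, hTc]; exact h5)
    have hne : ∀ j ∈ List.range 5, q ≠ bpt j := fun j hj hqj =>
      hqP (Finset.mem_image.2 ⟨j, Finset.mem_range.2 (List.mem_range.1 hj), hqj.symm⟩)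
    obtain ⟨u, hu, hufix, huy⟩ := exists_transversal (k := 5) (by norm_num) (allowed_five q (hout hq) hne)
    obtain ⟨v, hv, hvfix, hvy⟩ := exists_transversal (k := 5) (by norm_num)
      (allowed_five y hy fun j hj hyj => hyT (hyj ▸ hbT j (List.mem_range.1 hj)))
    refine ⟨v * u⁻¹, mul_mem (gen24_le hv) (inv_mem (gen24_le hu)), fun j hj => ?_, q, hq, ?_⟩
    · rw [Equiv.Perm.mul_apply, (Equiv.Perm.inv_eq_iff_eq.2 (hufix j hj).symm), hvfix j hj]
    · rwa [Equiv.Perm.mul_apply, (Equiv.Perm.inv_eq_iff_eq.2 huy.symm), hvy]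
  · obtain ⟨q, hq, hqO⟩ := Finset.not_subset.1 hout
    obtain ⟨y, hy, hyT⟩ : ∃ y, y ∉ baseOct ∧ y ∉ T := by
      by_contra hcon
      push Not at hcon
      have : (baseOct ∪ T).card ≤ 8 + 8 := (Finset.card_union_le _ _).trans
        (add_le_add baseOct_mem.2.le (hTc ▸ hS))
      rw [show baseOct ∪ T = Finset.univ from Finset.eq_univ_of_forall fun y => Finset.mem_union.2 (by
        by_cases hyO : y ∈ baseOct
        · exact Or.inl hyO
        · exact Or.inr (hcon y hyO)), Finset.card_univ, Fintype.card_option, ZMod.card] at this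
      omega
    obtain ⟨u, hu, hufix, huy⟩ := exists_transversal (k := 6) (by norm_num) (allowed_six q hqO)
    obtain ⟨v, hv, hvfix, hvy⟩ := exists_transversal (k := 6) (by norm_num) (allowed_six y hy)
    refine ⟨v * u⁻¹, mul_mem (gen24_le hv) (inv_mem (gen24_le hu)), fun j hj => ?_, q, hq, ?_⟩
    · rw [Equiv.Perm.mul_apply, (Equiv.Perm.inv_eq_iff_eq.2 (hufix j (by omega)).symm), hvfix j (by omega)]
    · rwa [Equiv.Perm.mul_apply, (Equiv.Perm.inv_eq_iff_eq.2 huy.symm), hvy]

theorem mem_supp {v : GolayPt → ZMod 2} {p : GolayPt} : p ∈ support₂ v ↔ v p ≠ 0 := by simp [support₂]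

theorem diff_ne_zero {σ : P24} {v : GolayPt → ZMod 2} {q : GolayPt} (hq : q ∈ support₂ v) (hq' : σ q ∉ support₂ v) :
    act σ v + v ≠ 0 := by
  intro e
  have h := congrFun e (σ q)
  rw [mem_supp, not_not] at hq'
  rw [mem_supp] at hq
  simp only [Pi.add_apply, Pi.zero_apply, act, Equiv.symm_apply_apply, hq', add_zero] at h
  exact hq h

theorem norm_diff {σ : P24} {v : GolayPt → ZMod 2} {P : Finset GolayPt} (hP : P ⊆ support₂ v)
    (hfix : ∀ p ∈ P, σ p = p) : hammingNorm (act σ v + v) ≤ 2 * (hammingNorm v - P.card) := by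
  have hsub : support₂ (act σ v + v) ⊆ (σ • (support₂ v \ P)) ∪ (support₂ v \ P) := by
    intro p hp
    rw [mem_supp, Pi.add_apply] at hp
    by_cases hpP : p ∈ P
    · refine absurd ?_ hp
      have hs : σ.symm p = p := by rw [Equiv.symm_apply_eq, hfix p hpP]
      show v (σ.symm p) + v p = 0
      rw [hs, CharTwo.add_self_eq_zero]
    rw [Finset.mem_union, ← Finset.inv_smul_mem_iff, Finset.mem_sdiff, Finset.mem_sdiff, mem_supp, mem_supp]
    by_cases h1 : v p = 0
    · refine Or.inl ⟨?_, fun hc => hpP ?_⟩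
      · intro h2
        exact hp (by show v (σ.symm p) + v p = 0; rw [h1, add_zero]; exact h2)
      · have := hfix _ hc
        rw [← Equiv.Perm.smul_def, smul_inv_smul] at this
        rwa [← this] at hc
    · exact Or.inr ⟨h1, hpP⟩
  have := (Finset.card_le_card hsub).trans (Finset.card_union_le _ _)
  rw [Finset.card_smul_finset, Finset.card_sdiff_of_subset hP, ← hammingNorm_eq_card, ← hammingNorm_eq_card] at this
  omega

theorem exists_two {W : Submodule (ZMod 2) (GolayPt → ZMod 2)} (hW : ∀ σ ∈ M24, ∀ w ∈ W, act σ w ∈ W) :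
    ∀ n, ∀ x ∈ W, x ∉ golayCode → hammingNorm x = n → n ≤ 8 → ∃ a ∈ W, hammingNorm a = 2 := by
  intro n
  induction n using Nat.strong_induction_on with
  | _ n ih =>
    intro x hx hxc hn hn8
    have hn0 : n ≠ 0 := fun e => hxc (by rw [hammingNorm_eq_zero.1 (hn.trans e)]; exact zero_mem _)
    by_cases hn2 : n = 2
    · exact ⟨x, hx, hn.trans hn2⟩
    have hsc : (support₂ x).card = n := by rw [← hammingNorm_eq_card, hn]
    obtain ⟨σ, hσ, P, hP, hfix, q, hq, hq', hsmall⟩ : ∃ σ ∈ M24, ∃ P ⊆ support₂ x, (∀ p ∈ P, σ p = p) ∧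
        ∃ q ∈ support₂ x, σ q ∉ support₂ x ∧ (2 * (n - P.card) = 2 ∨ 2 * (n - P.card) < n ∧ 2 * (n - P.card) < 8) := by
      rcases Nat.lt_or_ge 5 n with h5 | h5
      · obtain ⟨P, hP, hPc⟩ := Finset.exists_subset_card_eq (s := support₂ x) (n := 5) (by omega)
        obtain ⟨σ, hσ, hfix, q, hq, hq'⟩ := exists_push (support₂ x) P hPc hP (by omega) (by omega)
          fun ho => hxc (mem_iff_support.2 ho.1)
        exact ⟨σ, hσ, P, hP, hfix, q, hq, hq', Or.inr (by omega)⟩
      · obtain ⟨q, hq⟩ : (support₂ x).Nonempty := Finset.card_pos.1 (by omega)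
        obtain ⟨y, -, hy⟩ := Finset.exists_mem_notMem_of_card_lt_card (s := support₂ x)
          (t := Finset.univ) (by rw [Finset.card_univ, Fintype.card_option, ZMod.card]; omega)
        let e := (support₂ x).equivFinOfCardEq hsc
        let a : Fin n ↪ GolayPt := e.symm.toEmbedding.trans (Function.Embedding.subtype _)
        let b : Fin n ↪ GolayPt := ⟨fun i => if (a i : GolayPt) = q then y else a i, fun i j h => by
          dsimp only at h
          split_ifs at h with h1 h2 h2
          · exact a.injective (h1.trans h2.symm)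
          · exact absurd (h ▸ (e.symm j).2) hy
          · exact absurd (h.symm ▸ (e.symm i).2) hy
          · exact a.injective h⟩
        obtain ⟨σ, hσ, hmap⟩ := exists_M24_map h5 a b
        refine ⟨σ, hσ, (support₂ x).erase q, Finset.erase_subset _ _, fun p hp => ?_, q, hq, ?_, Or.inl ?_⟩
        · have := hmap (e ⟨p, Finset.mem_of_mem_erase hp⟩)
          simpa [a, b, Finset.ne_of_mem_erase hp] using this
        · have := hmap (e ⟨q, hq⟩)
          simp [a, b] at this
          rw [this]; exact hy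
        · rw [Finset.card_erase_of_mem hq, hsc]; omega
    have hd := norm_diff hP hfix
    rw [hn] at hd
    have hne : hammingNorm (act σ x + x) ≠ 0 := fun e => diff_ne_zero hq hq' (hammingNorm_eq_zero.1 e)
    have hmem : act σ x + x ∈ W := add_mem (hW σ hσ x hx) hx
    rcases hsmall with h | ⟨h, h8⟩
    · refine ⟨_, hmem, ?_⟩
      have hev : hammingNorm (act σ x + x) % 2 = 0 := by
        rw [Perfect.norm_add_mod, norm_act]; omega
      omega
    · refine ih _ (by omega) _ hmem (fun hc => hne ?_) rfl (by omega)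
      rw [Perfect.min_weight hc (by omega), hammingNorm_zero]

theorem all_even {W : Submodule (ZMod 2) (GolayPt → ZMod 2)} (hW : ∀ σ ∈ M24, ∀ w ∈ W, act σ w ∈ W)
    {a : GolayPt → ZMod 2} (ha : a ∈ W) (h2 : hammingNorm a = 2) : ∀ w, (∑ p, w p = 0) → w ∈ W := by
  have duad : ∀ p q : GolayPt, p ≠ q → (Pi.single p 1 + Pi.single q 1 : GolayPt → ZMod 2) ∈ W := by
    intro p q hpq
    obtain ⟨r, s, hrs, hsupp⟩ := Finset.card_eq_two.1 ((hammingNorm_eq_card a).symm.trans h2)
    have emb : ∀ u v : GolayPt, u ≠ v → Function.Injective ![u, v] := fun u v h i j hij => by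
      fin_cases i <;> fin_cases j <;> simp_all [Ne.symm h]
    obtain ⟨σ, hσ, hmap⟩ := exists_M24_map (n := 2) (by norm_num) ⟨_, emb r s hrs⟩ ⟨_, emb p q hpq⟩
    refine orbit_mem hW ha ⟨σ, hσ, ?_⟩
    have h0 : σ r = p := hmap 0
    have h1 : σ s = q := hmap 1
    have h3 : support₂ (Pi.single p 1 + Pi.single q 1 : GolayPt → ZMod 2) = {p, q} := by
      ext u
      by_cases hu : u = p
      · subst hu; simp [support₂, Pi.single_apply, hpq]
      · by_cases hv : u = q
        · subst hv; simp [support₂, Pi.single_apply, hu]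
        · simp [support₂, Pi.single_apply, hu, hv]
    rw [hsupp, Finset.smul_finset_insert, Finset.smul_finset_singleton, h3, Equiv.Perm.smul_def, Equiv.Perm.smul_def, h0, h1]
  intro w hw
  have e : w = ∑ p, w p • (Pi.single p 1 + Pi.single none 1 : GolayPt → ZMod 2) := by
    funext u
    simp only [Finset.sum_apply, Pi.smul_apply, Pi.add_apply, Pi.single_apply, smul_eq_mul, mul_add, mul_ite,
      mul_one, mul_zero, Finset.sum_add_distrib, Finset.sum_ite_eq, Finset.mem_univ, if_true]
    split_ifs with hu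
    · rw [hw, add_zero]
    · rw [Finset.sum_const_zero, add_zero]
  rw [e]
  refine sum_mem fun p _ => W.smul_mem _ ?_
  by_cases hp : p = none
  · rw [hp, ← Perfect.sub_eq, sub_self]; exact zero_mem _
  · exact duad p none hp

theorem invariant_submodules {W : Submodule (ZMod 2) (GolayPt → ZMod 2)} (hW : ∀ σ ∈ M24, ∀ w ∈ W, act σ w ∈ W) :
    W = ⊥ ∨ W = Submodule.span (ZMod 2) {fun _ => (1 : ZMod 2)} ∨ W = golayCode ∨
      (W : Set (GolayPt → ZMod 2)) = {w | ∑ p, w p = 0} ∨ W = ⊤ := by
  by_cases hle : W ≤ golayCode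
  · rcases code_submodules hW hle with h | h | h
    · exact Or.inl h
    · exact Or.inr (Or.inl h)
    · exact Or.inr (Or.inr (Or.inl h))
  obtain ⟨w, hw, hwc⟩ := SetLike.not_le_iff_exists.1 hle
  obtain ⟨v, hv4, hvc⟩ := Perfect.exists_leader w
  obtain ⟨σ, hσ, hfix, hmove⟩ := codeword_stab_moves hvc hwc
  have hx : act σ w - w = act σ v - v := by
    rw [act_sub] at hfix
    rw [sub_eq_sub_iff_sub_eq_sub, hfix]
  rw [hx] at hmove
  have hmem : act σ v - v ∈ W := hx ▸ sub_mem (hW σ hσ w hw) hw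
  have hnorm : hammingNorm (act σ v - v) ≤ 8 := by
    rw [Perfect.sub_eq]
    have := Perfect.norm_add_le (act σ v) v
    rw [norm_act] at this
    omega
  obtain ⟨a, ha, h2⟩ := exists_two hW _ _ hmem hmove rfl hnorm
  have heven := all_even hW ha h2
  by_cases hodd : ∃ u ∈ W, ∑ p, u p = 1
  · obtain ⟨u, hu, hu1⟩ := hodd
    refine Or.inr (Or.inr (Or.inr (Or.inr (eq_top_iff.2 fun z _ => ?_))))
    have h01 : ∀ t : ZMod 2, t = 0 ∨ t = 1 := by decide
    rcases h01 (∑ p, z p) with hz | hz
    · exact heven z hz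
    · have := heven (z - u) (by
        simp only [Pi.sub_apply, Finset.sum_sub_distrib, hz, hu1, sub_self])
      simpa using add_mem this hu
  · push Not at hodd
    refine Or.inr (Or.inr (Or.inr (Or.inl (Set.ext fun z => ⟨fun hz => ?_, heven z⟩))))
    have h01 : ∀ t : ZMod 2, t ≠ 1 → t = 0 := by decide
    exact h01 _ (hodd z hz)

theorem hexads_steiner {d : Finset GolayPt} (hd : d ∈ dodecads) {o : Finset GolayPt} (ho : o ∈ octads)
    (h5 : 5 ≤ (o ∩ d).card) : (o ∩ d).card = 6 := by
  have hc := card_codeSets (codeSets_symmDiff ho.1 hd.1)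
  have e : (symmDiff o d).card + 2 * (o ∩ d).card = 20 := by
    rw [symmDiff_def, Finset.sup_eq_union, Finset.card_union_of_disjoint disjoint_sdiff_sdiff, Finset.card_sdiff,
      Finset.card_sdiff, Finset.inter_comm d o, ho.2, hd.2]
    have h1 : (o ∩ d).card ≤ 8 := ho.2 ▸ Finset.card_le_card Finset.inter_subset_left
    omega
  have h1 : (o ∩ d).card ≤ 8 := ho.2 ▸ Finset.card_le_card Finset.inter_subset_left
  omega

end CfsgLib.Spor.GolayMod

namespace CfsgLib.Spor.GolayMod
open Cfsg
open scoped Pointwise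

theorem exists_octad_five {s : Finset GolayPt} (hs : s.card = 5) : ∃ o ∈ octads, s ⊆ o := by
  let e := s.equivFinOfCardEq hs
  let x : Fin 5 ↪ GolayPt := e.symm.toEmbedding.trans (Function.Embedding.subtype _)
  let y : Fin 5 ↪ GolayPt := ⟨fun i => bpt i, fun a b h => by
    by_contra hne
    have hne' : (a : ℕ) ≠ b := fun e => hne (Fin.ext e)
    rcases Nat.lt_or_gt_of_ne hne' with hlt | hlt
    · exact bpt_ne b (List.mem_range.2 (by omega)) a (List.mem_range.2 hlt) h.symm
    · exact bpt_ne a (List.mem_range.2 (by omega)) b (List.mem_range.2 hlt) h⟩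
  obtain ⟨g, hg, hmap⟩ := exists_M24_map le_rfl y x
  refine ⟨g • baseOct, smul_mem_octads' hg baseOct_mem, fun p hp => ?_⟩
  have := hmap (e ⟨p, hp⟩)
  simp [x, y] at this
  rw [← this]
  exact Finset.smul_mem_smul_finset (bpt_mem_baseOct _ (List.mem_range.2 (by have := (e ⟨p, hp⟩).2; omega)))

end CfsgLib.Spor.GolayMod
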