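import Cfsg.Agent.Lib.SporObjBasic

/-!
Linear maps of the code modulo the all-ones word preserving the weight classes come from the code group.
-/

set_option autoImplicit false
set_option maxRecDepth 20000

namespace CfsgLib.Spor.GolayOrb
open Cfsg CfsgLib.Spor
open scoped Pointwise

set_option quotPrecheck false
local notation "CC" => ↥golayCode
local notation "GG" => CC ≃ₗ[ZMod 2] CC

/-- The permuted word. -/
def act (σ : P24) (w : GolayPt → ZMod 2) : GolayPt → ZMod 2 := fun p => w (σ.symm p)

theorem mem_supp {v : GolayPt → ZMod 2} {q : GolayPt} : q ∈ support₂ v ↔ v q ≠ 0 := by simp [support₂]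

theorem support₂_act (σ : P24) (w : GolayPt → ZMod 2) : support₂ (act σ w) = σ • support₂ w := by
  ext p
  rw [← Finset.inv_smul_mem_iff, mem_supp, mem_supp]
  rfl

theorem act_mem {σ : P24} (hσ : σ ∈ M24) {w : GolayPt → ZMod 2} (hw : w ∈ golayCode) : act σ w ∈ golayCode := by
  have h : ∀ {v : GolayPt → ZMod 2}, v ∈ golayCode ↔ support₂ v ∈ codeSets := fun {v} =>
    ⟨fun hv => ⟨v, hv, rfl⟩, fun ⟨u, hu, e⟩ => support₂_injective e ▸ hu⟩
  rw [h, support₂_act]
  exact mem_M24_iff_forall.1 hσ _ (h.1 hw)

/-- The class of a weight modulo complementation. -/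
def clsN (n : ℕ) : ℕ := if n = 0 ∨ n = 24 then 0 else if n = 8 ∨ n = 16 then 1 else 2

theorem clsN_compl : ∀ n ∈ List.range 25, clsN (24 - n) = clsN n := by decide

/-- The class of a codeword. -/
def cls (c : CC) : ℕ := clsN (support₂ (c : GolayPt → ZMod 2)).card

/-- A basis of the code modulo the all-ones word. -/
def orbBasis : List ℕ :=
  [5279, 28637, 10558, 628112, 563843, 2932024, 6435391, 4778894, 6036307, 7759386, 702724]

/-- The numbers of candidates. -/
def orbNums : List ℕ := [759, 448, 40, 18, 1, 1, 1, 1, 1, 1, 1]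

/-- Representatives of the code modulo the all-ones word. -/
def halfMasks : List ℕ := spanList ((golayBasis.drop 1).map Prod.snd)

theorem halfMasks_small : (halfMasks.all fun m => Nat.blt m 8388608) = true := by decide +kernel

theorem mem_halfMasks {m : ℕ} (hm : m ∈ codeMasks) (hlt : m < 8388608) : m ∈ halfMasks := by
  have hm' : m ∈ spanList (8391797 :: (golayBasis.drop 1).map Prod.snd) := hm
  rw [spanList, List.mem_append, List.mem_map] at hm'
  rcases hm' with h | ⟨x, hx, rfl⟩
  · exact h
  · exfalso
    have hx' := List.all_eq_true.1 halfMasks_small x hx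
    rw [Nat.blt_eq] at hx'
    have h1 : (x ^^^ 8391797).testBit 23 = true := by
      rw [Nat.testBit_xor, Nat.testBit_eq_false_of_lt (show x < 2 ^ 23 by omega)]; rfl
    rw [Nat.testBit_eq_false_of_lt (show x ^^^ 8391797 < 2 ^ 23 by omega)] at h1
    simp at h1

/-- The candidates for the image of a basis vector. -/
noncomputable def cand (k : ℕ) : List ℕ :=
  halfMasks.filter fun m => (spanList (orbBasis.take k)).all fun s =>
    Nat.beq (clsN (wt (m ^^^ s))) (clsN (wt (orbBasis.getD k 0 ^^^ s)))

theorem cand_len0 : (cand 0).length = orbNums.getD 0 0 := by decide +kernel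

theorem cand_len1 : (cand 1).length = orbNums.getD 1 0 := by decide +kernel

theorem cand_len2 : (cand 2).length = orbNums.getD 2 0 := by decide +kernel

theorem cand_len3 : (cand 3).length = orbNums.getD 3 0 := by decide +kernel

theorem cand_len4 : (cand 4).length = orbNums.getD 4 0 := by decide +kernel

theorem cand_len5 : (cand 5).length = orbNums.getD 5 0 := by decide +kernel

theorem cand_len6 : (cand 6).length = orbNums.getD 6 0 := by decide +kernel

theorem cand_len7 : (cand 7).length = orbNums.getD 7 0 := by decide +kernel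

theorem cand_len8 : (cand 8).length = orbNums.getD 8 0 := by decide +kernel

theorem cand_len9 : (cand 9).length = orbNums.getD 9 0 := by decide +kernel

theorem cand_len10 : (cand 10).length = orbNums.getD 10 0 := by decide +kernel

theorem cand_len {k : ℕ} (hk : k < 11) : (cand k).length = orbNums.getD k 0 := by
  interval_cases k
  · exact cand_len0
  · exact cand_len1
  · exact cand_len2
  · exact cand_len3
  · exact cand_len4
  · exact cand_len5
  · exact cand_len6
  · exact cand_len7
  · exact cand_len8
  · exact cand_len9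
  · exact cand_len10


theorem orbBasis_code : (orbBasis.all inCode && inCode 16777215 &&
    golayBasis.all fun b => memL b.2 (spanList (16777215 :: orbBasis))) = true := by decide +kernel

theorem separated : ∀ p q : GolayPt, p ≠ q → octList.any (fun o => o.testBit (ix p) && !o.testBit (ix q)) = true := by
  decide +kernel

theorem spanList_sub {A : List ℕ} : ∀ {B : List ℕ}, (∀ b ∈ B, b ∈ spanList A) → ∀ m ∈ spanList B, m ∈ spanList A
  | [], _, m, hm => by simp [spanList] at hm; subst hm; exact zero_mem_spanList _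
  | b :: bs, h, m, hm => by
    have ih := spanList_sub (B := bs) fun c hc => h c (by simp [hc])
    simp only [spanList, List.mem_append, List.mem_map] at hm
    rcases hm with hm | ⟨x, hx, rfl⟩
    · exact ih m hm
    · exact xor_mem_spanList (ih x hx) (h b (by simp))

theorem mem_code {m : ℕ} (h : m ∈ codeMasks) : wordOf m ∈ golayCode := mem_golayCode_iff.2 ⟨m, h, rfl⟩

open Classical in
/-- The codeword with a mask. -/
noncomputable def cw (m : ℕ) : CC := if h : wordOf m ∈ golayCode then ⟨wordOf m, h⟩ else 0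

theorem cw_val {m : ℕ} (h : m ∈ codeMasks) : (cw m : GolayPt → ZMod 2) = wordOf m := by
  rw [cw, dif_pos (mem_code h)]

theorem cw_xor {a b : ℕ} (ha : a ∈ codeMasks) (hb : b ∈ codeMasks) : cw (a ^^^ b) = cw a + cw b := by
  apply Subtype.ext
  have hab : a ^^^ b ∈ codeMasks := xor_mem_spanList ha hb
  rw [Submodule.coe_add, cw_val hab, cw_val ha, cw_val hb, wordOf_xor]

theorem cls_cw {m : ℕ} (h : m ∈ codeMasks) : cls (cw m) = clsN (wt m) := by
  rw [cls, cw_val h, support₂_wordOf, card_setOfMask]

theorem one_mem : (1 : GolayPt → ZMod 2) ∈ golayCode := Submodule.subset_span (Set.mem_union_right _ rfl)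

/-- The all-ones word. -/
def oneC : CC := ⟨1, one_mem⟩

theorem cw_all : cw 16777215 = oneC := Subtype.ext (by rw [cw_val all_mem, wordOf_all]; rfl)

theorem exists_cw (c : CC) : ∃ m ∈ codeMasks, cw m = c := by
  obtain ⟨m, hm, e⟩ := mem_golayCode_iff.1 c.2
  exact ⟨m, hm, Subtype.ext (by rw [cw_val hm, e])⟩

theorem add_self' (c : CC) : c + c = 0 := by
  rw [← two_smul (ZMod 2) c, show (2 : ZMod 2) = 0 from rfl, zero_smul]

/-- A word and its complement. -/
def pair (c : CC) : Set CC := {c, c + oneC}

theorem mem_pair {c d : CC} : d ∈ pair c ↔ d = c ∨ d = c + oneC := Iff.rfl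

theorem pair_eq {c d : CC} (h : d ∈ pair c) : pair d = pair c := by
  rcases mem_pair.1 h with rfl | rfl
  · rfl
  · rw [pair, pair, add_assoc, add_self', add_zero, Set.pair_comm]

theorem pair_add {c d c' d' : CC} (h : c' ∈ pair c) (h' : d' ∈ pair d) : c' + d' ∈ pair (c + d) := by
  rw [mem_pair]
  rcases mem_pair.1 h with rfl | rfl <;> rcases mem_pair.1 h' with rfl | rfl
  · exact .inl rfl
  · exact .inr (add_assoc _ _ _).symm
  · exact .inr (add_right_comm _ _ _)
  · exact .inl (by rw [add_add_add_comm, add_self', add_zero])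

theorem cls_compl (c : CC) : cls (c + oneC) = cls c := by
  have e : support₂ ((c + oneC : CC) : GolayPt → ZMod 2) = (support₂ (c : GolayPt → ZMod 2))ᶜ := by
    ext p
    rw [Finset.mem_compl, mem_supp, mem_supp]
    show (c : GolayPt → ZMod 2) p + 1 ≠ 0 ↔ ¬ (c : GolayPt → ZMod 2) p ≠ 0
    generalize (c : GolayPt → ZMod 2) p = a
    revert a; decide
  rw [cls, cls, e, Finset.card_compl, show Fintype.card GolayPt = 24 by simp [GolayPt]]
  refine clsN_compl _ (List.mem_range.2 (Nat.lt_succ_of_le ?_))
  refine (Finset.card_le_univ _).trans_eq ?_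
  simp [GolayPt]

theorem cls_of_pair {c d : CC} (h : d ∈ pair c) : cls d = cls c := by
  rcases mem_pair.1 h with rfl | rfl
  · rfl
  · exact cls_compl c

theorem smul_pair {x : GG} (h1 : x oneC = oneC) (c : CC) : x • pair c = pair (x c) := by
  show (fun d => x • d) '' {c, c + oneC} = _
  rw [Set.image_pair]
  show ({x c, x (c + oneC)} : Set CC) = _
  rw [map_add, h1]; rfl

instance : Finite GG := Finite.of_injective (fun x : GG => ⇑x) DFunLike.coe_injective

variable (X : Subgroup GG)

/-- The chain of subgroups fixing the first basis vectors modulo the all-ones word. -/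
def chain : ℕ → Subgroup GG
  | 0 => X
  | k + 1 => chain k ⊓ MulAction.stabilizer GG (pair (cw (orbBasis.getD k 0)))

variable {X}
variable (h1 : ∀ x ∈ X, x oneC = oneC) (hcls : ∀ x ∈ X, ∀ c, cls (x c) = cls c)

theorem chain_le : ∀ k, chain X k ≤ X
  | 0 => le_rfl
  | k + 1 => inf_le_left.trans (chain_le k)

theorem basis_mem {b : ℕ} (hb : b ∈ orbBasis) : b ∈ codeMasks := by
  have := orbBasis_code
  simp only [Bool.and_eq_true, List.all_eq_true] at this
  exact inCode_iff.1 (this.1.1 b hb)

theorem span_mem {P : List ℕ} (h : ∀ b ∈ P, b ∈ codeMasks) : ∀ m ∈ spanList P, m ∈ codeMasks :=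
  spanList_sub (A := golayBasis.map Prod.snd) h

include h1 in
theorem fix_of_span {x : GG} (hx : x ∈ X) {P : List ℕ} (hP : ∀ b ∈ P, b ∈ codeMasks)
    (hf : ∀ b ∈ P, x (cw b) ∈ pair (cw b)) : ∀ m ∈ spanList P, x (cw m) ∈ pair (cw m) := by
  induction P with
  | nil =>
    intro m hm
    simp [spanList] at hm; subst hm
    have e : cw 0 = 0 := Subtype.ext (by rw [cw_val (zero_mem_spanList _), wordOf_zero]; rfl)
    rw [e, map_zero]
    exact mem_pair.2 (.inl rfl)
  | cons b bs ih =>
    intro m hm
    have ih := ih (fun c hc => hP c (by simp [hc])) fun c hc => hf c (by simp [hc])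
    simp only [spanList, List.mem_append, List.mem_map] at hm
    rcases hm with hm | ⟨y, hy, rfl⟩
    · exact ih m hm
    · rw [cw_xor (span_mem (fun c hc => hP c (by simp [hc])) y hy) (hP b (by simp)), map_add]
      exact pair_add (ih y hy) (hf b (by simp))

include h1 in
theorem chain_fix {x : GG} : ∀ {k : ℕ}, k ≤ 11 → x ∈ chain X k →
    ∀ b ∈ orbBasis.take k, x (cw b) ∈ pair (cw b)
  | 0, _, _ => by simp
  | k + 1, hk, hx => by
    intro b hb
    have hx' : x ∈ chain X k ∧ x • pair (cw (orbBasis.getD k 0)) = pair (cw (orbBasis.getD k 0)) := hx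
    have hl : k < orbBasis.length := by simpa [orbBasis] using hk
    rw [List.take_succ_eq_append_getElem hl, List.mem_append, List.mem_singleton] at hb
    rcases hb with hb | rfl
    · exact chain_fix (by omega) hx'.1 b hb
    · have e := hx'.2
      rw [smul_pair (h1 x (chain_le k hx'.1)), List.getD_eq_getElem _ _ hl] at e
      rw [← e]; exact mem_pair.2 (.inl rfl)

include h1 hcls in
theorem card_step {k : ℕ} (hk : k < 11) :
    Nat.card (chain X k) ≤ orbNums.getD k 0 * Nat.card (chain X (k + 1)) := by
  classical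
  set b := orbBasis.getD k 0 with hb
  have hbm : b ∈ codeMasks := by
    refine basis_mem ?_
    have hl : k < orbBasis.length := by simpa [orbBasis] using hk
    rw [hb, List.getD_eq_getElem _ _ hl]; exact List.getElem_mem hl
  let S : Set (Set CC) := {T | ∃ h ∈ chain X k, h • pair (cw b) = T}
  have hcard := card_eq_ncard_mul (chain X k) (pair (cw b)) S (fun g hg => ⟨g, hg, rfl⟩) (fun y hy => hy)
  have hsub : S ⊆ ↑((cand k).toFinset.image fun m => pair (cw m)) := by
    rintro T ⟨h, hh, rfl⟩
    have hX := chain_le k hh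
    rw [smul_pair (h1 h hX), Finset.coe_image, Set.mem_image]
    obtain ⟨m, hm, e⟩ := exists_cw (h (cw b))
    obtain ⟨m', hm', hlt, hmem⟩ : ∃ m' ∈ codeMasks, m' < 8388608 ∧ cw m' ∈ pair (h (cw b)) := by
      by_cases hl : m < 8388608
      · exact ⟨m, hm, hl, mem_pair.2 (.inl e)⟩
      · refine ⟨m ^^^ 16777215, xor_mem_spanList hm all_mem, ?_, mem_pair.2 (.inr (by rw [cw_xor hm all_mem, e, cw_all]))⟩
        have h24 := codeMasks_lt m hm
        have hx : (m ^^^ 16777215) >>> 23 = 0 := by
          rw [Nat.shiftRight_xor_distrib, Nat.shiftRight_eq_div_pow, Nat.shiftRight_eq_div_pow,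
            show m / 2 ^ 23 = 1 by omega]
          rfl
        rw [Nat.shiftRight_eq_div_pow] at hx
        omega
    refine ⟨m', ?_, pair_eq hmem⟩
    rw [Finset.mem_coe, List.mem_toFinset, cand, List.mem_filter]
    refine ⟨mem_halfMasks hm' hlt, List.all_eq_true.2 fun s hs => ?_⟩
    have hP : ∀ c ∈ orbBasis.take k, c ∈ codeMasks := fun c hc => basis_mem (List.mem_of_mem_take hc)
    have hsm : s ∈ codeMasks := span_mem hP s hs
    have hfix := fix_of_span h1 hX hP (chain_fix h1 hk.le hh) s hs
    rw [Nat.beq_eq, ← cls_cw (xor_mem_spanList hm' hsm), ← cls_cw (xor_mem_spanList hbm hsm),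
      cw_xor hm' hsm, cw_xor hbm hsm, ← hcls h hX (cw b + cw s), map_add]
    refine cls_of_pair (pair_add hmem ?_)
    rw [pair_eq hfix]
    exact mem_pair.2 (.inl rfl)
  have hn : S.ncard ≤ orbNums.getD k 0 := by
    refine (Set.ncard_le_ncard hsub (Finset.finite_toSet _)).trans ?_
    rw [Set.ncard_coe_finset, ← cand_len hk]
    exact Finset.card_image_le.trans (List.toFinset_card_le _)
  rw [hcard]
  exact Nat.mul_le_mul hn le_rfl

include h1 in
theorem chain_last {x : GG} (hx : x ∈ chain X 11) (c : CC) : x c ∈ pair c := by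
  obtain ⟨m, hm, rfl⟩ := exists_cw c
  have h := orbBasis_code
  simp only [Bool.and_eq_true, List.all_eq_true, memL_iff] at h
  have hP : ∀ b ∈ 16777215 :: orbBasis, b ∈ codeMasks := fun b hb => by
    rcases List.mem_cons.1 hb with rfl | hb
    · exact all_mem
    · exact basis_mem hb
  refine fix_of_span h1 (chain_le 11 hx) hP (fun b hb => ?_) m (spanList_sub (fun b hb => ?_) m hm)
  · rcases List.mem_cons.1 hb with rfl | hb
    · rw [cw_all, h1 x (chain_le 11 hx)]; exact mem_pair.2 (.inl rfl)
    · exact chain_fix h1 le_rfl hx b (by simpa [orbBasis] using hb)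
  · obtain ⟨pb, hpb, rfl⟩ := List.mem_map.1 hb
    exact h.2 pb hpb

include h1 hcls in
theorem card_le_chain : Nat.card X ≤ 244823040 * Nat.card (chain X 11) := by
  have s0 := card_step h1 hcls (k := 0) (by norm_num)
  have s1 := card_step h1 hcls (k := 1) (by norm_num)
  have s2 := card_step h1 hcls (k := 2) (by norm_num)
  have s3 := card_step h1 hcls (k := 3) (by norm_num)
  have s4 := card_step h1 hcls (k := 4) (by norm_num)
  have s5 := card_step h1 hcls (k := 5) (by norm_num)
  have s6 := card_step h1 hcls (k := 6) (by norm_num)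
  have s7 := card_step h1 hcls (k := 7) (by norm_num)
  have s8 := card_step h1 hcls (k := 8) (by norm_num)
  have s9 := card_step h1 hcls (k := 9) (by norm_num)
  have s10 := card_step h1 hcls (k := 10) (by norm_num)
  simp only [orbNums, List.getD_cons_zero, List.getD_cons_succ, one_mul] at s0 s1 s2 s3 s4 s5 s6 s7 s8 s9 s10
  norm_num at s0 s1 s2 s3 s4 s5 s6 s7 s8 s9 s10
  change Nat.card (chain X 0) ≤ _
  omega

theorem eq_of_act_pairs {σ τ : P24} (hσ : σ ∈ M24) (hτ : τ ∈ M24)
    (h : ∀ c : CC, act σ (c : GolayPt → ZMod 2) = act τ c ∨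
      act σ (c : GolayPt → ZMod 2) = act τ c + 1) : σ = τ := by
  have hoct : ∀ o ∈ octads, σ • o = τ • o := by
    intro o ho
    obtain ⟨w, hw, e⟩ : ∃ w ∈ golayCode, support₂ w = o := ho.1
    rcases h ⟨w, hw⟩ with e' | e'
    · have := congrArg support₂ e'
      rwa [support₂_act, support₂_act, e] at this
    · exfalso
      have := cls_compl ⟨act τ w, act_mem hτ hw⟩
      have hc : support₂ (act τ w + 1) = (support₂ (act τ w))ᶜ := by
        ext p
        rw [Finset.mem_compl, mem_supp, mem_supp, Pi.add_apply, Pi.one_apply]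
        generalize act τ w p = a
        revert a; decide
      have := congrArg Finset.card (congrArg support₂ e')
      rw [hc, support₂_act, support₂_act, Finset.card_compl, Finset.card_smul_finset,
        Finset.card_smul_finset, e, ho.2, show Fintype.card GolayPt = 24 by simp [GolayPt]] at this
      omega
  ext1 p
  by_contra hne
  obtain ⟨o, ho, hh⟩ := List.any_eq_true.1 (separated (σ p) (τ p) hne)
  simp only [Bool.and_eq_true, Bool.not_eq_true'] at hh
  have hoc : setOfMask o ∈ octads :=
    mem_octList.2 (by rwa [maskOf_setOfMask (weightMasks_lt 8 o (octList_eq ▸ ho))])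
  have ho' := smul_mem_octads (M24_le_octAut (inv_mem hσ)) hoc
  have e := hoct _ ho'
  rw [smul_inv_smul] at e
  have hp : p ∈ σ⁻¹ • setOfMask o := by
    rw [Finset.mem_inv_smul_finset_iff, Equiv.Perm.smul_def, mem_setOfMask]; exact hh.1
  have := Finset.smul_mem_smul_finset (a := τ) hp
  rw [← e, Equiv.Perm.smul_def, mem_setOfMask, hh.2] at this
  exact absurd this (by simp)

include h1 hcls in
/-- The main statement. -/
theorem induces_group (hM : ∀ σ ∈ M24, ∃ x ∈ X, ∀ c : CC, (x c : GolayPt → ZMod 2) = act σ c)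
    {x : GG} (hx : x ∈ X) : ∃ σ ∈ M24, ∀ c : CC, (x c : GolayPt → ZMod 2) = act σ c ∨
      (x c : GolayPt → ZMod 2) = act σ c + 1 := by
  choose L hLX hL using hM
  let Φ : M24 × chain X 11 → X := fun p => ⟨L p.1 p.1.2 * p.2, X.mul_mem (hLX _ _) (chain_le 11 p.2.2)⟩
  have key : ∀ (p : M24 × chain X 11) (c : CC), ((Φ p : GG) c : GolayPt → ZMod 2) = act p.1 c ∨
      ((Φ p : GG) c : GolayPt → ZMod 2) = act p.1 c + 1 := by
    intro p c
    show ((L p.1 p.1.2 ((p.2 : GG) c) : CC) : GolayPt → ZMod 2) = _ ∨ _
    rcases mem_pair.1 (chain_last h1 p.2.2 c) with e | e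
    · exact .inl (by rw [e, hL])
    · refine .inr ?_
      show ((L p.1 p.1.2 ((p.2 : GG) c) : CC) : GolayPt → ZMod 2) = _
      rw [e, map_add, h1 _ (hLX _ _), Submodule.coe_add, hL]
      rfl
  have hinj : Function.Injective Φ := by
    intro p q e
    have e1 : (p.1 : P24) = q.1 := by
      refine eq_of_act_pairs p.1.2 q.1.2 fun c => ?_
      have a := key p c
      have b := key q c
      rw [e] at a
      have h2 : ∀ u v : GolayPt → ZMod 2, u = v + 1 → v = u + 1 := fun u v h => by
        rw [h, add_assoc, show (1 : GolayPt → ZMod 2) + 1 = 0 by funext i; show (1 : ZMod 2) + 1 = 0; decide, add_zero]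
      rcases a with a | a <;> rcases b with b | b
      · exact .inl (a.symm.trans b)
      · exact .inr (a.symm.trans b)
      · exact .inr (h2 _ _ (b.symm.trans a))
      · exact .inl (add_right_cancel (a.symm.trans b))
    have e1' : p.1 = q.1 := Subtype.ext e1
    obtain ⟨p1, p2⟩ := p
    obtain ⟨q1, q2⟩ := q
    subst e1'
    exact Prod.ext rfl (Subtype.ext (mul_left_cancel (congrArg Subtype.val e)))
  have hb := hinj.bijective_of_nat_card_le (by rw [Nat.card_prod, card_M24]; exact card_le_chain h1 hcls)
  obtain ⟨p, hp⟩ := hb.2 ⟨x, hx⟩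
  refine ⟨p.1, p.1.2, fun c => ?_⟩
  rw [show x = (Φ p : GG) from (congrArg Subtype.val hp).symm]
  exact key p c

end CfsgLib.Spor.GolayOrb
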