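import Cfsg.Agent.Lib.SporGolay

/-!
The punctured code of length 23, its perfectness, and coset leaders of the code of length 24.
-/

set_option autoImplicit false
set_option maxRecDepth 20000

namespace CfsgLib.Spor.Perfect
open Cfsg Finset

/-- Deleting the extra point. -/
def punct (w : GolayPt → ZMod 2) : ZMod 23 → ZMod 2 := fun x => w (some x)

/-- The punctured code. -/
abbrev code23 : Set (ZMod 23 → ZMod 2) :=
  {u | ∃ w ∈ golayCode, ∀ x : ZMod 23, u x = w (some x)}

theorem mem_code23 {u : ZMod 23 → ZMod 2} : u ∈ code23 ↔ ∃ w ∈ golayCode, punct w = u := by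
  simp only [Set.mem_setOf_eq, funext_iff, punct, eq_comm]

theorem weight_cases {w : GolayPt → ZMod 2} (hw : w ∈ golayCode) :
    hammingNorm w ∈ [0, 8, 12, 16, 24] := by
  obtain ⟨m, hm, rfl⟩ := mem_golayCode_iff.1 hw
  rw [hammingNorm_eq_card, support₂_wordOf, card_setOfMask]
  exact codeMasks_weights m hm

theorem min_weight {w : GolayPt → ZMod 2} (hw : w ∈ golayCode) (h : hammingNorm w < 8) : w = 0 := by
  have h' := weight_cases hw
  simp at h'
  rcases h' with h' | h' | h' | h' | h'
  · exact h'
  all_goals omega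

theorem norm_option (w : GolayPt → ZMod 2) :
    hammingNorm w = hammingNorm (punct w) + if w none = 0 then 0 else 1 := by
  rw [hammingNorm_eq_card, hammingNorm_eq_card]
  simp only [support₂]
  rw [card_filter]
  rw [Fintype.sum_option, Nat.add_comm]
  by_cases h : w none = 0
  · rw [if_neg (not_not.2 h), if_pos h]; exact congrArg (· + 0) (card_filter (fun a => punct w a ≠ 0) univ).symm
  · rw [if_pos h, if_neg h]; exact congrArg (· + 1) (card_filter (fun a => punct w a ≠ 0) univ).symm

theorem norm_add_le {α : Type*} [Fintype α] (a b : α → ZMod 2) :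
    hammingNorm (a + b) ≤ hammingNorm a + hammingNorm b := by
  classical
  refine (card_le_card ?_).trans (card_union_le _ _)
  intro x hx
  simp only [mem_union, mem_filter, mem_univ, true_and, Pi.add_apply] at hx ⊢
  by_contra h
  push_neg at h
  simp [h.1, h.2] at hx

theorem sub_eq {α : Type*} (a b : α → ZMod 2) : a - b = a + b := by
  funext x; show a x - b x = a x + b x; rw [sub_eq_add_neg, ZMod.neg_eq_self_mod_two]

theorem dist_eq {α : Type*} [Fintype α] (a b : α → ZMod 2) : hammingDist a b = hammingNorm (a + b) := by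
  classical
  refine congrArg Finset.card (filter_congr fun x _ => ?_)
  show a x ≠ b x ↔ (a + b) x ≠ 0
  rw [Pi.add_apply]
  generalize a x = s; generalize b x = t; revert s t; decide

theorem sum_eq {α : Type*} [Fintype α] (a : α → ZMod 2) : (hammingNorm a : ZMod 2) = ∑ x, a x := by
  rw [hammingNorm, card_filter, Nat.cast_sum]
  refine sum_congr rfl fun x _ => ?_
  generalize a x = t; revert t; decide

theorem norm_add_mod {α : Type*} [Fintype α] (a b : α → ZMod 2) :
    hammingNorm (a + b) % 2 = (hammingNorm a + hammingNorm b) % 2 := by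
  refine (ZMod.natCast_eq_natCast_iff' _ _ 2).1 ?_
  rw [Nat.cast_add, sum_eq, sum_eq, sum_eq, ← sum_add_distrib]
  rfl

theorem code23_sub_mem {u v : ZMod 23 → ZMod 2} (hu : u ∈ code23) (hv : v ∈ code23) :
    ∃ w ∈ golayCode, punct w = u - v := by
  obtain ⟨a, ha, rfl⟩ := mem_code23.1 hu
  obtain ⟨b, hb, rfl⟩ := mem_code23.1 hv
  exact ⟨a - b, sub_mem ha hb, rfl⟩

theorem code23_min {u : ZMod 23 → ZMod 2} (hu : u ∈ code23) (h : hammingNorm u < 7) : u = 0 := by
  obtain ⟨w, hw, rfl⟩ := mem_code23.1 hu
  have := norm_option w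
  have := min_weight hw (by split_ifs at this <;> omega)
  subst this
  rfl

theorem punct_injOn {a b : GolayPt → ZMod 2} (ha : a ∈ golayCode) (hb : b ∈ golayCode)
    (h : punct a = punct b) : a = b := by
  refine sub_eq_zero.1 (min_weight (sub_mem ha hb) ?_)
  have := norm_option (a - b)
  have e : punct (a - b) = 0 := by rw [show punct (a - b) = punct a - punct b from rfl, h, sub_self]
  rw [e, hammingNorm_zero] at this
  split_ifs at this <;> omega

theorem ncard_code23 (P : (GolayPt → ZMod 2) → Prop) (Q : ℕ → Bool)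
    (h : ∀ m ∈ codeMasks, (Q m = true ↔ P (wordOf m)))
    (S : Set (ZMod 23 → ZMod 2)) (hS : S = punct '' {w | w ∈ golayCode ∧ P w}) :
    S.ncard = codeMasks.countP Q := by
  classical
  rw [hS, Set.InjOn.ncard_image fun a ha b hb => punct_injOn ha.1 hb.1]
  have e : {w | w ∈ golayCode ∧ P w} = ↑(((codeMasks.filter Q).toFinset).image wordOf) := by
    ext w
    simp only [Set.mem_setOf_eq, coe_image, Set.mem_image, mem_coe, List.mem_toFinset, List.mem_filter]
    constructor
    · rintro ⟨h1, h2⟩
      obtain ⟨m, hm, rfl⟩ := mem_golayCode_iff.1 h1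
      exact ⟨m, ⟨hm, (h m hm).2 h2⟩, rfl⟩
    · rintro ⟨m, ⟨hm, hq⟩, rfl⟩
      exact ⟨mem_golayCode_iff.2 ⟨m, hm, rfl⟩, (h m hm).1 hq⟩
  rw [e, Set.ncard_coe_finset, card_image_of_injOn, List.toFinset_card_of_nodup (codeMasks_nodup.filter _),
    List.countP_eq_length_filter]
  intro a ha b hb hab
  simp at ha hb
  exact setOfMask_inj (codeMasks_lt a ha.1) (codeMasks_lt b hb.1)
    (by rw [← support₂_wordOf, ← support₂_wordOf, hab])

theorem ncard_norm (k : ℕ) : {u | u ∈ code23 ∧ hammingNorm u = k}.ncard =
    codeMasks.countP fun m => Nat.beq (wt m - (m.testBit 23).toNat) k := by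
  refine ncard_code23 (fun w => hammingNorm (punct w) = k) _ (fun m _ => ?_) _ ?_
  · have := norm_option (wordOf m)
    rw [hammingNorm_eq_card (wordOf m), support₂_wordOf, card_setOfMask] at this
    rw [Nat.beq_eq, show hammingNorm (punct (wordOf m)) = wt m - (m.testBit 23).toNat from ?_]
    rw [this, show wordOf m none = if m.testBit 23 then 1 else 0 from rfl]
    cases m.testBit 23 <;> simp
  · ext u
    simp only [Set.mem_setOf_eq, Set.mem_image, ← mem_code23]
    constructor
    · rintro ⟨h1, h2⟩
      obtain ⟨w, hw, rfl⟩ := mem_code23.1 h1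
      exact ⟨w, ⟨hw, h2⟩, rfl⟩
    · rintro ⟨w, ⟨hw, h2⟩, rfl⟩
      exact ⟨⟨w, hw, fun _ => rfl⟩, h2⟩

theorem card_code23 : code23.ncard = 4096 := by
  rw [ncard_code23 (fun _ => True) (fun _ => true) (fun _ _ => by simp)]
  · rw [List.countP_true, length_codeMasks]
  · ext u
    simp only [Set.mem_image, Set.mem_setOf_eq, and_true]
    exact mem_code23

theorem perfect_unique {u c d : ZMod 23 → ZMod 2} (hc : c ∈ code23) (hd : d ∈ code23)
    (h1 : hammingDist u c ≤ 3) (h2 : hammingDist u d ≤ 3) : c = d := by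
  have h := hammingDist_triangle c u d
  rw [hammingDist_comm c u] at h
  obtain ⟨w, hw, e⟩ := code23_sub_mem hc hd
  refine sub_eq_zero.1 (e ▸ code23_min ⟨w, hw, fun _ => rfl⟩ ?_)
  show hammingNorm (punct w) < 7
  rw [e, sub_eq, ← dist_eq]
  omega

theorem card_ball : {e : ZMod 23 → ZMod 2 | hammingNorm e ≤ 3}.ncard = 2048 := by
  classical
  have hs : support₂ '' {e : ZMod 23 → ZMod 2 | hammingNorm e ≤ 3} =
      ↑((range 4).biUnion fun i => (univ : Finset (ZMod 23)).powersetCard i) := by
    ext s
    simp only [Set.mem_image, Set.mem_setOf_eq, coe_biUnion, Set.mem_iUnion, mem_coe, mem_range, mem_powersetCard,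
      exists_prop, hammingNorm_eq_card]
    constructor
    · rintro ⟨e, he, rfl⟩
      exact ⟨_, by omega, subset_univ _, rfl⟩
    · rintro ⟨i, hi, -, hc⟩
      refine ⟨fun x => if x ∈ s then 1 else 0, ?_⟩
      have : support₂ (fun x => if x ∈ s then (1 : ZMod 2) else 0) = s := by ext x; simp [support₂]
      rw [this]
      exact ⟨by omega, rfl⟩
  rw [← Set.ncard_image_of_injective _ (support₂_injective (α := ZMod 23)), hs, Set.ncard_coe_finset,
    card_biUnion fun i _ j _ hij => disjoint_left.2 fun x hx hy => hij ?_]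
  · simp only [card_powersetCard, card_univ, ZMod.card]
    decide +kernel
  · rw [mem_powersetCard] at hx hy
    exact hx.2.symm.trans hy.2

theorem perfect (u : ZMod 23 → ZMod 2) : ∃! c, c ∈ code23 ∧ hammingDist u c ≤ 3 := by
  let f : (ZMod 23 → ZMod 2) × (ZMod 23 → ZMod 2) → (ZMod 23 → ZMod 2) := fun p => p.1 + p.2
  have hdist : ∀ c e : ZMod 23 → ZMod 2, hammingDist (c + e) c = hammingNorm e := fun c e => by
    rw [dist_eq, add_comm c e, add_assoc, ← sub_eq c c, sub_self, add_zero]
  have hinj : Set.InjOn f (code23 ×ˢ {e | hammingNorm e ≤ 3}) := by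
    rintro ⟨c, e⟩ ⟨hc, he⟩ ⟨d, e'⟩ ⟨hd, he'⟩ h
    have : c = d := perfect_unique hc hd (u := c + e) ((hdist c e).le.trans he)
      (by rw [show c + e = d + e' from h]; exact (hdist d e').le.trans he')
    subst this
    rw [add_left_cancel (show c + e = c + e' from h)]
  have hall : f '' (code23 ×ˢ {e | hammingNorm e ≤ 3}) = Set.univ := by
    refine Set.eq_of_subset_of_ncard_le (Set.subset_univ _) ?_ (Set.toFinite _)
    rw [hinj.ncard_image, Set.ncard_prod, card_code23, card_ball, Set.ncard_univ, Nat.card_eq_fintype_card,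
      Fintype.card_fun, ZMod.card, ZMod.card]
    norm_num
  obtain ⟨⟨c, e⟩, ⟨hc, he⟩, rfl⟩ := hall.ge (Set.mem_univ u)
  exact ⟨c, ⟨hc, (hdist c e).le.trans he⟩, fun d hd => perfect_unique hd.1 hc hd.2 ((hdist c e).le.trans he)⟩

/-- The small members of a coset. -/
abbrev leaders (w : GolayPt → ZMod 2) : Set (GolayPt → ZMod 2) :=
  {v | hammingNorm v ≤ 4 ∧ w - v ∈ golayCode}

theorem exists_leader (w : GolayPt → ZMod 2) : ∃ v, v ∈ leaders w := by
  obtain ⟨c, ⟨hc, hd⟩, -⟩ := perfect (punct w)
  obtain ⟨a, ha, rfl⟩ := mem_code23.1 hc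
  refine ⟨w - a, ?_, by rwa [sub_sub_cancel]⟩
  rw [norm_option, show punct (w - a) = punct w - punct a from rfl, sub_eq (punct w)]
  rw [dist_eq] at hd
  split_ifs <;> omega

theorem leader_diff {w v v' : GolayPt → ZMod 2} (h : v ∈ leaders w) (h' : v' ∈ leaders w) :
    v + v' ∈ golayCode := by
  have := sub_mem h'.2 h.2
  rwa [sub_sub_sub_cancel_left, sub_eq] at this

theorem leaders_dichotomy (w : GolayPt → ZMod 2) :
    ((leaders w).ncard = 1 ∧ ∃ v, hammingNorm v ≤ 3 ∧ w - v ∈ golayCode) ∨
      ((leaders w).ncard = 6 ∧ ∀ v, w - v ∈ golayCode → hammingNorm v ≤ 4 → hammingNorm v = 4) := by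
  classical
  by_cases h : ∃ v, hammingNorm v ≤ 3 ∧ w - v ∈ golayCode
  · refine Or.inl ⟨?_, h⟩
    obtain ⟨v, hv, hvw⟩ := h
    rw [Set.ncard_eq_one]
    refine ⟨v, Set.eq_singleton_iff_unique_mem.2 ⟨⟨by omega, hvw⟩, fun v' h' => ?_⟩⟩
    have hm := leader_diff h' (⟨by omega, hvw⟩ : v ∈ leaders w)
    have := min_weight hm (by have := norm_add_le v' v; have := h'.1; omega)
    rw [← sub_eq] at this
    exact sub_eq_zero.1 this
  push_neg at h
  have h4 : ∀ v, v ∈ leaders w → hammingNorm v = 4 := fun v hv => by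
    by_contra hne
    exact h v (by have := hv.1; omega) hv.2
  refine Or.inr ⟨?_, fun v h1 h2 => h4 v ⟨h2, h1⟩⟩
  set L := (leaders w).toFinite.toFinset with hL
  have memL : ∀ v, v ∈ L ↔ v ∈ leaders w := fun v => Set.Finite.mem_toFinset _
  have hdisj : (L : Set (GolayPt → ZMod 2)).PairwiseDisjoint support₂ := by
    intro a ha b hb hne
    have ha' := (memL a).1 ha
    have hb' := (memL b).1 hb
    have h8 : 8 ≤ hammingNorm (a + b) := by
      by_contra hlt
      exact hne (sub_eq_zero.1 (by rw [sub_eq]; exact min_weight (leader_diff ha' hb') (by omega)))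
    show Disjoint (support₂ a) (support₂ b)
    have hsub : support₂ (a + b) ⊆ support₂ a ∪ support₂ b := by
      intro x hx
      simp only [support₂, mem_union, mem_filter, mem_univ, true_and, Pi.add_apply] at hx ⊢
      by_contra hh
      push_neg at hh
      simp [hh.1, hh.2] at hx
    have hc := card_le_card hsub
    have hu := card_union_add_card_inter (support₂ a) (support₂ b)
    rw [← hammingNorm_eq_card] at hc
    rw [← hammingNorm_eq_card, ← hammingNorm_eq_card, h4 a ha', h4 b hb'] at hu
    rw [disjoint_iff_inter_eq_empty, ← card_eq_zero]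
    omega
  have hcover : L.biUnion support₂ = univ := by
    refine eq_univ_of_forall fun p => ?_
    obtain ⟨v, hv⟩ := exists_leader w
    by_cases hp : p ∈ support₂ v
    · exact mem_biUnion.2 ⟨v, (memL v).2 hv, hp⟩
    have hvp : v p = 0 := by simpa [support₂] using hp
    set e : GolayPt → ZMod 2 := Pi.single p 1 with he
    have hne : hammingNorm e = 1 := by
      rw [hammingNorm_eq_card, card_eq_one]
      exact ⟨p, by ext x; simp [support₂, he, Pi.single_apply]⟩
    obtain ⟨v', hv'⟩ := exists_leader (v + e)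
    set v'' := v' + e with hv''
    have hin : w - v'' ∈ golayCode := by
      have := add_mem hv.2 hv'.2
      have e2 : w - v'' = w - v + (v + e - v') := by
        simp only [sub_eq, hv'']
        funext x
        simp only [Pi.add_apply]
        generalize w x = a; generalize v x = b; generalize v' x = c; generalize e x = d
        revert a b c d; decide
      rwa [e2]
    have hle : hammingNorm v'' ≤ 5 := by
      have := norm_add_le v' e
      have := hv'.1
      rw [← hv''] at *
      omega
    have hmod : hammingNorm v'' % 2 = 0 := by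
      have h1 := norm_add_mod v v''
      have h2 : v + v'' ∈ golayCode := by
        have := sub_mem hin hv.2
        rwa [sub_sub_sub_cancel_left, sub_eq] at this
      have h3 := weight_cases h2
      simp only [List.mem_cons, List.not_mem_nil, or_false] at h3
      rw [h4 v hv] at h1
      omega
    have hlead : v'' ∈ leaders w := ⟨by omega, hin⟩
    refine mem_biUnion.2 ⟨v'', (memL _).2 hlead, ?_⟩
    by_contra hp''
    have hz : v'' p = 0 := by simpa [support₂] using hp''
    have hv'p : v' p = 1 := by
      have : v' p + 1 = 0 := by simpa [hv'', he] using hz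
      revert this; generalize v' p = t; revert t; decide
    have hs : support₂ v' = insert p (support₂ v'') := by
      ext x
      by_cases hx : x = p
      · subst hx; simp [support₂, hv'p]
      · simp [support₂, hv'', he, Pi.single_apply, hx]
    have := hv'.1
    rw [hammingNorm_eq_card, hs, card_insert_of_notMem hp'', ← hammingNorm_eq_card, h4 _ hlead] at this
    omega
  have hcard := card_biUnion hdisj
  rw [hcover, sum_congr rfl fun v hv => (hammingNorm_eq_card v).symm.trans (h4 v ((memL v).1 hv)), sum_const,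
    smul_eq_mul, card_univ, Fintype.card_option, ZMod.card] at hcard
  rw [Set.ncard_eq_toFinset_card _ (leaders w).toFinite]
  change L.card = 6
  omega

theorem counts :
    (codeMasks.countP fun m => Nat.beq (wt m - (m.testBit 23).toNat) 7) = 253 ∧
    (codeMasks.countP fun m => Nat.beq (wt m - (m.testBit 23).toNat) 8) = 506 ∧
    (codeMasks.countP fun m => Nat.beq (wt m - (m.testBit 23).toNat) 11) = 1288 ∧
    (codeMasks.countP fun m => Nat.beq (wt m - (m.testBit 23).toNat) 12) = 1288 ∧
    (codeMasks.countP fun m => Nat.beq (wt m - (m.testBit 23).toNat) 15) = 506 ∧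
    (codeMasks.countP fun m => Nat.beq (wt m - (m.testBit 23).toNat) 16) = 253 := by decide +kernel

end CfsgLib.Spor.Perfect
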