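import Cfsg.Agent.Lib.SporHexacode
import Mathlib

/-!
The monomial group of the hexacode: scalars by an alternating group of degree six.
-/

set_option autoImplicit false
set_option maxRecDepth 20000

namespace CfsgLib.Spor.Hexa
open Cfsg Finset

/-- The codewords, as numbers. -/
def hexL : List ℕ := [0, 85, 170, 255, 286, 331, 436, 481, 551, 626, 653, 728, 825, 876, 915, 966, 1051, 1102, 1201, 1252, 1285, 1360, 1455, 1530, 1596, 1641, 1686, 1731, 1826, 1911, 1928, 2013, 2093, 2168, 2183, 2258, 2355, 2406, 2457, 2508, 2570, 2655, 2720, 2805, 2836, 2881, 3006, 3051, 3126, 3171, 3228, 3273, 3368, 3453, 3458, 3543, 3601, 3652, 3771, 3822, 3855, 3930, 4005, 4080]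

/-- Scalars for products of two transpositions. -/
def hexWit : List (List (Fin 3)) := [[0, 0, 0, 0, 0, 0], [0, 0, 0, 0, 0, 0], [0, 0, 0, 0, 1, 2], [0, 0, 0, 0, 2, 1], [0, 0, 1, 2, 0, 0], [0, 0, 2, 1, 0, 0], [0, 0, 0, 0, 0, 0], [0, 0, 0, 0, 0, 0], [0, 0, 0, 0, 2, 1], [0, 0, 0, 0, 1, 2], [0, 0, 2, 1, 0, 0], [0, 0, 1, 2, 0, 0], [0, 0, 0, 0, 1, 2], [0, 0, 0, 0, 2, 1], [0, 0, 0, 0, 0, 0], [0, 0, 0, 0, 0, 0], [0, 2, 1, 1, 1, 1], [0, 1, 2, 2, 2, 2], [0, 0, 0, 0, 2, 1], [0, 0, 0, 0, 1, 2], [0, 0, 0, 0, 0, 0], [0, 0, 0, 0, 0, 0], [0, 1, 2, 2, 2, 2], [0, 2, 1, 1, 1, 1], [0, 0, 1, 2, 0, 0], [0, 0, 2, 1, 0, 0], [0, 2, 1, 1, 1, 1], [0, 1, 2, 2, 2, 2], [0, 0, 0, 0, 0, 0], [0, 0, 0, 0, 0, 0], [0, 0, 2, 1, 0, 0], [0, 0, 1, 2, 0, 0], [0, 1, 2, 2, 2, 2], [0, 2, 1, 1, 1, 1], [0, 0, 0, 0, 0, 0], [0, 0, 0, 0, 0, 0]]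

/-- A word as a number. -/
def encW (w : Fin 6 → Fin 4) : ℕ :=
  (w 0).val + 4 * ((w 1).val + 4 * ((w 2).val + 4 * ((w 3).val + 4 * ((w 4).val + 4 * (w 5).val))))

theorem encW_injective : Function.Injective encW := by
  intro v w h
  simp only [encW] at h
  funext i
  have h0 := (v 0).isLt; have h1 := (v 1).isLt; have h2 := (v 2).isLt
  have h3 := (v 3).isLt; have h4 := (v 4).isLt; have h5 := (v 5).isLt
  have g0 := (w 0).isLt; have g1 := (w 1).isLt; have g2 := (w 2).isLt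
  have g3 := (w 3).isLt; have g4 := (w 4).isLt; have g5 := (w 5).isLt
  apply Fin.ext
  fin_cases i <;> simp <;> omega

/-- The membership test. -/
def isH (w : Fin 6 → Fin 4) : Bool := hexL.any fun n => Nat.beq (encW w) n

theorem hexL_ok : (∀ a b c, isH (word a b c) = true) ∧ ∀ n ∈ hexL, ∃ a b c, encW (word a b c) = n := by
  decide +kernel

theorem isH_iff {w : Fin 6 → Fin 4} : isH w = true ↔ ∃ a b c, word a b c = w := by
  refine ⟨fun h => ?_, fun ⟨a, b, c, e⟩ => e ▸ hexL_ok.1 a b c⟩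
  obtain ⟨n, hn, e⟩ := List.any_eq_true.1 h
  obtain ⟨a, b, c, e'⟩ := hexL_ok.2 n hn
  exact ⟨a, b, c, encW_injective (e'.trans (Nat.eq_of_beq_eq_true e).symm)⟩

/-- The three generators. -/
def genW (k : Fin 3) : Fin 6 → Fin 4 := ![![2, 3, 3, 2, 3, 2], ![3, 2, 2, 3, 3, 2], ![3, 2, 3, 2, 2, 3]] k

/-- Admissibility in the table. -/
def admB (s : Fin 6 → Fin 6) (c : Fin 6 → Fin 3) : Bool :=
  isH (fun i => ml (c i).succ (genW 0 (s i))) && isH (fun i => ml (c i).succ (genW 1 (s i))) &&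
    isH (fun i => ml (c i).succ (genW 2 (s i)))

theorem admB_diag : ∀ c, admB id c = true → ∀ i, c i = c 0 := by decide +kernel

theorem admB_const : ∀ k, admB id (fun _ => k) = true := by decide +kernel

theorem admB_swap : ∀ c, admB (Equiv.swap (0 : Fin 6) 1) c = false := by decide +kernel

theorem admB_wit : ∀ a b : Fin 6, a ≠ b → admB (fun i => Equiv.swap a b (Equiv.swap 0 1 i))
    (fun i => (hexWit.getD (6 * a.val + b.val) []).getD i.val 0) = true := by decide +kernel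

variable {F : Type*} [Field F] [Fintype F] [DecidableEq F]
variable (hF : Fintype.card F = 4) {ω : F} (hω : ω ^ 2 + ω + 1 = 0)

/-- The monomial map preserves the code. -/
def Adm (ω : F) (σ : Equiv.Perm (Fin 6)) (c : Fin 6 → Fˣ) : Prop :=
  ∀ x ∈ hexacode F ω, monomialMap σ c x ∈ hexacode F ω

/-- The monomial map as a linear map. -/
def monL (σ : Equiv.Perm (Fin 6)) (c : Fin 6 → Fˣ) : (Fin 6 → F) →ₗ[F] (Fin 6 → F) where
  toFun := monomialMap σ c
  map_add' x y := by funext i; simp [monomialMap, mul_add]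
  map_smul' r x := by funext i; simp [monomialMap]; ring

include hF hω

theorem adm_iff (σ : Equiv.Perm (Fin 6)) (c : Fin 6 → Fˣ) (k : Fin 6 → Fin 3)
    (hk : ∀ i, (c i : F) = val ω (k i).succ) : Adm ω σ c ↔ admB σ.symm k = true := by
  obtain ⟨hinj, -, hm⟩ := val_facts hF hω
  have hgen : ∀ j : Fin 3, monomialMap σ c (fun i => val ω (genW j i)) ∈ hexacode F ω ↔
      isH (fun i => ml (k i).succ (genW j (σ.symm i))) = true := by
    intro j
    rw [mem_iff hF hω, isH_iff]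
    have e : monomialMap σ c (fun i => val ω (genW j i)) = fun i => val ω (ml (k i).succ (genW j (σ.symm i))) := by
      funext i; simp only [monomialMap, hk, hm]
    rw [e]
    constructor
    · rintro ⟨t, ht⟩
      exact ⟨t.1, t.2.1, t.2.2, funext fun i => hinj (congrFun ht i)⟩
    · rintro ⟨a, b, c', e'⟩
      exact ⟨(a, b, c'), funext fun i => congrArg (val ω) (congrFun e' i)⟩
  have hg : ∀ j : Fin 3, (fun i => val ω (genW j i)) =
      ![![ω, ω ^ 2, ω ^ 2, ω, ω ^ 2, ω], ![ω ^ 2, ω, ω, ω ^ 2, ω ^ 2, ω], ![ω ^ 2, ω, ω ^ 2, ω, ω, ω ^ 2]] j := by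
    intro j; funext i; fin_cases j <;> fin_cases i <;> simp [genW, val]
  rw [admB, Bool.and_eq_true, Bool.and_eq_true, ← hgen 0, ← hgen 1, ← hgen 2, hg, hg, hg]
  constructor
  · intro h
    exact ⟨⟨h _ (Submodule.subset_span (by simp)), h _ (Submodule.subset_span (by simp))⟩,
      h _ (Submodule.subset_span (by simp))⟩
  · rintro ⟨⟨h0, h1⟩, h2⟩
    show hexacode F ω ≤ (hexacode F ω).comap (monL σ c)
    conv_lhs => rw [hexacode]
    refine Submodule.span_le.2 ?_
    rintro x (rfl | rfl | rfl)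
    exacts [h0, h1, h2]

omit hF hω in
/-- Units of a table entry. -/
theorem succ_ne_zero' (k : Fin 3) : k.succ ≠ (0 : Fin 4) := Fin.succ_ne_zero k

theorem exists_code (c : Fin 6 → Fˣ) : ∃ k : Fin 6 → Fin 3, ∀ i, (c i : F) = val ω (k i).succ := by
  have h : ∀ i, ∃ k : Fin 3, (c i : F) = val ω k.succ := fun i => by
    obtain ⟨a, ha⟩ := val_surjective hF hω (c i : F)
    have h0 : a ≠ 0 := fun e => (c i).ne_zero (by rw [← ha, e]; rfl)
    exact ⟨a.pred h0, by rw [Fin.succ_pred, ha]⟩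
  exact ⟨fun i => (h i).choose, fun i => (h i).choose_spec⟩

theorem diag_scalar {c : Fin 6 → Fˣ} (h : Adm ω 1 c) (i j : Fin 6) : c i = c j := by
  obtain ⟨k, hk⟩ := exists_code hF hω c
  have := admB_diag k ((adm_iff hF hω 1 c k hk).1 h)
  exact Units.ext (by rw [hk, hk, this i, this j])

omit hF hω in
theorem adm_scalar (u : Fˣ) : Adm ω 1 (fun _ : Fin 6 => u) := fun x hx =>
  (hexacode F ω).smul_mem (u : F) hx

omit hF hω in
theorem adm_mul {σ τ : Equiv.Perm (Fin 6)} {c d : Fin 6 → Fˣ} (h : Adm ω σ c) (h' : Adm ω τ d) :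
    Adm ω (σ * τ) (fun i => c i * d (σ.symm i)) := fun x hx => by
  have := h _ (h' x hx)
  have e : monomialMap (σ * τ) (fun i => c i * d (σ.symm i)) x = monomialMap σ c (monomialMap τ d x) := by
    funext i
    simp only [monomialMap, Units.val_mul, mul_assoc]
    rfl
  rw [e]; exact this

omit hF hω in
theorem adm_ratio {σ : Equiv.Perm (Fin 6)} {c d : Fin 6 → Fˣ} (h : Adm ω σ c) (h' : Adm ω σ d) :
    Adm ω 1 (fun i => d i / c i) := by
  intro x hx
  have hinj : Function.Injective fun y : hexacode F ω => (⟨monomialMap σ c y, h y y.2⟩ : hexacode F ω) :=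
    fun a b e => Subtype.ext (funext fun i => by
      have := congrFun (congrArg Subtype.val e) (σ i)
      simpa [monomialMap] using this)
  obtain ⟨y, hy⟩ := (Finite.injective_iff_surjective.1 hinj) ⟨x, hx⟩
  have e : monomialMap 1 (fun i => d i / c i) x = monomialMap σ d y := by
    funext i
    rw [← show monomialMap σ c (y : Fin 6 → F) = x from congrArg Subtype.val hy]
    show ((d i / c i : Fˣ) : F) * ((c i : F) * (y : Fin 6 → F) (σ.symm i)) = _
    rw [← mul_assoc, ← Units.val_mul, div_mul_cancel]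
    rfl
  rw [e]; exact h' y y.2

/-- The permutation parts form the alternating group. -/
theorem perm_parts : {σ : Equiv.Perm (Fin 6) | ∃ c, Adm ω σ c} = (alternatingGroup (Fin 6) : Set (Equiv.Perm (Fin 6))) := by
  have hmul : ∀ {σ τ : Equiv.Perm (Fin 6)}, (∃ c, Adm ω σ c) → (∃ c, Adm ω τ c) → ∃ c, Adm ω (σ * τ) c :=
    fun ⟨c, hc⟩ ⟨d, hd⟩ => ⟨_, adm_mul hc hd⟩
  have hpow : ∀ (σ : Equiv.Perm (Fin 6)) (n : ℕ), (∃ c, Adm ω σ c) → ∃ c, Adm ω (σ ^ n) c := by
    intro σ n hσ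
    induction n with
    | zero => exact ⟨_, by rw [pow_zero]; exact adm_scalar 1⟩
    | succ n ih => rw [pow_succ]; exact hmul ih hσ
  have hinv : ∀ σ : Equiv.Perm (Fin 6), (∃ c, Adm ω σ c) → ∃ c, Adm ω σ⁻¹ c := fun σ hσ => by
    have := hpow σ (orderOf σ - 1) hσ
    rwa [pow_sub _ (orderOf_pos σ), pow_orderOf_eq_one, one_mul, pow_one] at this
  set s₀ : Equiv.Perm (Fin 6) := Equiv.swap 0 1 with hs₀
  have hs : ¬ ∃ c, Adm ω s₀ c := fun ⟨c, hc⟩ => by
    obtain ⟨k, hk⟩ := exists_code hF hω c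
    have := (adm_iff hF hω _ c k hk).1 hc
    rw [hs₀, Equiv.symm_swap, admB_swap] at this
    exact Bool.false_ne_true this
  have hw : ∀ a b : Fin 6, a ≠ b → ∃ c, Adm ω (s₀ * Equiv.swap a b) c := by
    intro a b hab
    let k : Fin 6 → Fin 3 := fun i => (hexWit.getD (6 * a.val + b.val) []).getD i.val 0
    have hne : ∀ i, val ω (k i).succ ≠ 0 := fun i e => Fin.succ_ne_zero _ ((val_facts hF hω).1 (e.trans rfl))
    refine ⟨fun i => Units.mk0 _ (hne i), (adm_iff hF hω _ _ k fun i => rfl).2 ?_⟩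
    exact admB_wit a b hab
  have h00 : s₀ * s₀ = 1 := Equiv.swap_mul_self _ _
  have key : ∀ σ : Equiv.Perm (Fin 6), (Equiv.Perm.sign σ = 1 ∧ ∃ c, Adm ω σ c) ∨
      (Equiv.Perm.sign σ = -1 ∧ ∃ c, Adm ω (s₀ * σ) c) := by
    intro σ
    induction σ using Equiv.Perm.swap_induction_on with
    | one => exact .inl ⟨map_one _, _, adm_scalar 1⟩
    | swap_mul τ a b hab ih =>
      rcases ih with ⟨h1, h⟩ | ⟨h1, h⟩
      · refine .inr ⟨by rw [map_mul, Equiv.Perm.sign_swap hab, h1, mul_one], ?_⟩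
        rw [← mul_assoc]
        exact hmul (hw a b hab) h
      · refine .inl ⟨by rw [map_mul, Equiv.Perm.sign_swap hab, h1]; rfl, ?_⟩
        have := hmul (hinv _ (hw a b hab)) h
        rwa [mul_inv_rev, Equiv.swap_inv, hs₀, Equiv.swap_inv, ← hs₀, mul_assoc, ← mul_assoc s₀ s₀ τ, h00,
          one_mul] at this
  ext σ
  rw [SetLike.mem_coe, Equiv.Perm.mem_alternatingGroup]
  constructor
  · intro h
    rcases key σ with ⟨h1, -⟩ | ⟨-, h'⟩
    · exact h1
    · exfalso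
      have := hmul h' (hinv _ h)
      rw [mul_inv_cancel_right] at this
      exact hs this
  · intro h
    rcases key σ with ⟨-, h'⟩ | ⟨h1, -⟩
    · exact h'
    · rw [h] at h1; exact absurd h1 (by decide)

/-- The order of the monomial group. -/
theorem card_aut : Nat.card {f : Equiv.Perm (Fin 6) × (Fin 6 → Fˣ) // Adm ω f.1 f.2} = 1080 := by
  classical
  have h := perm_parts hF hω
  have hex : ∀ σ : alternatingGroup (Fin 6), ∃ c, Adm ω (σ : Equiv.Perm (Fin 6)) c := fun σ => h.symm.subset σ.2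
  choose C hC using hex
  let e : alternatingGroup (Fin 6) × Fˣ → {f : Equiv.Perm (Fin 6) × (Fin 6 → Fˣ) // Adm ω f.1 f.2} := fun p =>
    ⟨((p.1 : Equiv.Perm (Fin 6)), fun i => p.2 * C p.1 i), fun x hx => by
      have := (hexacode F ω).smul_mem (p.2 : F) (hC p.1 x hx)
      have e' : monomialMap (p.1 : Equiv.Perm (Fin 6)) (fun i => p.2 * C p.1 i) x =
          (p.2 : F) • monomialMap (p.1 : Equiv.Perm (Fin 6)) (C p.1) x := by
        funext i; simp [monomialMap, mul_assoc]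
      rw [e']; exact this⟩
  have hb : Function.Bijective e := by
    constructor
    · rintro ⟨σ, u⟩ ⟨τ, v⟩ he
      have h1 : σ = τ := Subtype.ext (congrArg (fun f => f.1.1) he)
      subst h1
      exact Prod.ext rfl (mul_right_cancel (congrFun (congrArg (fun f => f.1.2) he) 0))
    · rintro ⟨⟨σ, c⟩, hc⟩
      let s : alternatingGroup (Fin 6) := ⟨σ, h.subset ⟨c, hc⟩⟩
      refine ⟨(s, c 0 / C s 0), Subtype.ext (Prod.ext rfl (funext fun i => ?_))⟩
      have := diag_scalar hF hω (adm_ratio (hC s) (show Adm ω (s : Equiv.Perm (Fin 6)) c from hc)) 0 i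
      show c 0 / C s 0 * C s i = c i
      rw [this, div_mul_cancel]
  rw [← Nat.card_congr (Equiv.ofBijective e hb), Nat.card_prod, nat_card_alternatingGroup, Nat.card_fin,
    Nat.card_units, Nat.card_eq_fintype_card (α := F), hF]
  rfl

end CfsgLib.Spor.Hexa
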