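import Cfsg.Prelude.Def_SporadicCombinatorics

/-!
The hexacode through a table for the field of order four.
-/

set_option autoImplicit false
set_option maxRecDepth 20000

namespace CfsgLib.Spor.Hexa
open Cfsg Finset

/-- Addition in the table. -/
def ad (a b : Fin 4) : Fin 4 := Fin.ofNat 4 (a.val ^^^ b.val)

/-- Multiplication in the table. -/
def ml (a b : Fin 4) : Fin 4 :=
  if a = 0 ∨ b = 0 then 0 else Fin.ofNat 4 ((a.val + b.val - 2) % 3 + 1)

/-- The word with three coefficients. -/
def word (a b c : Fin 4) : Fin 6 → Fin 4 := fun i =>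
  ad (ad (ml a (![2, 3, 3, 2, 3, 2] i)) (ml b (![3, 2, 2, 3, 3, 2] i))) (ml c (![3, 2, 3, 2, 2, 3] i))

theorem ad_table : ∀ a b, ad a b = ![![0, 1, 2, 3], ![1, 0, 3, 2], ![2, 3, 0, 1], ![3, 2, 1, 0]] a b := by
  decide +kernel

theorem ml_table : ∀ a b, ml a b = ![![0, 0, 0, 0], ![0, 1, 2, 3], ![0, 2, 3, 1], ![0, 3, 1, 2]] a b := by
  decide +kernel

theorem word_weights : ∀ a b c, (a, b, c) ≠ (0, 0, 0) →
    (univ.filter fun i => word a b c i ≠ 0).card = 4 ∨ (univ.filter fun i => word a b c i ≠ 0).card = 6 := by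
  decide +kernel

theorem word_counts :
    ((univ : Finset (Fin 4 × Fin 4 × Fin 4)).filter fun t =>
      (univ.filter fun i => word t.1 t.2.1 t.2.2 i ≠ 0).card = 4).card = 45 ∧
    ((univ : Finset (Fin 4 × Fin 4 × Fin 4)).filter fun t =>
      (univ.filter fun i => word t.1 t.2.1 t.2.2 i ≠ 0).card = 6).card = 18 := by
  decide +kernel

theorem word_zero : word 0 0 0 = 0 := by decide +kernel

theorem word_inj : Function.Injective fun t : Fin 4 × Fin 4 × Fin 4 => word t.1 t.2.1 t.2.2 := by
  intro s t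
  revert s t
  decide +kernel

variable {F : Type*} [Field F] [Fintype F] [DecidableEq F]

/-- The value of a table entry. -/
def val (ω : F) : Fin 4 → F := ![0, 1, ω, ω ^ 2]

omit [DecidableEq F] in
theorem two_eq_zero (hF : Fintype.card F = 4) : (2 : F) = 0 := by
  have h := FiniteField.cast_card_eq_zero F
  rw [hF] at h
  have : (2 : F) * 2 = 0 := by rw [← h]; norm_num
  simpa using this

omit [DecidableEq F] in
theorem val_facts (hF : Fintype.card F = 4) {ω : F} (hω : ω ^ 2 + ω + 1 = 0) :
    Function.Injective (val ω) ∧ (∀ a b, val ω (ad a b) = val ω a + val ω b) ∧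
      ∀ a b, val ω (ml a b) = val ω a * val ω b := by
  have h2 := two_eq_zero hF
  have hs : ω ^ 2 = ω + 1 := by linear_combination hω - (ω + 1) * h2
  have h3 : ω * ω ^ 2 = 1 := by linear_combination (ω - 1) * hω
  have hne0 : ω ≠ 0 := fun e => by rw [e] at hω; simp at hω
  have hne1 : ω ≠ 1 := fun e => by
    rw [e] at hω
    exact one_ne_zero (α := F) (by linear_combination hω - h2)
  have hsne0 : ω ^ 2 ≠ 0 := pow_ne_zero _ hne0
  have hsne1 : ω ^ 2 ≠ 1 := fun e => hne1 (by rw [e, mul_one] at h3; exact h3)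
  have hsne : ω ^ 2 ≠ ω := fun e => by rw [e] at hs; simp at hs
  refine ⟨?_, ?_, ?_⟩
  · intro a b
    fin_cases a <;> fin_cases b <;>
      simp [val, hne0, hne1, hsne0, hsne1, hsne, hne0.symm, hne1.symm, hsne0.symm, hsne1.symm, hsne.symm]
  · intro a b
    fin_cases a <;> fin_cases b <;> simp [val, ad_table] <;>
      first
      | linear_combination hs
      | linear_combination -hs
      | linear_combination h2
      | linear_combination -h2
      | linear_combination ω * h2
      | linear_combination -ω * h2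
      | linear_combination ω ^ 2 * h2
      | linear_combination -ω ^ 2 * h2
      | linear_combination hs + h2
      | linear_combination hs - h2
      | linear_combination -hs + h2
      | linear_combination -hs - h2
      | linear_combination hs + ω * h2
      | linear_combination hs - ω * h2
      | linear_combination -hs + ω * h2
      | linear_combination -hs - ω * h2
      | linear_combination hs + (ω + 1) * h2
      | linear_combination hs - (ω + 1) * h2
      | linear_combination -hs + (ω + 1) * h2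
      | linear_combination -hs - (ω + 1) * h2
  · intro a b
    fin_cases a <;> fin_cases b <;> simp [val, ml_table] <;>
      first
      | linear_combination h3
      | linear_combination -h3
      | linear_combination ω * h3
      | linear_combination -ω * h3
      | ring

omit [DecidableEq F] in
theorem val_surjective (hF : Fintype.card F = 4) {ω : F} (hω : ω ^ 2 + ω + 1 = 0) :
    Function.Surjective (val ω) :=
  ((Fintype.bijective_iff_injective_and_card _).2 ⟨(val_facts hF hω).1, by simp [hF]⟩).2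

omit [DecidableEq F] in
theorem mem_iff (hF : Fintype.card F = 4) {ω : F} (hω : ω ^ 2 + ω + 1 = 0) {x : Fin 6 → F} :
    x ∈ hexacode F ω ↔ ∃ t : Fin 4 × Fin 4 × Fin 4, (fun i => val ω (word t.1 t.2.1 t.2.2 i)) = x := by
  obtain ⟨-, ha, hm⟩ := val_facts hF hω
  have key : ∀ a b c : Fin 4, (fun i => val ω (word a b c i)) =
      val ω a • ![ω, ω ^ 2, ω ^ 2, ω, ω ^ 2, ω] + val ω b • ![ω ^ 2, ω, ω, ω ^ 2, ω ^ 2, ω] +
        val ω c • ![ω ^ 2, ω, ω ^ 2, ω, ω, ω ^ 2] := by
    intro a b c
    funext i
    simp only [word, ha, hm]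
    fin_cases i <;> simp [val]
  rw [hexacode, Submodule.mem_span_triple]
  constructor
  · rintro ⟨p, q, r, rfl⟩
    obtain ⟨a, rfl⟩ := val_surjective hF hω p
    obtain ⟨b, rfl⟩ := val_surjective hF hω q
    obtain ⟨c, rfl⟩ := val_surjective hF hω r
    exact ⟨(a, b, c), key a b c⟩
  · rintro ⟨⟨a, b, c⟩, rfl⟩
    exact ⟨_, _, _, (key a b c).symm⟩

theorem weight_eq (hF : Fintype.card F = 4) {ω : F} (hω : ω ^ 2 + ω + 1 = 0) (w : Fin 6 → Fin 4) :
    (univ.filter fun i => val ω (w i) ≠ 0).card = (univ.filter fun i => w i ≠ 0).card := by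
  congr 1
  refine filter_congr fun i _ => not_congr ?_
  rw [show (0 : F) = val ω 0 from rfl, (val_facts hF hω).1.eq_iff]

omit [DecidableEq F] in
theorem enc_injective (hF : Fintype.card F = 4) {ω : F} (hω : ω ^ 2 + ω + 1 = 0) :
    Function.Injective fun (t : Fin 4 × Fin 4 × Fin 4) i => val ω (word t.1 t.2.1 t.2.2 i) :=
  fun s t h => word_inj (funext fun i => (val_facts hF hω).1 (congrFun h i))

omit [DecidableEq F] in
theorem card_code (hF : Fintype.card F = 4) {ω : F} (hω : ω ^ 2 + ω + 1 = 0) :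
    Nat.card (hexacode F ω) = 64 := by
  have hi := enc_injective hF hω
  rw [← Nat.card_congr (Equiv.ofBijective
    (fun t : Fin 4 × Fin 4 × Fin 4 => (⟨_, (mem_iff hF hω).2 ⟨t, rfl⟩⟩ : hexacode F ω))
    ⟨fun s t h => hi (congrArg Subtype.val h), fun x => (by
      obtain ⟨t, ht⟩ := (mem_iff hF hω).1 x.2
      exact ⟨t, Subtype.ext ht⟩)⟩)]
  simp

theorem ncard_weight (hF : Fintype.card F = 4) {ω : F} (hω : ω ^ 2 + ω + 1 = 0) (k : ℕ) :
    {x : Fin 6 → F | x ∈ hexacode F ω ∧ (univ.filter fun i => x i ≠ 0).card = k}.ncard =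
      ((univ : Finset (Fin 4 × Fin 4 × Fin 4)).filter fun t =>
        (univ.filter fun i => word t.1 t.2.1 t.2.2 i ≠ 0).card = k).card := by
  rw [← card_image_of_injective _ (enc_injective hF hω), ← Set.ncard_coe_finset]
  congr 1
  ext x
  simp only [Set.mem_setOf_eq, coe_image, Set.mem_image, mem_coe, mem_filter, mem_univ, true_and, mem_iff hF hω]
  constructor
  · rintro ⟨⟨t, rfl⟩, h⟩
    exact ⟨t, by rwa [weight_eq hF hω] at h, rfl⟩
  · rintro ⟨t, h, rfl⟩
    exact ⟨⟨t, rfl⟩, by rwa [weight_eq hF hω]⟩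

end CfsgLib.Spor.Hexa
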