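import Cfsg.Prelude.Def_MonsterType
import Cfsg.Agent.Lib.SporOrth
import Cfsg.Agent.Lib.CorePGroup

/-!
The four-group spanned by two orthogonal conjugate centres of a large extraspecial subgroup.
-/

set_option autoImplicit false

namespace CfsgLib.Spor.LargeEx
open Cfsg CfsgLib.Spor.Orth
open scoped Pointwise

variable {G : Type*} [Group G]

/-- Two orthogonal conjugate centres with their cores and the elements moving each. -/
structure Pair (Q P : Subgroup G) (z v q p : G) : Prop where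
  zz : z * z = 1
  vv : v * v = 1
  z_ne : z ≠ 1
  v_ne : v ≠ 1
  ne : v ≠ z
  comm : z * v = v * z
  zQ : z ∈ Q
  vQ : v ∈ Q
  zP : z ∈ P
  vP : v ∈ P
  qQ : q ∈ Q
  pP : p ∈ P
  qz : q * z * q⁻¹ = z
  qv : q * v * q⁻¹ = z * v
  pz : p * z * p⁻¹ = z * v
  pv : p * v * p⁻¹ = v
  cenQ : ∀ x ∈ Q, x * z = z * x
  cenP : ∀ x ∈ P, x * v = v * x
  commQ : ∀ x ∈ Q, ∀ y ∈ Q, x * y * x⁻¹ = y ∨ x * y * x⁻¹ = z * y
  commP : ∀ x ∈ P, ∀ y ∈ P, x * y * x⁻¹ = y ∨ x * y * x⁻¹ = v * y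
  sqQ : ∀ x ∈ Q, x * x = 1 ∨ x * x = z
  sqP : ∀ x ∈ P, x * x = 1 ∨ x * x = v
  normQ : ∀ c : G, c * z = z * c → ∀ y ∈ Q, c * y * c⁻¹ ∈ Q
  normP : ∀ c : G, c * v = v * c → ∀ y ∈ P, c * y * c⁻¹ ∈ P
  twist : ∀ y ∈ P, p⁻¹ * (q * y * q⁻¹) * p ∈ Q
  centQ : ∀ x : G, (∀ y ∈ Q, x * y = y * x) → x = 1 ∨ x = z

variable [Finite G]

theorem exists_pair (Q : Subgroup G) (hL1 : IsExtraspecial 2 ↥Q)
    (hL2 : Subgroup.centralizer (Q : Set G) = (Subgroup.center ↥Q).map Q.subtype)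
    (hL3 : Subgroup.centralizer (((Subgroup.center ↥Q).map Q.subtype : Subgroup G) : Set G) ≤
      Subgroup.normalizer (Q : Set G))
    {z : G} (hz : (Subgroup.center ↥Q).map Q.subtype = Subgroup.zpowers z) (hz2 : orderOf z = 2)
    (g : G) (hgQ : g * z * g⁻¹ ∈ Q) (hne : g * z * g⁻¹ ≠ z) :
    ∃ q p : G, Pair Q (Q.map (MulAut.conj g).toMonoidHom) z (g * z * g⁻¹) q p := by
  classical
  haveI : Fact (Nat.Prime 2) := ⟨Nat.prime_two⟩
  set Z := (Subgroup.center ↥Q).map Q.subtype with hZ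
  have hzz : z * z = 1 := by rw [← pow_two, ← hz2]; exact pow_orderOf_eq_one z
  have hzZ : z ∈ Z := hz ▸ Subgroup.mem_zpowers z
  have hZel : ∀ x ∈ Z, x = 1 ∨ x = z := fun x hx => by
    obtain ⟨k, rfl⟩ := Subgroup.mem_zpowers_iff.1 (hz ▸ hx)
    have h : z ^ (2 : ℤ) = 1 := by rw [zpow_two, hzz]
    rcases Int.even_or_odd' k with ⟨m, rfl | rfl⟩
    · left; rw [zpow_mul, h, one_zpow]
    · right; rw [zpow_add, zpow_mul, h, one_zpow, one_mul, zpow_one]
  have hz1 : z ≠ 1 := fun e => by rw [e, orderOf_one] at hz2; norm_num at hz2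
  obtain ⟨zc, hzc, hzce⟩ := id hzZ
  have hzQ : z ∈ Q := hzce ▸ zc.2
  have hzcen : ∀ x ∈ Q, x * z = z * x := fun x hx => by
    rw [← hzce]; exact congrArg Subtype.val (Subgroup.mem_center_iff.1 hzc ⟨x, hx⟩)
  have hCz : ∀ h : G, h * z = z * h → h ∈ Subgroup.normalizer (Q : Set G) := fun h hh => hL3 fun y hy => by
    rcases hZel y hy with rfl | rfl
    · simp
    · exact hh.symm
  let P : G → Subgroup G := fun x =>
    if hx : ∃ h : G, h * z * h⁻¹ = x then Q.map (MulAut.conj hx.choose).toMonoidHom else ⊥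
  have hPmem : ∀ h y : G, y ∈ P (h * z * h⁻¹) ↔ h⁻¹ * y * h ∈ Q := by
    intro h y
    have hex : ∃ k : G, k * z * k⁻¹ = h * z * h⁻¹ := ⟨h, rfl⟩
    simp only [P, dif_pos hex, Subgroup.mem_map_equiv, MulAut.conj_symm_apply]
    set k := hex.choose with hk
    have hks : k * z * k⁻¹ = h * z * h⁻¹ := hex.choose_spec
    have hn : h⁻¹ * k ∈ Subgroup.normalizer (Q : Set G) := hCz _ (by
      calc h⁻¹ * k * z = h⁻¹ * (k * z * k⁻¹) * k := by group
        _ = z * (h⁻¹ * k) := by rw [hks]; group)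
    rw [Subgroup.mem_normalizer_iff.1 hn (k⁻¹ * y * k)]
    rw [show h⁻¹ * k * (k⁻¹ * y * k) * (h⁻¹ * k)⁻¹ = h⁻¹ * y * h by group]
  have hPz : ∀ y, y ∈ P z ↔ y ∈ Q := fun y => by simpa using hPmem 1 y
  have hEq : Equivariant P := by
    intro a x y hy
    by_cases hx : ∃ h : G, h * z * h⁻¹ = x
    · obtain ⟨h, rfl⟩ := hx
      rw [show a * (h * z * h⁻¹) * a⁻¹ = (a * h) * z * (a * h)⁻¹ by group, hPmem,
        show (a * h)⁻¹ * (a * y * a⁻¹) * (a * h) = h⁻¹ * y * h by group]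
      exact (hPmem h y).1 hy
    · simp only [P, dif_neg hx, Subgroup.mem_bot] at hy
      rw [hy, mul_one, mul_inv_cancel]
      exact one_mem _
  have hcomm : ∀ x ∈ Q, ∀ y ∈ Q, x * y * x⁻¹ * y⁻¹ ∈ Z := fun x hx y hy => by
    refine ⟨(⟨x, hx⟩ : ↥Q) * ⟨y, hy⟩ * (⟨x, hx⟩ : ↥Q)⁻¹ * (⟨y, hy⟩ : ↥Q)⁻¹, ?_, by simp⟩
    rw [← hL1.1.2.2]
    have h := Subgroup.commutator_mem_commutator (Subgroup.mem_top (⟨x, hx⟩ : ↥Q)) (Subgroup.mem_top (⟨y, hy⟩ : ↥Q))
    rwa [commutatorElement_def] at h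
  have Sz : Sing P z := by
    refine ⟨(hPz z).2 hzQ, hzz, hz1, fun x hx => hzcen x ((hPz x).1 hx), fun x hx y hy => ?_, fun v hv hc => ?_,
      fun x hx => ?_, fun x hx => ?_⟩
    · rcases hZel _ (hcomm x ((hPz x).1 hx) y ((hPz y).1 hy)) with e | e
      · exact Or.inl (mul_inv_eq_one.1 e)
      · exact Or.inr (mul_inv_eq_iff_eq_mul.1 e)
    · exact hZel v ⟨⟨v, (hPz v).1 hv⟩, Subgroup.mem_center_iff.2 fun y => Subtype.ext (hc y ((hPz _).2 y.2)), rfl⟩
    · refine hZel _ ⟨⟨x, (hPz x).1 hx⟩ ^ 2, ?_, by simp [pow_two]⟩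
      rw [← hL1.1.2.1]; exact CfsgLib.Core.pgroup_pow_mem_frattini hL1.1.1 _
    · have hxc : x ∈ Subgroup.centralizer (Q : Set G) := fun y hy => (hx y ((hPz y).2 hy)).symm
      rw [hL2] at hxc
      rcases hZel x hxc with rfl | rfl
      · exact one_mem _
      · exact (hPz _).2 hzQ
  have up : ∀ x, x ∈ Q.map (MulAut.conj g).toMonoidHom ↔ g⁻¹ * x * g ∈ Q := fun x => by
    rw [Subgroup.mem_map_equiv, MulAut.conj_symm_apply]
  have hPv : ∀ x, x ∈ Q.map (MulAut.conj g).toMonoidHom ↔ x ∈ P (g * z * g⁻¹) := fun x =>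
    (up x).trans (hPmem g x).symm
  set v := g * z * g⁻¹ with hv
  set P' := Q.map (MulAut.conj g).toMonoidHom with hP'
  have back : ∀ x : G, x = g * (g⁻¹ * x * g) * g⁻¹ := fun x => by group
  have Sv : Sing P v := by
    refine ⟨hEq g z z Sz.mem, ?_, fun e => hz1 ?_, fun x hx => ?_, fun x hx y hy => ?_, fun u hu hc => ?_,
      fun x hx => ?_, fun x hx => ?_⟩
    · calc v * v = g * (z * z) * g⁻¹ := by rw [hv]; group
        _ = 1 := by rw [hzz]; group
    · calc z = g⁻¹ * v * g := by rw [hv]; group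
        _ = 1 := by rw [e]; group
    · calc x * v = g * ((g⁻¹ * x * g) * z) * g⁻¹ := by rw [hv]; group
        _ = g * (z * (g⁻¹ * x * g)) * g⁻¹ := by rw [hzcen _ ((hPmem g x).1 hx)]
        _ = v * x := by rw [hv]; group
    · have e0 : x * y * x⁻¹ = g * ((g⁻¹ * x * g) * (g⁻¹ * y * g) * (g⁻¹ * x * g)⁻¹) * g⁻¹ := by group
      rcases Sz.comm _ ((hPz _).2 ((hPmem g x).1 hx)) _ ((hPz _).2 ((hPmem g y).1 hy)) with e | e <;> rw [e0, e]
      · left; group
      · right; rw [hv]; group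
    · rcases Sz.centre _ ((hPz _).2 ((hPmem g u).1 hu)) (fun x hx => by
        have := hc _ (hEq g z x hx)
        calc x * (g⁻¹ * u * g) = g⁻¹ * (g * x * g⁻¹ * u) * g := by group
          _ = g⁻¹ * (u * (g * x * g⁻¹)) * g := by rw [this]
          _ = g⁻¹ * u * g * x := by group) with e | e <;> rw [back u, e]
      · left; group
      · right; rfl
    · have e0 : x * x = g * ((g⁻¹ * x * g) * (g⁻¹ * x * g)) * g⁻¹ := by group
      rcases Sz.sq _ ((hPz _).2 ((hPmem g x).1 hx)) with e | e <;> rw [e0, e]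
      · left; group
      · right; rfl
    · rw [back x]
      refine hEq g z _ (Sz.cent _ fun y hy => ?_)
      calc g⁻¹ * x * g * y = g⁻¹ * (x * (g * y * g⁻¹)) * g := by group
        _ = g⁻¹ * (g * y * g⁻¹ * x) * g := by rw [hx _ (hEq g z y hy)]
        _ = y * (g⁻¹ * x * g) := by group
  have hcard : Nat.card ↥(P v) = Nat.card ↥(P z) := by
    rw [show P v = P' from Subgroup.ext fun x => (hPv x).symm, show P z = Q from Subgroup.ext hPz]
    exact Subgroup.card_map_of_injective (MulAut.conj g).injective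
  have hzv : z ∈ P v := symm hEq Sz Sv hcard ((hPz _).2 hgQ) hne
  have hcom : z * v = v * z := (hzcen v hgQ).symm
  obtain ⟨q, hq, hqv⟩ : ∃ q ∈ Q, q * v * q⁻¹ = z * v := by
    by_contra h
    push Not at h
    rcases Sz.centre v ((hPz v).2 hgQ) (fun x hx => mul_inv_eq_iff_eq_mul.1
      ((Sz.comm x hx v ((hPz v).2 hgQ)).resolve_right (h x ((hPz x).1 hx)))) with e | e
    exacts [Sv.ne_one e, hne e]
  obtain ⟨p, hp, hpz⟩ : ∃ p ∈ P v, p * z * p⁻¹ = v * z := by
    by_contra h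
    push Not at h
    rcases Sv.centre z hzv (fun x hx => mul_inv_eq_iff_eq_mul.1
      ((Sv.comm x hx z hzv).resolve_right (h x hx))) with e | e
    exacts [hz1 e, hne e.symm]
  have hpz' : p * z * p⁻¹ = z * v := hpz.trans hcom.symm
  refine ⟨q, p, ⟨hzz, Sv.invol, hz1, Sv.ne_one, hne, hcom, hzQ, hgQ, (hPv z).2 hzv, (hPv v).2 Sv.mem, hq,
    (hPv p).2 hp, by rw [hzcen q hq, mul_inv_cancel_right], hqv, hpz', by rw [Sv.central p hp, mul_inv_cancel_right],
    hzcen, fun x hx => Sv.central x ((hPv x).1 hx), fun x hx y hy => Sz.comm x ((hPz x).2 hx) y ((hPz y).2 hy),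
    fun x hx y hy => Sv.comm x ((hPv x).1 hx) y ((hPv y).1 hy), fun x hx => Sz.sq x ((hPz x).2 hx),
    fun x hx => Sv.sq x ((hPv x).1 hx), fun c hc y hy => (hPz _).1 (normalizes hEq hc ((hPz y).2 hy)),
    fun c hc y hy => (hPv _).2 (normalizes hEq hc ((hPv y).1 hy)), fun y hy => ?_,
    fun x hx => hZel x (hL2 ▸ (fun y hy => (hx y hy).symm : x ∈ Subgroup.centralizer (Q : Set G)))⟩⟩
  have h1 := hEq q v y ((hPv y).1 hy)
  rw [hqv, ← hpz'] at h1
  exact (hPmem p _).1 h1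

/-- The amalgamated core of the four-group stabiliser. -/
def core (Q P : Subgroup G) (z v : G) : Subgroup G :=
  (P ⊓ Subgroup.centralizer {z}) ⊔ (Q ⊓ Subgroup.centralizer {v})

section facts

variable {Q P : Subgroup G} {z v q p : G} (H : Pair Q P z v q p)
include H

omit [Finite G]

theorem q_coset {x : G} (hx : x ∈ Q) : x * v = v * x ∨ (q⁻¹ * x) * v = v * (q⁻¹ * x) := by
  rcases H.commQ x hx v H.vQ with e | e
  · exact Or.inl (mul_inv_eq_iff_eq_mul.1 e)
  · refine Or.inr (mul_inv_eq_iff_eq_mul.1 ?_)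
    rw [show q⁻¹ * x * v * (q⁻¹ * x)⁻¹ = q⁻¹ * (x * v * x⁻¹) * q by group, e, ← H.qv]
    group

theorem p_coset {x : G} (hx : x ∈ P) : x * z = z * x ∨ (p⁻¹ * x) * z = z * (p⁻¹ * x) := by
  rcases H.commP x hx z H.zP with e | e
  · exact Or.inl (mul_inv_eq_iff_eq_mul.1 e)
  · refine Or.inr (mul_inv_eq_iff_eq_mul.1 ?_)
    rw [show p⁻¹ * x * z * (p⁻¹ * x)⁻¹ = p⁻¹ * (x * z * x⁻¹) * p by group, e, ← H.comm, ← H.pz]
    group

theorem core_decomp {x : G} (hx : x ∈ core Q P z v) :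
    ∃ b a : G, b ∈ P ∧ b * z = z * b ∧ a ∈ Q ∧ a * v = v * a ∧ x = b * a := by
  have hle : P ⊓ Subgroup.centralizer {z} ≤
      Subgroup.normalizer ((Q ⊓ Subgroup.centralizer {v} : Subgroup G) : Set G) := by
    intro b hb
    have hbz := Subgroup.mem_centralizer_singleton_iff.1 hb.2
    have hbv := H.cenP b hb.1
    have key : ∀ c : G, c * z = z * c → c * v = v * c → ∀ y ∈ Q ⊓ Subgroup.centralizer {v},
        c * y * c⁻¹ ∈ Q ⊓ Subgroup.centralizer {v} := fun c hcz hcv y hy =>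
      ⟨H.normQ c hcz y hy.1, Subgroup.mem_centralizer_singleton_iff.2 (by
        have h1 := Subgroup.mem_centralizer_singleton_iff.1 hy.2
        have h2 : c⁻¹ * v = v * c⁻¹ := (show Commute c v from hcv).inv_left
        rw [mul_assoc, h2, ← mul_assoc, mul_assoc c y v, h1, ← mul_assoc, hcv]
        group)⟩
    refine Subgroup.mem_normalizer_iff.2 fun y => ⟨key b hbz hbv y, fun h => ?_⟩
    have := key b⁻¹ (show Commute b z from hbz).inv_left (show Commute b v from hbv).inv_left _ h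
    convert this using 1; group
  have hc : x ∈ ((P ⊓ Subgroup.centralizer {z} : Subgroup G) : Set G) *
      ((Q ⊓ Subgroup.centralizer {v} : Subgroup G) : Set G) := by
    rw [← Subgroup.coe_mul_of_left_le_normalizer_right _ _ hle]; exact hx
  obtain ⟨b, hb, a, ha, rfl⟩ := hc
  exact ⟨b, a, hb.1, Subgroup.mem_centralizer_singleton_iff.1 hb.2, ha.1,
    Subgroup.mem_centralizer_singleton_iff.1 ha.2, rfl⟩

omit H in
theorem left_mem {b : G} (hb : b ∈ P) (hbz : b * z = z * b) : b ∈ core Q P z v :=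
  Subgroup.mem_sup_left ⟨hb, Subgroup.mem_centralizer_singleton_iff.2 hbz⟩

omit H in
theorem right_mem {a : G} (ha : a ∈ Q) (hav : a * v = v * a) : a ∈ core Q P z v :=
  Subgroup.mem_sup_right ⟨ha, Subgroup.mem_centralizer_singleton_iff.2 hav⟩

theorem core_comm {x : G} (hx : x ∈ core Q P z v) : x * z = z * x ∧ x * v = v * x := by
  obtain ⟨b, a, hb, hbz, ha, hav, rfl⟩ := core_decomp H hx
  constructor
  · rw [mul_assoc, H.cenQ a ha, ← mul_assoc, hbz, mul_assoc]
  · rw [mul_assoc, hav, ← mul_assoc, H.cenP b hb, mul_assoc]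

theorem comm_conjQ {x c : G} (hx : x ∈ Q) (hcz : c * z = z * c) (hcv : c * v = v * c) :
    x * c * x⁻¹ * z = z * (x * c * x⁻¹) ∧ x * c * x⁻¹ * v = v * (x * c * x⁻¹) := by
  have hxz : x * z * x⁻¹ = z := mul_inv_eq_iff_eq_mul.2 (H.cenQ x hx)
  have e1 : x * c * x⁻¹ * z = z * (x * c * x⁻¹) := by
    calc x * c * x⁻¹ * z = x * c * x⁻¹ * (x * z * x⁻¹) := by rw [hxz]
      _ = x * (c * z) * x⁻¹ := by group
      _ = (x * z * x⁻¹) * (x * c * x⁻¹) := by rw [hcz]; group
      _ = z * (x * c * x⁻¹) := by rw [hxz]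
  refine ⟨e1, ?_⟩
  rcases H.commQ x hx v H.vQ with e | e
  · calc x * c * x⁻¹ * v = x * c * x⁻¹ * (x * v * x⁻¹) := by rw [e]
      _ = x * (c * v) * x⁻¹ := by group
      _ = (x * v * x⁻¹) * (x * c * x⁻¹) := by rw [hcv]; group
      _ = v * (x * c * x⁻¹) := by rw [e]
  · have h2 : x * c * x⁻¹ * (z * v) = z * v * (x * c * x⁻¹) := by
      calc x * c * x⁻¹ * (z * v) = x * c * x⁻¹ * (x * v * x⁻¹) := by rw [e]
        _ = x * (c * v) * x⁻¹ := by group
        _ = (x * v * x⁻¹) * (x * c * x⁻¹) := by rw [hcv]; group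
        _ = z * v * (x * c * x⁻¹) := by rw [e]
    refine mul_left_cancel (a := z) ?_
    rw [← mul_assoc z _ v, ← e1, mul_assoc (x * c * x⁻¹) z v, h2, mul_assoc]

theorem comm_conjP {x c : G} (hx : x ∈ P) (hcz : c * z = z * c) (hcv : c * v = v * c) :
    x * c * x⁻¹ * z = z * (x * c * x⁻¹) ∧ x * c * x⁻¹ * v = v * (x * c * x⁻¹) := by
  have hxv : x * v * x⁻¹ = v := mul_inv_eq_iff_eq_mul.2 (H.cenP x hx)
  have e1 : x * c * x⁻¹ * v = v * (x * c * x⁻¹) := by
    calc x * c * x⁻¹ * v = x * c * x⁻¹ * (x * v * x⁻¹) := by rw [hxv]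
      _ = x * (c * v) * x⁻¹ := by group
      _ = (x * v * x⁻¹) * (x * c * x⁻¹) := by rw [hcv]; group
      _ = v * (x * c * x⁻¹) := by rw [hxv]
  refine ⟨?_, e1⟩
  rcases H.commP x hx z H.zP with e | e
  · calc x * c * x⁻¹ * z = x * c * x⁻¹ * (x * z * x⁻¹) := by rw [e]
      _ = x * (c * z) * x⁻¹ := by group
      _ = (x * z * x⁻¹) * (x * c * x⁻¹) := by rw [hcz]; group
      _ = z * (x * c * x⁻¹) := by rw [e]
  · have h2 : x * c * x⁻¹ * (v * z) = v * z * (x * c * x⁻¹) := by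
      calc x * c * x⁻¹ * (v * z) = x * c * x⁻¹ * (x * z * x⁻¹) := by rw [e]
        _ = x * (c * z) * x⁻¹ := by group
        _ = (x * z * x⁻¹) * (x * c * x⁻¹) := by rw [hcz]; group
        _ = v * z * (x * c * x⁻¹) := by rw [e]
    refine mul_left_cancel (a := v) ?_
    rw [← mul_assoc v _ z, ← e1, mul_assoc (x * c * x⁻¹) v z, h2, mul_assoc]

theorem conjQ_core {x : G} (hx : x ∈ Q) {r : G} (hr : r ∈ core Q P z v) : x * r * x⁻¹ ∈ core Q P z v := by
  obtain ⟨b, a, hb, hbz, ha, hav, rfl⟩ := core_decomp H hr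
  rw [show x * (b * a) * x⁻¹ = (x * b * x⁻¹) * (x * a * x⁻¹) by group]
  refine mul_mem ?_ (right_mem (Q.mul_mem (Q.mul_mem hx ha) (Q.inv_mem hx))
    (comm_conjQ H hx (H.cenQ a ha) hav).2)
  rw [show x * b * x⁻¹ = (x * b * x⁻¹ * b⁻¹) * b by group]
  refine mul_mem (right_mem ?_ ?_) (left_mem hb hbz)
  · rw [show x * b * x⁻¹ * b⁻¹ = x * (b * x⁻¹ * b⁻¹) by group]
    exact Q.mul_mem hx (H.normQ b hbz _ (Q.inv_mem hx))
  · exact ((show Commute (x * b * x⁻¹) v from (comm_conjQ H hx hbz (H.cenP b hb)).2).mul_left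
      (show Commute b v from H.cenP b hb).inv_left).eq

theorem conjP_core {x : G} (hx : x ∈ P) {r : G} (hr : r ∈ core Q P z v) : x * r * x⁻¹ ∈ core Q P z v := by
  obtain ⟨b, a, hb, hbz, ha, hav, rfl⟩ := core_decomp H hr
  rw [show x * (b * a) * x⁻¹ = (x * b * x⁻¹) * (x * a * x⁻¹) by group]
  refine mul_mem (left_mem (P.mul_mem (P.mul_mem hx hb) (P.inv_mem hx))
    (comm_conjP H hx hbz (H.cenP b hb)).1) ?_
  rw [show x * a * x⁻¹ = (x * a * x⁻¹ * a⁻¹) * a by group]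
  refine mul_mem (left_mem ?_ ?_) (right_mem ha hav)
  · rw [show x * a * x⁻¹ * a⁻¹ = x * (a * x⁻¹ * a⁻¹) by group]
    exact P.mul_mem hx (H.normP a hav _ (P.inv_mem hx))
  · exact ((show Commute (x * a * x⁻¹) z from (comm_conjP H hx (H.cenQ a ha) hav).1).mul_left
      (show Commute a z from H.cenQ a ha).inv_left).eq

theorem qq_mem : q * q ∈ core Q P z v := by
  rcases H.sqQ q H.qQ with e | e <;> rw [e]
  exacts [one_mem _, right_mem H.zQ H.comm]

theorem pp_mem : p * p ∈ core Q P z v := by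
  rcases H.sqP p H.pP with e | e <;> rw [e]
  exacts [one_mem _, left_mem H.vP H.comm.symm]

theorem twist_mem : (p * q * p⁻¹)⁻¹ * (q * p * q⁻¹) ∈ core Q P z v := by
  set c := (p * q * p⁻¹)⁻¹ * (q * p * q⁻¹) with hc
  have h1 : p⁻¹ * c * p ∈ Q := by
    rw [show p⁻¹ * c * p = q⁻¹ * (p⁻¹ * (q * p * q⁻¹) * p) by rw [hc]; group]
    exact Q.mul_mem (Q.inv_mem H.qQ) (H.twist p H.pP)
  have h2 : p⁻¹ * c * p * v * (p⁻¹ * c * p)⁻¹ = v := by
    have d1 : q * z = z * q := H.cenQ q H.qQ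
    have dv : p * v = v * p := H.cenP p H.pP
    have e0 : p⁻¹ * c * p = q⁻¹ * p⁻¹ * q * p * q⁻¹ * p := by rw [hc]; group
    have p1 : ∀ t, p * t * p⁻¹ = t → p⁻¹ * t * p = t := fun t ht => by
      conv_lhs => rw [← ht]
      group
    have q1 : q⁻¹ * (z * v) * q = v := by rw [← H.qv]; group
    have q2 : q⁻¹ * v * q = z * v := by
      have : q⁻¹ * (z * v) * q = z * (q⁻¹ * v * q) := by
        have hz' : q⁻¹ * z = z * q⁻¹ := (show Commute q z from d1).inv_left
        rw [← mul_assoc, hz']; group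
      rw [q1] at this
      calc q⁻¹ * v * q = z * (z * (q⁻¹ * v * q)) := by rw [← mul_assoc, H.zz, one_mul]
        _ = z * v := by rw [← this]
    have pzv : p * (z * v) * p⁻¹ = z := by
      rw [show p * (z * v) * p⁻¹ = (p * z * p⁻¹) * (p * v * p⁻¹) by group, H.pz, H.pv, mul_assoc, H.vv, mul_one]
    rw [e0]
    calc q⁻¹ * p⁻¹ * q * p * q⁻¹ * p * v * (q⁻¹ * p⁻¹ * q * p * q⁻¹ * p)⁻¹
        = q⁻¹ * (p⁻¹ * (q * (p * (q⁻¹ * (p * v * p⁻¹) * q) * p⁻¹) * q⁻¹) * p) * q := by group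
      _ = q⁻¹ * (p⁻¹ * z * p) * q := by rw [H.pv, q2, pzv, H.qz]
      _ = q⁻¹ * (z * v) * q := by
        have pz' : p⁻¹ * z * p = z * v := by
          calc p⁻¹ * z * p = p⁻¹ * (p * (z * v) * p⁻¹) * p := by rw [pzv]
            _ = z * v := by group
        rw [pz']
      _ = v := q1
  rw [show c = p * (p⁻¹ * c * p) * p⁻¹ by group]
  exact conjP_core H H.pP (right_mem h1 (mul_inv_eq_iff_eq_mul.1 h2))

/-- Coset representatives of the core. -/
def words (q p : G) : List G := [1, q, p, q * p, p * q, q * p * q]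

theorem cube_mem : q * p * (q * p) * (q * p) ∈ core Q P z v := by
  set R := core Q P z v with hR
  have ht := twist_mem H
  have hqq := qq_mem H
  have hpp := pp_mem H
  -- move all inverses through squares
  have cq : ∀ r ∈ R, q * r * q⁻¹ ∈ R := fun r hr => conjQ_core H H.qQ hr
  have cq' : ∀ r ∈ R, q⁻¹ * r * q ∈ R := fun r hr => by
    simpa using conjQ_core H (Q.inv_mem H.qQ) hr
  have cp : ∀ r ∈ R, p * r * p⁻¹ ∈ R := fun r hr => conjP_core H H.pP hr
  have cp' : ∀ r ∈ R, p⁻¹ * r * p ∈ R := fun r hr => by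
    simpa using conjP_core H (P.inv_mem H.pP) hr
  -- p q⁻¹ p⁻¹ q p q⁻¹
  have t0 : p * q⁻¹ * p⁻¹ * q * p * q⁻¹ ∈ R := by
    have : (p * q * p⁻¹)⁻¹ * (q * p * q⁻¹) = p * q⁻¹ * p⁻¹ * q * p * q⁻¹ := by group
    rwa [this] at ht
  have t1 : p * q * p⁻¹ * q * p * q⁻¹ ∈ R := by
    have := mul_mem (cp _ hqq) t0
    convert this using 1; group
  have t2 : p * q * p * q * p * q⁻¹ ∈ R := by
    have := mul_mem (cp _ (cq _ hpp)) t1
    convert this using 1; group
  have t3 : p * q * p * q * p * q ∈ R := by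
    have := mul_mem t2 hqq
    convert this using 1; group
  have t4 := cq _ t3
  convert t4 using 1; group

theorem exists_word {x : G} (hx : x ∈ Q ⊔ P) : ∃ w ∈ words q p, w⁻¹ * x ∈ core Q P z v := by
  set R := core Q P z v with hR
  have hqq := qq_mem H
  have hpp := pp_mem H
  have cq' : ∀ r ∈ R, q⁻¹ * r * q ∈ R := fun r hr => by
    simpa using conjQ_core H (Q.inv_mem H.qQ) hr
  have cp' : ∀ r ∈ R, p⁻¹ * r * p ∈ R := fun r hr => by
    simpa using conjP_core H (P.inv_mem H.pP) hr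
  have cq : ∀ r ∈ R, q * r * q⁻¹ ∈ R := fun r hr => conjQ_core H H.qQ hr
  have cp : ∀ r ∈ R, p * r * p⁻¹ ∈ R := fun r hr => conjP_core H H.pP hr
  have hw : ∀ w ∈ words q p, ∀ r ∈ R, w⁻¹ * r * w ∈ R := fun w hw r hr => by
    simp only [words, List.mem_cons, List.not_mem_nil, or_false] at hw
    rcases hw with e | e | e | e | e | e <;> rw [e]
    · simpa using hr
    · exact cq' r hr
    · exact cp' r hr
    · convert cp' _ (cq' r hr) using 1; group
    · convert cq' _ (cp' r hr) using 1; group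
    · convert cq' _ (cp' _ (cq' r hr)) using 1; group
  -- left multiplication by the two generators
  have stepq : ∀ w ∈ words q p, ∃ w' ∈ words q p, w'⁻¹ * (q * w) ∈ R := fun w hw' => by
    simp only [words, List.mem_cons, List.not_mem_nil, or_false] at hw'
    rcases hw' with e | e | e | e | e | e <;> rw [e]
    · exact ⟨q, by simp [words], by simp⟩
    · exact ⟨1, by simp [words], by simpa using hqq⟩
    · exact ⟨q * p, by simp [words], by simp⟩
    · refine ⟨p, by simp [words], ?_⟩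
      convert cp' _ hqq using 1; group
    · exact ⟨q * p * q, by simp [words], by rw [show (q * p * q)⁻¹ * (q * (p * q)) = 1 by group]; exact one_mem _⟩
    · refine ⟨p * q, by simp [words], ?_⟩
      convert cq' _ (cp' _ hqq) using 1; group
  have stepp : ∀ w ∈ words q p, ∃ w' ∈ words q p, w'⁻¹ * (p * w) ∈ R := fun w hw' => by
    simp only [words, List.mem_cons, List.not_mem_nil, or_false] at hw'
    rcases hw' with e | e | e | e | e | e <;> rw [e]
    · exact ⟨p, by simp [words], by simp⟩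
    · exact ⟨p * q, by simp [words], by simp⟩
    · exact ⟨1, by simp [words], by simpa using hpp⟩
    · refine ⟨q * p * q, by simp [words], ?_⟩
      have hsq : q * p * q * (q * p * q) ∈ R := by
        have := mul_mem (mul_mem (cq _ (cp _ hqq)) (cq _ hpp)) hqq
        convert this using 1; group
      have := mul_mem (inv_mem hsq) (cube_mem H)
      convert this using 1; group
    · refine ⟨q, by simp [words], ?_⟩
      convert cq' _ hpp using 1; group
    · refine ⟨q * p, by simp [words], ?_⟩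
      have hsq : p * q * (q * p) ∈ R := by
        have := mul_mem (cp _ hqq) hpp
        convert this using 1; group
      have := mul_mem (cp' _ (cq' _ (cq' _ (cube_mem H)))) (inv_mem hsq)
      convert this using 1; group
  have left : ∀ t, t ∈ Q ∨ t ∈ P → ∀ w ∈ words q p, ∃ w' ∈ words q p, w'⁻¹ * (t * w) ∈ R := by
    intro t ht w hw'
    rcases ht with ht | ht
    · rcases q_coset H ht with e | e
      · exact ⟨w, hw', by rw [← mul_assoc]; exact hw w hw' t (right_mem ht e)⟩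
      · obtain ⟨w', h1, h2⟩ := stepq w hw'
        refine ⟨w', h1, ?_⟩
        have := mul_mem h2 (hw w hw' _ (right_mem (Q.mul_mem (Q.inv_mem H.qQ) ht) e))
        convert this using 1; group
    · rcases p_coset H ht with e | e
      · exact ⟨w, hw', by rw [← mul_assoc]; exact hw w hw' t (left_mem ht e)⟩
      · obtain ⟨w', h1, h2⟩ := stepp w hw'
        refine ⟨w', h1, ?_⟩
        have := mul_mem h2 (hw w hw' _ (left_mem (P.mul_mem (P.inv_mem H.pP) ht) e))
        convert this using 1; group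
  rw [show Q ⊔ P = Subgroup.closure ((Q : Set G) ∪ P) by rw [Subgroup.closure_union, Subgroup.closure_eq,
    Subgroup.closure_eq]] at hx
  have step : ∀ t y, t ∈ Q ∨ t ∈ P → (∃ w ∈ words q p, w⁻¹ * y ∈ R) → ∃ w ∈ words q p, w⁻¹ * (t * y) ∈ R := by
    rintro t y ht ⟨w, hw', hr⟩
    obtain ⟨w', h1, h2⟩ := left t ht w hw'
    refine ⟨w', h1, ?_⟩
    have := mul_mem h2 hr
    convert this using 1; group
  induction hx using Subgroup.closure_induction_left with
  | one => exact ⟨1, by simp [words], by simp⟩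
  | mul_left t ht y _ ih => exact step t y ht ih
  | inv_mul_cancel t ht y _ ih =>
    exact step t⁻¹ y (ht.imp (fun h => Q.inv_mem h) fun h => P.inv_mem h) ih

theorem mem_core {x : G} (hx : x ∈ Q ⊔ P) (hxz : x * z = z * x) (hxv : x * v = v * x) : x ∈ core Q P z v := by
  obtain ⟨w, hw, hr⟩ := exists_word H hx
  obtain ⟨c1, c2⟩ := core_comm H hr
  have hwz : w * z * w⁻¹ = z := by
    calc w * z * w⁻¹ = w * ((w⁻¹ * x) * z * (w⁻¹ * x)⁻¹) * w⁻¹ := by rw [c1, mul_inv_cancel_right]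
      _ = x * z * x⁻¹ := by group
      _ = z := by rw [hxz, mul_inv_cancel_right]
  have hwv : w * v * w⁻¹ = v := by
    calc w * v * w⁻¹ = w * ((w⁻¹ * x) * v * (w⁻¹ * x)⁻¹) * w⁻¹ := by rw [c2, mul_inv_cancel_right]
      _ = x * v * x⁻¹ := by group
      _ = v := by rw [hxv, mul_inv_cancel_right]
  have n1 : z * v ≠ v := fun e => H.z_ne (mul_eq_right.1 e)
  have n2 : z * v ≠ z := fun e => H.v_ne (mul_eq_left.1 e)
  have qzv : q * (z * v) * q⁻¹ = v := by
    rw [show q * (z * v) * q⁻¹ = (q * z * q⁻¹) * (q * v * q⁻¹) by group, H.qz, H.qv, ← mul_assoc, H.zz, one_mul]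
  have pzv : p * (z * v) * p⁻¹ = z := by
    rw [show p * (z * v) * p⁻¹ = (p * z * p⁻¹) * (p * v * p⁻¹) by group, H.pz, H.pv, mul_assoc, H.vv, mul_one]
  simp only [words, List.mem_cons, List.not_mem_nil, or_false] at hw
  rcases hw with e | e | e | e | e | e <;> rw [e] at hr hwz hwv
  · simpa using hr
  · exact absurd (H.qv.symm.trans hwv) n1
  · exact absurd (H.pz.symm.trans hwz) n2
  · rw [show q * p * z * (q * p)⁻¹ = q * (p * z * p⁻¹) * q⁻¹ by group, H.pz, qzv] at hwz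
    exact absurd hwz H.ne
  · rw [show p * q * z * (p * q)⁻¹ = p * (q * z * q⁻¹) * p⁻¹ by group, H.qz, H.pz] at hwz
    exact absurd hwz n2
  · rw [show q * p * q * z * (q * p * q)⁻¹ = q * (p * (q * z * q⁻¹) * p⁻¹) * q⁻¹ by group, H.qz, H.pz, qzv] at hwz
    exact absurd hwz H.ne

end facts

end CfsgLib.Spor.LargeEx
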