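import Cfsg.Agent.Lib.SporLargeSub

/-!
Simplicity criteria for groups with an involution whose centralizer has extraspecial generalized
Fitting subgroup.
-/

set_option autoImplicit false

namespace CfsgLib.Spor.LargeSimple
open Cfsg CfsgLib.Spor.LargeSub
open scoped commutatorElement

variable {G : Type*} [Group G]

/-- The data used: an involution `z` with an extraspecial normal subgroup `Q` of its centralizer,
self-centralizing modulo `⟨z⟩`. -/
structure Base (z : G) (Q : Subgroup G) : Prop where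
  zz : z * z = 1
  z_ne : z ≠ 1
  zQ : z ∈ Q
  cenQ : ∀ x ∈ Q, x * z = z * x
  commQ : ∀ x ∈ Q, ∀ y ∈ Q, x * y * x⁻¹ = y ∨ x * y * x⁻¹ = z * y
  sqQ : ∀ x ∈ Q, x * x = 1 ∨ x * x = z
  normQ : ∀ c : G, c * z = z * c → ∀ y ∈ Q, c * y * c⁻¹ ∈ Q
  centQ : ∀ x : G, (∀ y ∈ Q, x * y = y * x) → x = 1 ∨ x = z

theorem base [Finite G] {z : G} (hz : orderOf z = 2) (Q : Subgroup G)
    (hQC : Q ≤ Subgroup.centralizer ({z} : Set G))
    (hF : (Cfsg.generalizedFittingSubgroup ↥(Subgroup.centralizer ({z} : Set G))).map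
      (Subgroup.centralizer ({z} : Set G)).subtype = Q)
    (hQ : Cfsg.IsExtraspecial 2 ↥Q) : Base z Q := by
  have hf : Fact (Nat.Prime 2) := ⟨Nat.prime_two⟩
  set C := Subgroup.centralizer ({z} : Set G) with hC
  set F := Cfsg.generalizedFittingSubgroup ↥C with hFdef
  have hFn : F.Normal := CfsgLib.Core.normal_generalizedFittingSubgroup
  have hzz : z * z = 1 := by rw [← pow_two, ← hz]; exact pow_orderOf_eq_one z
  have hz1 : z ≠ 1 := fun e => by rw [e, orderOf_one] at hz; norm_num at hz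
  have hzC : z ∈ C := Subgroup.mem_centralizer_singleton_iff.2 rfl
  have hzF : (⟨z, hzC⟩ : ↥C) ∈ F := by
    refine CfsgLib.Core.fitting_le_generalizedFitting ?_
    have hcen : (⟨z, hzC⟩ : ↥C) ∈ Subgroup.center ↥C :=
      Subgroup.mem_center_iff.2 fun y => Subtype.ext (Subgroup.mem_centralizer_singleton_iff.1 y.2)
    letI : CommGroup ↥(Subgroup.center ↥C) :=
      { (inferInstance : Group ↥(Subgroup.center ↥C)) with
        mul_comm := fun a b => Subtype.ext (Subgroup.mem_center_iff.1 b.2 a) }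
    exact le_sSup (a := Subgroup.center ↥C) (s := {N : Subgroup ↥C | N.Normal ∧ Group.IsNilpotent N})
      ⟨inferInstance, CommGroup.isNilpotent (G := ↥(Subgroup.center ↥C))⟩ hcen
  have hzQ : z ∈ Q := hF ▸ ⟨⟨z, hzC⟩, hzF, rfl⟩
  have hcen : ∀ x ∈ Q, x * z = z * x := fun x hx => Subgroup.mem_centralizer_singleton_iff.1 (hQC hx)
  let zc : ↥Q := ⟨z, hzQ⟩
  have hzc : zc ∈ Subgroup.center ↥Q := Subgroup.mem_center_iff.2 fun y => Subtype.ext (hcen y y.2)
  have hcentre : Subgroup.center ↥Q = Subgroup.zpowers zc := by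
    refine (Subgroup.eq_of_le_of_card_ge (Subgroup.zpowers_le.2 hzc) ?_).symm
    rw [Nat.card_zpowers, Subgroup.orderOf_mk, hz, hQ.2]
  have hel : ∀ x : ↥Q, x ∈ Subgroup.center ↥Q → (x : G) = 1 ∨ (x : G) = z := by
    intro x hx
    rw [hcentre, Subgroup.mem_zpowers_iff] at hx
    obtain ⟨k, rfl⟩ := hx
    have h : z ^ (2 : ℤ) = 1 := by rw [zpow_two, hzz]
    rcases Int.even_or_odd' k with ⟨m, rfl | rfl⟩
    · left; simp [zc, zpow_mul, pow_two, hzz]
    · right; simp [zc, zpow_add, zpow_mul, pow_two, hzz]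
  refine ⟨hzz, hz1, hzQ, hcen, fun x hx y hy => ?_, fun x hx => ?_, fun c hc y hy => ?_, fun x hx => ?_⟩
  · have h := Subgroup.commutator_mem_commutator (Subgroup.mem_top (⟨x, hx⟩ : ↥Q)) (Subgroup.mem_top (⟨y, hy⟩ : ↥Q))
    have h' := hel _ (hQ.1.2.2 ▸ h : ⁅(⟨x, hx⟩ : ↥Q), (⟨y, hy⟩ : ↥Q)⁆ ∈ Subgroup.center ↥Q)
    simp only [commutatorElement_def, Subgroup.coe_mul, InvMemClass.coe_inv] at h'
    rcases h' with e | e
    · exact Or.inl (mul_inv_eq_one.1 e)
    · exact Or.inr (mul_inv_eq_iff_eq_mul.1 e)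
  · have h := hel ((⟨x, hx⟩ : ↥Q) ^ 2) (hQ.1.2.1 ▸ CfsgLib.Core.pgroup_pow_mem_frattini hQ.1.1 _)
    simpa [pow_two] using h
  · rw [← hF] at hy ⊢
    obtain ⟨y', hy', rfl⟩ := hy
    have hcC : c ∈ C := Subgroup.mem_centralizer_singleton_iff.2 hc
    exact ⟨(⟨c, hcC⟩ : ↥C) * y' * (⟨c, hcC⟩ : ↥C)⁻¹, hFn.conj_mem y' hy' _, rfl⟩
  · have hxC : x ∈ C := Subgroup.mem_centralizer_singleton_iff.2 (hx z hzQ)
    have hxF : (⟨x, hxC⟩ : ↥C) ∈ F := CfsgLib.Core.centralizer_generalizedFitting_le fun y hy =>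
      Subtype.ext (hx y (hF ▸ ⟨y, hy, rfl⟩)).symm
    have hxQ : x ∈ Q := hF ▸ ⟨⟨x, hxC⟩, hxF, rfl⟩
    exact hel ⟨x, hxQ⟩ (Subgroup.mem_center_iff.2 fun y => Subtype.ext (hx y y.2).symm)

theorem extraspecial_congr {p : ℕ} [Fact p.Prime] {A A' : Type*} [Group A] [Group A'] [Finite A] (e : A ≃* A')
    (h : IsExtraspecial p A) : IsExtraspecial p A' := by
  have hfin : Finite A' := Finite.of_equiv A e.toEquiv
  have hc : ∀ x : A', x ∈ Subgroup.center A' ↔ e.symm x ∈ Subgroup.center A := fun x => by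
    simp only [Subgroup.mem_center_iff]
    refine ⟨fun hx y => e.injective (by simpa using hx (e y)), fun hx y => e.symm.injective (by simpa using hx (e.symm y))⟩
  have hmap : Subgroup.center A' = (Subgroup.center A).map e.toMonoidHom :=
    Subgroup.ext fun x => by rw [hc, Subgroup.mem_map_equiv]
  have hcm : commutator A' = Subgroup.center A' := by
    rw [hmap, ← h.1.2.2, commutator_def, commutator_def, Subgroup.map_commutator,
      Subgroup.map_top_of_surjective e.toMonoidHom e.surjective]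
  have hp : IsPGroup p A' := h.1.1.of_equiv e
  refine ⟨⟨hp, le_antisymm (CfsgLib.Core.frattini_le_of_elementary (p := p) hcm.le fun x => ?_)
    (hcm.ge.trans (CfsgLib.Core.pgroup_commutator_le_frattini hp)), hcm⟩, ?_⟩
  · rw [hc, map_pow, ← h.1.2.1]; exact CfsgLib.Core.pgroup_pow_mem_frattini h.1.1 _
  · rw [hmap, Subgroup.card_map_of_injective e.injective, h.2]

variable {z : G} {Q : Subgroup G} (B : Base z Q)
include B

theorem four {x : G} (hx : x ∈ Q) : x ^ 4 = 1 := by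
  rw [show (4 : ℕ) = 2 * 2 by norm_num, pow_mul, pow_two, pow_two]
  rcases B.sqQ x hx with e | e <;> rw [e] <;> simp [B.zz]

theorem exists_move {u : G} (huQ : u ∈ Q) (hu1 : u ≠ 1) (huz : u ≠ z) :
    ∃ q ∈ Q, q * u * q⁻¹ = z * u := by
  by_contra h
  push Not at h
  rcases B.centQ u (fun y hy => (mul_inv_eq_iff_eq_mul.1
    ((B.commQ y hy u huQ).resolve_right (h y hy))).symm) with e | e
  exacts [hu1 e, huz e]

/-- No non-trivial odd order subgroup is normalised by `Q`. -/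
theorem no_odd {u : G} (huQ : u ∈ Q) (huu : u * u = 1) (hu1 : u ≠ 1) (huz : u ≠ z)
    (hu : ∀ K : Subgroup G, Odd (Nat.card ↥K) → (∀ k ∈ K, z * k * z⁻¹ ∈ K) →
      ∀ k ∈ K, k * u = u * k → k * z = z * k)
    (K : Subgroup G) (hK : Odd (Nat.card ↥K)) (hKn : ∀ y ∈ Q, ∀ k ∈ K, y * k * y⁻¹ ∈ K) : K = ⊥ := by
  obtain ⟨q, hq, hqu⟩ := exists_move B huQ hu1 huz
  have zi : z⁻¹ = z := inv_eq_of_mul_eq_one_right B.zz
  have ui : u⁻¹ = u := inv_eq_of_mul_eq_one_right huu
  have swap : ∀ {w k : G}, w * w = 1 → w * k * w = k → k * w = w * k := fun {w k} hw h => by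
    conv_lhs => rw [← h]
    rw [mul_assoc, hw, mul_one]
  have fz : ∀ k ∈ K, k * z = z * k → k = 1 := by
    intro k hk hkz
    rcases B.centQ k (fun y hy => by
      have hm : k * y * k⁻¹ * y⁻¹ ∈ Q := Q.mul_mem (B.normQ k hkz y hy) (Q.inv_mem hy)
      have hm' : k * y * k⁻¹ * y⁻¹ ∈ K := by
        rw [show k * y * k⁻¹ * y⁻¹ = k * (y * k⁻¹ * y⁻¹) by group]
        exact K.mul_mem hk (hKn y hy _ (K.inv_mem hk))
      exact mul_inv_eq_iff_eq_mul.1 (mul_inv_eq_one.1 (mem_of_four hK hm' (four B hm)))) with e | e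
    · exact e
    · exact mem_of_four hK hk (e ▸ four B B.zQ)
  have fu : ∀ k ∈ K, k * u = u * k → k = 1 := fun k hk h =>
    fz k hk (hu K hK (hKn z B.zQ) k hk h)
  rw [eq_bot_iff]
  refine le_of_fixed K ⊥ hK B.zz huu (B.cenQ u huQ).symm (fun k hk => ?_) (fun k hk => ?_)
    (fun k hk h => Subgroup.mem_bot.2 (fz k hk (swap B.zz h)))
    (fun k hk h => Subgroup.mem_bot.2 (fu k hk (swap huu h))) (fun k hk h => ?_)
    (fun b hb _ => by rw [Subgroup.mem_bot.1 hb]; simp [B.zz, huu])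
  · have := hKn z B.zQ k hk; rwa [zi] at this
  · have := hKn u huQ k hk; rwa [ui] at this
  · have hww : (z * u) * (z * u) = 1 := by
      rw [mul_assoc, ← mul_assoc u, B.cenQ u huQ, mul_assoc z u, huu, mul_one, B.zz]
    have hc := swap hww h
    have hr2 : q⁻¹ * (z * u) * q = u := by rw [← hqu]; group
    have hk' : q⁻¹ * k * q ∈ K := by simpa using hKn q⁻¹ (Q.inv_mem hq) k hk
    have h1 := fu _ hk' (by
      calc q⁻¹ * k * q * u = q⁻¹ * (k * (z * u)) * q := by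
            rw [show q⁻¹ * (k * (z * u)) * q = q⁻¹ * k * q * (q⁻¹ * (z * u) * q) by group, hr2]
        _ = q⁻¹ * ((z * u) * k) * q := by rw [hc]
        _ = u * (q⁻¹ * k * q) := by
            rw [show q⁻¹ * ((z * u) * k) * q = (q⁻¹ * (z * u) * q) * (q⁻¹ * k * q) by group, hr2])
    refine Subgroup.mem_bot.2 ?_
    calc k = q * (q⁻¹ * k * q) * q⁻¹ := by group
      _ = 1 := by rw [h1, mul_one, mul_inv_cancel]

/-- The simplicity criterion. -/
theorem simple [Finite G] {u : G} (huQ : u ∈ Q) (huu : u * u = 1) (hu1 : u ≠ 1) (huz : u ≠ z)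
    (hu : ∀ K : Subgroup G, Odd (Nat.card ↥K) → (∀ k ∈ K, z * k * z⁻¹ ∈ K) →
      ∀ k ∈ K, k * u = u * k → k * z = z * k)
    (hup : ∀ N : Subgroup G, N.Normal → z ∈ N → Subgroup.centralizer ({z} : Set G) ≤ N) :
    IsSimpleGroup G := by
  have hf : Fact (Nat.Prime 2) := ⟨Nat.prime_two⟩
  have : Nontrivial G := ⟨⟨z, 1, B.z_ne⟩⟩
  refine ⟨fun N hN => ?_⟩
  by_cases hzN : z ∈ N
  · right
    have hC := hup N hN hzN
    have hp : IsPGroup 2 ↥Q := fun x => ⟨2, Subtype.ext (by simpa using four B x.2)⟩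
    obtain ⟨S, hS⟩ := hp.exists_le_sylow
    have hcent : ∀ x : ↥(S : Subgroup G), x ∈ Subgroup.center ↥(S : Subgroup G) → (x : G) = 1 ∨ (x : G) = z :=
      fun x hx => B.centQ x fun y hy => (congrArg Subtype.val (Subgroup.mem_center_iff.1 hx ⟨y, hS hy⟩)).symm
    have hSne : Nontrivial ↥(S : Subgroup G) :=
      ⟨⟨⟨z, hS B.zQ⟩, 1, fun e => B.z_ne (congrArg Subtype.val e)⟩⟩
    have hZne : Nontrivial ↥(Subgroup.center ↥(S : Subgroup G)) := S.isPGroup'.center_nontrivial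
    obtain ⟨x, hx⟩ := exists_ne (1 : ↥(Subgroup.center ↥(S : Subgroup G)))
    have hxz : ((x : ↥(S : Subgroup G)) : G) = z :=
      (hcent x x.2).resolve_left fun e => hx (Subtype.ext (Subtype.ext e))
    have hzS : ∀ y ∈ (S : Subgroup G), y * z = z * y := fun y hy => by
      rw [← hxz]; exact congrArg Subtype.val (Subgroup.mem_center_iff.1 x.2 ⟨y, hy⟩)
    have hSN : (S : Subgroup G) ≤ N := fun y hy => hC (Subgroup.mem_centralizer_singleton_iff.2 (hzS y hy))
    have hnorm : Subgroup.normalizer ((S : Subgroup G) : Set G) ≤ N := by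
      intro n hn
      refine hC (Subgroup.mem_centralizer_singleton_iff.2 ?_)
      have h1 : n * z * n⁻¹ ∈ (S : Subgroup G) := (Subgroup.mem_normalizer_iff.1 hn z).1 (hS B.zQ)
      have h2 : (⟨n * z * n⁻¹, h1⟩ : ↥(S : Subgroup G)) ∈ Subgroup.center ↥(S : Subgroup G) := by
        refine Subgroup.mem_center_iff.2 fun y => Subtype.ext ?_
        have hy' : n⁻¹ * (y : G) * n ∈ (S : Subgroup G) :=
          (Subgroup.mem_normalizer_iff.1 hn _).2 (by simp [mul_assoc])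
        show (y : G) * (n * z * n⁻¹) = n * z * n⁻¹ * y
        calc (y : G) * (n * z * n⁻¹) = n * (n⁻¹ * y * n * z) * n⁻¹ := by group
          _ = n * (z * (n⁻¹ * y * n)) * n⁻¹ := by rw [hzS _ hy']
          _ = _ := by group
      rcases hcent _ h2 with e | e
      · exact absurd (conj_eq_one_iff.1 e) B.z_ne
      · exact mul_inv_eq_iff_eq_mul.1 e
    have := Sylow.normalizer_sup_eq_top' S hSN
    rw [eq_top_iff, ← this]
    exact sup_le hnorm le_rfl
  · left
    have hNQ : ∀ x ∈ N, x ∈ Q → x = 1 := by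
      intro x hx hxQ
      rcases B.centQ x (fun y hy => (mul_inv_eq_iff_eq_mul.1 ((B.commQ y hy x hxQ).resolve_right fun e => hzN (by
        have := N.mul_mem (hN.conj_mem x hx y) (N.inv_mem hx)
        rwa [e, mul_inv_cancel_right] at this))).symm) with e | e
      · exact e
      · exact absurd (e ▸ hx) hzN
    have hfix : ∀ n ∈ N, n * z = z * n → n = 1 := by
      intro n hn hnz
      rcases B.centQ n (fun y hy => by
        refine mul_inv_eq_iff_eq_mul.1 (mul_inv_eq_one.1 (hNQ _ ?_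
          (Q.mul_mem (B.normQ n hnz y hy) (Q.inv_mem hy))))
        rw [show n * y * n⁻¹ * y⁻¹ = n * (y * n⁻¹ * y⁻¹) by group]
        exact N.mul_mem hn (hN.conj_mem _ (N.inv_mem hn) y)) with e | e
      · exact e
      · exact absurd (e ▸ hn) hzN
    have hmem : ∀ n : ↥N, (n : G)⁻¹ * (z * n * z⁻¹) ∈ N := fun n =>
      N.mul_mem (N.inv_mem n.2) (hN.conj_mem _ n.2 z)
    let f : ↥N → ↥N := fun n => ⟨(n : G)⁻¹ * (z * n * z⁻¹), hmem n⟩
    have hinj : Function.Injective f := by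
      intro a b e
      have e' : (a : G)⁻¹ * (z * a * z⁻¹) = (b : G)⁻¹ * (z * b * z⁻¹) := congrArg Subtype.val e
      have h : ((b : G) * (a : G)⁻¹) * z = z * ((b : G) * (a : G)⁻¹) := by
        calc ((b : G) * (a : G)⁻¹) * z = b * ((a : G)⁻¹ * (z * a * z⁻¹)) * z * (a : G)⁻¹ := by group
          _ = b * ((b : G)⁻¹ * (z * b * z⁻¹)) * z * (a : G)⁻¹ := by rw [e']
          _ = z * ((b : G) * (a : G)⁻¹) := by group
      exact (Subtype.ext (mul_inv_eq_one.1 (hfix _ (N.mul_mem b.2 (N.inv_mem a.2)) h))).symm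
    have hodd : Odd (Nat.card ↥N) := by
      by_contra hc
      obtain ⟨n, hn⟩ := exists_prime_orderOf_dvd_card' (G := ↥N) 2 (Nat.not_odd_iff_even.1 hc).two_dvd
      obtain ⟨m, hm⟩ := (Finite.injective_iff_surjective.1 hinj) n
      have hmn : (m : G)⁻¹ * (z * m * z⁻¹) = n := congrArg Subtype.val hm
      have zi : z⁻¹ = z := inv_eq_of_mul_eq_one_right B.zz
      have hinv : z * (n : G) * z = (n : G)⁻¹ := by
        calc z * (n : G) * z = z * (m : G)⁻¹ * z * m * (z⁻¹ * z) := by rw [← hmn]; group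
          _ = z * (m : G)⁻¹ * z⁻¹ * m := by rw [inv_mul_cancel, mul_one, zi]
          _ = (n : G)⁻¹ := by rw [← hmn]; group
      have hnn : (n : G) * n = 1 := by
        have := congrArg Subtype.val (pow_orderOf_eq_one n)
        rw [hn] at this
        simpa [pow_two] using this
      rw [inv_eq_of_mul_eq_one_right hnn] at hinv
      have h1 := hfix n n.2 (by
        conv_lhs => rw [← hinv]
        rw [mul_assoc, B.zz, mul_one])
      rw [show n = 1 from Subtype.ext h1, orderOf_one] at hn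
      norm_num at hn
    exact no_odd B huQ huu hu1 huz hu N hodd fun y _ k hk => hN.conj_mem k hk y

/-- A conjugate of `z` in `Q` serves as the element `u`. -/
theorem fixed_of_conj {g : G} (hgQ : g * z * g⁻¹ ∈ Q) (hsym : g⁻¹ * z * g ∈ Q) (K : Subgroup G)
    (hK : Odd (Nat.card ↥K)) (hKz : ∀ k ∈ K, z * k * z⁻¹ ∈ K) (k : G) (hk : k ∈ K)
    (hkv : k * (g * z * g⁻¹) = (g * z * g⁻¹) * k) : k * z = z * k := by
  have hm : k * z * k⁻¹ * z⁻¹ ∈ K := by
    rw [show k * z * k⁻¹ * z⁻¹ = k * (z * k⁻¹ * z⁻¹) by group]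
    exact K.mul_mem hk (hKz _ (K.inv_mem hk))
  have hc : (g⁻¹ * k * g) * z = z * (g⁻¹ * k * g) := by
    calc (g⁻¹ * k * g) * z = g⁻¹ * (k * (g * z * g⁻¹)) * g := by group
      _ = g⁻¹ * ((g * z * g⁻¹) * k) * g := by rw [hkv]
      _ = z * (g⁻¹ * k * g) := by group
  have h4 : (g⁻¹ * (k * z * k⁻¹ * z⁻¹) * g) ^ 4 = 1 := by
    refine four B ?_
    rw [show g⁻¹ * (k * z * k⁻¹ * z⁻¹) * g =
      (g⁻¹ * k * g) * (g⁻¹ * z * g) * (g⁻¹ * k * g)⁻¹ * (g⁻¹ * z * g)⁻¹ by group]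
    exact Q.mul_mem (B.normQ _ hc _ hsym) (Q.inv_mem hsym)
  have h1 := mem_of_four hK hm (by
    have h := conj_pow (i := 4) (a := g⁻¹) (b := k * z * k⁻¹ * z⁻¹)
    rw [inv_inv] at h
    rw [h] at h4
    calc (k * z * k⁻¹ * z⁻¹) ^ 4 = g * (g⁻¹ * (k * z * k⁻¹ * z⁻¹) ^ 4 * g) * g⁻¹ := by group
      _ = 1 := by rw [h4]; group)
  exact mul_inv_eq_iff_eq_mul.1 (mul_inv_eq_one.1 h1)

end CfsgLib.Spor.LargeSimple
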