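import Cfsg.Agent.Lib.SporLargeEx
import Cfsg.Agent.Lib.CoreLayer
import Cfsg.Agent.Lib.CoreBasic

/-!
Tools for exhibiting large extraspecial subgroups inside centralizer sections: the averaging
argument over a group of odd order, the fixed-point argument for a four-group, and a criterion.
-/

set_option autoImplicit false

namespace CfsgLib.Spor.LargeSub
open Cfsg
open scoped commutatorElement

variable {G : Type*} [Group G]

theorem eq_one_of_four {x : G} {n : ℕ} (hn : Odd n) (h : x ^ n = 1) (h4 : x ^ 4 = 1) : x = 1 := by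
  have hc : Nat.Coprime n 4 := by
    rw [show (4 : ℕ) = 2 ^ 2 by norm_num]
    exact (Nat.coprime_pow_right_iff (by norm_num) n 2).2 (Nat.coprime_two_right.2 hn)
  simpa [hc.gcd_eq_one] using (pow_gcd_eq_one (a := x) (m := n) (n := 4)).2 ⟨h, h4⟩

theorem pow_card_mem {K : Subgroup G} {x : G} (hx : x ∈ K) : x ^ Nat.card ↥K = 1 := by
  have h : (⟨x, hx⟩ : ↥K) ^ Nat.card ↥K = 1 := pow_card_eq_one'
  exact (SubgroupClass.coe_pow (⟨x, hx⟩ : ↥K) _).symm.trans (congrArg Subtype.val h)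

theorem odd_card_of_pow [Finite G] (K : Subgroup G) {n : ℕ} (hn : Odd n) (h : ∀ x ∈ K, x ^ n = 1) :
    Odd (Nat.card ↥K) := by
  by_contra hc
  haveI : Fact (Nat.Prime 2) := ⟨Nat.prime_two⟩
  obtain ⟨x, hx⟩ := exists_prime_orderOf_dvd_card' (G := ↥K) 2 (Nat.not_odd_iff_even.1 hc).two_dvd
  have h2 : (2 : ℕ) ∣ n := hx ▸ orderOf_dvd_of_pow_eq_one (Subtype.ext (by simpa using h x x.2))
  exact (Nat.not_even_iff_odd.2 hn) (even_iff_two_dvd.2 h2)

theorem mem_of_four {K : Subgroup G} (hK : Odd (Nat.card ↥K)) {x : G} (hx : x ∈ K) (h4 : x ^ 4 = 1) :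
    x = 1 := eq_one_of_four hK (pow_card_mem hx) h4

/-- Products of a permuted list in a group whose commutators lie in `⟨v⟩`. -/
theorem perm_prod (P : Subgroup G) (v : G) (hvv : v * v = 1) (cen : ∀ x ∈ P, x * v = v * x)
    (comm : ∀ x ∈ P, ∀ y ∈ P, x * y * x⁻¹ = y ∨ x * y * x⁻¹ = v * y) {l l' : List G} (h : l.Perm l') :
    (∀ x ∈ l, x ∈ P) → l'.prod = l.prod ∨ l'.prod = v * l.prod := by
  induction h with
  | nil => exact fun _ => Or.inl rfl
  | @cons x l₁ l₂ _ ih =>
    intro hl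
    rcases ih (fun y hy => hl y (List.mem_cons_of_mem _ hy)) with e | e
    · left; simp [e]
    · right
      simp only [List.prod_cons, e]
      rw [← mul_assoc, cen x (hl x List.mem_cons_self), mul_assoc]
  | @swap x y l₁ =>
    intro hl
    simp only [List.prod_cons]
    rcases comm x (hl x (by simp)) y (hl y (by simp)) with e | e
    · left; rw [← mul_assoc, mul_inv_eq_iff_eq_mul.1 e, mul_assoc]
    · right; rw [← mul_assoc x y, mul_inv_eq_iff_eq_mul.1 e]; group
  | @trans l₁ l₂ l₃ h₁ _ ih₁ ih₂ =>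
    intro hl
    rcases ih₁ hl with e | e <;> rcases ih₂ (fun y hy => hl y (h₁.mem_iff.2 hy)) with e' | e' <;>
      rw [e'] <;> rw [e]
    · exact Or.inl rfl
    · exact Or.inr rfl
    · exact Or.inr rfl
    · left; rw [← mul_assoc, hvv, one_mul]

theorem prod_moves (P : Subgroup G) {v u : G} (cen : ∀ x ∈ P, x * v = v * x) {l : List G}
    (hl : ∀ x ∈ l, x ∈ P ∧ x * u * x⁻¹ = v * u) : l.prod * u * l.prod⁻¹ = v ^ l.length * u := by
  induction l with
  | nil => simp
  | cons x l ih =>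
    have hx := hl x List.mem_cons_self
    have hc : x * v ^ l.length = v ^ l.length * x := (show Commute x v from cen x hx.1).pow_right _
    calc (x :: l).prod * u * (x :: l).prod⁻¹ = x * (l.prod * u * l.prod⁻¹) * x⁻¹ := by
          rw [List.prod_cons]; group
      _ = (x * v ^ l.length) * u * x⁻¹ := by
          rw [ih fun y hy => hl y (List.mem_cons_of_mem _ hy)]; group
      _ = v ^ l.length * (x * u * x⁻¹) := by rw [hc]; group
      _ = v ^ (x :: l).length * u := by rw [hx.2, List.length_cons, pow_succ, mul_assoc]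

/-- Averaging over an odd order group of operators: an element moving `u` may be chosen centralised. -/
theorem exists_centralized [Finite G] (P A : Subgroup G) (hA : Odd (Nat.card ↥A)) {v u p : G}
    (hvv : v * v = 1) (hv1 : v ≠ 1) (cen : ∀ x ∈ P, x * v = v * x)
    (comm : ∀ x ∈ P, ∀ y ∈ P, x * y * x⁻¹ = y ∨ x * y * x⁻¹ = v * y)
    (hAP : ∀ a ∈ A, ∀ y ∈ P, a * y * a⁻¹ ∈ P) (hAv : ∀ a ∈ A, a * v = v * a)
    (hAu : ∀ a ∈ A, a * u = u * a) (hp : p ∈ P) (hpu : p * u * p⁻¹ = v * u) :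
    ∃ s ∈ P, (∀ a ∈ A, a * s = s * a) ∧ s * u * s⁻¹ = v * u := by
  classical
  haveI := Fintype.ofFinite ↥A
  set f : ↥A → G := fun a => (a : G) * p * (a : G)⁻¹ with hf
  set l := (Finset.univ : Finset ↥A).toList.map f with hl
  have hlP : ∀ x ∈ l, x ∈ P ∧ x * u * x⁻¹ = v * u := by
    intro x hx
    obtain ⟨a, -, rfl⟩ := List.mem_map.1 hx
    refine ⟨hAP a a.2 p hp, ?_⟩
    have h1 : (a : G)⁻¹ * u * (a : G) = u := by rw [mul_assoc, ← hAu a a.2]; group
    have h2 : (a : G) * v * (a : G)⁻¹ = v := mul_inv_eq_iff_eq_mul.2 (hAv a a.2)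
    have h3 : (a : G) * u * (a : G)⁻¹ = u := mul_inv_eq_iff_eq_mul.2 (hAu a a.2)
    calc f a * u * (f a)⁻¹ = a * (p * ((a : G)⁻¹ * u * a) * p⁻¹) * (a : G)⁻¹ := by rw [hf]; group
      _ = (a * v * (a : G)⁻¹) * (a * u * (a : G)⁻¹) := by rw [h1, hpu]; group
      _ = v * u := by rw [h2, h3]
  refine ⟨l.prod, P.list_prod_mem fun x hx => (hlP x hx).1, fun b hb => ?_, ?_⟩
  · set s := l.prod with hs
    have hperm : l.Perm ((Finset.univ : Finset ↥A).toList.map fun a => f (⟨b, hb⟩ * a)) := by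
      have h0 : ((Finset.univ : Finset ↥A).toList.map (Equiv.mulLeft (⟨b, hb⟩ : ↥A))).Perm
          (Finset.univ : Finset ↥A).toList := by
        refine (List.perm_ext_iff_of_nodup
          ((Finset.nodup_toList _).map (Equiv.mulLeft (⟨b, hb⟩ : ↥A)).injective) (Finset.nodup_toList _)).2 fun a => ?_
        simp only [List.mem_map, Finset.mem_toList, Finset.mem_univ, true_and, iff_true]
        exact ⟨(⟨b, hb⟩ : ↥A)⁻¹ * a, mul_inv_cancel_left _ _⟩
      have h := h0.map f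
      rw [List.map_map] at h
      exact h.symm
    have hconj : ((Finset.univ : Finset ↥A).toList.map fun a => f (⟨b, hb⟩ * a)).prod = b * s * b⁻¹ := by
      rw [show b * s * b⁻¹ = (MulAut.conj b) s from rfl, hs, map_list_prod, hl, List.map_map]
      congr 2
      funext a
      simp only [hf, Function.comp_apply, MulAut.conj_apply, Subgroup.coe_mul]
      group
    rcases perm_prod P v hvv cen comm hperm (fun x hx => (hlP x hx).1) with e | e <;> rw [hconj] at e
    · exact mul_inv_eq_iff_eq_mul.1 e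
    · exfalso
      have hpow : ∀ n : ℕ, b ^ n * s * (b ^ n)⁻¹ = v ^ n * s := by
        intro n
        induction n with
        | zero => simp
        | succ n ih =>
          have hc : b * v ^ n = v ^ n * b := (show Commute b v from hAv b hb).pow_right _
          calc b ^ (n + 1) * s * (b ^ (n + 1))⁻¹ = b * (b ^ n * s * (b ^ n)⁻¹) * b⁻¹ := by
                rw [pow_succ']; group
            _ = (b * v ^ n) * s * b⁻¹ := by rw [ih]; group
            _ = v ^ n * (b * s * b⁻¹) := by rw [hc]; group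
            _ = v ^ (n + 1) * s := by rw [e, pow_succ, mul_assoc]
      have := hpow (Nat.card ↥A)
      rw [pow_card_mem hb] at this
      simp only [one_mul, inv_one, mul_one] at this
      obtain ⟨m, hm⟩ := hA
      rw [hm, pow_succ, pow_mul, pow_two, hvv, one_pow, one_mul] at this
      exact hv1 (right_eq_mul.1 this)
  · rw [prod_moves P cen hlP, hl, List.length_map, Finset.length_toList, Finset.card_univ,
      ← Nat.card_eq_fintype_card]
    obtain ⟨m, hm⟩ := hA
    rw [hm, pow_succ, pow_mul, pow_two, hvv, one_pow, one_mul]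

/-- An involution acting on a group of odd order: every element is fixed times inverted. -/
theorem split (K : Subgroup G) (hK : Odd (Nat.card ↥K)) {t : G} (htt : t * t = 1)
    (hn : ∀ k ∈ K, t * k * t ∈ K) {k : G} (hk : k ∈ K) :
    ∃ c ∈ K, ∃ i ∈ K, k = c * i ∧ t * c * t = c ∧ t * i * t = i⁻¹ := by
  obtain ⟨e, he⟩ := hK
  have ti : t⁻¹ = t := inv_eq_of_mul_eq_one_right htt
  set m := k⁻¹ * (t * k * t) with hm
  have hmK : m ∈ K := K.mul_mem (K.inv_mem hk) (hn k hk)
  have h1 := pow_card_mem (K.inv_mem hmK)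
  rw [he] at h1
  set i := m⁻¹ ^ (e + 1) with hi
  have hiK : i ∈ K := K.pow_mem (K.inv_mem hmK) _
  have hii : i * i = m⁻¹ := by
    rw [hi, ← pow_add, show e + 1 + (e + 1) = 2 * e + 1 + 1 by ring, pow_succ, h1, one_mul]
  have htm : t * m⁻¹ * t⁻¹ = m := by
    calc t * m⁻¹ * t⁻¹ = t * t⁻¹ * k⁻¹ * t⁻¹ * k * t⁻¹ := by rw [hm]; group
      _ = m := by rw [hm, ti, htt]; group
  have hti : t * i * t = i⁻¹ := by
    calc t * i * t = t * m⁻¹ ^ (e + 1) * t⁻¹ := by rw [ti]
      _ = (t * m⁻¹ * t⁻¹) ^ (e + 1) := (conj_pow).symm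
      _ = i⁻¹ := by rw [htm, hi, inv_pow, inv_inv]
  refine ⟨k * i⁻¹, K.mul_mem hk (K.inv_mem hiK), i, hiK, by group, ?_, hti⟩
  have hmi : m * i = i⁻¹ := by
    refine eq_inv_of_mul_eq_one_left ?_
    rw [mul_assoc, hii, mul_inv_cancel]
  calc t * (k * i⁻¹) * t = (t * k * t) * (t⁻¹ * i⁻¹ * t⁻¹) * (t * t) := by group
    _ = (t * k * t) * (t * i * t)⁻¹ := by rw [htt, mul_one]; group
    _ = k * (m * i) := by rw [hti, hm]; group
    _ = k * i⁻¹ := by rw [hmi]

/-- A four-group acting on a group of odd order all whose fixed points lie in a central subgroup. -/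
theorem le_of_fixed (K B : Subgroup G) (hK : Odd (Nat.card ↥K)) {z v : G} (hzz : z * z = 1) (hvv : v * v = 1)
    (hcom : z * v = v * z) (hnz : ∀ k ∈ K, z * k * z ∈ K) (hnv : ∀ k ∈ K, v * k * v ∈ K)
    (fz : ∀ k ∈ K, z * k * z = k → k ∈ B) (fv : ∀ k ∈ K, v * k * v = k → k ∈ B)
    (fzv : ∀ k ∈ K, (z * v) * k * (z * v) = k → k ∈ B)
    (cB : ∀ b ∈ B, b ∈ K → z * b * z = b ∧ v * b * v = b ∧ ∀ k ∈ K, b * k = k * b) : K ≤ B := by
  intro k hk
  have zi : z⁻¹ = z := inv_eq_of_mul_eq_one_right hzz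
  have vi : v⁻¹ = v := inv_eq_of_mul_eq_one_right hvv
  obtain ⟨c, hc, i, hi, rfl, hcz, hiz⟩ := split K hK hzz hnz hk
  refine B.mul_mem (fz c hc hcz) ?_
  obtain ⟨c', hc', j, hj, rfl, hc'v, hjv⟩ := split K hK hvv hnv hi
  obtain ⟨hc'z, -, hc'c⟩ := cB c' (fv c' hc' hc'v) hc'
  have hjc : c' * j = j * c' := hc'c j hj
  have hjz : z * j * z = c'⁻¹ * c'⁻¹ * j⁻¹ := by
    have h := hiz
    rw [show z * (c' * j) * z = (z * c' * z) * (z⁻¹ * j * z) by group, hc'z, zi] at h
    have hinv : (c' * j)⁻¹ = c'⁻¹ * j⁻¹ := by rw [hjc, mul_inv_rev]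
    rw [hinv] at h
    calc z * j * z = c'⁻¹ * (c' * (z * j * z)) := by group
      _ = c'⁻¹ * c'⁻¹ * j⁻¹ := by rw [h, mul_assoc]
  have hw : (z * v) * j * (z * v) = j * (c' * c') := by
    calc (z * v) * j * (z * v) = z * (v * j * v) * z := by
          conv_lhs => arg 2; rw [hcom]
          group
      _ = (z⁻¹ * j * z⁻¹)⁻¹ := by rw [hjv]; group
      _ = j * (c' * c') := by rw [zi, hjz]; simp [mul_assoc]
  have hw2 : (z * v) * (z * v) = 1 := by
    rw [mul_assoc, ← mul_assoc v, ← hcom, mul_assoc z v, hvv, mul_one, hzz]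
  have hc4 : c' ^ 4 = 1 := by
    have hcz' : z * c' = c' * z := by
      calc z * c' = z * c' * (z * z) := by rw [hzz, mul_one]
        _ = c' * z := by rw [← mul_assoc, hc'z]
    have hcv' : v * c' = c' * v := by
      calc v * c' = v * c' * (v * v) := by rw [hvv, mul_one]
        _ = c' * v := by rw [← mul_assoc, hc'v]
    have hcw : (z * v) * c' = c' * (z * v) := by rw [mul_assoc, hcv', ← mul_assoc, hcz', mul_assoc]
    have h : (z * v) * (j * (c' * c')) * (z * v) = j := by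
      rw [← hw]
      calc _ = ((z * v) * (z * v)) * j * ((z * v) * (z * v)) := by group
        _ = j := by rw [hw2, one_mul, mul_one]
    have h' : (z * v) * (j * (c' * c')) * (z * v) = ((z * v) * j * (z * v)) * (c' * c') := by
      have hcc : (c' * c') * (z * v) = (z * v) * (c' * c') := by
        rw [mul_assoc, ← hcw, ← mul_assoc, ← hcw, mul_assoc]
      calc (z * v) * (j * (c' * c')) * (z * v) = (z * v) * j * ((c' * c') * (z * v)) := by group
        _ = _ := by rw [hcc]; group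
    rw [h', hw] at h
    calc c' ^ 4 = j⁻¹ * (j * (c' * c') * (c' * c')) := by simp [pow_succ, mul_assoc]
      _ = 1 := by rw [h, inv_mul_cancel]
  have hc1 : c' = 1 := mem_of_four hK hc' hc4
  subst hc1
  rw [one_mul]
  exact fzv j hj (by simpa using hw)

/-- A criterion for a large extraspecial subgroup. -/
theorem isLarge_of {X : Type*} [Group X] [Finite X] (Q : Subgroup X) {z : X} (hzQ : z ∈ Q) (hzz : z * z = 1)
    (hz1 : z ≠ 1) (hcomm : ∀ x ∈ Q, ∀ y ∈ Q, x * y * x⁻¹ = y ∨ x * y * x⁻¹ = z * y)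
    (hsq : ∀ x ∈ Q, x * x = 1 ∨ x * x = z) (hnc : ∃ x ∈ Q, ∃ y ∈ Q, x * y ≠ y * x)
    (hcen : ∀ x ∈ Q, x * z = z * x) (hcent : ∀ x : X, (∀ y ∈ Q, x * y = y * x) → x = 1 ∨ x = z)
    (hnorm : ∀ c : X, c * z = z * c → ∀ y ∈ Q, c * y * c⁻¹ ∈ Q)
    (hK : ∀ K : Subgroup X, Odd (Nat.card ↥K) → Q ≤ Subgroup.normalizer (K : Set X) → K = ⊥) :
    IsLargeExtraspecial Q := by
  haveI : Fact (Nat.Prime 2) := ⟨Nat.prime_two⟩
  let zc : ↥Q := ⟨z, hzQ⟩
  have hzc : zc ∈ Subgroup.center ↥Q := Subgroup.mem_center_iff.2 fun y => Subtype.ext (hcen y y.2)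
  have hp : IsPGroup 2 ↥Q := fun x => ⟨2, Subtype.ext (by
    rw [SubgroupClass.coe_pow, show (2 : ℕ) ^ 2 = 2 * 2 by norm_num, pow_mul, pow_two, pow_two]
    rcases hsq x x.2 with e | e <;> rw [e] <;> simp [hzz])⟩
  have hcenter : ∀ x : ↥Q, x ∈ Subgroup.center ↥Q ↔ x = 1 ∨ x = zc := fun x => by
    refine ⟨fun h => ?_, ?_⟩
    · rcases hcent x (fun y hy => (congrArg Subtype.val (Subgroup.mem_center_iff.1 h ⟨y, hy⟩)).symm) with e | e
      exacts [Or.inl (Subtype.ext e), Or.inr (Subtype.ext e)]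
    · rintro (rfl | rfl)
      exacts [one_mem _, hzc]
  have hcm : commutator ↥Q = Subgroup.center ↥Q := by
    refine le_antisymm (Subgroup.commutator_le.2 fun x _ y _ => ?_) fun x hx => ?_
    · rcases hcomm x x.2 y y.2 with e | e
      · refine (hcenter _).2 (Or.inl (Subtype.ext ?_))
        simp [commutatorElement_def, e]
      · refine (hcenter _).2 (Or.inr (Subtype.ext ?_))
        simp [commutatorElement_def, e, zc]
    · rcases (hcenter x).1 hx with rfl | rfl
      · exact one_mem _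
      · obtain ⟨a, ha, b, hb, hne⟩ := hnc
        have h := Subgroup.commutator_mem_commutator (Subgroup.mem_top (⟨a, ha⟩ : ↥Q))
          (Subgroup.mem_top (⟨b, hb⟩ : ↥Q))
        have he : ⁅(⟨a, ha⟩ : ↥Q), (⟨b, hb⟩ : ↥Q)⁆ = zc := Subtype.ext (by
          rcases hcomm a ha b hb with e | e
          · exact absurd (mul_inv_eq_iff_eq_mul.1 e) hne
          · simp [commutatorElement_def, e, zc])
        rwa [he] at h
  have hz2 : orderOf zc = 2 := orderOf_eq_prime (Subtype.ext (by simp [zc, pow_two, hzz]))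
    (fun e => hz1 (congrArg Subtype.val e))
  have hzp : Subgroup.center ↥Q = Subgroup.zpowers zc := by
    refine le_antisymm (fun x hx => ?_) (Subgroup.zpowers_le.2 hzc)
    rcases (hcenter x).1 hx with rfl | rfl
    exacts [one_mem _, Subgroup.mem_zpowers _]
  refine ⟨⟨⟨hp, ?_, hcm⟩, by rw [hzp, Nat.card_zpowers, hz2]⟩, le_antisymm (fun x hx => ?_) ?_, fun c hc => ?_, hK⟩
  · refine le_antisymm (CfsgLib.Core.frattini_le_of_elementary (p := 2) hcm.le fun x => (hcenter _).2 ?_) ?_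
    · rcases hsq x x.2 with e | e
      · exact Or.inl (Subtype.ext (by simpa [pow_two] using e))
      · exact Or.inr (Subtype.ext (by simpa [pow_two] using e))
    · exact hcm.ge.trans (CfsgLib.Core.pgroup_commutator_le_frattini hp)
  · rcases hcent x (fun y hy => (hx y hy).symm) with rfl | rfl
    · exact one_mem _
    · exact ⟨zc, hzc, rfl⟩
  · rintro x ⟨y, hy, rfl⟩ w hw
    exact congrArg Subtype.val (Subgroup.mem_center_iff.1 hy ⟨w, hw⟩)
  · have hcz : c * z = z * c := (hc z ⟨zc, hzc, rfl⟩).symm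
    refine Subgroup.mem_normalizer_iff.2 fun y => ⟨hnorm c hcz y, fun h => ?_⟩
    have := hnorm c⁻¹ (show Commute c z from hcz).inv_left _ h
    convert this using 1; group

/-- The basic facts of an involution whose centralizer has extraspecial generalized Fitting subgroup. -/
theorem setting [Finite G] {z : G} (hz : orderOf z = 2) (Q : Subgroup G)
    (hQC : Q ≤ Subgroup.centralizer ({z} : Set G))
    (hF : (Cfsg.generalizedFittingSubgroup ↥(Subgroup.centralizer ({z} : Set G))).map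
      (Subgroup.centralizer ({z} : Set G)).subtype = Q)
    (hQ : Cfsg.IsExtraspecial 2 ↥Q) (g : G) (hgQ : g * z * g⁻¹ ∈ Q)
    (hgZ : g * z * g⁻¹ ∉ ((Subgroup.center ↥Q).map Q.subtype)) :
    (Subgroup.center ↥Q).map Q.subtype = Subgroup.zpowers z ∧
    ∃ q p : G, LargeEx.Pair Q (Q.map (MulAut.conj g).toMonoidHom) z (g * z * g⁻¹) q p ∧
      ∀ x : G, (∀ y ∈ Q.map (MulAut.conj g).toMonoidHom, x * y = y * x) → x = 1 ∨ x = g * z * g⁻¹ := by
  set C := Subgroup.centralizer ({z} : Set G) with hC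
  set F := Cfsg.generalizedFittingSubgroup ↥C with hFdef
  haveI : F.Normal := CfsgLib.Core.normal_generalizedFittingSubgroup
  have hzC : z ∈ C := Subgroup.mem_centralizer_singleton_iff.2 rfl
  have hzF : (⟨z, hzC⟩ : ↥C) ∈ F := by
    refine CfsgLib.Core.fitting_le_generalizedFitting ?_
    have hcen : (⟨z, hzC⟩ : ↥C) ∈ Subgroup.center ↥C :=
      Subgroup.mem_center_iff.2 fun y => Subtype.ext (Subgroup.mem_centralizer_singleton_iff.1 y.2)
    letI : CommGroup ↥(Subgroup.center ↥C) :=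
      { (inferInstance : Group ↥(Subgroup.center ↥C)) with
        mul_comm := fun a b => Subtype.ext (Subgroup.mem_center_iff.1 b.2 a) }
    exact le_sSup (a := Subgroup.center ↥C) (s := {N : Subgroup ↥C | N.Normal ∧ Group.IsNilpotent N})
      ⟨inferInstance, CommGroup.isNilpotent (G := ↥(Subgroup.center ↥C))⟩ hcen
  have hzQ : z ∈ Q := hF ▸ ⟨⟨z, hzC⟩, hzF, rfl⟩
  have hzc : (⟨z, hzQ⟩ : ↥Q) ∈ Subgroup.center ↥Q :=
    Subgroup.mem_center_iff.2 fun y => Subtype.ext (Subgroup.mem_centralizer_singleton_iff.1 (hQC y.2))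
  have hZ : (Subgroup.center ↥Q).map Q.subtype = Subgroup.zpowers z := by
    refine (Subgroup.eq_of_le_of_card_ge (Subgroup.zpowers_le.2
      (show z ∈ (Subgroup.center ↥Q).map Q.subtype from ⟨⟨z, hzQ⟩, hzc, rfl⟩)) ?_).symm
    rw [Nat.card_zpowers, hz, Subgroup.card_map_of_injective Subtype.val_injective, hQ.2]
  have hL2 : Subgroup.centralizer (Q : Set G) = (Subgroup.center ↥Q).map Q.subtype := by
    refine le_antisymm (fun x hx => ?_) ?_
    · have hxC : x ∈ C := Subgroup.mem_centralizer_singleton_iff.2 (hx z hzQ).symm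
      have hxF : (⟨x, hxC⟩ : ↥C) ∈ F := CfsgLib.Core.centralizer_generalizedFitting_le fun y hy =>
        Subtype.ext (hx y (hF ▸ ⟨y, hy, rfl⟩))
      have hxQ : x ∈ Q := hF ▸ ⟨⟨x, hxC⟩, hxF, rfl⟩
      exact ⟨⟨x, hxQ⟩, Subgroup.mem_center_iff.2 fun y => Subtype.ext (hx y y.2), rfl⟩
    · rintro x ⟨y, hy, rfl⟩ w hw
      exact congrArg Subtype.val (Subgroup.mem_center_iff.1 hy ⟨w, hw⟩)
  have hnorm : ∀ c ∈ C, ∀ y ∈ Q, c * y * c⁻¹ ∈ Q := fun c hc y hy => by
    rw [← hF] at hy ⊢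
    obtain ⟨y', hy', rfl⟩ := hy
    exact ⟨(⟨c, hc⟩ : ↥C) * y' * (⟨c, hc⟩ : ↥C)⁻¹, ‹F.Normal›.conj_mem y' hy' _, rfl⟩
  have hL3 : Subgroup.centralizer (((Subgroup.center ↥Q).map Q.subtype : Subgroup G) : Set G) ≤
      Subgroup.normalizer (Q : Set G) := by
    intro c hc
    have hcC : c ∈ C := Subgroup.mem_centralizer_singleton_iff.2
      (hc z ⟨⟨z, hzQ⟩, hzc, rfl⟩).symm
    refine Subgroup.mem_normalizer_iff.2 fun y => ⟨hnorm c hcC y, fun h => ?_⟩
    have := hnorm c⁻¹ (C.inv_mem hcC) _ h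
    convert this using 1; group
  have hne : g * z * g⁻¹ ≠ z := fun e => hgZ (by rw [e]; exact Subgroup.mem_map.2 ⟨⟨z, hzQ⟩, hzc, rfl⟩)
  obtain ⟨q, p, H⟩ := LargeEx.exists_pair Q hQ hL2 hL3 hZ hz g hgQ hne
  refine ⟨hZ, q, p, H, fun x hx => ?_⟩
  rcases H.centQ (g⁻¹ * x * g) (fun y hy => by
    have h := hx (g * y * g⁻¹) ⟨y, hy, rfl⟩
    calc g⁻¹ * x * g * y = g⁻¹ * (x * (g * y * g⁻¹)) * g := by group
      _ = g⁻¹ * ((g * y * g⁻¹) * x) * g := by rw [h]
      _ = y * (g⁻¹ * x * g) := by group) with e | e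
  · left
    calc x = g * (g⁻¹ * x * g) * g⁻¹ := by group
      _ = 1 := by rw [e]; group
  · right
    calc x = g * (g⁻¹ * x * g) * g⁻¹ := by group
      _ = g * z * g⁻¹ := by rw [e]

end CfsgLib.Spor.LargeSub
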