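import Cfsg.Agent.Lib.SporPerm

/-!
The rank-24 lattice: membership, congruences, minimum, a totally singular half of it modulo 2.
-/

set_option autoImplicit false

namespace CfsgLib.Spor
open Cfsg
open scoped Pointwise

/-- The word of parities of an integer vector. -/
def oddWord (a : GolayPt → ℤ) : GolayPt → ZMod 2 := fun i => (a i : ZMod 2)

/-- Membership in the lattice, in terms of a common parity and a halved vector. -/
def IsLeech (x : GolayPt → ℤ) : Prop :=
  ∃ (m : ℤ) (a : GolayPt → ℤ), (∀ i, x i = m + 2 * a i) ∧ (8 : ℤ) ∣ (∑ i, x i) - 4 * m ∧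
    oddWord a ∈ golayCode

theorem mem_support₂ {w : GolayPt → ZMod 2} {p : GolayPt} : p ∈ support₂ w ↔ w p ≠ 0 := by
  rw [support₂, Finset.mem_filter]; simp

theorem one_mem_golayCode : (1 : GolayPt → ZMod 2) ∈ golayCode :=
  Submodule.subset_span (Set.mem_union_right _ rfl)

theorem golayCode_neg (w : GolayPt → ZMod 2) (h : w ∈ golayCode) : -w ∈ golayCode := golayCode.neg_mem h

theorem card_GolayPt : Fintype.card GolayPt = 24 := by simp [Fintype.card_option, ZMod.card]

/-- The subgroup of lattice vectors. -/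
def leechGroup : AddSubgroup (GolayPt → ℤ) where
  carrier := {x | IsLeech x}
  zero_mem' := ⟨0, 0, by simp, by simp, by
    have : oddWord (0 : GolayPt → ℤ) = 0 := by funext i; simp [oddWord]
    rw [this]; exact golayCode.zero_mem⟩
  add_mem' := by
    rintro x y ⟨m, a, hx, hs, hw⟩ ⟨n, b, hy, ht, hv⟩
    refine ⟨m + n, a + b, fun i => by simp [hx i, hy i]; ring, ?_, ?_⟩
    · simp only [Pi.add_apply, Finset.sum_add_distrib]
      have := dvd_add hs ht
      omega
    · have : oddWord (a + b) = oddWord a + oddWord b := by funext i; simp [oddWord]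
      rw [this]; exact golayCode.add_mem hw hv
  neg_mem' := by
    rintro x ⟨m, a, hx, hs, hw⟩
    refine ⟨-m, -a, fun i => by simp [hx i]; ring, ?_, ?_⟩
    · simp only [Pi.neg_apply, Finset.sum_neg_distrib]
      have := dvd_neg.2 hs
      omega
    · have : oddWord (-a) = -oddWord a := by funext i; simp [oddWord]
      rw [this]; exact golayCode.neg_mem hw

theorem mem_codeSets_support {w : GolayPt → ZMod 2} : support₂ w ∈ codeSets ↔ w ∈ golayCode :=
  ⟨fun ⟨v, hv, e⟩ => support₂_injective e ▸ hv, fun h => ⟨w, h, rfl⟩⟩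

theorem isLeech_iff (x : GolayPt → ℤ) : IsLeech x ↔ x ∈ leechSet := by
  constructor
  · rintro ⟨m, a, hx, hs, hw⟩
    refine ⟨m, fun i => ?_, ?_, fun k => ?_⟩
    · rw [Int.modEq_iff_dvd]; exact ⟨-a i, by rw [hx i]; ring⟩
    · rw [Int.modEq_iff_dvd]
      omega
    · by_cases hk : (2 : ℤ) ∣ k - m
      · obtain ⟨b, hb⟩ := hk
        have e : (Finset.univ.filter fun i => x i ≡ k [ZMOD 4]) = support₂ (oddWord a + (b : ZMod 2) • 1 + 1) := by
          ext i
          have h1 : (oddWord a + (b : ZMod 2) • (1 : GolayPt → ZMod 2) + 1) i = ((a i + b + 1 : ℤ) : ZMod 2) := by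
            simp [oddWord]
          simp only [support₂, Finset.mem_filter, Finset.mem_univ, true_and, h1, ne_eq,
            ZMod.intCast_zmod_eq_zero_iff_dvd, Int.modEq_iff_dvd, hx i]
          push_cast
          omega
        rw [e]
        exact ⟨_, golayCode.add_mem (golayCode.add_mem hw (golayCode.smul_mem _ one_mem_golayCode))
          one_mem_golayCode, rfl⟩
      · have e : (Finset.univ.filter fun i => x i ≡ k [ZMOD 4]) = support₂ (0 : GolayPt → ZMod 2) := by
          ext i
          simp only [support₂, Finset.mem_filter, Finset.mem_univ, true_and, Pi.zero_apply, ne_eq,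
            not_true_eq_false, iff_false, Int.modEq_iff_dvd, hx i]
          omega
        rw [e]
        exact ⟨_, golayCode.zero_mem, rfl⟩
  · rintro ⟨m, hp, hs, hc⟩
    refine ⟨m, fun i => (x i - m) / 2, fun i => ?_, ?_, ?_⟩
    · have := Int.modEq_iff_dvd.1 (hp i)
      beta_reduce
      omega
    · have := dvd_neg.2 (Int.modEq_iff_dvd.1 hs)
      omega
    · rw [← mem_codeSets_support]
      convert hc (m + 2) using 1
      ext i
      have := Int.modEq_iff_dvd.1 (hp i)
      simp only [support₂, Finset.mem_filter, Finset.mem_univ, true_and, oddWord, ne_eq,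
        ZMod.intCast_zmod_eq_zero_iff_dvd, Int.modEq_iff_dvd]
      push_cast
      omega

theorem coe_leechGroup : (leechGroup : Set (GolayPt → ℤ)) = leechSet := Set.ext isLeech_iff

theorem leechLattice_eq : leechLattice = leechGroup := by
  rw [leechLattice, ← coe_leechGroup, AddSubgroup.closure_eq]

theorem mem_leech {x : GolayPt → ℤ} : x ∈ leechLattice ↔ IsLeech x := by rw [leechLattice_eq]; rfl

theorem four_dvd_card_support {w : GolayPt → ZMod 2} (hw : w ∈ golayCode) : 4 ∣ (support₂ w).card := by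
  obtain ⟨m, hm, rfl⟩ := mem_golayCode_iff.1 hw
  rw [support₂_wordOf, card_setOfMask]
  have := codeMasks_weights m hm
  simp at this
  omega

theorem eight_le_card_support {w : GolayPt → ZMod 2} (hw : w ∈ golayCode) (h0 : w ≠ 0) :
    8 ≤ (support₂ w).card := by
  obtain ⟨m, hm, rfl⟩ := mem_golayCode_iff.1 hw
  rw [support₂_wordOf, card_setOfMask]
  have hne : (support₂ (wordOf m)).card ≠ 0 := by
    intro h
    apply h0
    apply support₂_injective
    rw [Finset.card_eq_zero.1 h]; simp [support₂]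
  rw [support₂_wordOf, card_setOfMask] at hne
  have := codeMasks_weights m hm
  simp at this
  omega

/-- Squares modulo 4 count the odd entries. -/
theorem sum_sq_mod_four (a : GolayPt → ℤ) :
    (4 : ℤ) ∣ (∑ i, a i ^ 2) - ((support₂ (oddWord a)).card : ℤ) := by
  have e : ((support₂ (oddWord a)).card : ℤ) = ∑ i, a i % 2 := by
    rw [support₂, Finset.card_filter]
    push_cast
    refine Finset.sum_congr rfl fun i _ => ?_
    have := Int.emod_two_eq_zero_or_one (a i)
    have h : oddWord a i ≠ 0 ↔ ¬ (2 : ℤ) ∣ a i := (ZMod.intCast_zmod_eq_zero_iff_dvd (a i) 2).not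
    by_cases hd : (2 : ℤ) ∣ a i
    · rw [if_neg (fun hh => h.1 hh hd)]; omega
    · rw [if_pos (h.2 hd)]; omega
  rw [e, ← Finset.sum_sub_distrib]
  refine Finset.dvd_sum fun i _ => ?_
  rcases Int.even_or_odd' (a i) with ⟨c, hc | hc⟩
  · exact ⟨c ^ 2, by rw [hc, Int.mul_emod_right]; ring⟩
  · exact ⟨c ^ 2 + c, by
      have : (2 * c + 1) % 2 = 1 := by omega
      rw [hc, this]; ring⟩

theorem four_dvd_sum_sq {a : GolayPt → ℤ} (hw : oddWord a ∈ golayCode) : (4 : ℤ) ∣ ∑ i, a i ^ 2 := by
  have h1 := sum_sq_mod_four a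
  have h2 : (4 : ℤ) ∣ ((support₂ (oddWord a)).card : ℤ) := by exact_mod_cast four_dvd_card_support hw
  simpa using dvd_add h1 h2

theorem sqNorm_expand (m : ℤ) (a x : GolayPt → ℤ) (hx : ∀ i, x i = m + 2 * a i) :
    sqNorm x = 24 * m ^ 2 + 4 * m * (∑ i, a i) + 4 * ∑ i, a i ^ 2 := by
  simp only [sqNorm, hx, add_sq, Finset.sum_add_distrib, Finset.sum_const, Finset.card_univ, card_GolayPt,
    nsmul_eq_mul, Finset.mul_sum, mul_pow]
  push_cast
  congr 1
  congr 1
  exact Finset.sum_congr rfl fun i _ => by ring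

theorem sixteen_dvd_sqNorm {x : GolayPt → ℤ} (h : x ∈ leechLattice) : (16 : ℤ) ∣ sqNorm x := by
  obtain ⟨m, a, hx, hs, hw⟩ := mem_leech.1 h
  obtain ⟨u, hu⟩ := four_dvd_sum_sq hw
  obtain ⟨t, ht⟩ := hs
  have hsum : ∑ i, x i = 24 * m + 2 * ∑ i, a i := by
    simp only [hx, Finset.sum_add_distrib, Finset.sum_const, Finset.card_univ, card_GolayPt, nsmul_eq_mul,
      Finset.mul_sum]
    push_cast; ring
  have ha : ∑ i, a i = 4 * t - 10 * m := by omega
  exact ⟨-m ^ 2 + m * t + u, by rw [sqNorm_expand m a x hx, ha, hu]; ring⟩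

theorem sqNorm_pos {x : GolayPt → ℤ} (h0 : x ≠ 0) : 0 < sqNorm x := by
  obtain ⟨i, hi⟩ := Function.ne_iff.1 h0
  have : 0 < x i ^ 2 := by simp only [Pi.zero_apply] at hi; positivity
  exact lt_of_lt_of_le this (Finset.single_le_sum (f := fun j => x j ^ 2) (fun j _ => sq_nonneg _) (Finset.mem_univ i))

theorem leech_min {x : GolayPt → ℤ} (h : x ∈ leechLattice) (h0 : x ≠ 0) : 32 ≤ sqNorm x := by
  have h16 := sixteen_dvd_sqNorm h
  have hpos := sqNorm_pos h0
  obtain ⟨m, a, hx, hs, hw⟩ := mem_leech.1 h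
  rcases Int.even_or_odd' m with ⟨k, hk | hk⟩
  · have hw' : oddWord (fun i => k + a i) ∈ golayCode := by
      have : oddWord (fun i => k + a i) = (k : ZMod 2) • 1 + oddWord a := by funext i; simp [oddWord]
      rw [this]; exact golayCode.add_mem (golayCode.smul_mem _ one_mem_golayCode) hw
    have hx' : ∀ i, x i = 0 + 2 * (k + a i) := fun i => by rw [hx i, hk]; ring
    have e : sqNorm x = 4 * ∑ i, (k + a i) ^ 2 := by
      rw [sqNorm_expand 0 (fun i => k + a i) x hx']; ring
    by_cases hz : oddWord (fun i => k + a i) = 0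
    · have hb : ∀ i, ∃ b, k + a i = 2 * b := fun i => by
        have h2 := congrFun hz i
        simp only [oddWord, Pi.zero_apply] at h2
        exact (ZMod.intCast_zmod_eq_zero_iff_dvd _ 2).1 h2
      choose b hb using hb
      have hsum : ∑ i, x i = 4 * ∑ i, b i := by
        rw [Finset.mul_sum]; exact Finset.sum_congr rfl fun i _ => by rw [hx' i, hb i]; ring
      have hn : sqNorm x = 16 * ∑ i, b i ^ 2 := by
        rw [sqNorm, Finset.mul_sum]; exact Finset.sum_congr rfl fun i _ => by rw [hx' i, hb i]; ring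
      have hpar : (2 : ℤ) ∣ (∑ i, b i ^ 2) - ∑ i, b i := by
        rw [← Finset.sum_sub_distrib]
        refine Finset.dvd_sum fun i _ => ?_
        rw [show b i ^ 2 - b i = b i * (b i - 1) by ring]
        exact (Int.even_mul_pred_self (b i)).two_dvd
      omega
    · have h8 : (8 : ℤ) ≤ ((support₂ (oddWord fun i => k + a i)).card : ℤ) := by
        exact_mod_cast eight_le_card_support hw' hz
      have hle : ((support₂ (oddWord fun i => k + a i)).card : ℤ) ≤ ∑ i, (k + a i) ^ 2 := by
        rw [support₂, Finset.card_filter]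
        push_cast
        refine Finset.sum_le_sum fun i _ => ?_
        split
        · rename_i hi
          have : k + a i ≠ 0 := fun hh => hi (by simp [oddWord, hh])
          have : 0 < (k + a i) ^ 2 := by positivity
          omega
        · exact sq_nonneg _
      rw [e]; omega
  · have h24 : (24 : ℤ) ≤ sqNorm x := by
      calc (24 : ℤ) = ∑ _i : GolayPt, (1 : ℤ) := by simp [card_GolayPt]
        _ ≤ sqNorm x := Finset.sum_le_sum fun i _ => by
          have : x i ≠ 0 := by rw [hx i, hk]; omega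
          have : 0 < x i ^ 2 := by positivity
          omega
    omega

theorem sqNorm_add (x y : GolayPt → ℤ) : sqNorm (x + y) = sqNorm x + sqNorm y + 2 * dotInt x y := by
  simp only [sqNorm, dotInt, Pi.add_apply, Finset.mul_sum, ← Finset.sum_add_distrib]
  exact Finset.sum_congr rfl fun i _ => by ring

theorem sqNorm_sub (x y : GolayPt → ℤ) : sqNorm (x - y) = sqNorm x + sqNorm y - 2 * dotInt x y := by
  simp only [sqNorm, dotInt, Pi.sub_apply, Finset.mul_sum, ← Finset.sum_add_distrib, ← Finset.sum_sub_distrib]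
  exact Finset.sum_congr rfl fun i _ => by ring

theorem sqNorm_two_nsmul (z : GolayPt → ℤ) : sqNorm (2 • z) = 4 * sqNorm z := by
  simp only [sqNorm, Finset.mul_sum, two_nsmul, Pi.add_apply]
  exact Finset.sum_congr rfl fun i _ => by ring

theorem eight_dvd_dotInt {x y : GolayPt → ℤ} (hx : x ∈ leechLattice) (hy : y ∈ leechLattice) :
    (8 : ℤ) ∣ dotInt x y := by
  have h1 := sixteen_dvd_sqNorm (leechLattice.add_mem hx hy)
  have h2 := sixteen_dvd_sqNorm hx
  have h3 := sixteen_dvd_sqNorm hy
  rw [sqNorm_add] at h1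
  omega

/-- Short vectors congruent modulo twice the lattice. -/
theorem short_congruent {v w z : GolayPt → ℤ} (hw : w ∈ leechLattice) (hz : z ∈ leechLattice)
    (hv64 : sqNorm v ≤ 64) (hw64 : sqNorm w ≤ 64) (e : v - w = 2 • z) (hne : v ≠ w) :
    w = -v ∨ (sqNorm v = 64 ∧ sqNorm w = 64 ∧ dotInt v w = 0) := by
  by_cases hneg : w = -v
  · exact Or.inl hneg
  right
  have hz0 : z ≠ 0 := fun h => hne (sub_eq_zero.1 (by rw [e, h, smul_zero]))
  have e2 : v + w = 2 • (z + w) := by rw [smul_add, ← e, two_nsmul]; abel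
  have hzw0 : z + w ≠ 0 := fun h => hneg (by
    rw [h, smul_zero] at e2; exact (neg_eq_of_add_eq_zero_right e2).symm)
  have h1 := leech_min hz hz0
  have h2 := leech_min (leechLattice.add_mem hz hw) hzw0
  have e1 := congrArg sqNorm e
  have e2' := congrArg sqNorm e2
  rw [sqNorm_sub, sqNorm_two_nsmul] at e1
  rw [sqNorm_add, sqNorm_two_nsmul] at e2'
  omega

theorem perm_mem_leech {σ : P24} (hσ : σ ∈ M24) {x : GolayPt → ℤ} (hx : x ∈ leechLattice) :
    (fun i => x (σ i)) ∈ leechLattice := by
  obtain ⟨m, a, h, hs, hw⟩ := mem_leech.1 hx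
  refine mem_leech.2 ⟨m, fun i => a (σ i), fun i => h _, ?_, ?_⟩
  · rwa [Equiv.sum_comp σ x]
  · rw [← mem_codeSets_support] at hw ⊢
    have e : support₂ (oddWord fun i => a (σ i)) = σ⁻¹ • support₂ (oddWord a) := by
      ext p
      rw [← inv_smul_smul σ p, Finset.smul_mem_smul_finset_iff, inv_smul_smul]
      simp only [mem_support₂, oddWord, Equiv.Perm.smul_def]
    rw [e]
    exact mem_M24_iff_forall.1 (M24.inv_mem hσ) _ hw

theorem dot_code_even {a : GolayPt → ℤ} (hw : oddWord a ∈ golayCode) {c : GolayPt → ZMod 2} (hc : c ∈ golayCode) :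
    (2 : ℤ) ∣ ∑ i ∈ support₂ c, a i := by
  rw [show (2 : ℤ) = ((2 : ℕ) : ℤ) by rfl, ← ZMod.intCast_zmod_eq_zero_iff_dvd, Int.cast_sum]
  have h1 := four_dvd_card_support (golayCode.add_mem hw hc)
  have h2 := four_dvd_card_support hw
  have h3 := four_dvd_card_support hc
  have e : ((support₂ (oddWord a + c)).card) + 2 * ((support₂ (oddWord a) ∩ support₂ c).card)
      = (support₂ (oddWord a)).card + (support₂ c).card := by
    have hs : support₂ (oddWord a + c) = symmDiff (support₂ (oddWord a)) (support₂ c) := by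
      ext p
      simp only [support₂, Finset.mem_symmDiff, Finset.mem_filter, Finset.mem_univ, true_and, Pi.add_apply]
      generalize oddWord a p = u; generalize c p = v
      revert u v; decide
    rw [hs, symmDiff_def, Finset.sup_eq_union, Finset.card_union_of_disjoint disjoint_sdiff_sdiff]
    have := Finset.card_sdiff_add_card_inter (support₂ (oddWord a)) (support₂ c)
    have := Finset.card_sdiff_add_card_inter (support₂ c) (support₂ (oddWord a))
    rw [Finset.inter_comm (support₂ c) (support₂ (oddWord a))] at this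
    omega
  have key : ∀ i, (a i : ZMod 2) = if i ∈ support₂ (oddWord a) then 1 else 0 := fun i => by
    simp only [mem_support₂, oddWord]
    rcases (show ∀ u : ZMod 2, u = 0 ∨ u = 1 by decide) (a i : ZMod 2) with h | h <;> simp [h]
  rw [Finset.sum_congr rfl fun i _ => key i, Finset.sum_boole, Finset.filter_mem_eq_inter,
    Finset.inter_comm, ZMod.natCast_eq_zero_iff_even, Nat.even_iff]
  omega

theorem sign_mem_leech {c : Finset GolayPt} (hc : c ∈ codeSets) {x : GolayPt → ℤ} (hx : x ∈ leechLattice) :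
    (fun i => if i ∈ c then -x i else x i) ∈ leechLattice := by
  obtain ⟨w, hw', rfl⟩ := hc
  obtain ⟨m, a, h, hs, hw⟩ := mem_leech.1 hx
  refine mem_leech.2 ⟨m, fun i => if i ∈ support₂ w then -a i - m else a i, fun i => ?_, ?_, ?_⟩
  · beta_reduce; split <;> rw [h i]; ring
  · have e : (∑ i, if i ∈ support₂ w then -x i else x i) = (∑ i, x i) - 2 * ∑ i ∈ support₂ w, x i := by
      rw [Finset.mul_sum, ← Finset.sum_ite_mem_eq (support₂ w) (fun i => 2 * x i), ← Finset.sum_sub_distrib]
      exact Finset.sum_congr rfl fun i _ => by split <;> ring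
    have e2 : ∑ i ∈ support₂ w, x i = ((support₂ w).card : ℤ) * m + 2 * ∑ i ∈ support₂ w, a i := by
      rw [Finset.sum_congr rfl fun i _ => h i, Finset.sum_add_distrib, Finset.sum_const, nsmul_eq_mul,
        Finset.mul_sum]
    obtain ⟨u, hu⟩ := dot_code_even hw hw'
    obtain ⟨v, hv⟩ := four_dvd_card_support hw'
    obtain ⟨t, ht⟩ := hs
    refine ⟨t - v * m - u, ?_⟩
    rw [e, e2, hu, hv]
    push_cast
    linarith
  · have e : oddWord (fun i => if i ∈ support₂ w then -a i - m else a i) = oddWord a + (m : ZMod 2) • w := by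
      funext i
      simp only [oddWord, Pi.add_apply, Pi.smul_apply, smul_eq_mul, support₂, Finset.mem_filter, Finset.mem_univ,
        true_and]
      by_cases hi : w i ≠ 0
      · have h1 : w i = 1 := by revert hi; generalize w i = u; revert u; decide
        rw [if_pos hi, h1]; push_cast; rw [mul_one, ZMod.neg_eq_self_mod_two, sub_eq_add_neg, ZMod.neg_eq_self_mod_two]
      · rw [if_neg hi, not_not.1 hi]; simp
    rw [e]
    exact golayCode.add_mem hw (golayCode.smul_mem _ hw')

/-- The parities and halved differences of a lattice vector. -/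
def halfDiff : leechLattice →+ ZMod 2 × (GolayPt → ZMod 2) where
  toFun x := ((x.1 none : ZMod 2), fun i => (((x.1 i - x.1 none) / 2 : ℤ) : ZMod 2))
  map_zero' := by ext i <;> simp
  map_add' x y := by
    refine Prod.ext (by simp) (funext fun i => ?_)
    obtain ⟨m, a, h, -, -⟩ := mem_leech.1 x.2
    obtain ⟨n, b, h', -, -⟩ := mem_leech.1 y.2
    simp only [AddSubgroup.coe_add, Pi.add_apply, Prod.mk_add_mk, ← Int.cast_add]
    congr 1
    rw [h i, h none, h' i, h' none]
    omega

/-- The lattice vectors with even coordinates congruent to one another modulo 4. -/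
def singularHalf : AddSubgroup (GolayPt → ℤ) := halfDiff.ker.map leechLattice.subtype

theorem halfDiff_range : (halfDiff.range : Set (ZMod 2 × (GolayPt → ZMod 2))) =
    {p | p.2 ∈ golayCode ∧ p.2 none = 0} := by
  ext p
  constructor
  · rintro ⟨x, rfl⟩
    obtain ⟨m, a, h, -, hw⟩ := mem_leech.1 x.2
    refine ⟨?_, by simp [halfDiff]⟩
    have e : (halfDiff x).2 = oddWord a + (a none : ZMod 2) • 1 := by
      funext i
      simp only [halfDiff, AddMonoidHom.coe_mk, ZeroHom.coe_mk, oddWord, Pi.add_apply, Pi.smul_apply,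
        Pi.one_apply, smul_eq_mul, mul_one]
      rw [h i, h none, show (m + 2 * a i - (m + 2 * a none)) / 2 = a i - a none by omega]
      push_cast
      rw [sub_eq_add_neg, ZMod.neg_eq_self_mod_two]
    rw [e]
    exact golayCode.add_mem hw (golayCode.smul_mem _ one_mem_golayCode)
  · rintro ⟨hw, h0⟩
    obtain ⟨e, w⟩ := p
    have hlift : ∀ v ∈ golayCode, ∃ x ∈ leechLattice, ∀ i : GolayPt, (x : GolayPt → ℤ) i = 2 * ((v i).val : ℤ) := by
      intro v hv
      refine ⟨fun i => 2 * ((v i).val : ℤ), mem_leech.2 ⟨0, fun i => (v i).val, by simp, ?_, ?_⟩, fun i => rfl⟩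
      · have hsum : ∑ i, ((v i).val : ℤ) = ((support₂ v).card : ℤ) := by
          rw [support₂, Finset.card_filter]
          push_cast
          refine Finset.sum_congr rfl fun i _ => ?_
          generalize v i = u
          revert u; decide
        obtain ⟨c, hc⟩ := four_dvd_card_support hv
        rw [← Finset.mul_sum, hsum, hc]
        exact ⟨c, by push_cast; ring⟩
      · have : (oddWord fun i => ((v i).val : ℤ)) = v := by
          funext i; simp [oddWord, ZMod.natCast_zmod_val]
        rwa [this]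
    obtain ⟨x, hx, ex⟩ := hlift w hw
    have hodd : (fun i => if i = none then (-3 : ℤ) else 1) ∈ leechLattice := by
      refine mem_leech.2 ⟨1, fun i => if i = none then -2 else 0, fun i => by beta_reduce; split <;> rfl, by decide, ?_⟩
      have : (oddWord fun i : GolayPt => if i = none then (-2 : ℤ) else 0) = 0 := by
        funext i; simp only [oddWord]; split <;> rfl
      rw [this]; exact golayCode.zero_mem
    have hx0 : x none = 0 := by rw [ex, show w none = 0 from h0]; rfl
    replace h0 : w none = 0 := h0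
    rcases (show ∀ u : ZMod 2, u = 0 ∨ u = 1 by decide) e with rfl | rfl
    · refine ⟨⟨x, hx⟩, Prod.ext (by simp [halfDiff, hx0]) (funext fun i => ?_)⟩
      simp [halfDiff, hx0, ex, ZMod.natCast_zmod_val]
    · refine ⟨⟨_, leechLattice.add_mem hx hodd⟩, Prod.ext (by simp [halfDiff, hx0]; decide) (funext fun i => ?_)⟩
      simp only [halfDiff, AddMonoidHom.coe_mk, ZeroHom.coe_mk, Pi.add_apply, hx0, zero_add, if_pos rfl]
      cases i with
      | none => simp [hx0, h0]
      | some a =>
        simp only [reduceCtorEq, if_true, if_false, ex]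
        rw [show (2 * ((w (some a)).val : ℤ) + 1 - -3) / 2 = ((w (some a)).val : ℤ) + 2 by omega]
        push_cast
        rw [ZMod.natCast_zmod_val, show (2 : ZMod 2) = 0 from rfl, add_zero]

theorem wordOf_none_eq_zero {m : ℕ} : wordOf m none = 0 ↔ m.testBit 23 = false := by
  have e : wordOf m none = if m.testBit 23 = true then 1 else 0 := rfl
  rw [e]
  generalize m.testBit 23 = b
  cases b <;> simp

theorem card_halfDiff_range : Nat.card halfDiff.range = 2 ^ 12 := by
  classical
  have e : (halfDiff.range : Set (ZMod 2 × (GolayPt → ZMod 2))) =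
      ↑((Finset.univ : Finset (ZMod 2)) ×ˢ ((codeMasks.filter fun m => !m.testBit 23).toFinset.image wordOf)) := by
    rw [halfDiff_range]
    ext ⟨a, w⟩
    simp only [Set.mem_setOf_eq, Finset.coe_product, Finset.coe_univ, Set.mem_prod, Set.mem_univ, true_and,
      Finset.coe_image, Set.mem_image, Finset.mem_coe, List.mem_toFinset, List.mem_filter, mem_golayCode_iff,
      Bool.not_eq_true']
    constructor
    · rintro ⟨⟨m, hm, rfl⟩, h⟩
      exact ⟨m, ⟨hm, wordOf_none_eq_zero.1 h⟩, rfl⟩
    · rintro ⟨m, ⟨hm, hb⟩, rfl⟩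
      exact ⟨⟨m, hm, rfl⟩, wordOf_none_eq_zero.2 hb⟩
  change Nat.card ↥(halfDiff.range : Set (ZMod 2 × (GolayPt → ZMod 2))) = _
  rw [Nat.card_coe_set_eq, e, Set.ncard_coe_finset, Finset.card_product, Finset.card_univ, ZMod.card,
    Finset.card_image_of_injOn, List.toFinset_card_of_nodup (codeMasks_nodup.filter _)]
  · decide +kernel
  · intro a ha b hb hab
    simp only [List.coe_toFinset, Set.mem_setOf_eq, List.mem_filter] at ha hb
    refine setOfMask_inj (codeMasks_lt a ha.1) (codeMasks_lt b hb.1) ?_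
    rw [← support₂_wordOf, hab, support₂_wordOf]

theorem mem_halfDiff_ker {x : leechLattice} :
    x ∈ halfDiff.ker ↔ (2 : ℤ) ∣ x.1 none ∧ ∀ i, (4 : ℤ) ∣ x.1 i - x.1 none := by
  obtain ⟨m, a, h, -, -⟩ := mem_leech.1 x.2
  rw [AddMonoidHom.mem_ker, Prod.ext_iff]
  simp only [halfDiff, AddMonoidHom.coe_mk, ZeroHom.coe_mk, Prod.fst_zero, Prod.snd_zero, funext_iff,
    Pi.zero_apply]
  refine and_congr (ZMod.intCast_zmod_eq_zero_iff_dvd _ 2) (forall_congr' fun i => ?_)
  rw [ZMod.intCast_zmod_eq_zero_iff_dvd, h i, h none]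
  push_cast
  omega

theorem singularHalf_spec :
    singularHalf ≤ leechLattice ∧ (∀ x ∈ leechLattice, x + x ∈ singularHalf) ∧
      singularHalf.relIndex leechLattice = 2 ^ 12 ∧ ∀ x ∈ singularHalf, (32 : ℤ) ∣ sqNorm x := by
  refine ⟨AddSubgroup.map_subtype_le _, fun x hx => ?_, ?_, ?_⟩
  · refine ⟨⟨x + x, leechLattice.add_mem hx hx⟩, mem_halfDiff_ker.2 ?_, rfl⟩
    obtain ⟨m, a, h, -, -⟩ := mem_leech.1 hx
    refine ⟨⟨x none, by simp; ring⟩, fun i => ?_⟩
    simp only [Pi.add_apply, h i, h none]
    omega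
  · rw [singularHalf, AddSubgroup.relIndex, AddSubgroup.addSubgroupOf, AddSubgroup.comap_map_eq_self_of_injective
      leechLattice.subtype_injective, AddSubgroup.index_ker, card_halfDiff_range]
  · rintro _ ⟨x, hx, rfl⟩
    obtain ⟨h2, h4⟩ := mem_halfDiff_ker.1 hx
    obtain ⟨j, hj⟩ := h2
    choose b hb using h4
    obtain ⟨m, a, h, hs, -⟩ := mem_leech.1 x.2
    have hxi : ∀ i, x.1 i = 2 * j + 4 * b i := fun i => by have := hb i; omega
    have hn : sqNorm x.1 = 96 * j ^ 2 + 16 * j * (∑ i, b i) + 16 * ∑ i, b i ^ 2 := by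
      simp only [sqNorm, hxi, add_sq, Finset.sum_add_distrib, Finset.sum_const, Finset.card_univ, card_GolayPt,
        nsmul_eq_mul, Finset.mul_sum, mul_pow]
      push_cast
      congr 1
      congr 1
      · ring
      · exact Finset.sum_congr rfl fun i _ => by ring
    have hsum : ∑ i, x.1 i = 48 * j + 4 * ∑ i, b i := by
      simp only [hxi, Finset.sum_add_distrib, Finset.sum_const, Finset.card_univ, card_GolayPt, nsmul_eq_mul,
        Finset.mul_sum]
      push_cast; ring
    have hpar : (2 : ℤ) ∣ (∑ i, b i ^ 2) - ∑ i, b i := by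
      rw [← Finset.sum_sub_distrib]
      refine Finset.dvd_sum fun i _ => ?_
      rw [show b i ^ 2 - b i = b i * (b i - 1) by ring]
      exact (Int.even_mul_pred_self (b i)).two_dvd
    obtain ⟨t, ht⟩ := hs
    obtain ⟨u, hu⟩ := hpar
    have hm : (2 : ℤ) ∣ m := by have := h none; omega
    obtain ⟨k, rfl⟩ := hm
    have hB : (2 : ℤ) ∣ ∑ i, b i := by omega
    obtain ⟨v, hv⟩ := hB
    change (32 : ℤ) ∣ sqNorm x.1
    refine ⟨3 * j ^ 2 + j * v + u + v, ?_⟩
    rw [hn, show ∑ i, b i ^ 2 = 2 * u + 2 * v by omega, hv]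
    ring

end CfsgLib.Spor
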