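import Cfsg.Agent.Lib.SporLeechClassCert

/-!
Three orbits of lattice automorphisms on the non-zero classes modulo 2: representatives of the
square lengths 32, 48 and 64.
-/

set_option autoImplicit false
set_option maxRecDepth 20000

namespace CfsgLib.Spor
open Cfsg
open scoped Pointwise

/-- Numbered coordinates of the image of a numbered vector under a coded automorphism. -/
def autN (d : ℕ × List ℕ × ℕ) (f : ℕ → ℤ) (i : ℕ) : ℤ :=
  if d.1 = 0 then f (d.2.1.getD i 0) else if d.1 = 1 then (if d.2.2.testBit i then -f i else f i)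
  else xiApplyN f i / 2

/-- The check of a coded automorphism with its matrix. -/
noncomputable def autOK (d : ℕ × List ℕ × ℕ) (M : List ℕ) : Bool :=
  (if d.1 = 0 then validL d.2.1 && listInCodeGroup d.2.1
    else if d.1 = 1 then inCode d.2.2
    else decide (d.1 = 2) && (List.range 24).all fun k => (List.range 24).all fun i =>
      decide (xiApplyN (hypN k) i % 2 = 0)) &&
  decide (M = (List.range 24).map fun k => kapN (autN d (hypN k)))

theorem autData_ok : (List.range 9).all (fun j => autOK (autData.getD j (3, [], 0)) (autMats.getD j [])) = true := by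
  decide +kernel

theorem exists_aut {d : ℕ × List ℕ × ℕ} {M : List ℕ} (h : autOK d M = true) :
    ∃ g : Co0, ∀ x, kap (g • x) = applyM M (kap x) := by
  obtain ⟨kind, L, c⟩ := d
  simp only [autOK, Bool.and_eq_true, decide_eq_true_eq] at h
  obtain ⟨hk, rfl⟩ := h
  suffices hg : ∃ g : Co0, ∀ k < 24, ((g • hypV k : leechLattice) : GolayPt → ℤ) = ofN (autN (kind, L, c) (hypN k)) by
    obtain ⟨g, hg⟩ := hg
    refine ⟨g, fun x => ?_⟩
    rw [kap_smul, hypList, List.map_map]
    congr 1
    exact List.map_congr_left fun k hk => kap_eq_kapN (hg k (List.mem_range.1 hk))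
  rcases Nat.lt_or_ge kind 1 with h0 | h0
  · obtain rfl : kind = 0 := by omega
    simp only [if_true, Bool.and_eq_true] at hk
    refine ⟨permAut (permOf L) ((rep_permOf hk.1).mem_M24 hk.2), fun k hk' => ?_⟩
    rw [permAut_smul, hypV_val hk']
    funext p
    simp [ofN, autN, rep_permOf hk.1 p]
  rcases Nat.lt_or_ge kind 2 with h1 | h1
  · obtain rfl : kind = 1 := by omega
    simp only [Nat.one_ne_zero, if_false, if_true] at hk
    refine ⟨signAut (setOfMask c) (setOfMask_mem_codeSets (inCode_iff.1 hk)), fun k hk' => ?_⟩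
    rw [signAut_smul, hypV_val hk']
    funext p
    simp [ofN, autN]
  · simp only [show ¬ kind = 0 by omega, show ¬ kind = 1 by omega, if_false, Bool.and_eq_true, decide_eq_true_eq,
      List.all_eq_true, List.mem_range] at hk
    obtain ⟨rfl, he⟩ := hk
    refine ⟨xiAut, fun k hk' => ?_⟩
    show (xiFun (hypV k) : GolayPt → ℤ) = _
    apply xiFun_eq
    rw [hypV_val hk', xiM_ofN]
    funext p
    have := he k hk' (ix p) (ix_lt p)
    simp only [ofN, autN, Pi.add_apply]
    omega

theorem exists_wordAut : ∀ (n w : ℕ), wordOK n w = true →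
    ∃ g : Co0, ∀ x, kap (g • x) = applyClassWord n w (kap x)
  | 0, w, _ => ⟨1, fun x => by rw [one_smul, applyClassWord_zero]⟩
  | n + 1, w, h => by
    change (forceNat w fun u =>
      Nat.beq u 0 || (!Nat.beq (Nat.mod u 16) 0 && Nat.blt (Nat.mod u 16) 10 && wordOK n (Nat.div u 16))) = true at h
    rw [forceNat_eq] at h
    by_cases hw : w = 0
    · exact ⟨1, fun x => by rw [one_smul, applyClassWord_succ, if_pos hw]⟩
    · have hb : Nat.beq w 0 = false := by
        cases hb : Nat.beq w 0 with
        | false => rfl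
        | true => exact absurd (Nat.eq_of_beq_eq_true hb) hw
      simp only [hb, Bool.false_or, Bool.and_eq_true, Bool.not_eq_true', Nat.blt_eq] at h
      obtain ⟨⟨hd, hlt⟩, hrec⟩ := h
      have hd' : w % 16 ≠ 0 := fun e => by
        have : Nat.beq (Nat.mod w 16) 0 = true := by rw [show Nat.mod w 16 = 0 from e]; rfl
        rw [this] at hd; exact absurd hd (by decide)
      have hlt' : w % 16 - 1 < 9 := by
        have : w % 16 < 10 := hlt
        omega
      obtain ⟨a, ha⟩ := exists_aut (List.all_eq_true.1 autData_ok _ (List.mem_range.2 hlt'))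
      obtain ⟨g, hg⟩ := exists_wordAut n (w / 16) hrec
      exact ⟨g * a, fun x => by rw [mul_smul, hg, ha, applyClassWord_succ, if_neg hw]; rfl⟩

theorem exists_rep_of_fibre {b : ℕ} (hb : b ∈ fibreBases) {x : leechLattice}
    (hx : ∃ e ∈ spanList (fourBasis.map Prod.snd), kap x = b ^^^ e) :
    ∃ g : Co0, kap (g • x) ∈ classReps := by
  obtain ⟨e, he, hk⟩ := hx
  have main : ∀ ws, fibreOK b ws = true → ∃ g : Co0, kap (g • x) ∈ classReps := by
    intro ws h
    simp only [fibreOK, Bool.and_eq_true, decide_eq_true_eq, List.all_eq_true, List.any_eq_true] at h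
    obtain ⟨hlen, hall⟩ := h
    obtain ⟨i, hi, rfl⟩ := List.mem_iff_getElem.1 he
    have hl : (spanList (fourBasis.map Prod.snd)).length = 4096 := by decide +kernel
    have hmem : ((spanList (fourBasis.map Prod.snd))[i], ws[i]'(by omega)) ∈
        (spanList (fourBasis.map Prod.snd)).zip ws := by
      refine List.mem_iff_getElem.2 ⟨i, by rw [List.length_zip]; omega, ?_⟩
      simp
    obtain ⟨hok, r, hr, he'⟩ := hall _ hmem
    obtain ⟨g, hg⟩ := exists_wordAut 13 _ hok
    refine ⟨g, ?_⟩
    rw [hg, hk]
    exact (Nat.eq_of_beq_eq_true he').symm ▸ hr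
  simp only [fibreBases, List.mem_cons, List.not_mem_nil, or_false] at hb
  rcases hb with rfl | rfl | rfl | rfl
  exacts [main _ fibre0_ok, main _ fibre1_ok, main _ fibre2_ok, main _ fibre3_ok]

/-- The test for the classes of the vectors divisible by four. -/
noncomputable def inFour (m : ℕ) : Bool := Nat.beq (reduceBy fourBasis m) 0

theorem inFour_mem {m : ℕ} (h : inFour m = true) : m ∈ spanList (fourBasis.map Prod.snd) := by
  have h0 : reduceBy fourBasis m = 0 := Nat.eq_of_beq_eq_true h
  simpa [h0] using xor_reduceBy_mem fourBasis m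

theorem fourGen_ok : ((List.range 23).map (fun j i => if i = j then (4 : ℤ) else if i = 23 then -4 else 0) ++
    [fun i => if i = 23 then 8 else 0]).all (fun f => isLeechN f && inFour (kapN f)) = true := by decide +kernel

theorem kap_four {b : GolayPt → ℤ} (hb : (2 : ℤ) ∣ ∑ i, b i) {x : leechLattice}
    (hx : (x : GolayPt → ℤ) = fun i => 4 * b i) : kap x ∈ spanList (fourBasis.map Prod.snd) := by
  let S : AddSubgroup leechLattice :=
    { carrier := {y | kap y ∈ spanList (fourBasis.map Prod.snd)}
      zero_mem' := by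
        show kap 0 ∈ spanList (fourBasis.map Prod.snd)
        rw [kap_zero]; exact zero_mem_spanList _
      add_mem' := fun {a c} (ha : kap a ∈ spanList (fourBasis.map Prod.snd))
          (hc : kap c ∈ spanList (fourBasis.map Prod.snd)) => by
        show kap (a + c) ∈ spanList (fourBasis.map Prod.snd)
        rw [kap_add]; exact xor_mem_spanList ha hc
      neg_mem' := fun {a} (ha : kap a ∈ spanList (fourBasis.map Prod.snd)) => by
        show kap (-a) ∈ spanList (fourBasis.map Prod.snd)
        rw [kap_neg]; exact ha }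
  have h := four_vec_mem' (S := S.map leechLattice.subtype) (fun f hf => ?_) b hb
  · obtain ⟨y, hy, e⟩ := h
    have : y = x := Subtype.ext (e.trans hx.symm)
    exact this ▸ hy
  · have := List.all_eq_true.1 fourGen_ok f hf
    simp only [Bool.and_eq_true] at this
    refine ⟨⟨ofN f, ofN_mem_leech this.1⟩, ?_, rfl⟩
    show kap ⟨ofN f, ofN_mem_leech this.1⟩ ∈ spanList (fourBasis.map Prod.snd)
    rw [kap_eq_kapN (f := f) rfl]
    exact inFour_mem this.2

theorem kap_ofN_four {f : ℕ → ℤ} {x : leechLattice} {b : GolayPt → ℤ}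
    (hx : (x : GolayPt → ℤ) = fun i => ofN f i + 4 * b i) (hf : isLeechN f = true) :
    ∃ e ∈ spanList (fourBasis.map Prod.snd), kap x = kapN f ^^^ e := by
  let y : leechLattice := ⟨ofN f, ofN_mem_leech hf⟩
  have hval : ((x - y : leechLattice) : GolayPt → ℤ) = fun i => 4 * b i := by
    funext i; simp [y, hx]
  have hb : (2 : ℤ) ∣ ∑ i, b i := by
    obtain ⟨m, a, h, hs, -⟩ := mem_leech.1 (hval ▸ (x - y).2)
    have hm : (2 : ℤ) ∣ m := by have := h none; beta_reduce at this; omega
    obtain ⟨k, rfl⟩ := hm
    rw [← Finset.mul_sum] at hs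
    omega
  refine ⟨kap (x - y), kap_four hb hval, ?_⟩
  rw [← kap_eq_kapN (f := f) (x := y) rfl, ← kap_add, add_sub_cancel]

/-- The odd vector `(-3, 1, ..., 1)`. -/
def oddN (i : ℕ) : ℤ := if i = 23 then -3 else 1

/-- Numbered coordinates of twice a word. -/
def twoN (m : ℕ) (i : ℕ) : ℤ := if m.testBit i then 2 else 0

theorem oddN_ok : (isLeechN oddN && decide (kapN oddN = fibreBases.getD 3 0)) = true := by decide +kernel

theorem even_reps_ok : [0, 16777215, 5279, 16777215 - 5279, 28637].all (fun m =>
    isLeechN (twoN m) && (List.range 3).any fun k => inFour (Nat.xor (kapN (twoN m)) (fibreBases.getD k 0))) = true := by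
  decide +kernel

theorem rep_masks : inCode 5279 = true ∧ wt 5279 = 8 ∧ inCode 28637 = true ∧ wt 28637 = 12 ∧
    setOfMask (16777215 - 5279) = (setOfMask 5279)ᶜ := by
  refine ⟨by decide +kernel, by decide +kernel, by decide +kernel, by decide +kernel, ?_⟩
  rw [← setOfMask_compl]; rfl

theorem exists_M24_word {s : Finset GolayPt} (hs : s ∈ codeSets) :
    ∃ g ∈ M24, ∃ m ∈ [0, 16777215, 5279, 16777215 - 5279, 28637], g • s = setOfMask m := by
  have hm := mem_codeSets_iff.1 hs
  have hw := codeMasks_weights _ hm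
  have hc : s.card = wt (maskOf s) := by rw [← card_setOfMask, setOfMask_maskOf]
  obtain ⟨h1, h2, h3, h4, h5⟩ := rep_masks
  have hO : setOfMask 5279 ∈ octads := ⟨setOfMask_mem_codeSets (inCode_iff.1 h1), by rw [card_setOfMask, h2]⟩
  have huniv : setOfMask 16777215 = (Finset.univ : Finset GolayPt) := by
    have h := setOfMask_compl 0
    rw [Nat.xor_zero] at h
    rw [h]
    ext p; simp
  have hcard : (Finset.univ : Finset GolayPt).card = 24 := card_GolayPt
  simp only [List.mem_cons, List.not_mem_nil, or_false] at hw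
  rcases hw with h | h | h | h | h
  · refine ⟨1, M24.one_mem, 0, by simp, ?_⟩
    rw [one_smul, Finset.card_eq_zero.1 (hc.trans h)]
    ext p; simp
  · obtain ⟨g, hg, e⟩ := exists_M24_octad (show s ∈ octads from ⟨hs, hc.trans h⟩) hO
    exact ⟨g, hg, 5279, by simp, e⟩
  · obtain ⟨g, hg, e⟩ := exists_M24_dodecad (show s ∈ dodecads from ⟨hs, hc.trans h⟩)
      (show setOfMask 28637 ∈ dodecads from ⟨setOfMask_mem_codeSets (inCode_iff.1 h3), by rw [card_setOfMask, h4]⟩)
    exact ⟨g, hg, 28637, by simp, e⟩
  · have hsc : sᶜ ∈ octads := by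
      refine ⟨?_, by rw [Finset.card_compl, card_GolayPt, hc, h]⟩
      have := codeSets_symmDiff hs univ_mem_supports_golayCode'
      convert this using 1
      ext p; simp [Finset.mem_symmDiff]
    obtain ⟨g, hg, e⟩ := exists_M24_octad hsc hO
    refine ⟨g, hg, 16777215 - 5279, by simp, ?_⟩
    rw [h5, ← e]
    ext p
    rw [Finset.mem_compl, ← Finset.inv_smul_mem_iff, ← Finset.inv_smul_mem_iff, Finset.mem_compl, not_not]
  · refine ⟨1, M24.one_mem, 16777215, by simp, ?_⟩
    rw [one_smul, huniv]
    exact Finset.eq_univ_of_card s (by rw [card_GolayPt]; exact hc.trans h)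
where
  univ_mem_supports_golayCode' : (Finset.univ : Finset GolayPt) ∈ codeSets :=
    ⟨1, one_mem_golayCode, by ext p; simp [support₂]⟩

/-- Every class is carried to a representative by an automorphism. -/
theorem exists_rep (x : leechLattice) : ∃ g : Co0, kap (g • x) ∈ classReps := by
  obtain ⟨m, a, hx, hs, hw⟩ := mem_leech.1 x.2
  have hval : ∀ (v : ZMod 2) (z : ℤ), (z : ZMod 2) = v → ∃ b, z = (v.val : ℤ) + 2 * b := fun v z h => by
    have : ((z - (v.val : ℤ) : ℤ) : ZMod 2) = 0 := by
      push_cast; rw [h, ZMod.natCast_zmod_val, sub_self]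
    obtain ⟨b, hb⟩ := (ZMod.intCast_zmod_eq_zero_iff_dvd _ 2).1 this
    exact ⟨b, by push_cast at hb; omega⟩
  rcases Int.even_or_odd' m with ⟨j, hj | hj⟩
  · let w : GolayPt → ZMod 2 := oddWord fun i => j + a i
    have hw' : w ∈ golayCode := by
      have : w = (j : ZMod 2) • 1 + oddWord a := by funext i; simp [w, oddWord]
      rw [this]; exact golayCode.add_mem (golayCode.smul_mem _ one_mem_golayCode) hw
    choose b hb using fun i => hval (w i) (j + a i) rfl
    obtain ⟨g, hg, k, hk, e⟩ := exists_M24_word (mem_codeSets_support.2 hw')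
    have hok := List.all_eq_true.1 even_reps_ok k hk
    simp only [Bool.and_eq_true, List.any_eq_true] at hok
    obtain ⟨hL, n, hn, hfour⟩ := hok
    set y : leechLattice := permAut g⁻¹ (M24.inv_mem hg) • x with hy
    have hyv : (y : GolayPt → ℤ) = fun p => ofN (twoN k) p + 4 * b (g⁻¹ p) := by
      funext p
      rw [hy, permAut_smul]
      have hmem : p ∈ setOfMask k ↔ g⁻¹ p ∈ support₂ w := by
        rw [← e, ← Finset.inv_smul_mem_iff]; rfl
      rw [mem_setOfMask, mem_support₂] at hmem
      simp only [ofN, twoN, hx (g⁻¹ p), hj, hmem]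
      have hb' := hb (g⁻¹ p)
      by_cases h : w (g⁻¹ p) = 0
      · rw [h] at hb'
        rw [if_neg (fun hh => hh h)]
        simp only [ZMod.val_zero, Nat.cast_zero, zero_add] at hb'; omega
      · have h1 : w (g⁻¹ p) = 1 :=
          ((show ∀ u : ZMod 2, u = 0 ∨ u = 1 by decide) _).resolve_left h
        rw [h1] at hb'
        rw [if_pos h]
        simp only [ZMod.val_one, Nat.cast_one] at hb'; omega
    obtain ⟨d, hd, hkd⟩ := kap_ofN_four hyv hL
    have hbase : fibreBases.getD n 0 ∈ fibreBases := by
      simp only [List.mem_range] at hn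
      interval_cases n <;> decide
    obtain ⟨g', hg'⟩ := exists_rep_of_fibre hbase (x := y) ⟨(kapN (twoN k) ^^^ fibreBases.getD n 0) ^^^ d,
      xor_mem_spanList (inFour_mem hfour) hd, by
        rw [hkd, ← Nat.xor_assoc, ← Nat.xor_assoc, Nat.xor_comm (fibreBases.getD n 0) (kapN (twoN k)),
          Nat.xor_assoc (kapN (twoN k)) (fibreBases.getD n 0), Nat.xor_self, Nat.xor_zero]⟩
    exact ⟨g' * permAut g⁻¹ (M24.inv_mem hg), by rw [mul_smul]; exact hg'⟩
  · let w : GolayPt → ZMod 2 := oddWord fun i => j + a i
    have hw' : w ∈ golayCode := by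
      have : w = (j : ZMod 2) • 1 + oddWord a := by funext i; simp [w, oddWord]
      rw [this]; exact golayCode.add_mem (golayCode.smul_mem _ one_mem_golayCode) hw
    choose b hb using fun i => hval (w i) (j + a i) rfl
    set y : leechLattice := signAut (support₂ w) (mem_codeSets_support.2 hw') • x with hy
    let b' : GolayPt → ℤ := fun p => (if w p = 0 then b p else -1 - b p) + (if p = none then 1 else 0)
    have hyv : (y : GolayPt → ℤ) = fun p => ofN oddN p + 4 * b' p := by
      funext p
      rw [hy, signAut_smul]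
      have h23 : (ix p = 23) ↔ p = none := ⟨fun e => ix_inj (e.trans rfl), fun e => e ▸ rfl⟩
      have hb' := hb p
      simp only [mem_support₂, ofN, oddN, hx p, hj, b', h23]
      by_cases h : w p = 0
      · rw [h] at hb'
        rw [if_neg (fun hh => hh h), if_pos h]
        simp at hb'
        split <;> omega
      · have h1 : w p = 1 := ((show ∀ u : ZMod 2, u = 0 ∨ u = 1 by decide) _).resolve_left h
        rw [h1] at hb'
        rw [if_pos h, if_neg h]
        simp [ZMod.val_one] at hb'
        split <;> omega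
    have hok := oddN_ok
    simp only [Bool.and_eq_true, decide_eq_true_eq] at hok
    obtain ⟨d, hd, hkd⟩ := kap_ofN_four hyv hok.1
    rw [hok.2] at hkd
    obtain ⟨g', hg'⟩ := exists_rep_of_fibre (b := fibreBases.getD 3 0) (by decide) (x := y) ⟨d, hd, hkd⟩
    exact ⟨g' * signAut (support₂ w) (mem_codeSets_support.2 hw'), by rw [mul_smul]; exact hg'⟩

end CfsgLib.Spor
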