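import Cfsg.Agent.Lib.SporLeechKappa

/-!
Kernel check of the words sending each fibre class modulo 2 to a representative.
-/

set_option autoImplicit false
set_option maxRecDepth 20000

namespace CfsgLib.Spor

/-- One step of a word: digit `j + 1` is the automorphism `j`. -/
noncomputable def applyDigit (d : ℕ) (m : ℕ) : ℕ := applyM (autMats.getD (d - 1) []) m

/-- Application of a word of automorphisms, first digit first. -/
noncomputable def applyClassWord : ℕ → ℕ → ℕ → ℕ :=
  fun n => @Nat.rec (fun _ => ℕ → ℕ → ℕ) (fun _ m => m)
    (fun _ ih w m => forceNat m fun v => forceNat w fun u =>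
      @Bool.rec (fun _ => ℕ) (ih (Nat.div u 16) (applyDigit (Nat.mod u 16) v)) v (Nat.beq u 0)) n

theorem applyClassWord_zero (w m : ℕ) : applyClassWord 0 w m = m := rfl

theorem applyClassWord_succ (n w m : ℕ) : applyClassWord (n + 1) w m =
    if w = 0 then m else applyClassWord n (w / 16) (applyDigit (w % 16) m) := by
  show forceNat m (fun v => forceNat w fun u =>
    @Bool.rec (fun _ => ℕ) (applyClassWord n (Nat.div u 16) (applyDigit (Nat.mod u 16) v)) v (Nat.beq u 0)) = _
  rw [forceNat_eq, forceNat_eq]
  by_cases h : w = 0
  · subst h; rfl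
  · rw [if_neg h]
    have hb : Nat.beq w 0 = false := by
      cases hb : Nat.beq w 0 with
      | false => rfl
      | true => exact absurd (Nat.eq_of_beq_eq_true hb) h
    rw [hb]; rfl

/-- Are all digits of a word names of automorphisms? -/
noncomputable def wordOK : ℕ → ℕ → Bool :=
  fun n => @Nat.rec (fun _ => ℕ → Bool) (fun w => Nat.beq w 0)
    (fun _ ih w => forceNat w fun u =>
      Nat.beq u 0 || (!Nat.beq (Nat.mod u 16) 0 && Nat.blt (Nat.mod u 16) 10 && ih (Nat.div u 16))) n

/-- The representatives: the zero class and the three square lengths 32, 64, 48. -/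
def classReps : List ℕ := [0, 2, 4277266, 5526791]

/-- The bases of the four fibres. -/
def fibreBases : List ℕ := [0, 530, 4279305, 1380629]

/-- The check of the words of one fibre. -/
noncomputable def fibreOK (base : ℕ) (ws : List ℕ) : Bool :=
  decide (ws.length = 4096) &&
    ((spanList (fourBasis.map Prod.snd)).zip ws).all fun ew =>
      wordOK 13 ew.2 && classReps.any fun r => Nat.beq (applyClassWord 13 ew.2 (Nat.xor base ew.1)) r

theorem fibre0_ok : fibreOK (fibreBases.getD 0 0) fibreWords0 = true := by decide +kernel
theorem fibre1_ok : fibreOK (fibreBases.getD 1 0) fibreWords1 = true := by decide +kernel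
theorem fibre2_ok : fibreOK (fibreBases.getD 2 0) fibreWords2 = true := by decide +kernel
theorem fibre3_ok : fibreOK (fibreBases.getD 3 0) fibreWords3 = true := by decide +kernel

end CfsgLib.Spor
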