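import Cfsg.Agent.Lib.SporLeechOrbit

/-!
The stabiliser of a class of square length 64 is monomial; the order and the centre of `Co0`.
-/

set_option autoImplicit false
set_option maxRecDepth 8000

namespace CfsgLib.Spor
open Cfsg
open scoped Pointwise

/-- Eight times the unit vector at a point. -/
noncomputable def eightV (p : GolayPt) : leechLattice := latN (eightN (ix p))

theorem eightV_val (p : GolayPt) : (eightV p : GolayPt → ℤ) = fun q => if q = p then 8 else 0 := by
  have h := List.all_eq_true.1 eightN_ok _ (List.mem_range.2 (ix_lt p))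
  simp only [Bool.and_eq_true] at h
  rw [eightV, latN_mem h.1]
  funext q
  simp [ofN, eightN, ix_inj.eq_iff]

theorem kap_eightV (p : GolayPt) : kap (eightV p) = kap repFour := by
  have h := List.all_eq_true.1 eightN_ok _ (List.mem_range.2 (ix_lt p))
  simp only [Bool.and_eq_true, decide_eq_true_eq] at h
  rw [kap_repFour, eightV, kap_eq_kapN (latN_mem h.1), h.2]

theorem eightV_none : eightV none = repFour := rfl

theorem sqNorm_eightV (p : GolayPt) : sqNorm (eightV p : GolayPt → ℤ) = 64 := by
  rw [eightV_val]; simp [sqNorm, Finset.sum_ite_eq']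

theorem short_class_four {y : leechLattice} (hy : sqNorm (y : GolayPt → ℤ) = 64) (h : kap y = kap repFour) :
    ∃ p, y = eightV p ∨ y = -eightV p := by
  by_contra hc
  push Not at hc
  have hzero : (y : GolayPt → ℤ) = 0 := by
    funext p
    rcases short_kap hy.le (sqNorm_eightV p).le (h.trans (kap_eightV p).symm) with e | e | ⟨-, -, e⟩
    · exact absurd e (hc p).1
    · exact absurd e (hc p).2
    · rw [eightV_val] at e
      simp [dotInt, Finset.sum_ite_eq'] at e
      simpa using e
  rw [hzero] at hy
  simp [sqNorm] at hy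

/-- The stabiliser of the class of the standard frame. -/
def frameStab : Subgroup Co0 where
  carrier := {g | kap (g • repFour) = kap repFour}
  one_mem' := by simp
  mul_mem' := fun {a b} (ha : kap (a • repFour) = kap repFour) (hb : kap (b • repFour) = kap repFour) => by
    show kap ((a * b) • repFour) = kap repFour
    rw [mul_smul]
    exact (kap_smul_congr a hb).trans ha
  inv_mem' := fun {a} (ha : kap (a • repFour) = kap repFour) => by
    show kap (a⁻¹ • repFour) = kap repFour
    conv_rhs => rw [← inv_smul_smul a repFour]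
    exact (kap_smul_congr a⁻¹ ha).symm

theorem mem_frameStab {g : Co0} : g ∈ frameStab ↔ kap (g • repFour) = kap repFour := Iff.rfl

theorem dot_smul (g : Co0) (x y : leechLattice) :
    dotInt ((g • x : leechLattice) : GolayPt → ℤ) ((g • y : leechLattice) : GolayPt → ℤ) =
      dotInt (x : GolayPt → ℤ) y := by
  have h := Co0_sqNorm g (x + y)
  rw [Co0_smul_add, AddSubgroup.coe_add, AddSubgroup.coe_add, sqNorm_add, sqNorm_add, Co0_sqNorm, Co0_sqNorm] at h
  linarith

theorem dot_eightV (y : leechLattice) (p : GolayPt) : dotInt (y : GolayPt → ℤ) (eightV p) = 8 * (y : GolayPt → ℤ) p := by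
  rw [eightV_val]; simp [dotInt, Finset.sum_ite_eq', mul_comm]

/-- The monomial automorphism of a member of the code and an element of `M24`. -/
noncomputable def monoAut (d : ↥codeSets × ↥M24) : Co0 := signAut d.1 d.1.2 * permAut d.2 d.2.2

theorem monoAut_smul (d : ↥codeSets × ↥M24) (x : leechLattice) (p : GolayPt) :
    ((monoAut d • x : leechLattice) : GolayPt → ℤ) p =
      if p ∈ (d.1 : Finset GolayPt) then -x.1 ((d.2 : P24) p) else x.1 ((d.2 : P24) p) := by
  rw [monoAut, mul_smul, signAut_smul, permAut_smul]

theorem monoAut_mem (d : ↥codeSets × ↥M24) : monoAut d ∈ frameStab := by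
  rw [mem_frameStab]
  have e : monoAut d • repFour = if (d.2 : P24)⁻¹ none ∈ (d.1 : Finset GolayPt) then -eightV ((d.2 : P24)⁻¹ none)
      else eightV ((d.2 : P24)⁻¹ none) := by
    apply Subtype.ext
    funext q
    rw [monoAut_smul, ← eightV_none, eightV_val]
    beta_reduce
    have hq : (d.2 : P24) q = none ↔ q = (d.2 : P24)⁻¹ none := by
      constructor
      · intro h; rw [← h]; simp
      · intro h; rw [h]; simp
    by_cases h : q = (d.2 : P24)⁻¹ none
    · subst h
      rw [if_pos (hq.2 rfl)]
      split_ifs <;> simp [eightV_val]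
    · rw [if_neg (fun h' => h (hq.1 h'))]
      split_ifs <;> simp [eightV_val, h] <;> exact h
  rw [e]
  split
  · rw [kap_neg, kap_eightV]
  · rw [kap_eightV]

theorem exists_monoAut {g : Co0} (hg : g ∈ frameStab) : ∃ d, monoAut d = g := by
  have him : ∀ j, ∃ p, g • eightV j = eightV p ∨ g • eightV j = -eightV p := fun j =>
    short_class_four (by rw [Co0_sqNorm, sqNorm_eightV]) ((kap_smul_congr g (kap_eightV j)).trans hg)
  choose π hπ using him
  have hπi : Function.Injective π := by
    intro i j h
    by_contra hne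
    have h0 := dot_smul g (eightV i) (eightV j)
    rw [dot_eightV (eightV i) j] at h0
    simp only [eightV_val, Ne.symm hne, if_false, mul_zero] at h0
    rcases hπ i with e | e <;> rcases hπ j with e' | e' <;> rw [e, e'] at h0 <;>
      simp [h, AddSubgroup.coe_neg, eightV_val, dotInt, Finset.sum_ite_eq'] at h0
  let π' : P24 := Equiv.ofBijective π (Finite.injective_iff_bijective.1 hπi)
  let σ : P24 := π'.symm
  let C : Finset GolayPt := Finset.univ.filter fun q => g • eightV (σ q) = -eightV q
  have hval : ∀ (x : leechLattice) q, ((g • x : leechLattice) : GolayPt → ℤ) q =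
      if q ∈ C then -x.1 (σ q) else x.1 (σ q) := by
    intro x q
    have hq : π (σ q) = q := π'.apply_symm_apply q
    have h := dot_smul g x (eightV (σ q))
    rw [dot_eightV x (σ q)] at h
    rcases hπ (σ q) with e | e <;> rw [hq] at e <;> rw [e] at h
    · rw [dot_eightV] at h
      rw [if_neg]
      · linarith
      · simp only [C, Finset.mem_filter, Finset.mem_univ, true_and, e]
        intro h'
        have := congrArg (fun y : leechLattice => (y : GolayPt → ℤ) q) h'
        simp [eightV_val] at this
    · rw [AddSubgroup.coe_neg, show dotInt ((g • x : leechLattice) : GolayPt → ℤ) (-(eightV q : GolayPt → ℤ))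
        = - dotInt ((g • x : leechLattice) : GolayPt → ℤ) (eightV q) by simp [dotInt], dot_eightV] at h
      rw [if_pos (by simp [C, e])]
      linarith
  have hσ : σ ∈ M24 := by
    rw [← inv_mem_iff (H := M24), mem_M24_iff_forall]
    intro s hs
    obtain ⟨w, hw, rfl⟩ := hs
    have hz : (fun i => 2 * ((w i).val : ℤ)) ∈ leechLattice := by
      refine mem_leech.2 ⟨0, fun i => (w i).val, fun i => by simp, ?_, ?_⟩
      · have hsum : ∑ i, ((w i).val : ℤ) = ((support₂ w).card : ℤ) := by
          rw [support₂, Finset.card_filter]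
          push_cast
          refine Finset.sum_congr rfl fun i _ => ?_
          generalize w i = u
          revert u; decide
        obtain ⟨c, hc⟩ := four_dvd_card_support hw
        rw [← Finset.mul_sum, hsum, hc]
        exact ⟨c, by push_cast; ring⟩
      · have : (oddWord fun i => ((w i).val : ℤ)) = w := by
          funext i; simp [oddWord, ZMod.natCast_zmod_val]
        rw [this]; exact hw
    obtain ⟨m, a, h, -, ha⟩ := mem_leech.1 (g • (⟨_, hz⟩ : leechLattice)).2
    have hm : (2 : ℤ) ∣ m := by
      have := h none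
      rw [hval] at this
      simp only at this
      split_ifs at this <;> omega
    obtain ⟨k, rfl⟩ := hm
    have e : σ⁻¹ • support₂ w = support₂ (oddWord a + (k : ZMod 2) • 1) := by
      ext q
      rw [← inv_smul_smul σ q, Finset.smul_mem_smul_finset_iff, inv_smul_smul, mem_support₂, mem_support₂,
        show (oddWord a + (k : ZMod 2) • (1 : GolayPt → ZMod 2)) q = ((a q + k : ℤ) : ZMod 2) by simp [oddWord],
        Equiv.Perm.smul_def, ne_eq, ne_eq, ZMod.intCast_zmod_eq_zero_iff_dvd]
      have hq := h q
      rw [hval] at hq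
      simp only at hq
      rcases (show ∀ u : ZMod 2, u = 0 ∨ u = 1 by decide) (w (σ q)) with hu | hu <;> rw [hu] at hq ⊢ <;>
        simp only [ZMod.val_zero, ZMod.val_one, Nat.cast_zero, Nat.cast_one, mul_zero, mul_one, neg_zero] at hq <;>
        split_ifs at hq <;> simp <;> omega
    rw [e]
    exact mem_codeSets_support.2 (golayCode.add_mem ha (golayCode.smul_mem _ one_mem_golayCode))
  have hC : C ∈ codeSets := by
    let o : leechLattice := latN oddN
    have ho : (o : GolayPt → ℤ) = ofN oddN := latN_mem (by
      have h := oddN_ok; simp only [Bool.and_eq_true] at h; exact h.1)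
    have hy := (g • (permAut σ hσ)⁻¹ • o).2
    obtain ⟨m, a, h, -, ha⟩ := mem_leech.1 hy
    have hv : ∀ q, ((g • (permAut σ hσ)⁻¹ • o : leechLattice) : GolayPt → ℤ) q =
        if q ∈ C then -oddN (ix q) else oddN (ix q) := by
      intro q
      rw [hval]
      have : ((permAut σ hσ)⁻¹ • o : leechLattice).1 (σ q) = oddN (ix q) := by
        have h2 := congrArg (fun y : leechLattice => y.1 q) (smul_inv_smul (permAut σ hσ) o)
        simp only [permAut_smul, ho, ofN] at h2
        exact h2
      rw [this]
    obtain ⟨k, hk⟩ : ∃ k, m = 2 * k + 1 := ⟨m / 2, by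
      have := h none
      rw [hv none] at this
      simp only [oddN, ix, if_true] at this
      split_ifs at this <;> omega⟩
    have e : C = support₂ (oddWord a + (k : ZMod 2) • 1) := by
      ext q
      rw [mem_support₂, show (oddWord a + (k : ZMod 2) • (1 : GolayPt → ZMod 2)) q = ((a q + k : ℤ) : ZMod 2) by
        simp [oddWord], ne_eq, ZMod.intCast_zmod_eq_zero_iff_dvd]
      have hq := h q
      rw [hv q] at hq
      by_cases hc : q ∈ C <;> by_cases h23 : ix q = 23 <;> simp only [oddN, hc, h23, if_true, if_false] at hq <;>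
        simp [hc] <;> omega
    rw [e]
    exact mem_codeSets_support.2 (golayCode.add_mem ha (golayCode.smul_mem _ one_mem_golayCode))
  refine ⟨(⟨C, hC⟩, ⟨σ, hσ⟩), ?_⟩
  apply Subtype.ext
  apply Equiv.ext
  intro x
  apply Subtype.ext
  funext q
  exact (monoAut_smul (⟨C, hC⟩, ⟨σ, hσ⟩) x q).trans (hval x q).symm

theorem monoAut_injective : Function.Injective monoAut := by
  rintro ⟨⟨c, hc⟩, ⟨σ, hσ⟩⟩ ⟨⟨d, hd⟩, ⟨τ, hτ⟩⟩ h
  have key : ∀ q, σ q = τ q ∧ (q ∈ c ↔ q ∈ d) := by
    intro q
    have h1 := congrArg (fun g : Co0 => ((g • eightV (σ q) : leechLattice) : GolayPt → ℤ) q) h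
    simp only [monoAut_smul, eightV_val, if_true] at h1
    split_ifs at h1 with a b b a b <;> first | omega | exact ⟨by simp_all, by simp_all⟩
  have e1 : σ = τ := Equiv.ext fun q => (key q).1
  have e2 : c = d := Finset.ext fun q => (key q).2
  subst e1 e2; rfl

theorem card_codeSets_coe : Nat.card ↥codeSets = 4096 := by
  rw [Nat.card_coe_set_eq, Set.ncard_eq_toFinset_card _ (Set.toFinite _), card_codeSetsFinset]

theorem card_frameStab : Nat.card frameStab = 4096 * 244823040 := by
  rw [← card_codeSets_coe, ← card_M24, ← Nat.card_prod]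
  refine (Nat.card_congr (Equiv.ofBijective (fun d => (⟨monoAut d, monoAut_mem d⟩ : frameStab)) ⟨?_, ?_⟩)).symm
  · intro a b h; exact monoAut_injective (congrArg Subtype.val h)
  · rintro ⟨g, hg⟩
    obtain ⟨d, hd⟩ := exists_monoAut hg
    exact ⟨d, Subtype.ext hd⟩

/-- The class masks of the automorphic images of a vector. -/
def kapOrbit (r : leechLattice) : Set ℕ := Set.range fun g : Co0 => kap (g • r)

theorem ncard_kapOrbit_two : (kapOrbit repTwo).ncard = 98280 := by
  classical
  let S : Finset (GolayPt → ℤ) := minFours ∪ minTwos ∪ minOdds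
  have hS : ∀ x, x ∈ S ↔ x ∈ leechLattice ∧ sqNorm x = 32 := fun x => by
    rw [← Finset.mem_coe, ← minSet_eq]; rfl
  let F : (GolayPt → ℤ) → ℕ := fun x => if h : x ∈ leechLattice then kap ⟨x, h⟩ else 0
  have hF : ∀ y : leechLattice, F y.1 = kap y := fun y => dif_pos y.2
  have e : kapOrbit repTwo = ↑(S.image F) := by
    ext m
    simp only [kapOrbit, Set.mem_range, Finset.coe_image, Set.mem_image, Finset.mem_coe, hS]
    constructor
    · rintro ⟨g, rfl⟩
      exact ⟨(g • repTwo).1, ⟨(g • repTwo).2, by rw [Co0_sqNorm, sqNorm_repTwo]⟩, hF _⟩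
    · rintro ⟨x, ⟨hx, hn⟩, rfl⟩
      obtain ⟨g, hg⟩ := exists_smul_min (x := ⟨x, hx⟩) hn
      exact ⟨g⁻¹, by rw [← hg, inv_smul_smul]; exact (hF ⟨x, hx⟩).symm⟩
  rw [e, Set.ncard_coe_finset]
  have hfib : ∀ m ∈ S.image F, (S.filter fun x => F x = m).card = 2 := by
    intro m hm
    obtain ⟨x, hx, rfl⟩ := Finset.mem_image.1 hm
    obtain ⟨hxL, hxn⟩ := (hS x).1 hx
    have hne : x ≠ -x := fun h => by
      have : x = 0 := by funext p; have := congrFun h p; simp only [Pi.neg_apply, Pi.zero_apply] at this ⊢; omega
      rw [this] at hxn; simp [sqNorm] at hxn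
    have : S.filter (fun z => F z = F x) = {x, -x} := by
      ext z
      simp only [Finset.mem_filter, Finset.mem_insert, Finset.mem_singleton, hS]
      constructor
      · rintro ⟨⟨hzL, hzn⟩, hz⟩
        rw [hF ⟨z, hzL⟩, hF ⟨x, hxL⟩] at hz
        rcases short_kap (x := ⟨z, hzL⟩) (y := ⟨x, hxL⟩) (le_of_eq_of_le hzn (by norm_num))
          (le_of_eq_of_le hxn (by norm_num)) hz with e | e | ⟨e, -⟩
        · exact Or.inl (congrArg Subtype.val e)
        · exact Or.inr (congrArg Subtype.val e)
        · simp [hzn] at e
      · rintro (rfl | rfl)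
        · exact ⟨⟨hxL, hxn⟩, rfl⟩
        · refine ⟨⟨neg_mem hxL, by rw [← hxn]; simp [sqNorm]⟩, ?_⟩
          rw [hF ⟨x, hxL⟩, ← kap_neg ⟨x, hxL⟩]
          exact hF (-⟨x, hxL⟩)
    rw [this, Finset.card_pair hne]
  have hcard : S.card = 196560 := by
    rw [← Set.ncard_coe_finset, ← minSet_eq, ncard_minSet]
  have := Finset.card_eq_sum_card_image F S
  rw [hcard, Finset.sum_congr rfl hfib, Finset.sum_const, smul_eq_mul] at this
  omega

theorem ncard_kapOrbit_four : (kapOrbit repFour).ncard = 8292375 := by
  classical
  have hU : {m | m < 4 ^ 12 ∧ parN 12 m = 0} = {0} ∪ kapOrbit repTwo ∪ kapOrbit repFour := by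
    ext m
    simp only [Set.mem_setOf_eq, Set.mem_union, Set.mem_singleton_iff, kapOrbit, Set.mem_range]
    constructor
    · rintro ⟨hm, hp⟩
      have hm' : m < 2 ^ 24 := by norm_num at hm ⊢; exact hm
      by_cases h0 : m = 0
      · exact Or.inl (Or.inl h0)
      rcases exists_smul_class (selSum hypList m) (by rwa [kap_lift hm']) with ⟨g, h, -⟩ | ⟨g, h, -⟩ | ⟨g, -, h⟩
      · refine Or.inl (Or.inr ⟨g⁻¹, ?_⟩)
        rw [← kap_smul_congr g⁻¹ h, inv_smul_smul, kap_lift hm']
      · refine Or.inr ⟨g⁻¹, ?_⟩
        rw [← kap_smul_congr g⁻¹ h, inv_smul_smul, kap_lift hm']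
      · rw [normPar_eq_parN, kap_lift hm', hp] at h
        exact absurd h (by decide)
    · rintro ((rfl | ⟨g, rfl⟩) | ⟨g, rfl⟩)
      · exact ⟨by norm_num, by decide⟩
      · refine ⟨by norm_num; exact kap_lt _, ?_⟩
        rw [← normPar_eq_parN, normPar_smul, normPar_of_sqNorm sqNorm_repTwo]; rfl
      · refine ⟨by norm_num; exact kap_lt _, ?_⟩
        rw [← normPar_eq_parN, normPar_smul, normPar_of_sqNorm sqNorm_repFour]; rfl
  have hcard : {m | m < 4 ^ 12 ∧ parN 12 m = 0}.ncard = 8390656 := by
    rw [← card_singular_masks, ← Set.ncard_coe_finset]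
    congr 1
    ext m; simp
  have hfin2 : (kapOrbit repTwo).Finite := (Set.finite_lt_nat (2 ^ 24)).subset (by rintro _ ⟨g, rfl⟩; exact kap_lt _)
  have hfin4 : (kapOrbit repFour).Finite := (Set.finite_lt_nat (2 ^ 24)).subset (by rintro _ ⟨g, rfl⟩; exact kap_lt _)
  have hd0 : Disjoint ({0} : Set ℕ) (kapOrbit repTwo) := by
    rw [Set.disjoint_singleton_left]
    rintro ⟨g, hg⟩
    exact kap_ne_zero (by rw [Co0_sqNorm, sqNorm_repTwo]; norm_num)
      (ne_zero_of_sqNorm (by rw [Co0_sqNorm, sqNorm_repTwo]; norm_num)) hg
  have hd : Disjoint ({0} ∪ kapOrbit repTwo) (kapOrbit repFour) := by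
    rw [Set.disjoint_left]
    rintro m (hm | ⟨g, rfl⟩) ⟨g', hg'⟩
    · rw [Set.mem_singleton_iff.1 hm] at hg'
      exact kap_ne_zero (by rw [Co0_sqNorm, sqNorm_repFour])
        (ne_zero_of_sqNorm (by rw [Co0_sqNorm, sqNorm_repFour]; norm_num)) hg'
    · have := kap_smul_congr g'⁻¹ hg'
      rw [inv_smul_smul, ← mul_smul] at this
      exact kap_two_ne_four _ this.symm
  rw [hU, Set.ncard_union_eq hd ((Set.finite_singleton 0).union hfin2) hfin4,
    Set.ncard_union_eq hd0 (Set.finite_singleton 0) hfin2, Set.ncard_singleton, ncard_kapOrbit_two] at hcard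
  omega

theorem card_Co0 : Nat.card Co0 = 8315553613086720000 := by
  have hT : (kapOrbit repFour).ncard = frameStab.index := by
    rw [Subgroup.index, ← Nat.card_coe_set_eq]
    symm
    refine Nat.card_congr (Equiv.ofBijective
      (Quotient.lift (fun g : Co0 => (⟨kap (g • repFour), g, rfl⟩ : ↥(kapOrbit repFour))) ?_) ⟨?_, ?_⟩)
    · intro a b hab
      have h : a⁻¹ * b ∈ frameStab := QuotientGroup.leftRel_apply.1 hab
      rw [mem_frameStab, mul_smul] at h
      apply Subtype.ext
      have := kap_smul_congr a h
      rw [smul_inv_smul] at this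
      exact this.symm
    · intro a b h
      obtain ⟨a, rfl⟩ := QuotientGroup.mk_surjective a
      obtain ⟨b, rfl⟩ := QuotientGroup.mk_surjective b
      have h' : kap (a • repFour) = kap (b • repFour) := congrArg Subtype.val h
      refine QuotientGroup.eq.2 ?_
      rw [mem_frameStab, mul_smul]
      have := kap_smul_congr a⁻¹ h'
      rw [inv_smul_smul] at this
      exact this.symm
    · rintro ⟨_, g, rfl⟩
      exact ⟨QuotientGroup.mk g, rfl⟩
  rw [← frameStab.card_mul_index, card_frameStab, ← hT, ncard_kapOrbit_four]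

/-- Negation, as a lattice automorphism. -/
noncomputable def negAut : Co0 := signAut Finset.univ exists_M24_word.univ_mem_supports_golayCode'

theorem negAut_smul (x : leechLattice) : negAut • x = -x := by
  apply Subtype.ext
  funext p
  rw [negAut, signAut_smul]
  simp

theorem center_Co0 {z : Co0} : z ∈ Subgroup.center Co0 ↔ z = 1 ∨ z = negAut := by
  constructor
  · intro hz
    have hcomm : ∀ (g : Co0) (x : leechLattice), g • z • x = z • g • x := fun g x => by
      rw [← mul_smul, ← mul_smul, Subgroup.mem_center_iff.1 hz g]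
    have hzero : ∀ p : GolayPt, p ≠ none → ((z • repFour : leechLattice) : GolayPt → ℤ) p = 0 := by
      intro p hp
      obtain ⟨c, hc, hpc, hn⟩ := exists_code_avoid hp
      have hfix : signAut c hc • repFour = repFour := by
        apply Subtype.ext
        funext q
        rw [signAut_smul, ← eightV_none, eightV_val]
        by_cases h : q = none
        · subst h; simp [hn]
        · simp [h]
      have h := congrArg (fun y : leechLattice => (y : GolayPt → ℤ) p) (hcomm (signAut c hc) repFour)
      simp only [hfix, signAut_smul, hpc, if_true] at h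
      omega
    obtain ⟨s, hs, hz4⟩ : ∃ s : ℤ, (s = 1 ∨ s = -1) ∧
        ((z • repFour : leechLattice) : GolayPt → ℤ) = fun q => s * (repFour : GolayPt → ℤ) q := by
      have hn := Co0_sqNorm z repFour
      rw [sqNorm_repFour, sqNorm, Finset.sum_eq_single none
        (fun q _ hq => by rw [hzero q hq]; norm_num) (by simp)] at hn
      have : ((z • repFour : leechLattice).1 none - 8) * ((z • repFour : leechLattice).1 none + 8) = 0 := by linarith
      rcases mul_eq_zero.1 this with h | h
      · refine ⟨1, Or.inl rfl, funext fun q => ?_⟩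
        rw [← eightV_none, eightV_val]
        by_cases hq : q = none
        · subst hq
          have : (z • eightV none : leechLattice).1 none = 8 := by rw [eightV_none]; linarith
          simpa using this
        · have := hzero q hq
          rw [← eightV_none] at this
          simpa [hq] using this
      · refine ⟨-1, Or.inr rfl, funext fun q => ?_⟩
        rw [← eightV_none, eightV_val]
        by_cases hq : q = none
        · subst hq
          have : (z • eightV none : leechLattice).1 none = -8 := by rw [eightV_none]; linarith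
          simpa using this
        · have := hzero q hq
          rw [← eightV_none] at this
          simpa [hq] using this
    have hall : ∀ p, ((z • eightV p : leechLattice) : GolayPt → ℤ) = fun q => s * (eightV p : GolayPt → ℤ) q := by
      intro p
      let x (r : GolayPt) : Fin 1 ↪ GolayPt := ⟨fun _ => r, fun a b _ => Subsingleton.elim a b⟩
      obtain ⟨g, hg, e⟩ := exists_M24_map (n := 1) (by norm_num) (x p) (x none)
      have e' : permAut g hg • repFour = eightV p := by
        apply Subtype.ext
        funext q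
        rw [permAut_smul, ← eightV_none, eightV_val, eightV_val]
        have : g q = none ↔ q = p := ⟨fun h => g.injective (h.trans (e 0).symm), fun h => h ▸ e 0⟩
        simp [this]
      rw [← e', ← hcomm, permAut_smul, permAut_smul, hz4]
    have hzx : ∀ (x : leechLattice) q, ((z • x : leechLattice) : GolayPt → ℤ) q = s * x.1 q := by
      intro x q
      have h := dot_smul z x (eightV q)
      rw [dot_eightV x q, hall q] at h
      rw [show dotInt ((z • x : leechLattice) : GolayPt → ℤ) (fun r => s * (eightV q : GolayPt → ℤ) r) =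
        s * dotInt ((z • x : leechLattice) : GolayPt → ℤ) (eightV q) by
          simp only [dotInt, Finset.mul_sum]; exact Finset.sum_congr rfl fun r _ => by ring, dot_eightV] at h
      rcases hs with rfl | rfl <;> linarith
    rcases hs with rfl | rfl
    · refine Or.inl (Subtype.ext (Equiv.ext fun x => Subtype.ext (funext fun q => ?_)))
      exact (hzx x q).trans (one_mul _)
    · refine Or.inr (Subtype.ext (Equiv.ext fun x => Subtype.ext (funext fun q => ?_)))
      refine (hzx x q).trans ?_
      rw [neg_one_mul]
      exact (congrArg (fun y : leechLattice => (y : GolayPt → ℤ) q) (negAut_smul x)).symm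
  · rintro (rfl | rfl)
    · exact Subgroup.one_mem _
    · refine Subgroup.mem_center_iff.2 fun g => Subtype.ext (Equiv.ext fun x => ?_)
      show g • negAut • x = negAut • g • x
      rw [negAut_smul, negAut_smul, Co0_smul_neg]
where
  exists_code_avoid : ∀ {p : GolayPt}, p ≠ none → ∃ c ∈ codeSets, p ∈ c ∧ none ∉ c := by
    intro p hp
    have h : ∀ p : GolayPt, p ≠ none → ∃ m ∈ qrMasks, m.testBit (ix p) = true ∧ m.testBit 23 = false := by
      decide +kernel
    obtain ⟨m, hm, h1, h2⟩ := h p hp
    obtain ⟨i, hi, rfl⟩ := List.mem_iff_getElem.1 hm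
    refine ⟨setOfMask qrMasks[i], setOfMask_mem_codeSets ?_, mem_setOfMask.2 h1, ?_⟩
    · have := qrMasks_mem (i : ZMod 23)
      rwa [ZMod.val_natCast, Nat.mod_eq_of_lt (by simpa [qrMasks] using hi), List.getD_eq_getElem _ _ hi] at this
    · rw [mem_setOfMask]; exact Bool.eq_false_iff.1 h2

theorem card_center_Co0 : Nat.card (Subgroup.center Co0) = 2 := by
  have hne : (1 : Co0) ≠ negAut := fun h => by
    have := congrArg (fun g : Co0 => ((g • repFour : leechLattice) : GolayPt → ℤ) none) h
    simp only [one_smul, negAut_smul, ← eightV_none, AddSubgroup.coe_neg, Pi.neg_apply, eightV_val, if_true] at this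
    norm_num at this
  have e : (Subgroup.center Co0 : Set Co0) = {1, negAut} := Set.ext fun z => center_Co0
  change Nat.card ↥(Subgroup.center Co0 : Set Co0) = 2
  rw [Nat.card_coe_set_eq, e, Set.ncard_pair hne]

theorem card_Co1 : Nat.card Cfsg.Spor.Co1 = 4157776806543360000 := by
  have h := Subgroup.card_eq_card_quotient_mul_card_subgroup (Subgroup.center Co0)
  rw [card_Co0, card_center_Co0] at h
  exact Nat.eq_of_mul_eq_mul_right (by norm_num : 0 < 2) (h.symm.trans (by norm_num))

end CfsgLib.Spor
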