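import Cfsg.Prelude.Def_SporadicCombinatorics
import Cfsg.Agent.Lib.SporLeechStab
import Cfsg.Agent.Lib.SporLeechShells
import Cfsg.Agent.Lib.SporLeechCount

/-!
Crosses, class representatives and generation by the shortest vectors.
-/

set_option autoImplicit false

namespace CfsgLib.Spor
open Cfsg

theorem leechBasis_norm : (leechBasis.all fun t =>
    decide (((List.range 24).map fun i => minN t i ^ 2).sum = 32)) = true := by decide +kernel

theorem mem_stdCross_iff {v : leechLattice} :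
    (v : GolayPt → ℤ) ∈ stdCross ↔ ∃ p, v = eightV p ∨ v = -eightV p := by
  constructor
  · rintro ⟨i, s, rfl | rfl, e⟩
    · refine ⟨i, Or.inl (Subtype.ext ?_)⟩
      rw [e, eightV_val]; funext q; simp [Pi.single_apply]
    · refine ⟨i, Or.inr (Subtype.ext ?_)⟩
      rw [e, AddSubgroup.coe_neg, eightV_val]; funext q; by_cases h : q = i <;> simp [Pi.single_apply, h]
  · rintro ⟨p, rfl | rfl⟩
    · refine ⟨p, 8, Or.inl rfl, ?_⟩
      rw [eightV_val]; funext q; simp [Pi.single_apply]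
    · refine ⟨p, -8, Or.inr rfl, ?_⟩
      rw [AddSubgroup.coe_neg, eightV_val]; funext q; by_cases h : q = p <;> simp [Pi.single_apply, h]

theorem mem_frameStab_iff_cross {g : Co0} : g ∈ frameStab ↔
    ∀ v : leechLattice, (v : GolayPt → ℤ) ∈ stdCross → ((g • v : leechLattice) : GolayPt → ℤ) ∈ stdCross := by
  constructor
  · intro hg v hv
    obtain ⟨p, hp⟩ := mem_stdCross_iff.1 hv
    have hk : kap v = kap repFour := by rcases hp with rfl | rfl <;> simp [kap_neg, kap_eightV]
    have hn : sqNorm (v : GolayPt → ℤ) = 64 := by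
      rcases hp with rfl | rfl <;> simp [AddSubgroup.coe_neg, sqNorm_neg, sqNorm_eightV]
    exact mem_stdCross_iff.2 (short_class_four ((Co0_sqNorm g v).trans hn)
      ((kap_smul_congr g hk).trans (mem_frameStab.1 hg)))
  · intro h
    obtain ⟨p, hp⟩ := mem_stdCross_iff.1 (h (eightV none) (mem_stdCross_iff.2 ⟨none, Or.inl rfl⟩))
    rw [eightV_none] at hp
    rw [mem_frameStab]
    rcases hp with e | e <;> rw [e] <;> simp [kap_neg, kap_eightV]

theorem exists_monomial {g : Co0} (hg : g ∈ frameStab) :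
    ∃ f ∈ golayMonomialMaps, ∀ v : leechLattice, ((g • v : leechLattice) : GolayPt → ℤ) = f (v : GolayPt → ℤ) := by
  obtain ⟨d, rfl⟩ := exists_monoAut hg
  refine ⟨signedPerm d.2.1⁻¹ d.1.1, ⟨d.2.1⁻¹, inv_mem d.2.2, d.1.1, d.1.2, rfl⟩, fun v => funext fun p => ?_⟩
  rw [monoAut_smul]
  rfl

theorem exists_short_rep (x : leechLattice) :
    ∃ r : leechLattice, sqNorm (r : GolayPt → ℤ) ≤ 64 ∧ kap x = kap r := by
  by_cases h0 : kap x = 0
  · exact ⟨0, by simp [sqNorm], by rw [h0, kap_zero]⟩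
  have key : ∀ (r : leechLattice), sqNorm (r : GolayPt → ℤ) ≤ 64 → ∀ g : Co0, kap (g • x) = kap r →
      ∃ r : leechLattice, sqNorm (r : GolayPt → ℤ) ≤ 64 ∧ kap x = kap r := by
    intro r hr g h
    refine ⟨g⁻¹ • r, by rwa [Co0_sqNorm], ?_⟩
    have := kap_smul_congr g⁻¹ h
    rwa [inv_smul_smul] at this
  rcases exists_smul_class x h0 with ⟨g, h, -⟩ | ⟨g, h, -⟩ | ⟨g, h, -⟩
  · exact key _ (by rw [sqNorm_repTwo]; norm_num) g h
  · exact key _ sqNorm_repFour.le g h
  · exact key _ (by rw [sqNorm_repThree]; norm_num) g h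

theorem sub_eq_two_nsmul_iff {x y : leechLattice} :
    (∃ z ∈ leechLattice, (x : GolayPt → ℤ) - y = 2 • z) ↔ kap x = kap y := by
  rw [kap_eq_iff]
  constructor
  · rintro ⟨z, hz, e⟩
    refine ⟨⟨z, hz⟩, Subtype.ext ?_⟩
    rw [AddSubgroup.coe_add, AddSubgroup.coe_add, ← two_nsmul, ← e, add_sub_cancel]
  · rintro ⟨w, rfl⟩
    exact ⟨w, w.2, by rw [AddSubgroup.coe_add, AddSubgroup.coe_add, ← two_nsmul, add_sub_cancel_left]⟩

theorem ncard_cross (x : leechLattice) (hx : sqNorm (x : GolayPt → ℤ) = 64) : (cross (x : GolayPt → ℤ)).ncard = 48 := by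
  classical
  have hcross : cross (x : GolayPt → ℤ) =
      (fun y : leechLattice => (y : GolayPt → ℤ)) '' {y | sqNorm (y : GolayPt → ℤ) = 64 ∧ kap x = kap y} := by
    ext y
    constructor
    · rintro ⟨hy, hn, hz⟩
      exact ⟨⟨y, hy⟩, ⟨hn.trans hx, sub_eq_two_nsmul_iff.1 hz⟩, rfl⟩
    · rintro ⟨y, ⟨hn, hk⟩, rfl⟩
      exact ⟨y.2, hn.trans hx.symm, sub_eq_two_nsmul_iff.2 hk⟩
  obtain ⟨g, hg⟩ := exists_smul_four hx
  have hset : {y : leechLattice | sqNorm (y : GolayPt → ℤ) = 64 ∧ kap x = kap y} =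
      (fun y => g⁻¹ • y) '' ((Set.range eightV) ∪ (fun p => -eightV p) '' Set.univ) := by
    ext y
    constructor
    · rintro ⟨hn, hk⟩
      obtain ⟨p, hp⟩ := short_class_four ((Co0_sqNorm g y).trans hn) ((kap_smul_congr g hk.symm).trans hg)
      refine ⟨g • y, ?_, inv_smul_smul g y⟩
      rcases hp with h | h
      · exact Or.inl ⟨p, h.symm⟩
      · exact Or.inr ⟨p, trivial, h.symm⟩
    · rintro ⟨v, hv, rfl⟩
      have : sqNorm (v : GolayPt → ℤ) = 64 ∧ kap v = kap repFour := by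
        rcases hv with ⟨p, rfl⟩ | ⟨p, -, rfl⟩ <;>
          simp [AddSubgroup.coe_neg, sqNorm_neg, sqNorm_eightV, kap_neg, kap_eightV]
      refine ⟨(Co0_sqNorm _ _).trans this.1, ?_⟩
      have h := kap_smul_congr g⁻¹ (hg.trans this.2.symm)
      rwa [inv_smul_smul] at h
  have hinj : Function.Injective eightV := fun p q h => by
    by_contra hne
    have := congrArg (fun v : leechLattice => (v : GolayPt → ℤ) p) h
    simp [eightV_val, hne] at this
  have hne : ∀ p q, eightV p ≠ -eightV q := fun p q h => by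
    have := congrArg (fun v : leechLattice => (v : GolayPt → ℤ) p) h
    by_cases e : p = q <;> simp [AddSubgroup.coe_neg, eightV_val, e] at this
  rw [hcross, hset, Set.ncard_image_of_injective _ Subtype.val_injective,
    Set.ncard_image_of_injective _ (MulAction.injective _),
    Set.ncard_union_eq (Set.disjoint_left.2 ?_) (Set.toFinite _) (Set.toFinite _), Set.ncard_range_of_injective hinj,
    Set.ncard_image_of_injective _ fun p q h => hinj (neg_inj.1 h), Set.ncard_univ, Nat.card_eq_fintype_card,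
    card_GolayPt]
  rintro v ⟨p, rfl⟩ ⟨q, -, h⟩
  exact hne p q h.symm

theorem closure_minimal : AddSubgroup.closure {x : GolayPt → ℤ | x ∈ leechLattice ∧ sqNorm x = 32} = leechLattice := by
  have hmem : ∀ t ∈ leechBasis, validMin t = true := by
    intro t ht
    obtain ⟨i, hi, rfl⟩ := List.mem_iff_getElem.1 ht
    have := basAt_valid (k := i) (hi.trans_eq (by decide))
    rwa [basAt, List.getD_eq_getElem?_getD, List.getElem?_eq_getElem hi] at this
  have hnorm : ∀ t ∈ leechBasis, sqNorm (minV t : GolayPt → ℤ) = 32 := by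
    intro t ht
    rw [minV_val (hmem t ht), sqNorm_ofN]
    exact of_decide_eq_true (List.all_eq_true.1 leechBasis_norm t ht)
  refine le_antisymm ((AddSubgroup.closure_le _).2 fun x hx => hx.1) ?_
  set S := AddSubgroup.closure {x : GolayPt → ℤ | x ∈ leechLattice ∧ sqNorm x = 32} with hS
  have h8 : ∀ i : GolayPt, (Pi.single i (8 : ℤ) : GolayPt → ℤ) ∈ S := by
    intro i
    obtain ⟨j, hj⟩ := exists_ne i
    have hp : ({i, j} : Finset GolayPt).card = 2 := Finset.card_pair hj.symm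
    have m : ∀ n, shapeFour ⟨{i, j}, n⟩ ∈ S := fun n => AddSubgroup.subset_closure (shapeFour_mem hp)
    have e : (Pi.single i (8 : ℤ) : GolayPt → ℤ) = shapeFour ⟨{i, j}, ∅⟩ + shapeFour ⟨{i, j}, {j}⟩ := by
      funext q
      by_cases h : q = i
      · subst h; simp [shapeFour, hj.symm]
      · by_cases h' : q = j
        · subst h'; simp [shapeFour, h]
        · simp [shapeFour, h, h']
    rw [e]
    exact add_mem (m _) (m _)
  have hall : ∀ f ∈ leechGenN, ∃ s ∈ S, ∃ z ∈ leechLattice, ofN f = s + (z + z) := by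
    intro f hf
    obtain ⟨k, hk, rfl⟩ := List.mem_iff_getElem.1 hf
    have hc := List.all_eq_true.1 leechGen_ok k (List.mem_range.2 hk)
    rw [List.getD_eq_getElem?_getD, List.getElem?_eq_getElem hk, Option.getD_some] at hc
    obtain ⟨z, hz, e⟩ := congrN_spec hc
    refine ⟨_, ?_, z, hz, e⟩
    set l := selN leechBasis (leechGenCombos.getD k 0) with hl
    have hv : ∀ u ∈ l, validMin u = true := fun u hu => hmem u (mem_of_mem_selN hu)
    rw [← sum_minV hv]
    have hsum : (l.map minV).sum ∈ S.comap leechLattice.subtype :=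
      AddSubgroup.list_sum_mem _ fun b hb => by
        obtain ⟨u, hu, rfl⟩ := List.mem_map.1 hb
        exact AddSubgroup.subset_closure ⟨(minV u).2, hnorm u (mem_of_mem_selN hu)⟩
    exact hsum
  have hfull : ∀ v ∈ leechLattice, ∃ s ∈ S, ∃ z ∈ leechLattice, v = s + (z + z) := by
    let T : AddSubgroup (GolayPt → ℤ) :=
      { carrier := {v | ∃ s ∈ S, ∃ z ∈ leechLattice, v = s + (z + z)}
        zero_mem' := ⟨0, zero_mem _, 0, zero_mem _, by simp⟩
        add_mem' := by
          rintro a b ⟨s, hs, z, hz, rfl⟩ ⟨s', hs', z', hz', rfl⟩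
          exact ⟨s + s', add_mem hs hs', z + z', add_mem hz hz', by abel⟩
        neg_mem' := by
          rintro a ⟨s, hs, z, hz, rfl⟩
          exact ⟨-s, neg_mem hs, -z, neg_mem hz, by abel⟩ }
    exact fun v hv => leech_le_of_gens (S := T) hall hv
  intro v hv
  obtain ⟨s1, hs1, z1, hz1, rfl⟩ := hfull v hv
  obtain ⟨s2, hs2, z2, hz2, rfl⟩ := hfull z1 hz1
  obtain ⟨s3, hs3, z3, -, rfl⟩ := hfull z2 hz2
  have e : s1 + ((s2 + (s3 + (z3 + z3) + (s3 + (z3 + z3)))) + (s2 + (s3 + (z3 + z3) + (s3 + (z3 + z3))))) =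
      s1 + (2 : ℤ) • s2 + (4 : ℤ) • s3 + ∑ i, z3 i • (Pi.single i (8 : ℤ) : GolayPt → ℤ) := by
    funext q
    simp only [Pi.add_apply, Pi.smul_apply, Finset.sum_apply, Pi.single_apply, smul_eq_mul, mul_ite, mul_zero,
      Finset.sum_ite_eq, Finset.mem_univ, if_true]
    ring
  rw [e]
  exact add_mem (add_mem (add_mem hs1 (zsmul_mem hs2 _)) (zsmul_mem hs3 _)) (sum_mem fun i _ => zsmul_mem (h8 i) _)

end CfsgLib.Spor
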