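import Cfsg.Agent.Lib.SporLeechStab

/-!
The stabiliser of a class of square length 32 leaves no singular subspace beyond that class.
-/

set_option autoImplicit false
set_option maxRecDepth 20000

namespace CfsgLib.Spor
open Cfsg
open scoped Pointwise

/-- The exponents of the three projections. -/
def irrExps : List (List ℕ) :=
  [[0, 1, 2, 3, 4, 6, 8, 9, 12, 13, 16, 18],
   [0, 5, 7, 10, 11, 14, 15, 17, 19, 20, 21, 22],
   [0, 1, 2, 3, 4, 5, 6, 7, 8, 9, 10, 11, 12, 13, 14, 15, 16, 17, 18, 19, 20, 21, 22]]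

/-- Bases of the three images. -/
def irrSpans : List (List ℕ) :=
  [[1845, 15350, 53895, 88523, 154186, 263093, 541025, 1065267, 2114477, 4211247, 8411226],
   [4, 16, 64, 256, 1024, 4096, 16384, 65536, 262144, 1048576, 4194304],
   [1380629, 4277266]]

/-- Coordinates of the projections of the basis. -/
def irrCoords : List (List ℕ) :=
  [[0, 0, 0, 513, 0, 128, 0, 33, 0, 129, 0, 552, 0, 522, 0, 164, 0, 184, 0, 192, 0, 801, 0, 1065],
   [939, 1234, 1, 136, 2, 1331, 4, 272, 8, 1667, 16, 1549, 32, 80, 64, 139, 128, 1200, 256, 1748, 512, 458, 1024, 561],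
   [1, 2, 0, 2, 0, 3, 0, 0, 0, 2, 0, 1, 0, 2, 0, 1, 0, 3, 0, 2, 0, 2, 0, 1]]

/-- Words of automorphisms fixing the class of the odd vector. -/
def irrWords : List ℕ := [6898901591574, 1124]

/-- The parity form of a mask, as a Boolean. -/
noncomputable def parB : ℕ → ℕ → Bool :=
  fun n => @Nat.rec (fun _ => ℕ → Bool) (fun _ => false)
    (fun _ ih m => forceNat m fun v => Bool.xor (Nat.beq (Nat.mod v 4) 3) (ih (Nat.div v 4))) n

theorem parB_eq : ∀ n m, parN n m = if parB n m = true then 1 else 0
  | 0, _ => rfl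
  | n + 1, m => by
    show (if m % 4 = 3 then (1 : ZMod 2) else 0) + parN n (m / 4) =
      if (forceNat m fun v => Bool.xor (Nat.beq (Nat.mod v 4) 3) (parB n (Nat.div v 4))) = true then 1 else 0
    rw [forceNat_eq, parB_eq n (m / 4)]
    have hb : Nat.beq (Nat.mod m 4) 3 = decide (m % 4 = 3) := by
      rcases Decidable.em (m % 4 = 3) with h | h
      · rw [decide_eq_true h, show Nat.mod m 4 = 3 from h]; rfl
      · rw [decide_eq_false h]
        cases hb : Nat.beq (Nat.mod m 4) 3 with
        | false => rfl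
        | true => exact absurd (Nat.eq_of_beq_eq_true hb) h
    rw [hb, show Nat.div m 4 = m / 4 from rfl]
    by_cases h : m % 4 = 3 <;> cases parB n (m / 4) <;> simp [h] <;> decide

/-- Iterates of the rotation of the classes. -/
noncomputable def rotN : ℕ → ℕ → ℕ :=
  fun k => @Nat.rec (fun _ => ℕ → ℕ) (fun v => v)
    (fun _ ih v => forceNat v fun u => ih (applyClassWord 13 1 u)) k

theorem rotN_succ (k v : ℕ) : rotN (k + 1) v = rotN k (applyClassWord 13 1 v) := by
  show forceNat v (fun u => rotN k (applyClassWord 13 1 u)) = _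
  rw [forceNat_eq]

/-- The sum of the iterates with exponents in a list. -/
noncomputable def orbSum : List ℕ → ℕ → ℕ
  | [], _ => 0
  | j :: J, v => rotN j v ^^^ orbSum J v

theorem applyM_xor : ∀ (M : List ℕ) (a b : ℕ), applyM M (a ^^^ b) = applyM M a ^^^ applyM M b
  | [], a, b => by simp [applyM_nil]
  | c :: M, a, b => by
    rw [applyM_cons, applyM_cons, applyM_cons, Nat.xor_div_two, applyM_xor M]
    have hm : (a ^^^ b) % 2 = (a % 2 + b % 2) % 2 := by
      have := Nat.testBit_xor a b 0
      simp only [Nat.testBit_zero] at this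
      rcases Nat.mod_two_eq_zero_or_one a with h | h <;> rcases Nat.mod_two_eq_zero_or_one b with h' | h' <;>
        simp [h, h'] at this ⊢ <;> omega
    rcases Nat.mod_two_eq_zero_or_one a with h | h <;> rcases Nat.mod_two_eq_zero_or_one b with h' | h' <;>
      simp [hm, h, h', Nat.xor_assoc, Nat.xor_left_comm, Nat.xor_comm, Nat.xor_self]

theorem applyM_zero (L : List ℕ) : applyM L 0 = 0 := by
  have := applyM_xor L 0 0
  rwa [Nat.xor_self, Nat.xor_self] at this

/-- An additive map of masks is the application of its values on the basis. -/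
theorem additive_eq {f : ℕ → ℕ} (hx : ∀ a b, f (a ^^^ b) = f a ^^^ f b) {v : ℕ} (hv : v < 2 ^ 24) :
    f v = applyM ((List.range 24).map fun i => f (2 ^ i)) v := by
  have h0 : f 0 = 0 := by have := hx 0 0; rw [Nat.xor_self, Nat.xor_self] at this; exact this
  have key : ∀ (L : List ℕ) (m : ℕ), f (applyM L m) = applyM (L.map f) m := by
    intro L
    induction L with
    | nil => intro m; simp [applyM_nil, h0]
    | cons a L ih =>
      intro m
      rw [List.map_cons, applyM_cons, applyM_cons, hx, ih]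
      split <;> simp [h0]
  conv_lhs => rw [show v = applyM ((List.range 24).map (2 ^ ·)) v by rw [applyM_pows, Nat.mod_eq_of_lt hv], key]
  rw [List.map_map]; rfl

theorem applyClassWord_xor : ∀ (n w a b : ℕ),
    applyClassWord n w (a ^^^ b) = applyClassWord n w a ^^^ applyClassWord n w b
  | 0, w, a, b => rfl
  | n + 1, w, a, b => by
    simp only [applyClassWord_succ, applyDigit]
    split
    · rfl
    · rw [applyM_xor, applyClassWord_xor n]

theorem rotN_xor : ∀ (k a b : ℕ), rotN k (a ^^^ b) = rotN k a ^^^ rotN k b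
  | 0, _, _ => rfl
  | k + 1, a, b => by rw [rotN_succ, rotN_succ, rotN_succ, applyClassWord_xor, rotN_xor k]

theorem orbSum_xor : ∀ (J : List ℕ) (a b : ℕ), orbSum J (a ^^^ b) = orbSum J a ^^^ orbSum J b
  | [], _, _ => by simp [orbSum]
  | j :: J, a, b => by
    simp only [orbSum, rotN_xor, orbSum_xor J]
    simp [Nat.xor_assoc, Nat.xor_left_comm, Nat.xor_comm]

/-- The checks on the three projections. -/
noncomputable def projOK : Bool :=
  (List.range 24).all fun i =>
    Nat.beq (orbSum (irrExps.getD 0 []) (2 ^ i)) (applyM (irrSpans.getD 0 []) ((irrCoords.getD 0 []).getD i 0)) &&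
    Nat.beq (orbSum (irrExps.getD 1 []) (2 ^ i)) (applyM (irrSpans.getD 1 []) ((irrCoords.getD 1 []).getD i 0)) &&
    Nat.beq (orbSum (irrExps.getD 2 []) (2 ^ i)) (applyM (irrSpans.getD 2 []) ((irrCoords.getD 2 []).getD i 0)) &&
    Nat.blt ((irrCoords.getD 0 []).getD i 0) 2048 && Nat.blt ((irrCoords.getD 1 []).getD i 0) 2048 &&
    Nat.blt ((irrCoords.getD 2 []).getD i 0) 4 &&
    Nat.beq (Nat.xor (orbSum (irrExps.getD 0 []) (2 ^ i))
      (Nat.xor (orbSum (irrExps.getD 1 []) (2 ^ i)) (orbSum (irrExps.getD 2 []) (2 ^ i)))) (2 ^ i)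

theorem projOK_true : projOK = true := by decide +kernel

/-- Some rotated image under one of the words makes a non-singular sum. -/
noncomputable def hasWitness (a : ℕ) : Bool :=
  irrWords.any fun w => (List.range 23).any fun k =>
    forceNat (rotN k a) fun v => parB 12 (Nat.xor a (applyClassWord 13 w v))

/-- The non-zero members of an image all have witnesses. -/
noncomputable def spanOK (L : List ℕ) : Bool :=
  (List.range 2048).all fun c => Nat.beq c 0 || forceNat (applyM L c) hasWitness

theorem span0_ok : spanOK (irrSpans.getD 0 []) = true := by decide +kernel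

theorem span1_ok : spanOK (irrSpans.getD 1 []) = true := by decide +kernel

theorem words_ok : (wordOK 13 1 && Nat.beq (applyClassWord 13 1 1380629) 1380629 &&
    irrWords.all fun w => wordOK 13 w && Nat.beq (applyClassWord 13 w 1380629) 1380629) = true := by
  decide +kernel

/-- The odd vector of square length 32. -/
noncomputable def repOdd : leechLattice := minV ⟨2, 23, 0, 0⟩

theorem repOdd_spec : kap repOdd = 1380629 ∧ sqNorm (repOdd : GolayPt → ℤ) = 32 := by
  have h : validMin ⟨2, 23, 0, 0⟩ = true := by decide +kernel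
  refine ⟨?_, ?_⟩
  · rw [repOdd, kap_eq_kapN (minV_val h)]; decide +kernel
  · rw [show (repOdd : GolayPt → ℤ) = ofN (minN ⟨2, 23, 0, 0⟩) from minV_val h, sqNorm_ofN]; decide +kernel

theorem singular_invariant_small (T : AddSubgroup leechLattice) (hsing : ∀ x ∈ T, normPar x = 0)
    (hcl : ∀ x y, kap x = kap y → y ∈ T → x ∈ T) (hu : repOdd ∈ T)
    (hinv : ∀ g : Co0, kap (g • repOdd) = kap repOdd → ∀ x ∈ T, g • x ∈ T) :
    ∀ x ∈ T, kap x = 0 ∨ kap x = kap repOdd := by
  let S : Set ℕ := kap '' (T : Set leechLattice)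
  have hlt : ∀ a ∈ S, a < 2 ^ 24 := by rintro _ ⟨x, -, rfl⟩; exact kap_lt x
  have hx : ∀ a ∈ S, ∀ b ∈ S, a ^^^ b ∈ S := by
    rintro _ ⟨x, hx, rfl⟩ _ ⟨y, hy, rfl⟩
    exact ⟨x + y, T.add_mem hx hy, kap_add x y⟩
  have h0 : (0 : ℕ) ∈ S := ⟨0, T.zero_mem, kap_zero⟩
  have hs : ∀ a ∈ S, parB 12 a = false := by
    rintro _ ⟨x, hx, rfl⟩
    have := hsing x hx
    rw [normPar_eq_parN, parB_eq] at this
    cases h : parB 12 (kap x) with
    | false => rfl
    | true => rw [h] at this; exact absurd this (by decide)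
  have hword : ∀ w, wordOK 13 w = true → applyClassWord 13 w 1380629 = 1380629 →
      ∀ a ∈ S, applyClassWord 13 w a ∈ S := by
    rintro w hw he _ ⟨x, hx, rfl⟩
    obtain ⟨g, hg⟩ := exists_wordAut 13 w hw
    exact ⟨g • x, hinv g (by rw [hg, repOdd_spec.1, he]) x hx, hg x⟩
  have hwok := words_ok
  simp only [Bool.and_eq_true, List.all_eq_true] at hwok
  obtain ⟨⟨hr1, hr2⟩, hws⟩ := hwok
  have hrot : ∀ k, ∀ a ∈ S, rotN k a ∈ S := by
    intro k
    induction k with
    | zero => exact fun a ha => ha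
    | succ k ih =>
      intro a ha
      rw [rotN_succ]
      exact ih _ (hword 1 hr1 (Nat.eq_of_beq_eq_true hr2) a ha)
  have horb : ∀ J, ∀ a ∈ S, orbSum J a ∈ S := by
    intro J
    induction J with
    | nil => exact fun a _ => h0
    | cons j J ih => exact fun a ha => hx _ (hrot j a ha) _ (ih a ha)
  have hspan : ∀ L, spanOK L = true → ∀ c < 2048, applyM L c ∈ S → applyM L c = 0 := by
    intro L hL c hc hmem
    have h := List.all_eq_true.1 hL c (List.mem_range.2 hc)
    rw [Bool.or_eq_true, forceNat_eq] at h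
    rcases h with h | h
    · rw [Nat.eq_of_beq_eq_true h, applyM_zero]
    · simp only [hasWitness, List.any_eq_true] at h
      obtain ⟨w, hw, k, -, h⟩ := h
      rw [forceNat_eq] at h
      have := hs _ (hx _ hmem _ (hword w (hws w hw).1 (Nat.eq_of_beq_eq_true (hws w hw).2) _ (hrot k _ hmem)))
      rw [show applyM L c ^^^ applyClassWord 13 w (rotN k (applyM L c)) =
        Nat.xor (applyM L c) (applyClassWord 13 w (rotN k (applyM L c))) from rfl, h] at this
      exact absurd this (by decide)
  have hproj := projOK_true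
  simp only [projOK, List.all_eq_true, Bool.and_eq_true, List.mem_range] at hproj
  intro x hxT
  have hv : kap x ∈ S := ⟨x, hxT, rfl⟩
  have hvlt := hlt _ hv
  set v := kap x with hvdef
  have hcoord : ∀ (J L C : List ℕ) (B : ℕ),
      (∀ i < 24, orbSum J (2 ^ i) = applyM L (C.getD i 0) ∧ C.getD i 0 < B) → ∀ n, B = 2 ^ n →
      ∃ c < B, orbSum J v = applyM L c := by
    intro J L C B hi n hB
    refine ⟨applyM ((List.range 24).map fun i => C.getD i 0) v, ?_, ?_⟩
    · subst hB
      have : ∀ (M : List ℕ) (m : ℕ), (∀ a ∈ M, a < 2 ^ n) → applyM M m < 2 ^ n := by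
        intro M
        induction M with
        | nil => intro m _; rw [applyM_nil]; exact Nat.two_pow_pos n
        | cons a M ih =>
          intro m h
          rw [applyM_cons]
          refine Nat.xor_lt_two_pow ?_ (ih _ fun b hb => h b (List.mem_cons_of_mem _ hb))
          split
          · exact h a List.mem_cons_self
          · exact Nat.two_pow_pos n
      refine this _ _ fun a ha => ?_
      obtain ⟨i, hi', rfl⟩ := List.mem_map.1 ha
      exact (hi i (List.mem_range.1 hi')).2
    · rw [additive_eq (f := orbSum J) (orbSum_xor J) hvlt]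
      have key : ∀ (M : List ℕ) (m : ℕ), applyM L (applyM M m) = applyM (M.map (applyM L)) m := by
        intro M
        induction M with
        | nil => intro m; simp only [applyM_nil, List.map_nil, applyM_zero]
        | cons a M ih =>
          intro m
          rw [List.map_cons, applyM_cons, applyM_cons, applyM_xor, ih]
          split
          · rfl
          · rw [applyM_zero]
      rw [key, List.map_map]
      exact congrArg (fun M => applyM M v)
        (List.map_congr_left fun i hi' => (hi i (List.mem_range.1 hi')).1.symm).symm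
  obtain ⟨a, ha, ea⟩ := hcoord (irrExps.getD 0 []) (irrSpans.getD 0 []) (irrCoords.getD 0 []) 2048
    (fun i hi => ⟨Nat.eq_of_beq_eq_true (hproj i hi).1.1.1.1.1.1, Nat.le_of_ble_eq_true (hproj i hi).1.1.1.2⟩) 11 rfl
  obtain ⟨b, hb, eb⟩ := hcoord (irrExps.getD 1 []) (irrSpans.getD 1 []) (irrCoords.getD 1 []) 2048
    (fun i hi => ⟨Nat.eq_of_beq_eq_true (hproj i hi).1.1.1.1.1.2, Nat.le_of_ble_eq_true (hproj i hi).1.1.2⟩) 11 rfl
  obtain ⟨c, hc, ec⟩ := hcoord (irrExps.getD 2 []) (irrSpans.getD 2 []) (irrCoords.getD 2 []) 4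
    (fun i hi => ⟨Nat.eq_of_beq_eq_true (hproj i hi).1.1.1.1.2, Nat.le_of_ble_eq_true (hproj i hi).1.2⟩) 2 rfl
  have ha0 := hspan _ span0_ok a ha (ea ▸ horb _ v hv)
  have hb0 := hspan _ span1_ok b hb (eb ▸ horb _ v hv)
  have hsum : orbSum (irrExps.getD 0 []) v ^^^ (orbSum (irrExps.getD 1 []) v ^^^ orbSum (irrExps.getD 2 []) v) = v := by
    have hadd : ∀ p q : ℕ,
        orbSum (irrExps.getD 0 []) (p ^^^ q) ^^^
          (orbSum (irrExps.getD 1 []) (p ^^^ q) ^^^ orbSum (irrExps.getD 2 []) (p ^^^ q)) =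
        (orbSum (irrExps.getD 0 []) p ^^^ (orbSum (irrExps.getD 1 []) p ^^^ orbSum (irrExps.getD 2 []) p)) ^^^
          (orbSum (irrExps.getD 0 []) q ^^^ (orbSum (irrExps.getD 1 []) q ^^^ orbSum (irrExps.getD 2 []) q)) := by
      intro p q
      rw [orbSum_xor, orbSum_xor, orbSum_xor]
      simp [Nat.xor_assoc, Nat.xor_left_comm, Nat.xor_comm]
    rw [additive_eq (f := fun u => orbSum (irrExps.getD 0 []) u ^^^
      (orbSum (irrExps.getD 1 []) u ^^^ orbSum (irrExps.getD 2 []) u)) hadd hvlt]
    conv_rhs => rw [← Nat.mod_eq_of_lt hvlt, ← applyM_pows]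
    exact congrArg (fun M => applyM M v)
      (List.map_congr_left fun i hi => Nat.eq_of_beq_eq_true (hproj i (List.mem_range.1 hi)).2)
  rw [ea, eb, ec, ha0, hb0, Nat.zero_xor, Nat.zero_xor] at hsum
  have hcases : ∀ c < 4, applyM (irrSpans.getD 2 []) c = 0 ∨ applyM (irrSpans.getD 2 []) c = 1380629 ∨
      (applyM (irrSpans.getD 2 []) c = 4277266 ∧ parB 12 (1380629 ^^^ applyM (irrSpans.getD 2 []) c) = true) ∨
      parB 12 (applyM (irrSpans.getD 2 []) c) = true := by decide +kernel
  rw [repOdd_spec.1]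
  rcases hcases c hc with h | h | ⟨-, h⟩ | h <;> rw [hsum] at h
  · exact Or.inl h
  · exact Or.inr h
  · have := hs _ (hx _ ⟨repOdd, hu, repOdd_spec.1⟩ _ hv)
    rw [h] at this; exact absurd this (by decide)
  · rw [hs _ hv] at h; exact absurd h (by decide)

end CfsgLib.Spor
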