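import Cfsg.Agent.Lib.SporLeechQuad
import Cfsg.Agent.Lib.SporLeechClassData

/-!
Classes of the rank-24 lattice modulo 2 as 24-bit masks in a hyperbolic basis.
-/

set_option autoImplicit false

namespace CfsgLib.Spor
open Cfsg
open scoped Pointwise

/-- Application of a matrix of masks. -/
noncomputable def applyM (M : List ℕ) : ℕ → ℕ :=
  @List.rec ℕ (fun _ => ℕ → ℕ) (fun _ => 0)
    (fun a _ ih m => forceNat m fun v => Nat.xor (Nat.mul a (Nat.land 1 v)) (ih (Nat.div v 2))) M

theorem applyM_nil (m : ℕ) : applyM [] m = 0 := rfl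

theorem applyM_cons (a : ℕ) (M : List ℕ) (m : ℕ) :
    applyM (a :: M) m = (if m % 2 = 1 then a else 0) ^^^ applyM M (m / 2) := by
  show forceNat m (fun v => Nat.xor (Nat.mul a (Nat.land 1 v)) (applyM M (Nat.div v 2))) = _
  rw [forceNat_eq]
  show a * (1 &&& m) ^^^ applyM M (m / 2) = _
  rw [Nat.and_comm, Nat.and_one_is_mod]
  rcases Nat.mod_two_eq_zero_or_one m with h | h <;> simp [h]

theorem applyM_append (A : List ℕ) (a : ℕ) : ∀ m, applyM (A ++ [a]) m =
    applyM A m ^^^ (if m / 2 ^ A.length % 2 = 1 then a else 0) := by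
  induction A with
  | nil => intro m; simp [applyM_cons, applyM_nil]
  | cons b A ih =>
    intro m
    rw [List.cons_append, applyM_cons, applyM_cons, ih, Nat.xor_assoc, Nat.div_div_eq_div_mul]
    simp [pow_succ, mul_comm]

theorem applyM_pows : ∀ n m, applyM ((List.range n).map (2 ^ ·)) m = m % 2 ^ n
  | 0, m => by simp [applyM_nil, Nat.mod_one]
  | n + 1, m => by
    rw [List.range_succ, List.map_append, List.map_singleton, applyM_append, applyM_pows n m]
    simp only [List.length_map, List.length_range]
    apply Nat.eq_of_testBit_eq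
    intro i
    have hb : decide (m / 2 ^ n % 2 = 1) = m.testBit n := by rw [Nat.testBit_eq_decide_div_mod_eq]
    rw [Nat.testBit_xor, Nat.testBit_mod_two_pow, Nat.testBit_mod_two_pow]
    by_cases hc : m / 2 ^ n % 2 = 1
    · rw [if_pos hc, Nat.testBit_two_pow]
      by_cases hin : n = i
      · subst hin; simp [hc] at hb; simp [← hb]
      · simp [hin, show i < n + 1 ↔ i < n by omega]
    · rw [if_neg hc]
      by_cases hin : n = i
      · subst hin; simp [hc] at hb; simp [← hb]
      · simp [show i < n + 1 ↔ i < n by omega]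

/-- The numbered coordinates of the `k`-th hyperbolic vector. -/
def hypN (k i : ℕ) : ℤ := (hypVecs.getD k []).getD i 0

/-- The class mask of a numbered vector. -/
def kapN (f : ℕ → ℤ) : ℕ :=
  fromBits ((List.range 24).map fun k =>
    decide (((List.range 24).map fun i => f i * hypN (k ^^^ 1) i).sum / 8 % 2 = 1))

/-- The class mask of a lattice vector. -/
def kap (x : leechLattice) : ℕ :=
  fromBits ((List.range 24).map fun k =>
    decide (dotInt (x : GolayPt → ℤ) (ofN (hypN (k ^^^ 1))) / 8 % 2 = 1))

theorem kap_eq_kapN {x : leechLattice} {f : ℕ → ℤ} (h : (x : GolayPt → ℤ) = ofN f) : kap x = kapN f := by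
  rw [kap, kapN, h]
  congr 1
  refine List.map_congr_left fun k _ => ?_
  rw [show dotInt (ofN f) (ofN (hypN (k ^^^ 1))) = _ from sum_ix (fun i => f i * hypN (k ^^^ 1) i)]

theorem hypN_valid : (List.range 24).all (fun k => isLeechN (hypN k)) = true := by decide +kernel

/-- The `k`-th hyperbolic vector in the lattice. -/
noncomputable def hypV (k : ℕ) : leechLattice := latN (hypN k)

theorem hypV_val {k : ℕ} (hk : k < 24) : (hypV k : GolayPt → ℤ) = ofN (hypN k) :=
  latN_mem (List.all_eq_true.1 hypN_valid k (List.mem_range.2 hk))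

theorem kap_lt (x : leechLattice) : kap x < 2 ^ 24 := by
  simpa [kap] using fromBits_lt ((List.range 24).map fun k =>
    decide (dotInt (x : GolayPt → ℤ) (ofN (hypN (k ^^^ 1))) / 8 % 2 = 1))

theorem testBit_kap (x : leechLattice) (k : ℕ) :
    (kap x).testBit k = (decide (k < 24) && decide (dotInt (x : GolayPt → ℤ) (ofN (hypN (k ^^^ 1))) / 8 % 2 = 1)) := by
  rw [kap, testBit_fromBits]
  by_cases hk : k < 24
  · simp [List.getD, List.getElem?_range hk, hk]
  · simp [List.getD, hk]

theorem kap_add (x y : leechLattice) : kap (x + y) = kap x ^^^ kap y := by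
  apply Nat.eq_of_testBit_eq
  intro k
  rw [Nat.testBit_xor, testBit_kap, testBit_kap, testBit_kap]
  by_cases hk : k < 24
  · have hk1 : k ^^^ 1 < 24 := by revert k; decide
    obtain ⟨a, ha⟩ := eight_dvd_dotInt x.2 (hypV_val hk1 ▸ (hypV (k ^^^ 1)).2)
    obtain ⟨b, hb⟩ := eight_dvd_dotInt y.2 (hypV_val hk1 ▸ (hypV (k ^^^ 1)).2)
    have hadd : dotInt ((x + y : leechLattice) : GolayPt → ℤ) (ofN (hypN (k ^^^ 1))) = 8 * (a + b) := by
      rw [AddSubgroup.coe_add, dot_par_add_left.dotInt_add, ha, hb]; ring
    simp only [hk, decide_true, Bool.true_and, hadd, ha, hb, Int.mul_ediv_cancel_left _ (show (8 : ℤ) ≠ 0 by norm_num)]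
    rcases Int.emod_two_eq_zero_or_one a with h | h <;> rcases Int.emod_two_eq_zero_or_one b with h' | h' <;>
      simp [h, h', Int.add_emod]
  · simp [hk]

theorem kap_zero : kap 0 = 0 := by
  have h := kap_add 0 0
  rwa [add_zero, Nat.xor_self] at h

theorem kap_double (x : leechLattice) : kap (x + x) = 0 := by rw [kap_add, Nat.xor_self]

theorem kap_add_double (x w : leechLattice) : kap (x + (w + w)) = kap x := by
  rw [kap_add, kap_double, Nat.xor_zero]

theorem kap_neg (x : leechLattice) : kap (-x) = kap x := by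
  rw [show -x = x + (-x + -x) by abel, kap_add_double]

/-- The sum of the members of a list selected by the bits of a mask. -/
noncomputable def selSum (L : List leechLattice) (m : ℕ) : leechLattice := (selN L m).sum

theorem selSum_nil (m : ℕ) : selSum [] m = 0 := rfl

theorem selSum_cons (a : leechLattice) (L : List leechLattice) (m : ℕ) :
    selSum (a :: L) m = (if m % 2 = 1 then a else 0) + selSum L (m / 2) := by
  simp only [selSum, selN]; split <;> simp

theorem selSum_xor : ∀ (L : List leechLattice) (a b : ℕ),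
    ∃ w, selSum L (a ^^^ b) = selSum L a + selSum L b + (w + w)
  | [], a, b => ⟨0, by simp [selSum_nil]⟩
  | x :: L, a, b => by
    obtain ⟨w, hw⟩ := selSum_xor L (a / 2) (b / 2)
    have hd : (a ^^^ b) / 2 = a / 2 ^^^ b / 2 := Nat.xor_div_two
    have hm : (a ^^^ b) % 2 = (a % 2 + b % 2) % 2 := by
      have := Nat.testBit_xor a b 0
      simp only [Nat.testBit_zero] at this
      rcases Nat.mod_two_eq_zero_or_one a with h | h <;> rcases Nat.mod_two_eq_zero_or_one b with h' | h' <;>
        simp [h, h'] at this ⊢ <;> omega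
    simp only [selSum_cons, hd, hw, hm]
    rcases Nat.mod_two_eq_zero_or_one a with h | h <;> rcases Nat.mod_two_eq_zero_or_one b with h' | h' <;>
      simp only [h, h', if_true, if_false, Nat.zero_ne_one, show (0 + 0) % 2 = 0 by rfl, show (0 + 1) % 2 = 1 by rfl,
        show (1 + 0) % 2 = 1 by rfl, show (1 + 1) % 2 = 0 by rfl]
    · exact ⟨w, by abel⟩
    · exact ⟨w, by abel⟩
    · exact ⟨w, by abel⟩
    · exact ⟨w - x, by abel⟩

theorem kap_selSum : ∀ (L : List leechLattice) (m : ℕ), kap (selSum L m) = applyM (L.map kap) m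
  | [], m => kap_zero
  | a :: L, m => by
    rw [selSum_cons, kap_add, kap_selSum L (m / 2), List.map_cons, applyM_cons]
    split <;> simp [kap_zero]

/-- The hyperbolic basis as lattice vectors. -/
noncomputable def hypList : List leechLattice := (List.range 24).map hypV

theorem kapN_hyp : (List.range 24).all (fun k => decide (kapN (hypN k) = 2 ^ k)) = true := by decide +kernel

theorem kap_hypList : hypList.map kap = (List.range 24).map (2 ^ ·) := by
  rw [hypList, List.map_map]
  refine List.map_congr_left fun k hk => ?_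
  rw [Function.comp, kap_eq_kapN (hypV_val (List.mem_range.1 hk))]
  simpa using List.all_eq_true.1 kapN_hyp k hk

theorem kap_lift {m : ℕ} (hm : m < 2 ^ 24) : kap (selSum hypList m) = m := by
  rw [kap_selSum, kap_hypList, applyM_pows, Nat.mod_eq_of_lt hm]

/-- Numbered coordinates of a selected sum of hyperbolic vectors. -/
def hypSumN : List ℕ → ℕ → ℤ
  | [], _ => 0
  | k :: l, i => hypN k i + hypSumN l i

theorem hypGen_ok : ((List.range leechGenN.length).all fun k =>
    congrN (leechGenN.getD k (fun _ => 0))
      (hypSumN (selN (List.range 24) (kapN (leechGenN.getD k (fun _ => 0)))))) = true := by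
  decide +kernel

theorem selN_map {α β : Type} (f : α → β) : ∀ (L : List α) (m : ℕ), selN (L.map f) m = (selN L m).map f
  | [], _ => rfl
  | a :: L, m => by
    simp only [List.map_cons, selN, selN_map f L]
    split <;> simp

theorem sum_hypV : ∀ {l : List ℕ}, (∀ k ∈ l, k < 24) →
    (((l.map hypV).sum : leechLattice) : GolayPt → ℤ) = ofN (hypSumN l)
  | [], _ => by funext p; simp [hypSumN, ofN]
  | k :: l, h => by
    rw [List.map_cons, List.sum_cons, AddSubgroup.coe_add, hypV_val (h k List.mem_cons_self),
      sum_hypV fun u hu => h u (List.mem_cons_of_mem _ hu)]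
    rfl

theorem exists_lift (x : leechLattice) : ∃ w, x = selSum hypList (kap x) + (w + w) := by
  let T : AddSubgroup leechLattice :=
    { carrier := {x | ∃ w, x = selSum hypList (kap x) + (w + w)}
      zero_mem' := ⟨0, by
        rw [kap_zero, hypList, selSum, selN_map]
        have : selN (List.range 24) 0 = [] := by decide
        simp [this]⟩
      add_mem' := by
        rintro a b ⟨u, hu⟩ ⟨v, hv⟩
        obtain ⟨w, hw⟩ := selSum_xor hypList (kap a) (kap b)
        refine ⟨u + v - w, ?_⟩
        rw [kap_add, hw]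
        nth_rw 1 [hu, hv]
        abel
      neg_mem' := by
        rintro a ⟨u, hu⟩
        refine ⟨u - a, ?_⟩
        rw [kap_neg]
        generalize hs : selSum hypList (kap a) = s at hu ⊢
        rw [show s = a - (u + u) by rw [hu]; abel]
        abel }
  have hle : leechLattice ≤ T.map leechLattice.subtype := leech_le_of_gens fun f hf => by
    obtain ⟨k, hk, rfl⟩ := List.mem_iff_getElem.1 hf
    have hc := List.all_eq_true.1 hypGen_ok k (List.mem_range.2 hk)
    rw [List.getD_eq_getElem?_getD, List.getElem?_eq_getElem hk, Option.getD_some] at hc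
    set l := selN (List.range 24) (kapN leechGenN[k]) with hl
    have hlt : ∀ j ∈ l, j < 24 := fun j hj => List.mem_range.1 (mem_of_mem_selN hj)
    obtain ⟨z, hz, e⟩ := congrN_spec hc
    have hy : ((selSum hypList (kapN leechGenN[k]) + (⟨z, hz⟩ + ⟨z, hz⟩) : leechLattice) : GolayPt → ℤ)
        = ofN leechGenN[k] := by
      rw [AddSubgroup.coe_add, selSum, hypList, selN_map, sum_hypV hlt]
      exact e.symm
    exact ⟨_, ⟨⟨z, hz⟩, by rw [kap_eq_kapN hy]⟩, hy⟩
  obtain ⟨y, hy, e⟩ := hle x.2
  rwa [← Subtype.ext (show (y : GolayPt → ℤ) = x from e)]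

theorem kap_eq_iff {x y : leechLattice} : kap x = kap y ↔ ∃ w, x = y + (w + w) := by
  refine ⟨fun h => ?_, fun ⟨w, hw⟩ => by rw [hw, kap_add_double]⟩
  obtain ⟨u, hu⟩ := exists_lift x
  obtain ⟨v, hv⟩ := exists_lift y
  refine ⟨u - v, ?_⟩
  rw [h] at hu
  rw [hu]; nth_rw 2 [hv]; abel

theorem kap_eq_zero_iff {x : leechLattice} : kap x = 0 ↔ ∃ w, x = w + w := by
  rw [← kap_zero, kap_eq_iff]; simp

theorem Co0_smul_add (g : Co0) (x y : leechLattice) : g • (x + y) = g • x + g • y := g.2.1 x y

theorem Co0_smul_zero (g : Co0) : g • (0 : leechLattice) = 0 := by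
  have h := Co0_smul_add g 0 0
  rw [add_zero] at h
  exact left_eq_add.1 h

theorem Co0_smul_neg (g : Co0) (x : leechLattice) : g • (-x) = -(g • x) := by
  have h := Co0_smul_add g x (-x)
  rw [add_neg_cancel, Co0_smul_zero] at h
  exact eq_neg_of_add_eq_zero_right h.symm

theorem Co0_sqNorm (g : Co0) (x : leechLattice) :
    sqNorm ((g • x : leechLattice) : GolayPt → ℤ) = sqNorm (x : GolayPt → ℤ) := g.2.2 x

theorem kap_smul_congr (g : Co0) {x y : leechLattice} (h : kap x = kap y) : kap (g • x) = kap (g • y) := by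
  obtain ⟨w, hw⟩ := kap_eq_iff.1 h
  rw [hw, Co0_smul_add, Co0_smul_add, kap_add_double]

theorem kap_smul (g : Co0) (x : leechLattice) :
    kap (g • x) = applyM (hypList.map fun h => kap (g • h)) (kap x) := by
  have hs : ∀ (L : List leechLattice) (m : ℕ), g • selSum L m = selSum (L.map (g • ·)) m := by
    intro L
    induction L with
    | nil => intro m; exact Co0_smul_zero g
    | cons a L ih =>
      intro m
      rw [List.map_cons, selSum_cons, selSum_cons, Co0_smul_add, ih]
      split <;> simp [Co0_smul_zero]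
  obtain ⟨w, hw⟩ := exists_lift x
  conv_lhs => rw [hw, Co0_smul_add, Co0_smul_add, kap_add_double, hs, kap_selSum, List.map_map]
  rfl

/-! ### The norm parity of a class -/

theorem two_mul_xor_one (s : ℕ) : 2 * s ^^^ 1 = 2 * s + 1 := by
  apply Nat.eq_of_testBit_eq
  intro i
  cases i with
  | zero => simp [Nat.testBit_zero]
  | succ i => simp [Nat.testBit_succ, show (2 * s + 1) / 2 = s by omega]

theorem two_mul_add_one_xor_one (s : ℕ) : (2 * s + 1) ^^^ 1 = 2 * s := by
  rw [← two_mul_xor_one, Nat.xor_assoc, Nat.xor_self, Nat.xor_zero]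

theorem dot_par_add_right (x y z : leechLattice) :
    ((dotInt (x : GolayPt → ℤ) ((y + z : leechLattice) : GolayPt → ℤ) / 8 : ℤ) : ZMod 2) =
      ((dotInt (x : GolayPt → ℤ) y / 8 : ℤ) : ZMod 2) + ((dotInt (x : GolayPt → ℤ) z / 8 : ℤ) : ZMod 2) := by
  rw [dot_par_comm x, dot_par_add_left, dot_par_comm y, dot_par_comm z]

/-- The quadratic form of a class mask, by hyperbolic pairs. -/
def parN : ℕ → ℕ → ZMod 2
  | 0, _ => 0
  | n + 1, m => (if m % 4 = 3 then 1 else 0) + parN n (m / 4)

/-- Numbered inner-product parity. -/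
def dotPar (a b : ℕ) : Bool := decide (((List.range 24).map fun i => hypN a i * hypN b i).sum / 8 % 2 = 1)

theorem hyp_form : (List.range 24).all (fun a => (List.range 24).all fun b =>
    (dotPar a b == decide (a ^^^ 1 = b)) &&
      decide (((List.range 24).map fun i => hypN a i * hypN a i).sum / 16 % 2 = 0)) = true := by decide +kernel

theorem hyp_dot {a b : ℕ} (ha : a < 24) (hb : b < 24) :
    ((dotInt (hypV a : GolayPt → ℤ) (hypV b) / 8 : ℤ) : ZMod 2) = if a ^^^ 1 = b then 1 else 0 := by
  have h := List.all_eq_true.1 (List.all_eq_true.1 hyp_form a (List.mem_range.2 ha)) b (List.mem_range.2 hb)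
  simp only [Bool.and_eq_true, beq_iff_eq, decide_eq_true_eq] at h
  rw [hypV_val ha, hypV_val hb, show dotInt (ofN (hypN a)) (ofN (hypN b)) = _ from sum_ix (fun i => hypN a i * hypN b i)]
  have h1 := h.1
  simp only [dotPar, decide_eq_decide] at h1
  generalize ((List.range 24).map fun i => hypN a i * hypN b i).sum / 8 = n at h1
  rcases Int.emod_two_eq_zero_or_one n with e | e
  · rw [if_neg (fun hh => by have := h1.2 hh; omega)]
    exact (ZMod.intCast_zmod_eq_zero_iff_dvd _ 2).2 (Int.dvd_of_emod_eq_zero e)
  · rw [if_pos (h1.1 e), ← ZMod.intCast_mod _ 2]; push_cast; rw [e]; rfl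

theorem hyp_normPar {a : ℕ} (ha : a < 24) : normPar (hypV a) = 0 := by
  have h := List.all_eq_true.1 (List.all_eq_true.1 hyp_form a (List.mem_range.2 ha)) a (List.mem_range.2 ha)
  simp only [Bool.and_eq_true, decide_eq_true_eq] at h
  rw [normPar, hypV_val ha, show sqNorm (ofN (hypN a)) = _ from sum_ix (fun i => hypN a i ^ 2),
    ZMod.intCast_zmod_eq_zero_iff_dvd]
  simp only [sq]
  exact Int.dvd_of_emod_eq_zero h.2

theorem normPar_selSum : ∀ (n s m : ℕ), s + n = 12 →
    normPar (selSum ((List.range' (2 * s) (2 * n)).map hypV) m) = parN n m := by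
  intro n
  induction n with
  | zero => intro s m _; simp [selSum_nil, parN, normPar, sqNorm]
  | succ n ih =>
    intro s m hs
    rw [show 2 * (n + 1) = 2 * n + 1 + 1 by ring, List.range'_succ, List.range'_succ, List.map_cons, List.map_cons,
      selSum_cons, selSum_cons, show 2 * s + 1 + 1 = 2 * (s + 1) by ring, Nat.div_div_eq_div_mul]
    have hr := ih (s + 1) (m / (2 * 2)) (by omega)
    have hperp : ∀ a, a = 2 * s ∨ a = 2 * s + 1 → ∀ (l : List ℕ) (k : ℕ), (∀ b ∈ l, 2 * (s + 1) ≤ b ∧ b < 24) →
        ((dotInt (hypV a : GolayPt → ℤ) (selSum (l.map hypV) k) / 8 : ℤ) : ZMod 2) = 0 := by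
      intro a ha l
      induction l with
      | nil => intro k _; simp [selSum_nil, dotInt]
      | cons b l ih =>
        intro k hl
        rw [List.map_cons, selSum_cons, dot_par_comm, dot_par_add_left, dot_par_comm _ (hypV a),
          dot_par_comm _ (hypV a), ih (k / 2) (fun c hc => hl c (List.mem_cons_of_mem _ hc)), add_zero]
        split
        · have hb := hl b List.mem_cons_self
          rw [hyp_dot (by omega) hb.2, if_neg]
          intro e
          have : a ^^^ 1 < 2 * (s + 1) := by
            rcases ha with rfl | rfl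
            · rw [two_mul_xor_one]; omega
            · rw [two_mul_add_one_xor_one]; omega
          omega
        · simp [dotInt]
    have hl : ∀ b ∈ List.range' (2 * (s + 1)) (2 * n), 2 * (s + 1) ≤ b ∧ b < 24 := fun b hb => by
      simp [List.mem_range'] at hb; omega
    have he := hperp _ (Or.inl rfl) _ (m / (2 * 2)) hl
    have hf := hperp _ (Or.inr rfl) _ (m / (2 * 2)) hl
    have hef : ((dotInt (hypV (2 * s) : GolayPt → ℤ) (hypV (2 * s + 1)) / 8 : ℤ) : ZMod 2) = 1 := by
      rw [hyp_dot (by omega) (by omega), if_pos (two_mul_xor_one s)]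
    have h0 : normPar (0 : leechLattice) = 0 := by simp [normPar, sqNorm]
    have hz : ∀ y : leechLattice, ((dotInt ((0 : leechLattice) : GolayPt → ℤ) y / 8 : ℤ) : ZMod 2) = 0 := fun y => by
      simp [dotInt]
    rw [parN, show m / 4 = m / (2 * 2) by norm_num]
    have hm4 : m % 4 = 3 ↔ m % 2 = 1 ∧ m / 2 % 2 = 1 := by omega
    simp only [hm4]
    by_cases h1 : m % 2 = 1 <;> by_cases h2 : m / 2 % 2 = 1 <;>
      simp only [h1, h2, if_true, if_false, and_self, and_false, false_and] <;>
      simp only [normPar_add, dot_par_add_right, hyp_normPar (show 2 * s < 24 by omega),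
        hyp_normPar (show 2 * s + 1 < 24 by omega), he, hf, hef, hr, h0, hz, zero_add, add_zero] <;> ring

theorem normPar_eq_parN (x : leechLattice) : normPar x = parN 12 (kap x) := by
  obtain ⟨w, hw⟩ := exists_lift x
  conv_lhs => rw [hw, isInvQuad_normPar.coset]
  rw [hypList, List.range_eq_range']
  exact normPar_selSum 12 0 (kap x) rfl

/-- The number of singular masks with `n` pairs. -/
theorem card_singular_masks : ((Finset.range (4 ^ 12)).filter fun m => parN 12 m = 0).card = 8390656 := by
  have step : ∀ n, ((Finset.range (4 ^ (n + 1))).filter fun m => parN (n + 1) m = 0).card + 0 =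
      2 * ((Finset.range (4 ^ n)).filter fun m => parN n m = 0).card + 4 ^ n := by
    intro n
    have e : (Finset.range (4 ^ (n + 1))).filter (fun m => parN (n + 1) m = 0) =
        (((Finset.range 4) ×ˢ Finset.range (4 ^ n)).filter fun p => (if p.1 = 3 then (1 : ZMod 2) else 0) + parN n p.2 = 0).image
          (fun p => p.1 + 4 * p.2) := by
      ext m
      simp only [Finset.mem_filter, Finset.mem_range, Finset.mem_image, Finset.mem_product, Prod.exists, parN, pow_succ]
      constructor
      · rintro ⟨hm, hp⟩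
        exact ⟨m % 4, m / 4, ⟨⟨Nat.mod_lt _ (by norm_num), by omega⟩, hp⟩, by omega⟩
      · rintro ⟨a, b, ⟨⟨ha, hb⟩, hp⟩, rfl⟩
        refine ⟨by omega, ?_⟩
        rw [show (a + 4 * b) % 4 = a by omega, show (a + 4 * b) / 4 = b by omega]
        exact hp
    rw [add_zero, e, Finset.card_image_of_injOn]
    · rw [Finset.card_filter, Finset.sum_product, Finset.sum_range_succ, Finset.sum_range_succ, Finset.sum_range_succ,
        Finset.sum_range_one]
      simp only [show ¬ (0 = 3) by norm_num, show ¬ (1 = 3) by norm_num, show ¬ (2 = 3) by norm_num, if_false, if_true,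
        zero_add, ← Finset.card_filter]
      have hc := Finset.card_filter_add_card_filter_not (s := Finset.range (4 ^ n)) (fun m => parN n m = 0)
      rw [Finset.card_range] at hc
      have h1 : (Finset.range (4 ^ n)).filter (fun m => (1 : ZMod 2) + parN n m = 0) =
          (Finset.range (4 ^ n)).filter (fun m => ¬ parN n m = 0) :=
        Finset.filter_congr fun m _ => by generalize parN n m = u; revert u; decide
      rw [h1]; omega
    · intro p hp q hq h
      simp only [Finset.coe_filter, Finset.mem_product, Finset.mem_range, Set.mem_setOf_eq] at hp hq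
      simp only at h
      exact Prod.ext (by omega) (by omega)
  have h0 : ((Finset.range (4 ^ 0)).filter fun m => parN 0 m = 0).card = 1 := by decide
  have key : ∀ n, 2 * ((Finset.range (4 ^ n)).filter fun m => parN n m = 0).card = 4 ^ n + 2 ^ n := by
    intro n
    induction n with
    | zero => rw [h0]; norm_num
    | succ n ih => have := step n; rw [pow_succ, pow_succ]; rw [pow_succ] at this; omega
  have := key 12
  norm_num at this ⊢
  omega

end CfsgLib.Spor
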