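import Cfsg.Agent.Lib.SporLeechCross
import Cfsg.Agent.Lib.SporM24Classes

/-!
A square root of negation; irreducibility of the lattice modulo two.
-/

set_option autoImplicit false
set_option maxRecDepth 20000

namespace CfsgLib.Spor
open Cfsg

theorem root_facts : validL (repsTwo.getD 1 []) = true ∧ listInCodeGroup (repsTwo.getD 1 []) = true ∧
    inCode 11079636 = true ∧
    ((List.range 24).all fun i => Nat.beq ((repsTwo.getD 1 []).getD ((repsTwo.getD 1 []).getD i 0) 0) i &&
      (Nat.testBit 11079636 ((repsTwo.getD 1 []).getD i 0) != Nat.testBit 11079636 i)) = true := by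
  decide +kernel

theorem exists_sq_negAut : ∃ g : Co0, g * g = negAut := by
  obtain ⟨hv, hcg, hc, hall⟩ := root_facts
  have hr := rep_permOf hv
  refine ⟨monoAut (⟨setOfMask 11079636, setOfMask_mem_codeSets (inCode_iff.1 hc)⟩,
    ⟨permOf (repsTwo.getD 1 []), hr.mem_M24 hcg⟩), ?_⟩
  refine eq_of_smul_eq_smul fun x : leechLattice => Subtype.ext (funext fun p => ?_)
  have h := List.all_eq_true.1 hall (ix p) (List.mem_range.2 (ix_lt p))
  simp only [Bool.and_eq_true, Nat.beq_eq, bne_iff_ne, ← hr p, ← hr (permOf (repsTwo.getD 1 []) p)] at h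
  obtain ⟨h2, h3⟩ := h
  rw [negAut_smul, mul_smul, monoAut_smul, monoAut_smul]
  simp only [AddSubgroup.coe_neg, Pi.neg_apply, mem_setOfMask, ix_inj h2]
  by_cases hp : Nat.testBit 11079636 (ix p) = true
  · rw [if_pos hp, if_neg fun e => h3 (e.trans hp.symm)]
  · rw [if_neg hp, if_pos]
    cases e : Nat.testBit 11079636 (ix (permOf (repsTwo.getD 1 []) p)) with
    | true => rfl
    | false => exact absurd (e.trans (Bool.not_eq_true _ ▸ hp).symm) h3

theorem negAut_ne_one : negAut ≠ (1 : Co0) := fun e => by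
  have h := negAut_smul repTwo
  rw [e, one_smul] at h
  have h2 := congrArg (fun v : leechLattice => (v : GolayPt → ℤ)) h
  simp only [AddSubgroup.coe_neg] at h2
  have : sqNorm (repTwo : GolayPt → ℤ) = 0 := by
    rw [sqNorm]
    refine Finset.sum_eq_zero fun p _ => ?_
    have := congrFun h2 p
    simp only [Pi.neg_apply] at this
    rw [show (repTwo : GolayPt → ℤ) p = 0 by omega]
    rfl
  rw [sqNorm_repTwo] at this
  norm_num at this

theorem orderOf_negAut : orderOf negAut = 2 :=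
  orderOf_eq_prime (hp := ⟨Nat.prime_two⟩) (by
    rw [pow_two]; exact eq_of_smul_eq_smul fun x : leechLattice => by
      rw [mul_smul, negAut_smul, negAut_smul, neg_neg, one_smul]) negAut_ne_one

theorem negAut_mem_center : negAut ∈ Subgroup.center Co0 := center_Co0.2 (Or.inr rfl)

theorem not_complement (K : Subgroup Co0) : ¬ (Subgroup.zpowers negAut).IsComplement' K := by
  intro hK
  obtain ⟨g, hg⟩ := exists_sq_negAut
  obtain ⟨⟨n, k⟩, e⟩ := hK.2 g
  have hn : (n : Co0) * n = 1 := by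
    obtain ⟨i, hi⟩ := n.2
    simp only at hi
    rw [← hi, ← zpow_add, ← two_mul, zpow_mul, show negAut ^ (2 : ℤ) = 1 from ?_, one_zpow]
    rw [show (2 : ℤ) = ((2 : ℕ) : ℤ) from rfl, zpow_natCast, ← orderOf_negAut, pow_orderOf_eq_one]
  have hnc : Commute (n : Co0) k := by
    have : (n : Co0) ∈ Subgroup.center Co0 := Subgroup.zpowers_le.2 negAut_mem_center n.2
    exact (Subgroup.mem_center_iff.1 this k).symm
  have hk : negAut = (k : Co0) * k := by
    simp only at e
    rw [← hg, ← e, hnc.symm.mul_mul_mul_comm, hn, one_mul]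
  have hmem : negAut ∈ Subgroup.zpowers negAut ⊓ K :=
    ⟨Subgroup.mem_zpowers _, hk ▸ mul_mem k.2 k.2⟩
  rw [hK.disjoint.eq_bot] at hmem
  exact negAut_ne_one (Subgroup.mem_bot.1 hmem)

/-- The two vectors of square length 64. -/
def fourA : ℕ → ℤ := fun i => if i < 4 then 4 else 0

/-- The second one. -/
def fourB : ℕ → ℤ := fun i => if i < 3 then 4 else if i = 4 then 4 else 0

/-- A second vector of square length 48. -/
def threeB : ℕ → ℤ := fun i => (if i = 23 then -5 else -1) + (if Nat.testBit 5279 i then 2 else 0)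

theorem modTwo_data :
    (isLeechN fourA && isLeechN fourB && isLeechN threeB &&
      decide (((List.range 24).map fun i => fourA i ^ 2).sum = 64) &&
      decide (((List.range 24).map fun i => fourB i ^ 2).sum = 64) &&
      decide (((List.range 24).map fun i => (fourA i - fourB i) ^ 2).sum = 32) &&
      decide (((List.range 24).map fun i => threeB i ^ 2).sum = 48) &&
      decide (((List.range 24).map fun i => ((if i = 23 then -5 else -1) - threeB i) ^ 2).sum = 32)) = true := by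
  decide +kernel

theorem four_pair : ∃ a b : leechLattice, sqNorm ((a - b : leechLattice) : GolayPt → ℤ) = 32 ∧
    sqNorm (a : GolayPt → ℤ) = 64 ∧ sqNorm (b : GolayPt → ℤ) = 64 := by
  have h := modTwo_data
  simp only [Bool.and_eq_true, decide_eq_true_eq] at h
  obtain ⟨⟨⟨⟨⟨⟨⟨hA, hB⟩, -⟩, nA⟩, nB⟩, nD⟩, -⟩, -⟩ := h
  refine ⟨latN fourA, latN fourB, ?_, ?_, ?_⟩
  · rw [AddSubgroup.coe_sub, latN_mem hA, latN_mem hB, show ofN fourA - ofN fourB = ofN (fun i => fourA i - fourB i) from rfl,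
      sqNorm_ofN]; exact nD
  · rw [latN_mem hA, sqNorm_ofN]; exact nA
  · rw [latN_mem hB, sqNorm_ofN]; exact nB

theorem three_pair : ∃ a b : leechLattice, sqNorm ((a - b : leechLattice) : GolayPt → ℤ) = 32 ∧
    sqNorm (a : GolayPt → ℤ) = 48 ∧ sqNorm (b : GolayPt → ℤ) = 48 := by
  have h := modTwo_data
  simp only [Bool.and_eq_true, decide_eq_true_eq] at h
  obtain ⟨⟨⟨⟨⟨⟨⟨-, -⟩, hB⟩, -⟩, -⟩, -⟩, nB⟩, nD⟩ := h
  refine ⟨repThree, latN threeB, ?_, sqNorm_repThree, ?_⟩
  · rw [AddSubgroup.coe_sub, repThree_val, latN_mem hB,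
      show ofN (fun i => if i = 23 then -5 else -1) - ofN threeB =
        ofN (fun i => (if i = 23 then -5 else -1) - threeB i) from rfl,
      sqNorm_ofN]; exact nD
  · rw [latN_mem hB, sqNorm_ofN]; exact nB

theorem lattice_gen (T : AddSubgroup leechLattice) (h2 : ∀ w, w + w ∈ T)
    (hmin : ∀ x : leechLattice, sqNorm (x : GolayPt → ℤ) = 32 → x ∈ T) (x : leechLattice) : x ∈ T := by
  have hle : leechLattice ≤ T.map leechLattice.subtype := by
    conv_lhs => rw [← closure_minimal]
    exact (AddSubgroup.closure_le _).2 fun v hv => ⟨⟨v, hv.1⟩, hmin ⟨v, hv.1⟩ hv.2, rfl⟩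
  obtain ⟨y, hy, e⟩ := hle x.2
  rwa [← Subtype.ext (show (y : GolayPt → ℤ) = x from e)]

theorem min_of_type (T : AddSubgroup leechLattice) (h2 : ∀ w, w + w ∈ T) (hinv : ∀ g : Co0, ∀ v ∈ T, g • v ∈ T)
    (r : leechLattice) (hr : r ∈ T) (x : leechLattice) (g : Co0) (h : kap (g • x) = kap r) : x ∈ T := by
  obtain ⟨w, e⟩ := kap_eq_iff.1 h
  have := hinv g⁻¹ _ (add_mem hr (h2 w))
  rwa [← e, inv_smul_smul] at this

theorem kernel_mod_two {g : Co0} (h : ∀ v : leechLattice, kap (g • v) = kap v) : g ∈ Subgroup.center Co0 := by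
  obtain ⟨d, rfl⟩ := exists_monoAut (mem_frameStab.2 (h repFour))
  have hpair : ∀ a b : GolayPt, a ≠ b → ∃ ε : ℤ, (ε = 1 ∨ ε = -1) ∧ ∀ p,
      (if p ∈ (d.1 : Finset GolayPt) then -shapeFour ⟨{a, b}, ∅⟩ ((d.2 : P24) p)
        else shapeFour ⟨{a, b}, ∅⟩ ((d.2 : P24) p)) = ε * shapeFour ⟨{a, b}, ∅⟩ p := by
    intro a b hne
    obtain ⟨hm, hn⟩ := shapeFour_mem (d := ⟨{a, b}, ∅⟩) (Finset.card_pair hne)
    set m : leechLattice := ⟨_, hm⟩ with hmdef
    have hn' : sqNorm (m : GolayPt → ℤ) = 32 := hn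
    rcases short_kap (by rw [Co0_sqNorm, hn']; norm_num) (by rw [hn']; norm_num) (h m) with e | e | ⟨-, e, -⟩
    · refine ⟨1, Or.inl rfl, fun p => ?_⟩
      have := congrArg (fun v : leechLattice => (v : GolayPt → ℤ) p) e
      simp only [monoAut_smul] at this
      rw [one_mul]; exact this
    · refine ⟨-1, Or.inr rfl, fun p => ?_⟩
      have := congrArg (fun v : leechLattice => (v : GolayPt → ℤ) p) e
      simp only [monoAut_smul, AddSubgroup.coe_neg, Pi.neg_apply] at this
      rw [neg_one_mul]; exact this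
    · rw [hn'] at e; norm_num at e
  have hfix : ∀ p, (d.2 : P24) p = p := by
    intro p
    by_contra hne
    obtain ⟨b, hb⟩ := Finset.exists_mem_notMem_of_card_lt_card (s := ({p, (d.2 : P24) p} : Finset GolayPt))
      (t := Finset.univ) (by rw [Finset.card_pair (Ne.symm hne), Finset.card_univ, card_GolayPt]; norm_num)
    simp only [Finset.mem_insert, Finset.mem_singleton, not_or] at hb
    obtain ⟨ε, hε, hp⟩ := hpair p b (Ne.symm hb.2.1)
    have := hp p
    simp [shapeFour, hne, Ne.symm hb.2.2] at this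
    omega
  have hsame : ∀ a b, a ∈ (d.1 : Finset GolayPt) → b ∈ (d.1 : Finset GolayPt) := by
    intro a b ha
    by_cases hab : a = b
    · exact hab ▸ ha
    by_contra hb
    obtain ⟨ε, hε, hp⟩ := hpair a b hab
    have h1 := hp a
    have h2 := hp b
    simp [shapeFour, ha, hb, hfix] at h1 h2
    omega
  rw [center_Co0]
  by_cases hc : ∃ a, a ∈ (d.1 : Finset GolayPt)
  · obtain ⟨a, ha⟩ := hc
    refine Or.inr (eq_of_smul_eq_smul fun x : leechLattice => Subtype.ext (funext fun p => ?_))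
    rw [monoAut_smul, if_pos (hsame a p ha), hfix, negAut_smul]
    rfl
  · push Not at hc
    refine Or.inl (eq_of_smul_eq_smul fun x : leechLattice => Subtype.ext (funext fun p => ?_))
    rw [monoAut_smul, if_neg (hc p), hfix, one_smul]

theorem irreducible_mod_two (T : AddSubgroup leechLattice) (h2 : ∀ w, w + w ∈ T)
    (hinv : ∀ g : Co0, ∀ v ∈ T, g • v ∈ T) : (∀ x ∈ T, kap x = 0) ∨ ∀ x, x ∈ T := by
  by_contra hcon
  push Not at hcon
  obtain ⟨⟨x, hx, h0⟩, hne⟩ := hcon
  obtain ⟨y, hy⟩ := hne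
  refine hy (lattice_gen T h2 (fun v hv => ?_) y)
  have hrep : ∀ r : leechLattice, ∀ g : Co0, kap (g • x) = kap r → r ∈ T := fun r g h => by
    obtain ⟨w, e⟩ := kap_eq_iff.1 h.symm
    rw [e]
    exact add_mem (hinv g x hx) (h2 w)
  -- it is enough that one shortest vector lies in `T`
  have hone : ∀ m : leechLattice, sqNorm (m : GolayPt → ℤ) = 32 → m ∈ T → v ∈ T := fun m hm hmT => by
    obtain ⟨g, hg⟩ := exists_smul_min hm
    obtain ⟨g', hg'⟩ := exists_smul_min hv
    have := hinv (g'⁻¹ * g) m hmT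
    rwa [mul_smul, hg, ← hg', inv_smul_smul] at this
  rcases exists_smul_class x h0 with ⟨g, h, -⟩ | ⟨g, h, -⟩ | ⟨g, h, -⟩
  · exact hone repTwo sqNorm_repTwo (hrep _ g h)
  · have h4 : ∀ u : leechLattice, sqNorm (u : GolayPt → ℤ) = 64 → u ∈ T := fun u hu => by
      obtain ⟨g', hg'⟩ := exists_smul_four hu
      exact min_of_type T h2 hinv repFour (hrep _ g h) u g' hg'
    obtain ⟨a, b, hab, hn1, hn2⟩ := four_pair
    exact hone (a - b) hab (sub_mem (h4 a hn1) (h4 b hn2))
  · have h3 : ∀ u : leechLattice, sqNorm (u : GolayPt → ℤ) = 48 → u ∈ T := fun u hu => by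
      obtain ⟨g', hg'⟩ := exists_smul_three hu
      exact min_of_type T h2 hinv repThree (hrep _ g h) u g' (by rw [hg'])
    obtain ⟨a, b, hab, hn1, hn2⟩ := three_pair
    exact hone (a - b) hab (sub_mem (h3 a hn1) (h3 b hn2))

end CfsgLib.Spor
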