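import Cfsg.Agent.Lib.SporLeechCount
import Cfsg.Agent.Lib.SporMathieu2

/-!
The second moment of the shortest vectors of the rank-24 lattice.
-/

set_option autoImplicit false
set_option maxRecDepth 8000

namespace CfsgLib.Spor
open Cfsg
open scoped Pointwise

/-- All shortest vectors. -/
noncomputable def minAll : Finset (GolayPt → ℤ) := minFours ∪ minTwos ∪ minOdds

theorem mem_minAll {x : GolayPt → ℤ} : x ∈ minAll ↔ x ∈ leechLattice ∧ sqNorm x = 32 := by
  show x ∈ ((minFours ∪ minTwos ∪ minOdds : Finset _) : Set (GolayPt → ℤ)) ↔ _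
  rw [← minSet_eq]; rfl

theorem card_minAll : minAll.card = 196560 := by
  rw [← ncard_minSet, minSet_eq, Set.ncard_coe_finset]; rfl

theorem moment_perm {σ : P24} (hσ : σ ∈ M24) (p q : GolayPt) :
    ∑ w ∈ minAll, w (σ p) * w (σ q) = ∑ w ∈ minAll, w p * w q := by
  refine Finset.sum_nbij' (fun w i => w (σ i)) (fun w i => w (σ⁻¹ i)) (fun w hw => ?_) (fun w hw => ?_)
    (fun w _ => funext fun i => by simp) (fun w _ => funext fun i => by simp) fun w _ => rfl
  · obtain ⟨h1, h2⟩ := mem_minAll.1 hw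
    exact mem_minAll.2 ⟨perm_mem_leech hσ h1, by rw [← h2]; exact Equiv.sum_comp σ (fun i => w i ^ 2)⟩
  · obtain ⟨h1, h2⟩ := mem_minAll.1 hw
    exact mem_minAll.2 ⟨perm_mem_leech (M24.inv_mem hσ) h1, by rw [← h2]; exact Equiv.sum_comp σ⁻¹ (fun i => w i ^ 2)⟩

theorem moment_sep {c : Finset GolayPt} (hc : c ∈ codeSets) {p q : GolayPt} (hp : p ∈ c) (hq : q ∉ c) :
    ∑ w ∈ minAll, w p * w q = 0 := by
  let f : (GolayPt → ℤ) → (GolayPt → ℤ) := fun w i => if i ∈ c then -w i else w i
  have hf : ∀ w, f (f w) = w := fun w => funext fun i => by simp only [f]; split <;> simp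
  have hmem : ∀ w ∈ minAll, f w ∈ minAll := fun w hw => by
    obtain ⟨h1, h2⟩ := mem_minAll.1 hw
    refine mem_minAll.2 ⟨sign_mem_leech hc h1, ?_⟩
    rw [← h2]
    exact Finset.sum_congr rfl fun i _ => by simp only [f]; split <;> simp
  have e : ∑ w ∈ minAll, w p * w q = ∑ w ∈ minAll, -(w p * w q) := by
    refine Finset.sum_nbij' f f hmem hmem (fun w _ => hf w) (fun w _ => hf w) fun w _ => ?_
    simp only [f, if_pos hp, if_neg hq, neg_mul, neg_neg]
  rw [Finset.sum_neg_distrib] at e
  omega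

theorem moment_ne {p q : GolayPt} (h : p ≠ q) : ∑ w ∈ minAll, w p * w q = 0 := by
  obtain ⟨g, hg, rfl, rfl⟩ := exists_M24_pair h
  rw [moment_perm hg]
  have hex : ∃ m ∈ codeMasks, (m.testBit 23 && !m.testBit 0) = true := by
    rw [← List.any_eq_true]; decide +kernel
  obtain ⟨m, hm, h2⟩ := hex
  simp only [Bool.and_eq_true, Bool.not_eq_true'] at h2
  refine moment_sep (setOfMask_mem_codeSets hm) ?_ ?_
  · rw [mem_setOfMask]; exact h2.1
  · rw [mem_setOfMask, show ix (some 0 : GolayPt) = 0 from rfl, h2.2]; simp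

theorem moment_self (p : GolayPt) : ∑ w ∈ minAll, w p * w p = 262080 := by
  have hc : ∀ q, ∑ w ∈ minAll, w q * w q = ∑ w ∈ minAll, w none * w none := fun q => by
    obtain ⟨g, hg, rfl⟩ := exists_M24_point q
    exact moment_perm hg none none
  have h : ∑ q : GolayPt, ∑ w ∈ minAll, w q * w q = 196560 * 32 := by
    rw [Finset.sum_comm]
    have : ∀ w ∈ minAll, ∑ q, w q * w q = 32 := fun w hw => by
      rw [← (mem_minAll.1 hw).2]; exact Finset.sum_congr rfl fun q _ => (pow_two (w q)).symm
    rw [Finset.sum_congr rfl this, Finset.sum_const, card_minAll]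
    simp
  rw [Finset.sum_congr rfl fun q _ => hc q, Finset.sum_const, Finset.card_univ, card_GolayPt] at h
  rw [hc p]
  simp only [nsmul_eq_mul] at h
  push_cast at h
  omega

theorem second_moment (v : GolayPt → ℤ) : ∑ w ∈ minAll, dotInt v w ^ 2 = 262080 * sqNorm v := by
  simp only [dotInt, pow_two, Finset.sum_mul_sum, sqNorm]
  rw [Finset.sum_comm]
  simp only [Finset.mul_sum]
  refine Finset.sum_congr rfl fun p _ => ?_
  rw [Finset.sum_comm, Finset.sum_eq_single p]
  · rw [Finset.sum_congr rfl fun w _ => (show v p * w p * (v p * w p) = (v p * v p) * (w p * w p) by ring),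
      ← Finset.mul_sum, moment_self]
    ring
  · intro q _ hq
    rw [Finset.sum_congr rfl fun w _ => (show v p * w p * (v q * w q) = (v p * v q) * (w p * w q) by ring),
      ← Finset.mul_sum, moment_ne hq.symm, mul_zero]
  · simp

end CfsgLib.Spor
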