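import Cfsg.Agent.Lib.SporLeechXi
import Cfsg.Agent.Lib.SporLeechQuadData
import Cfsg.Agent.Lib.SporMathieu

/-!
The only non-zero invariant quadratic function on the rank-24 lattice modulo 2 is the norm parity.
-/

set_option autoImplicit false

namespace CfsgLib.Spor
open Cfsg
open scoped Pointwise

/-- A quadratic function on the lattice modulo 2 invariant under all automorphisms. -/
structure IsInvQuad (Q : leechLattice → ZMod 2) : Prop where
  coset : ∀ v w : leechLattice, Q (v + (w + w)) = Q v
  quad : ∀ u v w : leechLattice, Q (u + v + w) + Q u + Q v + Q w = Q (u + v) + Q (u + w) + Q (v + w)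
  inv : ∀ (g : Co0) (v : leechLattice), Q (g • v) = Q v

open Classical in
/-- The lattice vector with given numbered coordinates. -/
noncomputable def latN (f : ℕ → ℤ) : leechLattice :=
  if h : ofN f ∈ leechLattice then ⟨ofN f, h⟩ else 0

theorem latN_val {f : ℕ → ℤ} (h : ofN f ∈ leechLattice) : (latN f : GolayPt → ℤ) = ofN f := by
  rw [latN, dif_pos h]

/-- The lattice vector of a code. -/
noncomputable def minV (t : MinVec) : leechLattice := latN (minN t)

theorem minV_val {t : MinVec} (h : validMin t = true) : (minV t : GolayPt → ℤ) = ofN (minN t) :=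
  latN_val (validMin_mem h)

/-- The parity of a sixteenth of the square length. -/
def normPar (x : leechLattice) : ZMod 2 := ((sqNorm (x : GolayPt → ℤ) / 16 : ℤ) : ZMod 2)

theorem normPar_add (x y : leechLattice) :
    normPar (x + y) = normPar x + normPar y + ((dotInt (x : GolayPt → ℤ) y / 8 : ℤ) : ZMod 2) := by
  simp only [normPar, AddSubgroup.coe_add, sqNorm_add, ← Int.cast_add]
  congr 1
  obtain ⟨a, ha⟩ := sixteen_dvd_sqNorm x.2
  obtain ⟨b, hb⟩ := sixteen_dvd_sqNorm y.2
  obtain ⟨c, hc⟩ := eight_dvd_dotInt x.2 y.2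
  omega

theorem dot_par_add_left (x x' y : leechLattice) :
    ((dotInt ((x + x' : leechLattice) : GolayPt → ℤ) y / 8 : ℤ) : ZMod 2) =
      ((dotInt (x : GolayPt → ℤ) y / 8 : ℤ) : ZMod 2) + ((dotInt (x' : GolayPt → ℤ) y / 8 : ℤ) : ZMod 2) := by
  rw [AddSubgroup.coe_add, dotInt_add, ← Int.cast_add, Int.add_ediv_of_dvd_left (eight_dvd_dotInt x.2 y.2)]
where
  dotInt_add : ∀ {a b c : GolayPt → ℤ}, dotInt (a + b) c = dotInt a c + dotInt b c := by
    intro a b c; simp only [dotInt, Pi.add_apply, add_mul, Finset.sum_add_distrib]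

theorem dot_par_comm (x y : leechLattice) :
    ((dotInt (x : GolayPt → ℤ) y / 8 : ℤ) : ZMod 2) = ((dotInt (y : GolayPt → ℤ) x / 8 : ℤ) : ZMod 2) := by
  simp only [dotInt, mul_comm]

theorem add_self_zmod2 (a : ZMod 2) : a + a = 0 := CharTwo.add_self_eq_zero a

theorem isInvQuad_normPar : IsInvQuad normPar := by
  refine ⟨fun v w => ?_, fun u v w => ?_, fun g v => ?_⟩
  · rw [normPar_add, normPar_add w w, add_self_zmod2, zero_add, dot_par_comm v, dot_par_add_left,
      add_self_zmod2, add_zero]
    have h : ((dotInt (w : GolayPt → ℤ) w / 8 : ℤ) : ZMod 2) = 0 := by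
      rw [ZMod.intCast_zmod_eq_zero_iff_dvd]
      obtain ⟨a, ha⟩ := sixteen_dvd_sqNorm w.2
      have : dotInt (w : GolayPt → ℤ) w = sqNorm (w : GolayPt → ℤ) := by simp [dotInt, sqNorm, sq]
      omega
    rw [h, add_zero]
  · simp only [normPar_add, dot_par_add_left]
    ring_nf
  · show ((_ / 16 : ℤ) : ZMod 2) = _
    rw [show sqNorm ((g • v : leechLattice) : GolayPt → ℤ) = _ from g.2.2 v]
    rfl

theorem IsInvQuad.add {Q R : leechLattice → ZMod 2} (hQ : IsInvQuad Q) (hR : IsInvQuad R) :
    IsInvQuad (fun v => Q v + R v) := by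
  refine ⟨fun v w => by simp only [hQ.coset, hR.coset], fun u v w => ?_, fun g v => by simp only [hQ.inv, hR.inv]⟩
  linear_combination hQ.quad u v w + hR.quad u v w

theorem IsInvQuad.smul {Q : leechLattice → ZMod 2} (hQ : IsInvQuad Q) (c : ZMod 2) :
    IsInvQuad (fun v => c * Q v) :=
  ⟨fun v w => by simp only [hQ.coset], fun u v w => by linear_combination c * hQ.quad u v w,
    fun g v => by simp only [hQ.inv]⟩

variable {Q : leechLattice → ZMod 2}

theorem IsInvQuad.zero (hQ : IsInvQuad Q) : Q 0 = 0 := by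
  have h := hQ.quad 0 0 0
  simp only [add_zero] at h
  linear_combination h

/-- The associated bilinear function. -/
def polarQ (Q : leechLattice → ZMod 2) (x y : leechLattice) : ZMod 2 := Q (x + y) + Q x + Q y

theorem polarQ_comm (x y : leechLattice) : polarQ Q x y = polarQ Q y x := by
  simp only [polarQ, add_comm x y]; ring

theorem IsInvQuad.polar_add (hQ : IsInvQuad Q) (x y z : leechLattice) :
    polarQ Q x (y + z) = polarQ Q x y + polarQ Q x z := by
  simp only [polarQ, ← add_assoc]
  have h := hQ.quad x y z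
  have h2 : (2 : ZMod 2) = 0 := rfl
  linear_combination h + (-Q x + Q (y + z) - Q y - Q z) * h2

theorem IsInvQuad.polar_double (hQ : IsInvQuad Q) (x w : leechLattice) : polarQ Q x (w + w) = 0 := by
  rw [hQ.polar_add, add_self_zmod2]

/-- The subgroup of vectors orthogonal to a given one. -/
def IsInvQuad.perp (hQ : IsInvQuad Q) (x : leechLattice) : AddSubgroup leechLattice where
  carrier := {y | polarQ Q x y = 0}
  zero_mem' := by
    show polarQ Q x 0 = 0
    rw [polarQ, add_zero, hQ.zero, add_zero, add_self_zmod2]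
  add_mem' := fun {a b} (ha : polarQ Q x a = 0) (hb : polarQ Q x b = 0) => by
    show polarQ Q x (a + b) = 0
    rw [hQ.polar_add, ha, hb, add_zero]
  neg_mem' := fun {a} (ha : polarQ Q x a = 0) => by
    show polarQ Q x (-a) = 0
    have h := hQ.polar_double x (-a)
    rw [show -a = (-a + -a) + a by abel, hQ.polar_add, h, ha, add_zero]

theorem IsInvQuad.polar_congr (hQ : IsInvQuad Q) {x y z w : leechLattice} (h : y = z + (w + w)) :
    polarQ Q x y = polarQ Q x z := by
  rw [h, hQ.polar_add, hQ.polar_double, add_zero]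

theorem IsInvQuad.self_zero (hQ : IsInvQuad Q) (x : leechLattice) : polarQ Q x x = 0 := by
  rw [polarQ, show x + x = 0 + (x + x) from (zero_add _).symm, hQ.coset, hQ.zero, zero_add, add_self_zmod2]

/-! ### Constancy on the shortest vectors -/

theorem exists_M24_ix {a b a' b' : ℕ} (ha : a < 24) (hb : b < 24) (hne : a ≠ b)
    (ha' : a' < 24) (hb' : b' < 24) (hne' : a' ≠ b') :
    ∃ g ∈ M24, g (pt a) = pt a' ∧ g (pt b) = pt b' := by
  have inj : ∀ {i j : ℕ}, i < 24 → j < 24 → i ≠ j → Function.Injective ![pt i, pt j] := by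
    intro i j hi hj hij x y h
    have hp : pt i ≠ pt j := fun e => hij (by rw [← ix_pt hi, e, ix_pt hj])
    fin_cases x <;> fin_cases y <;> simp_all [Ne.symm hp]
  obtain ⟨g, hg, e⟩ := exists_M24_map (n := 2) (by norm_num) ⟨_, inj ha hb hne⟩ ⟨_, inj ha' hb' hne'⟩
  exact ⟨g, hg, e 0, e 1⟩

theorem ix_eq_iff {p : GolayPt} {a : ℕ} (ha : a < 24) : ix p = a ↔ p = pt a :=
  ⟨fun h => by rw [← h, pt_ix], fun h => by rw [h, ix_pt ha]⟩

theorem latN_mem {f : ℕ → ℤ} (h : isLeechN f = true) : (latN f : GolayPt → ℤ) = ofN f :=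
  latN_val (ofN_mem_leech h)

theorem IsInvQuad.sign (hQ : IsInvQuad Q) {c : ℕ} (hc : inCode c = true) {x y : leechLattice}
    (h : ∀ p, y.1 p = if c.testBit (ix p) then -x.1 p else x.1 p) : Q y = Q x := by
  have e : signAut (setOfMask c) (setOfMask_mem_codeSets (inCode_iff.1 hc)) • x = y := by
    apply Subtype.ext
    funext p
    rw [signAut_smul, h p]
    simp only [mem_setOfMask]
  rw [← e, hQ.inv]

theorem IsInvQuad.perm (hQ : IsInvQuad Q) {σ : P24} (hσ : σ ∈ M24) {x y : leechLattice}
    (h : ∀ p, y.1 p = x.1 (σ p)) : Q y = Q x := by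
  have e : permAut σ hσ • x = y := Subtype.ext (funext fun p => (h p).symm)
  rw [← e, hQ.inv]

theorem IsInvQuad.xi (hQ : IsInvQuad Q) {s t : MinVec} (hs : validMin s = true) (ht : validMin t = true)
    (h : (List.range 24).all (fun i => decide (xiApplyN (minN s) i = 2 * minN t i)) = true) :
    Q (minV t) = Q (minV s) := by
  have e : xiAut • minV s = minV t := by
    rw [minV, minV, latN, latN, dif_pos (validMin_mem hs), dif_pos (validMin_mem ht)]
    exact xiAut_smul _ _ h
  rw [← e, hQ.inv]

theorem validMin_code {t : MinVec} (h : validMin t = true) : inCode t.c = true := by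
  simp only [validMin, Bool.and_eq_true] at h
  exact h.1.2

theorem IsInvQuad.minV_unsign (hQ : IsInvQuad Q) {k a b c : ℕ} (h : validMin ⟨k, a, b, c⟩ = true)
    (h0 : validMin ⟨k, a, b, 0⟩ = true) : Q (minV ⟨k, a, b, c⟩) = Q (minV ⟨k, a, b, 0⟩) := by
  refine hQ.sign (validMin_code h) fun p => ?_
  rw [minV_val h, minV_val h0]
  simp [ofN, minN, shapeN]

theorem minV_unsign_valid {k a b c : ℕ} (h : validMin ⟨k, a, b, c⟩ = true) :
    validMin ⟨k, a, b, 0⟩ = true ∧ ofN (minN ⟨k, a, b, 0⟩) ∈ leechLattice := by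
  have hm := sign_mem_leech (setOfMask_mem_codeSets (inCode_iff.1 (validMin_code h))) (validMin_mem h)
  have hval : ofN (minN ⟨k, a, b, 0⟩) ∈ leechLattice := by
    convert hm using 1
    funext p
    simp only [mem_setOfMask, ofN, minN, shapeN]
    by_cases hc : c.testBit (ix p) = true <;> simp [hc]
  refine ⟨?_, hval⟩
  simp only [validMin, Bool.and_eq_true] at h ⊢
  exact ⟨⟨h.1.1, by decide +kernel⟩, isLeechN_of_mem hval⟩
where
  isLeechN_of_mem : ∀ {f : ℕ → ℤ}, ofN f ∈ leechLattice → isLeechN f = true := by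
    intro f hf
    obtain ⟨m, a, hx, hs, hw⟩ := mem_leech.1 hf
    have hi : ∀ i < 24, f i = m + 2 * a (pt i) := fun i hi => by
      have := hx (pt i); simp only [ofN, ix_pt hi] at this; exact this
    have h23 := hi 23 (by norm_num)
    simp only [isLeechN, Bool.and_eq_true, List.all_eq_true, decide_eq_true_eq, List.mem_range]
    refine ⟨⟨fun i h => by have := hi i h; omega, ?_⟩, ?_⟩
    · rw [← sum_ix f]
      have : ∑ p, f (ix p) = ∑ p, ofN f p := rfl
      rw [this]
      omega
    · rw [inCode_iff, ← mem_codeSets_iff_mask (by simp)]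
      obtain ⟨k, hk⟩ : ∃ k, m = f 23 % 2 + 2 * k := ⟨(m - f 23 % 2) / 2, by omega⟩
      refine ⟨oddWord a + (k : ZMod 2) • 1, golayCode.add_mem hw (golayCode.smul_mem _ one_mem_golayCode), ?_⟩
      ext p
      have := hx p
      simp only [ofN] at this
      simp only [mem_support₂, mem_setOfMask, testBit_fromBits, List.getD, List.getElem?_map,
        List.getElem?_range (ix_lt p), Option.map_some, Option.getD_some, decide_eq_true_eq, oddWord,
        Pi.add_apply, Pi.smul_apply, Pi.one_apply, smul_eq_mul, mul_one, ← Int.cast_add, ne_eq,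
        ZMod.intCast_zmod_eq_zero_iff_dvd]
      push_cast
      omega
  mem_codeSets_iff_mask : ∀ {l : List Bool}, l.length = 24 → (setOfMask (fromBits l) ∈ codeSets ↔ fromBits l ∈ codeMasks) := by
    intro l hl
    have := fromBits_lt l
    rw [hl] at this
    rw [mem_codeSets_iff, maskOf_setOfMask this]

theorem IsInvQuad.const_D (hQ : IsInvQuad Q) {a b : ℕ} (h : validMin ⟨0, a, b, 0⟩ = true) :
    Q (minV ⟨0, a, b, 0⟩) = Q (minV ⟨0, 0, 4, 0⟩) := by
  have hv : validMin ⟨0, 0, 4, 0⟩ = true := by decide +kernel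
  have ⟨ha, hb, hne⟩ : a < 24 ∧ b < 24 ∧ a ≠ b := by
    simp [validMin] at h; exact ⟨h.1.1.1.1, h.1.1.1.2, h.1.1.2⟩
  obtain ⟨g, hg, e1, e2⟩ := exists_M24_ix ha hb hne (by norm_num : 0 < 24) (by norm_num : 4 < 24) (by norm_num)
  refine hQ.perm hg fun p => ?_
  rw [minV_val h, minV_val hv]
  simp only [ofN, minN, shapeN, Nat.zero_testBit, Bool.false_eq_true, if_false, if_true, ix_eq_iff ha, ix_eq_iff hb, ix_eq_iff (show 0 < 24 by norm_num),
    ix_eq_iff (show 4 < 24 by norm_num), ← e1, ← e2, g.injective.eq_iff]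

theorem IsInvQuad.const_O (hQ : IsInvQuad Q) {a b : ℕ} (h : validMin ⟨1, a, b, 0⟩ = true) :
    Q (minV ⟨1, a, b, 0⟩) = Q (minV ⟨1, 5279, 0, 0⟩) := by
  have hv : validMin ⟨1, 5279, 0, 0⟩ = true := by decide +kernel
  have hoct : ∀ {a b : ℕ}, validMin ⟨1, a, b, 0⟩ = true → setOfMask a ∈ octads := fun {a b} h => by
    simp [validMin] at h
    exact ⟨setOfMask_mem_codeSets (inCode_iff.1 h.1.1.1), by rw [card_setOfMask]; exact h.1.1.2⟩
  obtain ⟨g, hg, e⟩ := exists_M24_octad (hoct h) (hoct hv)
  refine hQ.perm hg fun p => ?_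
  rw [minV_val h, minV_val hv]
  have hp : g p ∈ setOfMask 5279 ↔ p ∈ setOfMask a := by
    rw [← e]; exact Finset.smul_mem_smul_finset_iff g
  rw [mem_setOfMask, mem_setOfMask] at hp
  simp only [ofN, minN, shapeN, Nat.zero_testBit, Bool.false_eq_true, hp, show ¬ (1 = 0) by norm_num, if_false, if_true]

theorem IsInvQuad.const_V (hQ : IsInvQuad Q) {a b : ℕ} (h : validMin ⟨2, a, b, 0⟩ = true) :
    Q (minV ⟨2, a, b, 0⟩) = Q (minV ⟨2, 0, 0, 0⟩) := by
  have hv : validMin ⟨2, 0, 0, 0⟩ = true := by decide +kernel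
  have ha : a < 24 := by simp [validMin] at h; exact h.1.1
  let c := if a = 0 then 1 else 0
  have hc : a ≠ c ∧ c < 24 := by simp only [c]; split <;> omega
  obtain ⟨g, hg, e1, -⟩ := exists_M24_ix ha hc.2 hc.1 (by norm_num : 0 < 24) (by norm_num : 1 < 24) (by norm_num)
  refine hQ.perm hg fun p => ?_
  rw [minV_val h, minV_val hv]
  simp only [ofN, minN, shapeN, Nat.zero_testBit, Bool.false_eq_true, if_false, ix_eq_iff ha, ix_eq_iff (show 0 < 24 by norm_num), ← e1,
    g.injective.eq_iff]
  norm_num

/-- An invariant quadratic function is constant on the shortest vectors. -/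
theorem IsInvQuad.const (hQ : IsInvQuad Q) {t : MinVec} (h : validMin t = true) :
    Q (minV t) = Q (minV ⟨2, 0, 0, 0⟩) := by
  obtain ⟨k, a, b, c⟩ := t
  obtain ⟨h0, -⟩ := minV_unsign_valid h
  rw [hQ.minV_unsign h h0]
  have hk : k = 0 ∨ k = 1 ∨ k = 2 := by
    simp only [validMin, Bool.and_eq_true] at h0
    have := h0.1.1
    split_ifs at this with u v
    · exact Or.inl u
    · exact Or.inr (Or.inl v)
    · simp at this; exact Or.inr (Or.inr this.1)
  have hO : Q (minV ⟨1, 5279, 0, 0⟩) = Q (minV ⟨2, 0, 0, 0⟩) := by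
    rw [← hQ.const_O (a := 10558) (b := 0) (by decide +kernel),
      hQ.xi (s := ⟨2, 0, 0, 10558⟩) (by decide +kernel) (by decide +kernel) (by decide +kernel)]
    exact hQ.minV_unsign (by decide +kernel) (by decide +kernel)
  rcases hk with rfl | rfl | rfl
  · rw [hQ.const_D h0, hQ.xi (s := ⟨1, 5279, 0, 10558⟩) (by decide +kernel) (by decide +kernel) (by decide +kernel),
      hQ.minV_unsign (by decide +kernel) (by decide +kernel), hO]
  · rw [hQ.const_O h0, hO]
  · rw [hQ.const_V h0]

/-! ### Certificates -/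

/-- The members of a list selected by the bits of a mask. -/
def selN {α : Type} : List α → ℕ → List α
  | [], _ => []
  | a :: l, m => if m % 2 = 1 then a :: selN l (m / 2) else selN l (m / 2)

theorem mem_of_mem_selN {α : Type} : ∀ {l : List α} {m : ℕ} {a : α}, a ∈ selN l m → a ∈ l
  | [], _, _, h => by simp [selN] at h
  | b :: l, m, a, h => by
    simp only [selN] at h
    split at h
    · rcases List.mem_cons.1 h with rfl | h
      · exact List.mem_cons_self
      · exact List.mem_cons_of_mem _ (mem_of_mem_selN h)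
    · exact List.mem_cons_of_mem _ (mem_of_mem_selN h)

/-- Numbered coordinates of a sum of shortest vectors. -/
def sumN : List MinVec → ℕ → ℤ
  | [], _ => 0
  | t :: l, i => minN t i + sumN l i

theorem sum_minV : ∀ {l : List MinVec}, (∀ t ∈ l, validMin t = true) →
    (((l.map minV).sum : leechLattice) : GolayPt → ℤ) = ofN (sumN l)
  | [], _ => by funext p; simp [sumN, ofN]
  | t :: l, h => by
    rw [List.map_cons, List.sum_cons, AddSubgroup.coe_add, minV_val (h t List.mem_cons_self),
      sum_minV fun u hu => h u (List.mem_cons_of_mem _ hu)]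
    rfl

theorem congr_lattice {x y : leechLattice} {f g : ℕ → ℤ} (hx : (x : GolayPt → ℤ) = ofN f)
    (hy : (y : GolayPt → ℤ) = ofN g) (h : congrN f g = true) : ∃ w, x = y + (w + w) := by
  obtain ⟨z, hz, e⟩ := congrN_spec h
  exact ⟨⟨z, hz⟩, Subtype.ext (by rw [AddSubgroup.coe_add, AddSubgroup.coe_add, hx, hy]; exact e)⟩

/-- The `k`-th basis member. -/
def basAt (k : ℕ) : MinVec := leechBasis.getD k ⟨2, 0, 0, 0⟩

/-- Whether two shortest vectors have odd inner product. -/
def ipOdd (s t : MinVec) : Bool :=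
  decide (((List.range 24).map fun i => minN s i * minN t i).sum / 8 % 2 = 1)

/-- A list of neighbours of `u`: each `(w, d)` with `u + w` congruent to the shortest vector `d`. -/
noncomputable def nbrOK (u : MinVec) (l : List (MinVec × MinVec)) : Bool :=
  l.all fun wd => validMin wd.1 && validMin wd.2 && congrN (fun i => minN u i + minN wd.1 i) (minN wd.2)

/-- The check of one certificate. -/
noncomputable def certOK (k : ℕ) (C : List (MinVec × MinVec) × List ℕ × ℕ) : Bool :=
  nbrOK (basAt k) C.1 && validMin (basAt C.2.2) &&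
  (List.range 24).all fun j =>
    congrN (fun i => minN (basAt j) i + (if ipOdd (basAt k) (basAt j) then minN (basAt C.2.2) i else 0))
      (sumN (selN (C.1.map Prod.fst) (C.2.1.getD j 0)))

theorem leechBasis_valid : (List.range 24).all (fun k => validMin (basAt k)) = true := by decide +kernel

theorem leechCert_ok :
    (List.range 24).all (fun k => certOK k (leechCert.getD k ([], [], 0))) = true := by decide +kernel

theorem leechCert_ref : (List.range 24).all (fun k =>
    decide ((leechCert.getD k ([], [], 0)).2.2 = if k = 0 then 1 else 0) &&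
      (decide (k = 0) || ipOdd (basAt 0) (basAt k))) = true := by decide +kernel

theorem leechOddRel_ok : (nbrOK (basAt 0) leechOddRel && decide (leechOddRel.length % 2 = 1) &&
    congrN (sumN (leechOddRel.map Prod.fst)) (fun _ => 0)) = true := by decide +kernel

theorem leechGen_ok : ((List.range leechGenN.length).all fun k =>
    congrN (leechGenN.getD k (fun _ => 0)) (sumN (selN leechBasis (leechGenCombos.getD k 0)))) = true := by
  decide +kernel

theorem basAt_valid {k : ℕ} (hk : k < 24) : validMin (basAt k) = true :=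
  List.all_eq_true.1 leechBasis_valid k (List.mem_range.2 hk)

theorem ipOdd_spec {s t : MinVec} (hs : validMin s = true) (ht : validMin t = true) :
    ((dotInt (minV s : GolayPt → ℤ) (minV t) / 8 : ℤ) : ZMod 2) = if ipOdd s t then 1 else 0 := by
  rw [minV_val hs, minV_val ht, show dotInt (ofN (minN s)) (ofN (minN t)) = _ from
    sum_ix (fun i => minN s i * minN t i)]
  simp only [ipOdd, decide_eq_true_eq]
  generalize ((List.range 24).map fun i => minN s i * minN t i).sum / 8 = n
  rcases Int.emod_two_eq_zero_or_one n with e | e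
  · rw [if_neg (by omega)]; exact (ZMod.intCast_zmod_eq_zero_iff_dvd _ 2).2 (Int.dvd_of_emod_eq_zero e)
  · rw [if_pos e, ← ZMod.intCast_mod _ 2]; push_cast; rw [e]; rfl

theorem IsInvQuad.nbr (hQ : IsInvQuad Q) {u : MinVec} (hu : validMin u = true)
    {l : List (MinVec × MinVec)} (h : nbrOK u l = true) {t : MinVec} (ht : t ∈ l.map Prod.fst) :
    validMin t = true ∧ polarQ Q (minV u) (minV t) = Q (minV ⟨2, 0, 0, 0⟩) := by
  obtain ⟨⟨w, d⟩, hwd, rfl⟩ := List.mem_map.1 ht
  have := List.all_eq_true.1 h _ hwd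
  simp only [Bool.and_eq_true] at this
  obtain ⟨⟨hw, hd⟩, hc⟩ := this
  refine ⟨hw, ?_⟩
  obtain ⟨z, e⟩ := congr_lattice (x := minV u + minV w) (y := minV d)
    (by rw [AddSubgroup.coe_add, minV_val hu, minV_val hw]; rfl) (minV_val hd) hc
  rw [polarQ, e, hQ.coset, hQ.const hd, hQ.const hu, hQ.const hw, add_assoc, add_self_zmod2, add_zero]

theorem IsInvQuad.polar_sum (hQ : IsInvQuad Q) (x : leechLattice) :
    ∀ l : List leechLattice, polarQ Q x l.sum = (l.map (polarQ Q x)).sum
  | [] => (hQ.perp x).zero_mem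
  | a :: l => by rw [List.sum_cons, hQ.polar_add, hQ.polar_sum x l, List.map_cons, List.sum_cons]

/-- An invariant quadratic function vanishes on the shortest vectors. -/
theorem IsInvQuad.min_zero (hQ : IsInvQuad Q) {t : MinVec} (h : validMin t = true) : Q (minV t) = 0 := by
  have h0 := basAt_valid (show 0 < 24 by norm_num)
  have hok := leechOddRel_ok
  simp only [Bool.and_eq_true, decide_eq_true_eq] at hok
  obtain ⟨⟨hn, hlen⟩, hc⟩ := hok
  have hv : ∀ u ∈ leechOddRel.map Prod.fst, validMin u = true := fun u hu => (hQ.nbr h0 hn hu).1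
  obtain ⟨z, e⟩ := congr_lattice (y := 0) (g := fun _ => 0) (sum_minV hv) (by funext p; rfl) hc
  have hsum : polarQ Q (minV (basAt 0)) ((leechOddRel.map Prod.fst).map minV).sum = 0 := by
    rw [e, zero_add, hQ.polar_double]
  rw [hQ.polar_sum, List.map_map, List.sum_eq_card_nsmul _ (Q (minV ⟨2, 0, 0, 0⟩)) (fun b hb => ?_)] at hsum
  · rw [hQ.const h]
    have hl : ((leechOddRel.map Prod.fst).length : ZMod 2) = 1 := by
      rw [List.length_map, ← ZMod.natCast_mod, hlen, Nat.cast_one]
    rw [List.length_map, nsmul_eq_mul, hl, one_mul] at hsum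
    exact hsum
  · obtain ⟨u, hu, rfl⟩ := List.mem_map.1 hb
    exact (hQ.nbr h0 hn hu).2

theorem IsInvQuad.polar_basis (hQ : IsInvQuad Q) {i j : ℕ} (hi : i < 24) (hj : j < 24) :
    polarQ Q (minV (basAt i)) (minV (basAt j)) =
      if ipOdd (basAt i) (basAt j) then polarQ Q (minV (basAt i)) (minV (basAt (if i = 0 then 1 else 0))) else 0 := by
  have hok := List.all_eq_true.1 leechCert_ok i (List.mem_range.2 hi)
  have href := List.all_eq_true.1 leechCert_ref i (List.mem_range.2 hi)
  simp only [Bool.and_eq_true, decide_eq_true_eq] at href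
  simp only [certOK, Bool.and_eq_true, href.1] at hok
  generalize leechCert.getD i ([], [], 0) = C at hok
  obtain ⟨⟨hn, hr⟩, hall⟩ := hok
  have hc := List.all_eq_true.1 hall j (List.mem_range.2 hj)
  have hv : ∀ u ∈ selN (C.1.map Prod.fst) (C.2.1.getD j 0), validMin u = true :=
    fun u hu => (hQ.nbr (basAt_valid hi) hn (mem_of_mem_selN hu)).1
  let r := if i = 0 then 1 else 0
  obtain ⟨z, e⟩ := congr_lattice
    (x := minV (basAt j) + if ipOdd (basAt i) (basAt j) then minV (basAt r) else 0) (by
      rw [AddSubgroup.coe_add, minV_val (basAt_valid hj)]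
      funext p
      cases ipOdd (basAt i) (basAt j) <;> simp [ofN, minV_val hr, r]) (sum_minV hv) hc
  have hzero : polarQ Q (minV (basAt i))
      ((selN (C.1.map Prod.fst) (C.2.1.getD j 0)).map minV).sum = 0 := by
    rw [hQ.polar_sum, List.map_map]
    refine List.sum_eq_zero fun b hb => ?_
    obtain ⟨u, hu, rfl⟩ := List.mem_map.1 hb
    exact ((hQ.nbr (basAt_valid hi) hn (mem_of_mem_selN hu)).2).trans (hQ.min_zero (by decide +kernel))
  have := hQ.polar_congr (x := minV (basAt i)) e
  rw [hzero, hQ.polar_add] at this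
  cases hodd : ipOdd (basAt i) (basAt j) <;> simp only [hodd, if_true, Bool.false_eq_true, if_false] at this ⊢
  · rw [show polarQ Q (minV (basAt i)) 0 = 0 from (hQ.perp _).zero_mem, add_zero] at this; exact this
  · exact CharTwo.add_eq_zero.1 this

/-- Vanishing on the basis and its pairs forces vanishing. -/
theorem IsInvQuad.eq_zero (hQ : IsInvQuad Q)
    (hb : ∀ i < 24, ∀ j < 24, polarQ Q (minV (basAt i)) (minV (basAt j)) = 0) (x : leechLattice) : Q x = 0 := by
  have hmem : ∀ t ∈ leechBasis, ∃ i < 24, t = basAt i := by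
    intro t ht
    obtain ⟨i, hi, rfl⟩ := List.mem_iff_getElem.1 ht
    exact ⟨i, hi.trans_eq (by decide), by rw [basAt, List.getD_eq_getElem?_getD, List.getElem?_eq_getElem hi]; rfl⟩
  have span : ∀ (S : AddSubgroup leechLattice), (∀ w, w + w ∈ S) → (∀ t ∈ leechBasis, minV t ∈ S) → ∀ y, y ∈ S := by
    intro S h2 hS y
    have hle : leechLattice ≤ S.map leechLattice.subtype := leech_le_of_gens fun f hf => by
      obtain ⟨k, hk, rfl⟩ := List.mem_iff_getElem.1 hf
      have hc := List.all_eq_true.1 leechGen_ok k (List.mem_range.2 hk)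
      rw [List.getD_eq_getElem?_getD, List.getElem?_eq_getElem hk, Option.getD_some] at hc
      have hv : ∀ u ∈ selN leechBasis (leechGenCombos.getD k 0), validMin u = true := fun u hu => by
        obtain ⟨i, hi, rfl⟩ := hmem u (mem_of_mem_selN hu)
        exact basAt_valid hi
      obtain ⟨z, hz, e⟩ := congrN_spec hc
      refine ⟨((selN leechBasis (leechGenCombos.getD k 0)).map minV).sum + (⟨z, hz⟩ + ⟨z, hz⟩),
        S.add_mem (S.list_sum_mem fun b hb => ?_) (h2 _), ?_⟩
      · obtain ⟨u, hu, rfl⟩ := List.mem_map.1 hb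
        exact hS u (mem_of_mem_selN hu)
      · rw [map_add, map_add, AddSubgroup.coe_subtype, sum_minV hv]
        exact e.symm
    obtain ⟨y', hy', e⟩ := hle y.2
    rwa [← Subtype.ext (show (y' : GolayPt → ℤ) = y from e)]
  have hpol : ∀ x y, polarQ Q x y = 0 := by
    have h1 : ∀ i < 24, ∀ y, polarQ Q (minV (basAt i)) y = 0 := fun i hi =>
      span (hQ.perp _) (hQ.polar_double _) fun t ht => by
        obtain ⟨j, hj, rfl⟩ := hmem t ht
        exact hb i hi j hj
    intro x y
    exact span (hQ.perp x) (hQ.polar_double x) (fun t ht => by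
      obtain ⟨j, hj, rfl⟩ := hmem t ht
      exact (polarQ_comm _ _).trans (h1 j hj x)) y
  let K : AddSubgroup leechLattice :=
    { carrier := {y | Q y = 0}
      zero_mem' := hQ.zero
      add_mem' := fun {a b} (ha : Q a = 0) (hb : Q b = 0) => by
        show Q (a + b) = 0
        have := hpol a b
        rw [polarQ, ha, hb, add_zero, add_zero] at this
        exact this
      neg_mem' := fun {a} (ha : Q a = 0) => by
        show Q (-a) = 0
        rw [show -a = a + (-a + -a) by abel, hQ.coset, ha] }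
  exact span K (fun w => show Q (w + w) = 0 by rw [← zero_add (w + w), hQ.coset, hQ.zero]) (fun t ht => by
    obtain ⟨j, hj, rfl⟩ := hmem t ht
    exact hQ.min_zero (basAt_valid hj)) x

/-- Every invariant quadratic function on the lattice modulo 2 is a multiple of the norm parity. -/
theorem IsInvQuad.eq_mul_normPar (hQ : IsInvQuad Q) :
    ∀ x, Q x = polarQ Q (minV (basAt 0)) (minV (basAt 1)) * normPar x := by
  intro x
  set l := polarQ Q (minV (basAt 0)) (minV (basAt 1)) with hl
  have hD := hQ.add (isInvQuad_normPar.smul l)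
  refine CharTwo.add_eq_zero.1 (hD.eq_zero (fun i hi j hj => ?_) x)
  have hp : ∀ a b : leechLattice, polarQ (fun v => Q v + l * normPar v) a b =
      polarQ Q a b + l * ((dotInt (a : GolayPt → ℤ) b / 8 : ℤ) : ZMod 2) := by
    intro a b
    have h2 : (2 : ZMod 2) = 0 := rfl
    simp only [polarQ, normPar_add]
    linear_combination (l * normPar a + l * normPar b) * h2
  rw [hp, ipOdd_spec (basAt_valid hi) (basAt_valid hj), hQ.polar_basis hi hj]
  cases hodd : ipOdd (basAt i) (basAt j)
  · simp
  · simp only [if_true, mul_one]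
    by_cases h0 : i = 0
    · subst h0
      rw [if_pos rfl, ← hl, add_self_zmod2]
    · have href := List.all_eq_true.1 leechCert_ref i (List.mem_range.2 hi)
      simp [h0] at href
      have h1 := hQ.polar_basis (show 0 < 24 by norm_num) hi
      rw [if_pos href.2, if_pos rfl, ← hl, polarQ_comm] at h1
      rw [if_neg h0, h1, add_self_zmod2]

/-- The norm parity is the unique non-zero invariant quadratic function modulo 2. -/
theorem IsInvQuad.eq_normPar (hQ : IsInvQuad Q) (hne : ∃ v, Q v ≠ 0) (x : leechLattice) : Q x = normPar x := by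
  obtain ⟨v, hv⟩ := hne
  have h := hQ.eq_mul_normPar
  rcases (show ∀ c : ZMod 2, c = 0 ∨ c = 1 by decide) (polarQ Q (minV (basAt 0)) (minV (basAt 1))) with e | e
  · exact absurd (by rw [h v, e, zero_mul]) hv
  · rw [h x, e, one_mul]

end CfsgLib.Spor
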