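import Cfsg.Agent.Lib.SporLeech

/-!
Lattice vectors given by 24 numbered coordinates; kernel tests; the standard generators; codes for
the shortest vectors.
-/

set_option autoImplicit false

namespace CfsgLib.Spor
open Cfsg
open scoped Pointwise

/-- The vector with given numbered coordinates. -/
def ofN (f : ℕ → ℤ) : GolayPt → ℤ := fun p => f (ix p)

theorem sum_ix (f : ℕ → ℤ) : ∑ p, f (ix p) = ((List.range 24).map f).sum := by
  rw [← List.sum_toFinset f List.nodup_range, List.toFinset_range]
  exact Finset.sum_nbij' ix pt (fun p _ => Finset.mem_range.2 (ix_lt p)) (fun _ _ => Finset.mem_univ _)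
    (fun p _ => pt_ix p) (fun i hi => ix_pt (Finset.mem_range.1 hi)) (fun _ _ => rfl)

/-- Test for membership of numbered coordinates in the lattice. -/
noncomputable def isLeechN (f : ℕ → ℤ) : Bool :=
  let m := f 23 % 2
  (List.range 24).all (fun i => decide ((f i - m) % 2 = 0)) &&
    decide ((((List.range 24).map f).sum - 4 * m) % 8 = 0) &&
    inCode (fromBits ((List.range 24).map fun i => decide ((f i - m) / 2 % 2 = 1)))

theorem ofN_mem_leech {f : ℕ → ℤ} (h : isLeechN f = true) : ofN f ∈ leechLattice := by
  simp only [isLeechN, Bool.and_eq_true, List.all_eq_true, decide_eq_true_eq, List.mem_range] at h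
  obtain ⟨⟨h1, h2⟩, h3⟩ := h
  refine mem_leech.2 ⟨f 23 % 2, fun p => (f (ix p) - f 23 % 2) / 2, fun p => ?_, ?_, ?_⟩
  · have := h1 (ix p) (ix_lt p)
    simp only [ofN]
    omega
  · rw [show (∑ p, ofN f p) = _ from sum_ix f]
    exact Int.dvd_of_emod_eq_zero h2
  · refine mem_golayCode_iff.2 ⟨_, inCode_iff.1 h3, funext fun p => ?_⟩
    have hb := testBit_fromBits ((List.range 24).map fun i => decide ((f i - f 23 % 2) / 2 % 2 = 1)) (ix p)
    simp only [List.getD, List.getElem?_map, List.getElem?_range (ix_lt p), Option.map_some, Option.getD_some] at hb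
    simp only [wordOf, oddWord, hb, decide_eq_true_eq]
    rcases Int.emod_two_eq_zero_or_one ((f (ix p) - f 23 % 2) / 2) with e | e
    · rw [if_neg (by omega)]
      exact ((ZMod.intCast_zmod_eq_zero_iff_dvd _ 2).2 (Int.dvd_of_emod_eq_zero e)).symm
    · rw [if_pos e]
      rw [← ZMod.intCast_mod _ 2]; push_cast; rw [e]; rfl

/-- Test that two numbered vectors differ by twice a lattice vector. -/
noncomputable def congrN (f g : ℕ → ℤ) : Bool :=
  (List.range 24).all (fun i => decide ((f i - g i) % 2 = 0)) && isLeechN (fun i => (f i - g i) / 2)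

theorem congrN_spec {f g : ℕ → ℤ} (h : congrN f g = true) :
    ∃ z ∈ leechLattice, ofN f = ofN g + (z + z) := by
  simp only [congrN, Bool.and_eq_true, List.all_eq_true, decide_eq_true_eq, List.mem_range] at h
  refine ⟨_, ofN_mem_leech h.2, funext fun p => ?_⟩
  have := h.1 (ix p) (ix_lt p)
  simp only [ofN, Pi.add_apply]
  omega

/-- A code for a shortest vector: shape, two parameters, and the mask of the sign changes. -/
structure MinVec where
  kind : ℕ
  a : ℕ
  b : ℕ
  c : ℕ

/-- The unsigned coordinates of a shortest vector. -/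
def shapeN (t : MinVec) (i : ℕ) : ℤ :=
  if t.kind = 0 then (if i = t.a then 4 else if i = t.b then 4 else 0)
  else if t.kind = 1 then (if t.a.testBit i then 2 else 0)
  else (if i = t.a then -3 else 1)

/-- The coordinates of a shortest vector. -/
def minN (t : MinVec) (i : ℕ) : ℤ := if t.c.testBit i then -shapeN t i else shapeN t i

/-- The requirements on a code of a shortest vector. -/
noncomputable def validMin (t : MinVec) : Bool :=
  (if t.kind = 0 then decide (t.a < 24) && decide (t.b < 24) && !decide (t.a = t.b)
    else if t.kind = 1 then inCode t.a && decide (wt t.a = 8)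
    else decide (t.kind = 2) && decide (t.a < 24)) &&
  inCode t.c && isLeechN (minN t)

theorem validMin_mem {t : MinVec} (h : validMin t = true) : ofN (minN t) ∈ leechLattice :=
  ofN_mem_leech (by simp only [validMin, Bool.and_eq_true] at h; exact h.2)

/-- Numbered coordinates of the generators: an odd vector, doubled words, four times differences, eight. -/
def leechGenN : List (ℕ → ℤ) :=
  (fun i => if i = 23 then -3 else 1) ::
    (qrMasks ++ [16777215]).map (fun (m : ℕ) i => if m.testBit i then (2 : ℤ) else 0) ++
    (List.range 23).map (fun j i => if i = j then (4 : ℤ) else if i = 23 then -4 else 0) ++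
    [fun i => if i = 23 then 8 else 0]

theorem four_vec_mem' {S : AddSubgroup (GolayPt → ℤ)}
    (h : ∀ f ∈ (List.range 23).map (fun j i => if i = j then (4 : ℤ) else if i = 23 then -4 else 0) ++
      [fun i => if i = 23 then 8 else 0], ofN f ∈ S) (b : GolayPt → ℤ)
    (hb : (2 : ℤ) ∣ ∑ i, b i) : (fun i => 4 * b i) ∈ S := by
  obtain ⟨s, hs⟩ := hb
  let d (j : GolayPt) : GolayPt → ℤ := fun i => if i = j then 4 else 0
  have hd : ∀ j, d j - d none ∈ S := by
    intro j
    cases j with
    | none => simp
    | some x =>
      have e : d (some x) - d none = ofN (fun i => if i = x.val then (4 : ℤ) else if i = 23 then -4 else 0) := by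
        funext i
        have hx := ZMod.val_lt x
        cases i with
        | none => simp [d, ofN, ix]; omega
        | some y =>
          have hy := ZMod.val_lt y
          have h23 : ¬ y.val = 23 := by omega
          simp [d, ofN, ix, h23, (ZMod.val_injective 23).eq_iff]
      rw [e]
      exact h _ (by
        simp only [List.mem_append, List.mem_map]
        exact Or.inl ⟨x.val, List.mem_range.2 (ZMod.val_lt x), rfl⟩)
  have h8 : ofN (fun i => if i = 23 then (8 : ℤ) else 0) ∈ S := h _ (by simp)
  have e : (fun i => 4 * b i) = ∑ j, b j • (d j - d none) + s • ofN (fun i => if i = 23 then (8 : ℤ) else 0) := by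
    funext i
    have h23 : (ix i = 23) ↔ i = none := ⟨fun e => ix_inj (e.trans rfl), fun e => e ▸ rfl⟩
    simp only [Pi.add_apply, Finset.sum_apply, Pi.smul_apply, Pi.sub_apply, smul_eq_mul, mul_sub,
      Finset.sum_sub_distrib, ← Finset.sum_mul, hs, d, ofN, h23]
    rw [Finset.sum_eq_single i (fun j _ hj => by simp [Ne.symm hj]) (by simp), if_pos rfl]
    split <;> ring
  rw [e]
  exact S.add_mem (S.sum_mem fun j _ => S.zsmul_mem (hd j) _) (S.zsmul_mem h8 s)

theorem four_vec_mem {S : AddSubgroup (GolayPt → ℤ)} (h : ∀ f ∈ leechGenN, ofN f ∈ S) (b : GolayPt → ℤ)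
    (hb : (2 : ℤ) ∣ ∑ i, b i) : (fun i => 4 * b i) ∈ S :=
  four_vec_mem' (fun f hf => h f (by
    simp only [leechGenN, List.mem_append, List.mem_cons, List.mem_map, List.not_mem_nil, or_false] at hf ⊢
    rcases hf with hf | hf
    · exact Or.inl (Or.inr hf)
    · exact Or.inr hf)) b hb

/-- A subgroup holding the generators holds the lattice. -/
theorem leech_le_of_gens {S : AddSubgroup (GolayPt → ℤ)} (h : ∀ f ∈ leechGenN, ofN f ∈ S) :
    leechLattice ≤ S := by
  have hlift : ∀ w ∈ golayCode, (fun i => 2 * ((w i).val : ℤ)) ∈ S := by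
    intro w hw
    induction hw using Submodule.span_induction with
    | mem v hv =>
      have hm : ∀ m, m ∈ qrMasks ++ [16777215] → v = wordOf m → (fun i => 2 * ((v i).val : ℤ)) ∈ S := by
        rintro m hm rfl
        have e : (fun i => 2 * ((wordOf m i).val : ℤ)) = ofN (fun i => if m.testBit i then (2 : ℤ) else 0) := by
          funext i
          simp only [wordOf, ofN]
          cases m.testBit (ix i) <;> rfl
        rw [e]
        exact h _ (by
          simp only [leechGenN, List.mem_append, List.mem_cons, List.mem_map]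
          exact Or.inl (Or.inl (Or.inr ⟨m, by simpa using hm, rfl⟩)))
      rcases hv with ⟨t, rfl⟩ | hv
      · exact hm _ (List.mem_append_left _
          ((show ∀ t : ZMod 23, qrMasks.getD t.val 0 ∈ qrMasks by decide +kernel) t)) (qrWord_eq' t)
      · exact hm 16777215 (by simp) (by rw [Set.mem_singleton_iff.1 hv, wordOf_all])
    | zero =>
      convert S.zero_mem using 1
      funext i; simp
    | add u v hu hv ihu ihv =>
      have hev : (2 : ℤ) ∣ ∑ i, ((u i).val : ℤ) * ((v i).val : ℤ) := by
        have hu' : oddWord (fun i => ((u i).val : ℤ)) ∈ golayCode := by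
          have : oddWord (fun i => ((u i).val : ℤ)) = u := by funext i; simp [oddWord, ZMod.natCast_zmod_val]
          rw [this]; exact hu
        convert dot_code_even hu' hv using 1
        rw [support₂, Finset.sum_filter]
        refine Finset.sum_congr rfl fun i _ => ?_
        generalize u i = p
        generalize v i = q
        revert p q; decide
      have hneg : (2 : ℤ) ∣ ∑ i, -(((u i).val : ℤ) * ((v i).val : ℤ)) := by
        rw [Finset.sum_neg_distrib]; exact dvd_neg.2 hev
      convert S.add_mem (S.add_mem ihu ihv) (four_vec_mem h _ hneg) using 1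
      funext i
      simp only [Pi.add_apply]
      exact (show ∀ p q : ZMod 2, 2 * ((p + q).val : ℤ) = 2 * (p.val : ℤ) + 2 * (q.val : ℤ)
        + 4 * -((p.val : ℤ) * (q.val : ℤ)) by decide) (u i) (v i)
    | smul c v _ ihv =>
      rcases (show ∀ c : ZMod 2, c = 0 ∨ c = 1 by decide) c with rfl | rfl
      · convert S.zero_mem using 1
        funext i; simp
      · simpa using ihv
  intro x hx
  obtain ⟨m, a, hxa, hs, hw⟩ := mem_leech.1 hx
  have ho : ofN (fun i => if i = 23 then (-3 : ℤ) else 1) ∈ S := h _ (by simp [leechGenN])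
  let a' : GolayPt → ℤ := fun i => a i + (if i = none then 2 * m else 0)
  have hw' : oddWord a' = oddWord a := by
    funext i
    simp only [oddWord, a']
    push_cast
    split <;> simp [show (2 : ZMod 2) = 0 from rfl]
  let w := oddWord a
  have hval : ∀ i, ∃ b, a' i = ((w i).val : ℤ) + 2 * b := fun i => by
    have h2 : ((a' i : ℤ) : ZMod 2) = w i := congrFun hw' i
    have : ((a' i - ((w i).val : ℤ) : ℤ) : ZMod 2) = 0 := by
      push_cast; rw [h2, ZMod.natCast_zmod_val, sub_self]
    obtain ⟨b, hb⟩ := (ZMod.intCast_zmod_eq_zero_iff_dvd _ 2).1 this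
    exact ⟨b, by push_cast at hb; omega⟩
  choose b hb using hval
  have e : x = m • ofN (fun i => if i = 23 then (-3 : ℤ) else 1) + (fun i => 2 * ((w i).val : ℤ)) +
      (fun i => 4 * b i) := by
    funext i
    have h23 : (ix i = 23) ↔ i = none := ⟨fun e => ix_inj (e.trans rfl), fun e => e ▸ rfl⟩
    have := hb i
    simp only [a'] at this
    simp only [Pi.add_apply, Pi.smul_apply, smul_eq_mul, ofN, h23, hxa i]
    split_ifs at this ⊢ <;> linarith
  have hbsum : (2 : ℤ) ∣ ∑ i, b i := by
    have hsum : ∑ i, x i = 20 * m + 2 * ∑ i, ((w i).val : ℤ) + 4 * ∑ i, b i := by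
      rw [e]
      simp only [Pi.add_apply, Pi.smul_apply, smul_eq_mul, Finset.sum_add_distrib, ← Finset.mul_sum, ofN,
        sum_ix (fun i => if i = 23 then (-3 : ℤ) else 1)]
      have : ((List.range 24).map fun i => if i = 23 then (-3 : ℤ) else 1).sum = 20 := by decide
      rw [this]; ring
    have hcard : ∑ i, ((w i).val : ℤ) = ((support₂ w).card : ℤ) := by
      rw [support₂, Finset.card_filter]
      push_cast
      refine Finset.sum_congr rfl fun i _ => ?_
      generalize w i = u
      revert u; decide
    obtain ⟨c, hc⟩ := four_dvd_card_support hw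
    rw [hc] at hcard
    push_cast at hcard
    omega
  rw [e]
  exact S.add_mem (S.add_mem (S.zsmul_mem ho m) (hlift w hw)) (four_vec_mem h b hbsum)

end CfsgLib.Spor
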