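import Cfsg.Agent.Lib.SporLeechVec

/-!
An automorphism of the rank-24 lattice outside the monomial group, built from a sextet; monomial
automorphisms as elements of `Co0`.
-/

set_option autoImplicit false

namespace CfsgLib.Spor
open Cfsg
open scoped Pointwise Matrix

/-- The tetrad number of each coordinate, for a fixed sextet. -/
def tetN : List ℕ := [0, 0, 0, 0, 1, 5, 4, 1, 2, 4, 1, 4, 1, 3, 5, 2, 2, 5, 3, 2, 3, 3, 4, 5]

/-- Twice the matrix of the sextet automorphism, by coordinate numbers. -/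
def xiN (i j : ℕ) : ℤ :=
  (if tetN.getD i 0 = 0 then -1 else 1) *
    ((if tetN.getD i 0 = tetN.getD j 0 then 1 else 0) - (if i = j then 2 else 0))

/-- Twice the matrix of the sextet automorphism. -/
def xiM : Matrix GolayPt GolayPt ℤ := Matrix.of fun p q => xiN (ix p) (ix q)

theorem xiM_symm : xiMᵀ = xiM := by
  have h : ∀ i < 24, ∀ j < 24, xiN j i = xiN i j := by decide +kernel
  ext p q
  exact h _ (ix_lt p) _ (ix_lt q)

theorem xiM_sq : xiM * xiM = (4 : ℤ) • (1 : Matrix GolayPt GolayPt ℤ) := by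
  have h : ∀ i < 24, ∀ j < 24, ((List.range 24).map fun k => xiN i k * xiN k j).sum = if i = j then 4 else 0 := by
    decide +kernel
  ext p q
  rw [Matrix.mul_apply]
  simp only [xiM, Matrix.of_apply]
  rw [show (∑ x, xiN (ix p) (ix x) * xiN (ix x) (ix q)) = _ from sum_ix (fun k => xiN (ix p) k * xiN k (ix q)),
    h _ (ix_lt p) _ (ix_lt q)]
  simp [Matrix.one_apply, ix_inj.eq_iff]

/-- Twice the sextet automorphism, by coordinate numbers. -/
def xiApplyN (f : ℕ → ℤ) (i : ℕ) : ℤ := ((List.range 24).map fun k => xiN i k * f k).sum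

theorem xiM_ofN (f : ℕ → ℤ) : xiM *ᵥ ofN f = ofN (xiApplyN f) := by
  funext p
  exact sum_ix (fun k => xiN (ix p) k * f k)

theorem xi_preserves {x : GolayPt → ℤ} (hx : x ∈ leechLattice) :
    ∃ y ∈ leechLattice, xiM *ᵥ x = y + y := by
  let S : AddSubgroup (GolayPt → ℤ) :=
    (leechLattice.map (nsmulAddMonoidHom 2)).comap xiM.mulVecLin.toAddMonoidHom
  have hg : ∀ f ∈ leechGenN, congrN (xiApplyN f) (fun _ => 0) = true := by
    have : (leechGenN.all fun f => congrN (xiApplyN f) fun _ => 0) = true := by decide +kernel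
    simpa [List.all_eq_true] using this
  have hle : leechLattice ≤ S := leech_le_of_gens fun f hf => by
    obtain ⟨z, hz, e⟩ := congrN_spec (hg f hf)
    refine ⟨z, hz, ?_⟩
    show 2 • z = xiM *ᵥ ofN f
    rw [xiM_ofN, e, two_nsmul]
    funext p; simp [ofN]
  obtain ⟨y, hy, e⟩ := hle hx
  exact ⟨y, hy, by rw [← two_nsmul]; exact e.symm⟩

/-- The image of a lattice vector under the sextet automorphism. -/
noncomputable def xiFun (x : leechLattice) : leechLattice :=
  ⟨(xi_preserves x.2).choose, (xi_preserves x.2).choose_spec.1⟩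

theorem xiFun_spec (x : leechLattice) :
    xiM *ᵥ (x : GolayPt → ℤ) = (xiFun x : GolayPt → ℤ) + (xiFun x : GolayPt → ℤ) :=
  (xi_preserves x.2).choose_spec.2

theorem xiFun_eq {x : leechLattice} {y : GolayPt → ℤ} (h : xiM *ᵥ (x : GolayPt → ℤ) = y + y) :
    (xiFun x : GolayPt → ℤ) = y := by
  funext p
  have := congrFun ((xiFun_spec x).symm.trans h) p
  simp only [Pi.add_apply] at this
  omega

theorem xiFun_xiFun (x : leechLattice) : xiFun (xiFun x) = x := by
  apply Subtype.ext
  apply xiFun_eq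
  have h1 : xiM *ᵥ (xiM *ᵥ (x : GolayPt → ℤ)) = (4 : ℤ) • (x : GolayPt → ℤ) := by
    rw [Matrix.mulVec_mulVec, xiM_sq, Matrix.smul_mulVec, Matrix.one_mulVec]
  rw [xiFun_spec, Matrix.mulVec_add] at h1
  funext p
  have := congrFun h1 p
  simp only [Pi.add_apply, Pi.smul_apply, smul_eq_mul] at this ⊢
  omega

theorem sqNorm_eq_dot (x : GolayPt → ℤ) : sqNorm x = x ⬝ᵥ x := by
  simp [sqNorm, dotProduct, sq]

/-- The sextet automorphism as a permutation of the lattice. -/
noncomputable def xiPerm : Equiv.Perm leechLattice :=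
  ⟨xiFun, xiFun, xiFun_xiFun, xiFun_xiFun⟩

theorem xiPerm_apply (x : leechLattice) : xiPerm x = xiFun x := rfl

theorem xiFun_mem_Co0 : xiPerm ∈ Co0 := by
  refine ⟨fun v w => ?_, fun v => ?_⟩
  · apply Subtype.ext
    apply xiFun_eq
    simp only [AddSubgroup.coe_add, Matrix.mulVec_add, xiPerm_apply]
    rw [xiFun_spec, xiFun_spec]
    abel
  · simp only [xiPerm_apply]
    have h : (xiM *ᵥ (v : GolayPt → ℤ)) ⬝ᵥ (xiM *ᵥ (v : GolayPt → ℤ)) = 4 * ((v : GolayPt → ℤ) ⬝ᵥ v) := by
      rw [Matrix.dotProduct_mulVec, ← Matrix.mulVec_transpose, xiM_symm, Matrix.mulVec_mulVec, xiM_sq,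
        Matrix.smul_mulVec, Matrix.one_mulVec, smul_dotProduct, smul_eq_mul]
    rw [xiFun_spec] at h
    simp only [add_dotProduct, dotProduct_add, ← sqNorm_eq_dot] at h
    linarith

/-- The sextet automorphism. -/
noncomputable def xiAut : Co0 := ⟨_, xiFun_mem_Co0⟩

theorem xiAut_smul {f g : ℕ → ℤ} (hf : ofN f ∈ leechLattice) (hg : ofN g ∈ leechLattice)
    (h : (List.range 24).all (fun i => decide (xiApplyN f i = 2 * g i)) = true) :
    xiAut • (⟨ofN f, hf⟩ : leechLattice) = ⟨ofN g, hg⟩ := by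
  apply Subtype.ext
  show (xiFun ⟨ofN f, hf⟩ : GolayPt → ℤ) = ofN g
  apply xiFun_eq
  rw [xiM_ofN]
  funext p
  simp only [List.all_eq_true, List.mem_range, decide_eq_true_eq] at h
  have := h _ (ix_lt p)
  simp only [ofN, Pi.add_apply]
  omega

/-- The permutation automorphism of an element of `M24`. -/
noncomputable def permAut (σ : P24) (hσ : σ ∈ M24) : Co0 :=
  ⟨{ toFun := fun x => ⟨fun p => x.1 (σ p), perm_mem_leech hσ x.2⟩
     invFun := fun x => ⟨fun p => x.1 (σ⁻¹ p), perm_mem_leech (M24.inv_mem hσ) x.2⟩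
     left_inv := fun x => by apply Subtype.ext; funext p; simp
     right_inv := fun x => by apply Subtype.ext; funext p; simp },
    fun v w => by apply Subtype.ext; rfl, fun v => Equiv.sum_comp σ (fun p => v.1 p ^ 2)⟩

theorem permAut_smul (σ : P24) (hσ : σ ∈ M24) (x : leechLattice) :
    ((permAut σ hσ • x : leechLattice) : GolayPt → ℤ) = fun p => x.1 (σ p) := rfl

/-- The sign change automorphism of a member of the code. -/
noncomputable def signAut (c : Finset GolayPt) (hc : c ∈ codeSets) : Co0 :=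
  ⟨{ toFun := fun x => ⟨fun p => if p ∈ c then -x.1 p else x.1 p, sign_mem_leech hc x.2⟩
     invFun := fun x => ⟨fun p => if p ∈ c then -x.1 p else x.1 p, sign_mem_leech hc x.2⟩
     left_inv := fun x => by apply Subtype.ext; funext p; by_cases h : p ∈ c <;> simp [h]
     right_inv := fun x => by apply Subtype.ext; funext p; by_cases h : p ∈ c <;> simp [h] },
    fun v w => by
      apply Subtype.ext; funext p
      show (if p ∈ c then -(v.1 p + w.1 p) else v.1 p + w.1 p) =
        (if p ∈ c then -v.1 p else v.1 p) + (if p ∈ c then -w.1 p else w.1 p)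
      by_cases h : p ∈ c <;> simp [h]; ring,
    fun v => Finset.sum_congr rfl fun p _ => by
      show (if p ∈ c then -v.1 p else v.1 p) ^ 2 = _
      by_cases h : p ∈ c <;> simp [h]⟩

theorem signAut_smul (c : Finset GolayPt) (hc : c ∈ codeSets) (x : leechLattice) :
    ((signAut c hc • x : leechLattice) : GolayPt → ℤ) = fun p => if p ∈ c then -x.1 p else x.1 p := rfl

end CfsgLib.Spor
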