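import Cfsg.Agent.Lib.SporM11Stabs

/-!
The subgroups of `M11` in arbitrary position.
-/

set_option autoImplicit false

namespace CfsgLib.Spor.MEleven
open Cfsg CfsgLib.Spor
open scoped Pointwise

theorem exists_align {d : Finset GolayPt} (hd : d ∈ dodecads) {p : GolayPt} (hp : p ∈ d) {q q' : GolayPt}
    (hq : q ∉ d) (hq' : q' ∉ d) (hne : q ≠ q') :
    ∃ g ∈ M24, g • Spor.squareDodecad = d ∧ g • dpt 0 = p ∧ g • pt outA = q ∧ g • pt outB = q' := by
  obtain ⟨a, ha, ea, ep⟩ := exists_M24_dodecad_point hd hp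
  have hm : ∀ y, y ∉ d → a⁻¹ y ∉ Spor.squareDodecad := fun y hy h => hy (by
    have := Finset.smul_mem_smul_finset (a := a) h
    rwa [ea, Equiv.Perm.smul_def, Equiv.Perm.coe_inv, Equiv.apply_symm_apply] at this)
  obtain ⟨h, hh, e1, e2⟩ := exists_pair (hm q hq) (hm q' hq') fun e => hne (a⁻¹.injective e)
  obtain ⟨hh1, hh0⟩ := mem_fix12.1 hh
  refine ⟨a * h, M24.mul_mem ha (mem_M12_iff'.1 hh1).1, by rw [mul_smul, fix12_smul hh, ea], ?_, ?_, ?_⟩
  · rw [Equiv.Perm.smul_def, Equiv.Perm.mul_apply, hh0 0 (by norm_num), dpt_zero, ep]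
  · rw [Equiv.Perm.smul_def, Equiv.Perm.mul_apply, e1, Equiv.Perm.coe_inv, Equiv.apply_symm_apply]
  · rw [Equiv.Perm.smul_def, Equiv.Perm.mul_apply, e2, Equiv.Perm.coe_inv, Equiv.apply_symm_apply]

theorem exists_other_out {d : Finset GolayPt} (hd : d ∈ dodecads) (q : GolayPt) :
    ∃ q' : GolayPt, q' ∉ d ∧ q ≠ q' := by
  have hc : (dᶜ).card = 12 := by
    rw [Finset.card_compl, hd.2, show Fintype.card GolayPt = 24 by simp [GolayPt]]
  obtain ⟨q', h1, h2⟩ := Finset.exists_mem_ne (show 1 < (dᶜ).card by omega) q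
  exact ⟨q', Finset.mem_compl.1 h1, h2.symm⟩

theorem point_stab_iso {d : Finset GolayPt} (hd : d ∈ dodecads) {p : GolayPt} (hp : p ∈ d) {q : GolayPt}
    (hq : q ∉ d) : Nonempty (↥(MulAction.stabilizer M24 d ⊓ MulAction.stabilizer M24 p ⊓
      MulAction.stabilizer M24 q) ≃* Matrix.ProjectiveSpecialLinearGroup (Fin 2) (ZMod 11)) := by
  obtain ⟨q', hq', hne⟩ := exists_other_out hd q
  obtain ⟨g, hg, gd, g0, gA, -⟩ := exists_align hd hp hq hq' hne
  obtain ⟨e⟩ := K660_iso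
  exact ⟨((equivConjBy (K := K660) (L := M24 ⊓ MulAction.stabilizer P24 d ⊓ MulAction.stabilizer P24 p ⊓
      MulAction.stabilizer P24 q) g fun y => by
    simp only [K660, fix12, Subgroup.mem_inf, mem_M12_iff', conj_mem_M24 hg, MulAction.mem_stabilizer_iff,
      conj_smul_eq_iff, gd, g0, gA]).trans
    (equivOfMem (MulAction.stabilizer M24 d ⊓ MulAction.stabilizer M24 p ⊓ MulAction.stabilizer M24 q)
      (M24 ⊓ MulAction.stabilizer P24 d ⊓ MulAction.stabilizer P24 p ⊓ MulAction.stabilizer P24 q) fun y =>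
      ⟨fun hy => ⟨hy.1.1.1, ⟨hy.1.1.2, hy.1.2⟩, hy.2⟩,
        fun ⟨h1, h2⟩ => ⟨⟨⟨h1, h2.1.1⟩, h2.1.2⟩, h2.2⟩⟩).symm).symm.trans e⟩

theorem pair_stab_iso {d : Finset GolayPt} (hd : d ∈ dodecads) {p : GolayPt} (hp : p ∈ d) {q q' : GolayPt}
    (hq : q ∉ d) (hq' : q' ∉ d) (hne : q ≠ q') : Nonempty (↥(MulAction.stabilizer M24 d ⊓
      MulAction.stabilizer M24 p ⊓ MulAction.stabilizer M24 ({q, q'} : Finset GolayPt)) ≃* Equiv.Perm (Fin 5)) := by
  obtain ⟨g, hg, gd, g0, gA, gB⟩ := exists_align hd hp hq hq' hne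
  obtain ⟨e⟩ := K120_iso
  have gP : g • ({pt outA, pt outB} : Finset GolayPt) = {q, q'} := by
    rw [Finset.smul_finset_insert, Finset.smul_finset_singleton, gA, gB]
  exact ⟨((equivConjBy (K := K120) (L := M24 ⊓ MulAction.stabilizer P24 d ⊓ MulAction.stabilizer P24 p ⊓
      MulAction.stabilizer P24 ({q, q'} : Finset GolayPt)) g fun y => by
    simp only [K120, fix12, Subgroup.mem_inf, mem_M12_iff', conj_mem_M24 hg, MulAction.mem_stabilizer_iff,
      conj_smul_eq_iff, gd, g0, gP]).trans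
    (equivOfMem (MulAction.stabilizer M24 d ⊓ MulAction.stabilizer M24 p ⊓
        MulAction.stabilizer M24 ({q, q'} : Finset GolayPt))
      (M24 ⊓ MulAction.stabilizer P24 d ⊓ MulAction.stabilizer P24 p ⊓
        MulAction.stabilizer P24 ({q, q'} : Finset GolayPt)) fun y =>
      ⟨fun hy => ⟨hy.1.1.1, ⟨hy.1.1.2, hy.1.2⟩, hy.2⟩,
        fun ⟨h1, h2⟩ => ⟨⟨⟨h1, h2.1.1⟩, h2.1.2⟩, h2.2⟩⟩).symm).symm.trans e⟩

theorem centralizer_iso {d : Finset GolayPt} (hd : d ∈ dodecads) {p : GolayPt} (hp : p ∈ d)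
    (x : ↥(MulAction.stabilizer M24 d ⊓ MulAction.stabilizer M24 p)) (hx : orderOf x = 2) :
    Nonempty (↥(Subgroup.centralizer ({x} : Set ↥(MulAction.stabilizer M24 d ⊓ MulAction.stabilizer M24 p))) ≃*
      GL (Fin 2) (ZMod 3)) := by
  let e0 := (dodecadPointStabEquiv hd hp).symm.trans (MulEquiv.subgroupCongr M11_eq)
  have h2 : orderOf ((e0 x : fix12 1) : P24) = 2 := by
    rw [orderOf_submonoid, MulEquiv.orderOf_eq, hx]
  obtain ⟨c, hc, ec⟩ := exists_conj_inv (e0 x).2 h2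
  let e := e0.trans (MulAut.conj (⟨c, hc⟩ : fix12 1)⁻¹)
  have ht : ((e x : fix12 1) : P24) = permOf invBase := by
    show c⁻¹ * ((e0 x : fix12 1) : P24) * c⁻¹⁻¹ = _
    rw [ec]; group
  obtain ⟨k⟩ := K48_iso
  refine ⟨MulEquiv.trans ?_ k⟩
  have hmem : ∀ y : ↥(MulAction.stabilizer M24 d ⊓ MulAction.stabilizer M24 p),
      y ∈ Subgroup.centralizer ({x} : Set ↥(MulAction.stabilizer M24 d ⊓ MulAction.stabilizer M24 p)) ↔
        ((e y : fix12 1) : P24) ∈ K48 := by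
    intro y
    rw [Subgroup.mem_centralizer_singleton_iff, Subgroup.mem_inf, Subgroup.mem_centralizer_singleton_iff, ← ht,
      ← Subgroup.coe_mul, ← Subgroup.coe_mul, Subtype.coe_inj, ← map_mul, ← map_mul, e.injective.eq_iff]
    exact (and_iff_right (e y).2).symm
  exact
    { toFun := fun y => ⟨((e y.1 : fix12 1) : P24), (hmem y.1).1 y.2⟩
      invFun := fun z => ⟨e.symm ⟨z.1, z.2.1⟩, (hmem _).2 (by rw [MulEquiv.apply_symm_apply]; exact z.2)⟩
      left_inv := fun y => Subtype.ext (e.symm_apply_apply y.1)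
      right_inv := fun z => Subtype.ext (congrArg (fun w : fix12 1 => (w : P24)) (e.apply_symm_apply ⟨z.1, z.2.1⟩) :)
      map_mul' := fun a b => Subtype.ext (congrArg (fun w : fix12 1 => (w : P24)) (map_mul e a.1 b.1) :) }

end CfsgLib.Spor.MEleven
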