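import Cfsg.Agent.Lib.SporOrbit
import Mathlib

/-!
Isomorphisms certified by multiplication tables for a set of generators.
-/

set_option autoImplicit false

namespace CfsgLib.Spor.TableIso
open Cfsg CfsgLib.Spor

/-- Two groups with the same table for generators are isomorphic. -/
theorem iso_of_table {G H : Type*} [Group G] [Group H] [Finite G] (n r : ℕ) (a : ℕ → G) (b : ℕ → H)
    (gen : ℕ → ℕ) (next : ℕ → ℕ → ℕ) (hG : Nat.card G = n) (hH : Nat.card H = n) (hn : 0 < n)
    (ha0 : a 0 = 1) (hb0 : b 0 = 1) (hgen : ∀ j < r, gen j < n) (hlt : ∀ i < n, ∀ j < r, next i j < n)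
    (ha : ∀ i < n, ∀ j < r, a (next i j) = a i * a (gen j))
    (hb : ∀ i < n, ∀ j < r, b (next i j) = b i * b (gen j))
    (hpar : ∀ i < n, i ≠ 0 → ∃ p < i, ∃ j < r, next p j = i)
    (hinj : ∀ i < n, ∀ k < n, b i = b k → i = k) (hker : ∀ i < n, a i = 1 → i = 0) : Nonempty (G ≃* H) := by
  haveI : Finite H := Nat.finite_of_card_ne_zero (by omega)
  have hB : Function.Bijective (fun i : Fin n => b i) :=
    (Nat.bijective_iff_injective_and_card _).2
      ⟨fun i k e => Fin.ext (hinj i i.2 k k.2 e), by rw [Nat.card_fin, hH]⟩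
  let e := Equiv.ofBijective _ hB
  let φ : H → G := fun h => a (e.symm h).val
  have hφb : ∀ i < n, φ (b i) = a i := fun i hi => by
    show a (e.symm (e ⟨i, hi⟩)).val = a i
    rw [Equiv.symm_apply_apply]
  have hstep : ∀ h, ∀ j < r, φ (h * b (gen j)) = φ h * a (gen j) := by
    intro h j hj
    obtain ⟨⟨i, hi⟩, rfl⟩ := hB.2 h
    show φ (b i * b (gen j)) = φ (b i) * a (gen j)
    rw [← hb i hi j hj, hφb _ (hlt i hi j hj), hφb i hi, ha i hi j hj]
  have hmul : ∀ i, i < n → ∀ h, φ (h * b i) = φ h * a i := by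
    intro i
    induction i using Nat.strong_induction_on with
    | _ i ih =>
      intro hi h
      by_cases h0 : i = 0
      · subst h0; rw [hb0, mul_one, ha0, mul_one]
      · obtain ⟨p, hp, j, hj, rfl⟩ := hpar i hi h0
        have hpn : p < n := hp.trans hi
        rw [hb p hpn j hj, ha p hpn j hj, ← mul_assoc, hstep _ j hj, ih p hp hpn, mul_assoc]
  let ψ : H →* G := MonoidHom.mk' φ fun x y => by
    obtain ⟨⟨i, hi⟩, rfl⟩ := hB.2 y
    show φ (x * b i) = φ x * φ (b i)
    rw [hmul i hi, hφb i hi]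
  have hψ : Function.Injective ψ := by
    refine (injective_iff_map_eq_one ψ).2 fun x hx => ?_
    obtain ⟨⟨i, hi⟩, rfl⟩ := hB.2 x
    have : a i = 1 := by rw [← hφb i hi]; exact hx
    show b i = 1
    rw [hker i hi this, hb0]
  exact ⟨(MulEquiv.ofBijective ψ (hψ.bijective_of_nat_card_le (by rw [hG, hH]))).symm⟩

/-- Entry of a list of lists. -/
def ent (L : List (List ℕ)) (i j : ℕ) : ℕ := (L.getD i []).getD j 0

/-- The combinatorial part of a table. -/
def frameOK (n r : ℕ) (gens : List ℕ) (next pars : List (List ℕ)) : Bool :=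
  (List.range r).all (fun j => Nat.blt (gens.getD j 0) n) &&
    (List.range n).all fun i => (List.range r).all (fun j => Nat.blt (ent next i j) n) &&
      (Nat.beq i 0 || (Nat.blt (ent pars i 0) i && Nat.blt (ent pars i 1) r &&
        Nat.beq (ent next (ent pars i 0) (ent pars i 1)) i))

theorem frameOK_spec {n r : ℕ} {gens : List ℕ} {next pars : List (List ℕ)} (h : frameOK n r gens next pars = true) :
    (∀ j < r, gens.getD j 0 < n) ∧ (∀ i < n, ∀ j < r, ent next i j < n) ∧
      ∀ i < n, i ≠ 0 → ∃ p < i, ∃ j < r, ent next p j = i := by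
  simp only [frameOK, Bool.and_eq_true, List.all_eq_true, List.mem_range, Bool.or_eq_true, Nat.beq_eq,
    Nat.blt_eq] at h
  exact ⟨h.1, fun i hi j hj => (h.2 i hi).1 j hj, fun i hi h0 => by
    obtain ⟨⟨h1, h2⟩, h3⟩ := (h.2 i hi).2.resolve_left h0
    exact ⟨_, h1, _, h2, h3⟩⟩

/-- The permutation part of a table. -/
noncomputable def permsOK (n r : ℕ) (rows : List (List ℕ)) (gens : List ℕ) (next : List (List ℕ)) : Bool :=
  (rows.getD 0 [] == List.range 24) && (List.range n).all fun i => validL (rows.getD i []) &&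
    (Nat.beq i 0 || !(rows.getD i [] == List.range 24)) &&
    (List.range r).all fun j => mulL (rows.getD i []) (rows.getD (gens.getD j 0) []) == rows.getD (ent next i j) []

theorem validL_length {L : List ℕ} (h : validL L = true) : L.length = 24 := by
  simp only [validL, Bool.and_eq_true, Nat.beq_eq] at h
  exact h.1.1

theorem rep_unique {g g' : P24} {L : List ℕ} (h : Rep g L) (h' : Rep g' L) : g = g' := by
  ext1 p
  exact ix_inj (by rw [h p, h' p])

/-- A table of permutations gives an isomorphism. -/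
theorem iso_of_perm_table {K : Subgroup P24} {H : Type*} [Group H] (n r : ℕ) (rows : List (List ℕ))
    (gens : List ℕ) (next pars : List (List ℕ)) (b : ℕ → H) (hK : Nat.card K = n) (hH : Nat.card H = n)
    (hn : 0 < n) (hf : frameOK n r gens next pars = true) (hp : permsOK n r rows gens next = true)
    (hmem : ∀ j < r, permOf (rows.getD (gens.getD j 0) []) ∈ K)
    (hb0 : b 0 = 1) (hb : ∀ i < n, ∀ j < r, b (ent next i j) = b i * b (gens.getD j 0))
    (hinj : ∀ i < n, ∀ k < n, b i = b k → i = k) : Nonempty (K ≃* H) := by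
  haveI : Finite K := inferInstance
  obtain ⟨hg, hlt, hpar⟩ := frameOK_spec hf
  simp only [permsOK, Bool.and_eq_true, List.all_eq_true, List.mem_range, Bool.or_eq_true, Nat.beq_eq, beq_iff_eq,
    Bool.not_eq_true', beq_eq_false_iff_ne, ne_eq] at hp
  obtain ⟨h0, hrow⟩ := hp
  let g : ℕ → P24 := fun i => permOf (rows.getD i [])
  have hrep : ∀ i < n, Rep (g i) (rows.getD i []) := fun i hi => rep_permOf (hrow i hi).1.1
  have hg0 : g 0 = 1 := by
    have h := hrep 0 hn
    rw [h0] at h
    exact rep_unique h rep_one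
  have hmul : ∀ i < n, ∀ j < r, g (ent next i j) = g i * g (gens.getD j 0) := fun i hi j hj => by
    have := Rep.mul (validL_length (hrow _ (hg j hj)).1.1) (hrep i hi) (hrep _ (hg j hj))
    rw [(hrow i hi).2 j hj] at this
    exact rep_unique (hrep _ (hlt i hi j hj)) this
  have hgm : ∀ i, i < n → g i ∈ K := by
    intro i
    induction i using Nat.strong_induction_on with
    | _ i ih =>
      intro hi
      by_cases h : i = 0
      · subst h; rw [hg0]; exact K.one_mem
      · obtain ⟨p, hp, j, hj, rfl⟩ := hpar i hi h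
        rw [hmul p (hp.trans hi) j hj]
        exact K.mul_mem (ih p hp (hp.trans hi)) (hmem j hj)
  let a : ℕ → K := fun i => if h : i < n then ⟨g i, hgm i h⟩ else 1
  have ha : ∀ i (h : i < n), a i = ⟨g i, hgm i h⟩ := fun i h => dif_pos h
  refine iso_of_table n r a b (fun j => gens.getD j 0) (ent next) hK hH hn ?_ hb0 hg hlt ?_ hb hpar hinj ?_
  · rw [ha 0 hn]; exact Subtype.ext hg0
  · intro i hi j hj
    rw [ha _ (hlt i hi j hj), ha i hi, ha _ (hg j hj)]
    exact Subtype.ext (hmul i hi j hj)
  · intro i hi e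
    rw [ha i hi] at e
    by_contra hne
    refine ((hrow i hi).1.2).resolve_left hne ?_
    have e' : g i = 1 := congrArg Subtype.val e
    refine List.ext_getElem (by rw [validL_length (hrow i hi).1.1, List.length_range]) fun k h1 h2 => ?_
    have hk : k < 24 := by simpa using h2
    have := hrep i hi (pt k)
    rw [e', ix_pt hk, List.getD_eq_getElem _ _ h1, Equiv.Perm.one_apply, ix_pt hk] at this
    rw [List.getElem_range]; exact this.symm

/-- Strictly increasing keys through positions. -/
def keysOK (n : ℕ) (key : ℕ → ℕ) (sorted pos inv : List ℕ) : Bool :=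
  ascending sorted && Nat.beq sorted.length n && (List.range n).all fun i =>
    Nat.blt (pos.getD i 0) n && Nat.beq (sorted.getD (pos.getD i 0) 0) (key i) && Nat.beq (inv.getD (pos.getD i 0) 0) i

theorem keysOK_spec {n : ℕ} {key : ℕ → ℕ} {sorted pos inv : List ℕ} (h : keysOK n key sorted pos inv = true) :
    ∀ i < n, ∀ k < n, key i = key k → i = k := by
  simp only [keysOK, Bool.and_eq_true, List.all_eq_true, List.mem_range, Nat.beq_eq, Nat.blt_eq] at h
  obtain ⟨⟨ha, hl⟩, hi'⟩ := h
  intro i hi k hk e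
  obtain ⟨⟨p1, q1⟩, r1⟩ := hi' i hi
  obtain ⟨⟨p2, q2⟩, r2⟩ := hi' k hk
  rw [← r1, ← r2]
  congr 1
  have hnd : sorted.Nodup := (pairwise_of_ascending ha).imp fun h => h.ne
  refine (hnd.getElem_inj_iff (hi := by omega) (hj := by omega)).1 ?_
  rw [← List.getD_eq_getElem _ 0, ← List.getD_eq_getElem _ 0, q1, q2, e]

end CfsgLib.Spor.TableIso
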