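import Cfsg.Agent.Lib.SporMathieu2
import Cfsg.Agent.Lib.SporM24Elems
import Cfsg.Agent.Lib.SporTableIso
import Cfsg.Agent.Lib.SporM11Tables
import Cfsg.Agent.Lib.DicksonTorus

/-!
Subgroups of the smallest Mathieu group as `PSL(2, 11)`, the symmetric group of degree 5 and `GL(2, 3)`.
-/

set_option autoImplicit false
set_option maxRecDepth 40000

namespace CfsgLib.Spor.MEleven
open Cfsg CfsgLib.Spor CfsgLib.Spor.TableIso
open scoped Pointwise Matrix

local instance fact11 : Fact (Nat.Prime 11) := ⟨by norm_num⟩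
local instance fact3 : Fact (Nat.Prime 3) := ⟨Nat.prime_three⟩

abbrev F11 := ZMod 11

/-- The negative of an entry list. -/
def negl (l : List ℕ) : List ℕ := l.map fun x => (11 - x) % 11

/-- The representative of a pair of opposite matrices. -/
def normP (l : List ℕ) : List ℕ :=
  if Nat.beq (l.getD 0 0) 0 then (if Nat.ble (l.getD 1 0) 5 then l else negl l)
  else (if Nat.ble (l.getD 0 0) 5 then l else negl l)

/-- The product of entry lists. -/
def mulM (x y : List ℕ) : List ℕ :=
  [(x.getD 0 0 * y.getD 0 0 + x.getD 1 0 * y.getD 2 0) % 11, (x.getD 0 0 * y.getD 1 0 + x.getD 1 0 * y.getD 3 0) % 11,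
    (x.getD 2 0 * y.getD 0 0 + x.getD 3 0 * y.getD 2 0) % 11, (x.getD 2 0 * y.getD 1 0 + x.getD 3 0 * y.getD 3 0) % 11]

/-- The key of an entry list. -/
def keyP (l : List ℕ) : ℕ := l.getD 0 0 + 11 * (l.getD 1 0 + 11 * (l.getD 2 0 + 11 * l.getD 3 0))

/-- A valid entry list: four residues of determinant one, chosen among opposites. -/
def okP (l : List ℕ) : Bool :=
  Nat.beq l.length 4 && l.all (fun x => Nat.blt x 11) &&
    Nat.beq ((l.getD 0 0 * l.getD 3 0 + 121 - l.getD 1 0 * l.getD 2 0) % 11) 1 && (normP l == l) &&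
    (normP (negl l) == l)

/-- The matrix of an entry list. -/
def matP (l : List ℕ) : Matrix (Fin 2) (Fin 2) F11 :=
  !![(l.getD 0 0 : F11), (l.getD 1 0 : F11); (l.getD 2 0 : F11), (l.getD 3 0 : F11)]

open Classical in
/-- The element of `SL(2, 11)` of an entry list. -/
noncomputable def slP (l : List ℕ) : CfsgLib.Dickson.SL F11 :=
  if h : (matP l).det = 1 then ⟨matP l, h⟩ else 1

theorem okP_spec {l : List ℕ} (h : okP l = true) : l.length = 4 ∧ (∀ i, l.getD i 0 < 11) ∧ (matP l).det = 1 ∧
    normP l = l ∧ normP (negl l) = l := by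
  simp only [okP, Bool.and_eq_true, Nat.beq_eq, List.all_eq_true, Nat.blt_eq, beq_iff_eq] at h
  obtain ⟨⟨⟨⟨h1, h2⟩, h3⟩, h4⟩, h5⟩ := h
  have hb : ∀ i, l.getD i 0 < 11 := fun i => by
    rcases Nat.lt_or_ge i l.length with hi | hi
    · rw [List.getD_eq_getElem _ _ hi]; exact h2 _ (List.getElem_mem hi)
    · rw [List.getD_eq_default _ _ hi]; norm_num
  refine ⟨h1, hb, ?_, h4, h5⟩
  have h121 : l.getD 1 0 * l.getD 2 0 ≤ 121 := by
    have := hb 1; have := hb 2; nlinarith
  have e := congrArg (fun k : ℕ => (k : F11)) h3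
  simp only [ZMod.natCast_mod, Nat.cast_one] at e
  rw [Nat.cast_sub (by omega)] at e
  push_cast at e
  rw [show (121 : F11) = 0 from rfl, add_zero] at e
  rw [Matrix.det_fin_two, matP]
  simpa using e

theorem slP_val {l : List ℕ} (h : okP l = true) : (slP l).1 = matP l := by
  exact congrArg Subtype.val (dif_pos (okP_spec h).2.2.1)

theorem matP_mul (x y : List ℕ) : matP (mulM x y) = matP x * matP y := by
  ext i j
  fin_cases i <;> fin_cases j <;> simp [matP, mulM, Matrix.mul_apply, Fin.sum_univ_two]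

theorem matP_negl {l : List ℕ} (hl : l.length = 4) (hb : ∀ i, l.getD i 0 < 11) : matP (negl l) = -matP l := by
  have he : ∀ i < 4, (((negl l).getD i 0 : ℕ) : F11) = -(l.getD i 0 : F11) := fun i hi => by
    rw [negl, List.getD_eq_getElem _ _ (by simp [hl, hi]), List.getElem_map,
      ← List.getD_eq_getElem _ 0 (hl ▸ hi), ZMod.natCast_mod, Nat.cast_sub (hb i).le]
    rw [show ((11 : ℕ) : F11) = 0 from rfl, zero_sub]
  ext i j
  fin_cases i <;> fin_cases j <;>
    first | exact he 0 (by norm_num) | exact he 1 (by norm_num) | exact he 2 (by norm_num) | exact he 3 (by norm_num)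

theorem matP_inj {x y : List ℕ} (hx : x.length = 4) (hy : y.length = 4) (bx : ∀ i, x.getD i 0 < 11)
    (by' : ∀ i, y.getD i 0 < 11) (h : matP x = matP y) : x = y := by
  have key : ∀ i < 4, x.getD i 0 = y.getD i 0 := by
    intro i hi
    have := congrFun (congrFun h ⟨i / 2, by omega⟩) ⟨i % 2, by omega⟩
    have h2 : ((x.getD i 0 : ℕ) : F11) = ((y.getD i 0 : ℕ) : F11) := by
      interval_cases i <;> exact this
    have e := congrArg ZMod.val h2
    rwa [ZMod.val_natCast, ZMod.val_natCast, Nat.mod_eq_of_lt (bx _), Nat.mod_eq_of_lt (by' _)] at e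
  refine List.ext_getElem (hx.trans hy.symm) fun i h1 h2 => ?_
  rw [← List.getD_eq_getElem _ 0, ← List.getD_eq_getElem _ 0]
  exact key i (hx ▸ h1)

/-- The class of an entry list. -/
noncomputable def pP (i : ℕ) : CfsgLib.Dickson.PSL F11 := CfsgLib.Dickson.mkP (slP (pslTgt.getD i []))

theorem psl_check : ((List.range 660).all fun i => okP (pslTgt.getD i []) &&
    (List.range pslGens.length).all fun j =>
      normP (mulM (pslTgt.getD i []) (pslTgt.getD (pslGens.getD j 0) [])) == pslTgt.getD (ent pslNext i j) []) = true ∧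
    keysOK 660 (fun i => keyP (pslTgt.getD i [])) pslSorted pslPos pslInv = true ∧
    frameOK 660 pslGens.length pslGens pslNext pslPars = true ∧ pslTgt.getD 0 [] = [1, 0, 0, 1] := by
  decide +kernel

theorem psl_perms : permsOK 660 pslGens.length pslRows pslGens pslNext = true := by decide +kernel

theorem psl_ok {i : ℕ} (hi : i < 660) : okP (pslTgt.getD i []) = true ∧ ∀ j < pslGens.length,
    normP (mulM (pslTgt.getD i []) (pslTgt.getD (pslGens.getD j 0) [])) = pslTgt.getD (ent pslNext i j) [] := by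
  have h := List.all_eq_true.1 psl_check.1 i (List.mem_range.2 hi)
  simp only [Bool.and_eq_true, List.all_eq_true, List.mem_range, beq_iff_eq] at h
  exact h

theorem card_psl11 : Nat.card (CfsgLib.Dickson.PSL F11) = 660 := by
  have h := CfsgLib.Dickson.card_psl (F := F11) (q := 11) (ZMod.card 11) (p := 11)
  rw [show Nat.gcd 2 (11 - 1) = 2 from rfl] at h
  omega

theorem pP_next {i : ℕ} (hi : i < 660) {j : ℕ} (hj : j < pslGens.length) :
    pP (ent pslNext i j) = pP i * pP (pslGens.getD j 0) := by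
  obtain ⟨hg, hlt, -⟩ := frameOK_spec psl_check.2.2.1
  obtain ⟨hx, hm⟩ := psl_ok hi
  have hy := (psl_ok (hg j hj)).1
  have hz := (psl_ok (hlt i hi j hj)).1
  have e := hm j hj
  rw [pP, pP, pP, ← map_mul, CfsgLib.Dickson.mkP_eq_iff]
  have hval : (slP (pslTgt.getD i []) * slP (pslTgt.getD (pslGens.getD j 0) [])).1 =
      matP (mulM (pslTgt.getD i []) (pslTgt.getD (pslGens.getD j 0) [])) := by
    rw [Matrix.SpecialLinearGroup.coe_mul, slP_val hx, slP_val hy, matP_mul]
  set P := mulM (pslTgt.getD i []) (pslTgt.getD (pslGens.getD j 0) []) with hP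
  have hPl : P.length = 4 := rfl
  have hPb : ∀ k, P.getD k 0 < 11 := fun k => by
    rcases k with _ | _ | _ | _ | k <;>
      first
      | exact Nat.mod_lt _ (by norm_num)
      | exact (show (0 : ℕ) < 11 by norm_num)
  unfold normP at e
  split_ifs at e
  all_goals
    first
    | (refine Or.inl (Subtype.ext ?_); rw [hval, slP_val hz, ← e]; done)
    | (refine Or.inr (Subtype.ext ?_); rw [Matrix.SpecialLinearGroup.coe_neg, hval, slP_val hz, ← e,
        matP_negl hPl hPb]; done)

theorem pP_inj {i k : ℕ} (hi : i < 660) (hk : k < 660) (e : pP i = pP k) : i = k := by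
  refine keysOK_spec psl_check.2.1 i hi k hk (congrArg keyP ?_)
  obtain ⟨x1, x2, -, x4, x5⟩ := okP_spec (psl_ok hi).1
  obtain ⟨y1, y2, -, y4, y5⟩ := okP_spec (psl_ok hk).1
  rcases CfsgLib.Dickson.mkP_eq_iff.1 e with h | h <;> have h' := congrArg Subtype.val h
  · rw [slP_val (psl_ok hi).1, slP_val (psl_ok hk).1] at h'
    exact matP_inj x1 y1 x2 y2 h'
  · rw [Matrix.SpecialLinearGroup.coe_neg, slP_val (psl_ok hi).1, slP_val (psl_ok hk).1, ← matP_negl y1 y2] at h'
    have hl : (negl (pslTgt.getD k [])).length = 4 := by rw [negl, List.length_map, y1]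
    have hb : ∀ t, (negl (pslTgt.getD k [])).getD t 0 < 11 := fun t => by
      rcases Nat.lt_or_ge t 4 with ht | ht
      · rw [negl, List.getD_eq_getElem _ _ (by rw [List.length_map, y1]; exact ht), List.getElem_map]; exact Nat.mod_lt _ (by norm_num)
      · rw [List.getD_eq_default _ _ (by omega)]; norm_num
    have := matP_inj x1 hl x2 hb h'
    rw [← x4, this, y5]

/-- The stabiliser of a point outside the dodecad in the point stabiliser. -/
abbrev K660 : Subgroup P24 := fix12 1 ⊓ MulAction.stabilizer P24 (pt outA)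

theorem mem_fix12_one {L : List ℕ} (h : inStab [340831] L = true) (h0 : L.getD 0 0 = 0) : permOf L ∈ fix12 1 := by
  obtain ⟨hM, hl, hr, hm⟩ := inStab_spec h
  refine mem_fix12.2 ⟨mem_M12_iff.2 ⟨hM, hm _ (by simp)⟩, fun j hj => ?_⟩
  rw [show j = 0 by omega, show dpt 0 = pt 0 from rfl, hr.apply_pt (by norm_num), h0]

theorem outside_facts : ((List.range 24).all fun y => (340831 : ℕ).testBit y ||
      transA.any (fun L => inStab [340831] L && Nat.beq (L.getD 0 0) 0 && Nat.beq (L.getD outA 0) y)) = true ∧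
    ((List.range 24).all fun y => (340831 : ℕ).testBit y || Nat.beq y outA ||
      transB.any (fun L => inStab [340831] L && Nat.beq (L.getD 0 0) 0 && Nat.beq (L.getD outA 0) outA &&
        Nat.beq (L.getD outB 0) y)) = true ∧
    (340831 : ℕ).testBit outA = false ∧ (340831 : ℕ).testBit outB = false ∧ outA < 24 ∧ outB < 24 ∧ outA ≠ outB ∧
    (setOfMask 340831)ᶜ.card = 12 := by decide +kernel

theorem exists_A {y : GolayPt} (hy : y ∉ Spor.squareDodecad) : ∃ g ∈ fix12 1, g (pt outA) = y := by
  rw [squareDodecad_eq, mem_setOfMask] at hy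
  have h := List.all_eq_true.1 outside_facts.1 (ix y) (List.mem_range.2 (ix_lt y))
  simp only [Bool.or_eq_true, List.any_eq_true, Bool.and_eq_true, Nat.beq_eq] at h
  obtain ⟨L, -, ⟨h1, h2⟩, h3⟩ := h.resolve_left hy
  refine ⟨_, mem_fix12_one h1 h2, ?_⟩
  rw [(inStab_spec h1).2.2.1.apply_pt outside_facts.2.2.2.2.1, h3, pt_ix]

theorem exists_B {y : GolayPt} (hy : y ∉ Spor.squareDodecad) (hne : y ≠ pt outA) : ∃ g ∈ K660, g (pt outB) = y := by
  rw [squareDodecad_eq, mem_setOfMask] at hy
  have h := List.all_eq_true.1 outside_facts.2.1 (ix y) (List.mem_range.2 (ix_lt y))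
  simp only [Bool.or_eq_true, List.any_eq_true, Bool.and_eq_true, Nat.beq_eq] at h
  rcases h with (h | h) | ⟨L, -, ⟨⟨h1, h2⟩, h3⟩, h4⟩
  · exact absurd h hy
  · exact absurd (by rw [← h, pt_ix]) hne
  · refine ⟨_, Subgroup.mem_inf.2 ⟨mem_fix12_one h1 h2, ?_⟩, ?_⟩
    · rw [MulAction.mem_stabilizer_iff, Equiv.Perm.smul_def,
        (inStab_spec h1).2.2.1.apply_pt outside_facts.2.2.2.2.1, h3]
    · rw [(inStab_spec h1).2.2.1.apply_pt outside_facts.2.2.2.2.2.1, h4, pt_ix]

theorem out_not_mem : pt outA ∉ Spor.squareDodecad ∧ pt outB ∉ Spor.squareDodecad ∧ pt outA ≠ pt outB := by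
  obtain ⟨-, -, a, b, la, lb, ne, -⟩ := outside_facts
  rw [squareDodecad_eq, mem_setOfMask, mem_setOfMask, ix_pt la, ix_pt lb]
  exact ⟨by simp [a], by simp [b], fun e => ne (by rw [← ix_pt la, e, ix_pt lb])⟩

theorem fix12_smul {g : P24} (hg : g ∈ fix12 1) : g • Spor.squareDodecad = Spor.squareDodecad :=
  (mem_M12_iff'.1 (mem_fix12.1 hg).1).2

theorem fix12_not_mem {g : P24} (hg : g ∈ fix12 1) {y : GolayPt} (hy : y ∉ Spor.squareDodecad) :
    g y ∉ Spor.squareDodecad := fun h => hy (by
  rw [← fix12_smul hg] at h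
  exact (Finset.smul_mem_smul_finset_iff g).1 h)

theorem card_K660 : Nat.card K660 = 660 := by
  have h := card_eq_ncard_mul (fix12 1) (pt outA) (↑(setOfMask 340831)ᶜ) (fun g hg => ?_) (fun y hy => ?_)
  · rw [Set.ncard_coe_finset, outside_facts.2.2.2.2.2.2.2, card_fix12 1 (by decide)] at h
    show Nat.card ↥(fix12 1 ⊓ MulAction.stabilizer P24 (pt outA)) = 660
    change 7920 = 12 * _ at h
    omega
  · rw [Finset.mem_coe, Finset.mem_compl, ← squareDodecad_eq]
    exact fix12_not_mem hg out_not_mem.1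
  · rw [Finset.mem_coe, Finset.mem_compl, ← squareDodecad_eq] at hy
    exact exists_A hy

theorem K660_gens : (List.range pslGens.length).all (fun j => inStab [340831] (pslRows.getD (pslGens.getD j 0) []) &&
    Nat.beq ((pslRows.getD (pslGens.getD j 0) []).getD 0 0) 0 &&
    Nat.beq ((pslRows.getD (pslGens.getD j 0) []).getD outA 0) outA) = true := by decide +kernel

theorem K660_iso : Nonempty (K660 ≃* CfsgLib.Dickson.PSL F11) := by
  obtain ⟨-, -, hf, h0⟩ := psl_check
  refine iso_of_perm_table 660 _ pslRows pslGens pslNext pslPars pP card_K660 card_psl11 (by norm_num) hf psl_perms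
    (fun j hj => ?_) ?_ (fun i hi j hj => pP_next hi hj) fun i hi k hk => pP_inj hi hk
  · have h := List.all_eq_true.1 K660_gens j (List.mem_range.2 hj)
    simp only [Bool.and_eq_true, Nat.beq_eq] at h
    refine Subgroup.mem_inf.2 ⟨mem_fix12_one h.1.1 h.1.2, ?_⟩
    rw [MulAction.mem_stabilizer_iff, Equiv.Perm.smul_def,
      (inStab_spec h.1.1).2.2.1.apply_pt outside_facts.2.2.2.2.1, h.2]
  · have : slP [1, 0, 0, 1] = 1 := Subtype.ext (by
      rw [slP_val (by decide +kernel)]
      show !![((1 : ℕ) : F11), ((0 : ℕ) : F11); ((0 : ℕ) : F11), ((1 : ℕ) : F11)] = 1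
      simp [Matrix.one_fin_two])
    rw [pP, h0, this, map_one]

/-- The stabiliser of a pair outside the dodecad in the point stabiliser. -/
abbrev K120 : Subgroup P24 := fix12 1 ⊓ MulAction.stabilizer P24 ({pt outA, pt outB} : Finset GolayPt)

theorem exists_pair {q q' : GolayPt} (hq : q ∉ Spor.squareDodecad) (hq' : q' ∉ Spor.squareDodecad) (hne : q ≠ q') :
    ∃ g ∈ fix12 1, g (pt outA) = q ∧ g (pt outB) = q' := by
  obtain ⟨g, hg, eg⟩ := exists_A hq
  obtain ⟨h, hh, eh⟩ := exists_B (fix12_not_mem (inv_mem hg) hq') (fun e => hne (by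
    rw [← eg, ← e]; exact g.apply_symm_apply q'))
  refine ⟨g * h, mul_mem hg hh.1, ?_, ?_⟩
  · rw [Equiv.Perm.mul_apply, show h (pt outA) = pt outA from hh.2, eg]
  · rw [Equiv.Perm.mul_apply, eh]; exact g.apply_symm_apply q'

theorem card_K120 : Nat.card K120 = 120 := by
  classical
  have h := card_eq_ncard_mul (fix12 1) ({pt outA, pt outB} : Finset GolayPt)
    (↑((setOfMask 340831)ᶜ.powersetCard 2)) (fun g hg => ?_) (fun y hy => ?_)
  · rw [Set.ncard_coe_finset, Finset.card_powersetCard, outside_facts.2.2.2.2.2.2.2, card_fix12 1 (by decide)] at h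
    show Nat.card ↥(fix12 1 ⊓ MulAction.stabilizer P24 ({pt outA, pt outB} : Finset GolayPt)) = 120
    change 7920 = Nat.choose 12 2 * _ at h
    rw [show Nat.choose 12 2 = 66 from rfl] at h
    omega
  · rw [Finset.mem_coe, Finset.mem_powersetCard, Finset.card_smul_finset, Finset.card_pair out_not_mem.2.2]
    refine ⟨fun p hp => ?_, rfl⟩
    obtain ⟨u, hu, rfl⟩ := Finset.mem_smul_finset.1 hp
    rw [Finset.mem_compl, ← squareDodecad_eq]
    rcases Finset.mem_insert.1 hu with rfl | hu
    · exact fix12_not_mem hg out_not_mem.1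
    · rw [Finset.mem_singleton.1 hu]; exact fix12_not_mem hg out_not_mem.2.1
  · rw [Finset.mem_coe, Finset.mem_powersetCard] at hy
    obtain ⟨hs, hc⟩ := hy
    obtain ⟨q, q', hne, rfl⟩ := Finset.card_eq_two.1 hc
    have hm : ∀ x ∈ ({q, q'} : Finset GolayPt), x ∉ Spor.squareDodecad := fun x hx => by
      rw [squareDodecad_eq]; exact Finset.mem_compl.1 (hs hx)
    obtain ⟨g, hg, e1, e2⟩ := exists_pair (hm q (by simp)) (hm q' (by simp)) hne
    exact ⟨g, hg, by rw [Finset.smul_finset_insert, Finset.smul_finset_singleton, Equiv.Perm.smul_def, e1,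
      Equiv.Perm.smul_def, e2]⟩

/-- The permutation of five points of a list. -/
def permFive (l : List ℕ) : Equiv.Perm (Fin 5) :=
  if h : Function.Bijective (fun x : Fin 5 => (Fin.ofNat 5 (l.getD x.val 0))) then
    ⟨fun x => Fin.ofNat 5 (l.getD x.val 0), Fintype.bijInv h, Fintype.leftInverse_bijInv h,
      Fintype.rightInverse_bijInv h⟩
  else 1

/-- The images of five points. -/
def funFive (l : List ℕ) (x : Fin 5) : Fin 5 := Fin.ofNat 5 (l.getD x.val 0)

theorem sym_check : (∀ i ∈ List.range 120, Function.Bijective (funFive (symTgt.getD i []))) ∧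
    (∀ i ∈ List.range 120, ∀ j ∈ List.range symGens.length, ∀ x : Fin 5,
      funFive (symTgt.getD (ent symNext i j) []) x =
        funFive (symTgt.getD i []) (funFive (symTgt.getD (symGens.getD j 0) []) x)) ∧
    keysOK 120 (fun i => (funFive (symTgt.getD i []) 0).val + 5 * ((funFive (symTgt.getD i []) 1).val + 5 *
      ((funFive (symTgt.getD i []) 2).val + 5 * ((funFive (symTgt.getD i []) 3).val + 5 *
        (funFive (symTgt.getD i []) 4).val)))) symSorted symPos symInv = true ∧
    frameOK 120 symGens.length symGens symNext symPars = true ∧ symTgt.getD 0 [] = [0, 1, 2, 3, 4] ∧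
    permsOK 120 symGens.length symRows symGens symNext = true ∧
    (List.range symGens.length).all (fun j => inStab [340831] (symRows.getD (symGens.getD j 0) []) &&
      Nat.beq ((symRows.getD (symGens.getD j 0) []).getD 0 0) 0 &&
      ((Nat.beq ((symRows.getD (symGens.getD j 0) []).getD outA 0) outA &&
          Nat.beq ((symRows.getD (symGens.getD j 0) []).getD outB 0) outB) ||
        (Nat.beq ((symRows.getD (symGens.getD j 0) []).getD outA 0) outB &&
          Nat.beq ((symRows.getD (symGens.getD j 0) []).getD outB 0) outA))) = true := by decide +kernel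

theorem permFive_apply {l : List ℕ} (h : Function.Bijective (funFive l)) (x : Fin 5) : permFive l x = funFive l x := by
  rw [permFive, dif_pos (by exact h)]; rfl

theorem K120_iso : Nonempty (K120 ≃* Equiv.Perm (Fin 5)) := by
  obtain ⟨hbij, hmul, hkey, hf, h0, hp, hgens⟩ := sym_check
  obtain ⟨hg, hlt, -⟩ := frameOK_spec hf
  refine iso_of_perm_table 120 _ symRows symGens symNext symPars (fun i => permFive (symTgt.getD i []))
    card_K120 (by rw [Nat.card_perm, Nat.card_fin]; rfl) (by norm_num) hf hp (fun j hj => ?_) ?_ ?_ ?_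
  · have h := List.all_eq_true.1 hgens j (List.mem_range.2 hj)
    simp only [Bool.and_eq_true, Bool.or_eq_true, Nat.beq_eq] at h
    obtain ⟨⟨h1, h2⟩, h3⟩ := h
    refine Subgroup.mem_inf.2 ⟨mem_fix12_one h1 h2, ?_⟩
    rw [MulAction.mem_stabilizer_iff, Finset.smul_finset_insert, Finset.smul_finset_singleton,
      Equiv.Perm.smul_def, Equiv.Perm.smul_def, (inStab_spec h1).2.2.1.apply_pt outside_facts.2.2.2.2.1,
      (inStab_spec h1).2.2.1.apply_pt outside_facts.2.2.2.2.2.1]
    rcases h3 with ⟨a, b⟩ | ⟨a, b⟩ <;> rw [a, b]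
    exact Finset.pair_comm _ _
  · refine Equiv.ext fun x => ?_
    rw [permFive_apply (hbij 0 (by decide)), h0]
    fin_cases x <;> rfl
  · intro i hi j hj
    refine Equiv.ext fun x => ?_
    rw [Equiv.Perm.mul_apply, permFive_apply (hbij _ (List.mem_range.2 (hlt i hi j hj))),
      permFive_apply (hbij i (List.mem_range.2 hi)), permFive_apply (hbij _ (List.mem_range.2 (hg j hj)))]
    exact hmul i (List.mem_range.2 hi) j (List.mem_range.2 hj) x
  · intro i hi k hk e
    have e' : funFive (symTgt.getD i []) = funFive (symTgt.getD k []) := funext fun x => by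
      rw [← permFive_apply (hbij i (List.mem_range.2 hi)), ← permFive_apply (hbij k (List.mem_range.2 hk))]
      exact DFunLike.congr_fun e x
    exact keysOK_spec hkey i hi k hk (by simp only [e'])

/-- All elements of the point stabiliser in the dodecad stabiliser, as lists. -/
def list7920 : List (List ℕ) :=
  (m12Trans.getD 1 []).flatMap fun u1 => (m12Trans.getD 2 []).flatMap fun u2 => (m12Trans.getD 3 []).flatMap fun u3 =>
    (m12Trans.getD 4 []).map fun u4 => mulL u1 (mulL u2 (mulL u3 u4))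

theorem fix12_split {k : ℕ} (hk : k < 5) {g : P24} (hg : g ∈ fix12 k) :
    ∃ L ∈ m12Trans.getD k [], ∃ h ∈ fix12 (k + 1), g = permOf L * h ∧ L.length = 24 ∧ Rep (permOf L) L := by
  have hy := fix12_image hk hg
  have h := List.all_eq_true.1 levels12_ok k (List.mem_range.2 hk)
  simp only [level12OK, Bool.and_eq_true, List.all_eq_true, Bool.or_eq_true, Bool.not_eq_true',
    List.any_eq_true, Nat.beq_eq] at h
  simp only [rest12, Finset.mem_sdiff, Finset.mem_image, Finset.mem_range, not_exists, not_and,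
    mem_setOfMask] at hy
  have hf := dpt_facts k (List.mem_range.2 hk)
  rcases h.2 (ix (g (dpt k))) (List.mem_range.2 (ix_lt _)) with (h' | h') | ⟨L, hL, e⟩
  · rw [hy.1] at h'; exact absurd h' (by simp)
  · exfalso
    rw [List.elem_eq_mem, decide_eq_true_iff, List.mem_iff_getElem] at h'
    obtain ⟨j, hj, e⟩ := h'
    rw [List.getElem_take] at e
    have hjk : j < k := lt_of_lt_of_le hj (by simp)
    refine hy.2 j hjk ?_
    rw [dpt, List.getD_eq_getElem _ _ (lt_of_lt_of_le hj (by simp)), e, pt_ix]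
  · obtain ⟨hM, hl, hr, hm⟩ := inStab_spec (h.1 L hL).1
    have hu : permOf L ∈ fix12 k := by
      refine mem_fix12.2 ⟨mem_M12_iff.2 ⟨hM, hm _ (by simp)⟩, fun j hj => ?_⟩
      have hj5 := (dpt_facts j (List.mem_range.2 (by omega))).1
      rw [dpt, hr.apply_pt hj5, (h.1 L hL).2 _ (hf.2.2.2 j (List.mem_range.2 hj))]
    refine ⟨L, hL, (permOf L)⁻¹ * g, ?_, by rw [mul_inv_cancel_left], hl, hr⟩
    show (permOf L)⁻¹ * g ∈ fix12 k ⊓ MulAction.stabilizer P24 (dpt k)
    refine Subgroup.mem_inf.2 ⟨mul_mem (inv_mem hu) hg, ?_⟩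
    rw [MulAction.mem_stabilizer_iff, Equiv.Perm.smul_def, Equiv.Perm.mul_apply, Equiv.Perm.inv_eq_iff_eq]
    show g (dpt k) = permOf L (pt (m12Base.getD k 0))
    rw [hr.apply_pt hf.1, e, pt_ix]

theorem listOf_mem7920 {g : P24} (hg : g ∈ fix12 1) : listOf g ∈ list7920 := by
  obtain ⟨u1, m1, g1, hg1, rfl, l1, r1⟩ := fix12_split (by norm_num : 1 < 5) hg
  obtain ⟨u2, m2, g2, hg2, rfl, l2, r2⟩ := fix12_split (by norm_num : 2 < 5) hg1
  obtain ⟨u3, m3, g3, hg3, rfl, l3, r3⟩ := fix12_split (by norm_num : 3 < 5) hg2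
  obtain ⟨u4, m4, g4, hg4, rfl, l4, r4⟩ := fix12_split (by norm_num : 4 < 5) hg3
  have h1 : Nat.card ↥(fix12 5) = 1 := card_fix12 5 (by decide)
  rw [Subgroup.card_eq_one] at h1
  rw [h1, Subgroup.mem_bot] at hg4
  subst hg4
  have e34 := Rep.mul l4 r3 r4
  have e234 := Rep.mul (show (mulL u3 u4).length = 24 by simp [mulL, l4]) r2 e34
  have e1234 := Rep.mul (show (mulL u2 (mulL u3 u4)).length = 24 by simp [mulL, l4]) r1 e234
  rw [mul_one, e1234.listOf_eq (by simp [mulL, l4])]
  exact List.mem_flatMap.2 ⟨u1, m1, List.mem_flatMap.2 ⟨u2, m2, List.mem_flatMap.2 ⟨u3, m3,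
    List.mem_map.2 ⟨u4, m4, rfl⟩⟩⟩⟩

theorem inv_all : (list7920.all fun L =>
    !(mulL L L == List.range 24) || L == List.range 24 || invList.any fun s => L == s) = true := by decide +kernel

theorem inv_conj : ((List.range 165).all fun k => validL (invList.getD k []) && inStab [340831] (invConj.getD k []) &&
    Nat.beq ((invConj.getD k []).getD 0 0) 0 &&
    mulL (invList.getD k []) (invConj.getD k []) == mulL (invConj.getD k []) invBase) = true ∧
    invList.length = 165 ∧ inStab [340831] invBase = true ∧ invBase.getD 0 0 = 0 := by decide +kernel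

theorem exists_conj_inv {x : P24} (hx : x ∈ fix12 1) (h2 : orderOf x = 2) :
    ∃ c ∈ fix12 1, x = c * permOf invBase * c⁻¹ := by
  obtain ⟨hall, hlen, hb, -⟩ := inv_conj
  have h := List.all_eq_true.1 inv_all _ (listOf_mem7920 hx)
  simp only [Bool.or_eq_true, Bool.not_eq_true', beq_eq_false_iff_ne, ne_eq, beq_iff_eq, List.any_eq_true] at h
  have hxx : x * x = 1 := by rw [← pow_two, ← h2]; exact pow_orderOf_eq_one x
  have r2 := Rep.mul (length_listOf x) (rep_listOf x) (rep_listOf x)
  rw [hxx] at r2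
  have hne : listOf x ≠ List.range 24 := fun e => by
    have : x = 1 := rep_unique (e ▸ rep_listOf x) rep_one
    rw [this, orderOf_one] at h2; norm_num at h2
  rcases h with (h | h) | ⟨s, hs, e⟩
  · refine absurd ?_ h
    rw [← r2.listOf_eq (by simp [mulL, length_listOf]), rep_one.listOf_eq (by simp)]
  · exact absurd h hne
  obtain ⟨k, hk, ek⟩ := List.mem_iff_getElem.1 hs
  have hk' := List.all_eq_true.1 hall k (List.mem_range.2 (hlen ▸ hk))
  simp only [Bool.and_eq_true, Nat.beq_eq, beq_iff_eq] at hk'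
  obtain ⟨⟨⟨hv, hc⟩, hc0⟩, heq⟩ := hk'
  rw [List.getD_eq_getElem _ _ hk, ek, ← e] at hv heq
  obtain ⟨-, hcl, hcr, -⟩ := inStab_spec hc
  obtain ⟨-, hbl, hbr, -⟩ := inStab_spec hb
  have a := Rep.mul hcl (rep_listOf x) hcr
  have b := Rep.mul hbl hcr hbr
  rw [heq] at a
  refine ⟨_, mem_fix12_one hc hc0, ?_⟩
  rw [← rep_unique a b, mul_inv_cancel_right]

/-- The centraliser of the base involution. -/
abbrev K48 : Subgroup P24 := fix12 1 ⊓ Subgroup.centralizer {permOf invBase}

theorem gl_check : (list7920.filter fun L => mulL L invBase == mulL invBase L).length = 48 ∧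
    frameOK 48 glGens.length glGens glNext glPars = true ∧
    permsOK 48 glGens.length glRows glGens glNext = true ∧
    (∀ i ∈ List.range 48, inStab [340831] (glRows.getD i []) = true ∧ (glRows.getD i []).getD 0 0 = 0 ∧
      mulL (glRows.getD i []) invBase = mulL invBase (glRows.getD i [])) ∧
    (∀ i ∈ List.range 48, ∀ k ∈ List.range 48, glRows.getD i [] = glRows.getD k [] → i = k) := by
  decide +kernel

/-- The matrix of a target over the field with three elements. -/
def matG (l : List ℕ) : Matrix (Fin 2) (Fin 2) (ZMod 3) :=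
  !![(l.getD 0 0 : ZMod 3), (l.getD 1 0 : ZMod 3); (l.getD 2 0 : ZMod 3), (l.getD 3 0 : ZMod 3)]

theorem gl_mats : (∀ i ∈ List.range 48, (matG (glTgt.getD i [])).det ≠ 0) ∧
    (∀ i ∈ List.range 48, ∀ j ∈ List.range glGens.length,
      matG (glTgt.getD (ent glNext i j) []) = matG (glTgt.getD i []) * matG (glTgt.getD (glGens.getD j 0) [])) ∧
    (∀ i ∈ List.range 48, ∀ k ∈ List.range 48, matG (glTgt.getD i []) = matG (glTgt.getD k []) → i = k) ∧
    matG (glTgt.getD 0 []) = 1 := by decide +kernel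

open Classical in
/-- The element of `GL(2, 3)` of a target. -/
noncomputable def glP (i : ℕ) : GL (Fin 2) (ZMod 3) :=
  if h : (matG (glTgt.getD i [])).det ≠ 0 then Matrix.GeneralLinearGroup.mkOfDetNeZero _ h else 1

theorem glP_val {i : ℕ} (hi : i < 48) : (glP i : Matrix (Fin 2) (Fin 2) (ZMod 3)) = matG (glTgt.getD i []) := by
  rw [glP, dif_pos (gl_mats.1 i (List.mem_range.2 hi))]; rfl

theorem mem_K48 {L : List ℕ} (h : inStab [340831] L = true) (h0 : L.getD 0 0 = 0)
    (hc : mulL L invBase = mulL invBase L) : permOf L ∈ K48 := by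
  refine Subgroup.mem_inf.2 ⟨mem_fix12_one h h0, Subgroup.mem_centralizer_singleton_iff.2 ?_⟩
  obtain ⟨-, hl, hr, -⟩ := inStab_spec h
  obtain ⟨-, hbl, hbr, -⟩ := inStab_spec inv_conj.2.2.1
  have a := Rep.mul hbl hr hbr
  have b := Rep.mul hl hbr hr
  rw [hc] at a
  first
  | exact rep_unique a b
  | exact (rep_unique a b).symm

theorem card_K48 : Nat.card K48 = 48 := by
  obtain ⟨hlen, -, -, hrow, hinj⟩ := gl_check
  apply le_antisymm
  · classical
    have hm : ∀ g : K48, listOf (g : P24) ∈ (list7920.filter fun L => mulL L invBase == mulL invBase L).toFinset := by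
      intro g
      rw [List.mem_toFinset, List.mem_filter, beq_iff_eq]
      refine ⟨listOf_mem7920 g.2.1, ?_⟩
      obtain ⟨-, hbl, hbr, -⟩ := inStab_spec inv_conj.2.2.1
      have a := Rep.mul hbl (rep_listOf (g : P24)) hbr
      have b := Rep.mul (length_listOf (g : P24)) hbr (rep_listOf (g : P24))
      rw [← a.listOf_eq (by simp [mulL, hbl]), ← b.listOf_eq (by simp [mulL, length_listOf]),
        Subgroup.mem_centralizer_singleton_iff.1 g.2.2]
    have h := Nat.card_le_card_of_injective (fun g : K48 => (⟨_, hm g⟩ : {L // L ∈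
      (list7920.filter fun L => mulL L invBase == mulL invBase L).toFinset}))
      fun a b e => Subtype.ext (listOf_injective (congrArg Subtype.val e))
    rw [Nat.card_eq_finsetCard] at h
    exact h.trans ((List.toFinset_card_le _).trans hlen.le)
  · have hm : ∀ i : Fin 48, permOf (glRows.getD i.val []) ∈ K48 := fun i =>
      mem_K48 (hrow i (List.mem_range.2 i.2)).1 (hrow i (List.mem_range.2 i.2)).2.1
        (hrow i (List.mem_range.2 i.2)).2.2
    have h := Nat.card_le_card_of_injective (fun i : Fin 48 => (⟨_, hm i⟩ : K48)) fun a b e => by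
      refine Fin.ext (hinj a (List.mem_range.2 a.2) b (List.mem_range.2 b.2) ?_)
      have ha := inStab_spec (hrow a (List.mem_range.2 a.2)).1
      have hb := inStab_spec (hrow b (List.mem_range.2 b.2)).1
      rw [← ha.2.2.1.listOf_eq ha.2.1, ← hb.2.2.1.listOf_eq hb.2.1]
      exact congrArg listOf (congrArg Subtype.val e)
    rwa [Nat.card_fin] at h

theorem K48_iso : Nonempty (K48 ≃* GL (Fin 2) (ZMod 3)) := by
  obtain ⟨-, hf, hp, hrow, -⟩ := gl_check
  obtain ⟨-, hmul, hinj, h0⟩ := gl_mats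
  obtain ⟨hg, hlt, -⟩ := frameOK_spec hf
  refine iso_of_perm_table 48 _ glRows glGens glNext glPars glP card_K48 ?_ (by norm_num) hf hp (fun j hj => ?_) ?_ ?_ ?_
  · rw [Matrix.card_GL_field]; simp [Fin.prod_univ_two]
  · have h := hrow _ (List.mem_range.2 (hg j hj))
    exact mem_K48 h.1 h.2.1 h.2.2
  · exact Units.ext (by rw [glP_val (by norm_num), h0]; rfl)
  · intro i hi j hj
    refine Units.ext ?_
    rw [Units.val_mul, glP_val (hlt i hi j hj), glP_val hi, glP_val (hg j hj)]
    exact hmul i (List.mem_range.2 hi) j (List.mem_range.2 hj)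
  · intro i hi k hk e
    refine hinj i (List.mem_range.2 hi) k (List.mem_range.2 hk) ?_
    rw [← glP_val hi, ← glP_val hk, e]

end CfsgLib.Spor.MEleven
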