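import Mathlib.Data.List.Basic

/-!
Generators of the centraliser of a fixed-point-free involution.
-/

set_option autoImplicit false

namespace CfsgLib.Spor

/-- Generators commuting with the fixed-point-free representative. -/
def centGens : List (List ℕ) :=
  [[2, 5, 21, 22, 13, 10, 4, 23, 7, 11, 6, 9, 3, 17, 0, 18, 19, 8, 15, 20, 14, 12, 16, 1], [6, 16, 13, 12, 7, 5, 10, 20, 9, 0, 15, 4, 11, 1, 8, 22, 2, 19, 23, 17, 18, 21, 14, 3]]

/-- Words reaching the points. -/
def centWords : List ℕ := [0, 202, 131, 16, 76, 160, 157, 22, 8, 2, 79, 5, 23, 44, 1, 25, 40, 17, 52, 13, 4, 50, 7, 70]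

end CfsgLib.Spor
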