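import Cfsg.Agent.Lib.SporObjPoint
import Cfsg.Agent.Lib.SporObjTrans
import Cfsg.Agent.Lib.SporElemTab
import Cfsg.Agent.Lib.SporObjWordsTet

/-!
The stabiliser of a sextet: action on the tetrads and the kernel of that action.
-/

set_option autoImplicit false
set_option maxRecDepth 20000

namespace CfsgLib.Spor
open Cfsg
open scoped Pointwise
attribute [local irreducible] sextKerTab octList

/-- The tetrads of the base sextet. -/
def tetL (i : Fin 6) : List ℕ := [sextBase.getD i.val 0]

/-- A tetrad of the base sextet as a set. -/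
def tetS (i : Fin 6) : Finset GolayPt := setOfMask (sextBase.getD i.val 0)

/-- The tetrads after the first `k`. -/
def tetRest (k : ℕ) : List (List ℕ) := (sextBase.drop k).map fun t => [t]

/-- The sextet together with its first `k` tetrads. -/
def tetComps (k : ℕ) : List (List ℕ) := sextBase :: (sextBase.take k).map fun t => [t]

theorem tet0_ok : stabOK (tetComps 0) sextTet0Gens = true ∧ classesOK sextTet0Gens (tetRest 0) (fun _ => 0) sextTet0Cls = true := by
  decide +kernel

theorem tet1_ok : stabOK (tetComps 1) sextTet1Gens = true ∧ classesOK sextTet1Gens (tetRest 1) (fun _ => 0) sextTet1Cls = true := by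
  decide +kernel

theorem tet2_ok : stabOK (tetComps 2) sextTet2Gens = true ∧ classesOK sextTet2Gens (tetRest 2) (fun _ => 0) sextTet2Cls = true := by
  decide +kernel

theorem tet3_ok : stabOK (tetComps 3) sextTet3Gens = true ∧ classesOK sextTet3Gens (tetRest 3) (fun _ => 0) sextTet3Cls = true := by
  decide +kernel

theorem tet4_ok : stabOK (tetComps 4) sextTet4Gens = true ∧ classesOK sextTet4Gens (tetRest 4) (fun _ => 0) sextTet4Cls = true := by
  decide +kernel

theorem tet_mem : ∀ i : Fin 6, ∀ k ∈ List.range 6, k ≤ i.val → tetL i ∈ tetRest k := by decide +kernel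

theorem tet_comp : ∀ i : Fin 6, ∀ k ∈ List.range 7, i.val < k → tetL i ∈ tetComps k := by decide +kernel

theorem tetS_inj_mask : ∀ i j : Fin 6, sextBase.getD i.val 0 = sextBase.getD j.val 0 → i = j := by decide +kernel

theorem sextBase_small : ∀ i : Fin 6, sextBase.getD i.val 0 < 2 ^ 24 := by decide +kernel

theorem tetS_injective : Function.Injective tetS := fun i j e =>
  tetS_inj_mask i j (setOfMask_inj (sextBase_small i) (sextBase_small j) e)

theorem setSet_tetL (i : Fin 6) : setSet (tetL i) = famOne (tetS i) := famOne_setSet _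

theorem mem_sextBase_set {t : Finset GolayPt} : t ∈ setSet sextBase ↔ ∃ i, tetS i = t := by
  have h : ∀ m, m ∈ sextBase ↔ ∃ i : Fin 6, sextBase.getD i.val 0 = m := by
    intro m
    constructor
    · intro hm
      obtain ⟨i, hi, e⟩ := List.mem_iff_getElem.1 hm
      exact ⟨⟨i, hi⟩, by rw [List.getD_eq_getElem _ _ hi, e]⟩
    · rintro ⟨i, rfl⟩
      rw [List.getD_eq_getElem _ _ (show i.val < sextBase.length from i.2)]
      exact List.getElem_mem _
  rw [mem_setSet]
  constructor
  · rintro ⟨m, hm, rfl⟩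
    obtain ⟨i, rfl⟩ := (h m).1 hm
    exact ⟨i, rfl⟩
  · rintro ⟨i, rfl⟩
    exact ⟨_, (h _).2 ⟨i, rfl⟩, rfl⟩

theorem tet_step {k : ℕ} (hk : k < 5) {i j : Fin 6} (hi : k ≤ i.val) (hj : k ≤ j.val) :
    ∃ g ∈ stabL [sextBase], (∀ l : Fin 6, l.val < k → g • tetS l = tetS l) ∧ g • tetS i = tetS j := by
  have go : ∀ {gens : List (List ℕ)} {cls : List (ℕ × List ℕ)}, stabOK (tetComps k) gens = true →
      classesOK gens (tetRest k) (fun _ => 0) cls = true →
      ∃ g ∈ stabL [sextBase], (∀ l : Fin 6, l.val < k → g • tetS l = tetS l) ∧ g • tetS i = tetS j := by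
    intro gens cls hs hc
    simp only [classesOK, Bool.and_eq_true, List.all_eq_true, List.any_eq_true, Nat.beq_eq] at hc
    have hi' := tet_mem i k (List.mem_range.2 (by omega)) hi
    obtain ⟨vw, hvw, ev⟩ := hc.2 _ hi'
    obtain ⟨g, hg, eg⟩ := classOK_sound hs (hc.1 vw hvw) hi' (by simpa [Nat.beq_eq] using ev)
      (tet_mem j k (List.mem_range.2 (by omega)) hj) (by simpa [Nat.beq_eq] using ev)
    obtain ⟨hgM, hfix⟩ := mem_stabL.1 hg
    refine ⟨g, mem_stabL.2 ⟨hgM, fun B hB => ?_⟩, fun l hl => ?_, ?_⟩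
    · rw [List.mem_singleton.1 hB]; exact hfix _ List.mem_cons_self
    · have := hfix _ (tet_comp l k (List.mem_range.2 (by omega)) hl)
      rw [setSet_tetL, ← famOne_smul] at this
      exact famOne_injective this
    · rw [setSet_tetL, setSet_tetL, ← famOne_smul] at eg
      exact famOne_injective eg
  match k, hk with
  | 0, _ => exact go tet0_ok.1 tet0_ok.2
  | 1, _ => exact go tet1_ok.1 tet1_ok.2
  | 2, _ => exact go tet2_ok.1 tet2_ok.2
  | 3, _ => exact go tet3_ok.1 tet3_ok.2
  | 4, _ => exact go tet4_ok.1 tet4_ok.2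

theorem smul_tet_mem {g : P24} (hg : g ∈ stabL [sextBase]) (i : Fin 6) : ∃ j, tetS j = g • tetS i := by
  have h := (mem_stabL.1 hg).2 sextBase (by simp)
  exact mem_sextBase_set.1 (h ▸ Finset.smul_mem_smul_finset (mem_sextBase_set.2 ⟨i, rfl⟩))

/-- The stabiliser induces every permutation of the tetrads. -/
theorem tet_perm (y : Equiv.Perm (Fin 6)) : ∃ g ∈ stabL [sextBase], ∀ i, g • tetS i = tetS (y i) := by
  have key : ∀ k ≤ 5, ∃ g ∈ stabL [sextBase], ∀ i : Fin 6, i.val < k → g • tetS i = tetS (y i) := by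
    intro k hk
    induction k with
    | zero => exact ⟨1, Subgroup.one_mem _, fun i hi => absurd hi (Nat.not_lt_zero _)⟩
    | succ k ih =>
      obtain ⟨g, hg, e⟩ := ih (by omega)
      obtain ⟨j, hj⟩ := smul_tet_mem (inv_mem hg) (y ⟨k, by omega⟩)
      have hjk : k ≤ j.val := by
        by_contra hlt
        have := e j (by omega)
        rw [hj, smul_inv_smul] at this
        have := congrArg Fin.val (y.injective (tetS_injective this))
        simp at this; omega
      obtain ⟨u, hu, ufix, ue⟩ := tet_step (k := k) (by omega) (i := ⟨k, by omega⟩) le_rfl hjk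
      refine ⟨g * u, Subgroup.mul_mem _ hg hu, fun i hi => ?_⟩
      rcases Nat.lt_or_ge i.val k with h | h
      · rw [mul_smul, ufix i h, e i h]
      · rw [show i = ⟨k, by omega⟩ from Fin.ext (by simp; omega), mul_smul, ue, hj, smul_inv_smul]
  obtain ⟨g, hg, e⟩ := key 5 le_rfl
  refine ⟨g, hg, fun i => ?_⟩
  rcases Nat.lt_or_ge i.val 5 with h | h
  · exact e i h
  obtain ⟨j, hj⟩ := smul_tet_mem hg i
  rw [← hj]
  congr 1
  by_contra hne
  obtain ⟨l, rfl⟩ := y.surjective j
  have hli : l ≠ i := fun e' => hne (by rw [e'])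
  have hl : l.val < 5 := by
    by_contra hh
    exact hli (Fin.ext (by omega))
  rw [← e l hl] at hj
  exact hli (tetS_injective (MulAction.injective g hj))

theorem sextKer_ok : slpOK 6 sextKerTab = true ∧ rowsDistinct sextKerTab = true ∧ sextKerTab.length = 192 ∧
    stabOK (tetComps 6) ((List.range 6).map (row sextKerTab)) = true := by decide +kernel

/-- The elements fixing every tetrad of the base sextet. -/
abbrev sextKer : Subgroup P24 := stabL (tetComps 6)

theorem mem_sextKer {g : P24} : g ∈ sextKer ↔ g ∈ stabL [sextBase] ∧ ∀ i, g • tetS i = tetS i := by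
  constructor
  · intro hg
    obtain ⟨h1, h2⟩ := mem_stabL.1 hg
    refine ⟨mem_stabL.2 ⟨h1, fun B hB => ?_⟩, fun i => famOne_injective ?_⟩
    · rw [List.mem_singleton.1 hB]; exact h2 _ List.mem_cons_self
    · rw [famOne_smul, ← setSet_tetL]
      exact h2 _ (tet_comp i 6 (by simp) i.2)
  · rintro ⟨h1, h2⟩
    obtain ⟨a, b⟩ := mem_stabL.1 h1
    refine mem_stabL.2 ⟨a, fun B hB => ?_⟩
    rcases List.mem_cons.1 hB with rfl | hB
    · exact b _ (by simp)
    · obtain ⟨t, ht, rfl⟩ := List.mem_map.1 hB
      have ht' : setOfMask t ∈ setSet sextBase := mem_setSet.2 ⟨t, List.mem_of_mem_take ht, rfl⟩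
      obtain ⟨i, hi⟩ := mem_sextBase_set.1 ht'
      rw [famOne_setSet, ← famOne_smul, ← hi, h2 i]

theorem card_stab_sextet : Nat.card ↥(stabL [sextBase]) = 138240 := by
  have h := card_eq_ncard_mul (stabL []) (setSet sextBase) sextets (fun g hg => ?_) (fun y hy => ?_)
  · rw [sextCoded.ncard_univ, show sextetObjs.length = 1771 by decide +kernel,
      show Nat.card (stabL []) = 244823040 from card_M24] at h
    have h' : 244823040 = 1771 * Nat.card ↥(stabL [sextBase]) := h
    omega
  · refine smul_mem_sextets hg ?_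
    obtain ⟨a, ha, e⟩ := sextCoded.sound sextBase bases_mem.2.1
    have e' : a = setSet sextBase := e
    rwa [← e']
  · obtain ⟨b, hb, e⟩ := sextCoded.exists_base trSext_stab trSext_trans bases_mem.2.1 hy
    exact ⟨b, hb, (show y = b • setSet sextBase from e).symm⟩

theorem card_sextKer : Nat.card sextKer = 192 := by
  have hidx : ∀ g : ↥(stabL [sextBase]), ∀ i, ∃ j, tetS j = (g : P24) • tetS i := fun g i => smul_tet_mem g.2 i
  choose π hπ using hidx
  let f : ↥(stabL [sextBase]) →* Equiv.Perm (Fin 6) :=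
    MonoidHom.mk' (fun g => Equiv.ofBijective (π g) (Finite.injective_iff_bijective.1 fun a b e => tetS_injective
      (MulAction.injective (g : P24) ((hπ g a).symm.trans ((congrArg tetS e).trans (hπ g b)))))) fun a b => Equiv.ext fun i => tetS_injective (by
        show tetS (π (a * b) i) = tetS (π a (π b i))
        rw [hπ, hπ, hπ, Subgroup.coe_mul, mul_smul])
  have fs : Function.Surjective f := fun y => by
    obtain ⟨g, hg, e⟩ := tet_perm y
    exact ⟨⟨g, hg⟩, Equiv.ext fun i => tetS_injective ((hπ ⟨g, hg⟩ i).trans (e i))⟩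
  have hk : Nat.card f.ker = Nat.card sextKer :=
    Nat.card_congr
      { toFun := fun g => ⟨(g.1 : P24), mem_sextKer.2 ⟨g.1.2, fun i => by
          have := Equiv.ext_iff.1 (MonoidHom.mem_ker.1 g.2) i
          rw [← hπ g.1 i]
          exact congrArg tetS this⟩⟩
        invFun := fun g => ⟨⟨g.1, (mem_sextKer.1 g.2).1⟩, MonoidHom.mem_ker.2 (Equiv.ext fun i => tetS_injective
          ((hπ ⟨g.1, (mem_sextKer.1 g.2).1⟩ i).trans ((mem_sextKer.1 g.2).2 i)))⟩
        left_inv := fun g => rfl
        right_inv := fun g => rfl }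
  have h := f.ker.card_mul_index
  rw [Subgroup.index_ker, MonoidHom.range_eq_top.2 fs, Subgroup.card_top, card_stab_sextet, hk, Nat.card_perm,
    Nat.card_fin] at h
  simp only [Nat.factorial] at h
  omega

theorem sextKer_gen : ∀ k < 6, ∃ g ∈ sextKer, Rep g (row sextKerTab k) := fun k hk => by
  obtain ⟨g, hg, -, hr⟩ := stabOK_spec sextKer_ok.2.2.2 (row sextKerTab k)
    (List.mem_map.2 ⟨k, List.mem_range.2 hk, rfl⟩)
  exact ⟨g, hg, hr⟩

/-- The row squares to the identity. -/
def sqOne (L : List ℕ) : Bool := mulL L L == List.range 24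

/-- The indices of the rows squaring to the identity. -/
def sqRows : List ℕ := (List.range sextKerTab.length).filter fun k => sqOne (row sextKerTab k)

theorem sq_closed : (sqRows.all fun i => sqRows.all fun j => sqOne (mulL (row sextKerTab i) (row sextKerTab j))) = true ∧
    sqRows.length = 64 := by decide +kernel

theorem row_len {k : ℕ} (hk : k < sextKerTab.length) : (row sextKerTab k).length = 24 := by
  have := List.all_eq_true.1 sextKer_ok.1 k (List.mem_range.2 hk)
  simp only [Bool.and_eq_true, Nat.beq_eq] at this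
  exact this.1

theorem sqOne_iff {g : P24} {L : List ℕ} (hl : L.length = 24) (hr : Rep g L) : sqOne L = true ↔ g * g = 1 := by
  have h2 := Rep.mul hl hr hr
  constructor
  · intro e
    rw [sqOne, beq_iff_eq] at e
    exact (e ▸ h2).ext rep_one
  · intro e
    rw [sqOne, beq_iff_eq]
    rw [e] at h2
    refine List.ext_getElem (by simp [mulL, hl]) fun i ha hb => ?_
    have hi : i < 24 := by simpa [mulL, hl] using ha
    have a := h2 (pt i)
    rw [ix_pt hi, List.getD_eq_getElem _ _ ha] at a
    simp [← a, ix_pt hi]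

/-- The involutions of the kernel are closed under products. -/
theorem sextKer_sq_mul {a b : P24} (ha : a ∈ sextKer) (a2 : a * a = 1) (hb : b ∈ sextKer) (b2 : b * b = 1) :
    a * b * (a * b) = 1 := by
  obtain ⟨i, hi, ra⟩ := exists_row sextKer_ok.1 sextKer_gen sextKer_ok.2.1 (card_sextKer.trans sextKer_ok.2.2.1.symm) a ha
  obtain ⟨j, hj, rb⟩ := exists_row sextKer_ok.1 sextKer_gen sextKer_ok.2.1 (card_sextKer.trans sextKer_ok.2.2.1.symm) b hb
  have hm : ∀ k, k < sextKerTab.length → ∀ g, Rep g (row sextKerTab k) → g * g = 1 → k ∈ sqRows := fun k hk g hr e =>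
    List.mem_filter.2 ⟨List.mem_range.2 hk, (sqOne_iff (row_len hk) hr).2 e⟩
  have h := List.all_eq_true.1 (List.all_eq_true.1 sq_closed.1 i (hm i hi a ra a2)) j (hm j hj b rb b2)
  exact (sqOne_iff (by simp [mulL, row_len hj]) (Rep.mul (row_len hj) ra rb)).1 h

theorem card_sextKer_sq : Nat.card {g : P24 // g ∈ sextKer ∧ g * g = 1} = 64 := by
  rw [card_subtype_rows sextKer_ok.1 sextKer_gen sextKer_ok.2.1 (card_sextKer.trans sextKer_ok.2.2.1.symm) _ sqOne
    fun g _ k hk hr => sqOne_iff (row_len hk) hr, List.countP_eq_length_filter]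
  exact sq_closed.2

end CfsgLib.Spor
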