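import Cfsg.Agent.Lib.SporM24Fixed
import Cfsg.Agent.Lib.SporSextetStab
import Cfsg.Agent.Lib.SporM24CentData

/-!
The centraliser of a fixed-point-free involution.
-/

set_option autoImplicit false
set_option maxRecDepth 20000

namespace CfsgLib.Spor
open Cfsg
open scoped Pointwise

theorem canonical_count : (sextetObjs.countP fun X => X.all fun m => Nat.beq (pull (repsTwo.getD 1 []) m) m) = 1 := by
  decide +kernel

theorem fpf_facts : validL (repsTwo.getD 1 []) = true ∧ wt (fixMask (repsTwo.getD 1 [])) = 0 := by decide +kernel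

/-- A fixed-point-free involution fixes every tetrad of exactly one sextet. -/
theorem canonical_sextet {t : P24} (ht : t ∈ M24) (h2 : orderOf t = 2) (h0 : ∀ p, t p ≠ p) :
    ∃ S, {S | S ∈ sextets ∧ ∀ u ∈ S, t • u = u} = {S} := by
  obtain ⟨k, hk, ⟨rfl, hc⟩ | ⟨rfl, -⟩⟩ := two_of_fix ht h2
  · rw [card_fix_zero.2 h0] at hc; omega
  refine Set.ncard_eq_one.1 ((sextCoded.ncard_eq hk _ (fun X => X.all fun m => Nat.beq (pull (repsTwo.getD 1 []) m) m)
    fun X hX S _ eS => ?_).trans canonical_count)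
  have hl : (repsTwo.getD 1 []).length = 24 := by
    have := fpf_facts.1; simp only [validL, Bool.and_eq_true, Nat.beq_eq] at this; exact this.1.1
  have hr := rep_permOf fpf_facts.1
  rw [List.all_eq_true, show S = k • setSet X from eS]
  constructor
  · intro h u hu
    obtain ⟨v, hv, rfl⟩ := Finset.mem_smul_finset.1 hu
    obtain ⟨m, hm, rfl⟩ := mem_setSet.1 hv
    rw [mul_smul, mul_smul, inv_smul_smul]
    have := h m hm
    rw [Nat.beq_eq] at this
    rw [hr.smul_eq_of_pull hl this]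
  · intro h m hm
    have := h _ (Finset.smul_mem_smul_finset (mem_setSet.2 ⟨m, hm, rfl⟩))
    rw [mul_smul, mul_smul, inv_smul_smul, (MulAction.injective k).eq_iff] at this
    rw [Nat.beq_eq]
    refine setOfMask_inj ?_ (smallL_iff.1 (niceL_iff.1 (sextCoded.nice X hX)).1 m hm) ?_
    · rw [pull_eq]; exact lt_of_lt_of_le (fromBits_lt _) (by rw [List.length_map, hl])
    · rw [← hr.smul_setOfMask hl, inv_smul_eq_iff, this]

theorem centralizer_fix {t : P24} (ht : t ∈ M24) (h2 : orderOf t = 2) (h0 : ∀ p, t p ≠ p) {S : Fam}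
    (hS : S ∈ sextets) (hfix : ∀ u ∈ S, t • u = u) {c : P24} (hc : c ∈ M24) (hcomm : c * t = t * c) : c • S = S := by
  obtain ⟨U, hU⟩ := canonical_sextet ht h2 h0
  have m1 : S ∈ {S | S ∈ sextets ∧ ∀ u ∈ S, t • u = u} := ⟨hS, hfix⟩
  have m2 : c • S ∈ {S | S ∈ sextets ∧ ∀ u ∈ S, t • u = u} := ⟨smul_mem_sextets hc hS, fun u hu => by
    obtain ⟨v, hv, rfl⟩ := Finset.mem_smul_finset.1 hu
    rw [← mul_smul, ← hcomm, mul_smul, hfix v hv]⟩
  rw [hU] at m1 m2
  exact m2.trans m1.symm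

theorem centGens_ok : (centGens.all fun L => validL L && listInCodeGroup L &&
    (mulL L (repsTwo.getD 1 []) == mulL (repsTwo.getD 1 []) L)) = true ∧
    wordsOK centGens (ptObjs.headD []) ptObjs centWords = true := by decide +kernel

theorem centralizer_transitive {t : P24} (ht : t ∈ M24) (h2 : orderOf t = 2) (h0 : ∀ p, t p ≠ p) (p q : GolayPt) :
    ∃ c ∈ M24, c * t = t * c ∧ c p = q := by
  obtain ⟨k, hk, ⟨rfl, hc⟩ | ⟨rfl, -⟩⟩ := two_of_fix ht h2
  · rw [card_fix_zero.2 h0] at hc; omega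
  have hl : (repsTwo.getD 1 []).length = 24 := by
    have := fpf_facts.1; simp only [validL, Bool.and_eq_true, Nat.beq_eq] at this; exact this.1.1
  have hr := rep_permOf fpf_facts.1
  set C : Subgroup P24 := M24 ⊓ Subgroup.centralizer {permOf (repsTwo.getD 1 [])} with hC
  have hg : ∀ l ∈ centGens, ∃ g ∈ C, l.length = 24 ∧ Rep g l := by
    intro L hL
    have := List.all_eq_true.1 centGens_ok.1 L hL
    simp only [Bool.and_eq_true, beq_iff_eq] at this
    obtain ⟨⟨hv, hcg⟩, e⟩ := this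
    have hlL : L.length = 24 := by simp only [validL, Bool.and_eq_true, Nat.beq_eq] at hv; exact hv.1.1
    refine ⟨permOf L, ⟨(rep_permOf hv).mem_M24 hcg, ?_⟩, hlL, rep_permOf hv⟩
    show permOf L ∈ Subgroup.centralizer {permOf (repsTwo.getD 1 [])}
    rw [Subgroup.mem_centralizer_singleton_iff]
    have a := Rep.mul hl (rep_permOf hv) hr
    have b := Rep.mul hlL hr (rep_permOf hv)
    rw [e] at a
    exact Rep.ext a b
  have reach : ∀ x : GolayPt, ∃ g ∈ C, g • setSet (ptObjs.headD []) = famPt x := fun x => by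
    obtain ⟨X, hX, e⟩ := ptCoded.complete x trivial
    rw [e]
    exact wordsOK_sound hg centGens_ok.2 X hX
  obtain ⟨a, ha, ea⟩ := reach (k⁻¹ p)
  obtain ⟨b, hb, eb⟩ := reach (k⁻¹ q)
  have hba : (b * a⁻¹) (k⁻¹ p) = k⁻¹ q := famPt_injective (by
    rw [← Equiv.Perm.smul_def, famPt_smul, mul_smul, ← ea, inv_smul_smul, eb])
  obtain ⟨haM, hac⟩ := ha
  obtain ⟨hbM, hbc⟩ := hb
  refine ⟨k * (b * a⁻¹) * k⁻¹, mul_mem (mul_mem hk (mul_mem hbM (inv_mem haM))) (inv_mem hk), ?_, ?_⟩
  · have hcb : b * a⁻¹ ∈ Subgroup.centralizer {permOf (repsTwo.getD 1 [])} := mul_mem hbc (inv_mem hac)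
    rw [Subgroup.mem_centralizer_singleton_iff] at hcb
    calc k * (b * a⁻¹) * k⁻¹ * (k * permOf (repsTwo.getD 1 []) * k⁻¹)
        = k * (b * a⁻¹ * permOf (repsTwo.getD 1 [])) * k⁻¹ := by group
      _ = k * (permOf (repsTwo.getD 1 []) * (b * a⁻¹)) * k⁻¹ := by rw [hcb]
      _ = k * permOf (repsTwo.getD 1 []) * k⁻¹ * (k * (b * a⁻¹) * k⁻¹) := by group
  · rw [Equiv.Perm.mul_apply, Equiv.Perm.mul_apply, hba]
    simp

theorem fpf_ker_count : ((List.range sextKerTab.length).countP fun k =>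
    sqOne (row sextKerTab k) && Nat.beq (fixMask (row sextKerTab k)) 0) = 18 := by decide +kernel

theorem fixMask_zero_iff {g : P24} {L : List ℕ} (hr : Rep g L) : fixMask L = 0 ↔ ∀ p, g p ≠ p := by
  have hb : ∀ p, (fixMask L).testBit (ix p) = true ↔ g p = p := fun p => by
    rw [fixMask, testBit_fromBits, List.getD_eq_getElem _ _ (by simpa using ix_lt p), List.getElem_map,
      List.getElem_range, Nat.beq_eq, ← hr p, ix_inj.eq_iff]
  constructor
  · intro e p hp
    have := (hb p).2 hp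
    rw [e] at this
    simp at this
  · intro h
    refine Nat.eq_of_testBit_eq fun i => ?_
    rw [Nat.zero_testBit, Bool.eq_false_iff]
    intro hi
    by_cases h24 : i < 24
    · exact h (pt i) ((hb _).1 (by rwa [ix_pt h24]))
    · rw [fixMask, testBit_fromBits, List.getD_eq_default _ _ (by simp; omega)] at hi
      simp at hi

theorem card_centralizer_base {t : P24} (ht : t ∈ sextKer) (h2 : orderOf t = 2) (h0 : ∀ p, t p ≠ p) :
    Nat.card {c : P24 // c ∈ M24 ∧ c * t = t * c} = 7680 := by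
  obtain ⟨hS, hfix⟩ := mem_sextKer.1 ht
  have htM := (mem_stabL.1 hS).1
  have hbase : setSet sextBase ∈ sextets := by
    obtain ⟨a, ha, e⟩ := sextCoded.sound sextBase bases_mem.2.1
    rwa [← show a = setSet sextBase from e]
  have hu : ∀ u ∈ setSet sextBase, t • u = u := fun u hu => by
    obtain ⟨i, rfl⟩ := mem_sextBase_set.1 hu
    exact hfix i
  set K : Subgroup (ConjAct P24) := (stabL [sextBase]).comap ConjAct.ofConjAct.toMonoidHom with hK
  have hmemK : ∀ g, g ∈ K ↔ ConjAct.ofConjAct g ∈ stabL [sextBase] := fun g => Iff.rfl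
  have h := card_eq_ncard_mul K t {x : P24 | x ∈ sextKer ∧ x * x = 1 ∧ ∀ p, x p ≠ p} (fun g hg => ?_) (fun y hy => ?_)
  · have hcard : Nat.card K = 138240 := by
      rw [← card_stab_sextet]
      exact Nat.card_congr (ConjAct.ofConjAct.toEquiv.subtypeEquiv fun g => Iff.rfl)
    have hset : {x : P24 | x ∈ sextKer ∧ x * x = 1 ∧ ∀ p, x p ≠ p}.ncard = 18 := by
      rw [← Nat.card_coe_set_eq]
      refine (card_subtype_rows sextKer_ok.1 sextKer_gen sextKer_ok.2.1 (card_sextKer.trans sextKer_ok.2.2.1.symm)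
        (fun x => x * x = 1 ∧ ∀ p, x p ≠ p) (fun L => sqOne L && Nat.beq (fixMask L) 0) fun g _ k hk hr => ?_).trans
        fpf_ker_count
      rw [Bool.and_eq_true, Nat.beq_eq, sqOne_iff (row_len hk) hr, fixMask_zero_iff hr]
    rw [hcard, hset] at h
    have e : Nat.card {c : P24 // c ∈ M24 ∧ c * t = t * c} = Nat.card ↥(K ⊓ MulAction.stabilizer (ConjAct P24) t) :=
      Nat.card_congr
        { toFun := fun c => ⟨ConjAct.toConjAct c.1,
            (hmemK _).2 (mem_stabL.2 ⟨c.2.1, fun B hB => by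
              rw [List.mem_singleton.1 hB]; exact centralizer_fix htM h2 h0 hbase hu c.2.1 c.2.2⟩),
            MulAction.mem_stabilizer_iff.2 (by
              rw [ConjAct.smul_def, ConjAct.ofConjAct_toConjAct, c.2.2, mul_inv_cancel_right])⟩
          invFun := fun c => ⟨ConjAct.ofConjAct c.1, (mem_stabL.1 ((hmemK _).1 c.2.1)).1, by
            have := MulAction.mem_stabilizer_iff.1 c.2.2
            rw [ConjAct.smul_def, mul_inv_eq_iff_eq_mul] at this
            exact this⟩
          left_inv := fun c => rfl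
          right_inv := fun c => rfl }
    omega
  · obtain ⟨gM, gS⟩ := mem_stabL.1 ((hmemK g).1 hg)
    set a := ConjAct.ofConjAct g with ha
    have hsq : t * t = 1 := by rw [← pow_two, ← h2]; exact pow_orderOf_eq_one t
    refine ⟨mem_sextKer.2 ⟨?_, fun i => ?_⟩, ?_, fun p hp => ?_⟩
    · rw [ConjAct.smul_def]; exact mul_mem (mul_mem ((hmemK g).1 hg) hS) (inv_mem ((hmemK g).1 hg))
    · rw [ConjAct.smul_def, ← ha]
      obtain ⟨j, hj⟩ := smul_tet_mem (inv_mem ((hmemK g).1 hg)) i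
      rw [mul_smul, mul_smul, ← hj, hfix j, hj, smul_inv_smul]
    · rw [ConjAct.smul_def, ← ha]
      rw [show a * t * a⁻¹ * (a * t * a⁻¹) = a * (t * t) * a⁻¹ by group, hsq]; group
    · refine h0 (a⁻¹ p) ?_
      rw [ConjAct.smul_def, ← ha] at hp
      have := congrArg (fun q => a⁻¹ q) hp
      simpa using this
  · obtain ⟨hy1, hy2, hy3⟩ := hy
    obtain ⟨hyS, hyfix⟩ := mem_sextKer.1 hy1
    have hyM := (mem_stabL.1 hyS).1
    haveI := Fact.mk Nat.prime_two
    have hy : orderOf y = 2 := orderOf_eq_prime (by rw [pow_two]; exact hy2) fun e => hy3 none (by rw [e]; rfl)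
    obtain ⟨a, ha, ⟨ea, ca⟩ | ⟨ea, -⟩⟩ := two_of_fix htM h2
    · rw [card_fix_zero.2 h0] at ca; omega
    obtain ⟨b, hb, ⟨eb, cb⟩ | ⟨eb, -⟩⟩ := two_of_fix hyM hy
    · rw [card_fix_zero.2 hy3] at cb; omega
    have hyt : b * a⁻¹ * t * (b * a⁻¹)⁻¹ = y := by rw [ea, eb]; group
    have hg : (b * a⁻¹) • setSet sextBase = setSet sextBase := by
      obtain ⟨U, hU⟩ := canonical_sextet hyM hy hy3
      have m1 : setSet sextBase ∈ {S | S ∈ sextets ∧ ∀ u ∈ S, y • u = u} := ⟨hbase, fun u hu => by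
        obtain ⟨i, rfl⟩ := mem_sextBase_set.1 hu
        exact hyfix i⟩
      have m2 : (b * a⁻¹) • setSet sextBase ∈ {S | S ∈ sextets ∧ ∀ u ∈ S, y • u = u} :=
        ⟨smul_mem_sextets (mul_mem hb (inv_mem ha)) hbase, fun u hu' => by
          obtain ⟨v, hv, rfl⟩ := Finset.mem_smul_finset.1 hu'
          rw [← hyt, mul_smul, mul_smul, inv_smul_smul, hu v hv]⟩
      rw [hU] at m1 m2
      exact m2.trans m1.symm
    refine ⟨ConjAct.toConjAct (b * a⁻¹), (hmemK _).2 (mem_stabL.2 ⟨mul_mem hb (inv_mem ha), fun B hB => by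
      rw [List.mem_singleton.1 hB]; exact hg⟩), ?_⟩
    rw [ConjAct.smul_def, ConjAct.ofConjAct_toConjAct, hyt]

end CfsgLib.Spor
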