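import Mathlib.Data.List.Basic

/-!
Lifts of pairings of six points.
-/

set_option autoImplicit false

namespace CfsgLib.Spor

/-- Lifts of the fixed-point-free involutions of the six fixed points. -/
def pairLifts : List (List ℕ) :=
  [[8, 4, 6, 22, 1, 15, 2, 23, 0, 16, 11, 10, 21, 19, 20, 5, 9, 18, 17, 13, 14, 12, 3, 7],
   [4, 7, 21, 9, 0, 15, 16, 1, 23, 3, 22, 14, 20, 17, 11, 5, 6, 13, 19, 18, 12, 2, 10, 8],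
   [16, 12, 9, 11, 20, 19, 8, 22, 6, 2, 23, 3, 1, 17, 21, 18, 0, 13, 15, 5, 4, 14, 7, 10],
   [6, 22, 7, 8, 14, 18, 0, 2, 3, 12, 21, 16, 9, 19, 4, 17, 11, 15, 5, 13, 23, 10, 1, 20],
   [22, 20, 11, 21, 16, 18, 23, 10, 12, 14, 7, 2, 8, 17, 9, 19, 4, 13, 5, 15, 1, 3, 0, 6],
   [9, 11, 6, 22, 10, 13, 2, 12, 16, 0, 4, 1, 7, 5, 20, 19, 8, 18, 17, 15, 14, 23, 3, 21],
   [20, 6, 10, 16, 11, 18, 1, 9, 21, 7, 2, 4, 14, 15, 12, 13, 3, 19, 5, 17, 0, 8, 23, 22],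
   [7, 8, 10, 16, 23, 15, 21, 0, 1, 20, 2, 22, 14, 18, 12, 5, 3, 19, 13, 17, 9, 6, 11, 4],
   [3, 2, 1, 0, 11, 17, 10, 9, 21, 7, 6, 4, 22, 15, 23, 13, 20, 5, 19, 18, 16, 8, 12, 14],
   [11, 21, 16, 12, 22, 13, 7, 6, 20, 23, 14, 0, 3, 5, 10, 18, 2, 19, 15, 17, 8, 1, 4, 9],
   [10, 16, 6, 22, 9, 19, 2, 21, 11, 4, 0, 8, 23, 15, 20, 13, 1, 18, 17, 5, 14, 7, 3, 12],
   [14, 3, 23, 1, 12, 17, 9, 16, 10, 6, 8, 20, 4, 18, 0, 19, 7, 5, 13, 15, 11, 22, 21, 2],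
   [10, 16, 7, 8, 14, 19, 21, 2, 3, 20, 0, 22, 23, 18, 4, 17, 1, 15, 13, 5, 9, 6, 11, 12],
   [3, 2, 1, 0, 22, 17, 7, 6, 20, 10, 9, 12, 11, 19, 23, 18, 21, 5, 15, 13, 8, 16, 4, 14],
   [9, 11, 8, 4, 3, 13, 16, 14, 2, 0, 22, 1, 20, 5, 7, 17, 6, 15, 19, 18, 12, 23, 10, 21]]

end CfsgLib.Spor
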