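import Cfsg.Agent.Lib.SporM24Fixed
import Cfsg.Agent.Lib.SporM24PairData

/-!
No fixed-point-free involution commutes with an element of order three with six fixed points.
-/

set_option autoImplicit false
set_option maxRecDepth 20000

namespace CfsgLib.Spor
open Cfsg
open scoped Pointwise

/-- The numbers of the six fixed points of the representative. -/
def sixPts : List ℕ := (List.range 24).filter fun i => (fixMask (repsThree.getD 0 [])).testBit i

/-- Every pairing of the six points lifts to an element not commuting with the representative. -/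
noncomputable def pairChk : Bool :=
  pairLifts.all isElem && (tuples (sixPts.map fun _ => sixPts)).all fun t =>
    !((List.range 6).all fun j => !Nat.beq (t.getD j 0) (sixPts.getD j 0) &&
        Nat.beq (t.getD (sixPts.findIdx fun e => Nat.beq e (t.getD j 0)) 0) (sixPts.getD j 0)) ||
      pairLifts.any fun L => (sixPts.map fun i => L.getD i 0) == t &&
        !(mulL L (repsThree.getD 0 []) == mulL (repsThree.getD 0 []) L)

theorem pair_chk : pairChk = true := by decide +kernel

theorem no_fpf_commute {s : P24} (hs : s ∈ M24) (h2 : s * s = 1) (h0 : ∀ p, s p ≠ p)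
    (hc : s * permOf (repsThree.getD 0 []) = permOf (repsThree.getD 0 []) * s) : False := by
  have hfacts : validL (repsThree.getD 0 []) = true ∧ listInCodeGroup (repsThree.getD 0 []) = true ∧
      ordThree (repsThree.getD 0 []) = true ∧ repsThree.getD 0 [] ≠ List.range 24 ∧
      sixPts.length = 6 ∧ (octList.all fun o => !Nat.beq (Nat.land o (fixMask (repsThree.getD 0 []))) (fixMask (repsThree.getD 0 []))) = true := by
    decide +kernel
  obtain ⟨hv, hin, ho, hne', hlen, hoct⟩ := hfacts
  have hl : (repsThree.getD 0 []).length = 24 := by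
    simp only [validL, Bool.and_eq_true, Nat.beq_eq] at hv; exact hv.1.1
  have hr := rep_permOf hv
  have hrM : permOf (repsThree.getD 0 []) ∈ M24 := hr.mem_M24 hin
  have hne : permOf (repsThree.getD 0 []) ≠ 1 := fun e =>
    hne' ((hr.listOf_eq hl).symm.trans (by rw [e]; exact rep_one.listOf_eq (by simp)))
  have hcube : permOf (repsThree.getD 0 []) * (permOf (repsThree.getD 0 []) * permOf (repsThree.getD 0 [])) = 1 := by
    rw [ordThree, beq_iff_eq] at ho
    have := Rep.mul (by rw [length_mulL, hl]) hr (Rep.mul hl hr hr)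
    rw [ho] at this
    exact Rep.ext this rep_one
  generalize hrr : permOf (repsThree.getD 0 []) = r at hc hr hrM hne hcube
  have hEq : ∀ p, r p = p ↔ (fixMask (repsThree.getD 0 [])).testBit (ix p) = true := fun p => by
    have := Finset.ext_iff.1 (fix_filter hv 1) p
    simp only [one_mul, inv_one, mul_one, one_smul, mem_setOfMask, Finset.mem_filter, Finset.mem_univ, true_and] at this
    rwa [hrr] at this
  have hpts : ∀ j < 6, r (pt (sixPts.getD j 0)) = pt (sixPts.getD j 0) ∧ sixPts.getD j 0 < 24 := fun j hj => by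
    have hm : sixPts.getD j 0 ∈ sixPts := by
      rw [List.getD_eq_getElem _ _ (hlen ▸ hj)]; exact List.getElem_mem _
    obtain ⟨h1, h2⟩ := (List.mem_filter (p := fun i => (fixMask (repsThree.getD 0 [])).testBit i) (as := List.range 24)).1 hm
    exact ⟨(hEq _).2 (by rw [ix_pt (List.mem_range.1 h1)]; exact h2), List.mem_range.1 h1⟩
  have hback : ∀ p, r p = p → ix p ∈ sixPts := fun p hp =>
    List.mem_filter.2 ⟨List.mem_range.2 (ix_lt p), (hEq p).1 hp⟩
  have hsfix : ∀ p, r p = p → r (s p) = s p := fun p hp => by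
    have := congrArg (fun x : P24 => x p) hc
    simp only [Equiv.Perm.mul_apply, hp] at this
    exact this.symm
  set t := sixPts.map fun i => ix (s (pt i)) with ht
  have htj : ∀ j < 6, t.getD j 0 = ix (s (pt (sixPts.getD j 0))) := fun j hj => by
    rw [ht, List.getD_eq_getElem _ _ (by simpa [hlen] using hj), List.getElem_map,
      List.getD_eq_getElem _ _ (hlen ▸ hj)]
  have htm : t ∈ tuples (sixPts.map fun _ => sixPts) := by
    refine mem_tuples ?_
    rw [ht, List.forall₂_map_left_iff, List.forall₂_map_right_iff, List.forall₂_same]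
    intro i hi
    obtain ⟨j, hj, rfl⟩ := List.mem_iff_getElem.1 hi
    have := (hpts j (hlen ▸ hj)).1
    rw [List.getD_eq_getElem _ _ hj] at this
    exact hback _ (hsfix _ this)
  have hchk := pair_chk
  simp only [pairChk, Bool.and_eq_true, List.all_eq_true, Bool.or_eq_true, List.any_eq_true, Bool.not_eq_true'] at hchk
  rcases hchk.2 t htm with h | ⟨L, hL, e1, e2⟩
  · rw [← Bool.not_eq_true, List.all_eq_true] at h
    apply h
    intro j hj
    have hj6 := List.mem_range.1 hj
    obtain ⟨hfix, hlt⟩ := hpts j hj6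
    rw [Bool.and_eq_true, Bool.not_eq_true']
    constructor
    · rw [Bool.eq_false_iff, ne_eq, Nat.beq_eq, htj j hj6]
      intro e
      exact h0 _ (by rw [← pt_ix (s (pt (sixPts.getD j 0))), e])
    · rw [Nat.beq_eq]
      have hmem := hback _ (hsfix _ hfix)
      rw [← htj j hj6] at hmem
      set l := sixPts.findIdx fun e => Nat.beq e (t.getD j 0) with hl'
      have hll : l < sixPts.length := List.findIdx_lt_length_of_exists ⟨_, hmem, by simp⟩
      have hle : sixPts[l] = t.getD j 0 := by
        have := List.findIdx_getElem (w := hll)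
        rwa [Nat.beq_eq] at this
      rw [htj l (hlen ▸ hll), List.getD_eq_getElem _ _ hll, hle, htj j hj6, pt_ix,
        show s (s (pt (sixPts.getD j 0))) = pt (sixPts.getD j 0) from congrArg (fun x : P24 => x _) h2, ix_pt hlt]
  obtain ⟨lM, ll, lr⟩ := isElem_spec (hchk.1 L hL)
  rw [beq_iff_eq] at e1
  have hfixE : ∀ p, r p = p → ((permOf L)⁻¹ * s) p = p := fun p hp => by
    obtain ⟨j, hj, e⟩ := List.mem_iff_getElem.1 (hback p hp)
    rw [Equiv.Perm.mul_apply, Equiv.Perm.inv_eq_iff_eq]
    apply ix_inj
    rw [lr p, ← e]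
    have h1 := htj j (hlen ▸ hj)
    rw [List.getD_eq_getElem _ _ hj, ← e1, List.getD_eq_getElem _ _ (by simpa using hj), List.getElem_map, e, pt_ix] at h1
    rw [← h1, e]
  have hE6 : (setOfMask (fixMask (repsThree.getD 0 []))).card = 6 := by
    rw [card_setOfMask]; decide +kernel
  have h3 := (card_fix_set hE6).2 (by
    rintro ⟨o, ho, hsub⟩
    have := List.all_eq_true.1 hoct (maskOf o) (mem_octList.1 ho)
    rw [Bool.not_eq_true', Bool.eq_false_iff, ne_eq, Nat.beq_eq] at this
    have hlt : fixMask (repsThree.getD 0 []) < 2 ^ 24 :=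
      lt_of_lt_of_le (fromBits_lt _) (by simp)
    refine this (setOfMask_inj (lt_of_le_of_lt Nat.and_le_right hlt) hlt ?_)
    show setOfMask (maskOf o &&& fixMask (repsThree.getD 0 [])) = _
    rw [setOfMask_and, setOfMask_maskOf, Finset.inter_eq_right]
    exact hsub)
  have hfix3 : ∀ g : P24, (∀ p, r p = p → g p = p) → ∀ p ∈ setOfMask (fixMask (repsThree.getD 0 [])), g p = p :=
    fun g hg p hp => hg p ((hEq p).2 (mem_setOfMask.1 hp))
  have key : (permOf L)⁻¹ * s = 1 ∨ (permOf L)⁻¹ * s = r ∨ (permOf L)⁻¹ * s = r * r := by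
    by_contra hno
    push Not at hno
    have hsub : ({1, r, r * r, (permOf L)⁻¹ * s} : Set P24) ⊆
        {g | g ∈ M24 ∧ ∀ p ∈ setOfMask (fixMask (repsThree.getD 0 [])), g p = p} := by
      rintro g (rfl | rfl | rfl | rfl)
      · exact ⟨M24.one_mem, fun p _ => rfl⟩
      · exact ⟨hrM, hfix3 _ fun p hp => hp⟩
      · exact ⟨mul_mem hrM hrM, hfix3 _ fun p hp => by rw [Equiv.Perm.mul_apply, hp, hp]⟩
      · exact ⟨mul_mem (inv_mem lM) hs, hfix3 _ hfixE⟩
    have hrr2 : r * r ≠ 1 := fun e => hne (by rw [e, mul_one] at hcube; exact hcube)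
    have h4 : ({1, r, r * r, (permOf L)⁻¹ * s} : Set P24).ncard = 4 := by
      rw [Set.ncard_insert_of_notMem (by simp [Ne.symm hne, Ne.symm hrr2, Ne.symm hno.1]),
        Set.ncard_insert_of_notMem (by simp [hne, Ne.symm hno.2.1]),
        Set.ncard_pair (Ne.symm hno.2.2)]
    have := Set.ncard_le_ncard hsub (Set.toFinite _)
    rw [h4, ← Nat.card_coe_set_eq] at this
    exact absurd (this.trans (le_of_eq h3)) (by norm_num)
  have hL2 : permOf L * r = r * permOf L := by
    have hu : ((permOf L)⁻¹ * s) * r = r * ((permOf L)⁻¹ * s) := by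
      rcases key with e | e | e <;> rw [e]
      · simp
      · rw [mul_assoc]
    calc permOf L * r = s * ((permOf L)⁻¹ * s)⁻¹ * r := by group
      _ = s * r * ((permOf L)⁻¹ * s)⁻¹ := by
        rw [mul_assoc, mul_assoc, (Commute.inv_left (show Commute ((permOf L)⁻¹ * s) r from hu)).eq]
      _ = r * s * ((permOf L)⁻¹ * s)⁻¹ := by rw [hc]
      _ = r * permOf L := by group
  subst hrr
  have a := Rep.mul hl lr (rep_permOf hv)
  have b := Rep.mul ll (rep_permOf hv) lr
  rw [hL2] at a
  rw [Bool.eq_false_iff] at e2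
  exact e2 (beq_iff_eq.2 ((a.listOf_eq (by rw [length_mulL, hl])).symm.trans (b.listOf_eq (by rw [length_mulL, ll]))))

end CfsgLib.Spor
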