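import Cfsg.Agent.Lib.SporMonsterType
import Cfsg.Agent.Lib.SporLeechIrred
import Cfsg.Agent.Lib.SporFrameGroup
import Cfsg.Agent.Lib.CoreLayer

/-!
Conjugates of the involution inside the extraspecial subgroup, in groups of Monster type.
-/

set_option autoImplicit false
set_option maxRecDepth 8000

namespace CfsgLib.Spor
open Cfsg
open scoped Pointwise

attribute [local irreducible] kap repTwo repFour repOdd

variable {G : Type*} [Group G] {z : G} {Q : Subgroup (Subgroup.centralizer ({z} : Set G))}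

/-- The extraspecial subgroup, as a subgroup of the whole group. -/
def qG (Q : Subgroup (Subgroup.centralizer ({z} : Set G))) : Subgroup G :=
  Q.map (Subgroup.centralizer ({z} : Set G)).subtype

theorem mem_qG {x : G} :
    x ∈ qG Q ↔ ∃ hx : x ∈ Subgroup.centralizer ({z} : Set G), (⟨x, hx⟩ : Subgroup.centralizer ({z} : Set G)) ∈ Q := by
  constructor
  · rintro ⟨⟨a, ha⟩, hq, rfl⟩; exact ⟨ha, hq⟩
  · rintro ⟨hx, hq⟩; exact ⟨⟨x, hx⟩, hq, rfl⟩

theorem qG_le : qG Q ≤ Subgroup.centralizer ({z} : Set G) := Subgroup.map_subtype_le _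

theorem mem_centZ {x : G} : x ∈ Subgroup.centralizer ({z} : Set G) ↔ x * z = z * x :=
  Subgroup.mem_centralizer_singleton_iff

theorem conj_qG [Q.Normal] {c y : G} (hc : c ∈ Subgroup.centralizer ({z} : Set G)) (hy : y ∈ qG Q) :
    c * y * c⁻¹ ∈ qG Q := by
  obtain ⟨hy', hq⟩ := mem_qG.1 hy
  exact ⟨_, (inferInstance : Q.Normal).conj_mem _ hq ⟨c, hc⟩, rfl⟩

/-- The data of a group of Monster type. -/
structure MData (Q : Subgroup (Subgroup.centralizer ({z} : Set G))) [Q.Normal] where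
  e : (Subgroup.centralizer ({z} : Set G)) ⧸ Q ≃* Cfsg.Spor.Co1
  ψ : leechLattice → Q ⧸ Subgroup.center Q
  hψ : IsLeechModTwoIso Q e ψ
  hQ : IsExtraspecial 2 Q
  hcard : Nat.card Q = 2 ^ 25
  hz : z ≠ 1
  hz2 : z * z = 1
  hzQ : z ∈ qG Q

namespace MData

/-- Data from the hypothesis, with given identification. -/
def ofType [Q.Normal] [Finite G] (hM : IsOfMonsterType z Q)
    (e : (Subgroup.centralizer ({z} : Set G)) ⧸ Q ≃* Cfsg.Spor.Co1) (ψ : leechLattice → Q ⧸ Subgroup.center Q)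
    (hψ : IsLeechModTwoIso Q e ψ) : MData Q :=
  { e := e
    ψ := ψ
    hψ := hψ
    hQ := hM.1.2.2.1
    hcard := hM.1.2.2.2.1
    hz := fun h => by
      have := hM.1.1
      rw [h, orderOf_one] at this
      exact absurd this (by norm_num)
    hz2 := by rw [← pow_two, ← hM.1.1, pow_orderOf_eq_one]
    hzQ := by
      have hzC : z ∈ Subgroup.centralizer ({z} : Set G) := mem_centZ.2 rfl
      refine mem_qG.2 ⟨hzC, ?_⟩
      rw [← hM.1.2.1]
      refine CfsgLib.Core.centralizer_generalizedFitting_le (Subgroup.mem_centralizer_iff.2 fun a _ => ?_)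
      apply Subtype.ext
      exact mem_centZ.1 a.2 }

theorem nonempty [Q.Normal] [Finite G] (hM : IsOfMonsterType z Q) : Nonempty (MData Q) := by
  obtain ⟨e, ψ, hψ⟩ := hM.2
  exact ⟨ofType hM e ψ hψ⟩

variable [Q.Normal] (d : MData Q)
include d

theorem hz_inv : z⁻¹ = z := inv_eq_of_mul_eq_one_right d.hz2

theorem center_iff (q : Q) : q ∈ Subgroup.center Q ↔
    ((q : Subgroup.centralizer ({z} : Set G)) : G) = 1 ∨ ((q : Subgroup.centralizer ({z} : Set G)) : G) = z := by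
  obtain ⟨hzC, hzq⟩ := mem_qG.1 d.hzQ
  let q0 : Q := ⟨⟨z, hzC⟩, hzq⟩
  have h0 : q0 ∈ Subgroup.center Q := Subgroup.mem_center_iff.2 fun a => by
    apply Subtype.ext; apply Subtype.ext
    exact mem_centZ.1 (a : Subgroup.centralizer ({z} : Set G)).2
  constructor
  · intro hq
    by_contra hcon
    push Not at hcon
    haveI : Finite (Subgroup.center Q) := Nat.finite_of_card_ne_zero (by rw [d.hQ.2]; norm_num)
    have e : Nat.card (Subgroup.center Q) ≥ 3 := by
      have h3 : ({⟨1, one_mem _⟩, ⟨q0, h0⟩, ⟨q, hq⟩} : Set (Subgroup.center Q)).ncard = 3 := by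
        refine Set.ncard_eq_three.2 ⟨_, _, _, ?_, ?_, ?_, rfl⟩
        · intro h; exact d.hz (congrArg (fun a : Subgroup.center Q => ((a.1 : Subgroup.centralizer ({z} : Set G)) : G)) h).symm
        · intro h; exact hcon.1 (congrArg (fun a : Subgroup.center Q => ((a.1 : Subgroup.centralizer ({z} : Set G)) : G)) h).symm
        · intro h; exact hcon.2 (congrArg (fun a : Subgroup.center Q => ((a.1 : Subgroup.centralizer ({z} : Set G)) : G)) h).symm
      rw [← h3, ← Set.ncard_univ]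
      exact Set.ncard_le_ncard (Set.subset_univ _) (Set.toFinite _)
    rw [d.hQ.2] at e
    omega
  · rintro (h | h)
    · have : q = 1 := Subtype.ext (Subtype.ext h)
      rw [this]; exact one_mem _
    · have : q = q0 := Subtype.ext (Subtype.ext h)
      rw [this]; exact h0

/-- The element `x` belongs to the class of the lattice vector `v`. -/
def Cls (x : G) (v : leechLattice) : Prop :=
  ∃ q : Q, ((q : Subgroup.centralizer ({z} : Set G)) : G) = x ∧ d.ψ v = QuotientGroup.mk q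

theorem cls_mem {x : G} {v : leechLattice} (h : d.Cls x v) : x ∈ qG Q := by
  obtain ⟨q, rfl, -⟩ := h
  exact ⟨_, q.2, rfl⟩

theorem cls_exists {x : G} (hx : x ∈ qG Q) : ∃ v, d.Cls x v := by
  obtain ⟨hx', hq⟩ := mem_qG.1 hx
  obtain ⟨v, hv⟩ := d.hψ.2.1 (QuotientGroup.mk ⟨_, hq⟩)
  exact ⟨v, ⟨_, hq⟩, rfl, hv⟩

theorem psi_eq_iff {v w : leechLattice} : d.ψ v = d.ψ w ↔ kap v = kap w := by
  obtain ⟨hadd, -, hker, -⟩ := d.hψ
  constructor
  · intro h
    have h1 : d.ψ (v - w) = 1 := by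
      have := hadd (v - w) w
      rw [sub_add_cancel, h] at this
      exact mul_eq_right.1 this.symm
    obtain ⟨u, hu⟩ := (hker _).1 h1
    exact kap_eq_iff.2 ⟨u, by rw [← hu]; abel⟩
  · intro h
    obtain ⟨u, rfl⟩ := kap_eq_iff.1 h
    rw [hadd, (hker (u + u)).2 ⟨u, rfl⟩, mul_one]

theorem cls_congr {x : G} {v w : leechLattice} (h : d.Cls x v) (he : kap v = kap w) : d.Cls x w := by
  obtain ⟨q, h1, h2⟩ := h
  exact ⟨q, h1, by rw [← d.psi_eq_iff.2 he, h2]⟩

theorem cls_kap {x : G} {v w : leechLattice} (h : d.Cls x v) (h' : d.Cls x w) : kap v = kap w := by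
  obtain ⟨q, h1, h2⟩ := h
  obtain ⟨q', h1', h2'⟩ := h'
  have : q = q' := Subtype.ext (Subtype.ext (h1.trans h1'.symm))
  subst this
  exact d.psi_eq_iff.1 (h2.trans h2'.symm)

theorem cls_mul {x y : G} {v w : leechLattice} (h : d.Cls x v) (h' : d.Cls y w) : d.Cls (x * y) (v + w) := by
  obtain ⟨q, rfl, h2⟩ := h
  obtain ⟨q', rfl, h2'⟩ := h'
  exact ⟨q * q', rfl, by rw [d.hψ.1, h2, h2']; rfl⟩

theorem cls_one : d.Cls 1 0 := ⟨1, rfl, by rw [QuotientGroup.mk_one]; exact (d.hψ.2.2.1 0).2 ⟨0, by simp⟩⟩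

theorem cls_z : d.Cls z 0 := by
  obtain ⟨hzC, hzq⟩ := mem_qG.1 d.hzQ
  refine ⟨⟨_, hzq⟩, rfl, ?_⟩
  rw [(d.hψ.2.2.1 0).2 ⟨0, by simp⟩, eq_comm, QuotientGroup.eq_one_iff, d.center_iff]
  exact Or.inr rfl

theorem cls_zero_iff {x : G} {v : leechLattice} (h : d.Cls x v) : kap v = 0 ↔ x = 1 ∨ x = z := by
  constructor
  · intro h0
    obtain ⟨q, rfl, h2⟩ := h
    rw [d.psi_eq_iff.2 (h0.trans kap_zero.symm), (d.hψ.2.2.1 0).2 ⟨0, by simp⟩, eq_comm, QuotientGroup.eq_one_iff] at h2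
    exact (d.center_iff q).1 h2
  · rintro (rfl | rfl)
    · rw [d.cls_kap h d.cls_one, kap_zero]
    · rw [d.cls_kap h d.cls_z, kap_zero]

theorem cls_mul_z {x : G} {v : leechLattice} (h : d.Cls x v) : d.Cls (x * z) v := by
  simpa using d.cls_mul h d.cls_z

theorem cls_inv {x : G} {v : leechLattice} (h : d.Cls x v) : d.Cls x⁻¹ (-v) := by
  obtain ⟨w, hw⟩ := d.cls_exists ((qG Q).inv_mem (d.cls_mem h))
  refine d.cls_congr hw ?_
  have h1 := d.cls_mul h hw
  rw [mul_inv_cancel] at h1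
  have h2 := (d.cls_zero_iff h1).2 (Or.inl rfl)
  rw [kap_add] at h2
  rw [kap_neg]
  exact (Nat.xor_eq_zero_iff.1 h2).symm

theorem eq_or_of_cls {x y : G} {v : leechLattice} (h : d.Cls x v) (h' : d.Cls y v) : y = x ∨ y = x * z := by
  have h1 := d.cls_mul (d.cls_inv h) h'
  rw [neg_add_cancel] at h1
  rcases (d.cls_zero_iff h1).1 kap_zero with e | e
  · exact Or.inl (inv_mul_eq_one.1 e).symm
  · exact Or.inr (inv_mul_eq_iff_eq_mul.1 e)

theorem cls_square {x : G} {v : leechLattice} (h : d.Cls x v) : x * x = 1 ↔ normPar v = 0 := by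
  obtain ⟨q, rfl, h2⟩ := h
  rw [← monsterType_square d.hQ d.hψ v q h2]
  exact ⟨fun e => Subtype.ext (Subtype.ext e),
    fun e => congrArg (fun a : Q => ((a : Subgroup.centralizer ({z} : Set G)) : G)) e⟩

theorem square_cases {x : G} (hx : x ∈ qG Q) : x * x = 1 ∨ x * x = z := by
  obtain ⟨v, hv⟩ := d.cls_exists hx
  exact (d.cls_zero_iff (d.cls_mul hv hv)).1 (by rw [← zero_add (v + v), kap_add_double, kap_zero])

theorem conj_cases {x y : G} (hx : x ∈ qG Q) (hy : y ∈ qG Q) : y * x * y⁻¹ = x ∨ y * x * y⁻¹ = x * z := by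
  obtain ⟨v, hv⟩ := d.cls_exists hx
  obtain ⟨w, hw⟩ := d.cls_exists hy
  have h := d.cls_mul (d.cls_mul hw hv) (d.cls_inv hw)
  rw [show w + v + -w = v by abel] at h
  exact d.eq_or_of_cls hv h

theorem exists_move {x : G} {v : leechLattice} (h : d.Cls x v) (h0 : kap v ≠ 0) :
    ∃ q ∈ qG Q, q * x * q⁻¹ = x * z := by
  by_contra hcon
  push Not at hcon
  have hx := d.cls_mem h
  obtain ⟨hx', hq⟩ := mem_qG.1 hx
  refine h0 ((d.cls_zero_iff h).2 ((d.center_iff ⟨_, hq⟩).1 (Subgroup.mem_center_iff.2 fun a => ?_)))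
  apply Subtype.ext; apply Subtype.ext
  have ha : ((a : Subgroup.centralizer ({z} : Set G)) : G) ∈ qG Q := ⟨_, a.2, rfl⟩
  exact mul_inv_eq_iff_eq_mul.1 ((d.conj_cases hx ha).resolve_right (hcon _ ha))

theorem exists_lift' (g : Co0) : ∃ h : Subgroup.centralizer ({z} : Set G),
    (QuotientGroup.mk g : Cfsg.Spor.Co1) = d.e (QuotientGroup.mk h) := by
  obtain ⟨a, ha⟩ := d.e.surjective (QuotientGroup.mk g)
  obtain ⟨h, rfl⟩ := QuotientGroup.mk_surjective a
  exact ⟨h, ha.symm⟩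

theorem cls_conj {x : G} {v : leechLattice} (hx : d.Cls x v) {h : Subgroup.centralizer ({z} : Set G)} {g : Co0}
    (he : (QuotientGroup.mk g : Cfsg.Spor.Co1) = d.e (QuotientGroup.mk h)) :
    d.Cls ((h : G) * x * (h : G)⁻¹) (g • v) := by
  obtain ⟨q, rfl, h2⟩ := hx
  exact ⟨_, rfl, d.hψ.2.2.2 h g he v q h2⟩

theorem exists_conj {x y : G} {v w : leechLattice} (hx : d.Cls x v) (hy : d.Cls y w) (h0 : kap v ≠ 0) {g : Co0}
    (hg : kap (g • v) = kap w) : ∃ h : Subgroup.centralizer ({z} : Set G),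
      (h : G) * x * (h : G)⁻¹ = y ∧ (QuotientGroup.mk g : Cfsg.Spor.Co1) = d.e (QuotientGroup.mk h) := by
  obtain ⟨h, hh⟩ := d.exists_lift' g
  rcases d.eq_or_of_cls hy (d.cls_congr (d.cls_conj hx hh) hg) with e | e
  · exact ⟨h, e, hh⟩
  · obtain ⟨q, hq, hqx⟩ := d.exists_move hx h0
    obtain ⟨hq', hqQ⟩ := mem_qG.1 hq
    refine ⟨h * ⟨q, hq'⟩, ?_, ?_⟩
    · show (h : G) * q * x * ((h : G) * q)⁻¹ = y
      calc (h : G) * q * x * ((h : G) * q)⁻¹ = (h : G) * (q * x * q⁻¹) * (h : G)⁻¹ := by group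
        _ = (h : G) * x * (z * (h : G)⁻¹) := by rw [hqx]; group
        _ = (h : G) * x * (h : G)⁻¹ * z := by
          rw [← mem_centZ.1 ((Subgroup.centralizer ({z} : Set G)).inv_mem h.2)]; group
        _ = y := by rw [e, mul_assoc, d.hz2, mul_one]
    · rw [hh, QuotientGroup.mk_mul, (QuotientGroup.eq_one_iff _).2 hqQ, mul_one]

theorem type_cases {x : G} {v : leechLattice} (h : d.Cls x v) (h2 : x * x = 1) (h1 : x ≠ 1) (hz' : x ≠ z) :
    kap v ≠ 0 ∧ ((∃ g : Co0, kap (g • v) = kap repTwo) ∨ ∃ g : Co0, kap (g • v) = kap repFour) := by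
  have h0 : kap v ≠ 0 := fun h0 => by rcases (d.cls_zero_iff h).1 h0 with e | e <;> contradiction
  refine ⟨h0, ?_⟩
  rcases exists_smul_class v h0 with ⟨g, hg, -⟩ | ⟨g, hg, -⟩ | ⟨g, -, hn⟩
  · exact Or.inl ⟨g, hg⟩
  · exact Or.inr ⟨g, hg⟩
  · rw [(d.cls_square h).1 h2] at hn
    exact absurd hn (by decide)

omit d in
theorem kap_smul_ne_zero {v r : leechLattice} {g : Co0} (hr : kap r ≠ 0) (h : kap (g • v) = kap r) : kap v ≠ 0 := by
  intro h0
  apply hr
  rw [← h, kap_smul_congr g (h0.trans kap_zero.symm), Co0_smul_zero, kap_zero]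

/-- Change of identification by a lattice automorphism. -/
noncomputable def twist (g0 : Co0) : MData Q :=
  { d with
    e := d.e.trans (MulAut.conj (QuotientGroup.mk g0⁻¹ : Cfsg.Spor.Co1))
    ψ := fun v => d.ψ (g0 • v)
    hψ := by
      obtain ⟨hadd, hsurj, hker, hconj⟩ := d.hψ
      refine ⟨fun v w => ?_, fun b => ?_, fun v => ?_, fun h g he v q hv => ?_⟩
      · beta_reduce
        rw [Co0_smul_add, hadd]
      · obtain ⟨v, hv⟩ := hsurj b
        exact ⟨g0⁻¹ • v, by beta_reduce; rw [smul_inv_smul, hv]⟩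
      · rw [hker]
        constructor
        · rintro ⟨w, hw⟩
          exact ⟨g0⁻¹ • w, by rw [← Co0_smul_add, ← hw, inv_smul_smul]⟩
        · rintro ⟨w, rfl⟩
          exact ⟨g0 • w, by rw [Co0_smul_add]⟩
      · have he' : (QuotientGroup.mk (g0 * g * g0⁻¹) : Cfsg.Spor.Co1) = d.e (QuotientGroup.mk h) := by
          simp only [MulEquiv.trans_apply, MulAut.conj_apply] at he
          rw [QuotientGroup.mk_mul, QuotientGroup.mk_mul, he, QuotientGroup.mk_inv]
          group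
        have := hconj h _ he' (g0 • v) q hv
        rwa [← mul_smul, inv_mul_cancel_right, mul_smul] at this }

theorem twist_cls {g0 : Co0} {x : G} {v : leechLattice} : (d.twist g0).Cls x v ↔ d.Cls x (g0 • v) := Iff.rfl

theorem exists_twist {x : G} {v r : leechLattice} (hv : d.Cls x v) {g : Co0} (hg : kap (g • v) = kap r) :
    ∃ d' : MData Q, d'.Cls x r := by
  refine ⟨d.twist g⁻¹, d.twist_cls.2 (d.cls_congr hv ?_)⟩
  have := kap_smul_congr g⁻¹ hg
  rwa [inv_smul_smul] at this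

/-- The map of the centralizer onto the Conway group. -/
noncomputable def toCo1 : Subgroup.centralizer ({z} : Set G) →* Cfsg.Spor.Co1 :=
  d.e.toMonoidHom.comp (QuotientGroup.mk' Q)

theorem toCo1_apply (h : Subgroup.centralizer ({z} : Set G)) : d.toCo1 h = d.e (QuotientGroup.mk h) := rfl

theorem card_split (K : Subgroup G) (hK : K ≤ Subgroup.centralizer ({z} : Set G)) :
    Nat.card K = Nat.card ((K.subgroupOf (Subgroup.centralizer ({z} : Set G))).map d.toCo1) *
      Nat.card ↥(K ⊓ qG Q) := by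
  let φ : K →* Cfsg.Spor.Co1 := d.toCo1.comp (Subgroup.inclusion hK)
  have hk : φ.ker.map K.subtype = K ⊓ qG Q := by
    ext x
    simp only [Subgroup.mem_map, MonoidHom.mem_ker, Subgroup.mem_inf, φ, MonoidHom.comp_apply, toCo1_apply,
      EmbeddingLike.map_eq_one_iff, QuotientGroup.eq_one_iff]
    constructor
    · rintro ⟨⟨a, ha⟩, h, rfl⟩; exact ⟨ha, mem_qG.2 ⟨hK ha, h⟩⟩
    · rintro ⟨h1, h2⟩
      obtain ⟨h', h3⟩ := mem_qG.1 h2
      exact ⟨⟨x, h1⟩, h3, rfl⟩
  have hr : φ.range = (K.subgroupOf (Subgroup.centralizer ({z} : Set G))).map d.toCo1 := by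
    rw [MonoidHom.range_comp]
    congr 1
    ext ⟨x, hx⟩
    simp [Subgroup.mem_subgroupOf, Subgroup.inclusion]
  rw [← hk, Subgroup.card_map_of_injective (f := K.subtype) Subtype.val_injective, ← hr,
    ← Nat.card_congr (QuotientGroup.quotientKerEquivRange φ).toEquiv]
  exact Subgroup.card_eq_card_quotient_mul_card_subgroup φ.ker

theorem card_qG : Nat.card (qG Q) = 2 ^ 25 := by
  rw [qG, Subgroup.card_map_of_injective Subtype.val_injective, d.hcard]

theorem finite_qG : Finite (qG Q) := Nat.finite_of_card_ne_zero (by rw [d.card_qG]; norm_num)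

theorem abelian_bound (V : Subgroup G) (hle : V ≤ qG Q) (hcomm : ∀ a ∈ V, ∀ b ∈ V, a * b = b * a) (hzV : z ∈ V) :
    Nat.card V ≤ 2 ^ 13 := by
  classical
  haveI := d.finite_qG
  let P := qG Q
  let V' : Subgroup P := V.subgroupOf P
  haveI : Fintype (P ⧸ V') := Fintype.ofFinite _
  haveI : Fintype V' := Fintype.ofFinite _
  have hne : ∀ a : G, a * z ≠ a := fun a h => d.hz (mul_eq_left.1 h)
  have hcases := fun (q : P) (v : V') => d.conj_cases (v : P).2 q.2
  let χ : V' → (P →* ℚ) := fun v =>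
    { toFun := fun q => if (q : G) * ((v : P) : G) * (q : G)⁻¹ = (v : P) then 1 else -1
      map_one' := by simp
      map_mul' := fun q r => by
        have e : ((q * r : P) : G) * ((v : P) : G) * ((q * r : P) : G)⁻¹ =
            (q : G) * ((r : G) * ((v : P) : G) * (r : G)⁻¹) * (q : G)⁻¹ := by push_cast; group
        have hqz : (q : G) * (((v : P) : G) * z) * (q : G)⁻¹ = (q : G) * ((v : P) : G) * (q : G)⁻¹ * z := by
          rw [mul_assoc, mul_assoc ((v : P) : G),
            ← mem_centZ.1 ((Subgroup.centralizer ({z} : Set G)).inv_mem (qG_le q.2))]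
          group
        rw [e]
        rcases hcases r v with h | h <;> rcases hcases q v with h' | h' <;>
          simp [h, h', hqz, hne, mul_assoc, d.hz2] }
  have hfix : ∀ (v : V') (q : P) (a : P), a ∈ V' → χ v (q * a) = χ v q := by
    intro v q a ha
    rw [map_mul]
    have : χ v a = 1 := by
      show (if (a : G) * ((v : P) : G) * (a : G)⁻¹ = (v : P) then (1 : ℚ) else -1) = 1
      rw [if_pos]
      have hh : (a : G) * ((v : P) : G) = ((v : P) : G) * (a : G) := hcomm _ ha _ v.2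
      rw [hh, mul_inv_cancel_right]
    rw [this, mul_one]
  let R := Set.range χ
  haveI : Fintype R := Fintype.ofFinite _
  let F : R → ((P ⧸ V') → ℚ) := fun f c => (f : P →* ℚ) c.out
  have hind : LinearIndependent ℚ F := by
    have h0 := (linearIndependent_monoidHom P ℚ).comp (Subtype.val : R → (P →* ℚ)) Subtype.val_injective
    rw [Fintype.linearIndependent_iff] at h0 ⊢
    intro c hc
    refine h0 c ?_
    funext q
    have := congrFun hc (QuotientGroup.mk q)
    simp only [Finset.sum_apply, Pi.smul_apply, Pi.zero_apply, F] at this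
    rw [Finset.sum_apply, Pi.zero_apply, ← this]
    refine Finset.sum_congr rfl fun f _ => ?_
    obtain ⟨v, hv⟩ := f.2
    obtain ⟨a, ha⟩ := QuotientGroup.mk_out_eq_mul V' q
    simp only [Function.comp, Pi.smul_apply]
    rw [← hv, ha, hfix v q a a.2]
  have hR : Fintype.card R ≤ Nat.card (P ⧸ V') := by
    have := hind.fintype_card_le_finrank
    rwa [Module.finrank_fintype_fun_eq_card, ← Nat.card_eq_fintype_card (α := P ⧸ V')] at this
  obtain ⟨hzC, -⟩ := mem_qG.1 d.hzQ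
  let zP : P := ⟨z, d.hzQ⟩
  have hV : Fintype.card V' ≤ 2 * Fintype.card R := by
    rw [← Set.toFinset_card R, Set.toFinset_range]
    refine Finset.card_le_mul_card_image _ 2 fun f hf => ?_
    obtain ⟨v, -, rfl⟩ := Finset.mem_image.1 hf
    refine (Finset.card_le_card (t := {v, v * ⟨zP, hzV⟩}) fun w hw => ?_).trans Finset.card_le_two
    simp only [Finset.mem_filter, Finset.mem_univ, true_and] at hw
    have hcent : (⟨((v : P) : G)⁻¹ * ((w : P) : G), qG_le ((qG Q).mul_mem ((qG Q).inv_mem (v : P).2) (w : P).2)⟩ :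
        Subgroup.centralizer ({z} : Set G)) ∈ Q := by
      obtain ⟨h, h'⟩ := mem_qG.1 ((qG Q).mul_mem ((qG Q).inv_mem (v : P).2) (w : P).2)
      exact h'
    have hc : (⟨_, hcent⟩ : Q) ∈ Subgroup.center Q := Subgroup.mem_center_iff.2 fun a => by
      apply Subtype.ext; apply Subtype.ext
      have haP : ((a : Subgroup.centralizer ({z} : Set G)) : G) ∈ P := ⟨_, a.2, rfl⟩
      have hχ : χ w ⟨_, haP⟩ = χ v ⟨_, haP⟩ := by rw [hw]
      show ((a : Subgroup.centralizer ({z} : Set G)) : G) * (((v : P) : G)⁻¹ * ((w : P) : G)) =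
        ((v : P) : G)⁻¹ * ((w : P) : G) * ((a : Subgroup.centralizer ({z} : Set G)) : G)
      generalize hA : ((a : Subgroup.centralizer ({z} : Set G)) : G) = A at haP hχ
      have key : A * ((v : P) : G)⁻¹ * A⁻¹ * (A * ((w : P) : G) * A⁻¹) = ((v : P) : G)⁻¹ * ((w : P) : G) := by
        rw [show A * ((v : P) : G)⁻¹ * A⁻¹ = (A * ((v : P) : G) * A⁻¹)⁻¹ by group]
        rcases hcases ⟨_, haP⟩ v with h | h <;> rcases hcases ⟨_, haP⟩ w with h' | h' <;>
          simp only [χ, MonoidHom.coe_mk, OneHom.coe_mk] at hχ h h' <;> simp [h, h', hne] at hχ ⊢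
        all_goals try (norm_num at hχ)
        have hzw : z * ((w : P) : G) = ((w : P) : G) * z := (mem_centZ.1 (qG_le (w : P).2)).symm
        calc z⁻¹ * ((v : P) : G)⁻¹ * (((w : P) : G) * z) = z⁻¹ * (((v : P) : G)⁻¹ * ((w : P) : G)) * z := by group
          _ = z⁻¹ * (z * (((v : P) : G)⁻¹ * ((w : P) : G))) := by
            rw [mul_assoc, ← mem_centZ.1 ((qG_le (Q := Q)) ((qG Q).mul_mem ((qG Q).inv_mem (v : P).2) (w : P).2))]
          _ = ((v : P) : G)⁻¹ * ((w : P) : G) := by group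
      calc A * (((v : P) : G)⁻¹ * ((w : P) : G))
          = A * ((v : P) : G)⁻¹ * A⁻¹ * (A * ((w : P) : G) * A⁻¹) * A := by group
        _ = _ := by rw [key]
    rw [Finset.mem_insert, Finset.mem_singleton]
    rcases (d.center_iff _).1 hc with h | h
    · exact Or.inl (Subtype.ext (Subtype.ext (inv_mul_eq_one.1 h).symm))
    · exact Or.inr (Subtype.ext (Subtype.ext (inv_mul_eq_iff_eq_mul.1 h)))
  have h1 : Nat.card V = Fintype.card V' := by
    rw [← Nat.card_eq_fintype_card]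
    exact (Nat.card_congr (Subgroup.subgroupOfEquivOfLe hle).toEquiv).symm
  have h2 : Nat.card (P ⧸ V') * Nat.card V = 2 ^ 25 := by
    rw [h1, ← Nat.card_eq_fintype_card, ← Subgroup.card_eq_card_quotient_mul_card_subgroup, d.card_qG]
  by_contra hlt
  push Not at hlt
  have h3 : Nat.card V ≤ 2 * Nat.card (P ⧸ V') := by rw [h1]; omega
  have h4 : 2 ^ 26 < Nat.card V * Nat.card V :=
    lt_of_eq_of_lt (by norm_num : (2 : ℕ) ^ 26 = 2 ^ 13 * 2 ^ 13) (Nat.mul_lt_mul'' hlt hlt)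
  have h5 : Nat.card V * Nat.card V ≤ 2 * Nat.card (P ⧸ V') * Nat.card V := Nat.mul_le_mul_right _ h3
  rw [mul_assoc, h2] at h5
  omega

theorem abelian_bound' (V : Subgroup G) (hle : V ≤ qG Q) (hcomm : ∀ a ∈ V, ∀ b ∈ V, a * b = b * a) :
    Nat.card V ≤ 2 ^ 13 := by
  haveI := d.finite_qG
  let Z : Subgroup G := Subgroup.zpowers z
  have hZ : Z ≤ qG Q := Subgroup.zpowers_le.2 d.hzQ
  have hsup : V ⊔ Z ≤ qG Q := sup_le hle hZ
  have hc : ∀ a ∈ V ⊔ Z, ∀ b ∈ V ⊔ Z, a * b = b * a := by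
    have hgen : ∀ a ∈ (V : Set G) ∪ {z}, ∀ b ∈ (V : Set G) ∪ {z}, a * b = b * a := by
      rintro a (ha | ha) b (hb | hb)
      · exact hcomm a ha b hb
      · rw [Set.mem_singleton_iff.1 hb]; exact mem_centZ.1 (qG_le (hle ha))
      · rw [Set.mem_singleton_iff.1 ha]; exact (mem_centZ.1 (qG_le (hle hb))).symm
      · rw [Set.mem_singleton_iff.1 ha, Set.mem_singleton_iff.1 hb]
    have : V ⊔ Z = Subgroup.closure ((V : Set G) ∪ {z}) := by
      rw [Subgroup.closure_union, Subgroup.closure_eq, ← Subgroup.zpowers_eq_closure]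
    rw [this]
    haveI := Subgroup.isMulCommutative_closure hgen
    intro a ha b hb
    exact congrArg Subtype.val ((inferInstance : IsMulCommutative ↥(Subgroup.closure ((V : Set G) ∪ {z}))).is_comm.comm
      ⟨a, ha⟩ ⟨b, hb⟩)
  haveI : Finite ↥(V ⊔ Z) := Finite.of_injective _ (Subgroup.inclusion_injective hsup)
  exact (Nat.card_le_card_of_injective _ (Subgroup.inclusion_injective (le_sup_left : V ≤ V ⊔ Z))).trans
    (d.abelian_bound _ hsup hc ((le_sup_right : Z ≤ V ⊔ Z) (Subgroup.mem_zpowers z)))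

/-- The conjugate of the extraspecial subgroup. -/
def qConj (Q : Subgroup (Subgroup.centralizer ({z} : Set G))) (g : G) : Subgroup G :=
  (qG Q).map (MulAut.conj g).toMonoidHom

omit d in
theorem mem_qConj {g x : G} : x ∈ qConj Q g ↔ g⁻¹ * x * g ∈ qG Q := by
  rw [qConj, Subgroup.mem_map]
  constructor
  · rintro ⟨y, hy, rfl⟩
    simpa [mul_assoc] using hy
  · intro h; exact ⟨_, h, by simp [mul_assoc]⟩

section Conjugate

variable {x g : G}

omit d in
theorem conj_centralizer (hg : g * z * g⁻¹ = x) {h : G} (hh : h * x = x * h) :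
    g⁻¹ * h * g ∈ Subgroup.centralizer ({z} : Set G) := by
  rw [mem_centZ]
  subst hg
  calc g⁻¹ * h * g * z = g⁻¹ * (h * (g * z * g⁻¹)) * g := by group
    _ = g⁻¹ * (g * z * g⁻¹ * h) * g := by rw [hh]
    _ = z * (g⁻¹ * h * g) := by group

omit d in
theorem qConj_comm_x (hg : g * z * g⁻¹ = x) {a : G} (ha : a ∈ qConj Q g) : a * x = x * a := by
  have := mem_centZ.1 (qG_le (mem_qConj.1 ha))
  subst hg
  calc a * (g * z * g⁻¹) = g * (g⁻¹ * a * g * z) * g⁻¹ := by group
    _ = g * (z * (g⁻¹ * a * g)) * g⁻¹ := by rw [this]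
    _ = g * z * g⁻¹ * a := by group

theorem x_mem_qConj (hg : g * z * g⁻¹ = x) : x ∈ qConj Q g := by
  rw [mem_qConj, show g⁻¹ * x * g = z by rw [← hg]; group]
  exact d.hzQ

theorem normal_qConj (hg : g * z * g⁻¹ = x) {h a : G} (hh : h * x = x * h) (ha : a ∈ qConj Q g) :
    h * a * h⁻¹ ∈ qConj Q g := by
  rw [mem_qConj] at ha ⊢
  have := conj_qG (Q := Q) (conj_centralizer hg hh) ha
  simpa [mul_assoc] using this

theorem sq_one_inter (hg : g * z * g⁻¹ = x) (hxz : x ≠ z) {a : G} (ha : a ∈ qG Q) (ha' : a ∈ qConj Q g) :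
    a * a = 1 := by
  rcases d.square_cases ha with h | h
  · exact h
  rcases d.square_cases (mem_qConj.1 ha') with h' | h'
  · calc a * a = g * (g⁻¹ * a * g * (g⁻¹ * a * g)) * g⁻¹ := by group
      _ = 1 := by rw [h']; group
  · exfalso
    apply hxz
    calc x = g * (g⁻¹ * a * g * (g⁻¹ * a * g)) * g⁻¹ := by rw [h', hg]
      _ = a * a := by group
      _ = z := h

theorem comm_inter (hg : g * z * g⁻¹ = x) (hxz : x ≠ z) :
    ∀ a ∈ qG Q ⊓ qConj Q g, ∀ b ∈ qG Q ⊓ qConj Q g, a * b = b * a := by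
  intro a ha b hb
  have hab := d.sq_one_inter hg hxz ((qG Q).mul_mem ha.1 hb.1) ((qConj Q g).mul_mem ha.2 hb.2)
  have ha2 := d.sq_one_inter hg hxz ha.1 ha.2
  have hb2 := d.sq_one_inter hg hxz hb.1 hb.2
  calc a * b = a * b * (a * b) * ((b * b)⁻¹) * (b * (a * a)⁻¹ * a) := by group
    _ = b * a := by rw [hab, ha2, hb2]; group

end Conjugate

theorem card_comm_qG {x : G} {v : leechLattice} (h : d.Cls x v) (h0 : kap v ≠ 0) :
    Nat.card ↥(qG Q ⊓ Subgroup.centralizer ({x} : Set G)) = 2 ^ 24 := by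
  obtain ⟨q, hq, hqx⟩ := d.exists_move h h0
  have hx := d.cls_mem h
  let A := (Subgroup.centralizer ({x} : Set G)).subgroupOf (qG Q)
  have hA : A.index = 2 := by
    rw [Subgroup.index_eq_two_iff]
    refine ⟨⟨q, hq⟩, fun b => ?_⟩
    simp only [A, Subgroup.mem_subgroupOf, Subgroup.mem_centralizer_singleton_iff, Subgroup.coe_mul]
    have key : ∀ y : G, y * x * y⁻¹ = x ↔ y * x = x * y := fun y => mul_inv_eq_iff_eq_mul
    have hne : x * z ≠ x := fun e => d.hz (mul_eq_left.1 e)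
    have hbz : (b : G) * z * (b : G)⁻¹ = z := by
      rw [mem_centZ.1 (qG_le b.2), mul_inv_cancel_right]
    rw [← key, ← key]
    have e : (b : G) * q * x * ((b : G) * q)⁻¹ = (b : G) * x * (b : G)⁻¹ * z := by
      calc (b : G) * q * x * ((b : G) * q)⁻¹ = (b : G) * (q * x * q⁻¹) * (b : G)⁻¹ := by group
        _ = (b : G) * x * (b : G)⁻¹ * ((b : G) * z * (b : G)⁻¹) := by rw [hqx]; group
        _ = _ := by rw [hbz]
    rw [e]
    rcases d.conj_cases hx b.2 with hb | hb <;> rw [hb]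
    · exact Or.inr ⟨rfl, hne⟩
    · exact Or.inl ⟨by rw [mul_assoc, d.hz2, mul_one], hne⟩
  have := A.card_mul_index
  rw [hA, d.card_qG] at this
  have e : Nat.card ↥(qG Q ⊓ Subgroup.centralizer ({x} : Set G)) = Nat.card A := by
    rw [← Nat.card_congr (Subgroup.subgroupOfEquivOfLe (inf_le_left :
      qG Q ⊓ Subgroup.centralizer ({x} : Set G) ≤ qG Q)).toEquiv, Subgroup.inf_subgroupOf_left]
  rw [e]
  norm_num at this ⊢
  omega

theorem dvd_two_bound {i : ℕ} (hi : i ∣ 2 ^ 24) (hc : i ∣ 4157776806543360000) : i ≤ 2 ^ 21 := by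
  obtain ⟨j, hj, rfl⟩ := (Nat.dvd_prime_pow Nat.prime_two).1 hi
  by_contra hlt
  push Not at hlt
  have : 22 ≤ j := by
    by_contra hj'
    exact absurd (Nat.pow_le_pow_right two_pos (show j ≤ 21 by omega)) (not_le.2 hlt)
  exact absurd ((pow_dvd_pow 2 this).trans hc) (by norm_num)

theorem no_two [Finite G] {x g : G} (hg : g * z * g⁻¹ = x) (hxz : x ≠ z) {v : leechLattice} (hv : d.Cls x v) :
    ¬ ∃ c : Co0, kap (c • v) = kap repTwo := by
  rintro ⟨c, hc⟩
  obtain ⟨g2, hg2⟩ := exists_smul_min repOdd_spec.2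
  obtain ⟨d', hd'⟩ := d.exists_twist hv (g := g2⁻¹ * c) (r := repOdd) (by
    rw [mul_smul, ← inv_smul_smul g2 repOdd, hg2]; exact kap_smul_congr _ hc)
  have hodd : kap repOdd ≠ 0 :=
    kap_ne_zero (by rw [repOdd_spec.2]; norm_num) (ne_zero_of_sqNorm (by rw [repOdd_spec.2]; norm_num))
  set W := qG Q ⊓ qConj Q g with hW
  let T : AddSubgroup leechLattice :=
    { carrier := {u | ∃ w ∈ W, d'.Cls w u}
      zero_mem' := ⟨1, W.one_mem, d'.cls_one⟩
      add_mem' := fun {a b} ⟨w, hw, h⟩ ⟨w', hw', h'⟩ => ⟨w * w', W.mul_mem hw hw', d'.cls_mul h h'⟩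
      neg_mem' := fun {a} ⟨w, hw, h⟩ => ⟨w⁻¹, W.inv_mem hw, d'.cls_inv h⟩ }
  have hT : ∀ u, u ∈ T → kap u = 0 ∨ kap u = kap repOdd := by
    refine singular_invariant_small T ?_ ?_ ⟨x, ⟨d'.cls_mem hd', d'.x_mem_qConj hg⟩, hd'⟩ ?_
    · rintro u ⟨w, hw, hu⟩
      exact (d'.cls_square hu).1 (d'.sq_one_inter hg hxz hw.1 hw.2)
    · rintro a b hab ⟨w, hw, hb⟩
      exact ⟨w, hw, d'.cls_congr hb hab.symm⟩
    · rintro k hk u ⟨w, hw, hu⟩
      obtain ⟨h, hhx, he⟩ := d'.exists_conj hd' hd' hodd hk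
      exact ⟨_, ⟨conj_qG h.2 hw.1, d'.normal_qConj hg (mul_inv_eq_iff_eq_mul.1 hhx) hw.2⟩, d'.cls_conj hu he⟩
  have hsmall : (W : Set G) ⊆ {1, z, x, x * z} := by
    intro w hw
    obtain ⟨u, hu⟩ := d'.cls_exists hw.1
    simp only [Set.mem_insert_iff, Set.mem_singleton_iff]
    rcases hT u ⟨w, hw, hu⟩ with h | h
    · rcases (d'.cls_zero_iff hu).1 h with e | e
      · exact Or.inl e
      · exact Or.inr (Or.inl e)
    · rcases d'.eq_or_of_cls hd' (d'.cls_congr hu h) with e | e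
      · exact Or.inr (Or.inr (Or.inl e))
      · exact Or.inr (Or.inr (Or.inr e))
  classical
  have hW4 : Nat.card W ≤ 4 := by
    rw [show Nat.card W = Nat.card ↥(W : Set G) from rfl, Nat.card_coe_set_eq]
    refine (Set.ncard_le_ncard hsmall (Set.toFinite _)).trans ?_
    exact (Set.ncard_insert_le _ _).trans (Nat.succ_le_succ ((Set.ncard_insert_le _ _).trans
      (Nat.succ_le_succ ((Set.ncard_insert_le _ _).trans (by simp)))))
  -- the conjugate of the centraliser in the extraspecial subgroup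
  set A := qG Q ⊓ Subgroup.centralizer ({x} : Set G) with hA
  let K := A.map (MulAut.conj g⁻¹).toMonoidHom
  have hKC : K ≤ Subgroup.centralizer ({z} : Set G) := by
    rintro _ ⟨a, ha, rfl⟩
    simpa using conj_centralizer hg (Subgroup.mem_centralizer_singleton_iff.1 ha.2)
  have hK : Nat.card K = 2 ^ 24 := by
    rw [Subgroup.card_map_of_injective (MulEquiv.injective _), hA, d'.card_comm_qG hd' hodd]
  have hKW : Nat.card ↥(K ⊓ qG Q) = Nat.card W := by
    have e : K ⊓ qG Q = W.map (MulAut.conj g⁻¹).toMonoidHom := by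
      ext a
      simp only [K, Subgroup.mem_inf, Subgroup.mem_map, hW, hA, mem_qConj, MulEquiv.coe_toMonoidHom,
        MulAut.conj_apply, inv_inv]
      constructor
      · rintro ⟨⟨b, ⟨hb1, -⟩, rfl⟩, h2⟩
        exact ⟨b, ⟨hb1, h2⟩, rfl⟩
      · rintro ⟨b, ⟨hb1, hb2⟩, rfl⟩
        exact ⟨⟨b, ⟨hb1, Subgroup.mem_centralizer_singleton_iff.2 (qConj_comm_x hg (mem_qConj.2 hb2))⟩, rfl⟩, hb2⟩
    rw [e, Subgroup.card_map_of_injective (MulEquiv.injective _)]
  have h := d'.card_split K hKC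
  rw [hK, hKW] at h
  set i := Nat.card ((K.subgroupOf (Subgroup.centralizer ({z} : Set G))).map d'.toCo1)
  have hi : i ∣ 4157776806543360000 := card_Co1 ▸ Subgroup.card_subgroup_dvd_card _
  have := d'.dvd_two_bound ⟨Nat.card W, h⟩ hi
  have : i * Nat.card W ≤ 2 ^ 21 * 4 := Nat.mul_le_mul this hW4
  rw [← h] at this
  norm_num at this

theorem four_of_conj [Finite G] {x : G} (hx : IsConj z x) (hxz : x ≠ z) {v : leechLattice} (hv : d.Cls x v) :
    ∃ c : Co0, kap (c • v) = kap repFour := by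
  obtain ⟨g, hg⟩ := isConj_iff.1 hx
  have h2 : x * x = 1 := by
    rw [← hg]
    calc g * z * g⁻¹ * (g * z * g⁻¹) = g * (z * z) * g⁻¹ := by group
      _ = 1 := by rw [d.hz2]; group
  have h1 : x ≠ 1 := fun h => d.hz (by rw [h] at hg; exact conj_eq_one_iff.1 hg)
  exact ((d.type_cases hv h2 h1 hxz).2).resolve_left (d.no_two hg hxz hv)

omit d in
theorem kap_repFour_ne : kap repFour ≠ 0 :=
  kap_ne_zero (by rw [sqNorm_repFour]) (ne_zero_of_sqNorm (by rw [sqNorm_repFour]; norm_num))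

theorem conj_of_four [Finite G] {y : G} (hyQ : y ∈ qG Q) (hy : IsConj z y) (hyz : y ≠ z) {x : G} {v : leechLattice}
    (hv : d.Cls x v) {c : Co0} (hc : kap (c • v) = kap repFour) : IsConj z x ∧ x ≠ z := by
  have h0 := kap_smul_ne_zero kap_repFour_ne hc
  refine ⟨?_, fun e => h0 ((d.cls_zero_iff hv).2 (Or.inr e))⟩
  obtain ⟨w, hw⟩ := d.cls_exists hyQ
  obtain ⟨c', hc'⟩ := d.four_of_conj hy hyz hw
  have hg : kap ((c⁻¹ * c') • w) = kap v := by
    rw [mul_smul, kap_smul_congr c⁻¹ (hc'.trans hc.symm), inv_smul_smul]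
  obtain ⟨h, hh, -⟩ := d.exists_conj hw hv (kap_smul_ne_zero h0 hg) hg
  exact hy.trans (isConj_iff.2 ⟨h, hh⟩)

/-- The image of the centraliser of an element of the standard class. -/
theorem map_centralizer {x : G} (hx : d.Cls x repFour) :
    ((Subgroup.centralizer ({z} : Set G) ⊓ Subgroup.centralizer ({x} : Set G)).subgroupOf
      (Subgroup.centralizer ({z} : Set G))).map d.toCo1 = frameImg := by
  apply le_antisymm
  · rintro _ ⟨h, ⟨-, hh⟩, rfl⟩
    obtain ⟨g, hg⟩ := QuotientGroup.mk_surjective (d.toCo1 h)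
    rw [← hg]
    refine mem_frameImg.2 (mem_frameStab.2 (d.cls_kap ?_ hx))
    have := d.cls_conj hx (h := h) hg
    rwa [show (h : G) * x * (h : G)⁻¹ = x from mul_inv_eq_iff_eq_mul.2
      (Subgroup.mem_centralizer_singleton_iff.1 hh)] at this
  · intro a ha
    obtain ⟨g, rfl⟩ := QuotientGroup.mk_surjective a
    obtain ⟨h, hh, he⟩ := d.exists_conj hx hx kap_repFour_ne (mem_frameStab.1 (mem_frameImg.1 ha))
    exact ⟨h, ⟨h.2, Subgroup.mem_centralizer_singleton_iff.2 (mul_inv_eq_iff_eq_mul.1 hh)⟩, he.symm⟩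

theorem four_structure [Finite G] {x g : G} (hg : g * z * g⁻¹ = x) (hxz : x ≠ z) (hx : d.Cls x repFour) :
    Nat.card ↥(qG Q ⊓ qConj Q g) = 2 ^ 13 ∧
      ((qConj Q g ⊓ Subgroup.centralizer ({z} : Set G)).subgroupOf (Subgroup.centralizer ({z} : Set G))).map d.toCo1
        = signImg := by
  set H := (Subgroup.centralizer ({z} : Set G)) ⊓ Subgroup.centralizer ({x} : Set G) with hH
  set K := qConj Q g ⊓ (Subgroup.centralizer ({z} : Set G)) with hK
  set f := Nat.card frameImg with hf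
  have hfv : f * 2 = 4096 * 244823040 := card_frameImg
  have hHQ : H ⊓ qG Q = qG Q ⊓ Subgroup.centralizer ({x} : Set G) := by
    rw [hH, inf_right_comm, inf_eq_right.2 (qG_le (Q := Q))]
  have hHcard : Nat.card H = f * 2 ^ 24 := by
    rw [d.card_split H inf_le_left, d.map_centralizer hx, hHQ, d.card_comm_qG hx kap_repFour_ne]
  let H' := H.map (MulAut.conj g⁻¹).toMonoidHom
  have hH'C : H' ≤ (Subgroup.centralizer ({z} : Set G)) := by
    rintro _ ⟨a, ha, rfl⟩
    simpa using conj_centralizer hg (Subgroup.mem_centralizer_singleton_iff.1 ha.2)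
  have hH'K : Nat.card ↥(H' ⊓ qG Q) = Nat.card K := by
    have e : H' ⊓ qG Q = K.map (MulAut.conj g⁻¹).toMonoidHom := by
      ext a
      simp only [H', Subgroup.mem_inf, Subgroup.mem_map, hH, hK, mem_qConj, MulEquiv.coe_toMonoidHom,
        MulAut.conj_apply, inv_inv]
      constructor
      · rintro ⟨⟨b, ⟨hb1, -⟩, rfl⟩, h2⟩
        exact ⟨b, ⟨h2, hb1⟩, rfl⟩
      · rintro ⟨b, ⟨hb1, hb2⟩, rfl⟩
        exact ⟨⟨b, ⟨hb2, Subgroup.mem_centralizer_singleton_iff.2 (qConj_comm_x hg (mem_qConj.2 hb1))⟩, rfl⟩, hb1⟩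
    rw [e, Subgroup.card_map_of_injective (MulEquiv.injective _)]
  have hKle : K ≤ qConj Q g := inf_le_left
  haveI : Finite (qG Q) := d.finite_qG
  have hqc : Nat.card (qConj Q g) = 2 ^ 25 := by
    rw [qConj, Subgroup.card_map_of_injective (MulEquiv.injective _), d.card_qG]
  obtain ⟨j, -, hj⟩ : ∃ j ≤ 25, Nat.card K = 2 ^ j :=
    (Nat.dvd_prime_pow Nat.prime_two).1 (hqc ▸ Subgroup.card_dvd_of_le hKle)
  have hj24 : 24 ≤ j := by
    have h := d.card_split H' hH'C
    rw [hH'K, hj, Subgroup.card_map_of_injective (MulEquiv.injective _), hHcard] at h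
    set i := Nat.card ((H'.subgroupOf (Subgroup.centralizer ({z} : Set G))).map d.toCo1)
    have hi : i ∣ 4157776806543360000 := card_Co1 ▸ Subgroup.card_subgroup_dvd_card _
    by_contra hlt
    have h45 : 2 ^ 45 ∣ i * 2 ^ j := by
      rw [← h, show f = 501397585920 by omega]; norm_num
    have h46 : 2 ^ 45 ∣ 4157776806543360000 * 2 ^ 23 :=
      h45.trans (Nat.mul_dvd_mul hi (pow_dvd_pow 2 (by omega)))
    norm_num at h46
  have hKH : K ≤ H := le_inf inf_le_right fun a ha =>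
    Subgroup.mem_centralizer_singleton_iff.2 (qConj_comm_x hg ha.1)
  set E := (K.subgroupOf (Subgroup.centralizer ({z} : Set G))).map d.toCo1 with hE
  have hEle : E ≤ frameImg := by
    rw [hE, ← d.map_centralizer hx]
    exact Subgroup.map_mono (Subgroup.comap_mono hKH)
  have hEp : IsPGroup 2 E :=
    ((IsPGroup.of_card hj).comap_of_injective (Subgroup.centralizer ({z} : Set G)).subtype Subtype.val_injective).map _
  have hEn : ∀ a ∈ frameImg, ∀ n ∈ E, a * n * a⁻¹ ∈ E := by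
    intro a ha n hn
    rw [← d.map_centralizer hx] at ha
    obtain ⟨h, ⟨-, hh⟩, rfl⟩ := ha
    obtain ⟨k, hk, rfl⟩ := hn
    refine ⟨h * k * h⁻¹, ⟨?_, (h * k * h⁻¹).2⟩, by rw [map_mul, map_mul, map_inv]⟩
    exact d.normal_qConj hg (Subgroup.mem_centralizer_singleton_iff.1 hh) hk.1
  have hEs : E ≤ signImg := two_le_signImg E hEle hEp hEn
  have hE' : Nat.card E ≤ 2048 := by
    haveI : Finite signImg := Nat.finite_of_card_ne_zero (by rw [card_signImg]; norm_num)
    rw [← card_signImg]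
    exact Nat.card_le_card_of_injective _ (Subgroup.inclusion_injective hEs)
  have hKQ : K ⊓ qG Q = qG Q ⊓ qConj Q g := by
    rw [hK, inf_assoc, inf_eq_right.2 (qG_le (Q := Q)), inf_comm]
  have hsplit := d.card_split K inf_le_right
  rw [hKQ, hj] at hsplit
  have hW := d.abelian_bound' (qG Q ⊓ qConj Q g) inf_le_left (d.comm_inter hg hxz)
  have hbig : 2 ^ 24 ≤ 2 ^ j := Nat.pow_le_pow_right two_pos hj24
  have e1 : Nat.card ↥(qG Q ⊓ qConj Q g) = 2 ^ 13 := by
    by_contra hne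
    have : Nat.card E * Nat.card ↥(qG Q ⊓ qConj Q g) ≤ 2048 * (2 ^ 13 - 1) :=
      Nat.mul_le_mul hE' (by omega)
    rw [← hsplit] at this
    omega
  refine ⟨e1, ?_⟩
  haveI : Finite signImg := Nat.finite_of_card_ne_zero (by rw [card_signImg]; norm_num)
  refine Subgroup.eq_of_le_of_card_ge hEs ?_
  rw [card_signImg]
  rw [e1] at hsplit
  rw [hsplit] at hbig
  exact Nat.le_of_mul_le_mul_right ((by norm_num : 2048 * 2 ^ 13 = 2 ^ 24).trans_le hbig) (Nat.two_pow_pos 13)

end MData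

end CfsgLib.Spor
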