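import Cfsg.Agent.Lib.SporLeechQuad
import Cfsg.Prelude.Def_MonsterType

/-!
The squaring map of the extraspecial subgroup in a group of Monster type is the norm parity of the
lattice; a maximal elementary abelian subgroup.
-/

set_option autoImplicit false

namespace CfsgLib.Spor
open Cfsg

section Squares

variable {P : Type*} [Group P]

/-- The commutator defect of a pair. -/
def defect (x y : P) : P := y * x * y⁻¹ * x⁻¹

variable (hcomm : ∀ x y : P, defect x y ∈ Subgroup.center P)
include hcomm

theorem mul_swap_defect (x y : P) : y * x = defect x y * (x * y) := by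
  simp only [defect]; group

theorem defect_mul_left (x y w : P) : defect (x * y) w = defect x w * defect y w := by
  have hy := Subgroup.mem_center_iff.1 (hcomm y w)
  have h : w * (x * y) = defect x w * defect y w * (x * y * w) := by
    rw [← mul_assoc, mul_swap_defect hcomm x w, mul_assoc, mul_assoc, mul_swap_defect hcomm y w,
      ← mul_assoc x (defect y w), hy x]
    group
  have := (mul_swap_defect hcomm (x * y) w).symm.trans h
  exact mul_right_cancel this

theorem sq_mul (x y : P) : (x * y) * (x * y) = defect x y * (x * x * (y * y)) := by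
  calc (x * y) * (x * y) = x * (y * x) * y := by group
    _ = x * (defect x y * (x * y)) * y := by rw [mul_swap_defect hcomm x y]
    _ = defect x y * x * (x * y) * y := by rw [← mul_assoc x, Subgroup.mem_center_iff.1 (hcomm x y) x]
    _ = _ := by group

end Squares

variable {G : Type*} [Group G]

/-- Squares in the extraspecial subgroup follow the norm parity of the lattice. -/
theorem monsterType_square {z : G} {Q : Subgroup (Subgroup.centralizer ({z} : Set G))}
    [Q.Normal] {e : (Subgroup.centralizer ({z} : Set G)) ⧸ Q ≃* Spor.Co1} {ψ : leechLattice → Q ⧸ Subgroup.center Q}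
    (hQ : IsExtraspecial 2 Q) (hψ : IsLeechModTwoIso Q e ψ) :
    (∀ (v : leechLattice) (q : Q), ψ v = QuotientGroup.mk q →
      (q * q = 1 ↔ normPar v = 0)) := by
  classical
  obtain ⟨hadd, hsurj, hker, hconj⟩ := hψ
  haveI : Finite (Subgroup.center Q) := Nat.finite_of_card_ne_zero (by rw [hQ.2]; norm_num)
  obtain ⟨ζ, hζ⟩ : ∃ ζ : Q, ∀ y, y ∈ Subgroup.center Q → y = 1 ∨ y = ζ := by
    obtain ⟨a, b, hab, huniv⟩ := Nat.card_eq_two_iff.1 hQ.2
    by_cases ha : (a : Q) = 1
    · refine ⟨b, fun y hy => ?_⟩
      have : (⟨y, hy⟩ : Subgroup.center Q) ∈ ({a, b} : Set _) := by rw [huniv]; trivial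
      rcases this with h | h
      · exact Or.inl ((congrArg Subtype.val h).trans ha)
      · exact Or.inr (congrArg Subtype.val h)
    · refine ⟨a, fun y hy => ?_⟩
      have h1 : (1 : Subgroup.center Q) ∈ ({a, b} : Set _) := by rw [huniv]; trivial
      have hb : (b : Q) = 1 := by
        rcases h1 with h | h
        · exact absurd (congrArg Subtype.val h.symm) ha
        · exact congrArg Subtype.val h.symm
      have : (⟨y, hy⟩ : Subgroup.center Q) ∈ ({a, b} : Set _) := by rw [huniv]; trivial
      rcases this with h | h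
      · exact Or.inr (congrArg Subtype.val h)
      · exact Or.inl ((congrArg Subtype.val h).trans hb)
  have hc2 : ∀ y ∈ Subgroup.center Q, y * y = 1 := fun y hy => by
    have h : (⟨y, hy⟩ : Subgroup.center Q) ^ 2 = 1 := by rw [← hQ.2, pow_card_eq_one']
    simpa [pow_two, Subtype.ext_iff] using h
  have hcomm : ∀ x y : Q, defect x y ∈ Subgroup.center Q := fun x y => by
    rw [← hQ.1.2.2, commutator_def]
    exact Subgroup.commutator_mem_commutator (Subgroup.mem_top y) (Subgroup.mem_top x)
  have hψ0 : ψ 0 = 1 := (hker 0).2 ⟨0, by simp⟩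
  have hsq : ∀ x : Q, x * x ∈ Subgroup.center Q := fun x => by
    obtain ⟨v, hv⟩ := hsurj (QuotientGroup.mk x)
    have := (hker (v + v)).2 ⟨v, rfl⟩
    rw [hadd, hv, ← QuotientGroup.mk_mul, QuotientGroup.eq_one_iff] at this
    exact this
  -- parity of a central element
  let par : Q → ZMod 2 := fun y => if y = 1 then 0 else 1
  have hparmul : ∀ a ∈ Subgroup.center Q, ∀ b ∈ Subgroup.center Q, par (a * b) = par a + par b := by
    intro a ha b hb
    by_cases h1 : a = 1
    · simp [par, h1]
    by_cases h2 : b = 1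
    · simp [par, h2]
    have hab : a = b := ((hζ a ha).resolve_left h1).trans ((hζ b hb).resolve_left h2).symm
    subst hab
    simp [par, hc2 a ha, h1, show (1 : ZMod 2) + 1 = 0 from rfl]
  have hlift : ∀ v, ∃ q : Q, ψ v = QuotientGroup.mk q := fun v =>
    ⟨(ψ v).out, (QuotientGroup.out_eq' (ψ v)).symm⟩
  choose L hL using hlift
  -- squares and defects do not depend on the lift
  have hsqlift : ∀ v (q : Q), ψ v = QuotientGroup.mk q → q * q = L v * L v := fun v q hq => by
    have hy : (L v)⁻¹ * q ∈ Subgroup.center Q := QuotientGroup.eq.1 ((hL v).symm.trans hq)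
    have e : q = L v * ((L v)⁻¹ * q) := by group
    generalize (L v)⁻¹ * q = y at hy e
    subst e
    calc L v * y * (L v * y) = L v * (y * L v) * y := by group
      _ = L v * (L v * y) * y := by rw [← Subgroup.mem_center_iff.1 hy (L v)]
      _ = L v * L v * (y * y) := by group
      _ = L v * L v := by rw [hc2 y hy, mul_one]
  let F : leechLattice → ZMod 2 := fun v => par (L v * L v)
  have hF : ∀ v (q : Q), ψ v = QuotientGroup.mk q → par (q * q) = F v := fun v q hq => by
    rw [hsqlift v q hq]
  have hFadd : ∀ u v (x y : Q), ψ u = QuotientGroup.mk x → ψ v = QuotientGroup.mk y →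
      F (u + v) = par (defect x y) + F u + F v := by
    intro u v x y hu hv
    rw [← hF (u + v) (x * y) (by rw [hadd, hu, hv]; rfl), sq_mul hcomm,
      hparmul _ (hcomm _ _) _ ((Subgroup.center Q).mul_mem (hsq _) (hsq _)), hparmul _ (hsq _) _ (hsq _),
      hF u x hu, hF v y hv, add_assoc]
  have hInv : IsInvQuad F := by
    refine ⟨fun v w => ?_, fun u v w => ?_, fun g v => ?_⟩
    · refine (hF (v + (w + w)) (L v) ?_).symm
      rw [hadd, (hker (w + w)).2 ⟨w, rfl⟩, mul_one, hL]
    · have huv : ψ (u + v) = QuotientGroup.mk (L u * L v) := by rw [hadd, hL u, hL v]; rfl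
      rw [hFadd (u + v) w _ _ huv (hL w), hFadd u v _ _ (hL u) (hL v), hFadd u w _ _ (hL u) (hL w),
        hFadd v w _ _ (hL v) (hL w), defect_mul_left hcomm, hparmul _ (hcomm _ _) _ (hcomm _ _)]
      ring_nf
    · obtain ⟨h', hh'⟩ := e.surjective (QuotientGroup.mk g)
      obtain ⟨h, rfl⟩ := QuotientGroup.mk_surjective h'
      rw [← hF (g • v) _ (hconj h g hh'.symm v (L v) (hL v))]
      show par _ = par _
      congr 1
      have hy : L v * L v ∈ Subgroup.center Q := hsq _
      apply Subtype.ext
      show ((h : Subgroup.centralizer ({z} : Set G)) * L v * h⁻¹) * (h * L v * h⁻¹) = _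
      have hmem : (h : Subgroup.centralizer ({z} : Set G)) * ↑(L v * L v) * h⁻¹ ∈ Q :=
        (inferInstance : Q.Normal).conj_mem _ (L v * L v).2 h
      have hcen : (⟨_, hmem⟩ : Q) ∈ Subgroup.center Q := by
        rw [Subgroup.mem_center_iff]
        intro q
        have hq' : h⁻¹ * (q : Subgroup.centralizer ({z} : Set G)) * h ∈ Q := by
          simpa using (inferInstance : Q.Normal).conj_mem _ q.2 h⁻¹
        have := congrArg (fun a : Q => h * (a : Subgroup.centralizer ({z} : Set G)) * h⁻¹)
          (Subgroup.mem_center_iff.1 hy ⟨_, hq'⟩)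
        apply Subtype.ext
        simpa [mul_assoc] using this
      rw [show ((h : Subgroup.centralizer ({z} : Set G)) * L v * h⁻¹) * (h * L v * h⁻¹)
        = h * ↑(L v * L v) * h⁻¹ by push_cast; group]
      rcases hζ _ hy with h1 | h1
      · rw [h1]; simp
      · rcases hζ _ hcen with h2 | h2
        · have : ((h : Subgroup.centralizer ({z} : Set G)) * ↑(L v * L v) * h⁻¹) = 1 := congrArg Subtype.val h2
          rw [conj_eq_one_iff] at this
          simp [this]
        · exact (congrArg Subtype.val h2).trans (congrArg Subtype.val h1).symm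
  have hne : ∃ v, F v ≠ 0 := by
    by_contra hcon
    push Not at hcon
    have hall : ∀ x : Q, x * x = 1 := fun x => by
      obtain ⟨v, hv⟩ := hsurj (QuotientGroup.mk x)
      have := hcon v
      rw [← hF v x hv] at this
      by_contra hx
      simp [par, hx] at this
    have htriv : ∀ x y : Q, x * y = y * x := fun x y => by
      have hinv : ∀ a : Q, a⁻¹ = a := fun a => inv_eq_of_mul_eq_one_right (hall a)
      rw [← hinv (x * y), mul_inv_rev, hinv x, hinv y]
    have : commutator Q = ⊥ := by
      rw [commutator_def, Subgroup.commutator_eq_bot_iff_le_centralizer]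
      intro x _
      exact Subgroup.mem_centralizer_iff.2 fun y _ => htriv y x
    have h2 := hQ.2
    rw [← hQ.1.2.2, this, Subgroup.card_bot] at h2
    norm_num at h2
  intro v q hq
  have := hInv.eq_normPar hne v
  rw [← hF v q hq] at this
  rw [← this]
  by_cases hx : q * q = 1 <;> simp [par, hx]

/-- In a group of Monster type the extraspecial subgroup contains an elementary abelian group of order `2 ^ 13`. -/
theorem exists_elementaryAbelian_monsterType [Finite G] {z : G}
    {Q : Subgroup (Subgroup.centralizer ({z} : Set G))} [Q.Normal] (hM : IsOfMonsterType z Q) :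
    ∃ E : Subgroup Q, IsElementaryAbelian 2 E ∧ Nat.card E = 2 ^ 13 := by
  obtain ⟨⟨-, -, hQ, hcard, -⟩, e, ψ, hψ⟩ := hM
  have hsquare := monsterType_square hQ hψ
  obtain ⟨hadd, hsurj, hker, -⟩ := hψ
  have hψ0 : ψ 0 = 1 := (hker 0).2 ⟨0, by simp⟩
  let Ψ : Multiplicative leechLattice →* Q ⧸ Subgroup.center Q :=
    { toFun := fun v => ψ v.toAdd, map_one' := hψ0, map_mul' := fun a b => hadd _ _ }
  let A : AddSubgroup leechLattice := singularHalf.addSubgroupOf leechLattice
  obtain ⟨-, h2A, hidx, hnorm⟩ := singularHalf_spec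
  have hkerA : Ψ.ker ≤ AddSubgroup.toSubgroup A := by
    intro v hv
    obtain ⟨w, hw⟩ := (hker v.toAdd).1 hv
    show v.toAdd ∈ A
    rw [hw]
    exact h2A w.1 w.2
  let E : Subgroup Q := ((AddSubgroup.toSubgroup A).map Ψ).comap (QuotientGroup.mk' _)
  have hE : E.index = 2 ^ 12 := by
    rw [Subgroup.index_comap_of_surjective _ (QuotientGroup.mk'_surjective _),
      Subgroup.index_map_eq _ (fun b => (hsurj b).imp' Multiplicative.ofAdd fun a h => h) hkerA]
    exact (AddSubgroup.index_toSubgroup A).trans hidx
  have hexp : ∀ x ∈ E, x * x = 1 := by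
    intro x hx
    obtain ⟨v, hv, hvx⟩ := hx
    refine (hsquare v.toAdd x hvx).2 ?_
    obtain ⟨k, hk⟩ := hnorm _ (show (v.toAdd : GolayPt → ℤ) ∈ singularHalf from hv)
    rw [normPar, ZMod.intCast_zmod_eq_zero_iff_dvd]
    exact ⟨k, by omega⟩
  refine ⟨E, ⟨⟨⟨fun a b => ?_⟩⟩, fun a ha => by rw [pow_two]; exact hexp a ha⟩, ?_⟩
  · apply Subtype.ext
    have hinv : ∀ x ∈ E, x⁻¹ = x := fun x hx => inv_eq_of_mul_eq_one_right (hexp x hx)
    have := hinv _ (E.mul_mem a.2 b.2)
    rw [mul_inv_rev, hinv _ a.2, hinv _ b.2] at this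
    exact this.symm
  · have h := E.card_mul_index
    rw [hE, hcard] at h
    exact Nat.eq_of_mul_eq_mul_right (by norm_num : 0 < 2 ^ 12) (h.trans (by norm_num))

end CfsgLib.Spor
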