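import Cfsg.Agent.Lib.SporMathieu2
import Cfsg.Agent.Lib.SporM24Elems
import Mathlib

/-!
The stabiliser of three points in the dodecad stabiliser: order 72, a normal Sylow 3-subgroup, quaternion Sylow 2-subgroups.
-/

set_option autoImplicit false
set_option maxRecDepth 20000

namespace CfsgLib.Spor
open Cfsg
open scoped Pointwise

/-- Powers of a generator of order four. -/
def nineQA : List (List ℕ) := [
  [0,1,2,3,4,5,6,7,8,9,10,11,12,13,14,15,16,17,18,19,20,21,22,23],
  [0,1,2,3,6,14,12,22,13,4,11,7,9,16,5,21,18,23,8,20,15,19,10,17],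
  [0,1,2,3,12,5,9,10,16,6,7,22,4,18,14,19,8,17,13,15,21,20,11,23],
  [0,1,2,3,9,14,4,11,18,12,22,10,6,8,5,20,13,23,16,21,19,15,7,17]]

/-- The other coset. -/
def nineQX : List (List ℕ) := [
  [0,1,2,3,8,17,18,15,12,13,19,21,16,6,23,10,4,5,9,7,11,22,20,14],
  [0,1,2,3,18,23,16,20,6,8,21,15,13,4,17,22,9,14,12,11,10,7,19,5],
  [0,1,2,3,16,17,13,19,4,18,15,20,8,9,23,7,12,5,6,10,22,11,21,14],
  [0,1,2,3,13,23,8,21,9,16,20,19,18,12,17,11,6,14,4,22,7,10,15,5]]

/-- All elements of the stabiliser of three points of the dodecad, as lists. -/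
def list72 : List (List ℕ) :=
  (m12Trans.getD 3 []).flatMap fun u => (m12Trans.getD 4 []).map fun v => mulL u v

theorem fix12_step {k : ℕ} (hk : k < 5) {g : P24} (hg : g ∈ fix12 k) :
    ∃ L ∈ m12Trans.getD k [], ∃ h ∈ fix12 (k + 1), g = permOf L * h ∧ L.length = 24 ∧ Rep (permOf L) L := by
  have hy := fix12_image hk hg
  have h := List.all_eq_true.1 levels12_ok k (List.mem_range.2 hk)
  simp only [level12OK, Bool.and_eq_true, List.all_eq_true, Bool.or_eq_true, Bool.not_eq_true',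
    List.any_eq_true, Nat.beq_eq] at h
  simp only [rest12, Finset.mem_sdiff, Finset.mem_image, Finset.mem_range, not_exists, not_and,
    mem_setOfMask] at hy
  have hf := dpt_facts k (List.mem_range.2 hk)
  rcases h.2 (ix (g (dpt k))) (List.mem_range.2 (ix_lt _)) with (h' | h') | ⟨L, hL, e⟩
  · rw [hy.1] at h'; exact absurd h' (by simp)
  · exfalso
    rw [List.elem_eq_mem, decide_eq_true_iff, List.mem_iff_getElem] at h'
    obtain ⟨j, hj, e⟩ := h'
    rw [List.getElem_take] at e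
    have hjk : j < k := lt_of_lt_of_le hj (by simp)
    refine hy.2 j hjk ?_
    rw [dpt, List.getD_eq_getElem _ _ (lt_of_lt_of_le hj (by simp)), e, pt_ix]
  · obtain ⟨hM, hl, hr, hm⟩ := inStab_spec (h.1 L hL).1
    have hu : permOf L ∈ fix12 k := by
      refine mem_fix12.2 ⟨mem_M12_iff.2 ⟨hM, hm _ (by simp)⟩, fun j hj => ?_⟩
      have hj5 := (dpt_facts j (List.mem_range.2 (by omega))).1
      rw [dpt, hr.apply_pt hj5, (h.1 L hL).2 _ (hf.2.2.2 j (List.mem_range.2 hj))]
    refine ⟨L, hL, (permOf L)⁻¹ * g, ?_, by rw [mul_inv_cancel_left], hl, hr⟩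
    show (permOf L)⁻¹ * g ∈ fix12 k ⊓ MulAction.stabilizer P24 (dpt k)
    refine Subgroup.mem_inf.2 ⟨mul_mem (inv_mem hu) hg, ?_⟩
    rw [MulAction.mem_stabilizer_iff, Equiv.Perm.smul_def, Equiv.Perm.mul_apply,
      Equiv.Perm.inv_eq_iff_eq]
    show g (dpt k) = permOf L (pt (m12Base.getD k 0))
    rw [hr.apply_pt hf.1, e, pt_ix]

theorem listOf_mem72 {g : P24} (hg : g ∈ fix12 3) : listOf g ∈ list72 := by
  obtain ⟨u, hu, h, hh, rfl, hul, hur⟩ := fix12_step (by norm_num : 3 < 5) hg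
  obtain ⟨v, hv, h', hh', rfl, hvl, hvr⟩ := fix12_step (by norm_num : 4 < 5) hh
  have h1 : Nat.card ↥(fix12 5) = 1 := card_fix12 5 (by decide)
  rw [Subgroup.card_eq_one] at h1
  rw [h1, Subgroup.mem_bot] at hh'
  subst hh'
  rw [mul_one, (Rep.mul hvl hur hvr).listOf_eq (by simp [mulL, hvl])]
  exact List.mem_flatMap.2 ⟨u, hu, List.mem_map.2 ⟨v, hv, rfl⟩⟩

/-- Cube of a list. -/
def cubeL (L : List ℕ) : List ℕ := mulL L (mulL L L)

theorem list72_cube : (list72.all fun L => !(cubeL (cubeL L) == List.range 24) || cubeL L == List.range 24) = true ∧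
    ((list72.filter fun L => cubeL L == List.range 24).length) = 9 := by decide +kernel

theorem listOf_one : listOf (1 : P24) = List.range 24 := rep_one.listOf_eq (by simp)

theorem listOf_cube (g : P24) : listOf (g ^ 3) = cubeL (listOf g) := by
  refine (?_ : Rep (g ^ 3) _).listOf_eq (by simp [cubeL, mulL, length_listOf])
  rw [show g ^ 3 = g * (g * g) by rw [pow_succ, pow_two, mul_assoc]]
  exact Rep.mul (by simp [mulL, length_listOf]) (rep_listOf g) (Rep.mul (length_listOf g) (rep_listOf g) (rep_listOf g))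

theorem cube_iff (g : P24) : g ^ 3 = 1 ↔ cubeL (listOf g) = List.range 24 := by
  rw [← listOf_cube, ← listOf_one]
  exact listOf_injective.eq_iff.symm

theorem cube_of_ninth {g : P24} (hg : g ∈ fix12 3) (h : g ^ 9 = 1) : g ^ 3 = 1 := by
  have := List.all_eq_true.1 list72_cube.1 _ (listOf_mem72 hg)
  simp only [Bool.or_eq_true, Bool.not_eq_true', beq_eq_false_iff_ne, beq_iff_eq, ne_eq] at this
  rcases this with h' | h'
  · exfalso; refine h' ?_
    rw [← listOf_cube, ← (cube_iff (g ^ 3)), ← pow_mul]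
    exact h
  · exact (cube_iff g).2 h'

theorem card_cubes_le : Nat.card {g : fix12 3 // g ^ 3 = 1} ≤ 9 := by
  classical
  let S : Finset (List ℕ) := (list72.filter fun L => cubeL L == List.range 24).toFinset
  have hm : ∀ g : {g : fix12 3 // g ^ 3 = 1}, listOf (g.1 : P24) ∈ S := fun g => by
    simp only [S, List.mem_toFinset, List.mem_filter, beq_iff_eq]
    exact ⟨listOf_mem72 g.1.2, (cube_iff _).1 (by rw [← Subgroup.coe_pow, g.2, Subgroup.coe_one])⟩
  have := Nat.card_le_card_of_injective (fun g => (⟨_, hm g⟩ : {L // L ∈ S}))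
    fun a b e => Subtype.ext (Subtype.ext (listOf_injective (congrArg Subtype.val e)))
  rw [Nat.card_eq_finsetCard] at this
  exact this.trans ((List.toFinset_card_le _).trans list72_cube.2.le)

/-- The list of an element of the quaternion group. -/
def nineQ : QuaternionGroup 2 → List ℕ
  | .a i => nineQA.getD i.val []
  | .xa i => nineQX.getD i.val []

theorem nineQ_ok : (∀ x, inStab [340831] (nineQ x) = true ∧ (nineQ x).getD 0 0 = 0 ∧ (nineQ x).getD 1 0 = 1 ∧
      (nineQ x).getD 2 0 = 2) ∧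
    (∀ x y, mulL (nineQ x) (nineQ y) = nineQ (x * y)) ∧ ∀ x y, nineQ x = nineQ y → x = y := by decide +kernel

theorem nineQ_mem (x : QuaternionGroup 2) : permOf (nineQ x) ∈ fix12 3 := by
  obtain ⟨hM, hl, hr, hm⟩ := inStab_spec (nineQ_ok.1 x).1
  obtain ⟨-, e0, e1, e2⟩ := nineQ_ok.1 x
  refine mem_fix12.2 ⟨mem_M12_iff.2 ⟨hM, hm _ (by simp)⟩, fun j hj => ?_⟩
  have hj5 := (dpt_facts j (List.mem_range.2 (by omega))).1
  rw [dpt, hr.apply_pt hj5]
  interval_cases j
  · rw [show m12Base.getD 0 0 = 0 from rfl, e0]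
  · rw [show m12Base.getD 1 0 = 1 from rfl, e1]
  · rw [show m12Base.getD 2 0 = 2 from rfl, e2]

/-- The quaternion subgroup. -/
noncomputable def nineHom : QuaternionGroup 2 →* fix12 3 :=
  MonoidHom.mk' (fun x => ⟨permOf (nineQ x), nineQ_mem x⟩) fun x y => Subtype.ext (by
    obtain ⟨-, hl, hr, -⟩ := inStab_spec (nineQ_ok.1 y).1
    have hxy := (inStab_spec (nineQ_ok.1 (x * y)).1).2.2.1
    have h := Rep.mul hl (inStab_spec (nineQ_ok.1 x).1).2.2.1 hr
    rw [nineQ_ok.2.1 x y] at h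
    exact hxy.eq_of_eq h)

theorem nineHom_injective : Function.Injective nineHom := fun x y e => nineQ_ok.2.2 x y (by
  have hx := (inStab_spec (nineQ_ok.1 x).1)
  have hy := (inStab_spec (nineQ_ok.1 y).1)
  rw [← hx.2.2.1.listOf_eq hx.2.1, ← hy.2.2.1.listOf_eq hy.2.1]
  exact congrArg listOf (congrArg Subtype.val e))

theorem sylow_card72 {H : Type*} [Group H] (h72 : Nat.card H = 72) :
    (∀ Q : Sylow 3 H, Nat.card Q = 9) ∧ ∀ P : Sylow 2 H, Nat.card P = 8 := by
  haveI := Nat.finite_of_card_ne_zero (h72.trans_ne (by norm_num))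
  refine ⟨fun Q => ?_, fun Q => ?_⟩
  · haveI : Fact (Nat.Prime 3) := ⟨Nat.prime_three⟩
    rw [Sylow.card_eq_multiplicity, h72, Nat.factorization_def _ Nat.prime_three,
      show (72 : ℕ) = 3 ^ 2 * 8 by norm_num, padicValNat.mul (by norm_num) (by norm_num),
      padicValNat.prime_pow, padicValNat.eq_zero_of_not_dvd (by norm_num : ¬ 3 ∣ 8)]
    norm_num
  · rw [Sylow.card_eq_multiplicity, h72, Nat.factorization_def _ Nat.prime_two,
      show (72 : ℕ) = 2 ^ 3 * 9 by norm_num, padicValNat.mul (by norm_num) (by norm_num),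
      padicValNat.prime_pow, padicValNat.eq_zero_of_not_dvd (by norm_num : ¬ 2 ∣ 9)]
    norm_num

/-- The Sylow structure of a group isomorphic to the stabiliser of three points. -/
theorem nine_structure {H : Type*} [Group H] (e : H ≃* fix12 3) :
    (∀ Q : Sylow 3 H, (Q : Subgroup H).Normal ∧ Nat.card Q = 9 ∧ ∀ x ∈ (Q : Subgroup H), x ^ 3 = 1) ∧
      ∀ P : Sylow 2 H, Nonempty (P ≃* QuaternionGroup 2) := by
  haveI : Finite H := Finite.of_equiv _ e.toEquiv.symm
  have h72 : Nat.card H = 72 := (Nat.card_congr e.toEquiv).trans (card_fix12 3 (by decide))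
  obtain ⟨c3, c2⟩ := sylow_card72 h72
  haveI : Fact (Nat.Prime 3) := ⟨Nat.prime_three⟩
  refine ⟨fun Q => ?_, fun P => ?_⟩
  · have hx : ∀ Q : Sylow 3 H, ∀ x ∈ (Q : Subgroup H), x ^ 3 = 1 := fun Q x hx => by
      have h9 : x ^ 9 = 1 := by
        have := congrArg Subtype.val (pow_card_eq_one' (x := (⟨x, hx⟩ : (Q : Subgroup H))))
        rw [show Nat.card (Q : Subgroup H) = 9 from c3 Q] at this
        exact this
      refine e.injective (Subtype.ext ?_)
      rw [map_pow, map_one, Subgroup.coe_pow, Subgroup.coe_one]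
      exact cube_of_ninth (e x).2 (by rw [← Subgroup.coe_pow, ← map_pow, h9, map_one, Subgroup.coe_one])
    have heq : ∀ Q : Sylow 3 H, ∀ x, x ∈ (Q : Subgroup H) ↔ x ^ 3 = 1 := fun Q x => by
      refine ⟨hx Q x, fun hx3 => ?_⟩
      have hi : Function.Injective fun y : (Q : Subgroup H) =>
          (⟨e y, by rw [← map_pow, hx Q y y.2, map_one]⟩ : {g : fix12 3 // g ^ 3 = 1}) :=
        fun a b h => Subtype.ext (e.injective (congrArg Subtype.val h))
      have hb := hi.bijective_of_nat_card_le (card_cubes_le.trans (c3 Q).ge)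
      obtain ⟨y, hy⟩ := hb.2 ⟨e x, by rw [← map_pow, hx3, map_one]⟩
      rw [← e.injective (congrArg Subtype.val hy)]
      exact y.2
    refine ⟨⟨fun n hn g => (heq Q _).2 ?_⟩, c3 Q, hx Q⟩
    rw [conj_pow, (heq Q n).1 hn, mul_one, mul_inv_cancel]
  · let φ : QuaternionGroup 2 →* H := e.symm.toMonoidHom.comp nineHom
    have hφ : Function.Injective φ := e.symm.injective.comp nineHom_injective
    have hc : Nat.card φ.range = 8 := by
      rw [← Nat.card_congr (MonoidHom.ofInjective hφ).toEquiv, Nat.card_eq_fintype_card, QuaternionGroup.card]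
    haveI : Fact (Nat.Prime 2) := ⟨Nat.prime_two⟩
    obtain ⟨P₀, hP⟩ := (IsPGroup.of_card (n := 3) (G := φ.range) (by rw [hc]; norm_num) : IsPGroup 2 φ.range).exists_le_sylow
    have he : φ.range = (P₀ : Subgroup H) := Subgroup.eq_of_le_of_card_ge hP (by rw [hc]; exact (c2 P₀).le)
    exact ⟨(P.equiv P₀).trans ((MulEquiv.subgroupCongr he.symm).trans (MonoidHom.ofInjective hφ).symm)⟩

/-- The stabiliser of a dodecad and three of its points is a copy of the standard one. -/
theorem three_point_equiv {d : Finset GolayPt} (hd : d ∈ dodecads) {p q r : GolayPt} (hp : p ∈ d) (hq : q ∈ d)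
    (hr : r ∈ d) (hpq : p ≠ q) (hpr : p ≠ r) (hqr : q ≠ r) :
    Nonempty (↥(MulAction.stabilizer M24 d ⊓ MulAction.stabilizer M24 p ⊓ MulAction.stabilizer M24 q ⊓
      MulAction.stabilizer M24 r) ≃* fix12 3) := by
  obtain ⟨a, ha, ea⟩ := exists_M24_squareDodecad hd
  let x : ℕ → GolayPt := fun j => a⁻¹ (if j = 0 then p else if j = 1 then q else r)
  have hmem : ∀ i < 3, x i ∈ Spor.squareDodecad := fun i hi => by
    rw [← inv_smul_smul a Spor.squareDodecad, ea]
    refine Finset.smul_mem_smul_finset (a := a⁻¹) ?_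
    interval_cases i <;> assumption
  have hx : ∀ i < 3, ∀ j < 3, i ≠ j → x i ≠ x j := fun i hi j hj hne e => by
    have e' := a⁻¹.injective e
    interval_cases i <;> interval_cases j <;> simp at e' hne <;>
      first | exact hpq e' | exact hpq e'.symm | exact hpr e' | exact hpr e'.symm | exact hqr e' | exact hqr e'.symm
  obtain ⟨h, hh, eh⟩ := exists_M12_to_base x 3 (by norm_num) hmem hx
  have hg : a * h⁻¹ ∈ M24 := mul_mem ha (inv_mem (mem_M12_iff'.1 hh).1)
  have gd : (a * h⁻¹) • Spor.squareDodecad = d := by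
    rw [mul_smul, inv_smul_eq_iff.2 (mem_M12_iff'.1 hh).2.symm, ea]
  have gp : ∀ j < 3, (a * h⁻¹) • dpt j = if j = 0 then p else if j = 1 then q else r := fun j hj => by
    rw [← eh j hj, Equiv.Perm.smul_def, Equiv.Perm.mul_apply, show h⁻¹ (h (x j)) = x j from h.symm_apply_apply _]
    exact a.apply_symm_apply _
  have g0 : (a * h⁻¹) • dpt 0 = p := by simpa using gp 0 (by norm_num)
  have g1 : (a * h⁻¹) • dpt 1 = q := by simpa using gp 1 (by norm_num)
  have g2 : (a * h⁻¹) • dpt 2 = r := by simpa using gp 2 (by norm_num)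
  exact ⟨((equivConjBy (L := M24 ⊓ MulAction.stabilizer P24 d ⊓ MulAction.stabilizer P24 p ⊓
      MulAction.stabilizer P24 q ⊓ MulAction.stabilizer P24 r) (a * h⁻¹) fun y => by
    simp only [fix12, Subgroup.mem_inf, mem_M12_iff', conj_mem_M24 hg, MulAction.mem_stabilizer_iff,
      conj_smul_eq_iff, gd, g0, g1, g2]).trans
    (equivOfMem (MulAction.stabilizer M24 d ⊓ MulAction.stabilizer M24 p ⊓ MulAction.stabilizer M24 q ⊓
      MulAction.stabilizer M24 r) (M24 ⊓ MulAction.stabilizer P24 d ⊓ MulAction.stabilizer P24 p ⊓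
      MulAction.stabilizer P24 q ⊓ MulAction.stabilizer P24 r) fun y => ⟨fun hy => ⟨hy.1.1.1.1, ⟨⟨hy.1.1.1.2, hy.1.1.2⟩, hy.1.2⟩, hy.2⟩,
      fun ⟨h1, h2⟩ => ⟨⟨⟨⟨h1, h2.1.1.1⟩, h2.1.1.2⟩, h2.1.2⟩, h2.2⟩⟩).symm).symm⟩

end CfsgLib.Spor
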