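import Cfsg.Agent.Lib.SporObjBasic
import Cfsg.Agent.Lib.SporObjClass

/-!
Base objects and the invariant of pairs of triples.
-/

set_option autoImplicit false
set_option maxRecDepth 20000

namespace CfsgLib.Spor
open Cfsg

/-- The base oct for certificates. -/
def octBase : List ℕ := [5279]

/-- The base sext for certificates. -/
def sextBase : List ℕ := [8388615, 147496, 268544, 1082880, 2621632, 4268048]

/-- The base trio for certificates. -/
def trioBase : List ℕ := [8391797, 307594, 8077824]

/-- The base dod for certificates. -/
def dodBase : List ℕ := [8419127]

/-- The base dpair for certificates. -/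
def dpairBase : List ℕ := [8419127, 8358088]

/-- The base triad for certificates. -/
def triadBase : List ℕ := [7]

/-- The base duad for certificates. -/
def duadBase : List ℕ := [3]

/-- The invariant of a triple relative to the base triple: disjoint triples inside a common octad get 7. -/
noncomputable def triadPhi (X : List ℕ) : ℕ :=
  forceNat (X.headD 0) fun x => forceNat (Nat.lor 7 x) fun u =>
    cond (Nat.beq (Nat.land 7 x) 0 && octList.any fun o => Nat.beq (Nat.land o u) u) 7 (sigL triadBase X)

theorem bases_nice : niceL octBase = true ∧ niceL sextBase = true ∧ niceL trioBase = true ∧ niceL dodBase = true ∧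
    niceL dpairBase = true ∧ niceL triadBase = true ∧ niceL duadBase = true := by decide +kernel

theorem bases_mem : octBase ∈ octObjs ∧ sextBase ∈ sextetObjs ∧ trioBase ∈ trioObjs ∧ dodBase ∈ dodObjs ∧
    dpairBase ∈ dpairObjs ∧ triadBase ∈ triadObjs ∧ duadBase ∈ duadObjs := by decide +kernel

end CfsgLib.Spor
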