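import Cfsg.Agent.Lib.SporObjBases
import Cfsg.Agent.Lib.SporObjWordsDodOct

/-!
Certified classes of octads under the stabiliser of a dodecad.
-/

set_option autoImplicit false
set_option maxRecDepth 20000

namespace CfsgLib.Spor
open Cfsg

theorem dodOct_stab : stabOK [dodBase] dodOctGens = true := by decide +kernel

theorem dodOct_classes : classesOK dodOctGens octObjs (sigL dodBase) dodOctCls = true := by decide +kernel

end CfsgLib.Spor
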