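import Cfsg.Agent.Lib.SporObjBases
import Cfsg.Agent.Lib.SporObjWordsSext

/-!
Certified stabiliser classes (Sext).
-/

set_option autoImplicit false
set_option maxRecDepth 20000

namespace CfsgLib.Spor
open Cfsg

theorem sextSext_stab : stabOK [sextBase] sextSextGens = true := by decide +kernel

theorem sextSext_classes : classesOK sextSextGens sextetObjs (sigL sextBase) sextSextCls = true := by decide +kernel

theorem sextOct_stab : stabOK [sextBase] sextOctGens = true := by decide +kernel

theorem sextOct_classes : classesOK sextOctGens octObjs (sigL sextBase) sextOctCls = true := by decide +kernel

theorem sextTrio_stab : stabOK [sextBase] sextTrioGens = true := by decide +kernel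

theorem sextTrio_classes : classesOK sextTrioGens trioObjs (sigL sextBase) sextTrioCls = true := by decide +kernel

end CfsgLib.Spor
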