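import Cfsg.Agent.Lib.SporObjBases
import Cfsg.Agent.Lib.SporObjWordsSmall

/-!
Certified stabiliser classes (Small).
-/

set_option autoImplicit false
set_option maxRecDepth 20000

namespace CfsgLib.Spor
open Cfsg

theorem duadDuad_stab : stabOK [duadBase] duadDuadGens = true := by decide +kernel

theorem duadDuad_classes : classesOK duadDuadGens duadObjs (sigL duadBase) duadDuadCls = true := by decide +kernel

theorem triadTriad_stab : stabOK [triadBase] triadTriadGens = true := by decide +kernel

theorem triadTriad_classes : classesOK triadTriadGens triadObjs triadPhi triadTriadCls = true := by decide +kernel

theorem triadSext_stab : stabOK [triadBase] triadSextGens = true := by decide +kernel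

theorem triadSext_classes : classesOK triadSextGens sextetObjs (sigL triadBase) triadSextCls = true := by decide +kernel

end CfsgLib.Spor
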