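import Cfsg.Agent.Lib.SporObjBases
import Cfsg.Agent.Lib.SporObjWordsTrio

/-!
Certified stabiliser classes (Trio).
-/

set_option autoImplicit false
set_option maxRecDepth 20000

namespace CfsgLib.Spor
open Cfsg

theorem trioTrio_stab : stabOK [trioBase] trioTrioGens = true := by decide +kernel

theorem trioTrio_classes : classesOK trioTrioGens trioObjs (sigL trioBase) trioTrioCls = true := by decide +kernel

theorem trioOct_stab : stabOK [trioBase] trioOctGens = true := by decide +kernel

theorem trioOct_classes : classesOK trioOctGens octObjs (sigL trioBase) trioOctCls = true := by decide +kernel

theorem trioSext_stab : stabOK [trioBase] trioSextGens = true := by decide +kernel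

theorem trioSext_classes : classesOK trioSextGens sextetObjs (sigL trioBase) trioSextCls = true := by decide +kernel

end CfsgLib.Spor
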