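import Cfsg.Agent.Lib.SporM24Elems
import Cfsg.Agent.Lib.SporObjSets
import Cfsg.Agent.Lib.SporObjTrans
import Cfsg.Agent.Lib.SporObjUse
import Mathlib.GroupTheory.SpecificGroups.Alternating

/-!
The action of an octad stabiliser on its octad.
-/

set_option autoImplicit false
set_option maxRecDepth 20000

namespace CfsgLib.Spor
open Cfsg
open scoped Pointwise

theorem fixL6_oct : (fixL6.all fun L => (List.range 24).all fun i => !m24Oct.testBit i || Nat.beq (L.getD i 0) i) = true := by
  decide +kernel

/-- Fixing six points of an octad fixes the octad pointwise. -/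
theorem fix_oct_of_six {o E : Finset GolayPt} (ho : o ∈ octads) (hE : E.card = 6) (hEo : E ⊆ o) {g : P24}
    (hg : g ∈ M24) (hfix : ∀ p ∈ E, g p = p) : ∀ p ∈ o, g p = p := by
  obtain ⟨h, hh, eo, -, hlist⟩ := six_oct_align ho hE hEo
  have hl := List.all_eq_true.1 fixL6_oct _ (hlist g hg hfix)
  intro p hp
  have hb : h p ∈ setOfMask m24Oct := by
    rw [show setOfMask m24Oct = baseOct from rfl, ← eo]; exact Finset.smul_mem_smul_finset hp
  rw [mem_setOfMask] at hb
  have := List.all_eq_true.1 hl _ (List.mem_range.2 (ix_lt (h p)))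
  simp only [Bool.or_eq_true, Bool.not_eq_true', hb, Bool.true_eq_false, false_or, Nat.beq_eq] at this
  rw [← rep_listOf (h * g * h⁻¹) (h p)] at this
  have e := ix_inj this
  simp only [Equiv.Perm.mul_apply, Equiv.Perm.coe_inv, Equiv.symm_apply_apply] at e
  exact h.injective e

/-- The stabiliser of an octad inside the group of the code. -/
abbrev octK (o : Finset GolayPt) : Subgroup P24 := M24 ⊓ MulAction.stabilizer P24 o

theorem card_octK {o : Finset GolayPt} (ho : o ∈ octads) : Nat.card (octK o) = 322560 := by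
  obtain ⟨b, hb, eb⟩ := octCoded.exists_base trOct_stab trOct_trans bases_mem.1 ho
  have h := card_eq_ncard_mul M24 o octads (fun g hg => smul_mem_octads' hg ho) (fun y hy => by
    obtain ⟨c, hc, ec⟩ := octCoded.exists_base trOct_stab trOct_trans bases_mem.1 hy
    exact ⟨c * b⁻¹, mul_mem hc (inv_mem hb), famOne_injective (by
      rw [famOne_smul, eb, ec, mul_smul, inv_smul_smul])⟩)
  rw [card_M24, octCoded.ncard_univ, show octObjs.length = 759 by decide +kernel] at h
  have h' : 244823040 = 759 * Nat.card ↥(octK o) := h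
  omega

theorem card_fix_oct {o : Finset GolayPt} (ho : o ∈ octads) :
    Nat.card {g : P24 // g ∈ M24 ∧ ∀ p ∈ o, g p = p} = 16 := by
  obtain ⟨E, hEo, hE⟩ := Finset.exists_subset_card_eq (s := o) (n := 6) (by rw [ho.2]; norm_num)
  rw [← (card_fix_set hE).1 ⟨o, ho, hEo⟩]
  exact Nat.card_congr (Equiv.subtypeEquivRight fun g => and_congr_right_iff.2 fun hg =>
    ⟨fun h p hp => h p (hEo hp), fun h => fix_oct_of_six ho hE hEo hg h⟩)

/-- The restriction to the octad. -/
def octRestrict (o : Finset GolayPt) : octK o →* Equiv.Perm ↥o :=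
  restrictHom (octK o).subtype o fun g => g.2.2

theorem octRestrict_range {o : Finset GolayPt} (ho : o ∈ octads) : (octRestrict o).range = alternatingGroup ↥o := by
  have hk : Nat.card (octRestrict o).ker = 16 := by
    rw [← card_fix_oct ho]
    exact Nat.card_congr
      { toFun := fun g => ⟨(g.1 : P24), g.1.2.1, restrictHom_eq_one.1 (MonoidHom.mem_ker.1 g.2)⟩
        invFun := fun g => ⟨⟨g.1, g.2.1, MulAction.mem_stabilizer_iff.2 (by
            rw [Finset.smul_finset_def]
            conv_rhs => rw [← Finset.image_id (s := o)]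
            exact Finset.image_congr fun p hp => g.2.2 p hp)⟩, MonoidHom.mem_ker.2 (restrictHom_eq_one.2 g.2.2)⟩
        left_inv := fun g => rfl
        right_inv := fun g => rfl }
  have h := (octRestrict o).ker.card_mul_index
  rw [hk, Subgroup.index_ker, card_octK ho] at h
  have hperm : Nat.card (Equiv.Perm ↥o) = 40320 := by
    rw [Nat.card_perm, Nat.card_eq_fintype_card, Fintype.card_coe, ho.2]; rfl
  have h' := (octRestrict o).range.card_mul_index
  rw [hperm, show Nat.card (octRestrict o).range = 20160 by omega] at h'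
  exact Equiv.Perm.eq_alternatingGroup_of_index_eq_two (by omega)

theorem fix_outside_eq_one {o : Finset GolayPt} (ho : o ∈ octads) {p : GolayPt} (hp : p ∉ o) {g : P24}
    (hg : g ∈ M24) (hfix : ∀ q ∈ o, g q = q) (hgp : g p = p) : g = 1 := by
  obtain ⟨E, hEo, hE⟩ := Finset.exists_subset_card_eq (s := o) (n := 6) (by rw [ho.2]; norm_num)
  refine eq_one_of_six ho hE hEo hg (fun q hq => hfix q (hEo hq)) (X := {p})
    (by rw [Finset.smul_finset_singleton, Equiv.Perm.smul_def, hgp]) ((List.range 24).map fun i => 2 ^ i)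
    (fun n => Nat.beq (Nat.land n m24Oct) 0) (fun n hn => ?_) (fun h hh eo _ => ?_) (by decide +kernel)
  · obtain ⟨i, hi, rfl⟩ := List.mem_map.1 hn
    exact Nat.pow_lt_pow_right (by norm_num) (List.mem_range.1 hi)
  · have e : maskOf (h • ({p} : Finset GolayPt)) = 2 ^ ix (h p) := by
      refine setOfMask_inj (maskOf_lt _) (Nat.pow_lt_pow_right (by norm_num) (ix_lt _)) ?_
      rw [setOfMask_maskOf, setOfMask_two_pow (ix_lt _), pt_ix, Finset.smul_finset_singleton, Equiv.Perm.smul_def]
    refine ⟨List.mem_map.2 ⟨_, List.mem_range.2 (ix_lt _), e.symm⟩, ?_⟩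
    rw [e, Nat.beq_eq]
    show 2 ^ ix (h p) &&& m24Oct = 0
    refine Nat.eq_of_testBit_eq fun i => ?_
    rw [Nat.testBit_and, Nat.testBit_two_pow, Nat.zero_testBit, Bool.and_eq_false_iff]
    by_cases hi : ix (h p) = i
    · right
      subst hi
      rw [Bool.eq_false_iff]
      intro hb
      refine hp ?_
      have : h p ∈ baseOct := mem_setOfMask.2 hb
      rw [← eo] at this
      exact (Finset.smul_mem_smul_finset_iff h).1 this
    · left; simp [hi]

end CfsgLib.Spor
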