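import Mathlib
import Cfsg.Prelude.Def_Sporadic_a

/-!
Projective planes of order four described from a hyperoval.
-/

set_option autoImplicit false

namespace CfsgLib.Spor.PlaneFour
open Cfsg

variable {α : Type*} [Fintype α] [DecidableEq α] (hα : Fintype.card α = 21) {L : Set (Finset α)}
  (hL : IsSteinerSystem 2 5 L)

include hL

/-- The line through two points. -/
noncomputable def line (a b : α) : Finset α :=
  if h : a ≠ b then (hL.2 {a, b} (Finset.card_pair h)).choose else ∅

theorem line_spec {a b : α} (h : a ≠ b) : line hL a b ∈ L ∧ a ∈ line hL a b ∧ b ∈ line hL a b := by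
  rw [line, dif_pos h]
  obtain ⟨h1, h2⟩ := (hL.2 {a, b} (Finset.card_pair h)).choose_spec.1
  exact ⟨h1, h2 (by simp), h2 (by simp)⟩

theorem line_eq {a b : α} (h : a ≠ b) {l : Finset α} (hl : l ∈ L) (ha : a ∈ l) (hb : b ∈ l) :
    line hL a b = l := by
  obtain ⟨h1, h2, h3⟩ := line_spec hL h
  exact (hL.2 {a, b} (Finset.card_pair h)).unique ⟨h1, Finset.insert_subset h2 (Finset.singleton_subset_iff.2 h3)⟩
    ⟨hl, Finset.insert_subset ha (Finset.singleton_subset_iff.2 hb)⟩

theorem line_comm {a b : α} (h : a ≠ b) : line hL a b = line hL b a :=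
  line_eq hL h (line_spec hL h.symm).1 (line_spec hL h.symm).2.2 (line_spec hL h.symm).2.1

theorem lines_eq {l m : Finset α} (hl : l ∈ L) (hm : m ∈ L) {a b : α} (h : a ≠ b) (h1 : a ∈ l) (h2 : b ∈ l)
    (h3 : a ∈ m) (h4 : b ∈ m) : l = m :=
  (line_eq hL h hl h1 h2).symm.trans (line_eq hL h hm h3 h4)

/-- The lines through a point. -/
noncomputable def pencil (p : α) : Finset (Finset α) := (Finset.univ.erase p).image (line hL p)

theorem mem_pencil {p : α} {l : Finset α} : l ∈ pencil hL p ↔ l ∈ L ∧ p ∈ l := by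
  constructor
  · intro h
    obtain ⟨q, hq, rfl⟩ := Finset.mem_image.1 h
    exact ⟨(line_spec hL (Finset.ne_of_mem_erase hq).symm).1, (line_spec hL (Finset.ne_of_mem_erase hq).symm).2.1⟩
  · rintro ⟨hl, hp⟩
    obtain ⟨q, hq, hne⟩ := Finset.exists_mem_ne (by rw [hL.1 l hl]; norm_num : 1 < l.card) p
    exact Finset.mem_image.2 ⟨q, Finset.mem_erase.2 ⟨hne, Finset.mem_univ _⟩, line_eq hL hne.symm hl hp hq⟩

include hα in
theorem card_pencil (p : α) : (pencil hL p).card = 5 := by
  have h := Finset.card_eq_sum_card_image (line hL p) (Finset.univ.erase p)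
  have hfib : ∀ l ∈ pencil hL p, ((Finset.univ.erase p).filter fun q => line hL p q = l).card = 4 := by
    intro l hl
    obtain ⟨h1, h2⟩ := (mem_pencil hL).1 hl
    rw [show ((Finset.univ.erase p).filter fun q => line hL p q = l) = l.erase p from ?_,
      Finset.card_erase_of_mem h2, hL.1 l h1]
    ext q
    simp only [Finset.mem_filter, Finset.mem_erase, Finset.mem_univ, and_true]
    constructor
    · rintro ⟨hq, rfl⟩; exact ⟨hq, (line_spec hL hq.symm).2.2⟩
    · rintro ⟨hq, hql⟩; exact ⟨hq, line_eq hL hq.symm h1 h2 hql⟩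
  rw [Finset.card_erase_of_mem (Finset.mem_univ p), Finset.card_univ, hα] at h
  have : (21 - 1 : ℕ) = ∑ l ∈ pencil hL p, 4 := h.trans (Finset.sum_congr rfl hfib)
  rw [Finset.sum_const, smul_eq_mul] at this
  omega

include hα in
theorem meet {l m : Finset α} (hl : l ∈ L) (hm : m ∈ L) : ∃ q, q ∈ l ∧ q ∈ m := by
  by_cases hsub : m ⊆ l
  · obtain ⟨q, hq⟩ : m.Nonempty := Finset.card_pos.1 (by rw [hL.1 m hm]; norm_num)
    exact ⟨q, hsub hq, hq⟩
  obtain ⟨p, hpm, hpl⟩ := Finset.not_subset.1 hsub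
  have hne : ∀ x ∈ l, p ≠ x := fun x hx e => hpl (e ▸ hx)
  have hinj : Set.InjOn (line hL p) l := by
    intro x hx y hy e
    by_contra hxy
    have h1 := line_spec hL (hne x hx)
    have h2 := line_spec hL (hne y hy)
    exact hpl (lines_eq hL hl h1.1 hxy hx hy h1.2.2 (e ▸ h2.2.2) ▸ h1.2.1)
  have heq : l.image (line hL p) = pencil hL p := by
    refine Finset.eq_of_subset_of_card_le (fun t ht => ?_) ?_
    · obtain ⟨x, hx, rfl⟩ := Finset.mem_image.1 ht
      exact (mem_pencil hL).2 ⟨(line_spec hL (hne x hx)).1, (line_spec hL (hne x hx)).2.1⟩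
    · rw [card_pencil hα hL, Finset.card_image_of_injOn hinj, hL.1 l hl]
  have : m ∈ l.image (line hL p) := heq ▸ (mem_pencil hL).2 ⟨hm, hpm⟩
  obtain ⟨q, hq, rfl⟩ := Finset.mem_image.1 this
  exact ⟨q, hq, (line_spec hL (hne q hq)).2.2⟩

omit hL in
/-- At most two points of the set on each line. -/
def Indep (L : Set (Finset α)) (S : Finset α) : Prop := ∀ l ∈ L, (l ∩ S).card ≤ 2

omit hL in
theorem indep_mono {S T : Finset α} (h : S ⊆ T) (hT : Indep L T) : Indep L S := fun l hl =>
  (Finset.card_le_card (Finset.inter_subset_inter le_rfl h)).trans (hT l hl)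

theorem indep_off {S : Finset α} (hS : Indep L S) {a b c : α} (ha : a ∈ S) (hb : b ∈ S) (hc : c ∈ S) (hab : a ≠ b)
    (hca : c ≠ a) (hcb : c ≠ b) : c ∉ line hL a b := fun h => by
  obtain ⟨h1, h2, h3⟩ := line_spec hL hab
  have : ({a, b, c} : Finset α) ⊆ line hL a b ∩ S := by
    intro x hx
    simp only [Finset.mem_insert, Finset.mem_singleton] at hx
    rcases hx with rfl | rfl | rfl <;> simp [*]
  have h4 := (Finset.card_le_card this).trans (hS _ h1)
  rw [Finset.card_eq_three.2 ⟨a, b, c, hab, hca.symm, hcb.symm, rfl⟩] at h4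
  omega

/-- The points on no line joining two members. -/
noncomputable def free (S : Finset α) : Finset α := by
  classical
  exact Finset.univ.filter fun x => ∀ a ∈ S, ∀ b ∈ S, a ≠ b → x ∉ line hL a b

theorem mem_free {S : Finset α} {x : α} : x ∈ free hL S ↔ ∀ a ∈ S, ∀ b ∈ S, a ≠ b → x ∉ line hL a b := by
  classical
  simp [free]

theorem indep_insert {S : Finset α} (hS : Indep L S) {x : α} (hx : x ∈ free hL S) : Indep L (insert x S) := by
  intro l hl
  by_contra h
  push Not at h
  obtain ⟨a, b, c, ha, hb, hc, hab, hac, hbc⟩ := Finset.two_lt_card_iff.1 h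
  simp only [Finset.mem_inter, Finset.mem_insert] at ha hb hc
  have key : ∀ {u w : α}, u ∈ S → w ∈ S → u ≠ w → u ∈ l → w ∈ l → x ∉ l := fun {u w} hu hw hne h1 h2 hxl =>
    (mem_free hL).1 hx u hu w hw hne (by rw [line_eq hL hne hl h1 h2]; exact hxl)
  rcases ha.2 with rfl | ha'
  · exact key (hb.2.resolve_left hab.symm) (hc.2.resolve_left hac.symm) hbc hb.1 hc.1 ha.1
  rcases hb.2 with rfl | hb'
  · exact key ha' (hc.2.resolve_left hbc.symm) hac ha.1 hc.1 hb.1
  rcases hc.2 with rfl | hc'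
  · exact key ha' hb' hab ha.1 hb.1 hc.1
  · have : ({a, b, c} : Finset α) ⊆ l ∩ S := by
      intro y hy
      simp only [Finset.mem_insert, Finset.mem_singleton] at hy
      rcases hy with rfl | rfl | rfl <;> simp [*]
    have h4 := (Finset.card_le_card this).trans (hS _ hl)
    rw [Finset.card_eq_three.2 ⟨a, b, c, hab, hac, hbc, rfl⟩] at h4
    omega

theorem free_of_indep {S : Finset α} {x : α} (hxS : x ∉ S) (h : Indep L (insert x S)) : x ∈ free hL S :=
  (mem_free hL).2 fun a ha b hb hab => indep_off hL h (Finset.mem_insert_of_mem ha) (Finset.mem_insert_of_mem hb)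
    (Finset.mem_insert_self _ _) hab (fun e => hxS (e ▸ ha)) (fun e => hxS (e ▸ hb))

theorem free_not_mem {S : Finset α} (h2 : 2 ≤ S.card) {x : α} (hx : x ∈ free hL S) : x ∉ S := fun h => by
  obtain ⟨y, hy, hne⟩ := Finset.exists_mem_ne h2 x
  exact (mem_free hL).1 hx x h y hy hne.symm (line_spec hL hne.symm).2.1

theorem free_pair {a b : α} (hab : a ≠ b) : free hL {a, b} = Finset.univ \ line hL a b := by
  ext x
  simp only [mem_free, Finset.mem_insert, Finset.mem_singleton, Finset.mem_sdiff, Finset.mem_univ, true_and]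
  constructor
  · exact fun h => h a (Or.inl rfl) b (Or.inr rfl) hab
  · intro h u hu w hw hne
    rcases hu with rfl | rfl <;> rcases hw with rfl | rfl
    exacts [absurd rfl hne, h, line_comm hL hne ▸ h, absurd rfl hne]

include hα in
theorem card_free_three {S : Finset α} (hc : S.card = 3) (hS : Indep L S) : (free hL S).card = 9 := by
  obtain ⟨a, b, c, hab, hac, hbc, rfl⟩ := Finset.card_eq_three.1 hc
  have ma : a ∈ ({a, b, c} : Finset α) := by simp
  have mb : b ∈ ({a, b, c} : Finset α) := by simp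
  have mc : c ∈ ({a, b, c} : Finset α) := by simp
  obtain ⟨h1, a1, b1⟩ := line_spec hL hab
  obtain ⟨h2, a2, c2⟩ := line_spec hL hac
  obtain ⟨h3, b3, c3⟩ := line_spec hL hbc
  have hc1 := indep_off hL hS ma mb mc hab hac.symm hbc.symm
  have hb2 := indep_off hL hS ma mc mb hac hab.symm hbc
  have ha3 := indep_off hL hS mb mc ma hbc hab hac
  have e : free hL {a, b, c} = Finset.univ \ (line hL a b ∪ line hL a c ∪ line hL b c) := by
    ext x
    simp only [mem_free, Finset.mem_insert, Finset.mem_singleton, Finset.mem_sdiff, Finset.mem_univ, true_and,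
      Finset.mem_union]
    constructor
    · rintro h ((hx | hx) | hx)
      exacts [h a (Or.inl rfl) b (Or.inr (Or.inl rfl)) hab hx, h a (Or.inl rfl) c (Or.inr (Or.inr rfl)) hac hx,
        h b (Or.inr (Or.inl rfl)) c (Or.inr (Or.inr rfl)) hbc hx]
    · intro h u hu w hw hne hx
      apply h
      rcases hu with rfl | rfl | rfl <;> rcases hw with rfl | rfl | rfl
      exacts [absurd rfl hne, Or.inl (Or.inl hx), Or.inl (Or.inr hx), Or.inl (Or.inl (line_comm hL hne ▸ hx)),
        absurd rfl hne, Or.inr hx, Or.inl (Or.inr (line_comm hL hne ▸ hx)), Or.inr (line_comm hL hne ▸ hx),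
        absurd rfl hne]
  have i1 : line hL a b ∩ line hL a c = {a} := by
    refine Finset.eq_singleton_iff_unique_mem.2 ⟨by simp [a1, a2], fun x hx => ?_⟩
    simp only [Finset.mem_inter] at hx
    by_contra hne
    exact hb2 (lines_eq hL h1 h2 hne hx.1 a1 hx.2 a2 ▸ b1)
  have i2 : (line hL a b ∪ line hL a c) ∩ line hL b c = {b, c} := by
    ext x
    simp only [Finset.mem_inter, Finset.mem_union, Finset.mem_insert, Finset.mem_singleton]
    constructor
    · rintro ⟨hx | hx, hx'⟩
      · left; by_contra hne; exact hc1 (lines_eq hL h1 h3 hne hx b1 hx' b3 ▸ c3)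
      · right; by_contra hne; exact hb2 (lines_eq hL h2 h3 hne hx c2 hx' c3 ▸ b3)
    · rintro (rfl | rfl)
      exacts [⟨Or.inl b1, b3⟩, ⟨Or.inr c2, c3⟩]
  have u1 := Finset.card_union_add_card_inter (line hL a b) (line hL a c)
  rw [i1, Finset.card_singleton, hL.1 _ h1, hL.1 _ h2] at u1
  have u2 := Finset.card_union_add_card_inter (line hL a b ∪ line hL a c) (line hL b c)
  rw [i2, Finset.card_pair hbc, hL.1 _ h3] at u2
  rw [e, Finset.card_sdiff_of_subset (Finset.subset_univ _), Finset.card_univ, hα]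
  omega

include hα in
theorem free_four {S : Finset α} (hc : S.card = 4) (hS : Indep L S) :
    (free hL S).card = 2 ∧ ∀ e ∈ free hL S, ∀ f ∈ free hL S, e ≠ f → ∀ a ∈ S, a ∉ line hL e f := by
  classical
  suffices main : ∀ a ∈ S, (free hL S).card = 2 ∧ ∀ e ∈ free hL S, ∀ f ∈ free hL S, e ≠ f → a ∉ line hL e f by
    obtain ⟨a, ha⟩ : S.Nonempty := Finset.card_pos.1 (by omega)
    exact ⟨(main a ha).1, fun e he f hf hne b hb => (main b hb).2 e he f hf hne⟩
  intro a ha
  have h3 : (S.erase a).card = 3 := by rw [Finset.card_erase_of_mem ha, hc]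
  obtain ⟨b, c, d, hbc, hbd, hcd, hS3⟩ := Finset.card_eq_three.1 h3
  have hmem : ∀ x, x ∈ S ↔ x = a ∨ x = b ∨ x = c ∨ x = d := fun x => by
    rw [← Finset.insert_erase ha, hS3]; simp
  have hba : b ≠ a := Finset.ne_of_mem_erase (s := S) (by rw [hS3]; simp)
  have hca : c ≠ a := Finset.ne_of_mem_erase (s := S) (by rw [hS3]; simp)
  have hda : d ≠ a := Finset.ne_of_mem_erase (s := S) (by rw [hS3]; simp)
  have mb : b ∈ S := (hmem b).2 (by simp)
  have mc : c ∈ S := (hmem c).2 (by simp)
  have md : d ∈ S := (hmem d).2 (by simp)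
  set three : Finset (Finset α) := (S.erase a).image (line hL a) with hthree
  set rest := pencil hL a \ three with hrest
  have hrestcard : rest.card = 2 := by
    have hinj : Set.InjOn (line hL a) (S.erase a) := by
      intro x hx y hy e
      by_contra hxy
      have hxa := Finset.ne_of_mem_erase hx
      have hya := Finset.ne_of_mem_erase hy
      exact indep_off hL hS ha (Finset.mem_of_mem_erase hx) (Finset.mem_of_mem_erase hy) hxa.symm hya (Ne.symm hxy)
        (e ▸ (line_spec hL hya.symm).2.2)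
    have hsub : three ⊆ pencil hL a := fun l hl => by
      obtain ⟨x, hx, rfl⟩ := Finset.mem_image.1 hl
      exact Finset.mem_image.2 ⟨x, Finset.mem_erase.2 ⟨Finset.ne_of_mem_erase hx, Finset.mem_univ _⟩, rfl⟩
    rw [hrest, Finset.card_sdiff_of_subset hsub, card_pencil hα hL, hthree, Finset.card_image_of_injOn hinj, h3]
  have hrest_mem : ∀ {l}, l ∈ rest → l ∈ L ∧ a ∈ l ∧ ∀ x ∈ S, x ≠ a → x ∉ l := fun {l} hl => by
    obtain ⟨h1, h2⟩ := Finset.mem_sdiff.1 hl
    obtain ⟨hlL, hal⟩ := (mem_pencil hL).1 h1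
    exact ⟨hlL, hal, fun x hx hne hxl => h2 (Finset.mem_image.2 ⟨x, Finset.mem_erase.2 ⟨hne, hx⟩,
      line_eq hL hne.symm hlL hal hxl⟩)⟩
  have hone : ∀ l ∈ rest, (l ∩ free hL S).card = 1 := by
    intro l hl
    obtain ⟨hlL, hal, hoff⟩ := hrest_mem hl
    have hmeet : ∀ u ∈ S, ∀ w ∈ S, u ≠ a → w ≠ a → u ≠ w → ∃ q, q ∈ l ∧ q ≠ a ∧ q ∈ line hL u w := by
      intro u hu w hw hua hwa huw
      obtain ⟨q, q1, q2⟩ := meet hα hL hlL (line_spec hL huw).1
      exact ⟨q, q1, fun e => indep_off hL hS hu hw ha huw hua.symm hwa.symm (e ▸ q2), q2⟩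
    obtain ⟨q1, q1l, q1a, q1m⟩ := hmeet b mb c mc hba hca hbc
    obtain ⟨q2, q2l, q2a, q2m⟩ := hmeet b mb d md hba hda hbd
    obtain ⟨q3, q3l, q3a, q3m⟩ := hmeet c mc d md hca hda hcd
    have s1 := line_spec hL hbc
    have s2 := line_spec hL hbd
    have s3 := line_spec hL hcd
    have n12 : q1 ≠ q2 := fun e => by
      by_cases eb : q1 = b
      · exact hoff b mb hba (eb ▸ q1l)
      · exact indep_off hL hS mb md mc hbd hbc.symm hcd
          (lines_eq hL s1.1 s2.1 eb q1m s1.2.1 (e ▸ q2m) s2.2.1 ▸ s1.2.2)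
    have n13 : q1 ≠ q3 := fun e => by
      by_cases eb : q1 = c
      · exact hoff c mc hca (eb ▸ q1l)
      · exact indep_off hL hS mc md mb hcd hbc hbd
          (lines_eq hL s1.1 s3.1 eb q1m s1.2.2 (e ▸ q3m) s3.2.1 ▸ s1.2.1)
    have n23 : q2 ≠ q3 := fun e => by
      by_cases eb : q2 = d
      · exact hoff d md hda (eb ▸ q2l)
      · exact indep_off hL hS mc md mb hcd hbc hbd
          (lines_eq hL s2.1 s3.1 eb q2m s2.2.2 (e ▸ q3m) s3.2.2 ▸ s2.2.1)
    have e : l ∩ free hL S = l.erase a \ {q1, q2, q3} := by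
      ext x
      simp only [Finset.mem_inter, mem_free, Finset.mem_sdiff, Finset.mem_erase, Finset.mem_insert,
        Finset.mem_singleton]
      constructor
      · rintro ⟨hxl, hx⟩
        refine ⟨⟨fun e => hx a ha b mb hba.symm (e ▸ (line_spec hL hba.symm).2.1), hxl⟩, ?_⟩
        rintro (rfl | rfl | rfl)
        exacts [hx b mb c mc hbc q1m, hx b mb d md hbd q2m, hx c mc d md hcd q3m]
      · rintro ⟨⟨hxa, hxl⟩, hx⟩
        refine ⟨hxl, fun u hu w hw huw hxm => ?_⟩
        have su := line_spec hL huw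
        by_cases hua : u = a
        · subst hua
          exact hoff w hw huw.symm (lines_eq hL su.1 hlL hxa hxm su.2.1 hxl hal ▸ su.2.2)
        by_cases hwa : w = a
        · subst hwa
          exact hoff u hu huw (lines_eq hL su.1 hlL hxa hxm su.2.2 hxl hal ▸ su.2.1)
        have same : ∀ q, q ∈ l → q ∈ line hL u w → x = q := fun q hq hq' => by
          by_contra hne
          exact hoff u hu hua (lines_eq hL su.1 hlL hne hxm hq' hxl hq ▸ su.2.1)
        rcases (hmem u).1 hu with h | h | h | h <;> rcases (hmem w).1 hw with h' | h' | h' | h' <;> subst h <;>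
          subst h'
        all_goals first
          | exact absurd rfl huw
          | exact absurd rfl hua
          | exact absurd rfl hwa
          | exact hx (Or.inl (same q1 q1l q1m))
          | exact hx (Or.inr (Or.inl (same q2 q2l q2m)))
          | exact hx (Or.inr (Or.inr (same q3 q3l q3m)))
          | exact hx (Or.inl (same q1 q1l (line_comm hL hbc ▸ q1m)))
          | exact hx (Or.inr (Or.inl (same q2 q2l (line_comm hL hbd ▸ q2m))))
          | exact hx (Or.inr (Or.inr (same q3 q3l (line_comm hL hcd ▸ q3m))))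
    rw [e, Finset.card_sdiff_of_subset (by
      intro x hx
      simp only [Finset.mem_insert, Finset.mem_singleton] at hx
      rcases hx with rfl | rfl | rfl <;> simp [*]), Finset.card_erase_of_mem hal, hL.1 l hlL,
      Finset.card_eq_three.2 ⟨q1, q2, q3, n12, n13, n23, rfl⟩]
  have hcover : ∀ x ∈ free hL S, x ≠ a ∧ line hL a x ∈ rest := fun x hx => by
    have hxa : x ≠ a := fun e => free_not_mem hL (by omega) hx (e ▸ ha)
    refine ⟨hxa, Finset.mem_sdiff.2 ⟨Finset.mem_image.2 ⟨x, Finset.mem_erase.2 ⟨hxa, Finset.mem_univ _⟩, rfl⟩,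
      fun h => ?_⟩⟩
    obtain ⟨y, hy, e⟩ := Finset.mem_image.1 h
    exact (mem_free hL).1 hx a ha y (Finset.mem_of_mem_erase hy) (Finset.ne_of_mem_erase hy).symm
      (e ▸ (line_spec hL hxa.symm).2.2)
  have hfib : ∀ l ∈ rest, ((free hL S).filter fun x => line hL a x = l) = l ∩ free hL S := by
    intro l hl
    ext x
    simp only [Finset.mem_filter, Finset.mem_inter]
    constructor
    · rintro ⟨hx, rfl⟩; exact ⟨(line_spec hL (hcover x hx).1.symm).2.2, hx⟩
    · rintro ⟨hxl, hx⟩; exact ⟨hx, line_eq hL (hcover x hx).1.symm (hrest_mem hl).1 (hrest_mem hl).2.1 hxl⟩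
  refine ⟨?_, fun e he f hf hne hmema => ?_⟩
  · rw [Finset.card_eq_sum_card_fiberwise (f := line hL a) (t := rest) fun x hx => (hcover x hx).2,
      Finset.sum_congr rfl fun l hl => by rw [hfib l hl, hone l hl]]
    simp [hrestcard]
  · obtain ⟨hea, hel⟩ := hcover e he
    have hl := line_eq hL hea.symm (line_spec hL hne).1 hmema (line_spec hL hne).2.1
    have h1 := hone _ hel
    have : ({e, f} : Finset α) ⊆ line hL a e ∩ free hL S := by
      intro x hx
      simp only [Finset.mem_insert, Finset.mem_singleton] at hx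
      rcases hx with rfl | rfl
      · exact Finset.mem_inter.2 ⟨(line_spec hL hea.symm).2.2, he⟩
      · exact Finset.mem_inter.2 ⟨hl ▸ (line_spec hL hne).2.2, hf⟩
    have := Finset.card_le_card this
    rw [Finset.card_pair hne, h1] at this
    omega

include hα in
theorem hyperoval_unique {S : Finset α} (hc : S.card = 4) (hS : Indep L S) :
    ∃! H : Finset α, (H.card = 6 ∧ Indep L H) ∧ S ⊆ H := by
  obtain ⟨h2, hoff⟩ := free_four hα hL hc hS
  have hdis : Disjoint S (free hL S) :=
    Finset.disjoint_left.2 fun x hx hx' => free_not_mem hL (by omega) hx' hx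
  refine ⟨S ∪ free hL S, ⟨⟨?_, ?_⟩, Finset.subset_union_left⟩, ?_⟩
  · rw [Finset.card_union_of_disjoint hdis, hc, h2]
  · obtain ⟨e, f, hef, he⟩ := Finset.card_eq_two.1 h2
    have hee : e ∈ free hL S := by rw [he]; simp
    have hff : f ∈ free hL S := by rw [he]; simp
    have hE := indep_insert hL hS hee
    have hf' : f ∈ free hL (insert e S) := (mem_free hL).2 fun u hu w hw huw hfm => by
      rcases Finset.mem_insert.1 hu with rfl | hu' <;> rcases Finset.mem_insert.1 hw with rfl | hw'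
      · exact huw rfl
      · exact hoff u hee f hff hef w hw' (line_eq hL hef (line_spec hL huw).1 (line_spec hL huw).2.1 hfm ▸
          (line_spec hL huw).2.2)
      · exact hoff w hee f hff hef u hu' (line_eq hL hef (line_spec hL huw).1 (line_spec hL huw).2.2 hfm ▸
          (line_spec hL huw).2.1)
      · exact (mem_free hL).1 hff u hu' w hw' huw hfm
    have hI := indep_insert hL hE hf'
    rwa [he, show S ∪ {e, f} = insert f (insert e S) by ext x; simp; tauto]
  · rintro H ⟨⟨hH6, hH⟩, hsub⟩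
    refine (Finset.eq_of_subset_of_card_le (fun x hx => ?_) (by rw [Finset.card_union_of_disjoint hdis, hc, h2, hH6]))
    by_cases hxS : x ∈ S
    · exact Finset.mem_union_left _ hxS
    · exact Finset.mem_union_right _ (free_of_indep hL hxS (indep_mono (Finset.insert_subset hx hsub) hH))

section count

variable (L)

omit hL in
/-- The independent sets of a given size. -/
noncomputable def indepSets (k : ℕ) : Finset (Finset α) := by
  classical
  exact (Finset.univ.powersetCard k).filter (Indep L)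

variable {L}

omit hL in
theorem mem_indepSets {k : ℕ} {S : Finset α} : S ∈ indepSets L k ↔ S.card = k ∧ Indep L S := by
  classical
  simp [indepSets]

include hL in
theorem extend_count (k m : ℕ) (hk : 2 ≤ k) (h : ∀ S ∈ indepSets L k, (free hL S).card = m) :
    (indepSets L k).card * m = (indepSets L (k + 1)).card * (k + 1) := by
  classical
  refine Finset.card_mul_eq_card_mul (fun S T => S ⊆ T) (fun S hS => ?_) fun T hT => ?_
  · obtain ⟨hc, hi⟩ := mem_indepSets.1 hS
    rw [← h S hS, ← Finset.card_image_of_injOn (s := free hL S) (f := fun x => insert x S)]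
    · congr 1
      ext T
      simp only [Finset.bipartiteAbove, Finset.mem_filter, mem_indepSets, Finset.mem_image]
      constructor
      · rintro ⟨⟨hTc, hTi⟩, hST⟩
        obtain ⟨x, hx⟩ := Finset.card_eq_one.1 (show (T \ S).card = 1 by
          rw [Finset.card_sdiff_of_subset hST, hTc, hc]; omega)
        have hxT : x ∈ T \ S := by rw [hx]; simp
        have e : insert x S = T := by
          refine Finset.eq_of_subset_of_card_le (Finset.insert_subset (Finset.mem_sdiff.1 hxT).1 hST) ?_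
          rw [Finset.card_insert_of_notMem (Finset.mem_sdiff.1 hxT).2, hTc, hc]
        exact ⟨x, free_of_indep hL (Finset.mem_sdiff.1 hxT).2 (e ▸ hTi), e⟩
      · rintro ⟨x, hx, rfl⟩
        exact ⟨⟨by rw [Finset.card_insert_of_notMem (free_not_mem hL (by omega) hx), hc], indep_insert hL hi hx⟩,
          Finset.subset_insert _ _⟩
    · intro x hx y hy e
      have e' : insert x S = insert y S := e
      have : x ∈ insert y S := e' ▸ Finset.mem_insert_self x S
      exact (Finset.mem_insert.1 this).resolve_right (free_not_mem hL (by omega) hx)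
  · obtain ⟨hc, hi⟩ := mem_indepSets.1 hT
    have e : Finset.bipartiteBelow (fun S T => S ⊆ T) (indepSets L k) T = T.powersetCard k := by
      ext S
      simp only [Finset.bipartiteBelow, Finset.mem_filter, mem_indepSets, Finset.mem_powersetCard]
      exact ⟨fun h => ⟨h.2, h.1.1⟩, fun h => ⟨⟨h.2, indep_mono h.1 hi⟩, h.1⟩⟩
    rw [e, Finset.card_powersetCard, hc, Nat.choose_succ_self_right]

include hα in
theorem card_four : (indepSets L 4).card = 2520 := by
  classical
  have h2 : (indepSets L 2).card = 210 := by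
    have : indepSets L 2 = (Finset.univ : Finset α).powersetCard 2 := by
      ext S
      simp only [mem_indepSets, Finset.mem_powersetCard, Finset.subset_univ, true_and]
      exact ⟨fun h => h.1, fun h => ⟨h, fun l _ => (Finset.card_le_card Finset.inter_subset_right).trans h.le⟩⟩
    rw [this, Finset.card_powersetCard, Finset.card_univ, hα]
    decide
  have e2 := extend_count hL 2 16 le_rfl fun S hS => by
    obtain ⟨a, b, hab, rfl⟩ := Finset.card_eq_two.1 (mem_indepSets.1 hS).1
    rw [free_pair hL hab, Finset.card_sdiff_of_subset (Finset.subset_univ _), Finset.card_univ, hα,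
      hL.1 _ (line_spec hL hab).1]
  have e3 := extend_count hL 3 9 (by norm_num) fun S hS =>
    card_free_three hα hL (mem_indepSets.1 hS).1 (mem_indepSets.1 hS).2
  rw [h2] at e2
  norm_num at e2 e3 ⊢
  omega

include hα in
theorem card_hyperovals : (indepSets L 6).card = 168 := by
  classical
  have h := Finset.card_mul_eq_card_mul (s := indepSets L 4) (t := indepSets L 6) (m := 1) (n := 15)
    (fun S H => S ⊆ H) (fun S hS => ?_) (fun H hH => ?_)
  · rw [card_four hα hL] at h; omega
  · obtain ⟨H, hH, hu⟩ := hyperoval_unique hα hL (mem_indepSets.1 hS).1 (mem_indepSets.1 hS).2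
    refine Finset.card_eq_one.2 ⟨H, ?_⟩
    ext T
    simp only [Finset.bipartiteAbove, Finset.mem_filter, mem_indepSets, Finset.mem_singleton]
    exact ⟨fun h => hu T h, fun h => h ▸ hH⟩
  · obtain ⟨hc, hi⟩ := mem_indepSets.1 hH
    have e : Finset.bipartiteBelow (fun S T => S ⊆ T) (indepSets L 4) H = H.powersetCard 4 := by
      ext S
      simp only [Finset.bipartiteBelow, Finset.mem_filter, mem_indepSets, Finset.mem_powersetCard]
      exact ⟨fun h => ⟨h.2, h.1.1⟩, fun h => ⟨⟨h.2, indep_mono h.1 hi⟩, h.1⟩⟩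
    rw [e, Finset.card_powersetCard, hc]
    rfl

end count

section oval

variable {H : Finset α} (hH : H.card = 6 ∧ Indep L H)
include hα hH

theorem secant {l : Finset α} (hl : l ∈ L) {h : α} (hh : h ∈ l) (hhH : h ∈ H) :
    ∃ k ∈ H, k ≠ h ∧ l ∩ H = {h, k} := by
  have hinj : Set.InjOn (line hL h) (H.erase h) := by
    intro x hx y hy e
    by_contra hxy
    exact indep_off hL hH.2 hhH (Finset.mem_of_mem_erase hx) (Finset.mem_of_mem_erase hy)
      (Finset.ne_of_mem_erase hx).symm (Finset.ne_of_mem_erase hy) (Ne.symm hxy)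
      (e ▸ (line_spec hL (Finset.ne_of_mem_erase hy).symm).2.2)
  have heq : (H.erase h).image (line hL h) = pencil hL h := by
    refine Finset.eq_of_subset_of_card_le (fun t ht => ?_) ?_
    · obtain ⟨x, hx, rfl⟩ := Finset.mem_image.1 ht
      exact Finset.mem_image.2 ⟨x, Finset.mem_erase.2 ⟨Finset.ne_of_mem_erase hx, Finset.mem_univ _⟩, rfl⟩
    · rw [card_pencil hα hL, Finset.card_image_of_injOn hinj, Finset.card_erase_of_mem hhH, hH.1]
  obtain ⟨k, hk, rfl⟩ := Finset.mem_image.1 (heq.symm ▸ (mem_pencil hL).2 ⟨hl, hh⟩ : l ∈ _)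
  have hne := (Finset.ne_of_mem_erase hk).symm
  refine ⟨k, Finset.mem_of_mem_erase hk, hne.symm, (Finset.eq_of_subset_of_card_le ?_ ?_).symm⟩
  · intro x hx
    simp only [Finset.mem_insert, Finset.mem_singleton] at hx
    rcases hx with rfl | rfl
    · exact Finset.mem_inter.2 ⟨hh, hhH⟩
    · exact Finset.mem_inter.2 ⟨(line_spec hL hne).2.2, Finset.mem_of_mem_erase hk⟩
  · rw [Finset.card_pair hne]; exact hH.2 _ hl

include hL in
theorem exists_partner {x : α} (hx : x ∉ H) (h : ↥H) :
    ∃! k : ↥H, k ≠ h ∧ (k : α) ∈ line hL x h := by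
  have hne : x ≠ (h : α) := fun e => hx (e ▸ h.2)
  obtain ⟨hl, -, hhl⟩ := line_spec hL hne
  obtain ⟨k, hk, hkh, e⟩ := secant hα hL hH hl hhl h.2
  have hkl : k ∈ line hL x h := (Finset.mem_inter.1 (e.symm ▸ (by simp : k ∈ ({(h : α), k} : Finset α)))).1
  refine ⟨⟨k, hk⟩, ⟨fun e' => hkh (congrArg Subtype.val e'), hkl⟩, fun y hy => ?_⟩
  have : (y : α) ∈ ({(h : α), k} : Finset α) := e ▸ Finset.mem_inter.2 ⟨hy.2, y.2⟩
  simp only [Finset.mem_insert, Finset.mem_singleton] at this
  exact Subtype.ext (this.resolve_left fun e' => hy.1 (Subtype.ext e'))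

end oval

/-- Fixed-point-free involutions. -/
abbrev Pairing (T : Type*) := {f : Equiv.Perm T // f * f = 1 ∧ ∀ t, f t ≠ t}

/-- The pairing of the oval cut out by the lines through an outside point. -/
noncomputable def pairing {H : Finset α} (hH : H.card = 6 ∧ Indep L H) (x : {x : α // x ∉ H}) : Pairing ↥H := by
  have h := fun t => (exists_partner hα hL hH x.2 t).choose_spec
  let f : ↥H → ↥H := fun t => (exists_partner hα hL hH x.2 t).choose
  have hf : ∀ t, f (f t) = t := fun t => by
    have h1 := (h t).1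
    have hne : (x : α) ≠ t := fun e => x.2 (e ▸ t.2)
    have hne' : (x : α) ≠ f t := fun e => x.2 (e ▸ (f t).2)
    have e : line hL x (f t) = line hL x t :=
      line_eq hL hne' (line_spec hL hne).1 (line_spec hL hne).2.1 h1.2
    exact ((h (f t)).2 t ⟨h1.1.symm, e ▸ (line_spec hL hne).2.2⟩).symm
  exact ⟨⟨f, f, hf, hf⟩, Equiv.ext hf, fun t => (h t).1.1⟩

theorem pairing_iff {H : Finset α} (hH : H.card = 6 ∧ Indep L H) (x : {x : α // x ∉ H}) {h k : ↥H} (hne : h ≠ k) :
    (pairing hα hL hH x).1 h = k ↔ (x : α) ∈ line hL (h : α) k := by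
  have hs := (exists_partner hα hL hH x.2 h).choose_spec
  have hxh : (x : α) ≠ h := fun e => x.2 (e ▸ h.2)
  have hxk : (h : α) ≠ k := fun e => hne (Subtype.ext e)
  constructor
  · intro e
    have e' : (exists_partner hα hL hH x.2 h).choose = k := e
    have hm := hs.1.2
    rw [e'] at hm
    rw [line_eq hL hxk (line_spec hL hxh).1 (line_spec hL hxh).2.2 hm]
    exact (line_spec hL hxh).2.1
  · intro hx
    refine (hs.2 k ⟨hne.symm, ?_⟩).symm
    rw [line_eq hL hxh (line_spec hL hxk).1 hx (line_spec hL hxk).2.1]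
    exact (line_spec hL hxk).2.2

omit hL in
theorem card_pairing_six : Fintype.card (Pairing (Fin 6)) = 15 := by decide +kernel

theorem pairing_bijective {H : Finset α} (hH : H.card = 6 ∧ Indep L H) :
    Function.Bijective (pairing hα hL hH) := by
  classical
  have hcard : Fintype.card {x : α // x ∉ H} = Fintype.card (Pairing ↥H) := by
    rw [Fintype.card_subtype_compl, hα, Fintype.card_coe, hH.1]
    let e : ↥H ≃ Fin 6 := Fintype.equivFinOfCardEq (by rw [Fintype.card_coe, hH.1])
    have e2 : Pairing ↥H ≃ Pairing (Fin 6) := e.permCongr.subtypeEquiv fun f => by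
      constructor
      · rintro ⟨h1, h2⟩
        refine ⟨Equiv.ext fun t => ?_, fun t h => h2 (e.symm t) ?_⟩
        · have := Equiv.ext_iff.1 h1 (e.symm t)
          simp only [Equiv.Perm.mul_apply, Equiv.Perm.one_apply] at this
          simp [Equiv.permCongr_apply, this]
        · rw [Equiv.permCongr_apply] at h
          exact e.injective (by rw [h, Equiv.apply_symm_apply])
      · rintro ⟨h1, h2⟩
        refine ⟨Equiv.ext fun t => ?_, fun t h => h2 (e t) (by simp [Equiv.permCongr_apply, h])⟩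
        have := Equiv.ext_iff.1 h1 (e t)
        simpa [Equiv.permCongr_apply] using this
    rw [Fintype.card_congr e2, card_pairing_six]
  refine (Fintype.bijective_iff_injective_and_card _).2 ⟨fun x y e => ?_, hcard⟩
  by_contra hxy
  obtain ⟨h, hh⟩ : H.Nonempty := Finset.card_pos.1 (by omega)
  set f := (pairing hα hL hH x).1 with hf
  have hfy : (pairing hα hL hH y).1 = f := (congrArg Subtype.val e).symm
  have key : ∀ t : ↥H, (x : α) ∈ line hL (t : α) (f t) ∧ (y : α) ∈ line hL (t : α) (f t) := fun t => by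
    have hne : t ≠ f t := ((pairing hα hL hH x).2.2 t).symm
    exact ⟨(pairing_iff hα hL hH x hne).1 rfl, (pairing_iff hα hL hH y hne).1 (by rw [hfy])⟩
  have hne' : ∀ t : ↥H, (t : α) ≠ f t := fun t e' => (pairing hα hL hH x).2.2 t (Subtype.ext e').symm
  obtain ⟨k, hk, hk'⟩ : ∃ k, k ∈ H ∧ k ∉ ({h, (f ⟨h, hh⟩ : α)} : Finset α) := by
    by_contra hc
    push Not at hc
    have := (Finset.card_le_card hc).trans Finset.card_le_two
    omega
  have e1 := lines_eq hL (line_spec hL (hne' ⟨h, hh⟩)).1 (line_spec hL (hne' ⟨k, hk⟩)).1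
    (fun e' => hxy (Subtype.ext e')) (key ⟨h, hh⟩).1 (key ⟨h, hh⟩).2 (key ⟨k, hk⟩).1 (key ⟨k, hk⟩).2
  simp only [Finset.mem_insert, Finset.mem_singleton, not_or] at hk'
  exact indep_off hL hH.2 hh (f ⟨h, hh⟩).2 hk (hne' ⟨h, hh⟩) hk'.1 hk'.2
    (e1 ▸ (line_spec hL (hne' ⟨k, hk⟩)).2.1)

include hα in
theorem externals_le_two {H : Finset α} (hH : H.card = 6 ∧ Indep L H) {x : α} (hx : x ∉ H) (A : Finset (Finset α))
    (hA : ∀ l ∈ A, l ∈ L ∧ x ∈ l ∧ Disjoint l H) : A.card ≤ 2 := by
  classical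
  have hne : ∀ h ∈ H, x ≠ h := fun h hh e => hx (e ▸ hh)
  set Sec := H.image (line hL x) with hSec
  have hfib : H.card ≤ 2 * Sec.card := by
    refine Finset.card_le_mul_card_image H 2 fun l hl => ?_
    obtain ⟨h, hh, rfl⟩ := Finset.mem_image.1 hl
    refine le_trans (Finset.card_le_card fun k hk => ?_) (hH.2 _ (line_spec hL (hne h hh)).1)
    obtain ⟨hk1, hk2⟩ := Finset.mem_filter.1 hk
    exact Finset.mem_inter.2 ⟨hk2 ▸ (line_spec hL (hne k hk1)).2.2, hk1⟩
  have hdis : Disjoint A Sec := Finset.disjoint_left.2 fun l hlA hlS => by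
    obtain ⟨h, hh, rfl⟩ := Finset.mem_image.1 hlS
    exact Finset.disjoint_left.1 (hA _ hlA).2.2 (line_spec hL (hne h hh)).2.2 hh
  have hsub : A ∪ Sec ⊆ pencil hL x := Finset.union_subset
    (fun l hl => (mem_pencil hL).2 ⟨(hA l hl).1, (hA l hl).2.1⟩) fun l hl => by
      obtain ⟨h, hh, rfl⟩ := Finset.mem_image.1 hl
      exact (mem_pencil hL).2 ⟨(line_spec hL (hne h hh)).1, (line_spec hL (hne h hh)).2.1⟩
  have := Finset.card_le_card hsub
  rw [Finset.card_union_of_disjoint hdis, card_pencil hα hL] at this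
  have := hH.1
  omega

include hα in
theorem clique {H : Finset α} (hH : H.card = 6 ∧ Indep L H) {T : Finset α} (hT : T.card = 5)
    (hTH : ∀ t ∈ T, t ∉ H) (hext : ∀ s ∈ T, ∀ t ∈ T, s ≠ t → Disjoint (line hL s t) H) : T ∈ L := by
  classical
  obtain ⟨x, hx, y, hy, hxy⟩ := Finset.one_lt_card.1 (by omega : 1 < T.card)
  obtain ⟨hm, xm, ym⟩ := line_spec hL hxy
  suffices h : T ⊆ line hL x y by
    rwa [Finset.eq_of_subset_of_card_le h (by rw [hL.1 _ hm, hT])]
  intro z hz
  by_contra hzm
  have hzx : z ≠ x := fun e => hzm (e ▸ xm)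
  have hzy : z ≠ y := fun e => hzm (e ▸ ym)
  obtain ⟨w, hw, hw'⟩ : ∃ w ∈ T, w ∉ ({x, y, z} : Finset α) := by
    by_contra hc
    push Not at hc
    have := (Finset.card_le_card hc).trans Finset.card_le_three
    omega
  simp only [Finset.mem_insert, Finset.mem_singleton, not_or] at hw'
  obtain ⟨hwx, hwy, hwz⟩ := hw'
  have pigeon : ∀ p ∈ T, ∀ a ∈ T, ∀ b ∈ T, ∀ c ∈ T, p ≠ a → p ≠ b → p ≠ c → line hL p a ≠ line hL p b →
      line hL p c = line hL p a ∨ line hL p c = line hL p b := by
    intro p hp a ha b hb c hc hpa hpb hpc hab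
    by_contra hcon
    push Not at hcon
    have h3 := externals_le_two hα hL hH (hTH p hp) {line hL p a, line hL p b, line hL p c} (by
      intro l hl
      simp only [Finset.mem_insert, Finset.mem_singleton] at hl
      rcases hl with rfl | rfl | rfl
      exacts [⟨(line_spec hL hpa).1, (line_spec hL hpa).2.1, hext p hp a ha hpa⟩,
        ⟨(line_spec hL hpb).1, (line_spec hL hpb).2.1, hext p hp b hb hpb⟩,
        ⟨(line_spec hL hpc).1, (line_spec hL hpc).2.1, hext p hp c hc hpc⟩])
    rw [Finset.card_eq_three.2 ⟨_, _, _, hab, hcon.1.symm, hcon.2.symm, rfl⟩] at h3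
    omega
  have sxz := line_spec hL hzx.symm
  have syz := line_spec hL hzy.symm
  have nx : line hL x y ≠ line hL x z := fun e => hzm (e ▸ sxz.2.2)
  have ny : line hL y x ≠ line hL y z := fun e => hzm (line_comm hL hxy ▸ e ▸ syz.2.2)
  have nz : line hL z x ≠ line hL z y := fun e => by
    rw [← line_comm hL hzx.symm, ← line_comm hL hzy.symm] at e
    exact hzm (lines_eq hL hm sxz.1 hxy xm ym sxz.2.1 (e ▸ syz.2.1) ▸ sxz.2.2)
  by_cases hwm : w ∈ line hL x y
  · rcases pigeon z hz x hx y hy w hw hzx hzy (Ne.symm hwz) nz with e | e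
    · have h1 := line_spec hL hzx
      exact hzm (lines_eq hL hm h1.1 (Ne.symm hwx) xm hwm h1.2.2 (e ▸ (line_spec hL (Ne.symm hwz)).2.2) ▸ h1.2.1)
    · have h1 := line_spec hL hzy
      exact hzm (lines_eq hL hm h1.1 (Ne.symm hwy) ym hwm h1.2.2 (e ▸ (line_spec hL (Ne.symm hwz)).2.2) ▸ h1.2.1)
  · have ex : line hL x w = line hL x z :=
      (pigeon x hx y hy z hz w hw hxy hzx.symm (Ne.symm hwx) nx).resolve_left fun e =>
        hwm (e ▸ (line_spec hL (Ne.symm hwx)).2.2)
    have ey : line hL y w = line hL y z :=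
      (pigeon y hy x hx z hz w hw hxy.symm hzy.symm (Ne.symm hwy) ny).resolve_left fun e =>
        hwm (line_comm hL hxy ▸ e ▸ (line_spec hL (Ne.symm hwy)).2.2)
    have e' := lines_eq hL sxz.1 syz.1 hwz (ex ▸ (line_spec hL (Ne.symm hwx)).2.2) sxz.2.2
      (ey ▸ (line_spec hL (Ne.symm hwy)).2.2) syz.2.2
    exact hzm (lines_eq hL hm sxz.1 hxy xm ym sxz.2.1 (e' ▸ syz.2.1) ▸ sxz.2.2)

section iso

variable {β : Type*} [Fintype β] [DecidableEq β] (hβ : Fintype.card β = 21) {L' : Set (Finset β)}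
  (hL' : IsSteinerSystem 2 5 L') {H : Finset α} (hH : H.card = 6 ∧ Indep L H) {H' : Finset β}
  (hH' : H'.card = 6 ∧ Indep L' H')
include hα hβ hL hL' hH hH'

theorem exists_extension (φ : ↥H ≃ ↥H') :
    ∃ g : α ≃ β, (fun b => b.image g) '' L = L' ∧ ∀ p : ↥H, g p = φ p := by
  classical
  let C : Pairing ↥H ≃ Pairing ↥H' := φ.permCongr.subtypeEquiv fun f => by
    constructor
    · rintro ⟨h1, h2⟩
      refine ⟨Equiv.ext fun t => ?_, fun t h => h2 (φ.symm t) ?_⟩
      · have := Equiv.ext_iff.1 h1 (φ.symm t)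
        simp only [Equiv.Perm.mul_apply, Equiv.Perm.one_apply] at this
        simp [Equiv.permCongr_apply, this]
      · rw [Equiv.permCongr_apply] at h
        exact φ.injective (by rw [h, Equiv.apply_symm_apply])
    · rintro ⟨h1, h2⟩
      refine ⟨Equiv.ext fun t => ?_, fun t h => h2 (φ t) (by simp [Equiv.permCongr_apply, h])⟩
      have := Equiv.ext_iff.1 h1 (φ t)
      simpa [Equiv.permCongr_apply] using this
  let o : {x : α // x ∉ H} ≃ {y : β // y ∉ H'} :=
    ((Equiv.ofBijective _ (pairing_bijective hα hL hH)).trans C).trans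
      (Equiv.ofBijective _ (pairing_bijective hβ hL' hH')).symm
  have ho : ∀ x : {x : α // x ∉ H}, ∀ t : ↥H,
      (pairing hβ hL' hH' (o x)).1 (φ t) = φ ((pairing hα hL hH x).1 t) := fun x t => by
    have : pairing hβ hL' hH' (o x) = C (pairing hα hL hH x) :=
      (Equiv.ofBijective _ (pairing_bijective hβ hL' hH')).apply_symm_apply _
    rw [this]
    simp [C, Equiv.permCongr_apply]
  let g : α ≃ β := ((Equiv.sumCompl (· ∈ H)).symm.trans (Equiv.sumCongr φ o)).trans (Equiv.sumCompl (· ∈ H'))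
  have g1 : ∀ p : ↥H, g p = φ p := fun p => by simp [g]
  have g2 : ∀ x : {x : α // x ∉ H}, g x = o x := fun x => by
    simp [g, Equiv.sumCompl_symm_apply_of_neg x.2]
  have hmap : ∀ l ∈ L, l.image g ∈ L' := by
    intro l hl
    by_cases hsec : ∃ h, h ∈ l ∧ h ∈ H
    · obtain ⟨h, hhl, hhH⟩ := hsec
      obtain ⟨k, hkH, hkh, e⟩ := secant hα hL hH hl hhl hhH
      have hkl : k ∈ l := (Finset.mem_inter.1 (e.symm ▸ (by simp : k ∈ ({h, k} : Finset α)))).1
      have hne : φ ⟨h, hhH⟩ ≠ φ ⟨k, hkH⟩ := fun e' => hkh (congrArg Subtype.val (φ.injective e')).symm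
      obtain ⟨hm, m1, m2⟩ := line_spec hL' (fun e' => hne (Subtype.ext e'))
      suffices hle : l.image g ⊆ line hL' (φ ⟨h, hhH⟩ : β) (φ ⟨k, hkH⟩) by
        rwa [Finset.eq_of_subset_of_card_le hle
          (by rw [hL'.1 _ hm, Finset.card_image_of_injective _ g.injective, hL.1 l hl])]
      intro y hy
      obtain ⟨x, hx, rfl⟩ := Finset.mem_image.1 hy
      by_cases hxH : x ∈ H
      · have : x ∈ ({h, k} : Finset α) := e ▸ Finset.mem_inter.2 ⟨hx, hxH⟩
        simp only [Finset.mem_insert, Finset.mem_singleton] at this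
        rcases this with rfl | rfl
        · rw [g1 ⟨x, hhH⟩]; exact m1
        · rw [g1 ⟨x, hkH⟩]; exact m2
      · rw [g2 ⟨x, hxH⟩]
        refine (pairing_iff hβ hL' hH' _ hne).1 ?_
        rw [ho, (pairing_iff hα hL hH ⟨x, hxH⟩ (h := ⟨h, hhH⟩) (k := ⟨k, hkH⟩) (fun e' => hkh (congrArg Subtype.val e').symm)).2
          (by rw [line_eq hL (Ne.symm hkh) hl hhl hkl]; exact hx)]
    · push Not at hsec
      refine clique hβ hL' hH' (by rw [Finset.card_image_of_injective _ g.injective, hL.1 l hl]) ?_ ?_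
      · intro y hy
        obtain ⟨x, hx, rfl⟩ := Finset.mem_image.1 hy
        rw [g2 ⟨x, hsec x hx⟩]; exact (o _).2
      · intro y hy y' hy' hne
        obtain ⟨x, hx, rfl⟩ := Finset.mem_image.1 hy
        obtain ⟨x', hx', rfl⟩ := Finset.mem_image.1 hy'
        have hxx : x ≠ x' := fun e => hne (e ▸ rfl)
        obtain ⟨hm, m1, m2⟩ := line_spec hL' hne
        rw [Finset.disjoint_left]
        intro t ht htH
        obtain ⟨t', ht'H, ht't, e⟩ := secant hβ hL' hH' hm ht htH
        have ht' : t' ∈ line hL' (g x) (g x') := (Finset.mem_inter.1 (e.symm ▸ (by simp : t' ∈ ({t, t'} : Finset β)))).1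
        obtain ⟨p, hp⟩ := φ.surjective ⟨t, htH⟩
        obtain ⟨p', hp'⟩ := φ.surjective ⟨t', ht'H⟩
        have hpp : φ p ≠ φ p' := fun e' => ht't (by rw [hp, hp'] at e'; exact (congrArg Subtype.val e').symm)
        have hpp' : p ≠ p' := fun e' => hpp (congrArg φ e')
        have both : ∀ u, u ∈ l → g u ∈ line hL' (g x) (g x') → u ∈ line hL (p : α) p' := fun u hu hgu => by
          refine (pairing_iff hα hL hH ⟨u, hsec u hu⟩ hpp').1 (φ.injective ?_)
          rw [← ho]
          refine (pairing_iff hβ hL' hH' _ hpp).2 ?_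
          rw [← g2 ⟨u, hsec u hu⟩, line_eq hL' (fun e' => hpp (Subtype.ext e')) hm (by rw [hp]; exact ht)
            (by rw [hp']; exact ht')]
          exact hgu
        have hpl := line_spec hL (fun e' : (p : α) = p' => hpp' (Subtype.ext e'))
        exact hsec p (lines_eq hL hpl.1 hl hxx (both x hx m1) (both x' hx' m2) hx hx' ▸ hpl.2.1) p.2
  refine ⟨g, Set.Subset.antisymm (fun b ⟨l, hl, e⟩ => e ▸ hmap l hl) (fun b hb => ?_), g1⟩
  obtain ⟨u, hu, w, hw, huw⟩ := Finset.one_lt_card.1 (by rw [hL'.1 b hb]; norm_num : 1 < b.card)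
  have hne : g.symm u ≠ g.symm w := g.symm.injective.ne huw
  obtain ⟨hl, l1, l2⟩ := line_spec hL hne
  exact ⟨_, hl, lines_eq hL' (hmap _ hl) hb huw (Finset.mem_image.2 ⟨_, l1, g.apply_symm_apply u⟩)
    (Finset.mem_image.2 ⟨_, l2, g.apply_symm_apply w⟩) hu hw⟩

end iso

include hα in
theorem extension_unique {H : Finset α} (hH : H.card = 6 ∧ Indep L H) {g g' : α ≃ α}
    (hg : ∀ l ∈ L, l.image g ∈ L) (hg' : ∀ l ∈ L, l.image g' ∈ L) (he : ∀ p : ↥H, g p = g' p)
    (hgH : ∀ p : ↥H, g p ∈ H) : g = g' := by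
  have himg : H.image g = H := Finset.eq_of_subset_of_card_le
    (fun y hy => by obtain ⟨x, hx, rfl⟩ := Finset.mem_image.1 hy; exact hgH ⟨x, hx⟩)
    (by rw [Finset.card_image_of_injective _ g.injective])
  have hout : ∀ f : α ≃ α, (∀ p : ↥H, f p = g p) → ∀ x, x ∉ H → f x ∉ H := fun f hf x hx hfx => by
    obtain ⟨w, hw, e⟩ := Finset.mem_image.1 (himg.symm ▸ hfx : f x ∈ H.image g)
    rw [← hf ⟨w, hw⟩] at e
    exact hx (f.injective e ▸ hw)
  ext x
  by_cases hx : x ∈ H
  · exact he ⟨x, hx⟩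
  have h1 := hout g (fun _ => rfl) x hx
  have h2 := hout g' (fun p => (he p).symm) x hx
  have : (⟨g x, h1⟩ : {x : α // x ∉ H}) = ⟨g' x, h2⟩ := by
    refine (pairing_bijective hα hL hH).1 (Subtype.ext (Equiv.ext fun t => ?_))
    obtain ⟨s, hs, e⟩ := Finset.mem_image.1 (himg.symm ▸ t.2 : (t : α) ∈ H.image g)
    set k := (pairing hα hL hH ⟨x, hx⟩).1 ⟨s, hs⟩ with hk
    have hsk : (⟨s, hs⟩ : ↥H) ≠ k := ((pairing hα hL hH ⟨x, hx⟩).2.2 _).symm
    have hxl := (pairing_iff hα hL hH ⟨x, hx⟩ hsk).1 rfl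
    have hne : (s : α) ≠ k := fun e' => hsk (Subtype.ext e')
    obtain ⟨hl, l1, l2⟩ := line_spec hL hne
    have htk : t ≠ ⟨g k, hgH k⟩ := fun e' => hne (g.injective (e.trans (congrArg Subtype.val e')))
    have htk' : (t : α) ≠ g k := fun e' => htk (Subtype.ext e')
    rw [(pairing_iff hα hL hH ⟨g x, h1⟩ htk).2, (pairing_iff hα hL hH ⟨g' x, h2⟩ htk).2]
    · show g' x ∈ line hL (t : α) (g k)
      have es : g' s = t := (he ⟨s, hs⟩).symm.trans e
      rw [line_eq hL htk' (hg' _ hl) (Finset.mem_image.2 ⟨s, l1, es⟩) (Finset.mem_image.2 ⟨k, l2, (he k).symm⟩)]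
      exact Finset.mem_image_of_mem _ hxl
    · show g x ∈ line hL (t : α) (g k)
      rw [line_eq hL htk' (hg _ hl) (Finset.mem_image.2 ⟨s, l1, e⟩) (Finset.mem_image_of_mem _ l2)]
      exact Finset.mem_image_of_mem _ hxl
  exact congrArg Subtype.val this

end CfsgLib.Spor.PlaneFour
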