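import Cfsg.Agent.Lib.SporQuartetBase
import Cfsg.Agent.Lib.SporObjTrans
import Cfsg.Agent.Lib.SporElemTab
import Cfsg.Agent.Lib.SporObjWordsQuart

/-!
The stabiliser of a quartet: order and the map onto GL(2, 3).
-/

set_option autoImplicit false
set_option maxRecDepth 20000

namespace CfsgLib.Spor
open Cfsg
open scoped Pointwise Matrix
attribute [local irreducible] quartList hexList quartTab octList dodList triadObjs ptObjs

/-- The stabiliser of the base quartet and dodecad. -/
abbrev quartK : Subgroup P24 := stabL [quartBase, dodBase]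

theorem mem_quartK {g : P24} : g ∈ quartK ↔
    g ∈ M24 ∧ g • setOfMask 8419127 = setOfMask 8419127 ∧ g • setSet quartBase = setSet quartBase := by
  have e : g • setSet dodBase = setSet dodBase ↔ g • setOfMask 8419127 = setOfMask 8419127 := by
    rw [show setSet dodBase = famOne (setOfMask 8419127) from famOne_setSet _, ← famOne_smul,
      famOne_injective.eq_iff]
  rw [mem_stabL]
  refine and_congr_right fun _ => ⟨fun h => ⟨e.1 (h dodBase (by simp)), h quartBase (by simp)⟩, fun h B hB => ?_⟩
  rcases List.mem_cons.1 hB with rfl | hB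
  · exact h.2
  · rw [List.mem_singleton.1 hB]; exact e.2 h.1

theorem card_quartK : Nat.card quartK = 432 := by
  have h1 := card_eq_ncard_mul (stabL []) (setSet dodBase) (famOne '' dodecads) (fun g hg => ?_) (fun y hy => ?_)
  · have h2 := card_eq_ncard_mul (stabL [dodBase]) (setSet quartBase) (quartets (setOfMask 8419127))
      (fun g hg => ?_) (fun y hy => ?_)
    · have n1 : (quartets (setOfMask 8419127)).ncard = 220 := by
        have := quartets_ncard M24.one_mem (fun _ => True) (fun _ => true) (by simp)
        simpa [one_smul, show quartList.length = 220 by decide +kernel] using this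
      rw [Set.ncard_image_of_injective _ famOne_injective, dodCoded.ncard_univ,
        show dodObjs.length = 2576 by decide +kernel, show Nat.card (stabL []) = 244823040 from card_M24] at h1
      rw [n1] at h2
      show Nat.card ↥(stabL [dodBase] ⊓ MulAction.stabilizer P24 (setSet quartBase)) = 432
      have h1' : 244823040 = 2576 * Nat.card ↥(stabL [dodBase]) := h1
      omega
    · obtain ⟨hgM, hfix⟩ := mem_stabL.1 hg
      have hd := hfix dodBase (by simp)
      simp only [dodBase, famOne_setSet] at hd
      rw [← famOne_smul, famOne_injective.eq_iff] at hd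
      have := smul_mem_quartets hgM (quartets_base.2 ⟨quartBase, quartBase_mem, rfl⟩)
      rwa [hd] at this
    · obtain ⟨X, hX, rfl⟩ := quartets_base.1 hy
      obtain ⟨g, hg, hfix, eg⟩ := quart_conj quartTrans_stab quartTrans_classes M24.one_mem quartBase_mem hX rfl
      rw [one_smul, one_smul] at eg
      exact ⟨g, mem_stabL.2 ⟨hg, fun B hB => by simpa using hfix B hB⟩, eg⟩
  · refine ⟨g • setOfMask 8419127, smul_mem_dodecads hg ?_, ?_⟩
    · have := dodCoded.one_mem M24.one_mem (m := 8419127) bases_mem.2.2.2.1
      simpa using this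
    · rw [famOne_smul, ← famOne_setSet]; rfl
  · obtain ⟨d, hd, rfl⟩ := hy
    obtain ⟨b, hb, e⟩ := dodCoded.exists_base trDod_stab trDod_trans bases_mem.2.2.2.1 hd
    exact ⟨b, hb, e.symm⟩

theorem quartTab_ok : slpOK 3 quartTab = true ∧ rowsDistinct quartTab = true ∧ quartTab.length = 432 ∧
    stabOK [quartBase, dodBase] [row quartTab 0, row quartTab 1, row quartTab 2] = true := by decide +kernel

theorem quartTab_gen : ∀ k < 3, ∃ g ∈ quartK, Rep g (row quartTab k) := by
  intro k hk
  obtain ⟨g, hg, -, hr⟩ := stabOK_spec quartTab_ok.2.2.2 (row quartTab k) (by interval_cases k <;> simp)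
  exact ⟨g, hg, hr⟩

/-- The list of the translation with given coordinates. -/
def nineL (v : Fin 2 → ZMod 3) : List ℕ := quartNine.getD (3 * (v 0).val + (v 1).val) []

/-- The translation with given coordinates. -/
noncomputable def nineP (v : Fin 2 → ZMod 3) : P24 := permOf (nineL v)

theorem nine_ok : (∀ v : Fin 2 → ZMod 3, validL (nineL v) = true) ∧
    (∀ v w : Fin 2 → ZMod 3, nineL v = nineL w → v = w) := by decide +kernel

/-- The matrix of a generator. -/
def genMat (k : ℕ) : Matrix (Fin 2) (Fin 2) (ZMod 3) :=
  Matrix.of fun i j => (((quartMats.getD k []).getD (2 * i.val + j.val) 0 : ℕ) : ZMod 3)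

theorem gen_conj : ∀ k ∈ List.range 3, ∀ v : Fin 2 → ZMod 3,
    mulL (row quartTab k) (nineL v) = mulL (nineL (genMat k *ᵥ v)) (row quartTab k) := by decide +kernel

theorem nineP_inj {v w : Fin 2 → ZMod 3} (e : nineP v = nineP w) : v = w := by
  refine nine_ok.2 v w ?_
  have hl : ∀ u, (nineL u).length = 24 := fun u => by
    have := nine_ok.1 u
    simp only [validL, Bool.and_eq_true, Nat.beq_eq] at this
    exact this.1.1
  refine List.ext_getElem (by rw [hl, hl]) fun i h1 h2 => ?_
  have a := rep_permOf (nine_ok.1 v) (pt i)
  have b := rep_permOf (nine_ok.1 w) (pt i)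
  rw [ix_pt (hl v ▸ h1), List.getD_eq_getElem _ _ h1] at a
  rw [ix_pt (hl v ▸ h1), List.getD_eq_getElem _ _ h2] at b
  have e' : permOf (nineL v) = permOf (nineL w) := e
  rw [← a, ← b, e']

/-- The element permutes the translations linearly by the matrix. -/
def LinBy (g : P24) (M : Matrix (Fin 2) (Fin 2) (ZMod 3)) : Prop := ∀ v, g * nineP v = nineP (M *ᵥ v) * g

theorem linBy_one : LinBy 1 1 := fun v => by simp

theorem linBy_mul {g h : P24} {M N : Matrix (Fin 2) (Fin 2) (ZMod 3)} (hg : LinBy g M) (hh : LinBy h N) :
    LinBy (g * h) (M * N) := fun v => by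
  rw [mul_assoc, hh v, ← mul_assoc, hg, ← Matrix.mulVec_mulVec, mul_assoc]

theorem linBy_unique {g : P24} {M N : Matrix (Fin 2) (Fin 2) (ZMod 3)} (hM : LinBy g M) (hN : LinBy g N) : M = N := by
  ext i j
  have h := nineP_inj (mul_right_cancel ((hM (Pi.single j 1)).symm.trans (hN (Pi.single j 1))))
  have h' := congrFun h i
  simpa [Matrix.mulVec_single] using h'

/-- The elements acting linearly. -/
noncomputable def linGroup : Subgroup P24 :=
  subgroupOfProp (fun g => ∃ M, LinBy g M) ⟨1, linBy_one⟩
    fun _ _ ⟨M, hM⟩ ⟨N, hN⟩ => ⟨M * N, linBy_mul hM hN⟩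

theorem quartK_lin {g : P24} (hg : g ∈ quartK) : ∃ M, LinBy g M := by
  obtain ⟨k, hk, hr⟩ := exists_row quartTab_ok.1 quartTab_gen quartTab_ok.2.1
    (card_quartK.trans quartTab_ok.2.2.1.symm) g hg
  have hgen : ∀ k < 3, ∃ g ∈ linGroup, Rep g (row quartTab k) := by
    intro k hk
    obtain ⟨g, -, hr⟩ := quartTab_gen k hk
    refine ⟨g, ⟨genMat k, fun v => ?_⟩, hr⟩
    have hl : ∀ u, (nineL u).length = 24 := fun u => by
      have := nine_ok.1 u
      simp only [validL, Bool.and_eq_true, Nat.beq_eq] at this
      exact this.1.1
    have hlr : (row quartTab k).length = 24 := by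
      have h3 : k < quartTab.length := by rw [quartTab_ok.2.2.1]; omega
      have := List.all_eq_true.1 quartTab_ok.1 k (List.mem_range.2 h3)
      simp only [Bool.and_eq_true, Nat.beq_eq] at this
      exact this.1
    have a := Rep.mul (hl v) hr (rep_permOf (nine_ok.1 v))
    have b := Rep.mul hlr (rep_permOf (nine_ok.1 (genMat k *ᵥ v))) hr
    rw [gen_conj k (List.mem_range.2 hk) v] at a
    exact a.ext b
  obtain ⟨g', hg', hr'⟩ := slp_sound quartTab_ok.1 hgen k hk
  rw [hr.ext hr']
  exact hg'

/-- The linear action on the translations. -/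
noncomputable def quartMatHom : quartK →* Matrix (Fin 2) (Fin 2) (ZMod 3) where
  toFun g := (quartK_lin g.2).choose
  map_one' := linBy_unique (quartK_lin (1 : quartK).2).choose_spec linBy_one
  map_mul' g h := linBy_unique (quartK_lin (g * h).2).choose_spec
    (linBy_mul (quartK_lin g.2).choose_spec (quartK_lin h.2).choose_spec)

/-- The map onto the general linear group. -/
noncomputable def quartGL : quartK →* GL (Fin 2) (ZMod 3) := quartMatHom.toHomUnits

theorem card_quartGL_ker : Nat.card quartGL.ker = 9 := by
  have hc : ∀ g : quartK, g ∈ quartGL.ker ↔ ∀ v, (g : P24) * nineP v = nineP v * g := by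
    intro g
    rw [MonoidHom.mem_ker, Units.ext_iff]
    constructor
    · intro e v
      have := (quartK_lin g.2).choose_spec v
      rw [show (quartK_lin g.2).choose = 1 from e, Matrix.one_mulVec] at this
      exact this
    · intro h
      exact linBy_unique (quartK_lin g.2).choose_spec fun v => by rw [Units.val_one, Matrix.one_mulVec]; exact h v
  calc Nat.card quartGL.ker = Nat.card {g : P24 // g ∈ quartK ∧ ∀ v, g * nineP v = nineP v * g} :=
        Nat.card_congr
          { toFun := fun g => ⟨g.1.1, g.1.2, (hc g.1).1 g.2⟩
            invFun := fun g => ⟨⟨g.1, g.2.1⟩, (hc ⟨g.1, g.2.1⟩).2 g.2.2⟩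
            left_inv := fun g => rfl
            right_inv := fun g => rfl }
    _ = (List.range quartTab.length).countP fun k =>
          decide (∀ v : Fin 2 → ZMod 3, mulL (row quartTab k) (nineL v) = mulL (nineL v) (row quartTab k)) := by
        refine card_subtype_rows quartTab_ok.1 quartTab_gen quartTab_ok.2.1 (card_quartK.trans quartTab_ok.2.2.1.symm)
          _ (fun L => decide (∀ v : Fin 2 → ZMod 3, mulL L (nineL v) = mulL (nineL v) L)) fun g _ k hk hr => ?_
        have hlr : (row quartTab k).length = 24 := by
          have := List.all_eq_true.1 quartTab_ok.1 k (List.mem_range.2 hk)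
          simp only [Bool.and_eq_true, Nat.beq_eq] at this
          exact this.1
        have hl : ∀ u, (nineL u).length = 24 := fun u => by
          have := nine_ok.1 u
          simp only [validL, Bool.and_eq_true, Nat.beq_eq] at this
          exact this.1.1
        rw [decide_eq_true_iff]
        refine forall_congr' fun v => ?_
        have a := Rep.mul (hl v) hr (rep_permOf (nine_ok.1 v))
        have b := Rep.mul hlr (rep_permOf (nine_ok.1 v)) hr
        constructor
        · intro e; rw [e] at a; exact a.ext b
        · intro e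
          have e' : g * permOf (nineL v) = permOf (nineL v) * g := e
          rw [e'] at a
          refine List.ext_getElem (by simp [mulL, hl, hlr]) fun i h1 h2 => ?_
          have hi : i < 24 := by simpa [mulL, hl] using h1
          have a' := a (pt i)
          have b' := b (pt i)
          rw [ix_pt hi, List.getD_eq_getElem _ _ h1] at a'
          rw [ix_pt hi, List.getD_eq_getElem _ _ h2] at b'
          rw [← a', ← b']
    _ = 9 := by decide +kernel

theorem quartGL_surjective : Function.Surjective quartGL := by
  have h := quartGL.ker.card_mul_index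
  rw [Subgroup.index_ker, card_quartGL_ker, card_quartK] at h
  have hg : Nat.card (GL (Fin 2) (ZMod 3)) = 48 := by
    rw [Matrix.card_GL_field]
    simp [Fin.prod_univ_two]
  rw [← MonoidHom.range_eq_top]
  exact Subgroup.eq_top_of_card_eq _ (by omega)

end CfsgLib.Spor
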