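import Cfsg.Agent.Lib.SporObjPoint
import Cfsg.Agent.Lib.SporObjTrans
import Cfsg.Agent.Lib.SporElemTab
import Cfsg.Agent.Lib.SporObjWordsQuart

/-!
The quartets of a dodecad and the stabiliser of one of them.
-/

set_option autoImplicit false
set_option maxRecDepth 20000

namespace CfsgLib.Spor
open Cfsg
open scoped Pointwise Matrix
attribute [local irreducible] quartList hexList quartTab octList dodList triadObjs ptObjs

/-- Is the mask a hexad on the base dodecad? -/
def isHexD (m : ℕ) : Bool := memL m hexList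

theorem hexList_ok : (octList.all fun o => !Nat.beq (wt (Nat.land o 8419127)) 6 || memL (Nat.land o 8419127) hexList) = true ∧
    (hexList.all fun m => Nat.beq (wt m) 6 && octList.any fun o => Nat.beq (Nat.land o 8419127) m) = true := by
  decide +kernel

theorem mem_hexadsOn_base {s : Finset GolayPt} :
    s ∈ hexadsOn (setOfMask 8419127) ↔ memL (maskOf s) hexList = true := by
  obtain ⟨h1, h2⟩ := hexList_ok
  simp only [List.all_eq_true, Bool.or_eq_true, Bool.and_eq_true, Nat.beq_eq, List.any_eq_true, Bool.not_eq_true'] at h1 h2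
  constructor
  · rintro ⟨hc, o, ho, rfl⟩
    obtain ⟨m, hm, rfl⟩ : ∃ m, m ∈ octList ∧ o = setOfMask m :=
      ⟨maskOf o, mem_octList.1 ho, (setOfMask_maskOf o).symm⟩
    rw [← setOfMask_and, card_setOfMask] at hc
    rw [← setOfMask_and, maskOf_setOfMask (lt_of_le_of_lt Nat.and_le_right (by norm_num))]
    refine (h1 m hm).resolve_left fun e => ?_
    rw [Bool.eq_false_iff] at e
    exact e (by rw [Nat.beq_eq]; exact hc)
  · intro h
    obtain ⟨hw, o, ho, e⟩ := h2 _ (memL_iff.1 h)
    refine ⟨by rw [← setOfMask_maskOf s, card_setOfMask]; exact hw, setOfMask o,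
      mem_octList.2 (by rwa [maskOf_setOfMask (weightMasks_lt 8 o (octList_eq ▸ ho))]), ?_⟩
    rw [← setOfMask_and, show o &&& 8419127 = Nat.land o 8419127 from rfl, e, setOfMask_maskOf]

/-- The triples inside the base dodecad. -/
def triD : List ℕ := (triadObjs.map fun X => X.headD 0).filter fun m => Nat.beq (Nat.land 8419127 m) m

/-- The recipe of the quartets. -/
noncomputable def quartGen : List (List ℕ) :=
  (triD.filter fun t => t.testBit 23).flatMap fun t =>
    (triD.filter fun u => Nat.beq (Nat.land u t) 0 && isHexD (t ||| u)).flatMap fun u =>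
      ((triD.filter fun u' => Nat.beq (Nat.land u' t) 0 && isHexD (t ||| u')).filter fun v =>
        forceNat (8419127 ^^^ t ^^^ u ^^^ v) fun w => Nat.blt u v && Nat.beq (Nat.land u v) 0 && Nat.blt v w &&
          isHexD (u ||| v) && isHexD (u ||| w) && isHexD (v ||| w) && isHexD (t ||| w)).map fun v =>
        [t, u, v, 8419127 ^^^ t ^^^ u ^^^ v]

theorem quartGen_eq : quartGen = quartList := by decide +kernel

theorem quart_ok : (quartList.all fun X => niceL X && Nat.beq X.length 4 &&
    (X.all fun t => Nat.beq (wt t) 3 && Nat.beq (Nat.land 8419127 t) t) &&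
    X.all fun a => X.all fun b => Nat.beq a b || isHexD (a ||| b)) = true := by decide +kernel

theorem quart_nodup : (quartList.map fun X => keyL X).Nodup := by decide +kernel

theorem quart_spec {X : List ℕ} (hX : X ∈ quartList) : niceL X = true ∧ X.length = 4 ∧
    (∀ t ∈ X, wt t = 3 ∧ 8419127 &&& t = t) ∧ ∀ a ∈ X, ∀ b ∈ X, a = b ∨ isHexD (a ||| b) = true := by
  have h := List.all_eq_true.1 quart_ok X hX
  simp only [Bool.and_eq_true, Nat.beq_eq, List.all_eq_true, Bool.or_eq_true] at h
  exact ⟨h.1.1.1, h.1.1.2, h.1.2, h.2⟩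

theorem quartets_base {Q : Fam} : Q ∈ quartets (setOfMask 8419127) ↔ ∃ X ∈ quartList, Q = setSet X := by
  constructor
  · rintro ⟨hc, h3, hu⟩
    have hdis : ∀ t ∈ Q, ∀ u ∈ Q, t ≠ u → Disjoint t u := by
      intro t ht u hu' hne
      have e := Finset.card_union_add_card_inter t u
      rw [(hu t ht u hu' hne).1, (h3 t ht).1, (h3 u hu').1] at e
      exact Finset.disjoint_iff_inter_eq_empty.2 (Finset.card_eq_zero.1 (by omega))
    have hcov : Q.biUnion id = setOfMask 8419127 := by
      refine Finset.eq_of_subset_of_card_le (Finset.biUnion_subset.2 fun t ht => (h3 t ht).2) ?_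
      rw [show Q.biUnion id = Q.biUnion (fun t => t) from rfl,
        Finset.card_biUnion fun t ht u hu' hne => hdis t ht u hu' hne,
        Finset.sum_congr rfl fun t ht => (h3 t ht).1, Finset.sum_const, hc, card_setOfMask]
      decide +kernel
    obtain ⟨T, hT, hn⟩ : ∃ T ∈ Q, none ∈ T := by
      have h : (none : GolayPt) ∈ setOfMask 8419127 := by decide +kernel
      rw [← hcov] at h
      simpa using h
    obtain ⟨A, B, C, hAB, hAC, hBC, hrest⟩ := Finset.card_eq_three.1
      (show (Q.erase T).card = 3 by rw [Finset.card_erase_of_mem hT, hc])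
    have hQ : Q = {T, A, B, C} := by
      rw [← Finset.insert_erase hT, hrest]
    have key : ∀ U V W, Q = {T, U, V, W} → U ≠ T → V ≠ T → W ≠ T → U ≠ V → U ≠ W → V ≠ W →
        maskOf U < maskOf V → maskOf V < maskOf W → ∃ X ∈ quartList, Q = setSet X := by
      intro U V W e nU nV nW hUV hUW hVW l1 l2
      have mT : T ∈ Q := hT
      have mU : U ∈ Q := by rw [e]; simp
      have mV : V ∈ Q := by rw [e]; simp
      have mW : W ∈ Q := by rw [e]; simp
      have htri : ∀ s ∈ Q, maskOf s ∈ triD := by
        intro s hs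
        obtain ⟨m, hm, em⟩ := triadCoded.one_code M24.one_mem ((h3 s hs).1 : s.card = 3)
        rw [one_smul] at em
        have hml := objs_small triadCoded hm
        rw [em, maskOf_setOfMask hml]
        refine List.mem_filter.2 ⟨List.mem_map.2 ⟨[m], hm, rfl⟩, ?_⟩
        rw [Nat.beq_eq]
        have h := (h3 s hs).2
        rw [em, ← one_smul P24 (setOfMask m), ← one_smul P24 (setOfMask 8419127), subset_smul_mask hml] at h
        exact h
      have hand : ∀ {s u}, s ∈ Q → u ∈ Q → s ≠ u → Nat.land (maskOf s) (maskOf u) = 0 :=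
        fun hs hu' hne => and_of_disjoint (hdis _ hs _ hu' hne)
      have hhex : ∀ {s u}, s ∈ Q → u ∈ Q → s ≠ u → isHexD (maskOf s ||| maskOf u) = true := by
        intro s u hs hu' hne
        have := mem_hexadsOn_base.1 (hu s hs u hu' hne)
        rwa [show maskOf (s ∪ u) = maskOf s ||| maskOf u from setOfMask_inj (maskOf_lt _)
          (Nat.or_lt_two_pow (maskOf_lt _) (maskOf_lt _)) (by rw [setOfMask_or]; simp)] at this
      have hW : maskOf W = 8419127 ^^^ maskOf T ^^^ maskOf U ^^^ maskOf V := by
        refine setOfMask_inj (maskOf_lt W) (Nat.xor_lt_two_pow (Nat.xor_lt_two_pow (Nat.xor_lt_two_pow (by norm_num)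
          (maskOf_lt T)) (maskOf_lt U)) (maskOf_lt V)) ?_
        rw [setOfMask_maskOf]
        ext x
        have hx := Finset.ext_iff.1 hcov x
        rw [e] at hx
        simp only [Finset.mem_biUnion, Finset.mem_insert, Finset.mem_singleton, id, exists_eq_or_imp,
          exists_eq_left] at hx
        have hb : ∀ s : Finset GolayPt, (maskOf s).testBit (ix x) = decide (x ∈ s) := fun s =>
          Bool.eq_iff_iff.2 ((mem_setOfMask.symm.trans (Finset.ext_iff.1 (setOfMask_maskOf s) x)).trans
            decide_eq_true_iff.symm)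
        have d1 : x ∈ T → x ∉ U := fun h => Finset.disjoint_left.1 (hdis T mT U mU nU.symm) h
        have d2 : x ∈ T → x ∉ V := fun h => Finset.disjoint_left.1 (hdis T mT V mV nV.symm) h
        have d3 : x ∈ T → x ∉ W := fun h => Finset.disjoint_left.1 (hdis T mT W mW nW.symm) h
        have d4 : x ∈ U → x ∉ V := fun h => Finset.disjoint_left.1 (hdis U mU V mV hUV) h
        have d5 : x ∈ U → x ∉ W := fun h => Finset.disjoint_left.1 (hdis U mU W mW hUW) h
        have d6 : x ∈ V → x ∉ W := fun h => Finset.disjoint_left.1 (hdis V mV W mW hVW) h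
        rw [mem_setOfMask] at hx
        simp only [mem_setOfMask, Nat.testBit_xor, hb]
        have key4 : ∀ d t u v w : Bool, ((t = true ∨ u = true ∨ v = true ∨ w = true) ↔ d = true) →
            (t = true → ¬ u = true) → (t = true → ¬ v = true) → (t = true → ¬ w = true) → (u = true → ¬ v = true) →
            (u = true → ¬ w = true) → (v = true → ¬ w = true) → (w = true ↔ (((d ^^ t) ^^ u) ^^ v) = true) := by
          intro d t u v w
          cases d <;> cases t <;> cases u <;> cases v <;> cases w <;> simp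
        simpa using key4 _ (decide (x ∈ T)) (decide (x ∈ U)) (decide (x ∈ V)) (decide (x ∈ W)) (by simpa using hx)
          (by simpa using d1) (by simpa using d2) (by simpa using d3) (by simpa using d4) (by simpa using d5)
          (by simpa using d6)
      refine ⟨[maskOf T, maskOf U, maskOf V, 8419127 ^^^ maskOf T ^^^ maskOf U ^^^ maskOf V], ?_, ?_⟩
      · rw [← quartGen_eq]
        simp only [quartGen, List.mem_flatMap, List.mem_filter, List.mem_map, Bool.and_eq_true, Nat.beq_eq,
          Nat.blt_eq, forceNat_eq]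
        refine ⟨maskOf T, ⟨htri T mT, ?_⟩, maskOf U, ⟨htri U mU, hand mU mT nU, hhex mT mU nU.symm⟩, maskOf V,
          ⟨⟨htri V mV, hand mV mT nV, hhex mT mV nV.symm⟩, ?_⟩, rfl⟩
        · have := hn
          rw [← setOfMask_maskOf T, mem_setOfMask] at this
          exact this
        · rw [← hW]
          exact ⟨⟨⟨⟨⟨⟨l1, hand mU mV hUV⟩, l2⟩, hhex mU mV hUV⟩, hhex mU mW hUW⟩, hhex mV mW hVW⟩, hhex mT mW nW.symm⟩
      · rw [← hW, e]
        simp only [setSet_cons, setSet_nil, setOfMask_maskOf, insert_empty_eq]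
    have hne : ∀ {a b : Finset GolayPt}, a ≠ b → maskOf a < maskOf b ∨ maskOf b < maskOf a := fun {a b} h =>
      Nat.lt_or_gt_of_ne fun e => h (by rw [← setOfMask_maskOf a, e, setOfMask_maskOf])
    have hA : A ≠ T := fun e => by
      have : A ∈ Q.erase T := by rw [hrest]; simp
      exact (Finset.mem_erase.1 this).1 e
    have hB : B ≠ T := fun e => by
      have : B ∈ Q.erase T := by rw [hrest]; simp
      exact (Finset.mem_erase.1 this).1 e
    have hC : C ≠ T := fun e => by
      have : C ∈ Q.erase T := by rw [hrest]; simp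
      exact (Finset.mem_erase.1 this).1 e
    have hp := triple_perm A B C
    rcases hne hAB with a | a <;> rcases hne hAC with b | b <;> rcases hne hBC with c | c
    · exact key A B C hQ hA hB hC hAB hAC hBC a c
    · exact key A C B (hQ.trans (congrArg (insert T) hp.1)) hA hC hB hAC hAB hBC.symm b c
    · omega
    · exact key C A B (hQ.trans (congrArg (insert T) hp.2.2.2.1)) hC hA hB hAC.symm hBC.symm hAB b a
    · exact key B A C (hQ.trans (congrArg (insert T) hp.2.1)) hB hA hC hAB.symm hBC hAC a b
    · omega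
    · exact key B C A (hQ.trans (congrArg (insert T) hp.2.2.1)) hB hC hA hBC hAB.symm hAC.symm c b
    · exact key C B A (hQ.trans (congrArg (insert T) hp.2.2.2.2)) hC hB hA hBC.symm hAC.symm hAB.symm c a
  · rintro ⟨X, hX, rfl⟩
    obtain ⟨hn, hl, ht, hh⟩ := quart_spec hX
    refine ⟨by rw [card_setSet' hn, hl], fun t ht' => ?_, fun t ht' u hu' hne => ?_⟩
    · obtain ⟨m, hm, rfl⟩ := mem_setSet.1 ht'
      obtain ⟨w, s⟩ := ht m hm
      refine ⟨by rw [card_setOfMask]; exact w, fun p hp => ?_⟩
      rw [mem_setOfMask] at hp ⊢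
      rw [← s, Nat.testBit_and, Bool.and_eq_true] at hp
      exact hp.1
    · obtain ⟨m, hm, rfl⟩ := mem_setSet.1 ht'
      obtain ⟨n, hn', rfl⟩ := mem_setSet.1 hu'
      rcases hh m hm n hn' with e | e
      · exact absurd (by rw [e]) hne
      · refine mem_hexadsOn_base.2 ?_
        rw [← setOfMask_or, maskOf_setOfMask (Nat.or_lt_two_pow (smallL_iff.1 (niceL_iff.1 hn).1 m hm)
          (smallL_iff.1 (niceL_iff.1 hn).1 n hn'))]
        exact e

theorem smul_mem_hexadsOn {g : P24} (hg : g ∈ M24) {d s : Finset GolayPt} (hs : s ∈ hexadsOn d) :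
    g • s ∈ hexadsOn (g • d) := by
  obtain ⟨hc, o, ho, rfl⟩ := hs
  exact ⟨by rw [Finset.card_smul_finset]; exact hc, g • o, smul_mem_octads' hg ho, (Finset.smul_finset_inter).symm⟩

theorem smul_mem_quartets {g : P24} (hg : g ∈ M24) {d : Finset GolayPt} {Q : Fam} (hQ : Q ∈ quartets d) :
    g • Q ∈ quartets (g • d) := by
  obtain ⟨h1, h2, h3⟩ := hQ
  refine ⟨by rw [Finset.card_smul_finset]; exact h1, fun t ht => ?_, fun t ht u hu hne => ?_⟩
  · obtain ⟨t', ht', rfl⟩ := Finset.mem_smul_finset.1 ht
    exact ⟨by rw [Finset.card_smul_finset]; exact (h2 t' ht').1, Finset.smul_finset_subset_smul_finset (h2 t' ht').2⟩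
  · obtain ⟨a, ha, rfl⟩ := Finset.mem_smul_finset.1 ht
    obtain ⟨b, hb, rfl⟩ := Finset.mem_smul_finset.1 hu
    rw [← Finset.smul_finset_union]
    exact smul_mem_hexadsOn hg (h3 a ha b hb fun e => hne (by rw [e]))

theorem quartets_code {c : P24} (hc : c ∈ M24) {Q : Fam} :
    Q ∈ quartets (c • setOfMask 8419127) ↔ ∃ X ∈ quartList, Q = c • setSet X := by
  constructor
  · intro h
    have h' := smul_mem_quartets (inv_mem hc) h
    rw [inv_smul_smul] at h'
    obtain ⟨X, hX, e⟩ := quartets_base.1 h'
    exact ⟨X, hX, inv_smul_eq_iff.1 e⟩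
  · rintro ⟨X, hX, rfl⟩
    exact smul_mem_quartets hc (quartets_base.2 ⟨X, hX, rfl⟩)

theorem quartList_setSet_nodup : (quartList.map setSet).Nodup := by
  refine (List.nodup_map_iff_inj_on (List.Nodup.of_map _ quart_nodup)).2 fun X hX Y hY e => ?_
  exact List.inj_on_of_nodup_map quart_nodup hX hY (keyL_congr (toFinset_eq_of_setSet_eq
    (niceL_iff.1 (quart_spec hX).1).1 (niceL_iff.1 (quart_spec hY).1).1 e))

/-- Counting quartets through a coordinate system. -/
theorem quartets_ncard {c : P24} (hc : c ∈ M24) (P : Fam → Prop) (T : List ℕ → Bool)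
    (hPT : ∀ X ∈ quartList, (T X = true ↔ P (c • setSet X))) :
    {Q | Q ∈ quartets (c • setOfMask 8419127) ∧ P Q}.ncard = quartList.countP T := by
  classical
  have e : {Q | Q ∈ quartets (c • setOfMask 8419127) ∧ P Q} =
      ↑(((quartList.filter T).map fun X => c • setSet X).toFinset) := by
    ext Q
    simp only [Set.mem_setOf_eq, Finset.mem_coe, List.mem_toFinset, List.mem_map, List.mem_filter, quartets_code hc]
    exact ⟨fun ⟨⟨X, hX, e⟩, hP⟩ => ⟨X, ⟨hX, (hPT X hX).2 (e ▸ hP)⟩, e.symm⟩,
      fun ⟨X, ⟨hX, hT⟩, e⟩ => ⟨⟨X, hX, e.symm⟩, e ▸ (hPT X hX).1 hT⟩⟩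
  have hnd : ((quartList.filter T).map fun X => c • setSet X).Nodup := by
    have : ((quartList.filter T).map setSet).Nodup := quartList_setSet_nodup.sublist (List.filter_sublist.map _)
    have := this.map (f := fun F : Fam => c • F) (MulAction.injective c)
    rwa [List.map_map] at this
  rw [e, Set.ncard_coe_finset, List.toFinset_card_of_nodup hnd, List.length_map, List.countP_eq_length_filter]

theorem quartTrans_stab : stabOK [dodBase] quartTransGens = true := by decide +kernel

theorem quartTrans_classes : classesOK quartTransGens quartList (fun _ => 0) quartTransCls = true := by decide +kernel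

theorem quartIn_stab : stabOK [quartBase, dodBase] quartInGens = true := by decide +kernel

theorem quartIn_classes : classesOK quartInGens quartList (sigL quartBase) quartInCls = true := by decide +kernel

theorem quartPt_stab : stabOK [quartBase, dodBase] quartPtGens = true := by decide +kernel

theorem quartPt_classes : classesOK quartPtGens (ptObjs.filter (inMask 8419127)) (fun _ => 0) quartPtCls = true := by
  decide +kernel

theorem quartBase_mem : quartBase ∈ quartList := by decide +kernel

/-- Quartets with equal invariants are conjugate, in coordinates. -/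
theorem quart_conj {comps gens : List (List ℕ)} {Φ : List ℕ → ℕ} {cls : List (ℕ × List ℕ)}
    (hs : stabOK comps gens = true) (hc : classesOK gens quartList Φ cls = true) {c : P24} (hh : c ∈ M24)
    {X Y : List ℕ} (hX : X ∈ quartList) (hY : Y ∈ quartList) (e : Φ X = Φ Y) :
    ∃ g ∈ M24, (∀ B ∈ comps, g • (c • setSet B) = c • setSet B) ∧ g • (c • setSet X) = c • setSet Y := by
  simp only [classesOK, Bool.and_eq_true, List.all_eq_true, List.any_eq_true, Nat.beq_eq] at hc
  obtain ⟨vw, hvw, ev⟩ := hc.2 X hX
  obtain ⟨g, hg, eg⟩ := classOK_sound hs (hc.1 vw hvw) hX (by simpa [Nat.beq_eq] using ev) hY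
    (by simpa [Nat.beq_eq] using e ▸ ev)
  obtain ⟨hg1, hg2⟩ := mem_stabL.1 hg
  refine ⟨c * g * c⁻¹, mul_mem (mul_mem hh hg1) (inv_mem hh), fun B hB => ?_, ?_⟩
  · rw [mul_smul, mul_smul, inv_smul_smul, hg2 B hB]
  · rw [mul_smul, mul_smul, inv_smul_smul, eg]

/-- A dodecad and a quartet in coordinates. -/
theorem quart_align {d : Finset GolayPt} (hd : d ∈ dodecads) {Q : Fam} (hQ : Q ∈ quartets d) :
    ∃ c ∈ M24, d = c • setOfMask 8419127 ∧ Q = c • setSet quartBase := by
  obtain ⟨b, hb, e⟩ := dodCoded.exists_base trDod_stab trDod_trans bases_mem.2.2.2.1 hd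
  have e' : d = b • setOfMask 8419127 := famOne_injective (e.trans (smul_setSet_one b _))
  subst e'
  obtain ⟨X, hX, rfl⟩ := (quartets_code hb).1 hQ
  obtain ⟨g, hg, hfix, eg⟩ := quart_conj quartTrans_stab quartTrans_classes hb quartBase_mem hX rfl
  refine ⟨g * b, mul_mem hg hb, ?_, by rw [mul_smul, eg]⟩
  rw [mul_smul]; exact (set_fixed (hfix dodBase (by simp))).symm

end CfsgLib.Spor
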