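import Cfsg.Agent.Lib.ClassicalReflClass

/-! The subgroup generated by the reflections of one class, in dimension at least five. -/

set_option autoImplicit false

namespace CfsgLib.Spor.ReflOdd

open Matrix CfsgLib.Classical CfsgLib.ReflClass

attribute [local instance] _root_.Classical.propDecidable

variable {ι : Type} [Fintype ι] [DecidableEq ι] {F : Type*} [Field F] [Fintype F] {Q : (ι → F) → F}
variable (hQ : Cfsg.Geo.IsNondegenerateQuadraticForm Q) (h2 : (2 : F) ≠ 0)
include hQ h2

local notation "pf" => QuadraticMap.polar Q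

variable (c : F) (hc : c ≠ 0) (N : Subgroup ↥(Cfsg.isometryGroup F Q))
  (hN : ∀ d (hd : Q d ≠ 0), IsSquare (Q d / c) → rI hQ d hd ∈ N)
include hc hN

/-- reflections of one value differ by an element of `N` -/
lemma mem_of_value (h5 : 5 ≤ Fintype.card ι)
    {d : F} {v w : ι → F} (hv : Q v = d) (hw : Q w = d) (hd : d ≠ 0) :
    rI hQ v (hv.symm ▸ hd) * rI hQ w (hw.symm ▸ hd) ∈ N := by
  have hqv : Q v ≠ 0 := hv.symm ▸ hd
  have hqw : Q w ≠ 0 := hw.symm ▸ hd
  by_cases hne : pf v w * pf v w ≠ 4 * d * d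
  · exact mem_of_plane hQ h2 c hc N hN hv hw hd hne
  push Not at hne
  -- normalise the sign of `w`
  obtain ⟨w1, hw1, hrw, hB⟩ : ∃ w1, ∃ hw1 : Q w1 = d,
      rI hQ w hqw = rI hQ w1 (hw1.symm ▸ hd) ∧ pf v w1 = 2 * d := by
    have : (pf v w - 2 * d) * (pf v w + 2 * d) = 0 := by linear_combination hne
    rcases mul_eq_zero.mp this with h | h
    · exact ⟨w, hw, rfl, sub_eq_zero.mp h⟩
    · refine ⟨(-1 : F) • w, by rw [hQ.smul, hw]; ring,
        Subtype.ext (qR_smul hQ hqw (neg_ne_zero.mpr one_ne_zero)).symm, ?_⟩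
      rw [hQ.polar_bilinear.smul_right]; linear_combination -h
  rw [hrw]
  set z := w1 - v with hz
  by_cases hz0 : z = 0
  · have hwv : w1 = v := sub_eq_zero.mp hz0
    subst hwv
    rw [rI_sq hQ hqv]; exact one_mem N
  have hzv : pf z v = 0 := by rw [hz, pf_sub_left hQ, pf_comm hQ, hB, pf_self hQ, hv, sub_self]
  have hQz : Q z = 0 := by rw [hz, q_sub hQ, hw1, hv, pf_comm hQ, hB]; ring
  have hzz : pf z z = 0 := by rw [pf_self hQ, hQz, mul_zero]
  obtain ⟨y0, hy0⟩ := (hQ.nondegenerate z hz0).2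
  obtain ⟨y1, hy1⟩ : ∃ y1, y1 = (pf z y0)⁻¹ • y0 := ⟨_, rfl⟩
  obtain ⟨y2, hy2⟩ : ∃ y2, y2 = y1 - (pf v y1 / (2 * d)) • v := ⟨_, rfl⟩
  have hvy2 : pf v y2 = 0 := by
    rw [hy2, pf_sub_right hQ, hQ.polar_bilinear.smul_right, pf_self hQ, hv,
      div_mul_cancel₀ _ (mul_ne_zero h2 hd), sub_self]
  have hzy2 : pf z y2 = 1 := by
    rw [hy2, pf_sub_right hQ, hQ.polar_bilinear.smul_right, hzv, mul_zero, sub_zero, hy1,
      hQ.polar_bilinear.smul_right, inv_mul_cancel₀ hy0]
  obtain ⟨y, hy⟩ : ∃ y, y = y2 - Q y2 • z := ⟨_, rfl⟩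
  have hvy : pf v y = 0 := by
    rw [hy, pf_sub_right hQ, hQ.polar_bilinear.smul_right, hvy2, pf_comm hQ v z, hzv, mul_zero, sub_zero]
  have hzy : pf z y = 1 := by
    rw [hy, pf_sub_right hQ, hQ.polar_bilinear.smul_right, hzy2, hzz, mul_zero, sub_zero]
  have hQy : Q y = 0 := by
    rw [hy, q_sub hQ, hQ.smul, hQz, hQ.polar_bilinear.smul_right, pf_comm hQ y2 z, hzy2]; ring
  -- an intermediate vector
  suffices hu : ∃ u, Q u = d ∧ pf v u * pf v u ≠ 4 * d * d ∧ pf u w1 * pf u w1 ≠ 4 * d * d by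
    obtain ⟨u, hQu, hvu, huw⟩ := hu
    have hqu : Q u ≠ 0 := hQu.symm ▸ hd
    have h1 := mem_of_plane hQ h2 c hc N hN hv hQu hd hvu
    have h3 := mem_of_plane hQ h2 c hc N hN hQu hw1 hd huw
    have := mul_mem h1 h3
    rwa [mul_assoc, ← mul_assoc (rI hQ u hqu) (rI hQ u hqu), rI_sq hQ hqu, one_mul] at this
  have hw1' : w1 = v + z := by rw [hz]; abel
  have h4d : (4 : F) * d * d ≠ 0 := by
    have : (4 : F) = 2 * 2 := by norm_num
    rw [this]; exact mul_ne_zero (mul_ne_zero (mul_ne_zero h2 h2) hd) hd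
  by_cases hq : 4 ≤ Fintype.card F
  · obtain ⟨γ, -, hγ⟩ := Finset.exists_mem_notMem_of_card_lt_card
      (s := ({0, 2 * d, -(2 * d)} : Finset F)) (t := Finset.univ)
      (lt_of_le_of_lt Finset.card_le_three (by rw [Finset.card_univ]; omega))
    simp only [Finset.mem_insert, Finset.mem_singleton, not_or] at hγ
    obtain ⟨hγ0, hγ1, hγ2⟩ := hγ
    refine ⟨γ • y + (d / γ) • z, ?_, ?_, ?_⟩
    · rw [q_add hQ, hQ.smul, hQ.smul, hQy, hQz, hQ.polar_bilinear.smul_left, hQ.polar_bilinear.smul_right,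
        pf_comm hQ y z, hzy]
      field_simp
      ring
    · rw [hQ.polar_bilinear.add_right, hQ.polar_bilinear.smul_right, hQ.polar_bilinear.smul_right, hvy,
        pf_comm hQ v z, hzv, mul_zero, mul_zero, add_zero, mul_zero]
      exact fun h => h4d h.symm
    · rw [hw1', hQ.polar_bilinear.add_left, hQ.polar_bilinear.smul_left, hQ.polar_bilinear.smul_left,
        hQ.polar_bilinear.add_right, hQ.polar_bilinear.add_right, pf_comm hQ y v, hvy, pf_comm hQ y z, hzy, hzv, hzz]
      intro h
      have : (γ - 2 * d) * (γ + 2 * d) = 0 := by linear_combination h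
      rcases mul_eq_zero.mp this with h | h
      · exact hγ1 (sub_eq_zero.mp h)
      · exact hγ2 (eq_neg_of_add_eq_zero_left h)
  · -- three elements
    have hq3 : Fintype.card F = 3 := by
      have h1 := Fintype.one_lt_card (α := F)
      have h2' : Fintype.card F ≠ 2 := fun h => by
        have := FiniteField.odd_card_of_char_ne_two (F := F) (fun hr => h2 (by
          haveI := ringChar.of_eq hr
          exact CharTwo.two_eq_zero))
        omega
      omega
    let S := Submodule.span F ({v, z} : Set (ι → F))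
    have hS2 : Module.finrank F S ≤ 2 := span_le_two v z
    have hvS : v ∈ S := Submodule.subset_span (by simp)
    have hzS : z ∈ S := Submodule.subset_span (by simp)
    have hrad : ∀ x, x ∈ S → pf x v = 0 → x ∈ Submodule.span F {z} := fun x hx hxv => by
      obtain ⟨s, t, rfl⟩ := Submodule.mem_span_pair.mp hx
      rw [hQ.polar_bilinear.add_left, hQ.polar_bilinear.smul_left, hQ.polar_bilinear.smul_left, hzv, pf_self hQ, hv,
        mul_zero, add_zero] at hxv
      rw [(mul_eq_zero.mp hxv).resolve_right (mul_ne_zero h2 hd), zero_smul, zero_add]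
      exact Submodule.mem_span_singleton.mpr ⟨t, rfl⟩
    obtain ⟨x1, hx1, hQx1⟩ : ∃ a, (∀ s ∈ S, pf a s = 0) ∧ Q a ≠ 0 := by
      by_contra! h0
      have hle : qorth hQ S ≤ Submodule.span F {z} := fun x hx => by
        refine hrad x ?_ ((mem_qorth hQ).mp hx v hvS)
        rw [← qorth_qorth hQ S, mem_qorth hQ]
        intro s hs
        have hxs := h0 (x + s) ((mem_qorth hQ).mp (add_mem hx hs))
        rw [q_add hQ, h0 x ((mem_qorth hQ).mp hx), h0 s ((mem_qorth hQ).mp hs), zero_add, zero_add] at hxs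
        exact hxs
      have hfr : Module.finrank F (qorth hQ S) + _ = _ := finrank_qorth hQ S
      have := Submodule.finrank_mono hle
      have := span_le_one (F := F) z
      omega
    obtain ⟨x2, hx2, hQx2⟩ : ∃ a, (∀ s ∈ S ⊔ Submodule.span F {x1}, pf a s = 0) ∧ Q a ≠ 0 := by
      by_contra! h0
      set S1 := S ⊔ Submodule.span F {x1} with hS1
      have hle : qorth hQ S1 ≤ Submodule.span F {z} := fun x hx => by
        have hx' : x ∈ S1 := by
          rw [← qorth_qorth hQ S1, mem_qorth hQ]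
          intro s hs
          have hxs := h0 (x + s) ((mem_qorth hQ).mp (add_mem hx hs))
          rw [q_add hQ, h0 x ((mem_qorth hQ).mp hx), h0 s ((mem_qorth hQ).mp hs), zero_add, zero_add] at hxs
          exact hxs
        obtain ⟨a, ha, b, hb, rfl⟩ := Submodule.mem_sup.mp hx'
        obtain ⟨r, rfl⟩ := Submodule.mem_span_singleton.mp hb
        have h1 := (mem_qorth hQ).mp hx x1 (Submodule.mem_sup_right (Submodule.mem_span_singleton_self x1))
        rw [hQ.polar_bilinear.add_left, hQ.polar_bilinear.smul_left, pf_comm hQ a x1, hx1 a ha, zero_add,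
          pf_self hQ] at h1
        have hr : r = 0 := (mul_eq_zero.mp h1).resolve_right (mul_ne_zero h2 hQx1)
        rw [hr, zero_smul, add_zero]
        have h3 := (mem_qorth hQ).mp hx v (Submodule.mem_sup_left hvS)
        rw [hr, zero_smul, add_zero] at h3
        exact hrad a ha h3
      have hfr : Module.finrank F (qorth hQ S1) + _ = _ := finrank_qorth hQ S1
      have := Submodule.finrank_mono hle
      have := span_le_one (F := F) z
      have hsum : Module.finrank F S1 ≤ _ := Submodule.finrank_add_le_finrank_add_finrank S (Submodule.span F {x1})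
      have := span_le_one (F := F) x1
      omega
    obtain ⟨s, t, hst⟩ := binary_universal h2 hQx1 hQx2 d
    have hx21 : pf x1 x2 = 0 := by
      rw [pf_comm hQ]; exact hx2 x1 (Submodule.mem_sup_right (Submodule.mem_span_singleton_self x1))
    have hperp : ∀ r ∈ S, pf (s • x1 + t • x2) r = 0 := fun r hr => by
      rw [hQ.polar_bilinear.add_left, hQ.polar_bilinear.smul_left, hQ.polar_bilinear.smul_left, hx1 r hr,
        hx2 r (Submodule.mem_sup_left hr), mul_zero, mul_zero, add_zero]
    refine ⟨s • x1 + t • x2, ?_, ?_, ?_⟩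
    · rw [q_add hQ, hQ.smul, hQ.smul, hQ.polar_bilinear.smul_left, hQ.polar_bilinear.smul_right, hx21]
      linear_combination hst
    · rw [pf_comm hQ v, hperp v hvS, mul_zero]
      exact h4d.symm
    · rw [hw1', hperp _ (add_mem hvS hzS), mul_zero]
      exact h4d.symm

omit hN in
/-- the closure of one class of reflections has index two -/
theorem index_closure (h5 : 5 ≤ Fintype.card ι)
    (S : Set ↥(Cfsg.isometryGroup F Q))
    (hS : ∀ g, g ∈ S ↔ ∃ d, ∃ hd : Q d ≠ 0, IsSquare (Q d / c) ∧ g = rI hQ d hd) :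
    (Subgroup.closure S).index = 2 := by
  have hn2 : 2 ≤ Fintype.card ι := by omega
  set N := Subgroup.closure S
  have hN : ∀ d (hd : Q d ≠ 0), IsSquare (Q d / c) → rI hQ d hd ∈ N := fun d hd h =>
    Subgroup.subset_closure ((hS _).mpr ⟨d, hd, h, rfl⟩)
  have hchar : ringChar F ≠ 2 := fun h => h2 (by
    haveI := ringChar.of_eq h
    exact CharTwo.two_eq_zero)
  obtain ⟨ν, hν⟩ := FiniteField.exists_nonsquare hchar
  have hν0 : ν ≠ 0 := fun h => hν ⟨0, by simp [h]⟩
  obtain ⟨u₀, hu₀⟩ := exists_value hQ h2 hn2 (c * ν)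
  have hu₀0 : Q u₀ ≠ 0 := by rw [hu₀]; exact mul_ne_zero hc hν0
  have hu₀ns : ¬ IsSquare (Q u₀ / c) := by rwa [hu₀, mul_div_cancel_left₀ _ hc]
  have hcard2 : Nat.card F ≠ 2 ∨ Fintype.card ι ≠ 4 := Or.inl fun h => by
    rw [Nat.card_eq_fintype_card] at h
    have := FiniteField.odd_card_of_char_ne_two (F := F) hchar
    omega
  -- every other reflection lies in the coset of `r₀`
  set r₀ := rI hQ u₀ hu₀0
  have hcoset : ∀ d (hd : Q d ≠ 0), rI hQ d hd ∈ N ∨ r₀ * rI hQ d hd ∈ N := fun d hd => by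
    by_cases h : IsSquare (Q d / c)
    · exact Or.inl (hN d hd h)
    · right
      obtain ⟨t, ht⟩ : IsSquare (Q u₀ / Q d) := by
        rw [show Q u₀ / Q d = (Q u₀ / c) / (Q d / c) by field_simp]
        rw [FiniteField.isSquare_iff hchar (div_ne_zero (div_ne_zero hu₀0 hc) (div_ne_zero hd hc)), div_pow,
          (FiniteField.pow_dichotomy hchar (div_ne_zero hu₀0 hc)).resolve_left
            (fun h' => hu₀ns ((FiniteField.isSquare_iff hchar (div_ne_zero hu₀0 hc)).mpr h')),
          (FiniteField.pow_dichotomy hchar (div_ne_zero hd hc)).resolve_left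
            (fun h' => h ((FiniteField.isSquare_iff hchar (div_ne_zero hd hc)).mpr h')),
          div_self (neg_ne_zero.mpr one_ne_zero)]
      have ht0 : t ≠ 0 := fun h => by rw [h, mul_zero, div_eq_zero_iff] at ht; exact ht.elim hu₀0 hd
      have htd : Q (t • d) = Q u₀ := by rw [hQ.smul, sq, ← ht, div_mul_cancel₀ _ hd]
      have heq : rI hQ d hd = rI hQ (t • d) (htd.symm ▸ hu₀0) := Subtype.ext (qR_smul hQ hd ht0).symm
      rw [heq]
      exact mem_of_value hQ h2 c hc N hN h5 (d := Q u₀) rfl htd hu₀0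
  have hr₀ : r₀ * r₀ = 1 := rI_sq hQ hu₀0
  haveI hNn : N.Normal := by
    refine Subgroup.Normal.mk fun g hg k => ?_
    have hle : N ≤ N.comap (MulAut.conj k).toMonoidHom := (Subgroup.closure_le _).mpr fun g hg => by
      obtain ⟨d, hd, hsq, rfl⟩ := (hS g).mp hg
      refine Subgroup.subset_closure ((hS _).mpr ⟨(k : GL ι F).1 *ᵥ d, ?_, ?_, ?_⟩)
      · rw [iso_Q k.2]; exact hd
      · rw [iso_Q k.2]; exact hsq
      · exact Subtype.ext (conj_qR hQ k.2 hd)
    exact hle hg
  let T : Subgroup ↥(Cfsg.isometryGroup F Q) :=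
    { carrier := {g | g ∈ N ∨ r₀ * g ∈ N}
      one_mem' := Or.inl (one_mem N)
      mul_mem' := fun {a b} ha hb => by
        rcases ha with ha | ha <;> rcases hb with hb | hb
        · exact Or.inl (mul_mem ha hb)
        · right
          have := mul_mem (hNn.conj_mem a ha r₀) hb
          rw [inv_eq_of_mul_eq_one_right hr₀] at this
          rwa [mul_assoc (r₀ * a), ← mul_assoc r₀ r₀, hr₀, one_mul, mul_assoc] at this
        · right; rw [← mul_assoc]; exact mul_mem ha hb
        · left
          have h1 := hNn.conj_mem _ ha r₀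
          rw [inv_eq_of_mul_eq_one_right hr₀, ← mul_assoc r₀ r₀, hr₀, one_mul] at h1
          have := mul_mem h1 hb
          rwa [mul_assoc a, ← mul_assoc r₀, hr₀, one_mul] at this
      inv_mem' := fun {a} ha => by
        rcases ha with ha | ha
        · exact Or.inl (inv_mem ha)
        · right
          have := hNn.conj_mem _ (inv_mem ha) r₀
          rwa [_root_.mul_inv_rev, inv_eq_of_mul_eq_one_right hr₀, mul_assoc r₀, mul_assoc a⁻¹, hr₀, mul_one] at this }
  have hT : ∀ g, g ∈ T := fun g => by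
    have hle : Subgroup.closure (reflSet hQ) ≤ T := (Subgroup.closure_le _).mpr (by
      rintro _ ⟨d, hd, rfl⟩; exact hcoset d hd)
    rw [closure_reflSet hQ hcard2] at hle
    exact hle (Subgroup.mem_top g)
  -- a character separating the classes
  obtain ⟨θ, hθ⟩ := exists_spinor hQ h2 hn2
  obtain ⟨D, hD⟩ := exists_dickson hQ hcard2
  obtain ⟨χ, hχ⟩ : ∃ χ : ↥(Cfsg.isometryGroup F Q) →* ℤˣ,
      ∀ d (hd : Q d ≠ 0), χ (rI hQ d hd) = 1 ↔ IsSquare (Q d / c) := by
    by_cases hcs : IsSquare c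
    · refine ⟨θ, fun d hd => ?_⟩
      have h1 : IsSquare (Q d / c) ↔ IsSquare (Q d) := by
        obtain ⟨r, rfl⟩ := hcs
        constructor
        · rintro ⟨t, ht⟩; exact ⟨t * r, by rw [div_eq_iff hc] at ht; linear_combination ht⟩
        · rintro ⟨t, ht⟩; exact ⟨t / r, by rw [ht]; field_simp⟩
      rw [h1]
      rcases Int.units_eq_one_or (θ (rI hQ d hd)) with h | h
      · simp only [h, true_iff]
        by_contra hns
        rw [(hθ d hd).mpr hns] at h
        exact absurd h (by decide)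
      · simp only [h]
        exact iff_of_false (by decide) ((hθ d hd).mp h)
    · refine ⟨θ * D, fun d hd => ?_⟩
      rw [MonoidHom.mul_apply, hD d hd]
      have h1 : IsSquare (Q d / c) ↔ ¬ IsSquare (Q d) := by
        have e1 := (FiniteField.pow_dichotomy hchar hc).resolve_left
          (fun h' => hcs ((FiniteField.isSquare_iff hchar hc).mpr h'))
        rw [FiniteField.isSquare_iff hchar (div_ne_zero hd hc), FiniteField.isSquare_iff hchar hd, div_pow, e1]
        rcases FiniteField.pow_dichotomy hchar hd with e | e <;> rw [e]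
        · simp [div_neg, Ring.neg_one_ne_one_of_char_ne_two hchar]
        · simp [Ring.neg_one_ne_one_of_char_ne_two hchar]
      rw [h1, ← hθ d hd]
      rcases Int.units_eq_one_or (θ (rI hQ d hd)) with h | h <;> simp [h]
  have hle : N ≤ χ.ker := (Subgroup.closure_le _).mpr fun g hg => by
    obtain ⟨d, hd, hsq, rfl⟩ := (hS g).mp hg
    exact MonoidHom.mem_ker.mpr ((hχ d hd).mpr hsq)
  have hr₀N : r₀ ∉ N := fun h => hu₀ns ((hχ u₀ hu₀0).mp (MonoidHom.mem_ker.mp (hle h)))
  rw [Subgroup.index_eq_two_iff]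
  refine ⟨r₀, fun b => ?_⟩
  rcases hT b with h | h
  · refine Or.inr ⟨h, fun h' => hr₀N ?_⟩
    have := mul_mem (inv_mem h) h'
    rwa [← mul_assoc, inv_mul_cancel, one_mul] at this
  · have hb : b * r₀ ∈ N := by
      have := hNn.conj_mem _ h r₀
      rwa [inv_eq_of_mul_eq_one_right hr₀, ← mul_assoc r₀ r₀, hr₀, one_mul] at this
    refine Or.inl ⟨hb, fun h' => hr₀N ?_⟩
    have := mul_mem (inv_mem h') hb
    rwa [← mul_assoc, inv_mul_cancel, one_mul] at this

end CfsgLib.Spor.ReflOdd
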