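import Mathlib

/-!
The centraliser of a transvection in SL(5, 2): its order, and the centre of its Sylow 2-subgroups.
-/

set_option autoImplicit false

namespace CfsgLib.Spor.SLFive

abbrev SL5 := Matrix.SpecialLinearGroup (Fin 5) (ZMod 2)

/-- The shape of a matrix commuting with the transvection `1 + E₀₁`. -/
def Shape (M : Matrix (Fin 5) (Fin 5) (ZMod 2)) : Prop :=
  M 1 1 = M 0 0 ∧ (∀ i, i ≠ 0 → M i 0 = 0) ∧ ∀ j, j ≠ 1 → M 1 j = 0

theorem shape_iff {M : Matrix (Fin 5) (Fin 5) (ZMod 2)} :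
    M * Matrix.transvection 0 1 1 = Matrix.transvection 0 1 1 * M ↔ Shape M := by
  rw [Matrix.transvection, Matrix.mul_add, Matrix.add_mul, Matrix.mul_one, Matrix.one_mul,
    add_right_inj, ← Matrix.ext_iff]
  simp [Shape, Fin.forall_fin_succ, Matrix.mul_apply, Fin.sum_univ_succ, Matrix.single_apply,
    eq_comm]
  tauto

theorem mem_iff {s : SL5} (hs : (s : Matrix (Fin 5) (Fin 5) (ZMod 2)) = Matrix.transvection 0 1 1)
    {x : SL5} : x ∈ Subgroup.centralizer ({s} : Set SL5) ↔ Shape x.1 := by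
  rw [Subgroup.mem_centralizer_singleton_iff, ← shape_iff, Matrix.SpecialLinearGroup.ext_iff,
    Matrix.ext_iff, Matrix.SpecialLinearGroup.coe_mul, Matrix.SpecialLinearGroup.coe_mul, hs]

/-- The matrix with inner block `A` and border entries `v`. -/
def mk (A : Matrix (Fin 3) (Fin 3) (ZMod 2)) (v : Fin 7 → ZMod 2) : Matrix (Fin 5) (Fin 5) (ZMod 2) :=
  !![1, v 0, v 1, v 2, v 3;
     0, 1, 0, 0, 0;
     0, v 4, A 0 0, A 0 1, A 0 2;
     0, v 5, A 1 0, A 1 1, A 1 2;
     0, v 6, A 2 0, A 2 1, A 2 2]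

theorem det_mk (A : Matrix (Fin 3) (Fin 3) (ZMod 2)) (v : Fin 7 → ZMod 2) : (mk A v).det = A.det := by
  rw [Matrix.det_succ_column_zero (mk A v), Matrix.det_fin_three]
  simp [mk, Matrix.det_succ_row_zero, Fin.sum_univ_succ, Fin.succAbove]
  simp only [CharTwo.sub_eq_add]
  ring

theorem shape_mk (A : Matrix (Fin 3) (Fin 3) (ZMod 2)) (v : Fin 7 → ZMod 2) : Shape (mk A v) := by
  simp [Shape, mk, Fin.forall_fin_succ]

/-- The inner block. -/
def inner (M : Matrix (Fin 5) (Fin 5) (ZMod 2)) : Matrix (Fin 3) (Fin 3) (ZMod 2) :=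
  M.submatrix ![2, 3, 4] ![2, 3, 4]

/-- The border entries. -/
def border (M : Matrix (Fin 5) (Fin 5) (ZMod 2)) : Fin 7 → ZMod 2 :=
  ![M 0 1, M 0 2, M 0 3, M 0 4, M 2 1, M 3 1, M 4 1]

theorem inner_mk (A : Matrix (Fin 3) (Fin 3) (ZMod 2)) (v : Fin 7 → ZMod 2) : inner (mk A v) = A := by
  ext i j; fin_cases i <;> fin_cases j <;> rfl

theorem border_mk (A : Matrix (Fin 3) (Fin 3) (ZMod 2)) (v : Fin 7 → ZMod 2) : border (mk A v) = v := by
  ext i; fin_cases i <;> rfl

theorem corner {M : SL5} (hM : Shape M.1) : M.1 0 0 = 1 := by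
  by_contra h
  have h0 : M.1 0 0 = 0 := by
    revert h; generalize M.1 0 0 = a; revert a; decide
  have : M.1.det = 0 := Matrix.det_eq_zero_of_column_eq_zero 0 fun i => by
    rcases eq_or_ne i 0 with rfl | hi
    · exact h0
    · exact hM.2.1 i hi
  exact one_ne_zero (M.2.symm.trans this)

theorem eq_mk {M : SL5} (hM : Shape M.1) : M.1 = mk (inner M.1) (border M.1) := by
  have h00 := corner hM
  ext i j
  fin_cases i <;> fin_cases j <;> first | rfl | exact h00 | exact hM.1.trans h00 | exact hM.2.1 _ (by decide) | exact hM.2.2 _ (by decide)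

theorem det_inner {M : SL5} (hM : Shape M.1) : (inner M.1).det = 1 := by
  rw [← det_mk _ (border M.1), ← eq_mk hM]
  exact M.2

theorem card_centralizer {s : SL5}
    (hs : (s : Matrix (Fin 5) (Fin 5) (ZMod 2)) = Matrix.transvection 0 1 1) :
    Nat.card (Subgroup.centralizer ({s} : Set SL5)) = 21504 := by
  have e : Subgroup.centralizer ({s} : Set SL5) ≃
      {A : Matrix (Fin 3) (Fin 3) (ZMod 2) // A.det = 1} × (Fin 7 → ZMod 2) :=
    { toFun := fun x => (⟨inner x.1.1, det_inner ((mem_iff hs).1 x.2)⟩, border x.1.1)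
      invFun := fun p => ⟨⟨mk p.1.1 p.2, (det_mk _ _).trans p.1.2⟩, (mem_iff hs).2 (shape_mk _ _)⟩
      left_inv := fun x => Subtype.ext (Subtype.ext (eq_mk ((mem_iff hs).1 x.2)).symm)
      right_inv := fun p => Prod.ext (Subtype.ext (inner_mk _ _)) (border_mk _ _) }
  have h3 : Fintype.card {A : Matrix (Fin 3) (Fin 3) (ZMod 2) // A.det = 1} = 168 := by decide +kernel
  rw [Nat.card_congr e, Nat.card_prod, Nat.card_eq_fintype_card, h3, Nat.card_eq_fintype_card,
    Fintype.card_fun, ZMod.card, Fintype.card_fin]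
  norm_num

theorem inner_mul {M N : Matrix (Fin 5) (Fin 5) (ZMod 2)} (hM : Shape M) (hN : Shape N) :
    inner (M * N) = inner M * inner N := by
  ext i j
  have a0 : ∀ k : Fin 3, M (![2, 3, 4] k) 0 = 0 := fun k => hM.2.1 _ (by fin_cases k <;> decide)
  have b1 : ∀ k : Fin 3, N 1 (![2, 3, 4] k) = 0 := fun k => hN.2.2 _ (by fin_cases k <;> decide)
  simp only [inner, Matrix.submatrix_apply, Matrix.mul_apply, Fin.sum_univ_five, Fin.sum_univ_three,
    a0, b1, zero_mul, mul_zero, zero_add]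
  rfl

/-- The kernel of the action on the inner block: the elements with trivial inner block. -/
def core (s : SL5) (hs : (s : Matrix (Fin 5) (Fin 5) (ZMod 2)) = Matrix.transvection 0 1 1) :
    Subgroup (Subgroup.centralizer ({s} : Set SL5)) :=
  ({ toFun := fun x => inner x.1.1
     map_one' := by ext i j; fin_cases i <;> fin_cases j <;> rfl
     map_mul' := fun x y => inner_mul ((mem_iff hs).1 x.2) ((mem_iff hs).1 y.2) } :
    Subgroup.centralizer ({s} : Set SL5) →* Matrix (Fin 3) (Fin 3) (ZMod 2)).ker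

theorem mem_core {s : SL5} {hs : (s : Matrix (Fin 5) (Fin 5) (ZMod 2)) = Matrix.transvection 0 1 1}
    {x : Subgroup.centralizer ({s} : Set SL5)} : x ∈ core s hs ↔ inner x.1.1 = 1 :=
  MonoidHom.mem_ker

theorem card_core {s : SL5} (hs : (s : Matrix (Fin 5) (Fin 5) (ZMod 2)) = Matrix.transvection 0 1 1) :
    Nat.card (core s hs) = 2 ^ 7 := by
  have e : core s hs ≃ (Fin 7 → ZMod 2) :=
    { toFun := fun x => border x.1.1.1
      invFun := fun v => ⟨⟨⟨mk 1 v, (det_mk _ _).trans Matrix.det_one⟩, (mem_iff hs).2 (shape_mk _ _)⟩,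
        mem_core.2 (inner_mk _ _)⟩
      left_inv := fun x => Subtype.ext <| Subtype.ext <| Subtype.ext <| by
        change mk 1 (border x.1.1.1) = x.1.1.1
        conv_rhs => rw [eq_mk ((mem_iff hs).1 x.1.2), mem_core.1 x.2]
      right_inv := fun v => border_mk _ _ }
  rw [Nat.card_congr e, Nat.card_eq_fintype_card, Fintype.card_fun, ZMod.card, Fintype.card_fin]

theorem commute_transvection {X : Matrix (Fin 5) (Fin 5) (ZMod 2)} {a b : Fin 5}
    (h : Matrix.transvection a b 1 * X = X * Matrix.transvection a b 1) :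
    X a a = X b b ∧ (∀ j, j ≠ b → X b j = 0) ∧ ∀ i, i ≠ a → X i a = 0 := by
  rw [Matrix.transvection, Matrix.mul_add, Matrix.add_mul, Matrix.mul_one, Matrix.one_mul,
    add_right_inj] at h
  refine ⟨?_, fun j hj => ?_, fun i hi => ?_⟩
  · have := congrFun (congrFun h a) b
    simpa using this.symm
  · have := congrFun (congrFun h a) j
    simpa [hj] using this
  · have := congrFun (congrFun h i) b
    simpa [hi] using this.symm

theorem eq_of_centralizes_core {s : SL5}
    (hs : (s : Matrix (Fin 5) (Fin 5) (ZMod 2)) = Matrix.transvection 0 1 1)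
    {x : Subgroup.centralizer ({s} : Set SL5)} (h : ∀ k ∈ core s hs, k * x = x * k) :
    x = 1 ∨ x.1 = s := by
  have hsh := (mem_iff hs).1 x.2
  have hx := eq_mk hsh
  have hv : ∀ v : Fin 7 → ZMod 2, mk 1 v * x.1.1 = x.1.1 * mk 1 v := by
    intro v
    have := h ⟨⟨mk 1 v, (det_mk _ _).trans Matrix.det_one⟩, (mem_iff hs).2 (shape_mk _ _)⟩
      (mem_core.2 (inner_mk _ _))
    exact congrArg (fun y => y.1.1) this
  have key : inner x.1.1 = 1 ∧ ∀ k : Fin 7, k ≠ 0 → border x.1.1 k = 0 := by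
    have h00 := corner hsh
    have e : ∀ (k : Fin 7) (a b : Fin 5), mk 1 (Pi.single k 1) = Matrix.transvection a b 1 →
        x.1.1 a a = x.1.1 b b ∧ (∀ j, j ≠ b → x.1.1 b j = 0) ∧ ∀ i, i ≠ a → x.1.1 i a = 0 :=
      fun k a b hk => commute_transvection (hk ▸ hv _)
    obtain ⟨d2, r2, -⟩ := e 1 0 2 (by decide +kernel)
    obtain ⟨d3, r3, -⟩ := e 2 0 3 (by decide +kernel)
    obtain ⟨d4, r4, -⟩ := e 3 0 4 (by decide +kernel)
    obtain ⟨-, -, c2⟩ := e 4 2 1 (by decide +kernel)
    obtain ⟨-, -, c3⟩ := e 5 3 1 (by decide +kernel)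
    obtain ⟨-, -, c4⟩ := e 6 4 1 (by decide +kernel)
    rw [h00] at d2 d3 d4
    refine ⟨?_, fun k hk => ?_⟩
    · ext i j
      fin_cases i <;> fin_cases j <;>
        first
          | exact d2.symm | exact d3.symm | exact d4.symm
          | exact r2 _ (by decide) | exact r3 _ (by decide) | exact r4 _ (by decide)
    · fin_cases k <;>
        first
          | exact absurd rfl hk
          | exact r2 _ (by decide) | exact r3 _ (by decide) | exact r4 _ (by decide)
          | exact c2 _ (by decide) | exact c3 _ (by decide) | exact c4 _ (by decide)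
  obtain ⟨k1, k2⟩ := key
  rw [k1] at hx
  rcases (show ∀ a : ZMod 2, a = 0 ∨ a = 1 by decide) (border x.1.1 0) with h0 | h0
  · left
    refine Subtype.ext (Subtype.ext ?_)
    rw [hx]
    have : border x.1.1 = 0 := funext fun k => by
      rcases eq_or_ne k 0 with rfl | hk
      · exact h0
      · exact k2 k hk
    rw [this]
    ext i j; fin_cases i <;> fin_cases j <;> rfl
  · right
    refine Subtype.ext ?_
    rw [hx, hs]
    have : border x.1.1 = Pi.single 0 1 := funext fun k => by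
      rcases eq_or_ne k 0 with rfl | hk
      · rw [Pi.single_eq_same]; exact h0
      · rw [Pi.single_eq_of_ne hk]; exact k2 k hk
    rw [this]
    ext i j
    fin_cases i <;> fin_cases j <;> decide

end CfsgLib.Spor.SLFive
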