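import Cfsg.Agent.Lib.SporLargeSimple

/-!
The centralizer of a transvection in SL(n + 2, 2): a large extraspecial subgroup extended by SL(n, 2).
-/

set_option autoImplicit false

namespace CfsgLib.Spor.SLTransv
open Cfsg Matrix

variable {n : ℕ}

theorem zmod_two (a : ZMod 2) : a = 0 ∨ a = 1 := by revert a; decide

/-- A transvection exchanging two distinct non-zero vectors. -/
theorem exists_sl_mulVec {v w : Fin n → ZMod 2} (hv : v ≠ 0) (hw : w ≠ 0) :
    ∃ g : SpecialLinearGroup (Fin n) (ZMod 2), (g : Matrix (Fin n) (Fin n) (ZMod 2)) *ᵥ v = w := by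
  classical
  by_cases hvw : v = w
  · exact ⟨1, by simp [hvw]⟩
  obtain ⟨φ, hφv, hφw⟩ : ∃ φ : Fin n → ZMod 2, φ ⬝ᵥ v = 1 ∧ φ ⬝ᵥ w = 1 := by
    obtain ⟨i, hi⟩ : ∃ i, v i ≠ 0 := Function.ne_iff.1 hv
    obtain ⟨j, hj⟩ : ∃ j, w j ≠ 0 := Function.ne_iff.1 hw
    have hi' := (zmod_two _).resolve_left hi
    have hj' := (zmod_two _).resolve_left hj
    rcases zmod_two (w i) with h | h
    · rcases zmod_two (v j) with h' | h'
      · exact ⟨Pi.single i 1 + Pi.single j 1, by simp [add_dotProduct, hi', h'], by simp [add_dotProduct, h, hj']⟩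
      · exact ⟨Pi.single j 1, by simp [h'], by simp [hj']⟩
    · exact ⟨Pi.single i 1, by simp [hi'], by simp [h]⟩
  set M : Matrix (Fin n) (Fin n) (ZMod 2) := 1 + vecMulVec (v + w) φ with hM
  have h0 : φ ⬝ᵥ (v + w) = 0 := by rw [dotProduct_add, hφv, hφw]; decide
  have hMM : M * M = 1 := by
    ext i j
    have hadd : ∀ a : ZMod 2, a + a = 0 := CharTwo.add_self_eq_zero
    rw [hM, Matrix.add_mul, Matrix.mul_add, Matrix.one_mul, Matrix.mul_add, Matrix.mul_one, vecMulVec_mul_vecMulVec, h0]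
    simp [add_assoc, hadd]
  have hdet : M.det = 1 := (zmod_two _).resolve_left fun h => by
    have := congrArg Matrix.det hMM
    rw [det_mul, h, det_one, zero_mul] at this
    exact zero_ne_one this
  refine ⟨⟨M, hdet⟩, ?_⟩
  show M *ᵥ v = w
  ext i
  have hadd : ∀ a b : ZMod 2, a + (a + b) = b := by decide
  simp [hM, add_mulVec, vecMulVec_mulVec, hφv, hadd]

/-- `O₂(SL(n, 2)) = 1`. -/
theorem pCore_sl (hn : 2 ≤ n) : Cfsg.pCore 2 (SpecialLinearGroup (Fin n) (ZMod 2)) = ⊥ := by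
  classical
  have hf : Fact (Nat.Prime 2) := ⟨Nat.prime_two⟩
  let G := SpecialLinearGroup (Fin n) (ZMod 2)
  set P := Cfsg.pCore 2 G with hP
  have hPn : P.Normal := CfsgLib.Core.normal_pCore 2
  have hPp : IsPGroup 2 ↥P := CfsgLib.Core.isPGroup_pCore 2
  letI : MulAction G (Fin n → ZMod 2) :=
    { smul := fun g v => (g : Matrix (Fin n) (Fin n) (ZMod 2)) *ᵥ v
      one_smul := fun v => by show ((1 : G) : Matrix (Fin n) (Fin n) (ZMod 2)) *ᵥ v = v; simp
      mul_smul := fun g h v => by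
        show ((g * h : G) : Matrix (Fin n) (Fin n) (ZMod 2)) *ᵥ v = _
        exact (mulVec_mulVec v _ _).symm }
  have hs : ∀ (g : G) (v : Fin n → ZMod 2), g • v = (g : Matrix (Fin n) (Fin n) (ZMod 2)) *ᵥ v := fun _ _ => rfl
  have hdvd : 2 ∣ Nat.card (Fin n → ZMod 2) := by
    rw [Nat.card_eq_fintype_card, Fintype.card_fun, ZMod.card, Fintype.card_fin]
    exact dvd_pow_self 2 (by omega)
  obtain ⟨v, hv, hv0⟩ := hPp.exists_fixed_point_of_prime_dvd_card_of_fixed_point (Fin n → ZMod 2) hdvd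
    (a := 0) (show (0 : Fin n → ZMod 2) ∈ MulAction.fixedPoints ↥P (Fin n → ZMod 2) from
      fun p => mulVec_zero _)
  rw [eq_bot_iff]
  intro p hp
  have hall : ∀ w : Fin n → ZMod 2, w ≠ 0 → (p : Matrix (Fin n) (Fin n) (ZMod 2)) *ᵥ w = w := by
    intro w hw
    obtain ⟨g, hg⟩ := exists_sl_mulVec hv0.symm hw
    have hmem : g⁻¹ * p * g ∈ P := by
      have := hPn.conj_mem p hp g⁻¹
      rwa [inv_inv] at this
    have h1 : (g⁻¹ * p * g) • v = v := hv ⟨_, hmem⟩
    rw [mul_smul, mul_smul, inv_smul_eq_iff] at h1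
    rw [hs g v, hg] at h1
    exact h1
  refine Subgroup.mem_bot.2 (Subtype.ext (Matrix.ext fun i j => ?_))
  have := congrFun (hall (Pi.single j 1) (by simp)) i
  simpa [Pi.single_apply, Matrix.one_apply, eq_comm] using this

/-- The matrix with inner block `A`, corner `a`, row `b` and column `c`. -/
def mk (A : Matrix (Fin n) (Fin n) (ZMod 2)) (a : ZMod 2) (b c : Fin n → ZMod 2) :
    Matrix (Fin (n + 2)) (Fin (n + 2)) (ZMod 2) :=
  Matrix.of (Fin.cons (Fin.cons 1 (Fin.cons a b) : Fin (n + 2) → ZMod 2)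
    (Fin.cons (Fin.cons 0 (Fin.cons 1 0) : Fin (n + 2) → ZMod 2)
      fun k => (Fin.cons 0 (Fin.cons (c k) (A k)) : Fin (n + 2) → ZMod 2)))

theorem mk_mul (A A' : Matrix (Fin n) (Fin n) (ZMod 2)) (a a' : ZMod 2) (b b' c c' : Fin n → ZMod 2) :
    mk A a b c * mk A' a' b' c' = mk (A * A') (a + a' + b ⬝ᵥ c') (b' + b ᵥ* A') (c + A *ᵥ c') := by
  ext i j
  refine Fin.cases ?_ (fun i => Fin.cases ?_ (fun i => ?_) i) i <;>
    refine Fin.cases ?_ (fun j => Fin.cases ?_ (fun j => ?_) j) j <;>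
    simp [mk, Matrix.mul_apply, Fin.sum_univ_succ, dotProduct, vecMul, mulVec] <;>
    ring

theorem det_mk (A : Matrix (Fin n) (Fin n) (ZMod 2)) (a : ZMod 2) (b c : Fin n → ZMod 2) :
    (mk A a b c).det = A.det := by
  rw [Matrix.det_succ_column_zero, Fin.sum_univ_succ, Finset.sum_eq_zero fun i _ => by
    refine Fin.cases ?_ (fun k => ?_) i <;> simp [mk]]
  rw [add_zero, Matrix.det_succ_row_zero, Fin.sum_univ_succ, Finset.sum_eq_zero fun i _ => by simp [mk]]
  simp only [mk, Fin.val_zero, pow_zero, Fin.succAbove_zero, Matrix.submatrix_apply, Matrix.of_apply,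
    Fin.cons_zero, one_mul, add_zero, Fin.cons_succ]
  congr 1

theorem mk_one : mk (1 : Matrix (Fin n) (Fin n) (ZMod 2)) 0 0 0 = 1 := by
  ext i j
  refine Fin.cases ?_ (fun i => Fin.cases ?_ (fun i => ?_) i) i <;>
    refine Fin.cases ?_ (fun j => Fin.cases ?_ (fun j => ?_) j) j <;>
    simp [mk, Matrix.one_apply, Fin.ext_iff]

theorem mk_inj {A A' : Matrix (Fin n) (Fin n) (ZMod 2)} {a a' : ZMod 2} {b b' c c' : Fin n → ZMod 2}
    (h : mk A a b c = mk A' a' b' c') : A = A' ∧ a = a' ∧ b = b' ∧ c = c' := by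
  refine ⟨?_, ?_, ?_, ?_⟩
  · ext i j; simpa [mk] using congrFun (congrFun h i.succ.succ) j.succ.succ
  · simpa [mk] using congrFun (congrFun h 0) (Fin.succ 0)
  · ext j; simpa [mk] using congrFun (congrFun h 0) j.succ.succ
  · ext i; simpa [mk] using congrFun (congrFun h i.succ.succ) (Fin.succ 0)

theorem transvection_eq :
    Matrix.transvection (0 : Fin (n + 2)) 1 (1 : ZMod 2) = mk 1 1 0 0 := by
  ext i j
  refine Fin.cases ?_ (fun i => Fin.cases ?_ (fun i => ?_) i) i <;>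
    refine Fin.cases ?_ (fun j => Fin.cases ?_ (fun j => ?_) j) j <;>
    simp [mk, Matrix.transvection, Matrix.one_apply, Matrix.single_apply, Fin.ext_iff]

/-- The element of SL(n + 2, 2) of that shape. -/
def el (A : SpecialLinearGroup (Fin n) (ZMod 2)) (a : ZMod 2) (b c : Fin n → ZMod 2) :
    SpecialLinearGroup (Fin (n + 2)) (ZMod 2) :=
  ⟨mk A.1 a b c, (det_mk _ _ _ _).trans A.2⟩

theorem el_mul (A A' : SpecialLinearGroup (Fin n) (ZMod 2)) (a a' : ZMod 2) (b b' c c' : Fin n → ZMod 2) :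
    el A a b c * el A' a' b' c' = el (A * A') (a + a' + b ⬝ᵥ c') (b' + b ᵥ* A'.1) (c + A.1 *ᵥ c') :=
  Subtype.ext (mk_mul _ _ _ _ _ _ _ _)

theorem el_one : el (1 : SpecialLinearGroup (Fin n) (ZMod 2)) 0 0 0 = 1 := Subtype.ext mk_one

theorem el_inj {A A' : SpecialLinearGroup (Fin n) (ZMod 2)} {a a' : ZMod 2} {b b' c c' : Fin n → ZMod 2}
    (h : el A a b c = el A' a' b' c') : A = A' ∧ a = a' ∧ b = b' ∧ c = c' :=
  have h' := mk_inj (congrArg Subtype.val h)
  ⟨Subtype.ext h'.1, h'.2⟩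

theorem el1_mul (a a' : ZMod 2) (b b' c c' : Fin n → ZMod 2) :
    el 1 a b c * el 1 a' b' c' = el 1 (a + a' + b ⬝ᵥ c') (b + b') (c + c') := by
  refine Subtype.ext ?_
  show mk (1 : Matrix (Fin n) (Fin n) (ZMod 2)) a b c * mk (1 : Matrix (Fin n) (Fin n) (ZMod 2)) a' b' c' =
    mk (1 : Matrix (Fin n) (Fin n) (ZMod 2)) (a + a' + b ⬝ᵥ c') (b + b') (c + c')
  rw [mk_mul, Matrix.one_mul, vecMul_one, one_mulVec, add_comm b' b]

theorem shape (x : SpecialLinearGroup (Fin (n + 2)) (ZMod 2))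
    (h : x.1 * Matrix.transvection 0 1 1 = Matrix.transvection 0 1 1 * x.1) : ∃ A a b c, x = el A a b c := by
  rw [Matrix.transvection, Matrix.mul_add, Matrix.add_mul, Matrix.mul_one, Matrix.one_mul, add_right_inj] at h
  have hd : x.1 0 0 = x.1 1 1 := by simpa using congrFun (congrFun h 0) 1
  have hc : ∀ i, i ≠ 0 → x.1 i 0 = 0 := fun i hi => by simpa [hi] using congrFun (congrFun h i) 1
  have hr : ∀ j, j ≠ 1 → x.1 1 j = 0 := fun j hj => by simpa [hj, eq_comm] using congrFun (congrFun h 0) j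
  have h00 : x.1 0 0 = 1 := (zmod_two _).resolve_left fun e => one_ne_zero (x.2.symm.trans
    (Matrix.det_eq_zero_of_column_eq_zero 0 fun i => by
      rcases eq_or_ne i 0 with rfl | hi
      exacts [e, hc i hi]))
  let A : Matrix (Fin n) (Fin n) (ZMod 2) := Matrix.of fun i j => x.1 i.succ.succ j.succ.succ
  have hx : x.1 = mk A (x.1 0 1) (fun j => x.1 0 j.succ.succ) (fun i => x.1 i.succ.succ 1) := by
    ext i j
    refine Fin.cases ?_ (fun i => Fin.cases ?_ (fun i => ?_) i) i <;>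
      refine Fin.cases ?_ (fun j => Fin.cases ?_ (fun j => ?_) j) j
    · simpa [mk] using h00
    · simp [mk]
    · simp [mk]
    · simpa [mk] using hc 1 (by simp)
    · simpa [mk] using hd.symm.trans h00
    · simpa [mk] using hr j.succ.succ (by simp [Fin.ext_iff])
    · simpa [mk] using hc i.succ.succ (by simp [Fin.ext_iff])
    · simp [mk]
    · simp [mk, A]
  have hdet : A.det = 1 := by rw [← det_mk A (x.1 0 1) (fun j => x.1 0 j.succ.succ) (fun i => x.1 i.succ.succ 1), ← hx]; exact x.2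
  exact ⟨⟨A, hdet⟩, _, _, _, Subtype.ext hx⟩

theorem mem_centralizer {z x : SpecialLinearGroup (Fin (n + 2)) (ZMod 2)} (hz : z = el 1 1 0 0) :
    x ∈ Subgroup.centralizer ({z} : Set (SpecialLinearGroup (Fin (n + 2)) (ZMod 2))) ↔
      ∃ A a b c, x = el A a b c := by
  rw [Subgroup.mem_centralizer_singleton_iff]
  refine ⟨fun h => shape x ?_, ?_⟩
  · have h' : x.1 * z.1 = z.1 * x.1 := congrArg Subtype.val h
    rw [hz] at h'
    rw [transvection_eq]
    exact h'
  · rintro ⟨A, a, b, c, rfl⟩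
    rw [hz]
    refine Subtype.ext ?_
    show mk A.1 a b c * mk 1 1 0 0 = mk 1 1 0 0 * mk A.1 a b c
    rw [mk_mul, mk_mul]
    simp [add_comm]

theorem exists_swap (hn : 1 ≤ n) : ∃ g : SpecialLinearGroup (Fin (n + 2)) (ZMod 2),
    g * g = 1 ∧ g * el 1 1 0 0 * g⁻¹ = el 1 0 (Pi.single ⟨0, hn⟩ 1) 0 := by
  classical
  let k : Fin n := ⟨0, hn⟩
  let σ : Equiv.Perm (Fin (n + 2)) := Equiv.swap 1 k.succ.succ
  let M : Matrix (Fin (n + 2)) (Fin (n + 2)) (ZMod 2) := σ.toPEquiv.toMatrix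
  have hMM : M * M = 1 := by
    show σ.toPEquiv.toMatrix * σ.toPEquiv.toMatrix = 1
    rw [← PEquiv.toMatrix_trans, ← Equiv.toPEquiv_trans]
    simp [σ, Equiv.swap_swap]
  have hdet : M.det = 1 := (zmod_two _).resolve_left fun h => by
    have := congrArg Matrix.det hMM
    rw [det_mul, h, det_one, zero_mul] at this
    exact zero_ne_one this
  let g : SpecialLinearGroup (Fin (n + 2)) (ZMod 2) := ⟨M, hdet⟩
  refine ⟨g, Subtype.ext hMM, ?_⟩
  rw [mul_inv_eq_iff_eq_mul]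
  refine Subtype.ext ?_
  show M * mk 1 1 0 0 = mk 1 0 (Pi.single k 1) 0 * M
  show σ.toPEquiv.toMatrix * mk 1 1 0 0 = mk 1 0 (Pi.single k 1) 0 * σ.toPEquiv.toMatrix
  have e2 : mk (1 : Matrix (Fin n) (Fin n) (ZMod 2)) 0 (Pi.single k 1) 0 =
      Matrix.transvection (0 : Fin (n + 2)) k.succ.succ 1 := by
    ext i j
    refine Fin.cases ?_ (fun i => Fin.cases ?_ (fun i => ?_) i) i <;>
      refine Fin.cases ?_ (fun j => Fin.cases ?_ (fun j => ?_) j) j <;>
      simp [mk, Matrix.transvection, Matrix.one_apply, Matrix.single_apply, Fin.ext_iff, Pi.single_apply, eq_comm]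
  rw [← transvection_eq, e2, PEquiv.toMatrix_toPEquiv_mul, PEquiv.mul_toMatrix_toPEquiv]
  have h0 : σ 0 = 0 := Equiv.swap_apply_of_ne_of_ne (by simp) (by simp [Fin.ext_iff])
  ext i j
  have r1 : σ i = j ↔ i = σ.symm j := Equiv.eq_symm_apply σ |>.symm
  have r2 : (0 : Fin (n + 2)) = σ i ↔ 0 = i := ⟨fun e => σ.injective (h0.trans e), fun e => by rw [← e, h0]⟩
  have r3 : k.succ.succ = σ.symm j ↔ (1 : Fin (n + 2)) = j := by
    rw [Equiv.eq_symm_apply]
    simp [σ]
  simp only [Matrix.submatrix_apply, id_eq, Matrix.transvection, Matrix.add_apply, Matrix.one_apply,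
    Matrix.single_apply, r1, r2, r3]

end CfsgLib.Spor.SLTransv
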