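import Cfsg.Prelude.Def_Sporadic_a
import Mathlib

/-!
Counting in Steiner systems: the two-way count and the intersection numbers.
-/

set_option autoImplicit false

namespace CfsgLib.Spor.Steiner
open Cfsg Finset

variable {α : Type*} [Fintype α] [DecidableEq α] {t k : ℕ} {B : Set (Finset α)}

/-- The members of a family as a finset. -/
noncomputable def bl (B : Set (Finset α)) : Finset (Finset α) := B.toFinite.toFinset

theorem mem_bl {c : Finset α} : c ∈ bl B ↔ c ∈ B := Set.Finite.mem_toFinset _

theorem ncard_eq (p : Finset α → Prop) [DecidablePred p] :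
    {c : Finset α | c ∈ B ∧ p c}.ncard = ((bl B).filter p).card := by
  rw [← Set.ncard_coe_finset]
  congr 1
  ext c
  simp [mem_bl]

theorem ncard_bl : B.ncard = (bl B).card := Set.ncard_eq_toFinset_card _ _

theorem card_ge_unique (hB : IsSteinerSystem t k B) {u : Finset α} (hu : u.card = t) :
    ((bl B).filter (u ⊆ ·)).card = 1 := by
  obtain ⟨b, hb, hu'⟩ := hB.2 u hu
  rw [Finset.card_eq_one]
  refine ⟨b, ?_⟩
  ext c
  simp only [mem_filter, mem_bl, mem_singleton]
  exact ⟨fun h => hu' c h, fun h => h ▸ hb⟩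

/-- The moment identity: if every set of size `s + j` lies in `L` blocks, the binomial moments are known. -/
theorem moment_of (s Y : Finset α) (hd : Disjoint s Y) (j L : ℕ)
    (hL : ∀ u : Finset α, u.card = s.card + j → ((bl B).filter (u ⊆ ·)).card = L) :
    ∑ c ∈ (bl B).filter (s ⊆ ·), (c ∩ Y).card.choose j = Y.card.choose j * L := by
  have h1 : ∀ c : Finset α, (c ∩ Y).card.choose j = ((Y.powersetCard j).filter (· ⊆ c)).card := by
    intro c
    rw [← card_powersetCard]
    congr 1
    ext u
    simp only [mem_powersetCard, mem_filter, subset_inter_iff]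
    tauto
  simp only [h1, card_filter]
  rw [sum_comm]
  have h2 : ∀ u ∈ Y.powersetCard j,
      (∑ c ∈ (bl B).filter (s ⊆ ·), if u ⊆ c then 1 else 0) = L := by
    intro u hu
    rw [mem_powersetCard] at hu
    rw [← card_filter, filter_filter, ← hL (s ∪ u) (by rw [card_union_of_disjoint (hd.mono_right hu.1), hu.2])]
    congr 1
    ext c
    simp [union_subset_iff]
  rw [sum_congr rfl h2, sum_const, card_powersetCard, smul_eq_mul]

/-- The number of blocks through a set of size at most `t`. -/
theorem card_ge (hB : IsSteinerSystem t k B) (s : Finset α) (hs : s.card ≤ t) :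
    ((bl B).filter (s ⊆ ·)).card * (k - s.card).choose (t - s.card) =
      (Fintype.card α - s.card).choose (t - s.card) := by
  have h := moment_of (B := B) s sᶜ disjoint_compl_right (t - s.card) 1 fun u hu =>
    card_ge_unique hB (by omega)
  rw [card_compl, mul_one] at h
  rw [← h, ← smul_eq_mul, ← sum_const]
  refine sum_congr rfl fun c hc => ?_
  rw [mem_filter, mem_bl] at hc
  rw [← sdiff_eq_inter_compl, card_sdiff_of_subset hc.2, hB.1 c hc.1]

theorem moment (hB : IsSteinerSystem t k B) (s Y : Finset α) (hd : Disjoint s Y) (j L : ℕ)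
    (hj : s.card + j ≤ t) (hk : t ≤ k)
    (hL : L * (k - (s.card + j)).choose (t - (s.card + j)) =
      (Fintype.card α - (s.card + j)).choose (t - (s.card + j))) :
    ∑ c ∈ (bl B).filter (s ⊆ ·), (c ∩ Y).card.choose j = Y.card.choose j * L :=
  moment_of s Y hd j L fun u hu => by
    have := card_ge hB u (by omega)
    rw [hu, ← hL] at this
    exact Nat.eq_of_mul_eq_mul_right (Nat.choose_pos (by omega)) this

theorem moment_bl (hB : IsSteinerSystem t k B) (Y : Finset α) (j L : ℕ) (hj : j ≤ t) (hk : t ≤ k)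
    (hL : L * (k - j).choose (t - j) = (Fintype.card α - j).choose (t - j)) :
    ∑ c ∈ bl B, (c ∩ Y).card.choose j = Y.card.choose j * L := by
  have := moment hB ∅ Y (disjoint_empty_left Y) j L (by simpa using hj) hk (by simpa using hL)
  simpa using this

/-- Two different blocks have fewer than `t` common points. -/
theorem inter_lt (hB : IsSteinerSystem t k B) {b c : Finset α} (hb : b ∈ B) (hc : c ∈ B) (hbc : b ≠ c) :
    (b ∩ c).card < t := by
  by_contra h
  obtain ⟨u, hu, hcard⟩ := exists_subset_card_eq (Nat.le_of_not_lt h)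
  obtain ⟨a, -, ha⟩ := hB.2 u hcard
  exact hbc ((ha b ⟨hb, hu.trans inter_subset_left⟩).trans (ha c ⟨hc, hu.trans inter_subset_right⟩).symm)

/-- Sum of a function of the intersection size, as a sum over the possible sizes. -/
theorem sum_by_size {ι : Type*} (A : Finset ι) (f : ι → ℕ) (g : ℕ → ℕ) (n : ℕ) (h : ∀ x ∈ A, f x < n) :
    ∑ x ∈ A, g (f x) = ∑ i ∈ range n, (A.filter fun x => f x = i).card * g i := by
  rw [← sum_fiberwise_of_maps_to (g := f) (t := range n) fun x hx => mem_range.2 (h x hx)]
  refine sum_congr rfl fun i _ => ?_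
  rw [sum_congr rfl (fun x hx => by rw [(mem_filter.1 hx).2] : ∀ x ∈ A.filter (fun x => f x = i), g (f x) = g i),
    sum_const, smul_eq_mul]

/-- The blocks other than `b`, counted by their intersection with `b`. -/
theorem inter_moment (hB : IsSteinerSystem t k B) {b : Finset α} (hb : b ∈ B) (j L : ℕ) (hj : j ≤ t) (hk : t ≤ k)
    (hL : L * (k - j).choose (t - j) = (Fintype.card α - j).choose (t - j)) :
    k.choose j + ∑ i ∈ range t, (((bl B).erase b).filter fun c => (c ∩ b).card = i).card * i.choose j =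
      k.choose j * L := by
  have h := moment_bl hB b j L hj hk hL
  rw [hB.1 b hb] at h
  rw [← h, ← add_sum_erase _ _ (mem_bl.2 hb), inter_self, hB.1 b hb,
    sum_by_size ((bl B).erase b) (fun c => (c ∩ b).card) (·.choose j) t fun c hc => ?_]
  rw [mem_erase, mem_bl] at hc
  exact inter_lt hB hc.2 hb hc.1

theorem ncard_inter (hB : IsSteinerSystem t k B) {b : Finset α} (hb : b ∈ B) {i : ℕ} (hi : i ≠ k) :
    {c : Finset α | c ∈ B ∧ (b ∩ c).card = i}.ncard = (((bl B).erase b).filter fun c => (c ∩ b).card = i).card := by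
  rw [ncard_eq]
  congr 1
  ext c
  simp only [mem_filter, mem_erase, mem_bl, inter_comm b c]
  constructor
  · rintro ⟨h1, h2⟩
    refine ⟨⟨fun e => hi ?_, h1⟩, h2⟩
    rw [← h2, e, inter_self, hB.1 b hb]
  · tauto

/-- The five-eight-twenty-four numbers. -/
theorem inter_5_8_24 (hα : Fintype.card α = 24) (hB : IsSteinerSystem 5 8 B) {b : Finset α} (hb : b ∈ B) :
    let n := fun i => (((bl B).erase b).filter fun c => (c ∩ b).card = i).card
    n 0 = 30 ∧ n 1 = 0 ∧ n 2 = 448 ∧ n 3 = 0 ∧ n 4 = 280 := by
  have h0 := inter_moment hB hb 0 759 (by omega) (by omega) (by rw [hα]; decide)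
  have h1 := inter_moment hB hb 1 253 (by omega) (by omega) (by rw [hα]; decide)
  have h2 := inter_moment hB hb 2 77 (by omega) (by omega) (by rw [hα]; decide)
  have h3 := inter_moment hB hb 3 21 (by omega) (by omega) (by rw [hα]; decide)
  have h4 := inter_moment hB hb 4 5 (by omega) (by omega) (by rw [hα]; decide)
  simp [sum_range_succ, Nat.choose, -Finset.card_eq_zero] at h0 h1 h2 h3 h4
  dsimp only
  omega

/-- The four-seven-twenty-three numbers. -/
theorem inter_4_7_23 (hα : Fintype.card α = 23) (hB : IsSteinerSystem 4 7 B) {b : Finset α} (hb : b ∈ B) :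
    let n := fun i => (((bl B).erase b).filter fun c => (c ∩ b).card = i).card
    n 0 = 0 ∧ n 1 = 112 ∧ n 2 = 0 ∧ n 3 = 140 := by
  have h0 := inter_moment hB hb 0 253 (by omega) (by omega) (by rw [hα]; decide)
  have h1 := inter_moment hB hb 1 77 (by omega) (by omega) (by rw [hα]; decide)
  have h2 := inter_moment hB hb 2 21 (by omega) (by omega) (by rw [hα]; decide)
  have h3 := inter_moment hB hb 3 5 (by omega) (by omega) (by rw [hα]; decide)
  simp [sum_range_succ, Nat.choose, -Finset.card_eq_zero] at h0 h1 h2 h3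
  dsimp only
  omega

/-- The three-six-twenty-two numbers. -/
theorem inter_3_6_22 (hα : Fintype.card α = 22) (hB : IsSteinerSystem 3 6 B) {b : Finset α} (hb : b ∈ B) :
    let n := fun i => (((bl B).erase b).filter fun c => (c ∩ b).card = i).card
    n 0 = 16 ∧ n 1 = 0 ∧ n 2 = 60 := by
  have h0 := inter_moment hB hb 0 77 (by omega) (by omega) (by rw [hα]; decide)
  have h1 := inter_moment hB hb 1 21 (by omega) (by omega) (by rw [hα]; decide)
  have h2 := inter_moment hB hb 2 5 (by omega) (by omega) (by rw [hα]; decide)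
  simp [sum_range_succ, Nat.choose, -Finset.card_eq_zero] at h0 h1 h2
  dsimp only
  omega

/-- The five-six-twelve numbers. -/
theorem inter_5_6_12 (hα : Fintype.card α = 12) (hB : IsSteinerSystem 5 6 B) {b : Finset α} (hb : b ∈ B) :
    let n := fun i => (((bl B).erase b).filter fun c => (c ∩ b).card = i).card
    n 0 = 1 ∧ n 1 = 0 ∧ n 2 = 45 ∧ n 3 = 40 ∧ n 4 = 45 := by
  have h0 := inter_moment hB hb 0 132 (by omega) (by omega) (by rw [hα]; decide)
  have h1 := inter_moment hB hb 1 66 (by omega) (by omega) (by rw [hα]; decide)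
  have h2 := inter_moment hB hb 2 30 (by omega) (by omega) (by rw [hα]; decide)
  have h3 := inter_moment hB hb 3 12 (by omega) (by omega) (by rw [hα]; decide)
  have h4 := inter_moment hB hb 4 4 (by omega) (by omega) (by rw [hα]; decide)
  simp [sum_range_succ, Nat.choose, -Finset.card_eq_zero] at h0 h1 h2 h3 h4
  dsimp only
  omega

theorem size_ne (hB : IsSteinerSystem t k B) {b c : Finset α} (hb : b ∈ B) (hc : c ∈ B) (hbc : b ≠ c) (i : ℕ)
    (h : (((bl B).erase b).filter fun c => (c ∩ b).card = i).card = 0) : (b ∩ c).card ≠ i := by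
  intro e
  rw [card_eq_zero, filter_eq_empty_iff] at h
  exact h (mem_erase.2 ⟨hbc.symm, mem_bl.2 hc⟩) (by rw [inter_comm, e])

theorem vals_5_8_24 (hα : Fintype.card α = 24) (hB : IsSteinerSystem 5 8 B) {b c : Finset α} (hb : b ∈ B)
    (hc : c ∈ B) (hbc : b ≠ c) : (b ∩ c).card = 0 ∨ (b ∩ c).card = 2 ∨ (b ∩ c).card = 4 := by
  obtain ⟨-, e1, -, e3, -⟩ := inter_5_8_24 hα hB hb
  have := inter_lt hB hb hc hbc
  have := size_ne hB hb hc hbc 1 e1
  have := size_ne hB hb hc hbc 3 e3
  omega

theorem vals_3_6_22 (hα : Fintype.card α = 22) (hB : IsSteinerSystem 3 6 B) {b c : Finset α} (hb : b ∈ B)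
    (hc : c ∈ B) (hbc : b ≠ c) : (b ∩ c).card = 0 ∨ (b ∩ c).card = 2 := by
  obtain ⟨-, e1, -⟩ := inter_3_6_22 hα hB hb
  have := inter_lt hB hb hc hbc
  have := size_ne hB hb hc hbc 1 e1
  omega

end CfsgLib.Spor.Steiner
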