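import Cfsg.Agent.Lib.SporSteiner

/-!
Disjointness counts in a Steiner system with parameters 3, 6, 22.
-/

set_option autoImplicit false

namespace CfsgLib.Spor.Steiner
open Cfsg Finset

variable {α : Type*} [Fintype α] [DecidableEq α] {B : Set (Finset α)}

theorem count_all (hα : Fintype.card α = 22) (hB : IsSteinerSystem 3 6 B) : (bl B).card = 77 := by
  have h := card_ge hB ∅ (by simp)
  simp [hα, Nat.choose] at h
  omega

theorem count_point (hα : Fintype.card α = 22) (hB : IsSteinerSystem 3 6 B) (p : α) :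
    ((bl B).filter (p ∈ ·)).card = 21 := by
  have h := card_ge hB {p} (by simp)
  simp [hα, Nat.choose] at h
  omega

theorem count_pair (hα : Fintype.card α = 22) (hB : IsSteinerSystem 3 6 B) {p q : α} (hpq : p ≠ q) :
    ((bl B).filter fun d => p ∈ d ∧ q ∈ d).card = 5 := by
  have h := card_ge hB {p, q} (by rw [card_pair hpq]; omega)
  rw [card_pair hpq, hα] at h
  simp [Finset.insert_subset_iff, Nat.choose] at h
  omega

theorem disj_iff {b d : Finset α} : Disjoint b d ↔ (d ∩ b).card = 0 := by
  rw [card_eq_zero, inter_comm, disjoint_iff_inter_eq_empty]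

theorem count_disjoint (hα : Fintype.card α = 22) (hB : IsSteinerSystem 3 6 B) {b : Finset α} (hb : b ∈ B) :
    ((bl B).filter fun d => Disjoint b d).card = 16 := by
  obtain ⟨e, -⟩ := inter_3_6_22 hα hB hb
  dsimp only at e
  rw [← e]
  congr 1
  ext d
  simp only [mem_filter, mem_erase, disj_iff]
  constructor
  · rintro ⟨h1, h2⟩
    exact ⟨⟨fun e => by rw [e, inter_self, hB.1 b hb] at h2; omega, h1⟩, h2⟩
  · tauto

theorem count_point_disjoint (hα : Fintype.card α = 22) (hB : IsSteinerSystem 3 6 B) {b : Finset α} (hb : b ∈ B)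
    {p : α} (hp : p ∉ b) : ((bl B).filter fun d => p ∈ d ∧ Disjoint b d).card = 6 := by
  have hd : Disjoint ({p} : Finset α) b := disjoint_singleton_left.2 hp
  have hlt : ∀ c ∈ (bl B).filter ({p} ⊆ ·), (c ∩ b).card < 3 := fun c hc => by
    rw [mem_filter, mem_bl, singleton_subset_iff] at hc
    exact inter_lt hB hc.1 hb fun e => hp (e ▸ hc.2)
  have h0 := moment hB {p} b hd 0 21 (by simp) (by omega) (by rw [hα, card_singleton]; decide)
  have h1 := moment hB {p} b hd 1 5 (by simp) (by omega) (by rw [hα, card_singleton]; decide)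
  rw [sum_by_size _ (fun c => (c ∩ b).card) (·.choose 0) 3 hlt, hB.1 b hb] at h0
  rw [sum_by_size _ (fun c => (c ∩ b).card) (·.choose 1) 3 hlt, hB.1 b hb] at h1
  have h2 : (((bl B).filter ({p} ⊆ ·)).filter fun c => (c ∩ b).card = 1).card = 0 := by
    rw [card_eq_zero, filter_eq_empty_iff]
    intro c hc
    rw [mem_filter, mem_bl, singleton_subset_iff] at hc
    rcases vals_3_6_22 hα hB hc.1 hb (fun e => hp (e ▸ hc.2)) with h | h <;> omega
  have e : ((bl B).filter fun d => p ∈ d ∧ Disjoint b d).card =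
      (((bl B).filter ({p} ⊆ ·)).filter fun c => (c ∩ b).card = 0).card := by
    rw [filter_filter]
    congr 1
    ext d
    simp [disj_iff]
  simp [sum_range_succ, Nat.choose, -Finset.card_eq_zero] at h0 h1
  simp [-Finset.card_eq_zero] at h2 e
  omega

theorem union_moment (hα : Fintype.card α = 22) (hB : IsSteinerSystem 3 6 B) {b c : Finset α} (hb : b ∈ B)
    (hc : c ∈ B) (hbc : b ≠ c) (j L : ℕ) (hj : j ≤ 3) (hL : L * (6 - j).choose (3 - j) = (22 - j).choose (3 - j)) :
    (6).choose j + ((6).choose j + ∑ i ∈ range 5,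
      ((((bl B).erase b).erase c).filter fun d => (d ∩ (b ∪ c)).card = i).card * i.choose j) =
      (b ∪ c).card.choose j * L := by
  have h := moment_bl hB (b ∪ c) j L hj (by omega) (by rw [hα]; exact hL)
  rw [← h, ← add_sum_erase _ _ (mem_bl.2 hb),
    ← add_sum_erase _ _ (mem_erase.2 ⟨hbc.symm, mem_bl.2 hc⟩ : c ∈ (bl B).erase b),
    inter_eq_left.2 subset_union_left, inter_eq_left.2 subset_union_right, hB.1 b hb, hB.1 c hc,
    sum_by_size (((bl B).erase b).erase c) (fun d => (d ∩ (b ∪ c)).card) (·.choose j) 5 fun d hd => ?_]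
  simp only [mem_erase, mem_bl] at hd
  have h1 := inter_lt hB hd.2.2 hb hd.2.1
  have h2 := inter_lt hB hd.2.2 hc hd.1
  have h3 := card_union_le (d ∩ b) (d ∩ c)
  rw [inter_union_distrib_left]
  omega

theorem count_disjoint_both (hα : Fintype.card α = 22) (hB : IsSteinerSystem 3 6 B) {b c : Finset α} (hb : b ∈ B)
    (hc : c ∈ B) (hbc : b ≠ c) :
    ((bl B).filter fun d => Disjoint b d ∧ Disjoint c d).card = if Disjoint b c then 0 else 4 := by
  set A := ((bl B).erase b).erase c with hA
  have hvals : ∀ d ∈ A, (d ∩ (b ∪ c)).card + (d ∩ (b ∩ c)).card = (d ∩ b).card + (d ∩ c).card ∧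
      ((d ∩ b).card = 0 ∨ (d ∩ b).card = 2) ∧ ((d ∩ c).card = 0 ∨ (d ∩ c).card = 2) ∧
      (d ∩ (b ∩ c)).card ≤ (d ∩ b).card ∧ (d ∩ (b ∩ c)).card ≤ (b ∩ c).card ∧
      (d ∩ (b ∩ c)).card ≤ (d ∩ c).card := by
    intro d hd
    simp only [hA, mem_erase, mem_bl] at hd
    refine ⟨?_, vals_3_6_22 hα hB hd.2.2 hb hd.2.1, vals_3_6_22 hα hB hd.2.2 hc hd.1,
      card_le_card (inter_subset_inter_left inter_subset_left), card_le_card inter_subset_right,
      card_le_card (inter_subset_inter_left inter_subset_right)⟩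
    rw [← card_union_add_card_inter (d ∩ b) (d ∩ c), inter_union_distrib_left]
    congr 2
    ext x
    simp
    tauto
  have e : ((bl B).filter fun d => Disjoint b d ∧ Disjoint c d).card =
      (A.filter fun d => (d ∩ (b ∪ c)).card = 0).card := by
    congr 1
    ext d
    simp only [mem_filter, hA, mem_erase, ne_eq, card_eq_zero, ← disjoint_iff_inter_eq_empty, disjoint_union_right,
      disjoint_comm (a := d)]
    constructor
    · rintro ⟨h1, h2, h3⟩
      refine ⟨⟨?_, ?_, h1⟩, h2, h3⟩ <;> rintro rfl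
      · rw [disjoint_self_iff_empty] at h3
        simpa [h3] using hB.1 _ hc
      · rw [disjoint_self_iff_empty] at h2
        simpa [h2] using hB.1 _ hb
    · tauto
  have h0 := union_moment hα hB hb hc hbc 0 77 (by omega) (by decide)
  have h1 := union_moment hα hB hb hc hbc 1 21 (by omega) (by decide)
  have h2 := union_moment hα hB hb hc hbc 2 5 (by omega) (by decide)
  have h3 := union_moment hα hB hb hc hbc 3 1 (by omega) (by decide)
  have hu := card_union_add_card_inter b c
  rw [hB.1 b hb, hB.1 c hc] at hu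
  have f1 : (A.filter fun d => (d ∩ (b ∪ c)).card = 1).card = 0 := by
    rw [card_eq_zero, filter_eq_empty_iff]
    intro d hd
    have := hvals d hd
    omega
  by_cases hd : Disjoint b c
  · have hz : (b ∩ c).card = 0 := by rw [card_eq_zero, ← disjoint_iff_inter_eq_empty]; exact hd
    have f3 : (A.filter fun d => (d ∩ (b ∪ c)).card = 3).card = 0 := by
      rw [card_eq_zero, filter_eq_empty_iff]
      intro d hd
      have := hvals d hd
      omega
    rw [show (b ∪ c).card = 12 by omega] at h0 h1 h2 h3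
    simp [sum_range_succ, Nat.choose, ← hA, -Finset.card_eq_zero] at h0 h1 h2 h3
    rw [e, if_pos hd]
    omega
  · have hz : (b ∩ c).card = 2 := by
      rcases vals_3_6_22 hα hB hb hc hbc with h | h
      · exact absurd (disjoint_iff_inter_eq_empty.2 (card_eq_zero.1 h)) hd
      · exact h
    rw [show (b ∪ c).card = 10 by omega] at h0 h1 h2 h3
    simp [sum_range_succ, Nat.choose, ← hA, -Finset.card_eq_zero] at h0 h1 h2 h3
    rw [e, if_neg hd]
    omega

/-- The cardinality of a subtype of the blocks. -/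
theorem card_sub (p : Finset α → Prop) [DecidablePred p] :
    Nat.card {d : B // p d.1} = ((bl B).filter p).card := by
  rw [← Nat.card_eq_finsetCard]
  exact Nat.card_congr
    { toFun := fun d => ⟨d.1.1, mem_filter.2 ⟨mem_bl.2 d.1.2, d.2⟩⟩
      invFun := fun d => ⟨⟨d.1, mem_bl.1 (mem_filter.1 d.2).1⟩, (mem_filter.1 d.2).2⟩
      left_inv := fun d => rfl
      right_inv := fun d => rfl }

end CfsgLib.Spor.Steiner
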