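import Cfsg.Prelude.Def_SporadicB
import Cfsg.Agent.Lib.ClassicalSpStd

/-!
The symplectic transvections over the field of two elements as a class of 3-transpositions.
-/

set_option autoImplicit false

namespace CfsgLib.Spor.SympTrans

open Matrix CfsgLib.Classical

/-- A matrix with `M - 1` of rank one moves every vector along one line. -/
theorem exists_axis {ι F : Type*} [Field F] [Fintype ι] [DecidableEq ι] {M : Matrix ι ι F}
    (h : (M - 1).rank = 1) :
    ∃ (a : ι → F) (φ : (ι → F) → F), a ≠ 0 ∧ (∀ x, M *ᵥ x = x + φ x • a) ∧ ∃ x₀, φ x₀ ≠ 0 := by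
  have hr : Module.finrank F (LinearMap.range (M - 1).mulVecLin) = 1 := h
  obtain ⟨⟨a, ha⟩, ha0, hspan⟩ := finrank_eq_one_iff'.1 hr
  have hφ : ∀ x, ∃ c : F, (M - 1).mulVecLin x = c • a := fun x => by
    obtain ⟨c, hc⟩ := hspan ⟨_, LinearMap.mem_range_self _ x⟩
    exact ⟨c, (congrArg Subtype.val hc).symm⟩
  choose φ hφ using hφ
  have ha' : a ≠ 0 := fun e => ha0 (Subtype.ext e)
  refine ⟨a, φ, ha', fun x => ?_, ?_⟩
  · rw [← hφ x, Matrix.mulVecLin_apply, Matrix.sub_mulVec, Matrix.one_mulVec, add_sub_cancel]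
  · obtain ⟨x₀, hx₀⟩ := ha
    refine ⟨x₀, fun e => ha' ?_⟩
    rw [← hx₀, hφ, e, zero_smul]

/-- The converse: a non-trivial map moving every vector along one line. -/
theorem rank_eq_one {ι F : Type*} [Field F] [Fintype ι] [DecidableEq ι] {M : Matrix ι ι F}
    {a : ι → F} {φ : (ι → F) → F} (hx : ∀ x, M *ᵥ x = x + φ x • a) (hne : M ≠ 1) :
    (M - 1).rank = 1 := by
  have hle : (M - 1).rank ≤ 1 := by
    have hr : LinearMap.range (M - 1).mulVecLin ≤ Submodule.span F {a} := by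
      rintro _ ⟨x, rfl⟩
      rw [Matrix.mulVecLin_apply, Matrix.sub_mulVec, Matrix.one_mulVec, hx, add_sub_cancel_left]
      exact Submodule.smul_mem _ _ (Submodule.mem_span_singleton_self a)
    exact (Submodule.finrank_mono hr).trans ((finrank_span_le_card _).trans (by simp))
  refine le_antisymm hle (Nat.one_le_iff_ne_zero.2 fun h => hne ?_)
  have : LinearMap.range (M - 1).mulVecLin = ⊥ := Submodule.finrank_eq_zero.1 h
  rw [LinearMap.range_eq_bot] at this
  exact sub_eq_zero.1 (Matrix.toLin'.injective (by rw [Matrix.toLin'_apply', this, map_zero]) : M - 1 = 0)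

theorem z2_cases : ∀ a : ZMod 2, a = 0 ∨ a = 1 := by decide

variable {ι : Type} [Fintype ι] [DecidableEq ι] {f : (ι → ZMod 2) → (ι → ZMod 2) → ZMod 2}
  (hf : Cfsg.Geo.IsSymplecticForm f)

include hf

theorem stv_two (u : ι → ZMod 2) : stv f u 1 * stv f u 1 = 1 := by
  refine gl_ext_mulVec fun x => ?_
  rw [stv_mul hf, show (1 : ZMod 2) + 1 = 0 from rfl, stv_mulVec hf]
  simp

theorem stv_inv (u : ι → ZMod 2) : (stv f u 1)⁻¹ = stv f u 1 := inv_eq_of_mul_eq_one_left (stv_two hf u)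

theorem stv_ne_one {u : ι → ZMod 2} (hu : u ≠ 0) : stv f u 1 ≠ 1 := by
  intro h
  obtain ⟨y, hy⟩ := (hf.nondegenerate u hu).1 
  have := congrArg (fun g : GL ι (ZMod 2) => (g : Matrix ι ι (ZMod 2)) *ᵥ y) h
  simp only [stv_mulVec hf, Units.val_one, Matrix.one_mulVec, one_mul, add_eq_left] at this
  exact hu ((smul_eq_zero.1 this).resolve_left hy)

theorem three_trans (u v : ι → ZMod 2) :
    (stv f u 1 * stv f v 1) ^ 2 = 1 ∨ (stv f u 1 * stv f v 1) ^ 3 = 1 := by
  have hconj : ∀ u v : ι → ZMod 2, stv f u 1 * stv f v 1 * stv f u 1 = stv f (v + f v u • u) 1 := by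
    intro u v
    conv_lhs => rw [← stv_inv hf u]
    have h := stv_conj hf (stv_mem_isoGL hf u 1) v 1
    rw [stv_mulVec hf, one_mul, stv_inv hf] at h
    rw [stv_inv hf, h]
  have hsk : f u v = f v u := by
    rw [hf.skew u v]
    exact CharTwo.neg_eq _
  rcases z2_cases (f u v) with h | h
  · left
    have e := hconj u v
    rw [← hsk, h, zero_smul, add_zero] at e
    rw [sq, ← mul_assoc, e, stv_two hf]
  · right
    have e1 := hconj u v
    have e2 := hconj v u
    rw [← hsk, h, one_smul] at e1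
    rw [h, one_smul, add_comm] at e2
    rw [pow_three, show stv f u 1 * stv f v 1 * (stv f u 1 * stv f v 1 * (stv f u 1 * stv f v 1)) =
      (stv f u 1 * stv f v 1 * stv f u 1) * (stv f v 1 * stv f u 1 * stv f v 1) by group, e1, e2,
      stv_two hf]

theorem exists_stv {g : GL ι (ZMod 2)} (hg : g ∈ isoGL f)
    (h : ((g : Matrix ι ι (ZMod 2)) - 1).rank = 1) : ∃ u, u ≠ 0 ∧ g = stv f u 1 := by
  obtain ⟨a, φ, ha, hgx, x₀, hx₀⟩ := exists_axis h
  have hrel : ∀ x y, φ x * f a y + φ y * f x a = 0 := fun x y => by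
    have := mem_isoGL.1 hg x y
    rw [hgx, hgx] at this
    simp only [hf.bilinear.add_left, hf.bilinear.add_right, hf.bilinear.smul_left,
      hf.bilinear.smul_right, hf.alternating] at this
    linear_combination this
  obtain ⟨y, hy⟩ := (hf.nondegenerate a ha).2
  have hy1 : f a y = 1 := (z2_cases _).resolve_left hy
  have key : ∀ x, φ x = φ y * f x a := fun x => by
    have := hrel x y
    rw [hy1, mul_one] at this
    exact (CharTwo.add_eq_zero).1 this
  have hy2 : φ y = 1 := (z2_cases _).resolve_left fun e => hx₀ (by rw [key, e, zero_mul])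
  refine ⟨a, ha, gl_ext_mulVec fun x => ?_⟩
  rw [hgx, key, hy2, stv_mulVec hf]

theorem rank_stv {u : ι → ZMod 2} (hu : u ≠ 0) :
    ((stv f u 1 : Matrix ι ι (ZMod 2)) - 1).rank = 1 :=
  rank_eq_one (stv_mulVec hf u 1) fun e => stv_ne_one hf hu (Units.ext e)

theorem exists_map {v w : ι → ZMod 2} (hv : v ≠ 0) (hw : w ≠ 0) :
    ∃ k ∈ isoGL f, k * stv f v 1 * k⁻¹ = stv f w 1 := by
  obtain ⟨k, hk, hkv⟩ := exists_sympGen_map hf (nondegOn_top hf) (W := ⊤) trivial hv trivial hw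
  have hki := sympGen_le_isoGL hf _ hk
  exact ⟨k, hki, by rw [stv_conj hf hki, hkv]⟩

/-- The rank-one elements form a generating class of 3-transpositions. -/
theorem threeTranspositionClass (hne : ∃ u : ι → ZMod 2, u ≠ 0) :
    Cfsg.IsThreeTranspositionClass
      {g : isoGL f | (((g : GL ι (ZMod 2)) : Matrix ι ι (ZMod 2)) - 1).rank = 1} := by
  obtain ⟨u₀, hu₀⟩ := hne
  set D := {g : isoGL f | (((g : GL ι (ZMod 2)) : Matrix ι ι (ZMod 2)) - 1).rank = 1} with hD
  have hmem : ∀ d ∈ D, ∃ u, u ≠ 0 ∧ (d : GL ι (ZMod 2)) = stv f u 1 := fun d hd => exists_stv hf d.2 hd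
  refine ⟨⟨fun d hd => ?_, fun d hd e he => ?_⟩, ⟨⟨_, stv_mem_isoGL hf u₀ 1⟩, rank_stv hf hu₀, ?_⟩, ?_⟩
  · obtain ⟨u, hu, e⟩ := hmem d hd
    have := Fact.mk Nat.prime_two
    refine orderOf_eq_prime ?_ fun h1 => stv_ne_one hf hu ?_
    · ext1; rw [Subgroup.coe_pow, e, sq, stv_two hf]; rfl
    · rw [← e, h1]; rfl
  · obtain ⟨u, -, e1⟩ := hmem d hd
    obtain ⟨v, -, e2⟩ := hmem e he
    rcases three_trans hf u v with h | h
    · exact Or.inl (Subtype.ext (by rw [Subgroup.coe_pow, Subgroup.coe_mul, e1, e2, h]; rfl))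
    · exact Or.inr (Subtype.ext (by rw [Subgroup.coe_pow, Subgroup.coe_mul, e1, e2, h]; rfl))
  · ext g
    simp only [conjugatesOf, Set.mem_setOf_eq, isConj_iff]
    constructor
    · intro hg
      obtain ⟨u, hu, e⟩ := hmem g hg
      obtain ⟨k, hk, hke⟩ := exists_map hf hu₀ hu
      exact ⟨⟨k, hk⟩, Subtype.ext (hke.trans e.symm)⟩
    · rintro ⟨⟨k, hk⟩, rfl⟩
      show (((k * stv f u₀ 1 * k⁻¹ : GL ι (ZMod 2)) : Matrix ι ι (ZMod 2)) - 1).rank = 1
      rw [stv_conj hf hk]
      refine rank_stv hf fun h => hu₀ ?_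
      exact mulVec_injective k (h.trans (Matrix.mulVec_zero _).symm)
  · refine eq_top_iff.2 fun g _ => ?_
    have h : isoGL f ≤ (Subgroup.closure D).map (isoGL f).subtype := isoGL_le_of_stv hf fun u hu c => by
      rcases z2_cases c with rfl | rfl
      · rw [show stv f u (0 : ZMod 2) = 1 from gl_ext_mulVec fun x => by rw [stv_mulVec hf]; simp]
        exact one_mem _
      · exact ⟨⟨_, stv_mem_isoGL hf u 1⟩, Subgroup.subset_closure (rank_stv hf hu), rfl⟩
    obtain ⟨g', hg', e⟩ := h g.2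
    rwa [← Subtype.ext e]

end CfsgLib.Spor.SympTrans
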