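import Cfsg.Agent.Lib.SporTernary
import Mathlib

/-!
The automorphism group of the hexad system of the ternary code and its monomial lifts.
-/

set_option autoImplicit false
set_option maxRecDepth 20000

namespace CfsgLib.Spor.Ternary
open Cfsg Finset
open scoped Pointwise

/-- Liftable permutations with their inverses and signs, level by level. -/
def autData : List (List (List ℕ × List ℕ × ℕ)) := [
  [([0, 1, 2, 3, 4, 5, 6, 7, 8, 9, 10, 11], [0, 1, 2, 3, 4, 5, 6, 7, 8, 9, 10, 11], 0),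
   ([1, 0, 2, 3, 4, 5, 11, 9, 10, 7, 8, 6], [1, 0, 2, 3, 4, 5, 11, 9, 10, 7, 8, 6], 0),
   ([2, 0, 1, 3, 4, 5, 8, 6, 7, 10, 11, 9], [1, 2, 0, 3, 4, 5, 7, 8, 6, 11, 9, 10], 0),
   ([3, 0, 1, 2, 4, 5, 10, 7, 6, 8, 9, 11], [1, 2, 3, 0, 4, 5, 8, 7, 9, 10, 6, 11], 1331),
   ([4, 0, 1, 2, 3, 5, 6, 9, 10, 11, 7, 8], [1, 2, 3, 4, 0, 5, 6, 10, 11, 7, 8, 9], 1940),
   ([5, 0, 1, 2, 3, 4, 9, 6, 8, 7, 11, 10], [1, 2, 3, 4, 5, 0, 7, 9, 8, 6, 11, 10], 667),
   ([6, 0, 1, 2, 3, 9, 5, 4, 7, 10, 8, 11], [1, 2, 3, 4, 7, 6, 0, 8, 10, 5, 9, 11], 1581),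
   ([7, 0, 1, 2, 3, 11, 10, 8, 9, 4, 5, 6], [1, 2, 3, 4, 9, 10, 11, 0, 7, 8, 6, 5], 993),
   ([8, 0, 1, 2, 3, 10, 7, 11, 4, 6, 9, 5], [1, 2, 3, 4, 8, 11, 9, 6, 0, 10, 5, 7], 1224),
   ([9, 0, 1, 2, 3, 6, 4, 5, 11, 8, 10, 7], [1, 2, 3, 4, 6, 7, 5, 11, 9, 0, 10, 8], 349),
   ([10, 0, 1, 2, 3, 8, 11, 7, 5, 9, 6, 4], [1, 2, 3, 4, 11, 8, 10, 7, 5, 9, 0, 6], 1271),
   ([11, 0, 1, 2, 3, 7, 8, 10, 6, 5, 4, 9], [1, 2, 3, 4, 10, 9, 8, 5, 6, 11, 7, 0], 430)],
  [([0, 1, 2, 3, 4, 5, 6, 7, 8, 9, 10, 11], [0, 1, 2, 3, 4, 5, 6, 7, 8, 9, 10, 11], 0),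
   ([0, 2, 1, 3, 4, 5, 9, 10, 11, 6, 7, 8], [0, 2, 1, 3, 4, 5, 9, 10, 11, 6, 7, 8], 0),
   ([0, 3, 1, 2, 4, 5, 11, 8, 9, 7, 6, 10], [0, 2, 3, 1, 4, 5, 10, 9, 7, 8, 11, 6], 1331),
   ([0, 4, 1, 2, 3, 5, 8, 11, 7, 9, 10, 6], [0, 2, 3, 4, 1, 5, 11, 8, 6, 9, 10, 7], 1940),
   ([0, 5, 1, 2, 3, 4, 10, 7, 11, 6, 8, 9], [0, 2, 3, 4, 5, 1, 9, 7, 10, 11, 6, 8], 667),
   ([0, 6, 1, 2, 3, 9, 11, 10, 8, 4, 7, 5], [0, 2, 3, 4, 9, 11, 1, 10, 8, 5, 7, 6], 1581),
   ([0, 7, 1, 2, 3, 11, 6, 4, 5, 8, 9, 10], [0, 2, 3, 4, 7, 8, 6, 1, 9, 10, 11, 5], 993),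
   ([0, 8, 1, 2, 3, 10, 5, 6, 9, 11, 4, 7], [0, 2, 3, 4, 10, 6, 7, 11, 1, 8, 5, 9], 1224),
   ([0, 9, 1, 2, 3, 6, 7, 8, 10, 5, 11, 4], [0, 2, 3, 4, 11, 9, 5, 6, 7, 1, 8, 10], 349),
   ([0, 10, 1, 2, 3, 8, 4, 9, 6, 7, 5, 11], [0, 2, 3, 4, 6, 10, 8, 9, 5, 7, 1, 11], 1271),
   ([0, 11, 1, 2, 3, 7, 9, 5, 4, 10, 6, 8], [0, 2, 3, 4, 8, 7, 10, 5, 11, 6, 9, 1], 430)],
  [([0, 1, 2, 3, 4, 5, 6, 7, 8, 9, 10, 11], [0, 1, 2, 3, 4, 5, 6, 7, 8, 9, 10, 11], 0),
   ([0, 1, 3, 2, 4, 5, 7, 6, 10, 11, 8, 9], [0, 1, 3, 2, 4, 5, 7, 6, 10, 11, 8, 9], 1331),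
   ([0, 1, 4, 2, 3, 5, 9, 10, 6, 8, 11, 7], [0, 1, 3, 4, 2, 5, 8, 11, 9, 6, 7, 10], 1940),
   ([0, 1, 5, 2, 3, 4, 6, 8, 9, 10, 7, 11], [0, 1, 3, 4, 5, 2, 6, 10, 7, 8, 9, 11], 667),
   ([0, 1, 6, 2, 3, 9, 4, 7, 5, 11, 10, 8], [0, 1, 3, 4, 6, 8, 2, 7, 11, 5, 10, 9], 1581),
   ([0, 1, 7, 2, 3, 11, 8, 9, 10, 6, 4, 5], [0, 1, 3, 4, 10, 11, 9, 2, 6, 7, 8, 5], 993),
   ([0, 1, 8, 2, 3, 10, 11, 4, 7, 5, 6, 9], [0, 1, 3, 4, 7, 9, 10, 8, 2, 11, 5, 6], 1224),
   ([0, 1, 9, 2, 3, 6, 5, 11, 4, 7, 8, 10], [0, 1, 3, 4, 8, 6, 5, 9, 10, 2, 11, 7], 349),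
   ([0, 1, 10, 2, 3, 8, 7, 5, 11, 4, 9, 6], [0, 1, 3, 4, 9, 7, 11, 6, 5, 10, 2, 8], 1271),
   ([0, 1, 11, 2, 3, 7, 10, 6, 8, 9, 5, 4], [0, 1, 3, 4, 11, 10, 7, 5, 8, 9, 6, 2], 430)],
  [([0, 1, 2, 3, 4, 5, 6, 7, 8, 9, 10, 11], [0, 1, 2, 3, 4, 5, 6, 7, 8, 9, 10, 11], 0),
   ([0, 1, 2, 4, 3, 5, 10, 9, 11, 7, 6, 8], [0, 1, 2, 4, 3, 5, 10, 9, 11, 7, 6, 8], 0),
   ([0, 1, 2, 5, 3, 4, 8, 6, 7, 11, 9, 10], [0, 1, 2, 4, 5, 3, 7, 8, 6, 10, 11, 9], 0),
   ([0, 1, 2, 6, 3, 9, 7, 4, 10, 8, 5, 11], [0, 1, 2, 4, 7, 10, 3, 6, 9, 5, 8, 11], 6),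
   ([0, 1, 2, 7, 3, 11, 9, 8, 4, 5, 10, 6], [0, 1, 2, 4, 8, 9, 11, 3, 7, 6, 10, 5], 5),
   ([0, 1, 2, 8, 3, 10, 4, 11, 6, 9, 7, 5], [0, 1, 2, 4, 6, 11, 8, 10, 3, 9, 5, 7], 3),
   ([0, 1, 2, 9, 3, 6, 11, 5, 8, 10, 4, 7], [0, 1, 2, 4, 10, 7, 5, 11, 8, 3, 9, 6], 6),
   ([0, 1, 2, 10, 3, 8, 5, 7, 9, 6, 11, 4], [0, 1, 2, 4, 11, 6, 9, 7, 5, 8, 3, 10], 3),
   ([0, 1, 2, 11, 3, 7, 6, 10, 5, 4, 8, 9], [0, 1, 2, 4, 9, 8, 6, 5, 10, 11, 7, 3], 5)],
  [([0, 1, 2, 3, 4, 5, 6, 7, 8, 9, 10, 11], [0, 1, 2, 3, 4, 5, 6, 7, 8, 9, 10, 11], 0),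
   ([0, 1, 2, 3, 5, 4, 9, 11, 10, 6, 8, 7], [0, 1, 2, 3, 5, 4, 9, 11, 10, 6, 8, 7], 0),
   ([0, 1, 2, 3, 6, 9, 5, 8, 11, 4, 7, 10], [0, 1, 2, 3, 9, 6, 4, 10, 7, 5, 11, 8], 6),
   ([0, 1, 2, 3, 7, 11, 10, 5, 6, 8, 9, 4], [0, 1, 2, 3, 11, 7, 8, 4, 9, 10, 6, 5], 5),
   ([0, 1, 2, 3, 8, 10, 7, 9, 5, 11, 4, 6], [0, 1, 2, 3, 10, 8, 11, 6, 4, 7, 5, 9], 3),
   ([0, 1, 2, 3, 9, 6, 4, 10, 7, 5, 11, 8], [0, 1, 2, 3, 6, 9, 5, 8, 11, 4, 7, 10], 6),
   ([0, 1, 2, 3, 10, 8, 11, 6, 4, 7, 5, 9], [0, 1, 2, 3, 8, 10, 7, 9, 5, 11, 4, 6], 3),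
   ([0, 1, 2, 3, 11, 7, 8, 4, 9, 10, 6, 5], [0, 1, 2, 3, 7, 11, 10, 5, 6, 8, 9, 4], 5)]]

/-- Reading a list as a map of points. -/
def appA (L : List ℕ) (p : ArrayPt) : ArrayPt := ptA (L.getD (idA p) 0)

/-- The permutation with a list and the list of its inverse. -/
def permA (L Li : List ℕ) : Equiv.Perm ArrayPt :=
  if h : (∀ p, appA Li (appA L p) = p) ∧ ∀ p, appA L (appA Li p) = p then ⟨appA L, appA Li, h.1, h.2⟩ else 1

theorem autData_ok : ∀ row ∈ autData, ∀ d ∈ row,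
    ((∀ p, appA d.2.1 (appA d.1 p) = p) ∧ ∀ p, appA d.1 (appA d.2.1 p) = p) ∧
      ∀ j, (fun p => sgn d.2.2 p * gv j (appA d.2.1 p)) = enc (proj fun p => sgn d.2.2 p * gv j (appA d.2.1 p)) := by
  decide +kernel

theorem autData_levels : ∀ k ∈ List.range 5, ∀ y ∈ List.range 12, k ≤ y →
    ∃ d ∈ autData.getD k [], d.1.getD k 0 = y ∧ ∀ i ∈ List.range k, d.1.getD i 0 = i := by decide +kernel

/-- The monomial map preserves the code. -/
def AdmT (σ : Equiv.Perm ArrayPt) (c : ArrayPt → (ZMod 3)ˣ) : Prop :=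
  ∀ x ∈ ternaryGolayCode, monomialMap σ c x ∈ ternaryGolayCode

/-- A permutation lifting to the code. -/
def Lift (σ : Equiv.Perm ArrayPt) : Prop := ∃ c, AdmT σ c

theorem lift_one : Lift 1 := ⟨fun _ => 1, fun x hx => by
  rw [show monomialMap (1 : Equiv.Perm ArrayPt) (fun _ => (1 : (ZMod 3)ˣ)) x = x by funext p; simp [monomialMap]; rfl]
  exact hx⟩

theorem lift_mul {σ τ : Equiv.Perm ArrayPt} (h : Lift σ) (h' : Lift τ) : Lift (σ * τ) := by
  obtain ⟨c, hc⟩ := h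
  obtain ⟨d, hd⟩ := h'
  refine ⟨fun i => c i * d (σ.symm i), fun x hx => ?_⟩
  have e : monomialMap (σ * τ) (fun i => c i * d (σ.symm i)) x = monomialMap σ c (monomialMap τ d x) := by
    funext i
    simp only [monomialMap, Units.val_mul, mul_assoc]
    rfl
  rw [e]; exact hc _ (hd x hx)

theorem permA_eq {d : List ℕ × List ℕ × ℕ} {row : List (List ℕ × List ℕ × ℕ)} (hr : row ∈ autData) (hd : d ∈ row) :
    (∀ p, permA d.1 d.2.1 p = appA d.1 p) ∧ Lift (permA d.1 d.2.1) := by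
  obtain ⟨hp, hj⟩ := autData_ok row hr d hd
  have e : permA d.1 d.2.1 = ⟨appA d.1, appA d.2.1, hp.1, hp.2⟩ := by rw [permA, dif_pos hp]
  refine ⟨fun p => by rw [e]; rfl, fun p => if d.2.2.testBit (idA p) then -1 else 1, fun x hx => ?_⟩
  have hs : ∀ p, (((if d.2.2.testBit (idA p) then -1 else 1 : (ZMod 3)ˣ)) : ZMod 3) = sgn d.2.2 p := fun p => by
    unfold sgn; split_ifs <;> rfl
  have hgen : ∀ j, monomialMap (permA d.1 d.2.1) (fun p => if d.2.2.testBit (idA p) then -1 else 1) (gv j) ∈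
      ternaryGolayCode := fun j => by
    have e2 : monomialMap (permA d.1 d.2.1) (fun p => if d.2.2.testBit (idA p) then -1 else 1) (gv j) =
        fun p => sgn d.2.2 p * gv j (appA d.2.1 p) := by
      funext p; rw [e]; simp only [monomialMap, hs]; rfl
    rw [e2, hj j]; exact enc_mem _
  rw [eq_enc hx, enc_eq_sum]
  have e3 : monomialMap (permA d.1 d.2.1) (fun p => if d.2.2.testBit (idA p) then -1 else 1)
      (∑ j, proj x j • gv j) = ∑ j, proj x j •
      monomialMap (permA d.1 d.2.1) (fun p => if d.2.2.testBit (idA p) then -1 else 1) (gv j) := by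
    funext p
    simp only [monomialMap, Finset.sum_apply, Pi.smul_apply, smul_eq_mul, Finset.mul_sum]
    exact Finset.sum_congr rfl fun j _ => by ring
  rw [e3]
  exact sum_mem fun j _ => Submodule.smul_mem _ _ (hgen j)

/-- The automorphisms of the hexads. -/
abbrev hexAut : Subgroup (Equiv.Perm ArrayPt) := setSystemAut hexads

theorem lift_le {σ : Equiv.Perm ArrayPt} (h : Lift σ) : σ ∈ hexAut := by
  obtain ⟨c, hc⟩ := h
  have hsub : σ • hexads ⊆ hexads := by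
    rintro _ ⟨s, ⟨x, hx, e, h6⟩, rfl⟩
    refine ⟨monomialMap σ c x, hc x hx, ?_, by rw [Finset.card_smul_finset]; exact h6⟩
    show ternarySupport (monomialMap σ c x) = σ • s
    rw [← e]
    ext p
    rw [← Finset.inv_smul_mem_iff]
    simp only [ternarySupport, mem_filter, mem_univ, true_and, monomialMap, ne_eq, mul_eq_zero, Units.ne_zero,
      false_or]
    rfl
  rw [MulAction.mem_stabilizer_iff]
  exact Set.eq_of_subset_of_ncard_le hsub (by rw [Set.ncard_smul_set]) (Set.toFinite _)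

/-- The base points. -/
def bA (i : Fin 5) : ArrayPt := ptA i.val

/-- All arrangements without repetition. -/
def arr : ℕ → List ℕ → List (List ℕ)
  | 0, _ => [[]]
  | n + 1, avail => avail.flatMap fun a => (arr n (avail.erase a)).map (a :: ·)

theorem mem_arr : ∀ (n : ℕ) (avail L : List ℕ), L.length = n → L.Nodup → (∀ a ∈ L, a ∈ avail) → L ∈ arr n avail
  | 0, avail, L, hl, _, _ => by rw [List.length_eq_zero_iff.1 hl]; simp [arr]
  | n + 1, avail, [], hl, _, _ => by simp at hl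
  | n + 1, avail, a :: L, hl, hn, hs => by
    rw [arr, List.mem_flatMap]
    refine ⟨a, hs a (by simp), List.mem_map.2 ⟨L, mem_arr n _ L (by simpa using hl) (List.nodup_cons.1 hn).2 ?_, rfl⟩⟩
    intro b hb
    exact (List.mem_erase_of_ne (show b ≠ a from fun e => (List.nodup_cons.1 hn).1 (e ▸ hb))).2 (hs b (by simp [hb]))

/-- The image of a mask under a list. -/
def imgA (L : List ℕ) (h : ℕ) : ℕ :=
  fromBits ((List.range 12).map fun j => (List.range 12).any fun i => h.testBit i && Nat.beq (L.getD i 0) j)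

theorem rigid_check : ∀ T ∈ arr 6 [6, 7, 8, 9, 10, 11],
    ((hexWit.map Prod.fst).all fun h => (hexWit.map Prod.fst).elem (imgA ([0, 1, 2, 3, 4, 5] ++ T) h)) = true →
      T = [6, 7, 8, 9, 10, 11] := by decide +kernel

theorem base_five : maskA ((univ : Finset (Fin 5)).image bA) = 31 ∧ 63 ∈ hexWit.map Prod.fst ∧
    (31 : ℕ) &&& 63 = 31 ∧ ∀ p, (63 : ℕ).testBit (idA p) = true → (∃ i, bA i = p) ∨ p = ptA 5 := by
  decide +kernel

theorem bA_ne : ∀ i, bA i ≠ ptA 5 := by decide +kernel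

theorem rigid {g : Equiv.Perm ArrayPt} (hg : g ∈ hexAut) (hfix : ∀ i, g (bA i) = bA i) : g = 1 := by
  have hmem : ∀ {s}, s ∈ hexads → g • s ∈ hexads := fun {s} hs => by
    have := Set.smul_mem_smul_set (a := g) hs
    rwa [MulAction.mem_stabilizer_iff.1 hg] at this
  obtain ⟨b1, b2, b3, b4⟩ := base_five
  have h63 : setA 63 ∈ hexads := by
    rw [mem_hexads, setA_inj (maskA_lt _) (show (63 : ℕ) < 4096 by norm_num) (setA_maskA _)]; exact b2
  set F := (univ : Finset (Fin 5)).image bA with hF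
  have hFs : F ⊆ setA 63 := by
    rw [subset_iff_land, b1, setA_inj (maskA_lt _) (show (63 : ℕ) < 4096 by norm_num) (setA_maskA _)]; exact b3
  have hFc : F.card = 5 := by rw [← setA_maskA F, card_setA, b1]; decide +kernel
  have hgF : g • F = F := by
    rw [Finset.smul_finset_def, hF, Finset.image_image]
    exact Finset.image_congr fun i _ => hfix i
  have hg63 : g • setA 63 = setA 63 := (hexads_steiner.2 F hFc).unique
    ⟨hmem h63, hgF ▸ Finset.smul_finset_subset_smul_finset hFs⟩ ⟨h63, hFs⟩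
  have h5 : g (ptA 5) = ptA 5 := by
    have : g (ptA 5) ∈ setA 63 := by
      rw [← hg63]; exact Finset.smul_mem_smul_finset (mem_setA.2 (by decide +kernel))
    rcases b4 _ (mem_setA.1 this) with ⟨i, hi⟩ | h
    · have := g.injective ((hfix i).trans hi)
      exact absurd this (bA_ne i)
    · exact h
  have hlow : ∀ i ∈ List.range 6, g (ptA i) = ptA i := fun i hi => by
    have := List.mem_range.1 hi
    interval_cases i
    exacts [hfix 0, hfix 1, hfix 2, hfix 3, hfix 4, h5]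
  let T : List ℕ := [6, 7, 8, 9, 10, 11].map fun i => idA (g (ptA i))
  have hinj : ∀ i < 12, ∀ j < 12, idA (g (ptA i)) = idA (g (ptA j)) → i = j := fun i hi j hj e => by
    have := congrArg idA (g.injective (idA_inj e))
    rwa [idA_ptA_all i (List.mem_range.2 hi), idA_ptA_all j (List.mem_range.2 hj)] at this
  have hT : T ∈ arr 6 [6, 7, 8, 9, 10, 11] := by
    refine mem_arr 6 _ T (by simp [T]) ?_ ?_
    · refine (List.nodup_map_iff_inj_on (by decide)).2 fun i hi j hj e => hinj i ?_ j ?_ e <;>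
        (simp at hi hj; omega)
    · intro a ha
      obtain ⟨i, hi, rfl⟩ := List.mem_map.1 ha
      have hi' : 6 ≤ i ∧ i < 12 := by simp at hi; omega
      by_contra hne
      have hlt := idA_lt (g (ptA i))
      have ha6 : idA (g (ptA i)) < 6 := by simp at hne; omega
      have e := hlow _ (List.mem_range.2 ha6)
      rw [ptA_idA] at e
      have h2 := congrArg idA (g.injective e)
      rw [idA_ptA_all i (List.mem_range.2 hi'.2)] at h2
      omega
  have hL : ∀ i < 12, ([0, 1, 2, 3, 4, 5] ++ T).getD i 0 = idA (g (ptA i)) := by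
    intro i hi
    have key : ∀ j ∈ List.range 6, j = idA (g (ptA j)) := fun j hj => by
      rw [hlow j hj, idA_ptA_all j (List.mem_range.2 (by have := List.mem_range.1 hj; omega))]
    interval_cases i
    · exact key 0 (List.mem_range.2 (by norm_num))
    · exact key 1 (List.mem_range.2 (by norm_num))
    · exact key 2 (List.mem_range.2 (by norm_num))
    · exact key 3 (List.mem_range.2 (by norm_num))
    · exact key 4 (List.mem_range.2 (by norm_num))
    · exact key 5 (List.mem_range.2 (by norm_num))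
    · rfl
    · rfl
    · rfl
    · rfl
    · rfl
    · rfl
  have hall : ((hexWit.map Prod.fst).all fun h =>
      (hexWit.map Prod.fst).elem (imgA ([0, 1, 2, 3, 4, 5] ++ T) h)) = true := by
    rw [List.all_eq_true]
    intro h hh
    have hlt : h < 4096 := of_decide_eq_true (List.all_eq_true.1 hexWit_nodup.2.1 h hh)
    have hs : setA h ∈ hexads := by rw [mem_hexads, setA_inj (maskA_lt _) hlt (setA_maskA _)]; exact hh
    have h2 := mem_hexads.1 (hmem hs)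
    have e : maskA (g • setA h) = imgA ([0, 1, 2, 3, 4, 5] ++ T) h := by
      refine setA_inj (maskA_lt _) ((fromBits_lt _).trans_eq (by rw [List.length_map, List.length_range]; rfl)) ?_
      rw [setA_maskA]
      ext q
      rw [mem_setA, imgA, testBit_fromBits, List.getD_eq_getElem _ _ (by simpa using idA_lt q), List.getElem_map,
        List.getElem_range]
      simp only [List.any_eq_true, List.mem_range, Bool.and_eq_true, Nat.beq_eq, Finset.mem_smul_finset]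
      constructor
      · rintro ⟨p, hp, rfl⟩
        refine ⟨idA p, idA_lt p, mem_setA.1 hp, ?_⟩
        rw [hL _ (idA_lt p), ptA_idA]; rfl
      · rintro ⟨i, hi, hb, e⟩
        refine ⟨ptA i, mem_setA.2 (by rwa [idA_ptA_all i (List.mem_range.2 hi)]), ?_⟩
        rw [hL i hi] at e
        exact idA_inj e
    rw [List.elem_eq_mem, decide_eq_true_iff, ← e]
    exact h2
  have hid := rigid_check T hT hall
  ext1 p
  have := hL _ (idA_lt p)
  rw [hid, ptA_idA] at this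
  refine idA_inj (this.symm.trans ?_)
  rw [Equiv.Perm.one_apply]
  have := idA_lt p
  generalize idA p = k at *
  interval_cases k <;> rfl

theorem exists_lift_to (x : ℕ → ArrayPt) : ∀ n ≤ 5, (∀ i < n, ∀ j < n, i ≠ j → x i ≠ x j) →
    ∃ g, Lift g ∧ ∀ j < n, g (ptA j) = x j := by
  intro n hn hx
  induction n with
  | zero => exact ⟨1, lift_one, fun j hj => absurd hj (Nat.not_lt_zero j)⟩
  | succ n ih =>
    obtain ⟨g, hg, eg⟩ := ih (by omega) fun i hi j hj => hx i (by omega) j (by omega)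
    set y := idA (g⁻¹ (x n)) with hy
    have hyn : n ≤ y := by
      by_contra hlt
      have h := eg y (by omega)
      rw [hy, ptA_idA] at h
      rw [show g (g⁻¹ (x n)) = x n from g.apply_symm_apply _] at h
      exact hx n (by omega) y (by omega) (by omega) (h.trans (by rw [hy]))
    obtain ⟨d, hd, hdk, hdi⟩ := autData_levels n (List.mem_range.2 (by omega)) y (List.mem_range.2 (idA_lt _)) hyn
    have hrow : autData.getD n [] ∈ autData := by
      have hl : n < autData.length := by simp [autData]; omega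
      rw [List.getD_eq_getElem _ _ hl]; exact List.getElem_mem hl
    obtain ⟨hp, hu⟩ := permA_eq hrow hd
    refine ⟨g * permA d.1 d.2.1, lift_mul hg hu, fun j hj => ?_⟩
    have hj12 : j ∈ List.range 12 := List.mem_range.2 (by omega)
    rw [Equiv.Perm.mul_apply, hp, appA, idA_ptA_all j hj12]
    rcases Nat.lt_or_ge j n with h | h
    · rw [hdi j (List.mem_range.2 h), eg j h]
    · rw [show j = n by omega, hdk, hy, ptA_idA]; exact g.apply_symm_apply _

theorem lift_of_mem {g : Equiv.Perm ArrayPt} (hg : g ∈ hexAut) : Lift g := by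
  obtain ⟨u, hu, e⟩ := exists_lift_to (fun i => g (ptA i)) 5 le_rfl fun i hi j hj hne h => hne (by
    have := congrArg idA (g.injective h)
    rwa [idA_ptA_all i (List.mem_range.2 (by omega)), idA_ptA_all j (List.mem_range.2 (by omega))] at this)
  have h1 : u⁻¹ * g = 1 := rigid (mul_mem (inv_mem (lift_le hu)) hg) fun i => by
    rw [Equiv.Perm.mul_apply, Equiv.Perm.inv_eq_iff_eq]
    exact (e i.val i.isLt).symm
  rwa [← inv_mul_eq_one.1 h1]

theorem bA_injective : Function.Injective bA := by decide +kernel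

theorem card_hexAut : Nat.card hexAut = 95040 := by
  let φ : hexAut → (Fin 5 ↪ ArrayPt) := fun g => ⟨fun i => (g : Equiv.Perm ArrayPt) (bA i),
    (g : Equiv.Perm ArrayPt).injective.comp bA_injective⟩
  have hb : Function.Bijective φ := by
    constructor
    · intro g h e
      have h1 := rigid (mul_mem (inv_mem h.2) g.2) fun i => by
        rw [Equiv.Perm.mul_apply, Equiv.Perm.inv_eq_iff_eq]
        exact DFunLike.congr_fun e i
      exact Subtype.ext (inv_mul_eq_one.1 h1).symm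
    · intro e
      obtain ⟨u, hu, eu⟩ := exists_lift_to (fun i => if h : i < 5 then e ⟨i, h⟩ else e 0) 5 le_rfl
        fun i hi j hj hne h => hne (by
          rw [dif_pos hi, dif_pos hj] at h
          exact congrArg Fin.val (e.injective h))
      exact ⟨⟨u, lift_le hu⟩, DFunLike.ext _ _ fun i => by
        show u (ptA i.val) = e i
        rw [eu i.val i.isLt, dif_pos i.isLt]⟩
  rw [Nat.card_congr (Equiv.ofBijective φ hb), Nat.card_eq_fintype_card, Fintype.card_embedding_eq]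
  rfl

theorem perm_parts_eq : {σ : Equiv.Perm ArrayPt | ∃ c, AdmT σ c} = (hexAut : Set (Equiv.Perm ArrayPt)) :=
  Set.ext fun _ => ⟨lift_le, lift_of_mem⟩

theorem card_monomial : Nat.card {f : Equiv.Perm ArrayPt × (ArrayPt → (ZMod 3)ˣ) // AdmT f.1 f.2} = 190080 := by
  choose C hC using fun σ : hexAut => lift_of_mem σ.2
  let e : hexAut × (ZMod 3)ˣ → {f : Equiv.Perm ArrayPt × (ArrayPt → (ZMod 3)ˣ) // AdmT f.1 f.2} := fun p =>
    ⟨((p.1 : Equiv.Perm ArrayPt), fun i => p.2 * C p.1 i), fun x hx => by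
      have := ternaryGolayCode.smul_mem (p.2 : ZMod 3) (hC p.1 x hx)
      have e' : monomialMap (p.1 : Equiv.Perm ArrayPt) (fun i => p.2 * C p.1 i) x =
          (p.2 : ZMod 3) • monomialMap (p.1 : Equiv.Perm ArrayPt) (C p.1) x := by
        funext i; simp [monomialMap, mul_assoc]
      rw [e']; exact this⟩
  have hb : Function.Bijective e := by
    constructor
    · rintro ⟨σ, u⟩ ⟨τ, v⟩ he
      have h1 : σ = τ := Subtype.ext (congrArg (fun f => f.1.1) he)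
      subst h1
      exact Prod.ext rfl (mul_right_cancel (congrFun (congrArg (fun f => f.1.2) he) (ptA 0)))
    · rintro ⟨⟨σ, c⟩, hc⟩
      let s : hexAut := ⟨σ, lift_le ⟨c, hc⟩⟩
      have hinj : Function.Injective fun y : ternaryGolayCode =>
          (⟨monomialMap σ (C s) y, hC s y y.2⟩ : ternaryGolayCode) := fun a b e => Subtype.ext (funext fun i => by
        have := congrFun (congrArg Subtype.val e) (σ i)
        simpa [monomialMap] using this)
      have hrat : ∀ x ∈ ternaryGolayCode, monomialMap 1 (fun i => c i / C s i) x ∈ ternaryGolayCode := by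
        intro x hx
        obtain ⟨y, hy⟩ := (Finite.injective_iff_surjective.1 hinj) ⟨x, hx⟩
        have e2 : monomialMap 1 (fun i => c i / C s i) x = monomialMap σ c y := by
          funext i
          rw [← show monomialMap σ (C s) (y : ArrayPt → ZMod 3) = x from congrArg Subtype.val hy]
          show ((c i / C s i : (ZMod 3)ˣ) : ZMod 3) * ((C s i : ZMod 3) * (y : ArrayPt → ZMod 3) (σ.symm i)) = _
          rw [← mul_assoc, ← Units.val_mul, div_mul_cancel]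
          rfl
        rw [e2]; exact hc y y.2
      rcases diagonal_kernel _ hrat with h | h
      · exact ⟨(s, 1), Subtype.ext (Prod.ext rfl (funext fun i => by
          show 1 * C s i = c i
          rw [one_mul, ← div_eq_one.1 (h i)]))⟩
      · exact ⟨(s, -1), Subtype.ext (Prod.ext rfl (funext fun i => by
          show -1 * C s i = c i
          rw [← h i, div_mul_cancel]))⟩
  rw [← Nat.card_congr (Equiv.ofBijective e hb), Nat.card_prod, card_hexAut,
    show Nat.card (ZMod 3)ˣ = 2 by rw [Nat.card_units, Nat.card_zmod]]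

end CfsgLib.Spor.Ternary
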