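import Cfsg.Prelude.Def_SporadicCombinatorics
import Cfsg.Agent.Lib.SporBits
import Cfsg.Agent.Lib.SporTernaryData

/-!
The ternary code of length 12 through a generator matrix.
-/

set_option autoImplicit false
set_option maxRecDepth 20000

namespace CfsgLib.Spor.Ternary
open Cfsg Finset

/-- Position in the list. -/
def idA (p : ArrayPt) : ℕ := 3 * p.1.val + p.2.val

/-- The point at a position. -/
def ptA (i : ℕ) : ArrayPt := (Fin.ofNat 4 (i / 3), ((i % 3 : ℕ) : ZMod 3))

theorem ptA_idA : ∀ p, ptA (idA p) = p := by decide +kernel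

theorem idA_lt : ∀ p, idA p < 12 := by decide +kernel

theorem idA_ptA_all : ∀ i ∈ List.range 12, idA (ptA i) = i := by decide +kernel

theorem idA_inj : Function.Injective idA := Function.LeftInverse.injective ptA_idA

/-- An entry of the generator matrix. -/
def gv (j : Fin 6) : ArrayPt → ZMod 3 := fun p => ((genT.getD j.val []).getD (idA p) 0 : ℕ)

/-- The word with given coefficients. -/
def enc (c : Fin 6 → ZMod 3) : ArrayPt → ZMod 3 := fun p => ∑ j, c j * gv j p

/-- The information coordinates. -/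
def proj (x : ArrayPt → ZMod 3) : Fin 6 → ZMod 3 := fun j => x (![(0, 0), (0, 1), (0, 2), (1, 0), (1, 1), (2, 0)] j)

theorem enc_eq_sum (c : Fin 6 → ZMod 3) : enc c = ∑ j, c j • gv j := by
  funext p
  simp [enc, Finset.sum_apply]

theorem proj_enc : ∀ c, proj (enc c) = c := by decide +kernel

theorem mem_tetracode {t : Fin 4 → ZMod 3} :
    t ∈ tetracode ↔ ∃ a b : ZMod 3, a • ![0, 1, 1, 1] + b • ![1, 0, 1, 2] = t :=
  Submodule.mem_span_pair

theorem mem_code_iff {x : ArrayPt → ZMod 3} : x ∈ ternaryGolayCode ↔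
    ∃ s : ZMod 3, (∀ i : Fin 4, ∑ r : ZMod 3, x (i, r) = -s) ∧
      ∀ a b : ZMod 3, ∑ i : Fin 4, x (i, a * ![0, 1, 1, 1] i + b * ![1, 0, 1, 2] i) = s := by
  show IsTernaryGolayWord x ↔ _
  refine exists_congr fun s => and_congr_right fun _ => ⟨fun h a b => h _ (mem_tetracode.2 ⟨a, b, rfl⟩), ?_⟩
  intro h t ht
  obtain ⟨a, b, rfl⟩ := mem_tetracode.1 ht
  exact h a b

theorem gv_mem (j : Fin 6) : gv j ∈ ternaryGolayCode := by
  rw [mem_code_iff]
  revert j
  decide +kernel

/-- Extension by zero off the other six coordinates. -/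
def rest (v : Fin 6 → ZMod 3) : ArrayPt → ZMod 3 := fun p =>
  ([(1, 2), (2, 1), (2, 2), (3, 0), (3, 1), (3, 2)] : List (ArrayPt)).idxOf p |> fun k => if h : k < 6 then v ⟨k, h⟩ else 0

theorem rest_zero : ∀ v, (∃ s : ZMod 3, (∀ i : Fin 4, ∑ r : ZMod 3, rest v (i, r) = -s) ∧
      ∀ a b : ZMod 3, ∑ i : Fin 4, rest v (i, a * ![0, 1, 1, 1] i + b * ![1, 0, 1, 2] i) = s) → v = 0 := by
  decide +kernel

theorem enc_mem (c : Fin 6 → ZMod 3) : enc c ∈ ternaryGolayCode := by
  rw [enc_eq_sum]
  exact sum_mem fun j _ => Submodule.smul_mem _ _ (gv_mem j)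

theorem eq_enc {x : ArrayPt → ZMod 3} (hx : x ∈ ternaryGolayCode) : x = enc (proj x) := by
  set z := x - enc (proj x) with hz
  have hm : z ∈ ternaryGolayCode := sub_mem hx (enc_mem _)
  have h0 : proj z = 0 := by
    funext j
    show x _ - enc (proj x) _ = 0
    exact sub_eq_zero.2 (congrFun (proj_enc (proj x)) j).symm
  have key : ∀ p, z p = rest (fun k => z (([(1, 2), (2, 1), (2, 2), (3, 0), (3, 1), (3, 2)] : List (ArrayPt)).getD k.val default)) p := by
    intro p
    have hj := fun j => congrFun h0 j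
    simp only [proj, Pi.zero_apply] at hj
    have a0 := hj 0
    have a1 := hj 1
    have a2 := hj 2
    have a3 := hj 3
    have a4 := hj 4
    have a5 := hj 5
    obtain ⟨i, r⟩ := p
    fin_cases i <;> fin_cases r <;> first | rfl | exact a0 | exact a1 | exact a2 | exact a3 | exact a4 | exact a5
  have hv := rest_zero _ (mem_code_iff.1 (funext key ▸ hm))
  have : z = 0 := funext fun p => by
    rw [key p, hv]
    simp [rest]
  exact sub_eq_zero.1 this

theorem mem_iff {x : ArrayPt → ZMod 3} : x ∈ ternaryGolayCode ↔ ∃ c, enc c = x :=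
  ⟨fun h => ⟨_, (eq_enc h).symm⟩, by rintro ⟨c, rfl⟩; exact enc_mem c⟩

theorem enc_injective : Function.Injective enc := Function.LeftInverse.injective proj_enc

theorem card_code : Nat.card ternaryGolayCode = 729 := by
  rw [← Nat.card_congr (Equiv.ofBijective (fun c : Fin 6 → ZMod 3 => (⟨enc c, enc_mem c⟩ : ternaryGolayCode))
    ⟨fun a b h => enc_injective (congrArg Subtype.val h), fun x => ⟨proj x.1, Subtype.ext (eq_enc x.2).symm⟩⟩)]
  simp

theorem weights : ∀ c, c ≠ 0 → (ternarySupport (enc c)).card = 6 ∨ (ternarySupport (enc c)).card = 9 ∨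
    (ternarySupport (enc c)).card = 12 := by decide +kernel

theorem ncard_weight (k : ℕ) : {x : ArrayPt → ZMod 3 | x ∈ ternaryGolayCode ∧ (ternarySupport x).card = k}.ncard =
    ((univ : Finset (Fin 6 → ZMod 3)).filter fun c => (ternarySupport (enc c)).card = k).card := by
  rw [← card_image_of_injective _ enc_injective, ← Set.ncard_coe_finset]
  congr 1
  ext x
  simp only [Set.mem_setOf_eq, coe_image, Set.mem_image, mem_coe, mem_filter, mem_univ, true_and, mem_iff]
  constructor
  · rintro ⟨⟨c, rfl⟩, h⟩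
    exact ⟨c, h, rfl⟩
  · rintro ⟨c, h, rfl⟩
    exact ⟨⟨c, rfl⟩, h⟩

theorem weight_counts :
    ((univ : Finset (Fin 6 → ZMod 3)).filter fun c => (ternarySupport (enc c)).card = 6).card = 264 ∧
    ((univ : Finset (Fin 6 → ZMod 3)).filter fun c => (ternarySupport (enc c)).card = 9).card = 440 ∧
    ((univ : Finset (Fin 6 → ZMod 3)).filter fun c => (ternarySupport (enc c)).card = 12).card = 24 := by
  decide +kernel

theorem orth : ∀ j k : Fin 6, ∑ p, gv j p * gv k p = 0 := by decide +kernel

theorem self_orthogonal {x y : ArrayPt → ZMod 3} (hx : x ∈ ternaryGolayCode) (hy : y ∈ ternaryGolayCode) :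
    ∑ p, x p * y p = 0 := by
  rw [eq_enc hx, eq_enc hy]
  simp only [enc, sum_mul_sum]
  rw [sum_comm]
  refine sum_eq_zero fun j _ => ?_
  rw [sum_comm]
  refine sum_eq_zero fun k _ => ?_
  rw [sum_congr rfl fun p _ => show proj x j * gv j p * (proj y k * gv k p) =
    proj x j * proj y k * (gv j p * gv k p) by ring, ← mul_sum, orth, mul_zero]

/-- Signs from a mask. -/
def sgn (m : ℕ) (p : ArrayPt) : ZMod 3 := if m.testBit (idA p) then -1 else 1

theorem sgn_check : ∀ m ∈ List.range 4096,
    (∀ j, (fun p => sgn m p * gv j p) = enc (proj fun p => sgn m p * gv j p)) → m = 0 ∨ m = 4095 := by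
  decide +kernel

/-- The mask of a set of points. -/
def maskA (s : Finset ArrayPt) : ℕ := fromBits ((List.range 12).map fun i => decide (ptA i ∈ s))

theorem maskA_lt (s : Finset ArrayPt) : maskA s < 4096 :=
  (fromBits_lt _).trans_eq (by rw [List.length_map, List.length_range]; rfl)

theorem testBit_maskA (s : Finset ArrayPt) (p : ArrayPt) : (maskA s).testBit (idA p) = true ↔ p ∈ s := by
  rw [maskA, testBit_fromBits, List.getD_eq_getElem _ _ (by simpa using idA_lt p), List.getElem_map,
    List.getElem_range, ptA_idA, decide_eq_true_iff]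

/-- The set of a mask. -/
def setA (m : ℕ) : Finset ArrayPt := univ.filter fun p => m.testBit (idA p) = true

theorem mem_setA {m : ℕ} {p : ArrayPt} : p ∈ setA m ↔ m.testBit (idA p) = true := by simp [setA]

theorem setA_maskA (s : Finset ArrayPt) : setA (maskA s) = s := by ext p; rw [mem_setA, testBit_maskA]

theorem setA_inj {m n : ℕ} (hm : m < 4096) (hn : n < 4096) (h : setA m = setA n) : m = n := by
  refine Nat.eq_of_testBit_eq fun i => ?_
  by_cases hi : i < 12
  · have := Finset.ext_iff.1 h (ptA i)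
    rw [mem_setA, mem_setA, idA_ptA_all i (List.mem_range.2 hi)] at this
    exact Bool.eq_iff_iff.2 this
  · have h2 : 4096 ≤ 2 ^ i := by
      calc 4096 = 2 ^ 12 := by norm_num
        _ ≤ 2 ^ i := Nat.pow_le_pow_right (by omega) (by omega)
    rw [Nat.testBit_lt_two_pow (hm.trans_le h2), Nat.testBit_lt_two_pow (hn.trans_le h2)]

theorem card_setA (m : ℕ) : (setA m).card = pcount 12 m := by
  rw [pcount_eq]
  refine card_bij (fun p _ => idA p) ?_ (fun a _ b _ h => idA_inj h) ?_
  · intro p hp; rw [mem_setA] at hp; simp [idA_lt, hp]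
  · intro i hi; simp at hi
    refine ⟨ptA i, ?_, idA_ptA_all i (List.mem_range.2 hi.1)⟩
    rw [mem_setA, idA_ptA_all i (List.mem_range.2 hi.1)]; exact hi.2

/-- The hexads. -/
abbrev hexads : Set (Finset ArrayPt) :=
  {h | ∃ x ∈ ternaryGolayCode, ternarySupport x = h ∧ h.card = 6}

theorem hex_sound : ∀ c, (ternarySupport (enc c)).card = 6 → maskA (ternarySupport (enc c)) ∈ hexWit.map Prod.fst := by
  decide +kernel

theorem hex_complete : ∀ w ∈ hexWit, maskA (ternarySupport (enc fun j => ((w.2.getD j.val 0 : ℕ) : ZMod 3))) = w.1 ∧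
    pcount 12 w.1 = 6 := by decide +kernel

theorem mem_hexads {s : Finset ArrayPt} : s ∈ hexads ↔ maskA s ∈ hexWit.map Prod.fst := by
  constructor
  · rintro ⟨x, hx, rfl, hc⟩
    obtain ⟨c, rfl⟩ := mem_iff.1 hx
    exact hex_sound c hc
  · intro h
    obtain ⟨w, hw, e⟩ := List.mem_map.1 h
    obtain ⟨h1, h2⟩ := hex_complete w hw
    refine ⟨enc fun j => ((w.2.getD j.val 0 : ℕ) : ZMod 3), enc_mem _, ?_, by rw [← setA_maskA s, card_setA, ← e, h2]⟩
    rw [← setA_maskA s, ← e, ← h1, setA_maskA]

theorem five_check : ∀ m ∈ List.range 4096, pcount 12 m = 5 →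
    ((hexWit.map Prod.fst).filter fun h => Nat.beq (Nat.land m h) m).length = 1 := by
  decide +kernel

theorem hexWit_nodup : (hexWit.map Prod.fst).Nodup ∧ (hexWit.map Prod.fst).all (fun h => decide (h < 4096)) = true ∧
    hexWit.length = 132 := by decide +kernel

theorem subset_iff_land {s h : Finset ArrayPt} : s ⊆ h ↔ maskA s &&& maskA h = maskA s := by
  constructor
  · intro hs
    refine setA_inj (lt_of_le_of_lt Nat.and_le_left (maskA_lt s)) (maskA_lt s) ?_
    ext p
    simp only [mem_setA, Nat.testBit_and, Bool.and_eq_true, testBit_maskA]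
    exact ⟨fun h => h.1, fun h => ⟨h, hs h⟩⟩
  · intro e p hp
    rw [← testBit_maskA, ← e, Nat.testBit_and, Bool.and_eq_true, testBit_maskA, testBit_maskA] at hp
    exact hp.2

theorem hexads_steiner : IsSteinerSystem 5 6 hexads := by
  refine ⟨fun b ⟨x, _, _, h⟩ => h, fun s hs => ?_⟩
  have h := five_check (maskA s) (List.mem_range.2 (maskA_lt s)) (by rw [← card_setA, setA_maskA, hs])
  obtain ⟨a, ha⟩ := List.length_eq_one_iff.1 h
  have mema := ha.symm ▸ List.mem_singleton_self a
  rw [List.mem_filter, Nat.beq_eq] at mema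
  have ha4 : a < 4096 := of_decide_eq_true (List.all_eq_true.1 hexWit_nodup.2.1 a mema.1)
  have hma : maskA (setA a) = a := setA_inj (maskA_lt _) ha4 (setA_maskA _)
  refine ⟨setA a, ⟨mem_hexads.2 (by rw [hma]; exact mema.1), subset_iff_land.2 (by rw [hma]; exact mema.2)⟩, ?_⟩
  rintro b ⟨hb, hsb⟩
  rw [← setA_maskA b]
  congr 1
  have : maskA b ∈ (hexWit.map Prod.fst).filter fun h => Nat.beq (Nat.land (maskA s) h) (maskA s) :=
    List.mem_filter.2 ⟨mem_hexads.1 hb, by rw [Nat.beq_eq]; exact subset_iff_land.1 hsb⟩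
  rw [ha] at this
  exact List.mem_singleton.1 this

theorem ncard_hexads : hexads.ncard = 132 := by
  obtain ⟨hn, hb, hl⟩ := hexWit_nodup
  rw [List.all_eq_true] at hb
  have e : hexads = ↑((hexWit.map Prod.fst).toFinset.image setA) := by
    ext s
    rw [mem_hexads]
    simp only [coe_image, Set.mem_image, mem_coe, List.mem_toFinset]
    constructor
    · exact fun h => ⟨_, h, setA_maskA s⟩
    · rintro ⟨m, hm, rfl⟩
      rwa [setA_inj (maskA_lt _) (of_decide_eq_true (hb m hm)) (setA_maskA _)]
  rw [e, Set.ncard_coe_finset, card_image_of_injOn, List.toFinset_card_of_nodup hn, List.length_map, hl]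
  intro a ha b hb' h
  simp only [mem_coe, List.mem_toFinset] at ha hb'
  exact setA_inj (of_decide_eq_true (hb a ha)) (of_decide_eq_true (hb b hb')) h

theorem diagonal_kernel (c : ArrayPt → (ZMod 3)ˣ)
    (h : ∀ x ∈ ternaryGolayCode, monomialMap 1 c x ∈ ternaryGolayCode) : (∀ p, c p = 1) ∨ (∀ p, c p = -1) := by
  have hu : ∀ u : (ZMod 3)ˣ, u = 1 ∨ u = -1 := by decide
  set m := maskA (univ.filter fun p => c p = -1) with hm
  have hs : ∀ p, (c p : ZMod 3) = sgn m p := fun p => by
    unfold sgn
    rcases hu (c p) with e | e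
    · rw [if_neg, e]; · rfl
      rw [hm, testBit_maskA]; simp [e]; decide
    · rw [if_pos, e]; · rfl
      rw [hm, testBit_maskA]; simp [e]
  have := sgn_check m (List.mem_range.2 (maskA_lt _)) fun j => eq_enc (by
    have e : (fun p => sgn m p * gv j p) = monomialMap 1 c (gv j) := funext fun p => by
      rw [← hs]; rfl
    rw [e]; exact h _ (gv_mem j))
  rcases this with e | e
  · refine Or.inl fun p => (hu (c p)).resolve_right fun hp => ?_
    have : m.testBit (idA p) = true := by rw [hm, testBit_maskA]; simp [hp]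
    rw [e, Nat.zero_testBit] at this
    exact Bool.noConfusion this
  · refine Or.inr fun p => ?_
    have : m.testBit (idA p) = true := by
      rw [e, show (4095 : ℕ) = 2 ^ 12 - 1 from rfl, Nat.testBit_two_pow_sub_one, decide_eq_true_iff]
      exact idA_lt p
    rw [hm, testBit_maskA] at this
    simpa using this

end CfsgLib.Spor.Ternary
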