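import Cfsg.Prelude.Def_JComponents
import Mathlib.GroupTheory.Sylow
import Mathlib.GroupTheory.Nilpotent

/-!
# Strong embedding and straddling `2`-subgroups
-/

set_option autoImplicit false

universe u

namespace CfsgLib.Straddling

open Subgroup

variable {G : Type u} [Group G] [Finite G]

/-- If the normalizer of each nontrivial `2`-subgroup of `M` lies in `M`, then a `2`-subgroup meeting
`M` nontrivially lies in `M`. -/
theorem le_of_inf_ne_bot {M : Subgroup G}
    (hM : ∀ T : Subgroup G, IsPGroup 2 T → T ≠ ⊥ → T ≤ M → normalizer (T : Set G) ≤ M)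
    {R : Subgroup G} (hR : IsPGroup 2 R) (hne : R ⊓ M ≠ ⊥) : R ≤ M := by
  haveI : Fact (Nat.Prime 2) := ⟨Nat.prime_two⟩
  haveI := hR.isNilpotent
  by_contra hle
  have hlt : M.subgroupOf R < ⊤ := lt_top_iff_ne_top.2 fun e => hle (subgroupOf_eq_top.1 e)
  have hgt := Group.normalizerCondition_of_isNilpotent (M.subgroupOf R) hlt
  obtain ⟨x, hx, hxn⟩ := SetLike.exists_of_lt hgt
  refine hxn (mem_subgroupOf.2 (hM (R ⊓ M) (hR.to_le inf_le_left) hne inf_le_right ?_))
  rw [mem_normalizer_iff] at hx ⊢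
  intro y
  constructor
  · intro hy
    exact ⟨R.mul_mem (R.mul_mem x.2 hy.1) (R.inv_mem x.2),
      mem_subgroupOf.1 ((hx ⟨y, hy.1⟩).1 (mem_subgroupOf.2 hy.2))⟩
  · intro hy
    have h1 : y ∈ R := by
      have := R.mul_mem (R.mul_mem (R.inv_mem x.2) hy.1) x.2
      simpa [mul_assoc] using this
    exact ⟨h1, mem_subgroupOf.1 ((hx ⟨y, h1⟩).2 (mem_subgroupOf.2 hy.2))⟩

theorem normalizer_le_of_stronglyEmbedded {M : Subgroup G} (h : Cfsg.IsStronglyEmbedded M)
    {T : Subgroup G} (hT : IsPGroup 2 T) (hT1 : T ≠ ⊥) (hTM : T ≤ M) :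
    normalizer (T : Set G) ≤ M := by
  intro g hg
  by_contra hgM
  haveI : Fact (Nat.Prime 2) := ⟨Nat.prime_two⟩
  have hle : T ≤ M ⊓ M.map (MulAut.conj g).toMonoidHom := by
    refine le_inf hTM fun t ht => ⟨g⁻¹ * t * g, hTM ?_, by simp [mul_assoc]⟩
    have := (mem_normalizer_iff.1 hg (g⁻¹ * t * g)).2 (by simpa [mul_assoc] using ht)
    exact this
  haveI := (Subgroup.nontrivial_iff_ne_bot T).2 hT1
  obtain ⟨k, hk, hkc⟩ := hT.nontrivial_iff_card.1 inferInstance
  have h2 : 2 ∣ Nat.card ↥(M ⊓ M.map (MulAut.conj g).toMonoidHom) :=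
    (hkc ▸ dvd_pow_self 2 hk.ne').trans (card_dvd_of_le hle)
  exact (Nat.not_even_iff_odd.2 (h.2.2 g hgM)) (even_iff_two_dvd.2 h2)

theorem iff_empty {M : Subgroup G} (hM : Cfsg.IsTwoLocal M) (hne : M ≠ ⊤) :
    Cfsg.IsStronglyEmbedded M ↔ Cfsg.straddlingTwoSubgroups M = ∅ := by
  haveI : Fact (Nat.Prime 2) := ⟨Nat.prime_two⟩
  constructor
  · intro h
    refine Set.eq_empty_iff_forall_notMem.2 ?_
    rintro T ⟨hT, hT1, hTM, L, ⟨R, hR, hR1, rfl⟩, hTL, hLM⟩
    have hN : ∀ X : Subgroup G, IsPGroup 2 X → X ≠ ⊥ → X ≤ M → normalizer (X : Set G) ≤ M :=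
      fun X hX h1 h2 => normalizer_le_of_stronglyEmbedded h hX h1 h2
    have hTR : IsPGroup 2 ↥(T ⊔ R) := hT.to_sup_of_normal_right' hR hTL
    have h2 : T ⊔ R ≤ M := le_of_inf_ne_bot hN hTR fun e => hT1 (le_bot_iff.1 (e ▸ le_inf le_sup_left hTM))
    exact hLM (hN R hR hR1 (le_sup_right.trans h2))
  · intro h
    have hN : ∀ X : Subgroup G, IsPGroup 2 X → X ≠ ⊥ → X ≤ M → normalizer (X : Set G) ≤ M := by
      intro X hX h1 h2
      by_contra hc
      exact Set.eq_empty_iff_forall_notMem.1 h X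
        ⟨hX, h1, h2, _, ⟨X, hX, h1, rfl⟩, le_normalizer, hc⟩
    refine ⟨hne, ?_, fun g hg => Nat.not_even_iff_odd.1 fun he => ?_⟩
    · obtain ⟨T, hT, hT1, rfl⟩ := hM
      haveI := (Subgroup.nontrivial_iff_ne_bot T).2 hT1
      obtain ⟨k, hk, hkc⟩ := hT.nontrivial_iff_card.1 inferInstance
      exact even_iff_two_dvd.2 ((hkc ▸ dvd_pow_self 2 hk.ne').trans (card_dvd_of_le le_normalizer))
    · obtain ⟨⟨t, ht⟩, hto⟩ := exists_prime_orderOf_dvd_card' 2 (even_iff_two_dvd.1 he)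
      rw [← Subgroup.orderOf_coe] at hto
      obtain ⟨ht1, t', ht', htt⟩ := ht
      -- every `2`-subgroup containing an involution of `M` lies in `M`
      have key : ∀ a : G, a ∈ M → orderOf a = 2 → ∀ R : Subgroup G, IsPGroup 2 R → a ∈ R → R ≤ M :=
        fun a ha hao R hR haR => le_of_inf_ne_bot hN hR fun e => by
          have : a = 1 := mem_bot.1 (e ▸ (mem_inf.2 ⟨haR, ha⟩))
          rw [this, orderOf_one] at hao
          exact absurd hao (by decide)
      have ht'o : orderOf t' = 2 := by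
        have e := MulEquiv.orderOf_eq (MulAut.conj g) t'
        rw [show MulAut.conj g t' = t from htt] at e
        exact e.symm.trans hto
      have hzp : IsPGroup 2 ↥(Subgroup.zpowers t') :=
        IsPGroup.of_card (n := 1) (by rw [Nat.card_zpowers, ht'o, pow_one])
      obtain ⟨S, hS⟩ := hzp.exists_le_sylow
      have hSM : (S : Subgroup G) ≤ M := key t' ht' ht'o S S.isPGroup' (hS (mem_zpowers t'))
      have hgS : ((g • S : Sylow 2 G) : Subgroup G) ≤ M :=
        key t ht1 hto _ (g • S).isPGroup' (htt ▸ ⟨t', hS (mem_zpowers t'), rfl⟩)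
      obtain ⟨m, hm⟩ := MulAction.exists_smul_eq M (S.subtype hSM) ((g • S).subtype hgS)
      rw [Sylow.smul_subtype] at hm
      have hm' : (m : G) • S = g • S := Sylow.subtype_injective hm
      have h1 : (m : G)⁻¹ * g ∈ normalizer ((S : Subgroup G) : Set G) :=
        Sylow.smul_eq_iff_mem_normalizer.1 (by rw [mul_smul, ← hm', inv_smul_smul])
      have hS1 : (S : Subgroup G) ≠ ⊥ := fun e => by
        have : t' = 1 := mem_bot.1 (e ▸ hS (mem_zpowers t'))
        rw [this, orderOf_one] at ht'o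
        exact absurd ht'o (by decide)
      have h2 := hN _ S.isPGroup' hS1 hSM h1
      exact hg (by simpa using M.mul_mem m.2 h2)

theorem ne_top {M : Subgroup G} (hM : Cfsg.IsTwoLocal M) (hO : Cfsg.pCore 2 G = ⊥) : M ≠ ⊤ := by
  rintro rfl
  obtain ⟨T, hT, hT1, he⟩ := hM
  haveI : T.Normal := normalizer_eq_top_iff.1 he.symm
  exact hT1 (le_bot_iff.1 (hO ▸ le_sSup ⟨inferInstance, hT⟩))

end CfsgLib.Straddling
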