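import Cfsg.Agent.Lib.TransferPower
import Cfsg.Agent.Lib.CoreSZ

/-!
# Special groups from automorphisms; splitting over the residual
-/

set_option autoImplicit false

namespace CfsgLib.Transfer

open Subgroup
open scoped commutatorElement IsMulCommutative Pointwise

set_option linter.unusedSectionVars false

variable {G : Type*} [Group G] [Finite G] {p : ℕ} [Fact p.Prime]

open scoped Classical in
theorem special_of_trivial_on_char_abelian (hG : IsPGroup p G) (A : Subgroup (MulAut G))
    (hA : Nat.Coprime (Nat.card A) p)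
    (hGA : Subgroup.closure {x : G | ∃ g : G, ∃ a ∈ A, x = g⁻¹ * a g} = ⊤)
    (hchar : ∀ H : Subgroup G, H.Characteristic → IsMulCommutative H → ∀ a ∈ A, ∀ h ∈ H, a h = h) :
    Cfsg.IsSpecial p G ∧ ∀ g : G, (g ∈ Subgroup.center G ↔ ∀ a ∈ A, a g = g) := by
  haveI := hG.isNilpotent
  set D := _root_.commutator G with hD
  have hcentral : ∀ H : Subgroup G, H.Characteristic → IsMulCommutative H → H ≤ Subgroup.center G := by
    intro H hH hc h hh
    have hle : Subgroup.closure {x : G | ∃ g : G, ∃ a ∈ A, x = g⁻¹ * a g} ≤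
        centralizer ({h} : Set G) := by
      rw [closure_le]
      rintro _ ⟨g, a, ha, rfl⟩
      rw [SetLike.mem_coe, mem_centralizer_singleton_iff]
      have h1 := hchar H hH hc a ha _ ((normal_of_characteristic (H := H)).conj_mem h hh g)
      rw [map_mul, map_mul, map_inv, hchar H hH hc a ha h hh] at h1
      calc (g⁻¹ * a g) * h = g⁻¹ * (a g * h * (a g)⁻¹) * a g := by group
        _ = g⁻¹ * (g * h * g⁻¹) * a g := by rw [h1]
        _ = h * (g⁻¹ * a g) := by group
    rw [hGA] at hle
    exact mem_center_iff.mpr fun g => mem_centralizer_singleton_iff.mp (hle (mem_top g))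
  have hDZ : D ≤ Subgroup.center G := by
    by_contra hne
    set q := QuotientGroup.mk' (Subgroup.center G)
    haveI : (D.map q).Normal := Normal.map inferInstance q (QuotientGroup.mk'_surjective _)
    haveI := (hG.to_quotient (Subgroup.center G)).isNilpotent
    have h0 : D.map q ≠ ⊥ := fun e => hne (by
      rwa [Subgroup.map_eq_bot_iff, QuotientGroup.ker_mk'] at e)
    obtain ⟨⟨w, ⟨x, hx, rfl⟩, hwZ⟩, hw1⟩ :=
      Subgroup.ne_bot_iff_exists_ne_one.mp (CfsgLib.Core.nilpotent_inf_center_ne_bot h0)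
    have hmem : ∀ g, ⁅x, g⁆ ∈ Subgroup.center G := fun g => by
      rw [← QuotientGroup.eq_one_iff]
      show q ⁅x, g⁆ = 1
      rw [map_commutatorElement, commutatorElement_eq_one_iff_mul_comm]
      exact (mem_center_iff.mp hwZ (q g)).symm
    let f : G →* Subgroup.center G :=
      { toFun := fun g => ⟨⁅x, g⁆, hmem g⟩
        map_one' := Subtype.ext (commutatorElement_one_right x)
        map_mul' := fun g h => Subtype.ext <| by
          show ⁅x, g * h⁆ = ⁅x, g⁆ * ⁅x, h⁆
          rw [show ⁅x, g * h⁆ = ⁅x, g⁆ * (g * ⁅x, h⁆) * g⁻¹ by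
            simp only [commutatorElement_def, mul_inv_rev]; group,
            mem_center_iff.mp (hmem h) g, mul_assoc, mul_inv_cancel_right] }
    have hxC : x ∈ centralizer (D : Set G) := mem_centralizer_iff.mpr fun d hd => by
      have h1 : f d = 1 := Abelianization.commutator_subset_ker f hd
      exact (commutatorElement_eq_one_iff_mul_comm.mp (congrArg Subtype.val h1 : ⁅x, d⁆ = 1)).symm
    have hcomm : IsMulCommutative (D ⊓ centralizer (D : Set G) : Subgroup G) :=
      ⟨⟨fun a b => Subtype.ext (mem_centralizer_iff.mp b.2.2 a a.2.1)⟩⟩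
    have hxZ : x ∈ Subgroup.center G :=
      hcentral (D ⊓ centralizer (D : Set G)) inferInstance hcomm ⟨hx, hxC⟩
    exact hw1 (Subtype.ext ((QuotientGroup.eq_one_iff x).mpr hxZ))
  have hpowl : ∀ (x y : G) (n : ℕ), ⁅x ^ n, y⁆ = ⁅x, y⁆ ^ n := fun x y n =>
    commutator_pow_left (hDZ (commutator_mem_commutator (mem_top x) (mem_top y))) n
  -- the central quotient has exponent `p`
  have hexp : ∀ x : G, x ^ p ∈ Subgroup.center G := by
    obtain ⟨k, hk⟩ := IsPGroup.iff_card.mp hG
    have hex : ∃ e, ∀ x : G, x ^ p ^ e ∈ Subgroup.center G :=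
      ⟨k, fun x => by rw [← hk, pow_card_eq_one']; exact one_mem _⟩
    set e := Nat.find hex with he
    have hspec : ∀ x : G, x ^ p ^ e ∈ Subgroup.center G := Nat.find_spec hex
    by_contra hno
    have he2 : 2 ≤ e := by
      by_contra hlt
      refine hno fun x => ?_
      rcases Nat.lt_or_ge e 1 with h | h
      · have h0 := hspec x
        rw [show e = 0 by omega, pow_zero, pow_one] at h0
        exact pow_mem h0 p
      · have h0 := hspec x
        rwa [show e = 1 by omega, pow_one] at h0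
    set m := p ^ (e - 1) with hm
    set H := Subgroup.closure {y : G | ∃ x : G, y = x ^ m} with hH
    have hHchar : H.Characteristic := by
      rw [characteristic_iff_map_le]
      intro φ
      rw [hH, MonoidHom.map_closure]
      refine closure_mono ?_
      rintro _ ⟨_, ⟨x, rfl⟩, rfl⟩
      exact ⟨φ x, map_pow φ.toMonoidHom x m⟩
    have hHc : IsMulCommutative H := by
      rw [← le_centralizer_iff_isMulCommutative, hH, centralizer_closure, closure_le]
      rintro _ ⟨x, rfl⟩
      rw [SetLike.mem_coe, mem_centralizer_iff]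
      rintro _ ⟨y, rfl⟩
      rw [← commutatorElement_eq_one_iff_mul_comm]
      rw [hpowl, show ⁅y, x ^ m⁆ = ⁅x ^ m, y⁆⁻¹ from (commutatorElement_inv _ _).symm, inv_pow,
        ← hpowl, ← pow_mul, inv_eq_one, commutatorElement_eq_one_iff_mul_comm]
      refine (mem_center_iff.mp ?_ y).symm
      obtain ⟨c, hc⟩ : p ^ e ∣ m * m := by
        rw [hm, ← pow_add]; exact pow_dvd_pow p (by omega)
      rw [hc, pow_mul]
      exact pow_mem (hspec x) c
    exact Nat.find_min hex (show e - 1 < e by omega) fun x =>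
      hcentral H hHchar hHc (subset_closure ⟨x, rfl⟩)
  -- fixed points lie in the derived subgroup
  have hfix : ∀ z : G, (∀ a ∈ A, a z = z) → z ∈ D := by
    intro z hz
    haveI : Finite (MulAut G) := Finite.of_injective _ DFunLike.coe_injective
    haveI := Fintype.ofFinite A
    let ψ : G →* Abelianization G := ∏ a : A, Abelianization.of.comp (a : MulAut G).toMonoidHom
    have hψ : ∀ g, ψ g = ∏ a : A, Abelianization.of ((a : MulAut G) g) := fun g => by
      simp only [ψ, MonoidHom.finsetProd_apply, MonoidHom.comp_apply, MulEquiv.coe_toMonoidHom]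
    have hker : Subgroup.closure {x : G | ∃ g : G, ∃ a ∈ A, x = g⁻¹ * a g} ≤ ψ.ker := by
      rw [closure_le]
      rintro _ ⟨g, b, hb, rfl⟩
      rw [SetLike.mem_coe, MonoidHom.mem_ker, map_mul, map_inv, inv_mul_eq_one, hψ, hψ]
      exact (Fintype.prod_equiv (Equiv.mulRight (⟨b, hb⟩ : A)) _ _ fun a => rfl).symm
    rw [hGA] at hker
    have h1 : ψ z = 1 := hker (mem_top z)
    rw [hψ, Finset.prod_congr rfl (fun (a : A) _ => by rw [hz a a.2]), Finset.prod_const,
      Finset.card_univ, ← Nat.card_eq_fintype_card] at h1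
    refine (QuotientGroup.eq_one_iff z).mp (orderOf_eq_one_iff.mp ?_)
    obtain ⟨k, hk⟩ := hG z
    exact Nat.eq_one_of_dvd_coprimes (hA.pow_right k) (orderOf_dvd_of_pow_eq_one h1)
      ((orderOf_map_dvd Abelianization.of z).trans (orderOf_dvd_of_pow_eq_one hk))
  have hZfix : ∀ z ∈ Subgroup.center G, ∀ a ∈ A, a z = z := fun z hz a ha =>
    hchar (Subgroup.center G) inferInstance inferInstance a ha z hz
  have hZD : Subgroup.center G = D := le_antisymm (fun z hz => hfix z (hZfix z hz)) hDZ
  refine ⟨⟨hG, le_antisymm ?_ ?_, hZD.symm⟩, fun g => ⟨hZfix g, fun hg => hDZ (hfix g hg)⟩⟩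
  · exact CfsgLib.Core.frattini_le_of_elementary (p := p) hDZ hexp
  · rw [hZD]
    exact CfsgLib.Core.pgroup_commutator_le_frattini hG

/-- The residual has no nontrivial `p`-quotient. -/
theorem pResidual_pResidual : Cfsg.pResidual p (Cfsg.pResidual p G) = ⊤ := by
  apply Subgroup.map_injective (Cfsg.pResidual p G).subtype_injective
  rw [← MonoidHom.range_eq_map, range_subtype]
  refine le_antisymm (map_subtype_le _) ?_
  conv_lhs => rw [Cfsg.pResidual]
  rw [closure_le]
  intro g hg
  refine ⟨⟨g, subset_closure hg⟩, subset_closure ?_, rfl⟩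
  show Nat.Coprime (orderOf _) p
  rw [← Subgroup.orderOf_coe]
  exact hg

/-- A group splits over its residual when that has abelian Sylow subgroups. -/
theorem exists_complement_pResidual
    (h : ∀ Q : Sylow p (Cfsg.pResidual p G), IsMulCommutative Q) :
    ∃ K : Subgroup G, K.IsComplement' (Cfsg.pResidual p G) := by
  haveI hNn := CfsgLib.Local.pResidual_normal' p G
  set N := Cfsg.pResidual p G with hN
  obtain ⟨Q₀⟩ := (inferInstance : Nonempty (Sylow p N))
  have hQc : IsMulCommutative Q₀ := h Q₀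
  set Q := (Q₀ : Subgroup N).map N.subtype with hQ
  set M := normalizer (Q : Set G) with hM
  have hQN : Q ≤ N := map_subtype_le _
  have hQM : Q ≤ M := le_normalizer
  have hGM : M ⊔ N = ⊤ := Sylow.normalizer_sup_eq_top Q₀
  -- `Q` has no fixed point under its normaliser in `N`
  have hfp : ∀ x ∈ Q, x ∈ centralizer ((N ⊓ M : Subgroup G) : Set G) → x = 1 := by
    intro x hx hxC
    obtain ⟨⟨x', hx'⟩, hxQ, rfl⟩ := hx
    obtain ⟨h1, -⟩ := normalizer_split Q₀ hQc
    have h2 : (Q₀ : Subgroup N) ≤ ⁅(Q₀ : Subgroup N), normalizer (Q₀ : Set N)⁆ := by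
      rw [← inf_pResidual_abelian Q₀ hQc, pResidual_pResidual]
      exact le_inf le_rfl le_top
    have h3 : (⟨x', hx'⟩ : N) ∈ (⊥ : Subgroup N) := by
      rw [← h1]
      refine ⟨h2 hxQ, hxQ, mem_centralizer_iff.mpr fun n hn => Subtype.ext ?_⟩
      refine mem_centralizer_iff.mp hxC (n : G) ⟨n.2, ?_⟩
      exact le_normalizer_map N.subtype ⟨n, hn, rfl⟩
    rw [mem_bot] at h3
    exact congrArg Subtype.val h3
  -- complement of `Q` in `N ⊓ M`
  have hQM0 : Q ≤ N ⊓ M := le_inf hQN hQM
  have hQp : IsPGroup p Q := Q₀.2.map _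
  have hrel : ¬ p ∣ Q.relIndex (N ⊓ M) := fun hd => Q₀.not_dvd_index <| by
    refine hd.trans ?_
    rw [hQ, show (Q₀ : Subgroup N).index = ((Q₀ : Subgroup N).map N.subtype).relIndex N by
      rw [relIndex, subgroupOf, comap_map_eq_self_of_injective N.subtype_injective], ← hQ,
      ← relIndex_mul_relIndex Q (N ⊓ M) N hQM0 inf_le_left]
    exact dvd_mul_right _ _
  have hcop : (Nat.card Q).Coprime (Q.relIndex (N ⊓ M)) := by
    obtain ⟨k, hk⟩ := IsPGroup.iff_card.mp hQp
    rw [hk]
    exact Nat.Coprime.pow_left k ((Fact.out : p.Prime).coprime_iff_not_dvd.mpr hrel)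
  obtain ⟨H, hHM, hHQ, hHQ', hHc⟩ :=
    CfsgLib.Core.exists_complement_in hQM0 inf_le_right hcop
  have hHp : ¬ p ∣ Nat.card H := hHc ▸ hrel
  have hHN : H ≤ normalizer (Q : Set G) := hHM.trans inf_le_right
  haveI : IsMulCommutative Q₀ := hQc
  haveI : IsMulCommutative Q := map_isMulCommutative _ _
  set L := M ⊓ normalizer (H : Set G) with hL
  have hQL : Q ⊓ L = ⊥ := by
    rw [eq_bot_iff]
    rintro x ⟨hxQ, -, hxH⟩
    rw [mem_bot]
    refine hfp x hxQ ?_
    have hle : N ⊓ M ≤ centralizer ({x} : Set G) := by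
      rw [← hHQ]
      refine sup_le (fun h hh => ?_) fun y hy => ?_
      · have h4 : ⁅x, h⁆ ∈ H ⊓ Q := by
          refine mem_inf.mpr ⟨?_, ?_⟩
          · rw [commutatorElement_def]
            exact mul_mem ((mem_normalizer_iff.mp hxH h).mp hh) (inv_mem hh)
          · rw [commutatorElement_def, show x * h * x⁻¹ * h⁻¹ = x * (h * x⁻¹ * h⁻¹) by group]
            exact mul_mem hxQ ((mem_normalizer_iff.mp (hHN hh) _).mp (inv_mem hxQ))
        rw [hHQ', mem_bot, commutatorElement_eq_one_iff_mul_comm] at h4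
        exact mem_centralizer_singleton_iff.mpr h4.symm
      · exact mem_centralizer_singleton_iff.mpr
          (congrArg Subtype.val (mul_comm (⟨y, hy⟩ : Q) ⟨x, hxQ⟩))
    rw [mem_centralizer_iff]
    exact fun y hy => mem_centralizer_singleton_iff.mp (hle hy)
  -- Frattini argument
  have hML : M ≤ L ⊔ Q := by
    intro m hm
    have hsub : MulAut.conj m • H ≤ H ⊔ Q := by
      rw [hHQ]
      rintro _ ⟨h, hh, rfl⟩
      exact ⟨hNn.conj_mem h (hHM hh).1 m, M.mul_mem (M.mul_mem hm (hHM hh).2) (M.inv_mem hm)⟩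
    obtain ⟨k, hk, hkH⟩ := CfsgLib.Core.exists_conj_eq_of_coprime hHN
      (by rw [hHc]; exact hcop.symm) (Or.inr inferInstance) hsub
      (CfsgLib.Core.card_conj_smul m H)
    have h5 : m⁻¹ * k ∈ normalizer (H : Set G) := by
      refine CfsgLib.Core.conj_smul_eq_self_iff.mp ?_
      rw [← CfsgLib.Core.conj_smul_conj_smul, hkH, CfsgLib.Core.conj_smul_conj_smul, inv_mul_cancel,
        CfsgLib.Core.conj_one_smul]
    have h6 : k⁻¹ * m ∈ L := by
      refine ⟨M.mul_mem (M.inv_mem (hQM hk)) hm, ?_⟩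
      have := inv_mem h5
      rwa [mul_inv_rev, inv_inv] at this
    rw [← mul_inv_cancel_left k m]
    exact mul_mem (mem_sup_right hk) (mem_sup_left h6)
  have hLN : L ⊓ N ≤ H := by
    rintro x ⟨⟨hxM, hxH⟩, hxN⟩
    have hx : x ∈ H ⊔ Q := hHQ.symm ▸ ⟨hxN, hxM⟩
    rw [sup_comm, ← SetLike.mem_coe, coe_mul_of_right_le_normalizer_left _ _ hHN] at hx
    obtain ⟨y, hy, h', hh', rfl⟩ := hx
    have h7 : y ∈ Q ⊓ L := by
      refine mem_inf.mpr ⟨hy, ?_, ?_⟩
      · exact hQM hy
      · have := (normalizer (H : Set G)).mul_mem hxH ((normalizer (H : Set G)).inv_mem (le_normalizer hh'))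
        rwa [mul_inv_cancel_right] at this
    rw [hQL, mem_bot] at h7
    show y * h' ∈ H
    rw [h7, one_mul]; exact hh'
  have hHL : H ≤ L := le_inf (hHM.trans inf_le_right) le_normalizer
  have hLNtop : L ⊔ N = ⊤ := by
    rw [← top_le_iff, ← hGM]
    exact sup_le (hML.trans (sup_le_sup_left hQN L)) le_sup_right
  have hidx : ∃ k, N.index = p ^ k := by
    obtain ⟨P⟩ := (inferInstance : Nonempty (Sylow p G))
    obtain ⟨k, hk⟩ := IsPGroup.iff_card.mp P.2
    have hd : N.index ∣ p ^ k := by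
      rw [← hk, ← relIndex_top_right, ← CfsgLib.Local.sylow_sup_pResidual P,
        CfsgLib.Core.relIndex_sup_eq_of_le_normalizer (le_top.trans (normalizer_eq_top (H := N)).ge)]
      exact Dvd.intro_left _ (CfsgLib.Core.card_inf_mul_relIndex _ _)
    obtain ⟨j, -, hj⟩ := (Nat.dvd_prime_pow (Fact.out : p.Prime)).mp hd
    exact ⟨j, hj⟩
  obtain ⟨k, hk⟩ := hidx
  have hLcard : Nat.card L = Nat.card H * p ^ k := by
    have h8 := CfsgLib.Core.card_inf_mul_relIndex N L
    rw [← CfsgLib.Core.relIndex_sup_eq_of_le_normalizer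
      (le_top.trans (normalizer_eq_top (H := N)).ge : L ≤ normalizer (N : Set G)), hLNtop,
      relIndex_top_right, hk,
      le_antisymm (inf_comm N L ▸ hLN) (le_inf (hHM.trans inf_le_left) hHL)] at h8
    exact h8.symm
  obtain ⟨K, hK⟩ := Sylow.exists_subgroup_card_pow_prime (G := L) p (n := k)
    (by rw [hLcard]; exact dvd_mul_left _ _)
  refine ⟨K.map L.subtype, ?_⟩
  refine isComplement'_of_card_mul_and_disjoint ?_ ?_
  · rw [card_map_of_injective L.subtype_injective, hK, ← hk, mul_comm, card_mul_index]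
  · rw [disjoint_iff, eq_bot_iff]
    rintro x ⟨⟨y, hy, rfl⟩, hyN⟩
    have h9 : (y : G) ∈ H := hLN ⟨y.2, hyN⟩
    have ha : orderOf (y : G) ∣ p ^ k := by
      rw [Subgroup.orderOf_coe, ← hK]; exact Subgroup.orderOf_dvd_natCard K hy
    exact mem_bot.mpr (orderOf_eq_one_iff.mp (Nat.eq_one_of_dvd_coprimes
      (Nat.Coprime.pow_left k ((Fact.out : p.Prime).coprime_iff_not_dvd.mpr hHp)) ha
      (Subgroup.orderOf_dvd_natCard H h9)))

end CfsgLib.Transfer
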