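import Mathlib

/-!
# When are Sylow subgroups of alternating groups abelian
-/

set_option autoImplicit false

namespace CfsgLib.TwoFusion.AltSylow

open Equiv

/-- The wreath product of two cyclic groups of order `p` acting on a square. -/
def wreathSquare (p : ℕ) [NeZero p] : Subgroup (Perm (ZMod p × ZMod p)) where
  carrier := {σ | ∃ (c : ZMod p) (f : ZMod p → ZMod p), ∀ x, σ x = (x.1 + c, x.2 + f x.1)}
  one_mem' := ⟨0, 0, fun x => by simp⟩
  mul_mem' := by
    rintro σ τ ⟨c, f, h⟩ ⟨c', f', h'⟩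
    exact ⟨c' + c, fun i => f' i + f (i + c'), fun x => by simp [Perm.mul_apply, h, h', add_assoc]⟩
  inv_mem' := by
    rintro σ ⟨c, f, h⟩
    exact ⟨-c, fun i => -f (i - c), fun x => (Equiv.symm_apply_eq σ).2 (by rw [h]; simp [← sub_eq_add_neg])⟩

theorem card_wreathSquare (p : ℕ) [NeZero p] : Nat.card (wreathSquare p) = p ^ (p + 1) := by
  let mk : ZMod p × (ZMod p → ZMod p) → wreathSquare p := fun d =>
    ⟨(prodShear (Equiv.addRight d.1) fun i => Equiv.addRight (d.2 i)), d.1, d.2, fun x => rfl⟩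
  rw [← Nat.card_congr (Equiv.ofBijective mk ⟨fun d d' h => ?_, fun σ => ?_⟩), Nat.card_prod, Nat.card_fun,
    Nat.card_zmod, pow_succ']
  · have h' : ∀ x : ZMod p × ZMod p, (x.1 + d.1, x.2 + d.2 x.1) = (x.1 + d'.1, x.2 + d'.2 x.1) := fun x =>
      congrArg (fun σ : wreathSquare p => (σ : Perm (ZMod p × ZMod p)) x) h
    exact Prod.ext (add_left_cancel (congrArg Prod.fst (h' (0, 0))))
      (funext fun i => add_left_cancel (congrArg Prod.snd (h' (i, 0))))
  · obtain ⟨c, f, h⟩ := σ.2
    exact ⟨(c, f), Subtype.ext (Equiv.ext fun x => (h x).symm)⟩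

theorem wreathSquare_not_comm (p : ℕ) [Fact p.Prime] :
    ∃ a ∈ wreathSquare p, ∃ b ∈ wreathSquare p, a * b ≠ b * a := by
  refine ⟨prodShear (Equiv.addRight 1) fun _ => Equiv.addRight 0, ⟨1, fun _ => 0, fun x => rfl⟩,
    prodShear (Equiv.addRight 0) fun i => Equiv.addRight (if i = 0 then 1 else 0),
    ⟨0, fun i => if i = 0 then 1 else 0, fun x => rfl⟩, fun h => ?_⟩
  have h' := congrArg (fun σ : Perm (ZMod p × ZMod p) => (σ (0, 0)).2) h
  simp [Perm.mul_apply] at h'

theorem mem_alternating_of_odd {α : Type*} [Fintype α] [DecidableEq α] {σ : Perm α} (h : Odd (orderOf σ)) :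
    σ ∈ alternatingGroup α := by
  rw [Perm.mem_alternatingGroup]
  have h1 : orderOf (Perm.sign σ) ∣ orderOf σ := orderOf_map_dvd _ σ
  have h2 : orderOf (Perm.sign σ) ∣ 2 := orderOf_dvd_of_pow_eq_one (Int.units_sq _)
  exact orderOf_eq_one_iff.1 (Nat.eq_one_of_dvd_coprimes (Nat.coprime_two_left.2 h) h2 h1)

theorem sylow_not_comm {n p : ℕ} [Fact p.Prime] (S : Sylow p (alternatingGroup (Fin n))) {X : Type*} [Group X]
    (hX : IsPGroup p X) {ι : X →* Perm (Fin n)} (hι : Function.Injective ι) (hA : ∀ x, ι x ∈ alternatingGroup (Fin n))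
    {a b : X} (hab : a * b ≠ b * a) : ¬ IsMulCommutative S := by
  intro hc
  set f := ι.codRestrict _ hA
  obtain ⟨T, hT⟩ := (hX.of_surjective f.rangeRestrict f.rangeRestrict_surjective).exists_le_sylow
  refine hab (hι ?_)
  set e := Sylow.equiv T S
  have h := hc.is_comm.comm (e ⟨f a, hT ⟨a, rfl⟩⟩) (e ⟨f b, hT ⟨b, rfl⟩⟩)
  rw [← map_mul, ← map_mul] at h
  have h' := congrArg (fun w : (T : Subgroup (alternatingGroup (Fin n))) => ((w : alternatingGroup (Fin n)) : Perm (Fin n)))
    (e.injective h)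
  simpa [f] using h'

theorem not_comm_of_sq_le {n p : ℕ} (hn : 6 ≤ n) [Fact p.Prime] (S : Sylow p (alternatingGroup (Fin n)))
    (h : p ^ 2 ≤ n) : ¬ IsMulCommutative S := by
  obtain ⟨a, ha, b, hb, hab⟩ := wreathSquare_not_comm p
  have hW : IsPGroup p (wreathSquare p) := IsPGroup.of_card (card_wreathSquare p)
  have hab' : (⟨a, ha⟩ : wreathSquare p) * ⟨b, hb⟩ ≠ ⟨b, hb⟩ * ⟨a, ha⟩ := fun h => hab (congrArg Subtype.val h)
  rcases (Fact.out : p.Prime).eq_two_or_odd' with rfl | hodd
  · let s : Perm Bool ≃* ℤˣ := MulEquiv.ofBijective (Perm.sign : Perm Bool →* ℤˣ) (by decide)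
    let χ : Perm (ZMod 2 × ZMod 2) →* Perm ((ZMod 2 × ZMod 2) ⊕ Bool) :=
      (Perm.sumCongrHom _ _).comp ((MonoidHom.id _).prod (s.symm.toMonoidHom.comp Perm.sign))
    obtain ⟨emb⟩ := Function.Embedding.nonempty_of_card_le (α := (ZMod 2 × ZMod 2) ⊕ Bool) (β := Fin n)
      (by simp; omega)
    refine sylow_not_comm S hW (ι := (Perm.viaEmbeddingHom emb).comp (χ.comp (wreathSquare 2).subtype))
      ((Perm.viaEmbeddingHom_injective emb).comp ?_) (fun x => ?_) hab'
    · intro x y hxy
      exact Subtype.ext (congrArg Prod.fst (Perm.sumCongrHom_injective hxy))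
    · rw [Perm.mem_alternatingGroup]
      show Perm.sign (Perm.viaEmbedding (χ (x : Perm (ZMod 2 × ZMod 2))) emb) = 1
      rw [Perm.viaEmbedding, Perm.sign_extendDomain]
      show Perm.sign (Perm.sumCongr (x : Perm (ZMod 2 × ZMod 2)) (s.symm (Perm.sign (x : Perm (ZMod 2 × ZMod 2))))) = 1
      rw [Perm.sign_sumCongr]
      have h1 : Perm.sign (s.symm (Perm.sign (x : Perm (ZMod 2 × ZMod 2)))) = Perm.sign (x : Perm (ZMod 2 × ZMod 2)) :=
        s.apply_symm_apply _
      rw [h1]
      exact Int.units_mul_self _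
  · obtain ⟨emb⟩ := Function.Embedding.nonempty_of_card_le (α := ZMod p × ZMod p) (β := Fin n)
      (by simp [← sq]; omega)
    refine sylow_not_comm S hW (ι := (Perm.viaEmbeddingHom emb).comp (wreathSquare p).subtype)
      ((Perm.viaEmbeddingHom_injective emb).comp Subtype.val_injective) (fun x => mem_alternating_of_odd ?_) hab'
    obtain ⟨k, hk⟩ := hW x
    exact (hodd.pow (n := k)).of_dvd_nat ((orderOf_map_dvd _ x).trans (orderOf_dvd_of_pow_eq_one hk))

theorem comm_of_lt {n p : ℕ} (hn : 6 ≤ n) [Fact p.Prime] (S : Sylow p (alternatingGroup (Fin n)))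
    (h : n < p ^ 2) : IsMulCommutative S := by
  have hp := (Fact.out : p.Prime)
  have hodd : Odd p := hp.odd_of_ne_two (by rintro rfl; omega)
  haveI : Nontrivial (Fin n) := Fin.nontrivial_iff_two_le.2 (by omega)
  let k := n / p
  let e : (Fin k × ZMod p) ⊕ Fin (n % p) ≃ Fin n := Fintype.equivFinOfCardEq (by
    simp [k]; exact Nat.div_add_mod' n p)
  let ι : Multiplicative (Fin k → ZMod p) →* Perm (Fin n) := MonoidHom.mk' (fun g =>
    e.permCongr (Equiv.sumCongr (prodShear (Equiv.refl (Fin k)) fun i => Equiv.addRight (Multiplicative.toAdd g i))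
      (Equiv.refl _)))
    (fun g g' => Equiv.ext fun v => by
      rcases hv : e.symm v with x | x <;> simp [hv, Perm.mul_apply, add_comm (Multiplicative.toAdd g _), add_assoc])
  have hι : Function.Injective ι := fun g g' h => Multiplicative.toAdd.injective (funext fun i => by
    have h' := congrArg (fun σ : Perm (Fin n) => e.symm (σ (e (Sum.inl (i, 0))))) h
    simpa [ι] using h')
  have hX : IsPGroup p (Multiplicative (Fin k → ZMod p)) := IsPGroup.of_card (n := k) (by simp)
  have hA : ∀ x, ι x ∈ alternatingGroup (Fin n) := fun x => mem_alternating_of_odd (by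
    obtain ⟨j, hj⟩ := hX x
    exact (hodd.pow (n := j)).of_dvd_nat ((orderOf_map_dvd _ x).trans (orderOf_dvd_of_pow_eq_one hj)))
  set f := ι.codRestrict _ hA
  have hcard : Nat.card (S : Subgroup (alternatingGroup (Fin n))) = p ^ k := by
    rw [Sylow.card_eq_multiplicity]
    congr 1
    have h2 : 2 * Nat.card (alternatingGroup (Fin n)) = n.factorial := by
      rw [Nat.card_eq_fintype_card, two_mul_card_alternatingGroup, Fintype.card_perm, Fintype.card_fin]
    have hv : (n.factorial).factorization p = k := by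
      rw [Nat.factorization_factorial hp (Nat.log_lt_of_lt_pow (by omega) h)]
      simp [k]
    rw [← hv, ← h2, Nat.factorization_mul two_ne_zero Nat.card_pos.ne', Finsupp.add_apply,
      Nat.factorization_eq_zero_of_not_dvd (n := 2) (p := p) (fun hd => by
        have := (Nat.prime_dvd_prime_iff_eq hp Nat.prime_two).1 hd
        rw [this] at hodd; exact absurd hodd (by decide)), zero_add]
  have hf : Function.Injective f := fun g g' hgg => hι (congrArg Subtype.val hgg)
  obtain ⟨T, hT⟩ := (hX.of_surjective f.rangeRestrict f.rangeRestrict_surjective).exists_le_sylow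
  have hTe : f.range = (T : Subgroup _) := Subgroup.eq_of_le_of_card_ge hT (by
    rw [Nat.card_congr (Sylow.equiv T S).toEquiv, hcard, ← Nat.card_congr (MonoidHom.ofInjective hf).toEquiv]
    simp)
  refine ⟨⟨fun a b => ?_⟩⟩
  set e' := Sylow.equiv T S
  obtain ⟨u, rfl⟩ := e'.surjective a
  obtain ⟨v, rfl⟩ := e'.surjective b
  obtain ⟨x, hx⟩ := hTe.ge u.2
  obtain ⟨y, hy⟩ := hTe.ge v.2
  rw [← map_mul, ← map_mul]
  congr 1
  exact Subtype.ext (by push_cast; rw [← hx, ← hy, ← map_mul, ← map_mul, mul_comm])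

end CfsgLib.TwoFusion.AltSylow
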