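import Cfsg.Agent.Lib.TwoFusionStrEmb

/-!
# Groups in which centralizers of involutions are elementary abelian
-/

set_option autoImplicit false

universe u

namespace CfsgLib.CAInv

open Subgroup CfsgLib.StrEmb

variable {G : Type u} [Group G] [Finite G] (T : Sylow 2 G)
  (hnc : ¬ IsCyclic (T : Subgroup G)) (hnn : ¬ (T : Subgroup G).Normal)
  (hC : ∀ t : G, orderOf t = 2 → IsMulCommutative (centralizer ({t} : Set G)) ∧
    ∀ c ∈ centralizer ({t} : Set G), c ^ 2 = 1)

local notation "N" => normalizer ((T : Subgroup G) : Set G)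
local notation "Ω" => G ⧸ normalizer ((T : Subgroup G) : Set G)
local notation "o" => (QuotientGroup.mk 1 : G ⧸ normalizer ((T : Subgroup G) : Set G))

include hC in
omit [Finite G] in
theorem sq_of_commute (t : G) (ht : orderOf t = 2) (c : G) (hc : Commute c t) : c * c = 1 := by
  rw [← sq]; exact (hC t ht).2 c (mem_centralizer_singleton_iff.mpr hc.eq)

omit [Finite G] in
theorem smul_base_iff {g : G} : g • o = o ↔ g ∈ N := by
  rw [smul_mk_eq_iff, inv_one, one_mul, mul_one]

theorem involution_mem {t : G} (htN : t ∈ N) (ht : orderOf t = 2) : t ∈ (T : Subgroup G) := by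
  have hp : IsPGroup 2 (zpowers t) :=
    IsPGroup.of_card (n := 1) (by rw [Nat.card_zpowers, ht, pow_one])
  exact (T.3 (hp.to_sup_of_normal_right' T.2 (zpowers_le.mpr htN)) le_sup_right).le
    (mem_sup_left (mem_zpowers t))

include hnn hC in
theorem sq_of_mem {a : G} (ha : a ∈ (T : Subgroup G)) : a * a = 1 := by
  haveI : Fact (Nat.Prime 2) := ⟨Nat.prime_two⟩
  have hne : (T : Subgroup G) ≠ ⊥ := fun e => hnn (e ▸ inferInstance)
  haveI : Nontrivial (T : Subgroup G) := (Subgroup.nontrivial_iff_ne_bot _).mpr hne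
  haveI : Nontrivial (Subgroup.center (T : Subgroup G)) := T.2.center_nontrivial
  obtain ⟨z, hz⟩ := exists_prime_orderOf_dvd_card' (G := Subgroup.center (T : Subgroup G)) 2
    (((T.2.to_subgroup _).card_eq_or_dvd).resolve_left Finite.one_lt_card.ne')
  exact sq_of_commute hC ((z : (T : Subgroup G)) : G)
    (by rw [Subgroup.orderOf_coe, Subgroup.orderOf_coe, hz]) a
    (congrArg Subtype.val (mem_center_iff.mp z.2 ⟨a, ha⟩))

include hnn hC in
theorem comm_of_mem {a b : G} (ha : a ∈ (T : Subgroup G)) (hb : b ∈ (T : Subgroup G)) :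
    Commute a b := by
  have h := sq_of_mem T hnn hC (mul_mem ha hb)
  show a * b = b * a
  calc a * b = (a * b)⁻¹ := (inv_eq_of_mul_eq_one_right h).symm
    _ = b * a := by
      rw [mul_inv_rev, inv_eq_of_mul_eq_one_right (sq_of_mem T hnn hC ha),
        inv_eq_of_mul_eq_one_right (sq_of_mem T hnn hC hb)]

include hnn hC in
theorem commute_fixing (x : Ω) (s t : G) (hs : orderOf s = 2) (ht : orderOf t = 2) (hsx : s • x = x)
    (htx : t • x = x) : Commute s t := by
  obtain ⟨a, rfl⟩ := QuotientGroup.mk_surjective x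
  rw [smul_mk_eq_iff] at hsx htx
  have hconj : ∀ s : G, orderOf s = 2 → orderOf (a⁻¹ * s * a) = 2 := fun s hs => by
    have := CfsgLib.Invol.orderOf_conj a⁻¹ s
    rw [inv_inv] at this
    exact this.trans hs
  have h := (comm_of_mem T hnn hC (involution_mem T hsx (hconj s hs)) (involution_mem T htx (hconj t ht))).map
    (MulAut.conj a).toMonoidHom
  simpa [mul_assoc] using h

include hnn hC in
theorem stronglyEmbedded : Cfsg.IsStronglyEmbedded N :=
  CfsgLib.TwoFusion.stronglyEmbedded_normalizer T hnn hC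

include hnn hC in
theorem mem_sylow_iff {c : G} : c ∈ (T : Subgroup G) ↔ c * c = 1 ∧ c • o = o := by
  refine ⟨fun h => ⟨sq_of_mem T hnn hC h, (smul_base_iff T).2 (le_normalizer h)⟩, fun ⟨h, h'⟩ => ?_⟩
  by_cases hc : c = 1
  · rw [hc]; exact one_mem _
  · exact involution_mem T ((smul_base_iff T).1 h') (CfsgLib.Invol.orderOf_two_iff.2 ⟨hc, h⟩)

include hnn hC in
theorem card_fixing : Nat.card (Fixing (H := N) o) + 1 = Nat.card T := by
  classical
  rw [← Finite.card_option]
  refine Nat.card_congr (Equiv.ofBijective (fun v : Option (Fixing (H := N) o) =>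
    (v.elim (1 : (T : Subgroup G)) fun s =>
      ⟨s, involution_mem T ((smul_base_iff T).1 s.2.2) s.2.1⟩)) ⟨?_, ?_⟩)
  · rintro (_ | a) (_ | b) h
    · rfl
    · exact absurd (congrArg Subtype.val h).symm (CfsgLib.Invol.ne_one_of_orderOf_two b.2.1)
    · exact absurd (congrArg Subtype.val h) (CfsgLib.Invol.ne_one_of_orderOf_two a.2.1)
    · exact congrArg some (Subtype.ext (show (a : G) = b from
        congrArg (fun c : (T : Subgroup G) => (c : G)) h))
  · rintro ⟨c, hc⟩
    by_cases hc1 : c = 1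
    · exact ⟨none, Subtype.ext hc1.symm⟩
    · obtain ⟨h1, h2⟩ := (mem_sylow_iff T hnn hC).1 hc
      exact ⟨some ⟨c, CfsgLib.Invol.orderOf_two_iff.2 ⟨hc1, h1⟩, h2⟩, rfl⟩

include hnc hnn hC in
theorem two_le_fixing (x : Ω) : 2 ≤ Nat.card (Fixing x) := by
  haveI : Fact (Nat.Prime 2) := ⟨Nat.prime_two⟩
  rw [card_fixing_eq x o]
  have h := card_fixing T hnn hC
  obtain ⟨k, hk⟩ := IsPGroup.iff_card.1 T.2
  have h1 : Nat.card T ≠ 1 := fun e => hnn (by
    rw [show (T : Subgroup G) = ⊥ from card_eq_one.mp e]; infer_instance)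
  have h2 : Nat.card T ≠ 2 := fun e => hnc (isCyclic_of_prime_card (p := 2) e)
  rcases Nat.lt_or_ge k 2 with hk2 | hk2
  · interval_cases k
    · exact absurd (by simpa using hk) h1
    · exact absurd (by simpa using hk) h2
  · have : 2 ^ 2 ≤ 2 ^ k := Nat.pow_le_pow_right (by norm_num) hk2
    omega

include hnc hnn hC in
theorem exists_nontrivial {x y : Ω} (hxy : x ≠ y) : ∃ d : G, d ≠ 1 ∧ d • x = x ∧ d • y = y := by
  by_contra h
  push Not at h
  have h1 : ∀ d : {d : G // d • x = x ∧ d • y = y}, (d : G) = 1 := fun d => by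
    by_contra hd
    exact h d hd d.2.1 d.2.2
  haveI : Subsingleton {d : G // d • x = x ∧ d • y = y} := ⟨fun a b => Subtype.ext ((h1 a).trans (h1 b).symm)⟩
  have h2 : Nat.card {d : G // d • x = x ∧ d • y = y} ≤ 1 :=
    Finite.card_le_one_iff_subsingleton.2 inferInstance
  rw [card_two_point (stronglyEmbedded T hnn hC) (sq_of_commute hC) hxy] at h2
  have := two_le_fixing T hnc hnn hC x
  omega

include hnc hnn hC in
theorem orbit {x y z : Ω} (hy : y ≠ x) (hz : z ≠ x) : ∃ c : G, c * c = 1 ∧ c • x = x ∧ c • y = z :=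
  orbit_all (stronglyEmbedded T hnn hC) (sq_of_commute hC) (commute_fixing T hnn hC) hy hz
    (two_le_fixing T hnc hnn hC x)

include hnc hnn hC in
/-- Only the identity fixes three points. -/
theorem eq_one_of_fix_three {g : G} {x y z : Ω} (hxy : x ≠ y) (hxz : x ≠ z) (hyz : y ≠ z)
    (hx : g • x = x) (hy : g • y = y) (hz : g • z = z) : g = 1 := by
  by_contra hg
  obtain ⟨c, hc, hcx, hcy⟩ := orbit T hnc hnn hC (Ne.symm hxy) (Ne.symm hxz)
  refine hyz ?_
  rw [← hcy] at hz ⊢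
  exact (fix_unique_orbit (stronglyEmbedded T hnn hC) (sq_of_commute hC) (commute_fixing T hnn hC)
    (Ne.symm hxy) hg hx hy hc hcx hz).symm

include hnc hnn hC in
theorem card_others {y : Ω} (hy : y ≠ o) :
    Function.Bijective fun t : (T : Subgroup G) =>
      (⟨(t : G) • y, fun e => hy (by
        rw [← ((mem_sylow_iff T hnn hC).1 t.2).2] at e
        exact smul_left_cancel _ e)⟩ : {z : Ω // z ≠ o}) := by
  refine ⟨?_, ?_⟩
  · rintro a b h
    have h' : (a : G) • y = (b : G) • y := congrArg Subtype.val h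
    have hm : (a : G)⁻¹ * b ∈ (T : Subgroup G) := mul_mem (inv_mem a.2) b.2
    by_contra hne
    have h1 : (a : G)⁻¹ * b ≠ 1 := fun e => hne (Subtype.ext (inv_mul_eq_one.1 e))
    obtain ⟨h2, h3⟩ := (mem_sylow_iff T hnn hC).1 hm
    exact hy (fix_unique (stronglyEmbedded T hnn hC) (CfsgLib.Invol.orderOf_two_iff.2 ⟨h1, h2⟩)
      (by rw [mul_smul, ← h', inv_smul_smul]) h3)
  · rintro ⟨z, hz⟩
    obtain ⟨c, hc, hcx, hcy⟩ := orbit T hnc hnn hC hy hz
    exact ⟨⟨c, (mem_sylow_iff T hnn hC).2 ⟨hc, hcx⟩⟩, Subtype.ext hcy⟩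

include hnc hnn hC in
theorem regular {x y : Ω} (hx : x ≠ o) (hy : y ≠ o) : ∃! t : G, t ∈ T ∧ t • x = y := by
  obtain ⟨hinj, hsur⟩ := card_others T hnc hnn hC hx
  obtain ⟨t, ht⟩ := hsur ⟨y, hy⟩
  refine ⟨t, ⟨t.2, congrArg Subtype.val ht⟩, fun s hs => ?_⟩
  exact congrArg (fun c : (T : Subgroup G) => (c : G))
    (hinj (a₁ := ⟨s, hs.1⟩) (a₂ := t) (Subtype.ext (hs.2.trans (congrArg Subtype.val ht).symm)))

include hnc hnn hC in
theorem exists_two_point_map {x y z w : Ω} (hxy : x ≠ y) (hzx : z ≠ x) (hzy : z ≠ y) (hwx : w ≠ x)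
    (hwy : w ≠ y) : ∃ d : G, d • x = x ∧ d • y = y ∧ d • z = w := by
  classical
  have hSE := stronglyEmbedded T hnn hC
  let f : {d : G // d • x = x ∧ d • y = y} → {v : Ω // v ≠ x ∧ v ≠ y} := fun d =>
    ⟨(d : G) • z, fun e => hzx (smul_left_cancel _ (e.trans d.2.1.symm)),
      fun e => hzy (smul_left_cancel _ (e.trans d.2.2.symm))⟩
  have hinj : Function.Injective f := by
    intro a b h
    have h' : (a : G) • z = (b : G) • z := congrArg Subtype.val h
    refine Subtype.ext (inv_mul_eq_one.1 (eq_one_of_fix_three T hnc hnn hC hxy hzx.symm hzy.symm ?_ ?_ ?_))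
    · rw [mul_smul, b.2.1, inv_smul_eq_iff, a.2.1]
    · rw [mul_smul, b.2.2, inv_smul_eq_iff, a.2.2]
    · rw [mul_smul, ← h', inv_smul_smul]
  have hcard : Nat.card {v : Ω // v ≠ x ∧ v ≠ y} ≤ Nat.card {d : G // d • x = x ∧ d • y = y} := by
    rw [card_two_point hSE (sq_of_commute hC) hxy, card_fixing_eq x o]
    have h1 : Nat.card {v : Ω // v ≠ o} = Nat.card T := by
      obtain ⟨y₀, hy₀⟩ := CfsgLib.StrEmb.exists_ne hSE o
      exact (Nat.card_eq_of_bijective _ (card_others T hnc hnn hC hy₀)).symm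
    have h2 := card_fixing T hnn hC
    obtain ⟨g, hg⟩ := MulAction.exists_smul_eq G x o
    let j : {v : Ω // v ≠ x ∧ v ≠ y} → {v : {v : Ω // v ≠ o} // (v : Ω) ≠ g • y} := fun v =>
      ⟨⟨g • (v : Ω), fun e => v.2.1 (smul_left_cancel g (e.trans hg.symm))⟩,
        fun e => v.2.2 (smul_left_cancel g e)⟩
    have hj : Function.Injective j := fun a b h =>
      Subtype.ext (smul_left_cancel g (congrArg (fun v => ((v.1 : {v : Ω // v ≠ o}) : Ω)) h))
    refine (Nat.card_le_card_of_injective j hj).trans ?_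
    have h3 : Nat.card {v : {v : Ω // v ≠ o} // (v : Ω) ≠ g • y} < Nat.card {v : Ω // v ≠ o} := by
      haveI := Fintype.ofFinite {v : Ω // v ≠ o}
      rw [Nat.card_eq_fintype_card, Nat.card_eq_fintype_card]
      exact Fintype.card_subtype_lt (x := ⟨g • y, fun e => hxy (smul_left_cancel g (hg.trans e.symm))⟩)
        (fun h => h rfl)
    omega
  obtain ⟨d, hd⟩ := ((Nat.bijective_iff_injective_and_card f).2
    ⟨hinj, le_antisymm (Nat.card_le_card_of_injective f hinj) hcard⟩).2 ⟨w, hwx, hwy⟩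
  exact ⟨d, d.2.1, d.2.2, congrArg Subtype.val hd⟩

include hnc hnn hC in
theorem triply_transitive {x₁ x₂ x₃ y₁ y₂ y₃ : Ω} (h12 : x₁ ≠ x₂) (h13 : x₁ ≠ x₃) (h23 : x₂ ≠ x₃)
    (k12 : y₁ ≠ y₂) (k13 : y₁ ≠ y₃) (k23 : y₂ ≠ y₃) :
    ∃ g : G, g • x₁ = y₁ ∧ g • x₂ = y₂ ∧ g • x₃ = y₃ := by
  obtain ⟨a, ha⟩ := MulAction.exists_smul_eq G x₁ y₁
  have h2 : a • x₂ ≠ y₁ := fun e => h12 (smul_left_cancel a (ha.trans e.symm))
  obtain ⟨c, -, hc1, hc2⟩ := orbit T hnc hnn hC h2 (Ne.symm k12)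
  obtain ⟨d, hd1, hd2, hd3⟩ := exists_two_point_map T hnc hnn hC k12
    (z := (c * a) • x₃) (w := y₃)
    (fun e => h13 (smul_left_cancel (c * a) (by rw [e, mul_smul, ha, hc1])))
    (fun e => h23 (smul_left_cancel (c * a) (by rw [e, mul_smul, hc2])))
    (Ne.symm k13) (Ne.symm k23)
  exact ⟨d * (c * a), by rw [mul_smul, mul_smul, ha, hc1, hd1],
    by rw [mul_smul, mul_smul, hc2, hd2], by rw [mul_smul, hd3]⟩

variable (u : G) (hu : orderOf u = 2) (huN : u ∉ normalizer ((T : Subgroup G) : Set G))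

include huN in
omit [Finite G] in
theorem mk_ne : o ≠ QuotientGroup.mk u := fun e => huN (by simpa using QuotientGroup.eq.1 e)

omit [Finite G] in
theorem mem_D_iff {g : G} : g ∈ N ⊓ (N).map (MulAut.conj u).toMonoidHom ↔
    g • o = o ∧ g • (QuotientGroup.mk u : Ω) = QuotientGroup.mk u := mem_inf_map_iff u g

include hnn hC hu huN in
theorem inverts_D {d : G} (hd : d ∈ N ⊓ (N).map (MulAut.conj u).toMonoidHom) :
    u * d * u⁻¹ = d⁻¹ :=
  swap_inverts (stronglyEmbedded T hnn hC) (sq_of_commute hC) (mk_ne T u huN) hu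
    (by rw [MulAction.Quotient.smul_mk, smul_eq_mul, mul_one])
    ((mem_D_iff T u).1 hd).1 ((mem_D_iff T u).1 hd).2

include hnn hC huN in
theorem bijective_D : Function.Bijective
    (fun p : ↥((N ⊓ (N).map (MulAut.conj u).toMonoidHom).subgroupOf N) × ↥((T : Subgroup G).subgroupOf N) =>
      (p.1 : ↥(N)) * p.2) := by
  have hSE := stronglyEmbedded T hnn hC
  refine ⟨?_, ?_⟩
  · refine Subgroup.mul_injective_of_disjoint ?_
    rw [disjoint_iff, eq_bot_iff]
    rintro ⟨g, hg⟩ ⟨hD, hT⟩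
    rw [mem_bot]
    apply Subtype.ext
    by_contra hne
    obtain ⟨h1, h2⟩ := (mem_D_iff T u).1 hD
    exact mk_ne T u huN (fix_unique hSE
      (CfsgLib.Invol.orderOf_two_iff.2 ⟨hne, sq_of_mem T hnn hC hT⟩) h1 h2)
  · rintro ⟨n, hn⟩
    obtain ⟨s, hs, hso⟩ := nonempty_fixing hSE o
    have hn' := (smul_base_iff T).2 hn
    obtain ⟨d, hd1, hd2, hde⟩ := exists_conj_two_point hSE (mk_ne T u huN) hs hso
      (s' := n * s * n⁻¹) (by rw [CfsgLib.Invol.orderOf_conj, hs])
      (by rw [mul_smul, mul_smul, inv_smul_eq_iff.2 hn'.symm, hso, hn'])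
    have hdN : d ∈ N := (smul_base_iff T).1 hd1
    have hcs : Commute (d⁻¹ * n) s := by
      show d⁻¹ * n * s = s * (d⁻¹ * n)
      calc d⁻¹ * n * s = d⁻¹ * (n * s * n⁻¹) * n := by group
        _ = d⁻¹ * (d * s * d⁻¹) * n := by rw [hde]
        _ = _ := by group
    refine ⟨(⟨⟨d, hdN⟩, (mem_D_iff T u).2 ⟨hd1, hd2⟩⟩, ⟨⟨d⁻¹ * n, mul_mem (inv_mem hdN) hn⟩,
      (mem_sylow_iff T hnn hC).2 ⟨sq_of_commute hC s hs _ hcs, by
        show (d⁻¹ * n) • o = o
        rw [mul_smul, hn', inv_smul_eq_iff, hd1]⟩⟩), ?_⟩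
    exact Subtype.ext (mul_inv_cancel_left d n)

include hnn hC huN in
theorem card_N : Nat.card (N) = Nat.card T * (Nat.card T - 1) := by
  have h := Nat.card_eq_of_bijective _ (bijective_D T hnn hC u huN)
  rw [Nat.card_prod, Nat.card_congr (subgroupOfEquivOfLe inf_le_left).toEquiv,
    Nat.card_congr (subgroupOfEquivOfLe (le_normalizer : (T : Subgroup G) ≤ N)).toEquiv] at h
  have hD : Nat.card ↥(N ⊓ (N).map (MulAut.conj u).toMonoidHom) = Nat.card (Fixing (H := N) o) := by
    rw [← card_two_point (stronglyEmbedded T hnn hC) (sq_of_commute hC) (mk_ne T u huN)]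
    exact Nat.card_congr (Equiv.subtypeEquivRight fun g => mem_D_iff T u)
  have h2 := card_fixing T hnn hC
  rw [← h, hD, mul_comm]
  congr 1
  omega

include hnc hnn hC huN in
theorem fixed_iff (g : G) :
    (∀ d ∈ N ⊓ (N).map (MulAut.conj u).toMonoidHom, d • (QuotientGroup.mk g : Ω) = QuotientGroup.mk g) ↔
      (QuotientGroup.mk g : Ω) = o ∨ (QuotientGroup.mk g : Ω) = QuotientGroup.mk u := by
  refine ⟨fun h => ?_, fun h d hd => ?_⟩
  · by_contra hne
    rw [not_or] at hne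
    exact no_third (stronglyEmbedded T hnn hC) (sq_of_commute hC) (commute_fixing T hnn hC)
      (mk_ne T u huN) (Ne.symm hne.1) (Ne.symm hne.2)
      (fun d h1 h2 => h d ((mem_D_iff T u).2 ⟨h1, h2⟩))
      (exists_nontrivial T hnc hnn hC (mk_ne T u huN))
  · rcases h with h | h <;> rw [h]
    · exact ((mem_D_iff T u).1 hd).1
    · exact ((mem_D_iff T u).1 hd).2

include hnc hnn hC hu huN in
theorem normalizer_D : normalizer ((N ⊓ (N).map (MulAut.conj u).toMonoidHom : Subgroup G) : Set G) =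
    (N ⊓ (N).map (MulAut.conj u).toMonoidHom) ⊔ zpowers u := by
  set D := N ⊓ (N).map (MulAut.conj u).toMonoidHom
  have huo : u • o = QuotientGroup.mk u := by rw [MulAction.Quotient.smul_mk, smul_eq_mul, mul_one]
  have hun : u ∈ normalizer (D : Set G) := by
    refine mem_normalizer_iff.mpr fun d => ⟨fun hd => ?_, fun hd => ?_⟩
    · rw [inverts_D T hnn hC u hu huN hd]; exact inv_mem hd
    · have := inverts_D T hnn hC u hu huN hd
      rw [show u * (u * d * u⁻¹) * u⁻¹ = (u * u) * d * (u * u)⁻¹ by group,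
        CfsgLib.Invol.mul_self_of_orderOf_two hu, one_mul, inv_one, mul_one] at this
      rw [this]; exact inv_mem hd
  refine le_antisymm (fun g hg => ?_) (sup_le le_normalizer (zpowers_le.mpr hun))
  have hperm : ∀ v : Ω, (∀ d ∈ D, d • v = v) → ∀ d ∈ D, d • g • v = g • v := by
    intro v hv d hd
    have h := (mem_normalizer_iff''.mp hg d).mp hd
    conv_lhs => rw [← mul_smul, show d * g = g * (g⁻¹ * d * g) by group, mul_smul, hv _ h]
  have h0 := hperm o fun d hd => ((mem_D_iff T u).1 hd).1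
  have h1 := hperm _ fun d hd => ((mem_D_iff T u).1 hd).2
  rw [MulAction.Quotient.smul_mk] at h0 h1
  have c0 := (fixed_iff T hnc hnn hC u huN _).1 h0
  have c1 := (fixed_iff T hnc hnn hC u huN _).1 h1
  rw [← MulAction.Quotient.smul_mk] at c0 c1
  have hne : g • o ≠ g • (QuotientGroup.mk u : Ω) := fun e => mk_ne T u huN (smul_left_cancel g e)
  rcases c0 with e0 | e0
  · refine mem_sup_left ((mem_D_iff T u).2 ⟨e0, ?_⟩)
    exact c1.resolve_left fun e => hne (e0.trans e.symm)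
  · have e1 := c1.resolve_right fun e => hne (e0.trans e.symm)
    have hm : u * g ∈ D := (mem_D_iff T u).2
      ⟨by rw [mul_smul, e0]; exact smul_swap hu huo, by rw [mul_smul, e1, huo]⟩
    rw [← inv_mul_cancel_left u g]
    exact mul_mem (mem_sup_right (inv_mem (mem_zpowers u))) (mem_sup_left hm)

end CfsgLib.CAInv
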