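import Cfsg.Agent.Lib.TwoFusionCA
import Cfsg.Agent.Lib.ClassicalPSLTwoPoly

/-!
# Sharply triply transitive groups with elementary abelian point stabilizer kernels
-/

set_option autoImplicit false

universe u v

namespace CfsgLib.CAInv

open Subgroup CfsgLib.StrEmb Matrix
open scoped LinearAlgebra.Projectivization

/-- A type synonym carrying the field structure. -/
def Carrier (n : ℕ) : Type := Fin n

section proj

variable {F : Type v} [Field F]

/-- The point `[a : 1]`, and `[1 : 0]` for `none`. -/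
def pt : Option F → ℙ F (Fin 2 → F)
  | none => Projectivization.mk F ![1, 0] (fun h => by simpa using congrFun h 0)
  | some a => Projectivization.mk F ![a, 1] (fun h => by simpa using congrFun h 1)

theorem pt_injective : Function.Injective (pt (F := F)) := by
  rintro (_ | a) (_ | b) h <;> simp only [pt] at h
  · rfl
  · obtain ⟨c, hc⟩ := (Projectivization.mk_eq_mk_iff' F _ _ _ _).mp h
    have h0 := congrFun hc 0
    have h1 := congrFun hc 1
    simp at h0 h1
    subst h1; simp at h0
  · obtain ⟨c, hc⟩ := (Projectivization.mk_eq_mk_iff' F _ _ _ _).mp h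
    simpa using congrFun hc 1
  · obtain ⟨c, hc⟩ := (Projectivization.mk_eq_mk_iff' F _ _ _ _).mp h
    have h0 := congrFun hc 0
    have h1 := congrFun hc 1
    simp at h0 h1
    subst h1; simp at h0
    rw [h0]

theorem pt_bijective [Fintype F] : Function.Bijective (pt (F := F)) := by
  classical
  refine (Nat.bijective_iff_injective_and_card _).2 ⟨pt_injective, ?_⟩
  rw [Finite.card_option, CfsgLib.Classical.Two.card_projLine, Nat.card_eq_fintype_card]

theorem sl_smul (M : SpecialLinearGroup (Fin 2) F) (v : Fin 2 → F) :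
    M • v = (M : Matrix (Fin 2) (Fin 2) F) *ᵥ v := rfl

/-- Upper unitriangular matrices. -/
def matU (b : F) : SpecialLinearGroup (Fin 2) F := ⟨!![1, b; 0, 1], by simp [det_fin_two_of]⟩

/-- Diagonal matrices. -/
def matD (r : Fˣ) : SpecialLinearGroup (Fin 2) F :=
  ⟨!![(r : F), 0; 0, (r⁻¹ : Fˣ)], by simp [det_fin_two_of]⟩

/-- The antidiagonal matrix. -/
def matW (h2 : (1 : F) + 1 = 0) : SpecialLinearGroup (Fin 2) F :=
  ⟨!![0, 1; 1, 0], by rw [det_fin_two_of]; linear_combination -h2⟩

theorem coe_matU (b : F) : (matU b : Matrix (Fin 2) (Fin 2) F) = !![1, b; 0, 1] := rfl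

theorem coe_matD (r : Fˣ) :
    (matD r : Matrix (Fin 2) (Fin 2) F) = !![(r : F), 0; 0, (r⁻¹ : Fˣ)] := rfl

theorem coe_matW (h2 : (1 : F) + 1 = 0) : (matW h2 : Matrix (Fin 2) (Fin 2) F) = !![0, 1; 1, 0] := rfl

theorem matU_smul (b : F) (o : Option F) : matU b • pt o = pt (o.map (· + b)) := by
  rcases o with _ | a <;> simp only [pt, Option.map_none, Option.map_some] <;>
    rw [Projectivization.smul_mk, Projectivization.mk_eq_mk_iff'] <;> refine ⟨1, funext fun i => ?_⟩ <;>
    fin_cases i <;> simp [sl_smul, coe_matU, mulVec, dotProduct, Fin.sum_univ_two]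

theorem matD_smul (r : Fˣ) (o : Option F) :
    matD r • pt o = pt (o.map ((r : F) * r * ·)) := by
  rcases o with _ | a <;> simp only [pt, Option.map_none, Option.map_some] <;>
    rw [Projectivization.smul_mk, Projectivization.mk_eq_mk_iff']
  · refine ⟨(r : F), funext fun i => ?_⟩
    fin_cases i <;> simp [sl_smul, coe_matD, mulVec, dotProduct, Fin.sum_univ_two]
  · refine ⟨((r⁻¹ : Fˣ) : F), funext fun i => ?_⟩
    fin_cases i <;> simp [sl_smul, coe_matD, mulVec, dotProduct, Fin.sum_univ_two]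
    field_simp

/-- Inversion of the projective line. -/
noncomputable def invPt : Option F → Option F
  | none => some 0
  | some a => @ite _ (a = 0) (Classical.dec _) none (some a⁻¹)

theorem matW_smul (h2 : (1 : F) + 1 = 0) (o : Option F) : matW h2 • pt o = pt (invPt o) := by
  rcases o with _ | a
  · simp only [pt, invPt]
    rw [Projectivization.smul_mk, Projectivization.mk_eq_mk_iff']
    refine ⟨1, funext fun i => ?_⟩
    fin_cases i <;> simp [sl_smul, coe_matW, mulVec, dotProduct, Fin.sum_univ_two]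
  · by_cases ha : a = 0
    · simp only [invPt, if_pos ha]
      simp only [pt]
      rw [Projectivization.smul_mk, Projectivization.mk_eq_mk_iff']
      refine ⟨1, funext fun i => ?_⟩
      fin_cases i <;> simp [sl_smul, coe_matW, ha, mulVec, dotProduct, Fin.sum_univ_two]
    · simp only [invPt, if_neg ha]
      simp only [pt]
      rw [Projectivization.smul_mk, Projectivization.mk_eq_mk_iff']
      refine ⟨a, funext fun i => ?_⟩
      fin_cases i <;> simp [sl_smul, coe_matW, ha, mulVec, dotProduct, Fin.sum_univ_two]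

theorem mem_of_generators (h2 : (1 : F) + 1 = 0) (S : Subgroup (SpecialLinearGroup (Fin 2) F))
    (hU : ∀ b, matU b ∈ S) (hD : ∀ r, matD r ∈ S) (hW : matW h2 ∈ S)
    (M : SpecialLinearGroup (Fin 2) F) : M ∈ S := by
  have hneg : ∀ x : F, -x = x := fun x => by linear_combination (-x) * h2
  have hdet : (M : Matrix (Fin 2) (Fin 2) F) 0 0 * (M : Matrix (Fin 2) (Fin 2) F) 1 1 -
      (M : Matrix (Fin 2) (Fin 2) F) 0 1 * (M : Matrix (Fin 2) (Fin 2) F) 1 0 = 1 := by
    rw [← Matrix.det_fin_two]; exact M.2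
  set a := (M : Matrix (Fin 2) (Fin 2) F) 0 0 with ha
  set b := (M : Matrix (Fin 2) (Fin 2) F) 0 1 with hb
  set c := (M : Matrix (Fin 2) (Fin 2) F) 1 0 with hc
  set d := (M : Matrix (Fin 2) (Fin 2) F) 1 1 with hd
  by_cases hc0 : c = 0
  · rw [hc0, mul_zero, sub_zero] at hdet
    have ha0 : a ≠ 0 := fun e => by rw [e, zero_mul] at hdet; exact zero_ne_one hdet
    have : M = matD (Units.mk0 a ha0) * matU (b / a) := by
      apply Subtype.ext
      ext i j
      fin_cases i <;> fin_cases j <;>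
        simp [coe_matD, coe_matU, Matrix.SpecialLinearGroup.coe_mul, Matrix.mul_apply, Fin.sum_univ_two, ← ha, ← hb, ← hc, ← hd, hc0]
      · field_simp
      · field_simp; linear_combination hdet
    rw [this]; exact mul_mem (hD _) (hU _)
  · have : M = matU (a / c) * (matD (Units.mk0 c⁻¹ (inv_ne_zero hc0)) * matW h2) * matU (d / c) := by
      apply Subtype.ext
      ext i j
      fin_cases i <;> fin_cases j <;>
        simp [coe_matD, coe_matU, coe_matW, Matrix.SpecialLinearGroup.coe_mul, Matrix.mul_apply, Fin.sum_univ_two, ← ha, ← hb, ← hc, ← hd]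
      all_goals field_simp
      first
        | linear_combination hdet
        | linear_combination hdet - h2
        | linear_combination hdet + h2
        | linear_combination (-1 : F) * hdet
        | linear_combination (-1 : F) * hdet - h2
    rw [this]; exact mul_mem (mul_mem (hU _) (mul_mem (hD _) hW)) (hU _)

end proj

variable {G : Type u} [Group G] [Finite G] (T : Sylow 2 G)
  (hnc : ¬ IsCyclic (T : Subgroup G)) (hnn : ¬ (T : Subgroup G).Normal)
  (hC : ∀ t : G, orderOf t = 2 → IsMulCommutative (centralizer ({t} : Set G)) ∧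
    ∀ c ∈ centralizer ({t} : Set G), c ^ 2 = 1)

local notation "Ω" => G ⧸ normalizer ((T : Subgroup G) : Set G)
local notation "o" => (QuotientGroup.mk 1 : G ⧸ normalizer ((T : Subgroup G) : Set G))

include hnc hnn hC in
theorem identify {F : Type v} [Field F] [Fintype F] (τ : F → G) (hτmem : ∀ a, τ a ∈ T)
    (hτinj : Function.Injective τ) (hτsurj : ∀ t ∈ T, ∃ a, τ a = t)
    (hτadd : ∀ a b, τ (a + b) = τ a * τ b)
    (y₀ : Ω) (hy₀ : y₀ ≠ o)
    (hmul : ∀ a : F, a ≠ 0 → ∃ d : G, d • o = o ∧ d • y₀ = y₀ ∧ ∀ b, d * τ b * d⁻¹ = τ (a * b)) :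
    Nonempty (G ≃* ProjectiveSpecialLinearGroup (Fin 2) F) := by
  classical
  have hSE := stronglyEmbedded T hnn hC
  have hτ0 : τ 0 = 1 := by
    have := hτadd 0 0
    rw [add_zero] at this
    exact mul_eq_left.mp this.symm
  have h2 : (1 : F) + 1 = 0 := hτinj (by rw [hτadd, hτ0]; exact sq_of_mem T hnn hC (hτmem 1))
  have hneg : ∀ x : F, -x = x := fun x => by linear_combination (-x) * h2
  have hτo : ∀ a, τ a • o = o := fun a => ((mem_sylow_iff T hnn hC).1 (hτmem a)).2
  let φ : Option F → Ω := fun v => v.elim o fun a => τ a • y₀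
  have hφne : ∀ a, τ a • y₀ ≠ o := fun a e => hy₀ (smul_left_cancel (τ a) (e.trans (hτo a).symm))
  have hφ : Function.Bijective φ := by
    obtain ⟨hinj, hsur⟩ := card_others T hnc hnn hC hy₀
    refine ⟨?_, fun v => ?_⟩
    · rintro (_ | a) (_ | b) h
      · rfl
      · exact absurd h.symm (hφne b)
      · exact absurd h (hφne a)
      · exact congrArg some (hτinj (congrArg (fun c : (T : Subgroup G) => (c : G))
          (hinj (a₁ := ⟨τ a, hτmem a⟩) (a₂ := ⟨τ b, hτmem b⟩) (Subtype.ext h))))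
    · by_cases hv : v = o
      · exact ⟨none, hv.symm⟩
      · obtain ⟨⟨t, ht⟩, he⟩ := hsur ⟨v, hv⟩
        obtain ⟨a, rfl⟩ := hτsurj t ht
        exact ⟨some a, congrArg Subtype.val he⟩
  let ψ : Ω ≃ ℙ F (Fin 2 → F) := (Equiv.ofBijective φ hφ).symm.trans (Equiv.ofBijective pt pt_bijective)
  have hψ : ∀ v, ψ (φ v) = pt v := fun v => by simp [ψ]
  let A : G →* Equiv.Perm (ℙ F (Fin 2 → F)) := ψ.permCongrHom.toMonoidHom.comp (MulAction.toPermHom G Ω)
  have hAapp : ∀ g v, A g (pt v) = ψ (g • φ v) := fun g v => by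
    show ψ (g • ψ.symm (pt v)) = _
    rw [← hψ v, ψ.symm_apply_apply]
  have hp3 : ∀ a b : Option F, a ≠ b → φ a ≠ φ b := fun a b h e => h (hφ.1 e)
  have hAinj : Function.Injective A := by
    rw [injective_iff_map_eq_one]
    intro g hg
    have hfix : ∀ v, g • φ v = φ v := fun v => ψ.injective (by rw [← hAapp, hg, hψ]; rfl)
    exact eq_one_of_fix_three T hnc hnn hC (hp3 none (some 0) (by simp)) (hp3 none (some 1) (by simp))
      (hp3 (some 0) (some 1) (by simp)) (hfix _) (hfix _) (hfix _)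
  let B : SpecialLinearGroup (Fin 2) F →* Equiv.Perm (ℙ F (Fin 2 → F)) :=
    MulAction.toPermHom (SpecialLinearGroup (Fin 2) F) (ℙ F (Fin 2 → F))
  have hmatch : ∀ (M : SpecialLinearGroup (Fin 2) F) (g : G) (f : Option F → Option F),
      (∀ v, M • pt v = pt (f v)) → (∀ v, g • φ v = φ (f v)) → M ∈ (A.range).comap B := by
    intro M g f hM hg
    refine ⟨g, Equiv.ext fun p => ?_⟩
    obtain ⟨v, rfl⟩ := (pt_bijective (F := F)).2 p
    rw [hAapp, hg, hψ]
    exact (hM v).symm
  have hU : ∀ b, matU b ∈ (A.range).comap B := fun b => hmatch _ (τ b) _ (matU_smul b) fun v => by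
    rcases v with _ | a
    · exact hτo b
    · show τ b • τ a • y₀ = τ (a + b) • y₀
      rw [← mul_smul, ← hτadd, add_comm]
  have hD : ∀ r, matD r ∈ (A.range).comap B := fun r => by
    obtain ⟨d, hdo, hdy, hd⟩ := hmul ((r : F) * r) (mul_ne_zero r.ne_zero r.ne_zero)
    refine hmatch _ d _ (matD_smul r) fun v => ?_
    rcases v with _ | a
    · exact hdo
    · show d • τ a • y₀ = τ ((r : F) * r * a) • y₀
      rw [← hd, mul_smul, mul_smul, inv_smul_eq_iff.2 hdy.symm]
  obtain ⟨u, hu, huo⟩ := nonempty_swap hSE (Ne.symm hy₀)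
  have huy : u • y₀ = o := smul_swap hu huo
  obtain ⟨μ, hμ0, hμ⟩ : ∃ μ : F, μ ≠ 0 ∧ u • τ 1 • y₀ = τ μ • y₀ := by
    obtain ⟨v, hv⟩ := hφ.2 (u • φ (some 1))
    rcases v with _ | μ
    · have e : u • φ (some 1) = u • φ (some 0) := by
        rw [← hv]; show o = u • τ 0 • y₀
        rw [hτ0, one_smul, huy]
      exact absurd (smul_left_cancel u e) (hp3 _ _ (by simp))
    · refine ⟨μ, fun e => ?_, hv.symm⟩
      have e' : u • φ (some 1) = u • φ none := by
        rw [← hv]; show τ μ • y₀ = u • o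
        rw [e, hτ0, one_smul, huo]
      exact absurd (smul_left_cancel u e') (hp3 _ _ (by simp))
  have hW : matW h2 ∈ (A.range).comap B := by
    obtain ⟨e, heo, hey, he⟩ := hmul μ⁻¹ (inv_ne_zero hμ0)
    refine hmatch _ (e * u) _ (matW_smul h2) fun v => ?_
    rcases v with _ | a
    · show (e * u) • o = τ 0 • y₀
      rw [mul_smul, huo, hey, hτ0, one_smul]
    · by_cases ha : a = 0
      · simp only [invPt, if_pos ha]
        show (e * u) • τ a • y₀ = o
        rw [ha, hτ0, one_smul, mul_smul, huy, heo]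
      · simp only [invPt, if_neg ha]
        show (e * u) • τ a • y₀ = τ a⁻¹ • y₀
        obtain ⟨d, hdo, hdy, hd⟩ := hmul a ha
        have hdiy := inv_smul_eq_iff.2 hdy.symm
        have hP : τ a • y₀ = d • τ 1 • y₀ := by
          have h1 := hd 1
          rw [mul_one] at h1
          rw [← h1, mul_smul, mul_smul, hdiy]
        have hinv := swap_inverts hSE (sq_of_commute hC) (Ne.symm hy₀) hu huo hdo hdy
        have hdi : ∀ b, d⁻¹ * τ b * d = τ (a⁻¹ * b) := fun b => by
          have h1 := hd (a⁻¹ * b)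
          rw [← mul_assoc a, mul_inv_cancel₀ ha, one_mul] at h1
          rw [← h1]; group
        calc (e * u) • τ a • y₀ = e • (u * d * u⁻¹) • u • τ 1 • y₀ := by
              rw [hP]; simp only [mul_smul, inv_smul_smul]
          _ = e • τ (a⁻¹ * μ) • y₀ := by
              rw [hinv, hμ, ← mul_smul d⁻¹ (τ μ), show d⁻¹ * τ μ = τ (a⁻¹ * μ) * d⁻¹ by
                rw [← hdi]; group, mul_smul, hdiy]
          _ = τ a⁻¹ • y₀ := by
              have h1 : τ a⁻¹ = e * τ (a⁻¹ * μ) * e⁻¹ := by
                rw [he, mul_comm a⁻¹ μ, ← mul_assoc, inv_mul_cancel₀ hμ0, one_mul]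
              rw [h1, mul_smul, mul_smul, inv_smul_eq_iff.2 hey.symm]
  have hle : B.range ≤ A.range := by
    rintro _ ⟨M, rfl⟩
    exact mem_of_generators h2 ((A.range).comap B) hU hD hW M
  have h3 := (CfsgLib.Classical.Two.sl_three_pretransitive (F := F)).2 (by
    haveI : CharP F 2 := CharTwo.of_one_ne_zero_of_two_eq_zero one_ne_zero (by rw [← one_add_one_eq_two]; exact h2)
    exact ringChar.eq F 2)
  rw [MulAction.isMultiplyPretransitive_iff] at h3
  have hge : A.range ≤ B.range := by
    rintro _ ⟨g, rfl⟩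
    let x : Fin 3 ↪ ℙ F (Fin 2 → F) := ⟨![pt none, pt (some 0), pt (some 1)], by
      intro i j hij
      fin_cases i <;> fin_cases j <;> simp [pt_injective.eq_iff] at hij ⊢⟩
    obtain ⟨M, hM⟩ := h3 x (x.trans (A g).toEmbedding)
    obtain ⟨g', hg'⟩ := hle ⟨M, rfl⟩
    suffices g' = g by rw [← this, hg']; exact ⟨M, rfl⟩
    have hi : ∀ i, A g' (x i) = A g (x i) := fun i => by
      rw [hg']; exact congrArg (fun f : Fin 3 ↪ _ => f i) hM
    have hfix : ∀ i v, x i = pt v → (g⁻¹ * g') • φ v = φ v := fun i v hv => by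
      have := hi i
      rw [hv, hAapp, hAapp] at this
      rw [mul_smul, ψ.injective this, inv_smul_smul]
    have := eq_one_of_fix_three T hnc hnn hC (hp3 none (some 0) (by simp))
      (hp3 none (some 1) (by simp)) (hp3 (some 0) (some 1) (by simp))
      (hfix 0 none rfl) (hfix 1 (some 0) rfl) (hfix 2 (some 1) rfl)
    exact (inv_mul_eq_one.1 this).symm
  let P := Projectivization.PSLAction.toPermHom (ι := Fin 2) (K := F)
  have hP : P.range = B.range := by
    refine le_antisymm ?_ ?_
    · rintro _ ⟨p, rfl⟩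
      obtain ⟨M, rfl⟩ := QuotientGroup.mk_surjective p
      exact ⟨M, rfl⟩
    · rintro _ ⟨M, rfl⟩
      exact ⟨QuotientGroup.mk M, rfl⟩
  exact ⟨(MonoidHom.ofInjective hAinj).trans ((MulEquiv.subgroupCongr ((le_antisymm hge hle).trans hP.symm)).trans
    (MonoidHom.ofInjective (f := P) Matrix.ProjectiveSpecialLinearGroup.toPermHom_injective).symm)⟩

include hnc hnn hC in
theorem exists_field : ∃ (F : Type) (_ : Field F) (_ : Fintype F), Fintype.card F = Nat.card T ∧
    Nonempty (G ≃* ProjectiveSpecialLinearGroup (Fin 2) F) := by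
  classical
  have hSE := stronglyEmbedded T hnn hC
  obtain ⟨y₀, hy₀⟩ := CfsgLib.StrEmb.exists_ne hSE o
  obtain ⟨s, hs, hso⟩ := nonempty_fixing hSE o
  have hsT : s ∈ (T : Subgroup G) :=
    (mem_sylow_iff T hnn hC).2 ⟨CfsgLib.Invol.mul_self_of_orderOf_two hs, hso⟩
  letI : CommGroup (T : Subgroup G) :=
    { (inferInstance : Group (T : Subgroup G)) with
      mul_comm := fun a b => Subtype.ext (comm_of_mem T hnn hC a.2 b.2).eq }
  let D := {d : G // d • o = o ∧ d • y₀ = y₀}
  have hdT : ∀ (d : D) (t : (T : Subgroup G)), (d : G) * t * (d : G)⁻¹ ∈ (T : Subgroup G) := fun d t =>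
    (mem_normalizer_iff.mp ((smul_base_iff T).1 d.2.1) _).mp t.2
  let cd : D → AddMonoid.End (Additive (T : Subgroup G)) := fun d =>
    AddMonoidHom.mk' (fun a => Additive.ofMul ⟨_, hdT d (Additive.toMul a)⟩) (fun a b =>
      congrArg Additive.ofMul (Subtype.ext (by
        show (d : G) * ((Additive.toMul a : (T : Subgroup G)) * (Additive.toMul b : (T : Subgroup G)) : G) * (d : G)⁻¹ = _
        simp [mul_assoc])))
  let K := Subring.centralizer (Set.range cd)
  let e : Additive (T : Subgroup G) := Additive.ofMul ⟨s, hsT⟩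
  have horb : ∀ a : Additive (T : Subgroup G), a ≠ 0 → ∃ d : D, cd d e = a := by
    intro a ha
    obtain ⟨h1, h2⟩ := (mem_sylow_iff T hnn hC).1 (Additive.toMul a).2
    have ho2 : orderOf ((Additive.toMul a : (T : Subgroup G)) : G) = 2 :=
      CfsgLib.Invol.orderOf_two_iff.2 ⟨fun e => ha (Additive.toMul.injective (Subtype.ext e)), h1⟩
    obtain ⟨d, hd1, hd2, hd3⟩ := exists_conj_two_point hSE (Ne.symm hy₀) hs hso ho2 h2
    exact ⟨⟨d, hd1, hd2⟩, Additive.toMul.injective (Subtype.ext hd3)⟩
  have hcdK : ∀ d, cd d ∈ K := fun d => Subring.mem_centralizer_iff.mpr (by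
    rintro _ ⟨d', rfl⟩
    have hc := two_point_commute hSE (sq_of_commute hC) (Ne.symm hy₀) d'.2.1 d'.2.2 d.2.1 d.2.2
    refine AddMonoidHom.ext fun a => Additive.toMul.injective (Subtype.ext ?_)
    show (d' : G) * ((d : G) * (Additive.toMul a : (T : Subgroup G)) * (d : G)⁻¹) * (d' : G)⁻¹ =
      (d : G) * ((d' : G) * (Additive.toMul a : (T : Subgroup G)) * (d' : G)⁻¹) * (d : G)⁻¹
    calc _ = ((d' : G) * d) * (Additive.toMul a : (T : Subgroup G)) * ((d' : G) * d)⁻¹ := by group
      _ = ((d : G) * d') * (Additive.toMul a : (T : Subgroup G)) * ((d : G) * d')⁻¹ := by rw [hc.eq]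
      _ = _ := by group)
  have he0 : e ≠ 0 := fun h => CfsgLib.Invol.ne_one_of_orderOf_two hs
    (congrArg (fun v : Additive (T : Subgroup G) => ((Additive.toMul v : (T : Subgroup G)) : G)) h)
  let ev : K → Additive (T : Subgroup G) := fun f => (f : AddMonoid.End (Additive (T : Subgroup G))) e
  have hev : Function.Bijective ev := by
    refine ⟨fun f g h => Subtype.ext (AddMonoidHom.ext fun a => ?_), fun a => ?_⟩
    · by_cases ha : a = 0
      · subst ha; exact (map_zero _).trans (map_zero _).symm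
      obtain ⟨d, rfl⟩ := horb a ha
      have hf := DFunLike.congr_fun (Subring.mem_centralizer_iff.mp f.2 _ ⟨d, rfl⟩) e
      have hg := DFunLike.congr_fun (Subring.mem_centralizer_iff.mp g.2 _ ⟨d, rfl⟩) e
      exact hf.symm.trans ((congrArg (cd d) h).trans hg)
    · by_cases ha : a = 0
      · exact ⟨0, ha.symm⟩
      · obtain ⟨d, hd⟩ := horb a ha
        exact ⟨⟨cd d, hcdK d⟩, hd⟩
  have hform : ∀ f : K, f ≠ 0 → ∃ d, f = ⟨cd d, hcdK d⟩ := by
    intro f hf
    obtain ⟨d, hd⟩ := horb (ev f) (fun h => hf (hev.1 h))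
    exact ⟨d, hev.1 hd.symm⟩
  have hcomm : ∀ f g : K, f * g = g * f := by
    intro f g
    by_cases hg : g = 0
    · rw [hg, mul_zero, zero_mul]
    obtain ⟨d, rfl⟩ := hform g hg
    exact Subtype.ext (Subring.mem_centralizer_iff.mp f.2 _ ⟨d, rfl⟩).symm
  have hK : IsField K := by
    refine ⟨⟨0, 1, fun h => he0 (congrArg ev h).symm⟩, hcomm, fun {f} hf => ?_⟩
    obtain ⟨d, rfl⟩ := hform f hf
    refine ⟨⟨cd ⟨(d : G)⁻¹, inv_smul_eq_iff.2 d.2.1.symm, inv_smul_eq_iff.2 d.2.2.symm⟩, hcdK _⟩,
      Subtype.ext (AddMonoidHom.ext fun a => Additive.toMul.injective (Subtype.ext ?_))⟩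
    show (d : G) * ((d : G)⁻¹ * (Additive.toMul a : (T : Subgroup G)) * (d : G)⁻¹⁻¹) * (d : G)⁻¹ =
      (Additive.toMul a : (T : Subgroup G))
    group
  letI := hK.toField
  haveI : Finite K := Finite.of_injective ev hev.1
  letI : Fintype K := Fintype.ofFinite K
  let eq' : Carrier (Nat.card K) ≃ K := (Finite.equivFin K).symm
  letI : Field (Carrier (Nat.card K)) := eq'.field
  let ρ : Carrier (Nat.card K) ≃+* K := eq'.ringEquiv
  letI : Fintype (Carrier (Nat.card K)) := Fintype.ofEquiv K eq'.symm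
  let τ : Carrier (Nat.card K) → G := fun a => ((Additive.toMul (ev (ρ a)) : (T : Subgroup G)) : G)
  refine ⟨Carrier (Nat.card K), inferInstance, inferInstance, ?_, ?_⟩
  · rw [← Nat.card_eq_fintype_card, Nat.card_congr eq']
    exact (Nat.card_eq_of_bijective ev hev).trans (Nat.card_congr Additive.toMul)
  · refine identify T hnc hnn hC τ (fun a => (Additive.toMul (ev (ρ a))).2) ?_ ?_ ?_ y₀ hy₀ ?_
    · exact fun a b h => ρ.injective (hev.1 (Additive.toMul.injective (Subtype.ext h)))
    · intro t ht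
      obtain ⟨f, hf⟩ := hev.2 (Additive.ofMul ⟨t, ht⟩)
      exact ⟨ρ.symm f, by simp only [τ, ρ.apply_symm_apply, hf, toMul_ofMul]⟩
    · intro a b
      simp only [τ, ev, map_add, Subring.coe_add]
      rfl
    · intro a ha
      obtain ⟨d, hd⟩ := hform (ρ a) (fun h => ha (ρ.injective (h.trans (map_zero ρ).symm)))
      refine ⟨d, d.2.1, d.2.2, fun b => ?_⟩
      simp only [τ, map_mul, hd]
      rfl

end CfsgLib.CAInv
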