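import Cfsg.Agent.Lib.TwoFusionBasic
import Cfsg.Agent.Lib.ZStarRankOne
import Cfsg.Agent.Lib.CoreCoprime
import Cfsg.Prelude.Def_Transfer
import Cfsg.Agent.Lib.LocalChain

/-!
# Invariant Sylow subgroups and order formulas for isolated involutions
-/

set_option autoImplicit false

universe u

namespace CfsgLib.TwoFusion

open Subgroup

set_option linter.unusedSectionVars false

variable {G : Type u} [Group G] [Finite G]

theorem inverted_eq {z : G} (hz : Cfsg.IsIsolatedInvolution z) {k k' : G}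
    (hk : Odd (orderOf k) ∧ z * k * z⁻¹ = k⁻¹) (hk' : Odd (orderOf k') ∧ z * k' * z⁻¹ = k'⁻¹)
    (hc : Commute (k⁻¹ * k') z) : k = k' :=
  (existsUnique_inverted hz k).unique
    ⟨hk, by rw [inv_mul_cancel]; exact one_mem _⟩ ⟨hk', mem_centralizer_singleton_iff.mpr hc.eq⟩

theorem isolated_subgroup {z : G} (hz : Cfsg.IsIsolatedInvolution z) (H : Subgroup G)
    (hzH : z ∈ H) : Cfsg.IsIsolatedInvolution (⟨z, hzH⟩ : H) := by
  refine ⟨by rw [← Subgroup.orderOf_coe]; exact hz.1, fun g hg => Subtype.ext ?_⟩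
  exact hz.2 g (hg.map H.subtype)

theorem conj_mul_mem_core {z : G} (hz : Cfsg.IsIsolatedInvolution z) (g : G) :
    g * z * g⁻¹ * z ∈ Cfsg.pPrimeCore 2 G := by
  have h := CfsgLib.ZStar.inZStar_of_iso (CfsgLib.ZStar.iso_of_isolatedInvolution hz) g
  rwa [CfsgLib.Invol.inv_of_orderOf_two hz.1] at h

theorem exists_core_mul_centralizer {z : G} (hz : Cfsg.IsIsolatedInvolution z) (H : Subgroup G)
    (hzH : z ∈ H) (g : G) (hg : g ∈ H) :
    ∃ k ∈ Cfsg.pPrimeCore 2 G, k ∈ H ∧ k⁻¹ * g ∈ H ⊓ centralizer ({z} : Set G) := by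
  obtain ⟨j, -, -, -, hk⟩ := exists_conj_element hz g
  set k := (g * z * g⁻¹ * z) ^ j with hk'
  have hkH : k ∈ H := pow_mem (mul_mem (mul_mem (mul_mem hg hzH) (inv_mem hg)) hzH) j
  refine ⟨k, pow_mem (conj_mul_mem_core hz g) j, hkH, mem_inf.mpr
    ⟨mul_mem (inv_mem hkH) hg, mem_centralizer_singleton_iff.mpr ?_⟩⟩
  calc k⁻¹ * g * z = k⁻¹ * (g * z * g⁻¹) * g := by group
    _ = k⁻¹ * (k * z * k⁻¹) * g := by rw [hk]
    _ = _ := by group

theorem index_eq_relIndex_of_sup (M H : Subgroup G) [M.Normal] (h : M ⊔ H = ⊤) :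
    H.index = H.relIndex M := by
  have h1 : M.index = M.relIndex H := by
    rw [← CfsgLib.Core.relIndex_sup_eq_of_le_normalizer (A := H) (K := M)
      (le_top.trans (normalizer_eq_top M).ge), sup_comm, h, relIndex_top_right]
  have h2 := CfsgLib.Core.card_inf_mul_relIndex M H
  have h3 := CfsgLib.Core.card_inf_mul_relIndex H M
  have h4 := M.card_mul_index
  have h5 := H.card_mul_index
  rw [h1, ← h5, ← h3, ← h2, inf_comm H M] at h4
  have hne : Nat.card ↥(M ⊓ H) * M.relIndex H ≠ 0 := by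
    rw [h2]; exact Nat.card_pos.ne'
  apply mul_left_cancel₀ hne
  rw [← h4]; ring

theorem exists_invariant_sylow_isolated {z : G} (hz : Cfsg.IsIsolatedInvolution z) (p : ℕ)
    [hp : Fact p.Prime] : ∃ P : Sylow p G, z ∈ normalizer ((P : Subgroup G) : Set G) := by
  by_cases hp2 : p = 2
  · subst hp2
    obtain ⟨P, hP⟩ := (IsPGroup.of_card (n := 1)
      (by rw [Nat.card_zpowers, hz.1, pow_one]) : IsPGroup 2 (zpowers z)).exists_le_sylow
    exact ⟨P, le_normalizer (hP (mem_zpowers z))⟩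
  haveI := CfsgLib.Core.normal_pPrimeCore (G := G) 2
  set M := Cfsg.pPrimeCore 2 G with hM
  have hodd : Odd (Nat.card M) := CfsgLib.Core.odd_card_pPrimeCore_two
  have hA : IsPGroup 2 (zpowers z) := IsPGroup.of_card (n := 1)
    (by rw [Nat.card_zpowers, hz.1, pow_one])
  obtain ⟨P₀', hP₀⟩ := CfsgLib.Core.exists_invariant_sylow (A := zpowers z) (K := M) p
    (le_top.trans (normalizer_eq_top M).ge)
    (by rw [Nat.card_zpowers, hz.1]; exact Nat.coprime_two_left.mpr hodd)
    (Or.inl (by haveI := hA.isNilpotent; infer_instance))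
  set P₀ := (P₀' : Subgroup M).map M.subtype with hP₀d
  have hP₀M : P₀ ≤ M := map_subtype_le _
  have hP₀p : IsPGroup p P₀ := P₀'.2.map _
  have hP₀i : ¬ p ∣ P₀.relIndex M := by
    rw [hP₀d, Subgroup.relIndex, subgroupOf, comap_map_eq_self_of_injective M.subtype_injective]
    exact P₀'.not_dvd_index
  set N := normalizer (P₀ : Set G) with hN
  have hzN : z ∈ N := hP₀ (mem_zpowers z)
  have hP₀N : P₀ ≤ N := le_normalizer
  set C := centralizer ({z} : Set G) with hC
  -- Frattini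
  have hMN : M ⊔ N = ⊤ := P₀'.normalizer_sup_eq_top ▸ sup_comm _ _
  have hN1 : N ≤ (M ⊓ N) ⊔ (N ⊓ C) := by
    intro g hg
    obtain ⟨k, hkM, hkN, hc⟩ := exists_core_mul_centralizer hz N hzN g hg
    rw [← mul_inv_cancel_left k g]
    exact mul_mem (mem_sup_left (mem_inf.mpr ⟨hkM, hkN⟩)) (mem_sup_right hc)
  obtain ⟨R', -⟩ := (inferInstance : Nonempty (Sylow p ↥(N ⊓ C))).elim fun R => (⟨R, trivial⟩ : ∃ R : Sylow p ↥(N ⊓ C), True)
  set R := (R' : Subgroup ↥(N ⊓ C)).map (N ⊓ C).subtype with hRd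
  have hRle : R ≤ N ⊓ C := map_subtype_le _
  have hRN : R ≤ N := hRle.trans inf_le_left
  have hXp : IsPGroup p (R ⊔ P₀ : Subgroup G) := (R'.2.map _).to_sup_of_normal_right' hP₀p hRN
  refine ⟨hXp.toSylow ?_, ?_⟩
  swap
  · show z ∈ normalizer ((R ⊔ P₀ : Subgroup G) : Set G)
    exact CfsgLib.Core.le_normalizer_sup (A := zpowers z) (by
      rw [zpowers_le]
      exact centralizer_le_normalizer _ (mem_centralizer_iff.mpr fun w hw =>
        mem_centralizer_singleton_iff.mp (hRle hw).2)) hP₀ (mem_zpowers z)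
  -- order computation
  set X' := (N ⊓ C) ⊔ P₀ with hX'
  set V := M ⊓ N with hV
  have hXN : X' ≤ N := sup_le inf_le_left hP₀N
  have hX'V : X' ≤ normalizer (V : Set G) := hXN.trans
    (CfsgLib.Core.le_normalizer_inf (le_top.trans (normalizer_eq_top M).ge) le_normalizer)
  have hsup : X' ⊔ V = N := le_antisymm (sup_le hXN inf_le_right)
    (hN1.trans (sup_le le_sup_right (le_sup_left.trans' le_sup_left)))
  have e1 := CfsgLib.Core.card_sup_mul_card_inf hX'V
  rw [hsup] at e1
  have hP₀V : P₀ ≤ X' ⊓ V := le_inf le_sup_right (le_inf hP₀M hP₀N)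
  have e2 := CfsgLib.Core.card_mul_relIndex hP₀V
  have e3 := CfsgLib.Core.card_mul_relIndex (H := P₀) (K := V) (le_inf hP₀M hP₀N)
  have e4 := CfsgLib.Core.card_sup_mul_card_inf (A := N ⊓ C) (K := P₀) inf_le_left
  have e5 := CfsgLib.Core.card_sup_mul_card_inf (A := R) (K := P₀) hRN
  rw [← hX'] at e4
  -- the intersections with `P₀` agree
  have hI : (N ⊓ C) ⊓ P₀ = R ⊓ P₀ := by
    refine le_antisymm (le_inf ?_ inf_le_right) (inf_le_inf_right _ hRle)
    set W := (N ⊓ C) ⊓ P₀ with hW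
    have hWn : (W.subgroupOf (N ⊓ C)).Normal := normal_subgroupOf_of_le_normalizer
      (CfsgLib.Core.le_normalizer_inf le_normalizer inf_le_left)
    have hWp : IsPGroup p (W.subgroupOf (N ⊓ C)) :=
      (hP₀p.to_le (inf_le_right : W ≤ P₀)).comap_of_injective _ (N ⊓ C).subtype_injective
    have h := map_mono (f := (N ⊓ C).subtype) (hWp.le_sylow_of_normal R')
    rwa [map_subgroupOf_eq_of_le (inf_le_left : W ≤ N ⊓ C)] at h
  rw [hI] at e4
  have e6 := CfsgLib.Core.card_mul_relIndex hRle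
  have e7 : R.relIndex (N ⊓ C) = (R' : Subgroup ↥(N ⊓ C)).index := by
    rw [hRd, Subgroup.relIndex, subgroupOf,
      comap_map_eq_self_of_injective (N ⊓ C).subtype_injective]
  have e8 := N.card_mul_index
  have e9 := (R ⊔ P₀).card_mul_index
  have hpos : 0 < Nat.card ↥(R ⊓ P₀) := Nat.card_pos
  have key : (R ⊔ P₀).index * P₀.relIndex (X' ⊓ V) =
      R.relIndex (N ⊓ C) * P₀.relIndex V * N.index := by
    have hne : Nat.card ↥(R ⊔ P₀) * Nat.card P₀ * Nat.card ↥(R ⊓ P₀) ≠ 0 :=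
      mul_ne_zero (mul_ne_zero Nat.card_pos.ne' Nat.card_pos.ne') hpos.ne'
    apply mul_left_cancel₀ hne
    calc Nat.card ↥(R ⊔ P₀) * Nat.card P₀ * Nat.card ↥(R ⊓ P₀) *
          ((R ⊔ P₀).index * P₀.relIndex (X' ⊓ V))
        = (Nat.card ↥(R ⊔ P₀) * (R ⊔ P₀).index) * (Nat.card P₀ * P₀.relIndex (X' ⊓ V)) *
            Nat.card ↥(R ⊓ P₀) := by ring
      _ = (Nat.card N * Nat.card ↥(X' ⊓ V)) * N.index * Nat.card ↥(R ⊓ P₀) := by
          rw [e9, e2, ← e8]; ring
      _ = (Nat.card X' * Nat.card ↥(R ⊓ P₀)) * Nat.card V * N.index := by rw [e1]; ring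
      _ = (Nat.card R * Nat.card P₀) * R.relIndex (N ⊓ C) * (Nat.card P₀ * P₀.relIndex V) *
            N.index := by rw [e4, ← e6, e3]; ring
      _ = _ := by rw [← e5]; ring
  intro hd
  have h := key ▸ hd.mul_right (P₀.relIndex (X' ⊓ V))
  rcases hp.out.dvd_mul.mp h with h | h
  · rcases hp.out.dvd_mul.mp h with h | h
    · exact R'.not_dvd_index (e7 ▸ h)
    · exact hP₀i (h.trans ⟨_, (relIndex_mul_relIndex P₀ V M (le_inf hP₀M hP₀N) inf_le_left).symm⟩)
  · rw [index_eq_relIndex_of_sup M N hMN] at h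
    exact hP₀i (h.trans (relIndex_dvd_of_le_left M hP₀N))

theorem invariant_maximal_sylow {z : G} (hz : Cfsg.IsIsolatedInvolution z) {p : ℕ}
    [hp : Fact p.Prime] (Q : Subgroup G) (hQ : IsPGroup p Q)
    (hzQ : z ∈ normalizer (Q : Set G))
    (hmax : ∀ R : Subgroup G, IsPGroup p R → z ∈ normalizer (R : Set G) → Q ≤ R → R = Q) :
    ∃ P : Sylow p G, (P : Subgroup G) = Q := by
  set N := normalizer (Q : Set G) with hN
  obtain ⟨T, hT⟩ := exists_invariant_sylow_isolated (isolated_subgroup hz N hzQ) p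
  set R := (T : Subgroup N).map N.subtype with hR
  have hQR : Q ≤ R := by
    haveI : (Q.comap N.subtype).Normal := normal_subgroupOf_of_le_normalizer le_rfl
    have h := map_mono (f := N.subtype)
      ((hQ.comap_of_injective N.subtype N.subtype_injective).le_sylow_of_normal T)
    rwa [← subgroupOf, map_subgroupOf_eq_of_le (le_normalizer : Q ≤ N)] at h
  have hzR : z ∈ normalizer (R : Set G) := le_normalizer_map N.subtype (mem_map_of_mem _ hT)
  have hRQ : R = Q := hmax R (T.2.map _) hzR hQR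
  have hidx : ¬ p ∣ Q.relIndex N := by
    rw [← hRQ, hR, Subgroup.relIndex, subgroupOf,
      comap_map_eq_self_of_injective N.subtype_injective]
    exact T.not_dvd_index
  obtain ⟨n, hn⟩ := IsPGroup.iff_card.mp hQ
  have hnd : ¬ p ∣ Q.index := by
    intro hd
    have hdvd : p ^ (n + 1) ∣ Nat.card G := by
      rw [← Q.card_mul_index, hn, pow_succ]
      exact mul_dvd_mul_left _ hd
    have h1 := Sylow.prime_dvd_card_quotient_normalizer hdvd hn
    rw [← Subgroup.index_eq_card] at h1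
    exact hidx h1
  exact ⟨hQ.toSylow hnd, rfl⟩

theorem invariant_sylow_conj {z : G} (hz : Cfsg.IsIsolatedInvolution z) {p : ℕ} [Fact p.Prime]
    (P P' : Sylow p G) (hP : z ∈ normalizer ((P : Subgroup G) : Set G))
    (hP' : z ∈ normalizer ((P' : Subgroup G) : Set G)) :
    ∃ c ∈ centralizer ({z} : Set G),
      (P' : Subgroup G).map (MulAut.conj c).toMonoidHom = (P : Subgroup G) := by
  obtain ⟨g, hg⟩ := MulAction.exists_smul_eq G P' P
  have hg' : (P' : Subgroup G).map (MulAut.conj g).toMonoidHom = (P : Subgroup G) := by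
    rw [← hg]; rfl
  have h1 : g * z * g⁻¹ ∈ normalizer ((P : Subgroup G) : Set G) := by
    rw [← hg']
    exact le_normalizer_map (MulAut.conj g).toMonoidHom ⟨z, hP', rfl⟩
  obtain ⟨h, hh, he⟩ := conj_in_subgroup hz _ hP g h1
  refine ⟨h⁻¹ * g, mem_centralizer_singleton_iff.mpr ?_, ?_⟩
  · calc h⁻¹ * g * z = h⁻¹ * (g * z * g⁻¹) * g := by group
      _ = h⁻¹ * (h * z * h⁻¹) * g := by rw [he]
      _ = _ := by group
  · calc (P' : Subgroup G).map (MulAut.conj (h⁻¹ * g)).toMonoidHom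
        = ((P' : Subgroup G).map (MulAut.conj g).toMonoidHom).map (MulAut.conj h⁻¹).toMonoidHom := by
          rw [Subgroup.map_map]; congr 1; ext w; simp [MulAut.conj_apply, mul_assoc]
      _ = _ := by rw [hg']; exact mem_normalizer_iff_map_conj_eq.mp (inv_mem hh)

theorem invariant_sylow_inter_centralizer {z : G} (hz : Cfsg.IsIsolatedInvolution z) {p : ℕ}
    [hp : Fact p.Prime] (P : Sylow p G) (hzP : z ∈ normalizer ((P : Subgroup G) : Set G)) :
    ¬ p ∣ ((P : Subgroup G) ⊓ centralizer ({z} : Set G)).relIndex (centralizer ({z} : Set G)) := by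
  set C := centralizer ({z} : Set G) with hC
  obtain ⟨R⟩ : Nonempty (Sylow p C) := inferInstance
  set U := (R : Subgroup C).map C.subtype with hU
  have hUC : U ≤ C := map_subtype_le _
  obtain ⟨Q, hQ, hmax⟩ := (Set.toFinite {Q : Subgroup G | U ≤ Q ∧ IsPGroup p Q ∧
    z ∈ normalizer (Q : Set G)}).exists_maximal ⟨U, le_rfl, R.2.map _,
      centralizer_le_normalizer _ (mem_centralizer_iff.mpr fun w hw =>
        mem_centralizer_singleton_iff.mp (hUC hw))⟩
  obtain ⟨P', hP'⟩ := invariant_maximal_sylow hz Q hQ.2.1 hQ.2.2 fun X hX hzX hle =>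
    le_antisymm (hmax ⟨hQ.1.trans hle, hX, hzX⟩ hle) hle
  obtain ⟨c, hc, he⟩ := invariant_sylow_conj hz P P' hzP (hP' ▸ hQ.2.2)
  have hcU : U.map (MulAut.conj c).toMonoidHom ≤ (P : Subgroup G) ⊓ C := by
    refine le_inf (he ▸ map_mono (hP' ▸ hQ.1)) ?_
    rintro _ ⟨u, hu, rfl⟩
    exact mul_mem (mul_mem hc (hUC hu)) (inv_mem hc)
  intro hd
  refine R.not_dvd_index (hd.trans ((relIndex_dvd_of_le_left C hcU).trans (dvd_of_eq ?_)))
  have hcC : C.map (MulAut.conj c).toMonoidHom = C :=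
    mem_normalizer_iff_map_conj_eq.mp (le_normalizer hc)
  have h2 := relIndex_map_map_of_injective U C (f := (MulAut.conj c).toMonoidHom) (MulAut.conj c).injective
  rw [hcC] at h2
  rw [h2, hU, Subgroup.relIndex,
    subgroupOf, comap_map_eq_self_of_injective C.subtype_injective]

theorem invariant_sylow_relIndex {z : G} (hz : Cfsg.IsIsolatedInvolution z) {p : ℕ}
    [hp : Fact p.Prime] (hp2 : p ≠ 2) (P : Sylow p G)
    (hzP : z ∈ normalizer ((P : Subgroup G) : Set G)) :
    ((P : Subgroup G) ⊓ centralizer ({z} : Set G)).relIndex (P : Subgroup G) =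
      Nat.card {x : G // x ∈ P ∧ z * x * z⁻¹ = x⁻¹} := by
  set C := centralizer ({z} : Set G) with hC
  set H := ((P : Subgroup G) ⊓ C).subgroupOf (P : Subgroup G) with hH
  have hodd : ∀ x ∈ (P : Subgroup G), Odd (orderOf x) := by
    intro x hx
    obtain ⟨k, hk⟩ := P.2 ⟨x, hx⟩
    exact ((hp.out.odd_of_ne_two hp2).pow).of_dvd_nat
      (orderOf_dvd_of_pow_eq_one (congrArg Subtype.val hk : x ^ p ^ k = 1))
  let φ : {x : G // x ∈ P ∧ z * x * z⁻¹ = x⁻¹} → (P : Subgroup G) ⧸ H :=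
    fun x => QuotientGroup.mk ⟨x.1, x.2.1⟩
  rw [Subgroup.relIndex, index_eq_card]
  refine (Nat.card_eq_of_bijective φ ⟨?_, ?_⟩).symm
  · rintro ⟨a, ha⟩ ⟨b, hb⟩ e
    have h1 : a⁻¹ * b ∈ (P : Subgroup G) ⊓ C := (QuotientGroup.eq (s := H)).mp e
    exact Subtype.ext (inverted_eq hz ⟨hodd a ha.1, ha.2⟩ ⟨hodd b hb.1, hb.2⟩
      (mem_centralizer_singleton_iff.mp (mem_inf.mp h1).2))
  · rintro ⟨g⟩
    obtain ⟨j, hj, -, hinv, hk⟩ := exists_conj_element hz (g : G)
    set k := ((g : G) * z * (g : G)⁻¹ * z) ^ j with hk'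
    have hkP : k ∈ (P : Subgroup G) := pow_mem (by
      have h := (mem_normalizer_iff.mp hzP (g : G)⁻¹).mp (inv_mem g.2)
      rw [CfsgLib.Invol.inv_of_orderOf_two hz.1] at h
      rw [show (g : G) * z * (g : G)⁻¹ * z = g * (z * (g : G)⁻¹ * z) by group]
      exact mul_mem g.2 h) j
    refine ⟨⟨k, hkP, hinv⟩, QuotientGroup.eq.mpr ?_⟩
    refine mem_inf.mpr ⟨mul_mem (inv_mem hkP) g.2, mem_centralizer_singleton_iff.mpr ?_⟩
    show k⁻¹ * (g : G) * z = z * (k⁻¹ * g)
    calc k⁻¹ * (g : G) * z = k⁻¹ * ((g : G) * z * (g : G)⁻¹) * g := by group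
      _ = k⁻¹ * (k * z * k⁻¹) * g := by rw [hk]
      _ = _ := by group

theorem pResidual_eq_top_iff {z : G} (hz : Cfsg.IsIsolatedInvolution z) :
    Cfsg.pResidual 2 G = ⊤ ↔ Cfsg.pResidual 2 ↥(centralizer ({z} : Set G)) = ⊤ := by
  haveI := CfsgLib.Core.normal_pPrimeCore (G := G) 2
  set M := Cfsg.pPrimeCore 2 G with hM
  set C := centralizer ({z} : Set G) with hC
  have hodd : Odd (Nat.card M) := CfsgLib.Core.odd_card_pPrimeCore_two
  have hMC : ∀ g : G, ∃ k ∈ M, k⁻¹ * g ∈ C := fun g => by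
    obtain ⟨k, hk, -, hc⟩ := exists_core_mul_centralizer hz ⊤ trivial g trivial
    exact ⟨k, hk, (mem_inf.mp hc).2⟩
  have hodd' : ∀ m ∈ M, Nat.Coprime (orderOf m) 2 := fun m hm => Nat.coprime_two_right.mpr
    (hodd.of_dvd_nat (Subgroup.orderOf_dvd_natCard M hm))
  set K := Cfsg.pResidual 2 C with hK
  constructor
  · intro h
    haveI hKn : K.Normal := CfsgLib.Local.pResidual_normal' 2 C
    set X := M ⊔ K.map C.subtype with hX
    have hsupC : M ⊔ C = ⊤ := by
      rw [eq_top_iff]; intro g _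
      obtain ⟨k, hk, hc⟩ := hMC g
      rw [← mul_inv_cancel_left k g]
      exact mul_mem (mem_sup_left hk) (mem_sup_right hc)
    haveI hXn : X.Normal := by
      rw [← normalizer_eq_top_iff, eq_top_iff, ← hsupC]
      refine sup_le (le_sup_left.trans le_normalizer) ?_
      refine CfsgLib.Core.le_normalizer_sup (le_top.trans (normalizer_eq_top M).ge) ?_
      intro c hc
      have := le_normalizer_map C.subtype (H := K)
        ⟨⟨c, hc⟩, (normalizer_eq_top K).ge trivial, rfl⟩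
      exact this
    have hXtop : X = ⊤ := by
      rw [eq_top_iff, ← h]
      refine (closure_le _).mpr fun g hg => ?_
      rw [SetLike.mem_coe, ← QuotientGroup.eq_one_iff]
      obtain ⟨k, hk, hc⟩ := hMC g
      have e : (QuotientGroup.mk g : G ⧸ X) = QuotientGroup.mk (k⁻¹ * g) := by
        rw [QuotientGroup.mk_mul, QuotientGroup.mk_inv,
          (QuotientGroup.eq_one_iff k).mpr (mem_sup_left hk), inv_one, one_mul]
      -- a power of two kills the image
      set c : C := ⟨k⁻¹ * g, hc⟩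
      set n := orderOf c with hn
      obtain ⟨a, b, hb, hab⟩ := Nat.exists_eq_two_pow_mul_odd (orderOf_pos c).ne'
      have h1 : c ^ (2 ^ a) ∈ K := subset_closure (Nat.coprime_two_right.mpr (hb.of_dvd_nat
        (orderOf_dvd_of_pow_eq_one (by rw [← pow_mul, ← hab, pow_orderOf_eq_one]))))
      have h2 : (QuotientGroup.mk g : G ⧸ X) ^ (2 ^ a) = 1 := by
        rw [e, ← QuotientGroup.mk_pow, QuotientGroup.eq_one_iff]
        exact mem_sup_right ⟨_, h1, by simp [c]⟩
      rw [← orderOf_eq_one_iff]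
      exact Nat.eq_one_of_dvd_coprimes (Nat.Coprime.pow_right a hg)
        (orderOf_map_dvd (QuotientGroup.mk' X) g) (orderOf_dvd_of_pow_eq_one h2)
    rw [eq_top_iff]
    rintro ⟨c, hc⟩ -
    have hcX : c ∈ X := hXtop ▸ Subgroup.mem_top c
    rw [hX, ← SetLike.mem_coe, normal_mul] at hcX
    obtain ⟨m, hm, _, ⟨r, hr, rfl⟩, hmr⟩ := hcX
    have hmr' : m * (r : G) = c := hmr
    have hmC : m ∈ C := by
      rw [← mul_inv_cancel_right m (r : G), hmr']
      exact mul_mem hc (inv_mem r.2)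
    have e : (⟨c, hc⟩ : C) = ⟨m, hmC⟩ * r := Subtype.ext hmr'.symm
    rw [e]
    exact mul_mem (subset_closure (show Nat.Coprime (orderOf (⟨m, hmC⟩ : C)) 2 by
      rw [← Subgroup.orderOf_coe]; exact hodd' m hm)) hr
  · intro h
    rw [eq_top_iff]
    intro g _
    obtain ⟨k, hk, hc⟩ := hMC g
    rw [← mul_inv_cancel_left k g]
    refine mul_mem (subset_closure (hodd' k hk)) ?_
    have hmap : K.map C.subtype ≤ Cfsg.pResidual 2 G := by
      rw [hK, Cfsg.pResidual, MonoidHom.map_closure]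
      refine (closure_le _).mpr ?_
      rintro _ ⟨x, hx, rfl⟩
      exact subset_closure (show Nat.Coprime (orderOf (x : G)) 2 by
        rw [Subgroup.orderOf_coe]; exact hx)
    exact hmap ⟨⟨_, hc⟩, by rw [hK] at *; rw [h]; trivial, rfl⟩

theorem inverted_order_formula {z : G} (hz : Cfsg.IsIsolatedInvolution z) {s : G}
    (hs : orderOf s = 2) (hsz : Commute s z) :
    Nat.card G = Nat.card (centralizer ({z} : Set G)) *
      Nat.card {k : G // Odd (orderOf k) ∧ z * k * z⁻¹ = k⁻¹ ∧ Commute k (s * z)} *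
      Nat.card {k : G // Odd (orderOf k) ∧ z * k * z⁻¹ = k⁻¹ ∧ Commute k s} := by
  have hzz : z * z = 1 := CfsgLib.Invol.mul_self_of_orderOf_two hz.1
  have hzi : z⁻¹ = z := CfsgLib.Invol.inv_of_orderOf_two hz.1
  have hsi : s⁻¹ = s := CfsgLib.Invol.inv_of_orderOf_two hs
  set C := centralizer ({z} : Set G) with hC
  set B := {k : G // Odd (orderOf k) ∧ z * k * z⁻¹ = k⁻¹ ∧ Commute k (s * z)}
  set A := {k : G // Odd (orderOf k) ∧ z * k * z⁻¹ = k⁻¹ ∧ Commute k s}
  let φ : A × B → G ⧸ C := fun ab => QuotientGroup.mk (ab.1.1 * ab.2.1)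
  have hmemC : ∀ x : G, x ∈ C ↔ Commute x z := fun x => mem_centralizer_singleton_iff
  have hbij : Function.Bijective φ := by
    constructor
    · rintro ⟨⟨a, hao, haz, has⟩, b, hbo, hbz, hbt⟩ ⟨⟨a', hao', haz', has'⟩, b', hbo', hbz', hbt'⟩ e
      have hc : Commute (b⁻¹ * (a⁻¹ * a') * b') z := by
        rw [← hmemC]
        have h := QuotientGroup.eq.mp e
        convert h using 1
        group
      set x := a⁻¹ * a' with hx
      -- conjugation by `s` inverts `b` and fixes `x`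
      have hsb : ∀ y : G, z * y * z⁻¹ = y⁻¹ → Commute y (s * z) → s * y * s⁻¹ = y⁻¹ := by
        intro y hy hyt
        calc s * y * s⁻¹ = s * z * (z * y * z⁻¹) * z * s⁻¹ := by
              rw [show s * z * (z * y * z⁻¹) * z * s⁻¹ = s * (z * z) * y * (z⁻¹ * z) * s⁻¹ by group,
                hzz]; group
          _ = s * z * y⁻¹ * (s * z)⁻¹ := by rw [hy, mul_inv_rev, hzi]; group
          _ = y⁻¹ := by rw [← hyt.inv_left.eq, mul_inv_cancel_right]
      have hxs : s * x * s⁻¹ = x := by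
        rw [← (has.inv_left.mul_left has').eq, mul_inv_cancel_right]
      have hd : Commute (b * x * b'⁻¹) z := by
        have h := hc.map (MulAut.conj s).toMonoidHom
        simp only [MulEquiv.coe_toMonoidHom, MulAut.conj_apply] at h
        rw [show s * z * s⁻¹ = z by rw [hsz.eq, mul_inv_cancel_right],
          show s * (b⁻¹ * x * b') * s⁻¹ = (s * b * s⁻¹)⁻¹ * (s * x * s⁻¹) * (s * b' * s⁻¹) by group,
          hsb b hbz hbt, hsb b' hbz' hbt', inv_inv, hxs] at h
        exact h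
      -- apply `z`
      have hz1 : b * (z * x * z⁻¹) * b'⁻¹ = b⁻¹ * x * b' := by
        calc b * (z * x * z⁻¹) * b'⁻¹ = (z * b * z⁻¹)⁻¹ * (z * x * z⁻¹) * (z * b' * z⁻¹) := by
              rw [hbz, hbz', inv_inv]
          _ = z * (b⁻¹ * x * b') * z⁻¹ := by group
          _ = _ := by rw [← hc.eq, mul_inv_cancel_right]
      have hz2 : b⁻¹ * (z * x * z⁻¹) * b' = b * x * b'⁻¹ := by
        calc b⁻¹ * (z * x * z⁻¹) * b' = (z * b * z⁻¹) * (z * x * z⁻¹) * (z * b' * z⁻¹)⁻¹ := by
              rw [hbz, hbz', inv_inv]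
          _ = z * (b * x * b'⁻¹) * z⁻¹ := by group
          _ = _ := by rw [← hd.eq, mul_inv_cancel_right]
      set x' := z * x * z⁻¹ with hx'
      have h4 : x⁻¹ * b ^ 4 * x = b' ^ 4 := by
        have e1 : x' = b⁻¹ * (b⁻¹ * x * b') * b' := by rw [← hz1]; group
        rw [e1] at hz2
        have e2 : x = b ^ 4 * x * (b' ^ 4)⁻¹ → x⁻¹ * b ^ 4 * x = b' ^ 4 := fun e2 => by
          calc x⁻¹ * b ^ 4 * x = x⁻¹ * (b ^ 4 * x * (b' ^ 4)⁻¹) * b' ^ 4 := by group
            _ = x⁻¹ * x * b' ^ 4 := by rw [← e2]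
            _ = _ := by group
        refine e2 ?_
        calc x = b * b * (b⁻¹ * b⁻¹ * x * b' * b') * b'⁻¹ * b'⁻¹ := by group
          _ = b * b * b * (b⁻¹ * (b⁻¹ * (b⁻¹ * x * b') * b') * b') * b'⁻¹ * b'⁻¹ * b'⁻¹ := by group
          _ = b * b * b * (b * x * b'⁻¹) * b'⁻¹ * b'⁻¹ * b'⁻¹ := by rw [hz2]
          _ = _ := by simp only [pow_succ, pow_zero, one_mul]; group
      have h5 : x⁻¹ * b * x = b' := by
        have e1 : (x⁻¹ * b * x) ^ 4 = b' ^ 4 := by
          rw [← h4]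
          have h := conj_pow (a := x⁻¹) (b := b) (i := 4)
          rwa [inv_inv] at h
        refine pow_left_inj_of_coprime ?_ hbo' e1
        have h := MulEquiv.orderOf_eq (MulAut.conj x⁻¹) b
        simp only [MulAut.conj_apply, inv_inv] at h
        rw [h]; exact hbo
      have hxx : x' = x := by
        calc x' = b⁻¹ * (b * x' * b'⁻¹) * b' := by group
          _ = b⁻¹ * (b⁻¹ * x * b') * b' := by rw [hz1]
          _ = b⁻¹ * (b⁻¹ * x * (x⁻¹ * b * x)) * (x⁻¹ * b * x) := by rw [h5]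
          _ = x := by group
      have haa : a = a' := inverted_eq hz ⟨hao, haz⟩ ⟨hao', haz'⟩ (by
        show x * z = z * x
        exact (mul_inv_eq_iff_eq_mul.mp hxx).symm)
      subst haa
      have hbb : b = b' := by rw [← h5, hx, inv_mul_cancel]; group
      subst hbb
      rfl
    · intro q
      obtain ⟨g, rfl⟩ := QuotientGroup.mk_surjective q
      set w := g * z * g⁻¹ with hw
      set w' := s * w * s⁻¹ with hw'
      have hw'e : w' = (s * g) * z * (s * g)⁻¹ := by rw [hw', hw]; group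
      have hwo : orderOf w = 2 := by rw [hw, CfsgLib.Invol.orderOf_conj]; exact hz.1
      have hwo' : orderOf w' = 2 := by rw [hw', CfsgLib.Invol.orderOf_conj]; exact hwo
      have hwi : w⁻¹ = w := CfsgLib.Invol.inv_of_orderOf_two hwo
      have hww : w * w = 1 := CfsgLib.Invol.mul_self_of_orderOf_two hwo
      set u := w' * w with hu
      have hodd : Odd (orderOf u) := by
        have h1 := odd_orderOf_mul_conj (isolated_conj hz g) (s * g * g⁻¹)
        rwa [show s * g * g⁻¹ * (g * z * g⁻¹) * (s * g * g⁻¹)⁻¹ * (g * z * g⁻¹) = u by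
          rw [hu, hw', hw]; group] at h1
      set n := (orderOf u + 1) / 2 with hn
      set v := u ^ n with hv
      have hv2 : v ^ 2 = u := pow_half_sq hodd
      set m := v * w with hm
      have hsu : s * u * s⁻¹ = u⁻¹ := by
        rw [hu, mul_inv_rev, hwi, CfsgLib.Invol.inv_of_orderOf_two hwo',
          show s * (w' * w) * s⁻¹ = (s * w' * s⁻¹) * w' by rw [hw']; group]
        congr 1
        rw [hw']
        calc s * (s * w * s⁻¹) * s⁻¹ = (s * s) * w * (s * s)⁻¹ := by group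
          _ = w := by rw [CfsgLib.Invol.mul_self_of_orderOf_two hs]; group
      have hwu : w * u * w⁻¹ = u⁻¹ := by
        rw [hu, mul_inv_rev (a := w') (b := w), hwi, CfsgLib.Invol.inv_of_orderOf_two hwo']
        calc w * (w' * w) * w = w * w' * (w * w) := by group
          _ = w * w' := by rw [hww, mul_one]
      have hwv : w * v * w⁻¹ = v⁻¹ := by rw [hv, ← conj_pow, hwu, inv_pow]
      have hsv : s * v * s⁻¹ = v⁻¹ := by rw [hv, ← conj_pow, hsu, inv_pow]
      have hw'u : w' = v ^ 2 * w := by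
        rw [hv2, hu, mul_assoc, hww, mul_one]
      have hsm : Commute s m := by
        show s * m = m * s
        rw [← mul_inv_eq_iff_eq_mul]
        calc s * m * s⁻¹ = (s * v * s⁻¹) * (s * w * s⁻¹) := by rw [hm]; group
          _ = v⁻¹ * (v ^ 2 * w) := by rw [hsv, ← hw', hw'u]
          _ = m := by rw [hm, sq]; group
      -- `m` is a conjugate of `z`
      set v' := v ^ n with hv'
      have hv'2 : v' ^ 2 = v := pow_half_sq' hodd
      have hwv' : w * v' * w⁻¹ = v'⁻¹ := by rw [hv', ← conj_pow, hwv, inv_pow]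
      have hme : m = (v' * g) * z * (v' * g)⁻¹ := by
        have h1 : w * v'⁻¹ = v' * w := by
          calc w * v'⁻¹ = w * (w * v' * w⁻¹) := by rw [hwv']
            _ = (w * w) * v' * w⁻¹ := by group
            _ = _ := by rw [hww, one_mul, hwi]
        calc m = v' * (v' * w) := by rw [hm, ← hv'2, sq, mul_assoc]
          _ = v' * (w * v'⁻¹) := by rw [h1]
          _ = _ := by rw [hw]; group
      have hmi : m⁻¹ = m := CfsgLib.Invol.inv_of_orderOf_two (by
        rw [hme, CfsgLib.Invol.orderOf_conj]; exact hz.1)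
      have hmw : m * w * m⁻¹ = w' := by
        rw [hw'u]
        calc m * w * m⁻¹ = v * w * w * w⁻¹ * v⁻¹ := by rw [hm]; group
          _ = v * w * v⁻¹ := by group
          _ = v * w * (w * v * w⁻¹) := by rw [hwv]
          _ = v * (w * w) * v * w⁻¹ := by group
          _ = _ := by rw [hww, mul_one, hwi, sq]
      obtain ⟨j, hjo, -, hjinv, hjk⟩ := exists_conj_element hz (v' * g)
      rw [← hme] at hjk hjo hjinv
      set a := (m * z) ^ j with ha
      have has : Commute a s := ((hsm.mul_right hsz).pow_right j).symm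
      set x := a⁻¹ * g with hx
      obtain ⟨i, hio, -, hiinv, hik⟩ := exists_conj_element hz x
      set b := (x * z * x⁻¹ * z) ^ i with hb
      have hxw : x * z * x⁻¹ = a⁻¹ * w * a := by rw [hx, hw]; group
      have hbt : Commute b (s * z) := by
        refine ((Commute.mul_right ?_ ?_).pow_right i).symm
        · show s * z * (x * z * x⁻¹) = x * z * x⁻¹ * (s * z)
          rw [← mul_inv_eq_iff_eq_mul, hxw]
          have h1 : z * a⁻¹ = a⁻¹ * m := by
            calc z * a⁻¹ = a⁻¹ * (a * z * a⁻¹) := by group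
              _ = _ := by rw [hjk]
          calc s * z * (a⁻¹ * w * a) * (s * z)⁻¹
              = z * (s * a⁻¹) * w * (a * s⁻¹) * z⁻¹ := by
                rw [hsz.eq]; group
            _ = z * (a⁻¹ * s) * w * (s⁻¹ * a) * z⁻¹ := by
                rw [← has.inv_left.eq, ← has.inv_right.eq]
            _ = (z * a⁻¹) * w' * (z * a⁻¹)⁻¹ := by rw [hw']; group
            _ = a⁻¹ * (m * (m * w * m⁻¹) * m⁻¹) * a := by rw [h1, hmw]; group
            _ = _ := by
                rw [show m * (m * w * m⁻¹) * m⁻¹ = (m * m) * w * (m * m)⁻¹ by group,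
                  show m * m = 1 by nth_rw 2 [← hmi]; exact mul_inv_cancel m]
                group
        · exact hsz.mul_left (Commute.refl z)
      refine ⟨⟨⟨a, hjo, hjinv, has⟩, ⟨b, hio, hiinv, hbt⟩⟩, QuotientGroup.eq.mpr ?_⟩
      rw [show (a * b)⁻¹ * g = b⁻¹ * x by rw [hx]; group, hmemC]
      show b⁻¹ * x * z = z * (b⁻¹ * x)
      calc b⁻¹ * x * z = b⁻¹ * (x * z * x⁻¹) * x := by group
        _ = b⁻¹ * (b * z * b⁻¹) * x := by rw [hik]
        _ = _ := by group
  rw [← C.card_mul_index, index_eq_card, ← Nat.card_eq_of_bijective φ hbij, Nat.card_prod]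
  ring
where
  pow_left_inj_of_coprime {a b : G} (ha : Odd (orderOf a)) (hb : Odd (orderOf b))
      (h : a ^ 4 = b ^ 4) : a = b := by
    have hsq : ∀ c d : G, Odd (orderOf c) → Odd (orderOf d) → c ^ 2 = d ^ 2 → c = d := by
      intro c d hc hd he
      have h3 : ∀ c : G, Odd (orderOf c) → c = (c ^ 2) ^ ((orderOf (c ^ 2) + 1) / 2) := by
        intro c hc
        rw [Nat.Coprime.orderOf_pow (Nat.coprime_two_right.mpr hc), ← pow_mul]
        obtain ⟨j, hj⟩ := hc
        rw [show 2 * ((orderOf c + 1) / 2) = orderOf c + 1 by omega, pow_succ, pow_orderOf_eq_one,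
          one_mul]
      rw [h3 c hc, he]
      exact (h3 d hd).symm
    refine hsq a b ha hb (hsq _ _ (ha.of_dvd_nat (orderOf_pow_dvd _))
      (hb.of_dvd_nat (orderOf_pow_dvd _)) ?_)
    rw [← pow_mul, ← pow_mul]
    exact h
  pow_half_sq' {u : G} (hodd : Odd (orderOf u)) :
      ((u ^ ((orderOf u + 1) / 2)) ^ ((orderOf u + 1) / 2)) ^ 2 = u ^ ((orderOf u + 1) / 2) := by
    rw [← pow_mul, mul_comm, pow_mul, pow_half_sq hodd]

end CfsgLib.TwoFusion
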