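import Cfsg.Agent.Lib.TwoFusionBasic

/-!
# Strongly embedded subgroups: involutions and two-point stabilizers
-/

set_option autoImplicit false

universe u

namespace CfsgLib.StrEmb

open Subgroup

variable {G : Type u} [Group G] [Finite G] {H : Subgroup G}

/-- The involutions sending `x` to `y`. -/
abbrev Swap (x y : G ⧸ H) := {t : G // orderOf t = 2 ∧ t • x = y}

/-- The involutions fixing `x`. -/
abbrev Fixing (x : G ⧸ H) := {t : G // orderOf t = 2 ∧ t • x = x}

omit [Finite G] in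
theorem smul_mk_eq_iff (g a : G) :
    g • (QuotientGroup.mk a : G ⧸ H) = QuotientGroup.mk a ↔ a⁻¹ * g * a ∈ H := by
  rw [MulAction.Quotient.smul_mk, QuotientGroup.eq, smul_eq_mul, mul_inv_rev, ← inv_mem_iff]
  simp [mul_assoc]

theorem fix_unique (hH : Cfsg.IsStronglyEmbedded H) {i : G} (hi : orderOf i = 2) {x y : G ⧸ H}
    (hx : i • x = x) (hy : i • y = y) : x = y := by
  obtain ⟨a, rfl⟩ := QuotientGroup.mk_surjective x
  obtain ⟨b, rfl⟩ := QuotientGroup.mk_surjective y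
  rw [smul_mk_eq_iff] at hx hy
  refine QuotientGroup.eq.2 ?_
  by_contra h
  have hodd := hH.2.2 _ h
  have hmem : a⁻¹ * i * a ∈ H ⊓ H.map (MulAut.conj (a⁻¹ * b)).toMonoidHom :=
    mem_inf.mpr ⟨hx, b⁻¹ * i * b, hy, by
      show a⁻¹ * b * (b⁻¹ * i * b) * (a⁻¹ * b)⁻¹ = a⁻¹ * i * a
      group⟩
  have h2 := Subgroup.orderOf_dvd_natCard _ hmem
  have h3 : orderOf (a⁻¹ * i * a) = 2 := by
    have := CfsgLib.Invol.orderOf_conj a⁻¹ i
    rw [inv_inv] at this
    exact this.trans hi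
  rw [h3] at h2
  exact (Nat.not_even_iff_odd.2 hodd) (even_iff_two_dvd.2 h2)

theorem commute_fixes (hH : Cfsg.IsStronglyEmbedded H) {i c : G} (hi : orderOf i = 2)
    (hc : Commute c i) {x : G ⧸ H} (hx : i • x = x) : c • x = x :=
  fix_unique hH hi (by rw [← mul_smul, ← hc.eq, mul_smul, hx]) hx

omit [Finite G] in
theorem zpow_fix {d : G} {x : G ⧸ H} (h : d • x = x) (n : ℤ) : d ^ n • x = x :=
  (MulAction.stabilizer G x).zpow_mem h n

omit [Finite G] in
theorem pow_fix {d : G} {x : G ⧸ H} (h : d • x = x) (n : ℕ) : d ^ n • x = x :=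
  (MulAction.stabilizer G x).pow_mem h n

/-- An element fixing two points has odd order. -/
theorem odd_of_fix_two (hH : Cfsg.IsStronglyEmbedded H) {d : G} {x y : G ⧸ H} (hxy : x ≠ y)
    (hx : d • x = x) (hy : d • y = y) : Odd (orderOf d) := by
  by_contra h
  rw [Nat.not_odd_iff_even, even_iff_two_dvd] at h
  have ho : orderOf (d ^ (orderOf d / 2)) = 2 := by
    rw [orderOf_pow_of_dvd (Nat.div_pos (Nat.le_of_dvd (orderOf_pos d) h) two_pos).ne'
      (Nat.div_dvd_of_dvd h), Nat.div_div_self h (orderOf_pos d).ne']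
  exact hxy (fix_unique hH ho
    (pow_fix hx _) (pow_fix hy _))

omit [Finite G] in
theorem smul_swap {t : G} (ht : orderOf t = 2) {x y : G ⧸ H} (h : t • x = y) : t • y = x := by
  rw [← h, ← mul_smul, CfsgLib.Invol.mul_self_of_orderOf_two ht, one_smul]

theorem odd_mul (hH : Cfsg.IsStronglyEmbedded H) {s t : G} (hs : orderOf s = 2)
    (ht : orderOf t = 2) {x : G ⧸ H} (hx : s • x = x) (htx : t • x ≠ x) :
    Odd (orderOf (t * s)) := by
  by_contra h
  rw [Nat.not_odd_iff_even, even_iff_two_dvd] at h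
  set w := t * s with hw
  set z := w ^ (orderOf w / 2) with hzd
  have ho : orderOf z = 2 := by
    rw [hzd, orderOf_pow_of_dvd (Nat.div_pos (Nat.le_of_dvd (orderOf_pos w) h) two_pos).ne'
      (Nat.div_dvd_of_dvd h), Nat.div_div_self h (orderOf_pos w).ne']
  have hz : z⁻¹ = z := CfsgLib.Invol.inv_of_orderOf_two ho
  have hs2 := CfsgLib.Invol.inv_of_orderOf_two hs
  have ht2 := CfsgLib.Invol.inv_of_orderOf_two ht
  have e1 : t * w * t⁻¹ = w⁻¹ := CfsgLib.Invol.inverts_mul ht hs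
  have e2 : s * w * s⁻¹ = w⁻¹ := by
    rw [hw, mul_inv_rev, hs2, ht2, mul_assoc (s) (t * s) s, mul_assoc t s s,
      CfsgLib.Invol.mul_self_of_orderOf_two hs, mul_one]
  have hcom : ∀ a : G, a * w * a⁻¹ = w⁻¹ → Commute a z := fun a ha => by
    have := conj_pow (i := orderOf w / 2) (a := a) (b := w)
    rw [ha, inv_pow, ← hzd, hz] at this
    exact mul_inv_eq_iff_eq_mul.1 this.symm
  exact htx (commute_fixes hH ho (hcom t e1) (commute_fixes hH hs (hcom s e2).symm hx))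

theorem exists_conj (hH : Cfsg.IsStronglyEmbedded H) {s t : G} (hs : orderOf s = 2)
    (ht : orderOf t = 2) {x : G ⧸ H} (hx : s • x = x) (htx : t • x ≠ x) :
    ∃ k : G, k * s * k⁻¹ = t := by
  have hodd := odd_mul hH hs ht hx htx
  set w := t * s with hw
  refine ⟨w ^ ((orderOf w + 1) / 2), ?_⟩
  have hk2 := CfsgLib.TwoFusion.pow_half_sq hodd
  set k := w ^ ((orderOf w + 1) / 2) with hk
  have e2 : s * w * s⁻¹ = w⁻¹ := by
    rw [hw, mul_inv_rev, CfsgLib.Invol.inv_of_orderOf_two hs, CfsgLib.Invol.inv_of_orderOf_two ht,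
      mul_assoc (s) (t * s) s, mul_assoc t s s,
      CfsgLib.Invol.mul_self_of_orderOf_two hs, mul_one]
  have hinv : s * k * s⁻¹ = k⁻¹ := by rw [hk, ← conj_pow, e2, inv_pow]
  calc k * s * k⁻¹ = k * s * (s * k * s⁻¹) := by rw [hinv]
    _ = k * (s * s) * k * s⁻¹ := by simp only [mul_assoc]
    _ = k ^ 2 * s⁻¹ := by rw [CfsgLib.Invol.mul_self_of_orderOf_two hs, mul_one, sq]
    _ = t := by rw [hk2, hw, mul_inv_cancel_right]

theorem exists_involution_mem (hH : Cfsg.IsStronglyEmbedded H) :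
    ∃ s : G, orderOf s = 2 ∧ s • (QuotientGroup.mk 1 : G ⧸ H) = QuotientGroup.mk 1 := by
  haveI : Fact (Nat.Prime 2) := ⟨Nat.prime_two⟩
  obtain ⟨⟨s, hs⟩, hso⟩ := exists_prime_orderOf_dvd_card' (G := H) 2 (even_iff_two_dvd.1 hH.2.1)
  rw [← Subgroup.orderOf_coe] at hso
  exact ⟨s, hso, (smul_mk_eq_iff _ _).2 (by simpa using hs)⟩

theorem nonempty_fixing (hH : Cfsg.IsStronglyEmbedded H) (x : G ⧸ H) :
    ∃ s : G, orderOf s = 2 ∧ s • x = x := by
  obtain ⟨s, hs, hsx⟩ := exists_involution_mem hH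
  obtain ⟨a, rfl⟩ := QuotientGroup.mk_surjective x
  rw [smul_mk_eq_iff] at hsx
  refine ⟨a * s * a⁻¹, by rw [CfsgLib.Invol.orderOf_conj, hs], (smul_mk_eq_iff _ _).2 ?_⟩
  simpa [mul_assoc] using hsx

theorem exists_fixed (hH : Cfsg.IsStronglyEmbedded H) {t : G} (ht : orderOf t = 2) :
    ∃ x : G ⧸ H, t • x = x := by
  obtain ⟨s, hs, hsx⟩ := exists_involution_mem hH
  by_cases h : t • (QuotientGroup.mk 1 : G ⧸ H) = QuotientGroup.mk 1
  · exact ⟨_, h⟩
  obtain ⟨k, rfl⟩ := exists_conj hH hs ht hsx h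
  exact ⟨k • QuotientGroup.mk 1, by rw [mul_smul, inv_smul_smul, mul_smul, hsx]⟩

theorem exists_ne (hH : Cfsg.IsStronglyEmbedded H) (x : G ⧸ H) : ∃ y : G ⧸ H, y ≠ x := by
  by_contra h
  push Not at h
  refine hH.1 (eq_top_iff.2 fun g _ => ?_)
  have := QuotientGroup.eq.1 ((h (QuotientGroup.mk 1)).trans (h (QuotientGroup.mk g)).symm)
  simpa using this

theorem isConj_involutions (hH : Cfsg.IsStronglyEmbedded H) {a b : G} (ha : orderOf a = 2)
    (hb : orderOf b = 2) : IsConj a b := by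
  obtain ⟨x, hx⟩ := exists_fixed hH ha
  by_cases h : b • x = x
  · obtain ⟨y, hy⟩ := exists_ne hH x
    obtain ⟨c, hc, hcy⟩ := nonempty_fixing hH y
    have hcx : c • x ≠ x := fun e => hy (fix_unique hH hc hcy e)
    obtain ⟨k, hk⟩ := exists_conj hH ha hc hx hcx
    obtain ⟨l, hl⟩ := exists_conj hH hb hc h hcx
    exact (isConj_iff.2 ⟨k, hk⟩).trans (isConj_iff.2 ⟨l, hl⟩).symm
  · exact isConj_iff.2 (exists_conj hH ha hb hx h)

theorem card_fixing_eq (x y : G ⧸ H) : Nat.card (Fixing x) = Nat.card (Fixing y) := by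
  obtain ⟨g, rfl⟩ := MulAction.exists_smul_eq G x y
  refine Nat.card_congr ⟨fun t => ⟨g * t * g⁻¹, by rw [CfsgLib.Invol.orderOf_conj]; exact t.2.1,
      by rw [mul_smul, inv_smul_smul, mul_smul, t.2.2]⟩,
    fun t => ⟨g⁻¹ * t * g, (by
      have := CfsgLib.Invol.orderOf_conj g⁻¹ (t : G)
      rw [inv_inv] at this
      exact this.trans t.2.1), by rw [mul_smul, mul_smul, t.2.2, inv_smul_smul]⟩,
    fun t => Subtype.ext (by simp [mul_assoc]), fun t => Subtype.ext (by simp [mul_assoc])⟩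

/-- An element inverting `d` and an involution centralizing it have a product of even order. -/
theorem eq_one_of_inverts {d t s : G} (hd : Odd (orderOf d)) (hinv : t * d * t⁻¹ = d⁻¹)
    (hc : Commute s d) (hodd : Odd (orderOf (t * s))) : d = 1 := by
  set w := t * s
  have h1 : MulAut.conj w d = d⁻¹ := by
    show t * s * d * (t * s)⁻¹ = d⁻¹
    rw [mul_assoc t s d, hc.eq, ← hinv]; group
  have hstep : ∀ k, (MulAut.conj w ^ (2 * k + 1)) d = d⁻¹ := by
    intro k
    induction k with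
    | zero => simpa using h1
    | succ k ih =>
      rw [show 2 * (k + 1) + 1 = 1 + (1 + (2 * k + 1)) by ring, pow_add, pow_add, pow_one,
        MulAut.mul_apply, MulAut.mul_apply, ih, map_inv, h1, inv_inv, h1]
  obtain ⟨k, hk⟩ := hodd
  have h2 := hstep k
  rw [← map_pow, ← hk, pow_orderOf_eq_one, map_one, MulAut.one_apply] at h2
  have h3 : d ^ 2 = 1 := by rw [sq]; nth_rw 2 [h2]; exact mul_inv_cancel d
  exact orderOf_eq_one_iff.1
    (Nat.eq_one_of_dvd_coprimes (Nat.coprime_two_right.mpr hd) dvd_rfl (orderOf_dvd_of_pow_eq_one h3))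

/-- The map `t ↦ t v t` from the involutions swapping `x` and `y` to those fixing `x`. -/
def toFixing {x y : G ⧸ H} (v : Fixing y) (t : Swap x y) : Fixing x :=
  ⟨(t : G) * v * (t : G)⁻¹, by rw [CfsgLib.Invol.orderOf_conj]; exact v.2.1, by
    rw [CfsgLib.Invol.inv_of_orderOf_two t.2.1, mul_smul, mul_smul, t.2.2, v.2.2,
      smul_swap t.2.1 t.2.2]⟩

theorem toFixing_injective (hH : Cfsg.IsStronglyEmbedded H) {x y : G ⧸ H} (hxy : x ≠ y)
    (v : Fixing y) : Function.Injective (toFixing (x := x) v) := by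
  rintro ⟨t, ht, htx⟩ ⟨t', ht', htx'⟩ h
  have h' : t * (v : G) * t⁻¹ = t' * (v : G) * t'⁻¹ := congrArg Subtype.val h
  set d := t⁻¹ * t' with hd
  have hdy : d • y = y := by
    rw [hd, mul_smul, smul_swap ht' htx', CfsgLib.Invol.inv_of_orderOf_two ht, htx]
  have hdx : d • x = x := by
    rw [hd, mul_smul, htx', CfsgLib.Invol.inv_of_orderOf_two ht, smul_swap ht htx]
  have hinv : t * d * t⁻¹ = d⁻¹ := by
    rw [hd, CfsgLib.Invol.inv_of_orderOf_two ht, mul_inv_rev, CfsgLib.Invol.inv_of_orderOf_two ht,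
      CfsgLib.Invol.inv_of_orderOf_two ht', ← mul_assoc, CfsgLib.Invol.mul_self_of_orderOf_two ht,
      one_mul]
  have hc : Commute (v : G) d := by
    show (v : G) * (t⁻¹ * t') = t⁻¹ * t' * v
    calc (v : G) * (t⁻¹ * t') = t⁻¹ * (t * v * t⁻¹) * t' := by group
      _ = t⁻¹ * (t' * v * t'⁻¹) * t' := by rw [h']
      _ = _ := by group
  have h1 := eq_one_of_inverts (odd_of_fix_two hH hxy hdx hdy) hinv hc
    (odd_mul hH v.2.1 ht v.2.2 (by rw [smul_swap ht htx]; exact hxy))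
  exact Subtype.ext (inv_mul_eq_one.1 h1)

/-- Every ordered pair of points is swapped by as many involutions as fix a point. -/
theorem card_swap (hH : Cfsg.IsStronglyEmbedded H) {x y : G ⧸ H} (hxy : x ≠ y) :
    Nat.card (Swap x y) = Nat.card (Fixing x) := by
  classical
  haveI := Fintype.ofFinite G
  haveI := Fintype.ofFinite (G ⧸ H)
  set m := Nat.card (Fixing x)
  have hle : ∀ z ∈ (Finset.univ : Finset (G ⧸ H)), Nat.card (Swap x z) ≤ m := by
    intro z _
    by_cases hz : x = z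
    · subst hz; exact le_rfl
    obtain ⟨v, hv⟩ := nonempty_fixing hH z
    exact Nat.card_le_card_of_injective _ (toFixing_injective hH hz ⟨v, hv⟩)
  have hsum : ∑ z : G ⧸ H, Nat.card (Swap x z) = ∑ _z : G ⧸ H, m := by
    rw [← Nat.card_sigma]
    have e2 : ∑ z : G ⧸ H, m = Nat.card (Σ z : G ⧸ H, Fixing z) := by
      rw [Nat.card_sigma]; exact Finset.sum_congr rfl fun z _ => card_fixing_eq x z
    rw [e2]
    refine Nat.card_congr ((Equiv.ofBijective
      (fun p : (Σ z : G ⧸ H, Swap x z) => (⟨p.2.1, p.2.2.1⟩ : {t : G // orderOf t = 2}))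
        ⟨?_, ?_⟩).trans (Equiv.ofBijective
      (fun p : (Σ z : G ⧸ H, Fixing z) => (⟨p.2.1, p.2.2.1⟩ : {t : G // orderOf t = 2}))
        ⟨?_, ?_⟩).symm)
    · rintro ⟨z, t, ht, rfl⟩ ⟨z', t', ht', rfl⟩ h
      obtain rfl : t = t' := congrArg Subtype.val h
      rfl
    · rintro ⟨t, ht⟩
      exact ⟨⟨t • x, t, ht, rfl⟩, rfl⟩
    · rintro ⟨z, t, ht, htz⟩ ⟨z', t', ht', htz'⟩ h
      obtain rfl : t = t' := congrArg Subtype.val h
      obtain rfl : z = z' := fix_unique hH ht htz htz'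
      rfl
    · rintro ⟨t, ht⟩
      obtain ⟨z, hz⟩ := exists_fixed hH ht
      exact ⟨⟨z, t, ht, hz⟩, rfl⟩
  exact (Finset.sum_eq_sum_iff_of_le hle).1 hsum y (Finset.mem_univ y)

theorem toFixing_bijective (hH : Cfsg.IsStronglyEmbedded H) {x y : G ⧸ H} (hxy : x ≠ y)
    (v : Fixing y) : Function.Bijective (toFixing (x := x) v) :=
  (Nat.bijective_iff_injective_and_card _).2 ⟨toFixing_injective hH hxy v, card_swap hH hxy⟩

/-- The stabilizer of two points is transitive on the involutions fixing the first. -/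
theorem exists_conj_two_point (hH : Cfsg.IsStronglyEmbedded H) {x y : G ⧸ H} (hxy : x ≠ y)
    {s s' : G} (hs : orderOf s = 2) (hsx : s • x = x) (hs' : orderOf s' = 2) (hsx' : s' • x = x) :
    ∃ d : G, d • x = x ∧ d • y = y ∧ d * s * d⁻¹ = s' := by
  obtain ⟨v, hv⟩ := nonempty_fixing hH y
  obtain ⟨⟨t, ht, htx⟩, e⟩ := (toFixing_bijective hH hxy ⟨v, hv⟩).2 ⟨s, hs, hsx⟩
  obtain ⟨⟨t', ht', htx'⟩, e'⟩ := (toFixing_bijective hH hxy ⟨v, hv⟩).2 ⟨s', hs', hsx'⟩
  have he : t * v * t⁻¹ = s := congrArg Subtype.val e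
  have he' : t' * v * t'⁻¹ = s' := congrArg Subtype.val e'
  refine ⟨t' * t⁻¹, ?_, ?_, ?_⟩
  · rw [mul_smul, CfsgLib.Invol.inv_of_orderOf_two ht, htx, smul_swap ht' htx']
  · rw [mul_smul, CfsgLib.Invol.inv_of_orderOf_two ht, smul_swap ht htx, htx']
  · rw [← he, ← he']; group

theorem nonempty_swap (hH : Cfsg.IsStronglyEmbedded H) {x y : G ⧸ H} (hxy : x ≠ y) :
    ∃ t : G, orderOf t = 2 ∧ t • x = y := by
  have h : 0 < Nat.card (Swap x y) := by
    rw [card_swap hH hxy]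
    haveI : Nonempty (Fixing x) := nonempty_subtype.2 (nonempty_fixing hH x)
    exact Nat.card_pos
  obtain ⟨⟨t, ht⟩⟩ := (Nat.card_pos_iff.1 h).1
  exact ⟨t, ht⟩

omit [Finite G] in
theorem mem_inf_map_iff (u g : G) :
    g ∈ H ⊓ H.map (MulAut.conj u).toMonoidHom ↔
      g • (QuotientGroup.mk 1 : G ⧸ H) = QuotientGroup.mk 1 ∧
        g • (QuotientGroup.mk u : G ⧸ H) = QuotientGroup.mk u := by
  rw [smul_mk_eq_iff, smul_mk_eq_iff, inv_one, one_mul, mul_one, mem_inf]
  refine and_congr Iff.rfl ⟨?_, fun h => ⟨_, h, by show u * (u⁻¹ * g * u) * u⁻¹ = g; group⟩⟩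
  rintro ⟨w, hw, rfl⟩
  simpa [mul_assoc] using hw

/-! ### Centralizers of involutions of exponent two -/

section CA

variable (hH : Cfsg.IsStronglyEmbedded H)
  (hc2 : ∀ t : G, orderOf t = 2 → ∀ c : G, Commute c t → c * c = 1)
  (hab : ∀ (x : G ⧸ H) (s t : G), orderOf s = 2 → orderOf t = 2 → s • x = x → t • x = x → Commute s t)

include hH hc2 in
theorem eq_one_of_commute {d s : G} (hs : orderOf s = 2) (hc : Commute d s) (hd : Odd (orderOf d)) :
    d = 1 :=
  orderOf_eq_one_iff.1 (Nat.eq_one_of_dvd_coprimes (Nat.coprime_two_right.mpr hd) dvd_rfl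
    (orderOf_dvd_of_pow_eq_one (by rw [sq]; exact hc2 s hs d hc)))

include hH hc2 in
theorem card_two_point {x y : G ⧸ H} (hxy : x ≠ y) :
    Nat.card {d : G // d • x = x ∧ d • y = y} = Nat.card (Fixing x) := by
  obtain ⟨s, hs, hsx⟩ := nonempty_fixing hH x
  refine Nat.card_congr (Equiv.ofBijective
    (fun d => (⟨(d : G) * s * (d : G)⁻¹, by rw [CfsgLib.Invol.orderOf_conj]; exact hs, by
      rw [mul_smul, mul_smul, inv_smul_eq_iff.2 d.2.1.symm, hsx, d.2.1]⟩ : Fixing x)) ⟨?_, ?_⟩)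
  · rintro ⟨d, hdx, hdy⟩ ⟨d', hdx', hdy'⟩ h
    have h' : d * s * d⁻¹ = d' * s * d'⁻¹ := congrArg Subtype.val h
    have hc : Commute (d⁻¹ * d') s := by
      show d⁻¹ * d' * s = s * (d⁻¹ * d')
      calc d⁻¹ * d' * s = d⁻¹ * (d' * s * d'⁻¹) * d' := by group
        _ = d⁻¹ * (d * s * d⁻¹) * d' := by rw [h']
        _ = _ := by group
    refine Subtype.ext (inv_mul_eq_one.1 (eq_one_of_commute hH hc2 hs hc (odd_of_fix_two hH hxy ?_ ?_)))
    · rw [mul_smul, hdx', inv_smul_eq_iff, hdx]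
    · rw [mul_smul, hdy', inv_smul_eq_iff, hdy]
  · rintro ⟨s', hs', hsx'⟩
    obtain ⟨d, hdx, hdy, he⟩ := exists_conj_two_point hH hxy hs hsx hs' hsx'
    exact ⟨⟨d, hdx, hdy⟩, Subtype.ext he⟩

include hH hc2 in
theorem swap_inverts {x y : G ⧸ H} (hxy : x ≠ y) {t : G} (ht : orderOf t = 2) (htx : t • x = y)
    {d : G} (hdx : d • x = x) (hdy : d • y = y) : t * d * t⁻¹ = d⁻¹ := by
  let f : Swap x y → {d : G // d • x = x ∧ d • y = y} := fun t' => ⟨t * t',
    by rw [mul_smul, t'.2.2, smul_swap ht htx],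
    by rw [mul_smul, smul_swap t'.2.1 t'.2.2, htx]⟩
  have hf : Function.Bijective f := (Nat.bijective_iff_injective_and_card f).2
    ⟨fun a b e => Subtype.ext (mul_left_cancel (congrArg Subtype.val e)),
      (card_swap hH hxy).trans (card_two_point hH hc2 hxy).symm⟩
  obtain ⟨t', ht'⟩ := hf.2 ⟨d, hdx, hdy⟩
  rw [← show t * (t' : G) = d from congrArg Subtype.val ht']
  exact CfsgLib.Invol.inverts_mul ht t'.2.1

include hH hc2 in
theorem two_point_commute {x y : G ⧸ H} (hxy : x ≠ y) {d e : G} (hdx : d • x = x) (hdy : d • y = y)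
    (hex : e • x = x) (hey : e • y = y) : Commute d e := by
  obtain ⟨t, ht, htx⟩ := nonempty_swap hH hxy
  have hde := swap_inverts hH hc2 hxy ht htx (d := d * e) (by rw [mul_smul, hex, hdx])
    (by rw [mul_smul, hey, hdy])
  have h : t * (d * e) * t⁻¹ = t * d * t⁻¹ * (t * e * t⁻¹) := by group
  rw [hde, swap_inverts hH hc2 hxy ht htx hdx hdy, swap_inverts hH hc2 hxy ht htx hex hey,
    mul_inv_rev] at h
  have h5 : Commute e⁻¹ d⁻¹ := h
  simpa using h5.inv_inv.symm

include hH hab in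
theorem mul_fix_invol {x : G ⧸ H} {a b : G} (ha : a * a = 1) (hax : a • x = x) (hb : b * b = 1)
    (hbx : b • x = x) : a * b * (a * b) = 1 := by
  by_cases ha1 : a = 1
  · subst ha1; simpa using hb
  by_cases hb1 : b = 1
  · subst hb1; simpa using ha
  have hc := hab x a b (CfsgLib.Invol.orderOf_two_iff.2 ⟨ha1, ha⟩)
    (CfsgLib.Invol.orderOf_two_iff.2 ⟨hb1, hb⟩) hax hbx
  rw [mul_assoc, ← mul_assoc b a b, ← hc.eq, mul_assoc a b b, hb, mul_one, ha]

include hH hc2 hab in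
/-- An element fixing `x` and acting nontrivially fixes one point of each orbit of the group
generated by the involutions fixing `x`. -/
theorem fix_unique_orbit {x w : G ⧸ H} (hwx : w ≠ x) {d : G} (hd1 : d ≠ 1) (hdx : d • x = x)
    (hdw : d • w = w) {c : G} (hc : c * c = 1) (hcx : c • x = x) (hdcw : d • c • w = c • w) :
    c • w = w := by
  set e := c⁻¹ * (d * c * d⁻¹) with he
  have hci : c⁻¹ = c := inv_eq_of_mul_eq_one_right hc
  have hdix : d⁻¹ • x = x := inv_smul_eq_iff.2 hdx.symm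
  have hdiw : d⁻¹ • w = w := inv_smul_eq_iff.2 hdw.symm
  have hee : e * e = 1 := by
    rw [he, hci]
    refine mul_fix_invol hH hab hc hcx (x := x) ?_ ?_
    · calc d * c * d⁻¹ * (d * c * d⁻¹) = d * (c * c) * d⁻¹ := by group
        _ = 1 := by rw [hc]; group
    · rw [mul_smul, mul_smul, hdix, hcx, hdx]
  have hew : e • w = w := by
    rw [he, mul_smul, mul_smul, mul_smul, hdiw, hdcw, inv_smul_smul]
  have hex : e • x = x := by
    rw [he, hci, mul_smul, mul_smul, mul_smul, hdix, hcx, hdx, hcx]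
  have he1 : e = 1 := by
    by_contra hne
    exact hwx (fix_unique hH (CfsgLib.Invol.orderOf_two_iff.2 ⟨hne, hee⟩) hew hex)
  by_cases hc1 : c = 1
  · rw [hc1, one_smul]
  refine absurd (eq_one_of_commute hH hc2 (CfsgLib.Invol.orderOf_two_iff.2 ⟨hc1, hc⟩) ?_
    (odd_of_fix_two hH hwx hdw hdx)) hd1
  rw [he, inv_mul_eq_one, eq_mul_inv_iff_mul_eq] at he1
  exact he1.symm

include hH hc2 hab in
/-- No third point is fixed by a whole two-point stabilizer. -/
theorem no_third {x y w : G ⧸ H} (hxy : x ≠ y) (hxw : x ≠ w) (hyw : y ≠ w)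
    (hall : ∀ d : G, d • x = x → d • y = y → d • w = w)
    (hex : ∃ d : G, d ≠ 1 ∧ d • x = x ∧ d • y = y) : False := by
  obtain ⟨d, hd1, hdx, hdy⟩ := hex
  have hdw := hall d hdx hdy
  obtain ⟨u, hu, hux⟩ := nonempty_swap hH hxy
  obtain ⟨v, hv, hvx⟩ := nonempty_swap hH hxw
  obtain ⟨i, hi, hiy⟩ := nonempty_swap hH hyw
  have hgd : u * v * d * (u * v)⁻¹ = d := by
    have e : u * v * d * (u * v)⁻¹ = u * (v * d * v⁻¹) * u⁻¹ := by group
    rw [e, swap_inverts hH hc2 hxw hv hvx hdx hdw, ← MulAut.conj_apply, map_inv, MulAut.conj_apply,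
      swap_inverts hH hc2 hxy hu hux hdx hdy, inv_inv]
  set j := i * (u * v) with hj
  have hjw : j • w = w := by rw [hj, mul_smul, mul_smul, smul_swap hv hvx, hux, hiy]
  have hjd : j * d * j⁻¹ = d⁻¹ := by
    have e : j * d * j⁻¹ = i * (u * v * d * (u * v)⁻¹) * i⁻¹ := by rw [hj]; group
    rw [e, hgd, swap_inverts hH hc2 hyw hi hiy hdy hdw]
  obtain ⟨s, hs, hsw⟩ := nonempty_fixing hH w
  obtain ⟨e, hew, hey, hes⟩ := exists_conj_two_point hH (Ne.symm hyw) hs hsw
    (s' := j * s * j⁻¹) (by rw [CfsgLib.Invol.orderOf_conj, hs])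
    (by rw [mul_smul, mul_smul, inv_smul_eq_iff.2 hjw.symm, hsw, hjw])
  set c := e⁻¹ * j with hc
  have hcs : Commute c s := by
    show e⁻¹ * j * s = s * (e⁻¹ * j)
    calc e⁻¹ * j * s = e⁻¹ * (j * s * j⁻¹) * j := by group
      _ = e⁻¹ * (e * s * e⁻¹) * j := by rw [hes]
      _ = _ := by group
  have hcc : c * c = 1 := hc2 s hs c hcs
  have hcw : c • w = w := by rw [hc, mul_smul, hjw, inv_smul_eq_iff, hew]
  have hed : e * d = d * e := two_point_commute hH hc2 (Ne.symm hyw) hew hey hdw hdy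
  have hcd : c * d * c⁻¹ = d⁻¹ := by
    calc c * d * c⁻¹ = e⁻¹ * (j * d * j⁻¹) * e := by rw [hc]; group
      _ = e⁻¹ * d⁻¹ * e := by rw [hjd]
      _ = d⁻¹ := by
        have h := ((show Commute e d from hed).inv_inv).eq
        rw [h, inv_mul_cancel_right]
  have hodd := odd_of_fix_two hH hxy hdx hdy
  have h4 : d ^ 4 = 1 := by
    have h := mul_fix_invol hH hab (x := w) (a := d * c * d⁻¹) (b := c)
      (by rw [show d * c * d⁻¹ * (d * c * d⁻¹) = d * (c * c) * d⁻¹ by group, hcc]; group)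
      (by rw [mul_smul, mul_smul, inv_smul_eq_iff.2 hdw.symm, hcw, hdw]) hcc hcw
    have e' : d * c * d⁻¹ * c = d ^ 2 := by
      have h2 : c * d⁻¹ * c⁻¹ = d := by rw [← MulAut.conj_apply, map_inv, MulAut.conj_apply, hcd, inv_inv]
      calc d * c * d⁻¹ * c = d * (c * d⁻¹ * c⁻¹) * (c * c) := by group
        _ = d ^ 2 := by rw [h2, hcc, mul_one, sq]
    rw [e', ← pow_add] at h
    exact h
  exact hd1 (orderOf_eq_one_iff.1 (Nat.eq_one_of_dvd_coprimes
    ((Nat.coprime_two_right.mpr hodd).pow_right 2) dvd_rfl (orderOf_dvd_of_pow_eq_one h4)))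

include hH hc2 hab in
/-- The involutions fixing `x`, with `1`, act transitively on the other points. -/
theorem orbit_all {x y z : G ⧸ H} (hy : y ≠ x) (hz : z ≠ x) (h2 : 2 ≤ Nat.card (Fixing x)) :
    ∃ c : G, c * c = 1 ∧ c • x = x ∧ c • y = z := by
  classical
  by_contra hno
  push Not at hno
  -- an element of prime order fixing `x` and `y`
  have hc := card_two_point hH hc2 (Ne.symm hy)
  obtain ⟨d₀, hd₀⟩ : ∃ d : {d : G // d • x = x ∧ d • y = y}, (d : G) ≠ 1 := by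
    by_contra h
    push Not at h
    haveI : Subsingleton {d : G // d • x = x ∧ d • y = y} :=
      ⟨fun a b => Subtype.ext ((h a).trans (h b).symm)⟩
    have : Nat.card {d : G // d • x = x ∧ d • y = y} ≤ 1 := Finite.card_le_one_iff_subsingleton.2 inferInstance
    omega
  have hne : orderOf (d₀ : G) ≠ 1 := fun h => hd₀ (orderOf_eq_one_iff.1 h)
  set p := (orderOf (d₀ : G)).minFac
  have hp : p.Prime := Nat.minFac_prime hne
  haveI : Fact p.Prime := ⟨hp⟩
  set d := (d₀ : G) ^ (orderOf (d₀ : G) / p)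
  have hdo : orderOf d = p := by
    rw [orderOf_pow_of_dvd (Nat.div_pos (Nat.le_of_dvd (orderOf_pos _) (Nat.minFac_dvd _)) hp.pos).ne'
      (Nat.div_dvd_of_dvd (Nat.minFac_dvd _)), Nat.div_div_self (Nat.minFac_dvd _) (orderOf_pos _).ne']
  have hdx : d • x = x := pow_fix d₀.2.1 _
  have hdy : d • y = y := pow_fix d₀.2.2 _
  have hd1 : d ≠ 1 := fun h => hp.ne_one (by rw [← hdo, h, orderOf_one])
  -- the orbit of `z`
  let C := {c : G // c * c = 1 ∧ c • x = x}
  have hcardC : Nat.card C = Nat.card (Fixing x) + 1 := by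
    rw [← Finite.card_option]
    refine Nat.card_congr (Equiv.ofBijective (fun o : Option (Fixing x) =>
      (o.elim (⟨1, one_mul 1, one_smul _ x⟩ : C) fun s =>
        ⟨s, CfsgLib.Invol.mul_self_of_orderOf_two s.2.1, s.2.2⟩)) ⟨?_, ?_⟩).symm
    · rintro (_ | a) (_ | b) h
      · rfl
      · exact absurd (congrArg Subtype.val h).symm (CfsgLib.Invol.ne_one_of_orderOf_two b.2.1)
      · exact absurd (congrArg Subtype.val h) (CfsgLib.Invol.ne_one_of_orderOf_two a.2.1)
      · exact congrArg some (Subtype.ext (show (a : G) = b from congrArg (fun c : C => (c : G)) h))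
    · rintro ⟨c, hcc, hcx⟩
      by_cases hc1 : c = 1
      · exact ⟨none, Subtype.ext hc1.symm⟩
      · exact ⟨some ⟨c, CfsgLib.Invol.orderOf_two_iff.2 ⟨hc1, hcc⟩, hcx⟩, rfl⟩
  -- every element fixing `x` preserves each orbit
  have horb : ∀ {v : G ⧸ H}, v ≠ x → ∀ g : G, g • x = x → ∀ c : C, ∃ c' : C, g • (c : G) • v = (c' : G) • v := by
    intro v hv g hgx c
    obtain ⟨s, hs, hsx⟩ := nonempty_fixing hH x
    obtain ⟨e, hex, hev, hes⟩ := exists_conj_two_point hH (Ne.symm hv) hs hsx (s' := g * s * g⁻¹)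
      (by rw [CfsgLib.Invol.orderOf_conj, hs])
      (by rw [mul_smul, mul_smul, inv_smul_eq_iff.2 hgx.symm, hsx, hgx])
    have hcs : Commute (e⁻¹ * g) s := by
      show e⁻¹ * g * s = s * (e⁻¹ * g)
      calc e⁻¹ * g * s = e⁻¹ * (g * s * g⁻¹) * g := by group
        _ = e⁻¹ * (e * s * e⁻¹) * g := by rw [hes]
        _ = _ := by group
    set k := e⁻¹ * g
    have hk : k * k = 1 := hc2 s hs k hcs
    have hkx : k • x = x := by rw [mul_smul, hgx, inv_smul_eq_iff, hex]
    have hkc : k * c * (k * c) = 1 := mul_fix_invol hH hab hk hkx c.2.1 c.2.2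
    have hkcx : (k * c) • x = x := by rw [mul_smul, c.2.2, hkx]
    refine ⟨⟨e * (k * c) * e⁻¹, ?_, ?_⟩, ?_⟩
    · rw [show e * (k * c) * e⁻¹ * (e * (k * c) * e⁻¹) = e * (k * c * (k * c)) * e⁻¹ by group, hkc]
      group
    · rw [mul_smul, mul_smul, inv_smul_eq_iff.2 hex.symm, hkcx, hex]
    · show g • (c : G) • v = (e * (k * c) * e⁻¹) • v
      rw [mul_smul, inv_smul_eq_iff.2 hev.symm, ← mul_smul, show e * (k * c) = g * c by
        simp only [k]; group]
  let f : C → G ⧸ H := fun c => (c : G) • z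
  let P := Subgroup.zpowers d
  have hPp : IsPGroup p P := IsPGroup.of_card (n := 1) (by rw [Nat.card_zpowers, hdo, pow_one])
  let S := {v : G ⧸ H // ∃ c : C, (c : G) • z = v}
  letI : MulAction P S :=
    { smul := fun g v => ⟨(g : G) • v.1, by
        obtain ⟨c, hc'⟩ := v.2
        obtain ⟨i, hi⟩ := Subgroup.mem_zpowers_iff.1 g.2
        have hgx : (g : G) • x = x := by
          rw [← hi]; exact zpow_fix hdx i
        obtain ⟨c', hc''⟩ := horb hz (g : G) hgx c
        exact ⟨c', by rw [← hc', hc'']⟩⟩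
      one_smul := fun v => Subtype.ext (one_smul G v.1)
      mul_smul := fun g g' v => Subtype.ext (mul_smul (g : G) g' v.1) }
  have hcardS : Nat.card S = Nat.card (Fixing x) + 1 := by
    rw [← hcardC]
    refine (Nat.card_congr (Equiv.ofBijective (fun c : C => (⟨(c : G) • z, c, rfl⟩ : S)) ⟨?_, ?_⟩)).symm
    · intro a b h
      have h' : (a : G) • z = (b : G) • z := congrArg Subtype.val h
      have h1 : ((b : G) * a) * (b * a) = 1 := mul_fix_invol hH hab b.2.1 b.2.2 a.2.1 a.2.2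
      have h2 : ((b : G) * a) • z = z := by rw [mul_smul, h', ← mul_smul, b.2.1, one_smul]
      have h3 : (b : G) * a = 1 := by
        by_contra hne'
        exact hz (fix_unique hH (CfsgLib.Invol.orderOf_two_iff.2 ⟨hne', h1⟩) h2
          (by rw [mul_smul, a.2.2, b.2.2]))
      refine Subtype.ext ?_
      calc (a : G) = (b : G)⁻¹ * (b * a) := by group
        _ = b := by rw [h3, mul_one, inv_eq_of_mul_eq_one_right b.2.1]
    · rintro ⟨v, c, rfl⟩
      exact ⟨c, rfl⟩
  have hndvd : ¬ p ∣ Nat.card S := by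
    rw [hcardS]
    intro h
    have h1 : p ∣ Nat.card {g : G // g • x = x ∧ g • y = y} := by
      let M : Subgroup G := MulAction.stabilizer G x ⊓ MulAction.stabilizer G y
      have hM : Nat.card M = Nat.card {g : G // g • x = x ∧ g • y = y} :=
        Nat.card_congr (Equiv.subtypeEquivRight fun g => Iff.rfl)
      rw [← hM, ← hdo]
      exact Subgroup.orderOf_dvd_natCard M ⟨hdx, hdy⟩
    rw [hc] at h1
    exact hp.not_dvd_one ((Nat.dvd_add_right h1).1 h)
  obtain ⟨⟨w, c₀, hc₀⟩, hfix⟩ := hPp.nonempty_fixed_point_of_prime_not_dvd_card S hndvd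
  have hdw : d • w = w := congrArg Subtype.val (hfix ⟨d, Subgroup.mem_zpowers d⟩)
  have hwx : w ≠ x := fun e => hz (by
    have := congrArg (fun v => (c₀ : G) • v) (hc₀.trans e)
    simp only [← mul_smul, c₀.2.1, one_smul] at this
    rw [this, c₀.2.2])
  have hwy : y ≠ w := fun e => hno c₀ c₀.2.1 c₀.2.2 (by
    rw [e, ← hc₀, ← mul_smul, c₀.2.1, one_smul])
  refine no_third hH hc2 hab (Ne.symm hy) (Ne.symm hwx) hwy ?_ ⟨d, hd1, hdx, hdy⟩
  intro e hex hey
  have hde : Commute d e := two_point_commute hH hc2 (Ne.symm hy) hdx hdy hex hey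
  obtain ⟨c, hc'⟩ := horb hz e hex c₀
  rw [hc₀] at hc'
  have h1 : d • e • w = e • w := by rw [← mul_smul, hde.eq, mul_smul, hdw]
  have hw0 : (c₀ : G) • w = z := by rw [← hc₀, ← mul_smul, c₀.2.1, one_smul]
  have hkk := mul_fix_invol hH hab c.2.1 c.2.2 c₀.2.1 c₀.2.2
  have he' : e • w = ((c : G) * c₀) • w := by rw [hc', mul_smul, hw0]
  rw [he'] at h1 ⊢
  rw [mul_smul (c : G) (c₀ : G) w] at h1
  have := fix_unique_orbit hH hc2 hab hwx hd1 hdx hdw (c := (c : G) * c₀) hkk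
    (by rw [mul_smul, c₀.2.2, c.2.2]) (by rw [mul_smul]; exact h1)
  exact this

end CA

end CfsgLib.StrEmb
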