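import Mathlib

/-! Baer-type criterion: a conjugation-invariant family of subgroups of the unit group of a
finite-dimensional algebra, any two generating a unipotent group, generates a unipotent group. -/

namespace Cfsg.Agent.UnipGen

variable {k R : Type*} [Field k] [Ring R] [Algebra k R]

variable (k) in
def span1 (H : Subgroup Rˣ) : Submodule k R := Submodule.span k ((fun g : Rˣ => (g : R) - 1) '' H)

variable (k) in
def Unip (H : Subgroup Rˣ) : Prop := ∃ n : ℕ, 1 ≤ n ∧ span1 k H ^ n = ⊥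

theorem mem_span1 {H : Subgroup Rˣ} {g : Rˣ} (hg : g ∈ H) : (g : R) - 1 ∈ span1 k H :=
  Submodule.subset_span ⟨g, hg, rfl⟩

theorem span1_le {H : Subgroup Rˣ} {N : Submodule k R} (h : ∀ g ∈ H, (g : R) - 1 ∈ N) : span1 k H ≤ N :=
  Submodule.span_le.2 (by rintro _ ⟨g, hg, rfl⟩; exact h g hg)

theorem span1_mono {H K : Subgroup Rˣ} (h : H ≤ K) : span1 k H ≤ span1 k K :=
  span1_le fun _ hg => mem_span1 (h hg)

theorem span1_mul_le (H : Subgroup Rˣ) : span1 k H * span1 k H ≤ span1 k H := by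
  rw [span1, Submodule.span_mul_span, Submodule.span_le]
  rintro _ ⟨_, ⟨g, hg, rfl⟩, _, ⟨h, hh, rfl⟩, rfl⟩
  have he : ((g : R) - 1) * ((h : R) - 1) = ((↑(g * h) : R) - 1) - ((g : R) - 1) - ((h : R) - 1) := by
    rw [Units.val_mul, sub_mul, mul_sub, one_mul, mul_one]; abel
  show ((g : R) - 1) * ((h : R) - 1) ∈ _
  rw [he]
  exact sub_mem (sub_mem (mem_span1 (H.mul_mem hg hh)) (mem_span1 hg)) (mem_span1 hh)

theorem unip_iff (H : Subgroup Rˣ) : Unip k H ↔
    ∃ n : ℕ, ∀ l : List Rˣ, (∀ g ∈ l, g ∈ H) → l.length = n → (l.map fun g : Rˣ => (g : R) - 1).prod = 0 := by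
  constructor
  · rintro ⟨n, -, hn⟩
    refine ⟨n, fun l hl hlen => ?_⟩
    have key : ∀ l : List Rˣ, (∀ g ∈ l, g ∈ H) →
        (l.map fun g : Rˣ => (g : R) - 1).prod ∈ span1 k H ^ l.length := by
      intro l
      induction l with
      | nil => intro _; simpa using (Submodule.one_le (P := (1 : Submodule k R))).1 le_rfl
      | cons a l ih =>
        intro h
        rw [List.map_cons, List.prod_cons, List.length_cons, pow_succ']
        exact Submodule.mul_mem_mul (mem_span1 (h a (by simp))) (ih fun g hg => h g (by simp [hg]))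
    have := key l hl
    rw [hlen, hn, Submodule.mem_bot] at this
    exact this
  · rintro ⟨n, hn⟩
    refine ⟨n + 1, by omega, ?_⟩
    rw [span1, Submodule.span_pow, Submodule.span_eq_bot]
    intro x hx
    obtain ⟨f, rfl⟩ := Set.mem_pow.1 hx
    choose g hg hgf using fun i => (f i).2
    have : (fun i => ((f i : R))) = fun i => ((g i : Rˣ) : R) - 1 := funext fun i => (hgf i).symm
    rw [this]
    have h2 : (List.ofFn fun i : Fin (n + 1) => ((g i : Rˣ) : R) - 1).prod =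
        ((List.ofFn fun i : Fin (n + 1) => g i).map fun g : Rˣ => (g : R) - 1).prod := by
      rw [List.map_ofFn]; rfl
    rw [h2, List.ofFn_succ, List.map_cons, List.prod_cons,
      hn _ (fun x hx => by obtain ⟨i, rfl⟩ := List.mem_ofFn.1 hx; exact hg _) (by simp), mul_zero]

/-- the subgroup of units congruent to 1 modulo a multiplicatively closed subspace -/
def congr1 (N : Submodule k R) (hN : N * N ≤ N) : Subgroup Rˣ where
  carrier := {g | (g : R) - 1 ∈ N ∧ (↑g⁻¹ : R) - 1 ∈ N}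
  one_mem' := by simp
  mul_mem' := by
    intro a b ha hb
    have e : ∀ x y : R, x * y - 1 = (x - 1) * (y - 1) + (x - 1) + (y - 1) := fun x y => by
      rw [sub_mul, mul_sub, one_mul, mul_one]; abel
    constructor
    · rw [Units.val_mul, e]
      exact add_mem (add_mem (hN (Submodule.mul_mem_mul ha.1 hb.1)) ha.1) hb.1
    · rw [mul_inv_rev, Units.val_mul, e]
      exact add_mem (add_mem (hN (Submodule.mul_mem_mul hb.2 ha.2)) hb.2) ha.2
  inv_mem' := by
    intro a ha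
    exact ⟨ha.2, by rw [inv_inv]; exact ha.1⟩

theorem unip_of_span_le {H K : Subgroup Rˣ} (h : span1 k H ≤ span1 k K) (hK : Unip k K) : Unip k H := by
  obtain ⟨n, h1, hn⟩ := hK
  exact ⟨n, h1, le_bot_iff.1 (hn ▸ pow_le_pow_left' h n)⟩

/-- product of a unipotent group with a unipotent group normalising it -/
theorem unip_sup {H A : Subgroup Rˣ} (hH : Unip k H) (hA : Unip k A) (hn : A ≤ Subgroup.normalizer (H : Set Rˣ)) :
    Unip k (H ⊔ A) := by
  obtain ⟨m, hm1, hm⟩ := hH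
  obtain ⟨b, hb1, hb⟩ := hA
  set I := span1 k H with hI
  set J := span1 k A with hJ
  have hII : I * I ≤ I := span1_mul_le H
  have hJJ : J * J ≤ J := span1_mul_le A
  have hJI : J * I ≤ I * J + I := by
    rw [hI, hJ, span1, span1, Submodule.span_mul_span, Submodule.span_le]
    rintro _ ⟨_, ⟨a, ha, rfl⟩, _, ⟨h, hh, rfl⟩, rfl⟩
    have hh' : a * h * a⁻¹ ∈ H := (Subgroup.mem_normalizer_iff.1 (hn ha) h).1 hh
    have e : ((a : R) - 1) * ((h : R) - 1) = ((↑(a * h * a⁻¹) : R) - 1) * ((a : R) - 1) +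
        (((↑(a * h * a⁻¹) : R) - 1) - ((h : R) - 1)) := by
      have e1 : (↑(a * h * a⁻¹) : R) * (a : R) = (a : R) * (h : R) := by
        rw [← Units.val_mul, ← Units.val_mul]; congr 1; group
      simp only [sub_mul, mul_sub, one_mul, mul_one]
      rw [e1]
      abel
    show ((a : R) - 1) * ((h : R) - 1) ∈ _
    rw [e]
    exact Submodule.mem_sup.2 ⟨_, Submodule.mul_mem_mul (Submodule.subset_span ⟨_, hh', rfl⟩)
      (Submodule.subset_span ⟨a, ha, rfl⟩), _,
      sub_mem (Submodule.subset_span ⟨_, hh', rfl⟩) (Submodule.subset_span ⟨h, hh, rfl⟩), rfl⟩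
  set K := I + I * J with hK
  -- the filtration
  let F : ℕ → Submodule k R := fun i => I ^ i + I ^ i * J
  have hJK : J * K ≤ K := by
    rw [hK, mul_add, ← mul_assoc]
    refine sup_le (hJI.trans (sup_le le_sup_right le_sup_left)) ?_
    calc J * I * J ≤ (I * J + I) * J := (mul_le_mul' hJI le_rfl)
      _ = I * (J * J) + I * J := by rw [add_mul, mul_assoc]
      _ ≤ K := sup_le (((mul_le_mul' le_rfl hJJ)).trans le_sup_right) le_sup_right
  have hFK : ∀ i, F i * K ≤ F (i + 1) := by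
    intro i
    show (I ^ i + I ^ i * J) * (I + I * J) ≤ I ^ (i + 1) + I ^ (i + 1) * J
    rw [add_mul, mul_add, mul_add, ← mul_assoc, ← pow_succ, ← mul_assoc]
    have h1 : I ^ i * J * I ≤ I ^ (i + 1) + I ^ (i + 1) * J := by
      rw [mul_assoc]
      calc I ^ i * (J * I) ≤ I ^ i * (I * J + I) := (mul_le_mul' le_rfl hJI)
        _ = I ^ (i + 1) * J + I ^ (i + 1) := by rw [mul_add, ← mul_assoc, ← pow_succ]
        _ ≤ _ := sup_le le_sup_right le_sup_left
    refine sup_le (sup_le le_sup_left le_sup_right) (sup_le h1 ?_)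
    calc I ^ i * J * I * J ≤ (I ^ (i + 1) + I ^ (i + 1) * J) * J := (mul_le_mul' h1 le_rfl)
      _ = I ^ (i + 1) * J + I ^ (i + 1) * (J * J) := by rw [add_mul, mul_assoc]
      _ ≤ _ := sup_le le_sup_right (((mul_le_mul' le_rfl hJJ)).trans le_sup_right)
  have hKpow : ∀ i, K ^ (i + 1) ≤ F (i + 1) := by
    intro i
    induction i with
    | zero => simp only [pow_one, zero_add, F, hK]; exact le_rfl
    | succ i ih => rw [pow_succ]; exact ((mul_le_mul' ih le_rfl)).trans (hFK _)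
  have hKm : K ^ m = ⊥ := by
    obtain ⟨j, rfl⟩ : ∃ j, m = j + 1 := ⟨m - 1, by omega⟩
    refine le_bot_iff.1 ((hKpow j).trans ?_)
    show I ^ (j + 1) + I ^ (j + 1) * J ≤ ⊥
    rw [hm, Submodule.bot_mul]
    exact sup_le le_rfl le_rfl
  have hJpK : ∀ r, J ^ r * K ≤ K := by
    intro r
    induction r with
    | zero => simp
    | succ r ih => rw [pow_succ, mul_assoc]; exact ((mul_le_mul' le_rfl hJK)).trans ih
  have hKK : K * K ≤ K := by
    have h1 : K * I ≤ K := by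
      rw [hK, add_mul]
      refine sup_le (hII.trans le_sup_left) ?_
      rw [mul_assoc]
      calc I * (J * I) ≤ I * (I * J + I) := (mul_le_mul' le_rfl hJI)
        _ = I * I * J + I * I := by rw [mul_add, ← mul_assoc]
        _ ≤ _ := sup_le (((mul_le_mul' hII le_rfl)).trans le_sup_right) (hII.trans le_sup_left)
    have h2 : K * J ≤ K := by
      rw [hK, add_mul, mul_assoc]
      exact sup_le le_sup_right (((mul_le_mul' le_rfl hJJ)).trans le_sup_right)
    conv_lhs => arg 2; rw [hK]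
    rw [mul_add, ← mul_assoc]
    exact sup_le h1 (((mul_le_mul' h1 le_rfl)).trans h2)
  have hKJ : K * J ≤ K := by
    rw [hK, add_mul, mul_assoc]
    exact sup_le le_sup_right (((mul_le_mul' le_rfl hJJ)).trans le_sup_right)
  have hS : span1 k (H ⊔ A) ≤ K + J := by
    refine span1_le fun g hg => ?_
    rw [← SetLike.mem_coe, Subgroup.coe_mul_of_right_le_normalizer_left H A hn] at hg
    obtain ⟨h, hh, a, ha, rfl⟩ := hg
    have e : ((↑(h * a) : R) - 1) = (((h : R) - 1) + ((h : R) - 1) * ((a : R) - 1)) + ((a : R) - 1) := by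
      rw [Units.val_mul, sub_mul, mul_sub, one_mul, mul_one]; abel
    rw [e]
    exact Submodule.mem_sup.2 ⟨_, Submodule.mem_sup.2 ⟨_, mem_span1 hh, _,
      Submodule.mul_mem_mul (mem_span1 hh) (mem_span1 ha), rfl⟩, _, mem_span1 ha, rfl⟩
  have hSr : ∀ r, span1 k (H ⊔ A) ^ (r + 1) ≤ K + J ^ (r + 1) := by
    intro r
    induction r with
    | zero => simpa using hS
    | succ r ih =>
      rw [pow_succ]
      refine (mul_le_mul' ih hS).trans ?_
      rw [add_mul, mul_add K K J, mul_add (J ^ (r + 1)) K J, ← pow_succ J (r + 1)]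
      exact sup_le (sup_le (hKK.trans le_sup_left) (hKJ.trans le_sup_left))
        (sup_le ((hJpK _).trans le_sup_left) le_sup_right)
  refine ⟨b * m, Nat.mul_pos hb1 hm1, ?_⟩
  obtain ⟨c, rfl⟩ : ∃ c, b = c + 1 := ⟨b - 1, by omega⟩
  have := hSr c
  rw [hb] at this
  rw [pow_mul]
  exact le_bot_iff.1 (hKm ▸ pow_le_pow_left' (this.trans (sup_le le_rfl bot_le)) m)

variable [FiniteDimensional k R] {G : Subgroup Rˣ} {W : Set (Subgroup Rˣ)}

variable (k) in
/-- unipotent subfamily which cannot be enlarged -/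
def IsMax (W P : Set (Subgroup Rˣ)) : Prop :=
  P ⊆ W ∧ Unip k (sSup P) ∧ ∀ B ∈ W, span1 k B ≤ span1 k (sSup P) → B ∈ P

omit [FiniteDimensional k R] in
theorem sSup_le_congr1 {P : Set (Subgroup Rˣ)} {N : Submodule k R} (hN : N * N ≤ N)
    (h : ∀ B ∈ P, span1 k B ≤ N) : span1 k (sSup P) ≤ N := by
  have h1 : sSup P ≤ congr1 N hN :=
    sSup_le fun B hB g hg => ⟨h B hB (mem_span1 hg), h B hB (mem_span1 (B.inv_mem hg))⟩
  exact span1_le fun g hg => (h1 hg).1

theorem exists_max {U : Set (Subgroup Rˣ)} (hUW : U ⊆ W) (hU : Unip k (sSup U)) :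
    ∃ P, IsMax k W P ∧ U ⊆ P ∧ ∀ P' ⊆ W, P ⊆ P' → Unip k (sSup P') → P' ⊆ P := by
  classical
  let q : ℕ → Prop := fun d => ∃ V ⊆ W, U ⊆ V ∧ Unip k (sSup V) ∧ Module.finrank k (span1 k (sSup V)) = d
  have hbd : ∀ d, q d → d ≤ Module.finrank k R := by
    rintro d ⟨V, -, -, -, rfl⟩
    exact Submodule.finrank_le _
  have hq : q (Nat.findGreatest q (Module.finrank k R)) :=
    Nat.findGreatest_spec (hbd _ ⟨U, hUW, le_rfl, hU, rfl⟩) ⟨U, hUW, le_rfl, hU, rfl⟩
  obtain ⟨V, hVW, hUV, hV, hd⟩ := hq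
  let P := {B ∈ W | span1 k B ≤ span1 k (sSup V)}
  have hVP : V ⊆ P := fun B hB => ⟨hVW hB, span1_mono (le_sSup hB)⟩
  have hle : span1 k (sSup P) ≤ span1 k (sSup V) := sSup_le_congr1 (span1_mul_le _) fun B hB => hB.2
  refine ⟨P, ⟨fun B hB => hB.1, unip_of_span_le hle hV, fun B hB h => ⟨hB, h.trans hle⟩⟩, hUV.trans hVP, ?_⟩
  intro P' hP'W hPP' hP' B hB
  refine ⟨hP'W hB, ?_⟩
  have h1 : span1 k (sSup V) ≤ span1 k (sSup P') := span1_mono (sSup_le_sSup (hVP.trans hPP'))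
  have h2 : Module.finrank k (span1 k (sSup P')) ≤ Module.finrank k (span1 k (sSup V)) := by
    rw [hd]
    exact Nat.le_findGreatest (Submodule.finrank_le _) ⟨P', hP'W, (hUV.trans hVP).trans hPP', hP', rfl⟩
  exact (span1_mono (le_sSup hB)).trans (Submodule.eq_of_le_of_finrank_le h1 h2).ge

theorem max_subset {P Q : Set (Subgroup Rˣ)} (hP : IsMax k W P) (hP' : ∀ P' ⊆ W, P ⊆ P' → Unip k (sSup P') → P' ⊆ P)
    (hQ : IsMax k W Q) (h : P ⊆ Q) : P = Q :=
  le_antisymm h (hP' Q hQ.1 h hQ.2.1)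

/-- a member outside `D` normalising `sSup D` -/
theorem exists_normalizing (hWG : ∀ A ∈ W, A ≤ G)
    (hconj : ∀ A ∈ W, ∀ g ∈ G, A.map (MulAut.conj g).toMonoidHom ∈ W)
    {P Q D : Set (Subgroup Rˣ)} (hP : IsMax k W P) (hQ : IsMax k W Q) (hD : D = P ∩ Q) (hne : ¬ P ⊆ D) :
    ∃ A ∈ P, A ∉ D ∧ A ≤ Subgroup.normalizer ((sSup D : Subgroup Rˣ) : Set Rˣ) := by
  classical
  set H := sSup D with hH
  set GP := sSup P with hGP
  set V := span1 k GP with hV
  have hHGP : H ≤ GP := sSup_le_sSup (hD ▸ Set.inter_subset_left)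
  have hmemD : ∀ B ∈ W, span1 k B ≤ span1 k H → B ∈ D := by
    intro B hB h
    rw [hD]
    exact ⟨hP.2.2 B hB (h.trans (span1_mono hHGP)),
      hQ.2.2 B hB (h.trans (span1_mono (sSup_le_sSup (hD ▸ Set.inter_subset_right))))⟩
  set N1 := Subgroup.normalizer ((H : Subgroup Rˣ) : Set Rˣ) ⊓ GP with hN1
  by_cases htop : GP ≤ N1
  · obtain ⟨A, hA, hAD⟩ := Set.not_subset.1 hne
    exact ⟨A, hA, hAD, (le_sSup hA).trans (htop.trans inf_le_left)⟩
  obtain ⟨n, hn1, hn⟩ := hP.2.1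
  have hVV : V * V ≤ V := span1_mul_le GP
  have hmono : ∀ i, V ^ (i + 2) ≤ V ^ (i + 1) := fun i => by
    rw [pow_succ V (i + 1), pow_succ V i, mul_assoc]
    exact (mul_le_mul' le_rfl hVV)
  -- largest layer not inside N1
  let q : ℕ → Prop := fun i => ∃ g ∈ GP, (g : R) - 1 ∈ V ^ (i + 1) ∧ (↑g⁻¹ : R) - 1 ∈ V ^ (i + 1) ∧ g ∉ N1
  have hq0 : q 0 := by
    obtain ⟨g, hg, hg'⟩ := SetLike.not_le_iff_exists.1 htop
    exact ⟨g, hg, by rw [zero_add, pow_one]; exact mem_span1 hg,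
      by rw [zero_add, pow_one]; exact mem_span1 (GP.inv_mem hg), hg'⟩
  have hqn : ¬ q (n - 1) := by
    rintro ⟨g, -, h1, -, hg⟩
    rw [Nat.sub_add_cancel hn1, hn, Submodule.mem_bot, sub_eq_zero] at h1
    exact hg (by rw [show g = 1 from Units.ext h1]; exact N1.one_mem)
  obtain ⟨i, hqi, hqi'⟩ : ∃ i, q i ∧ ¬ q (i + 1) := by
    by_contra h
    have hall : ∀ i, q i := fun i => by
      induction i with
      | zero => exact hq0
      | succ i ih => exact by_contra fun h' => h ⟨i, ih, h'⟩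
    exact hqn (hall _)
  obtain ⟨g, hg, hg1, hg2, hgN⟩ := hqi
  have hnorm : ∀ x ∈ GP, (x : R) - 1 ∈ V ^ (i + 1) → (↑x⁻¹ : R) - 1 ∈ V ^ (i + 1) →
      ∀ h ∈ N1, x * h * x⁻¹ ∈ N1 := by
    intro x hx hx1 hx2 h hh
    have hc : ∀ a b : Rˣ, a ∈ GP → b ∈ GP →
        ((a : R) - 1) * ((b : R) - 1) ∈ V ^ (i + 2) → ((b : R) - 1) * ((a : R) - 1) ∈ V ^ (i + 2) →
        (↑(a * b * a⁻¹ * b⁻¹) : R) - 1 ∈ V ^ (i + 2) := by
      intro a b ha hb hab hba
      have e : (↑(a * b * a⁻¹ * b⁻¹) : R) - 1 =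
          (((a : R) - 1) * ((b : R) - 1) - ((b : R) - 1) * ((a : R) - 1)) * (↑(a⁻¹ * b⁻¹) : R) := by
        have e1 : ((a : R) - 1) * ((b : R) - 1) - ((b : R) - 1) * ((a : R) - 1) = (a : R) * b - (b : R) * a := by
          simp only [sub_mul, mul_sub, one_mul, mul_one]; abel
        rw [e1, sub_mul, ← Units.val_mul, ← Units.val_mul, ← Units.val_mul, ← Units.val_mul]
        congr 1
        · congr 1; group
        · rw [show b * a * (a⁻¹ * b⁻¹) = 1 by group, Units.val_one]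
      rw [e]
      have h1 := mem_span1 (k := k) (GP.mul_mem (GP.inv_mem ha) (GP.inv_mem hb))
      set d := ((a : R) - 1) * ((b : R) - 1) - ((b : R) - 1) * ((a : R) - 1) with hd
      have h2 : d ∈ V ^ (i + 2) := sub_mem hab hba
      have h3 : d * ((↑(a⁻¹ * b⁻¹) : R) - 1) ∈ V ^ (i + 2) := hmono (i + 1) (by
        rw [pow_succ V (i + 2)]; exact Submodule.mul_mem_mul h2 h1)
      rw [mul_sub, mul_one] at h3
      simpa using add_mem h3 h2
    have hvi : ∀ u v : R, u ∈ V ^ (i + 1) → v ∈ V → u * v ∈ V ^ (i + 2) := fun u v hu hv => by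
      rw [pow_succ V (i + 1)]; exact Submodule.mul_mem_mul hu hv
    have hvi' : ∀ u v : R, u ∈ V ^ (i + 1) → v ∈ V → v * u ∈ V ^ (i + 2) := fun u v hu hv => by
      rw [pow_succ' V (i + 1)]; exact Submodule.mul_mem_mul hv hu
    have hhG : h ∈ GP := hh.2
    have h1 := hc x h hx hhG (hvi _ _ hx1 (mem_span1 hhG)) (hvi' _ _ hx1 (mem_span1 hhG))
    have h2 := hc h x hhG hx (hvi' _ _ hx1 (mem_span1 hhG)) (hvi _ _ hx1 (mem_span1 hhG))
    have hcm : x * h * x⁻¹ * h⁻¹ ∈ N1 := by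
      by_contra hno
      refine hqi' ⟨_, GP.mul_mem (GP.mul_mem (GP.mul_mem hx hhG) (GP.inv_mem hx)) (GP.inv_mem hhG), h1, ?_, hno⟩
      rw [show (x * h * x⁻¹ * h⁻¹)⁻¹ = h * x * h⁻¹ * x⁻¹ by group]
      exact h2
    simpa using N1.mul_mem hcm hh
  by_contra hcon
  -- conjugates of members of D by g stay in D
  have hgD : ∀ B ∈ D, B.map (MulAut.conj g).toMonoidHom ∈ D := by
    intro B hB
    have hBP : B ∈ P := (hD ▸ hB : B ∈ P ∩ Q).1
    have hgG : g ∈ G := (sSup_le fun A hA => hWG A (hP.1 hA) : GP ≤ G) hg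
    have hB' : B.map (MulAut.conj g).toMonoidHom ∈ W := hconj B (hP.1 hBP) g hgG
    have hle : B.map (MulAut.conj g).toMonoidHom ≤ N1 := by
      rintro _ ⟨b, hb, rfl⟩
      exact hnorm g hg hg1 hg2 b ⟨Subgroup.le_normalizer (le_sSup hB hb), le_sSup hBP hb⟩
    have hB'P := hP.2.2 _ hB' (span1_mono (hle.trans inf_le_right))
    by_contra hno
    exact hcon ⟨_, hB'P, hno, hle.trans inf_le_left⟩
  let c : R →ₗ[k] R := LinearMap.mulLeftRight k ((g : R), (↑g⁻¹ : R))
  have hcinj : Function.Injective c := by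
    intro u v h
    simp only [c, LinearMap.mulLeftRight_apply] at h
    simpa using h
  have hHconj : H.map (MulAut.conj g).toMonoidHom ≤ H := by
    rw [Subgroup.map_le_iff_le_comap]
    refine sSup_le fun B hB => ?_
    rw [← Subgroup.map_le_iff_le_comap]
    exact le_sSup (hgD B hB)
  have hcle : (span1 k H).map c ≤ span1 k H := by
    rw [span1, Submodule.map_span, Submodule.span_le]
    rintro _ ⟨_, ⟨h, hh, rfl⟩, rfl⟩
    have h4 := mem_span1 (k := k) (hHconj ⟨h, hh, rfl⟩)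
    simp only [c, LinearMap.mulLeftRight_apply, mul_sub, mul_one, sub_mul, Units.mul_inv]
    simpa [span1] using h4
  have hceq : (span1 k H).map c = span1 k H := Submodule.eq_of_le_of_finrank_le hcle
    (by rw [(Submodule.equivMapOfInjective c hcinj (span1 k H)).finrank_eq])
  apply hgN
  refine ⟨Subgroup.mem_normalizer_iff.2 fun x => ⟨fun hx => hHconj ⟨x, hx, rfl⟩, fun hx => ?_⟩, hg⟩
  have hinv : H.map (MulAut.conj g⁻¹).toMonoidHom ≤ H := by
    rw [Subgroup.map_le_iff_le_comap]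
    refine sSup_le fun B hB => ?_
    rw [← Subgroup.map_le_iff_le_comap]
    have hBW : B ∈ W := hP.1 (hD ▸ hB : B ∈ P ∩ Q).1
    have hgG : g⁻¹ ∈ G := G.inv_mem ((sSup_le fun A hA => hWG A (hP.1 hA) : GP ≤ G) hg)
    refine le_sSup (hmemD _ (hconj B hBW _ hgG) ?_)
    refine span1_le ?_
    rintro _ ⟨b, hb, rfl⟩
    have h5 : ((b : R) - 1) ∈ (span1 k H).map c := by
      rw [hceq]; exact mem_span1 (le_sSup hB hb)
    obtain ⟨u, hu, hu'⟩ := h5
    have he : (↑((MulAut.conj g⁻¹).toMonoidHom b) : R) - 1 = u := hcinj (by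
      rw [hu']
      simp [c, LinearMap.mulLeftRight_apply, mul_sub, sub_mul, mul_assoc])
    rw [he]; exact hu
  have := hinv ⟨_, hx, rfl⟩
  simpa [mul_assoc] using this

theorem unip_sSup (hWG : ∀ A ∈ W, A ≤ G)
    (hconj : ∀ A ∈ W, ∀ g ∈ G, A.map (MulAut.conj g).toMonoidHom ∈ W)
    (hpair : ∀ A ∈ W, ∀ B ∈ W, Unip k (A ⊔ B)) : Unip k (sSup W) := by
  classical
  obtain ⟨P0, hP0, -, hP0'⟩ := exists_max (k := k) (Set.empty_subset W) ⟨1, le_rfl, by
    rw [sSup_empty, pow_one, eq_bot_iff]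
    exact span1_le fun g hg => by rw [Subgroup.mem_bot.1 hg]; simp⟩
  by_cases hall : W ⊆ P0
  · rw [le_antisymm hall hP0.1]; exact hP0.2.1
  exfalso
  obtain ⟨B0, hB0, hB0P⟩ := Set.not_subset.1 hall
  have hsingle : Unip k (sSup ({B0} : Set (Subgroup Rˣ))) := by
    rw [sSup_singleton]; simpa using hpair B0 hB0 B0 hB0
  obtain ⟨Q0, hQ0, hQ0B, hQ0'⟩ := exists_max (k := k) (Set.singleton_subset_iff.2 hB0) hsingle
  let q : ℕ → Prop := fun d => ∃ P Q, IsMax k W P ∧ IsMax k W Q ∧ P ≠ Q ∧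
    (∀ P' ⊆ W, P ⊆ P' → Unip k (sSup P') → P' ⊆ P) ∧ (∀ P' ⊆ W, Q ⊆ P' → Unip k (sSup P') → P' ⊆ Q) ∧
    Module.finrank k (span1 k (sSup (P ∩ Q))) = d
  have hne0 : P0 ≠ Q0 := fun h => hB0P (h ▸ hQ0B rfl)
  have hq : q (Nat.findGreatest q (Module.finrank k R)) :=
    Nat.findGreatest_spec (Submodule.finrank_le _) ⟨P0, Q0, hP0, hQ0, hne0, hP0', hQ0', rfl⟩
  obtain ⟨P, Q, hP, hQ, hne, hP', hQ', hd⟩ := hq
  set D := P ∩ Q with hD
  have hPD : ¬ P ⊆ D := fun h => hne (max_subset hP hP' hQ (h.trans Set.inter_subset_right))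
  have hQD : ¬ Q ⊆ D := fun h => hne (max_subset hQ hQ' hP (h.trans Set.inter_subset_left)).symm
  obtain ⟨A, hA, hAD, hAn⟩ := exists_normalizing hWG hconj hP hQ rfl hPD
  obtain ⟨B, hB, hBD, hBn⟩ := exists_normalizing hWG hconj hQ hP (Set.inter_comm P Q) hQD
  have hHu : Unip k (sSup D) := unip_of_span_le (span1_mono (sSup_le_sSup Set.inter_subset_left)) hP.2.1
  have hU : Unip k (sSup (insert A (insert B D))) := by
    rw [sSup_insert, sSup_insert, ← sup_assoc, sup_comm]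
    exact unip_sup hHu (hpair A (hP.1 hA) B (hQ.1 hB)) (sup_le hAn hBn)
  have hsub : insert A (insert B D) ⊆ W := by
    rintro x (rfl | rfl | hx)
    · exact hP.1 hA
    · exact hQ.1 hB
    · exact hP.1 hx.1
  obtain ⟨S, hS, hSsub, hS'⟩ := exists_max (k := k) hsub hU
  have key : ∀ P₁ Q₁, IsMax k W P₁ → IsMax k W Q₁ → (∀ P' ⊆ W, P₁ ⊆ P' → Unip k (sSup P') → P' ⊆ P₁) →
      P₁ ∩ Q₁ = D → ∀ x ∈ P₁, x ∉ D → x ∈ S → S = P₁ := by
    intro P₁ Q₁ h1 h2 h1' hD' x hx hxD hxS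
    by_contra hSP
    have hDsub : D ⊆ S ∩ P₁ := fun y hy => ⟨hSsub (Or.inr (Or.inr hy)), (hD'.symm ▸ hy : y ∈ P₁ ∩ Q₁).1⟩
    have h3 : span1 k (sSup D) ≤ span1 k (sSup (S ∩ P₁)) := span1_mono (sSup_le_sSup hDsub)
    have h4 : Module.finrank k (span1 k (sSup (S ∩ P₁))) ≤ Module.finrank k (span1 k (sSup D)) := by
      rw [hd]
      exact Nat.le_findGreatest (Submodule.finrank_le _) ⟨S, P₁, hS, h1, hSP, hS', h1', rfl⟩
    have h5 := Submodule.eq_of_le_of_finrank_le h3 h4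
    apply hxD
    rw [← hD']
    refine ⟨hx, h2.2.2 x (h1.1 hx) ?_⟩
    calc span1 k x ≤ span1 k (sSup (S ∩ P₁)) := span1_mono (le_sSup ⟨hxS, hx⟩)
      _ = span1 k (sSup D) := h5.symm
      _ ≤ span1 k (sSup Q₁) := span1_mono (sSup_le_sSup (hD' ▸ Set.inter_subset_right))
  have hSP := key P Q hP hQ hP' rfl A hA hAD (hSsub (Or.inl rfl))
  have hSQ := key Q P hQ hP hQ' (Set.inter_comm Q P) B hB hBD (hSsub (Or.inr (Or.inl rfl)))
  exact hne (hSP.symm.trans hSQ)

end Cfsg.Agent.UnipGen
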